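import Mathlib
import Cfsg.Agent.GT.CoprimeGen
import Cfsg.Agent.GT.FourGroup
import Cfsg.Agent.GT.TransferFrobenius
import Cfsg.Agent.Loc.MssSyl
import Cfsg.Agent.Perm.RankOneInv
import Cfsg.Agent.S0215
import Cfsg.Agent.S1225

/-! Abstract group theory for the maximality of the normaliser of `3^(1+4)`. -/

set_option autoImplicit false

namespace Cfsg.Agent.Cl.C9

open Subgroup Cfsg.Agent.GT Cfsg.Agent.Loc.Mss Cfsg.Agent.Perm.RankOne
open scoped commutatorElement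

namespace Abs

variable {G : Type*} [Group G] [Finite G]

omit [Finite G] in
theorem comm_of_norm {t g : G} (h : orderOf t = 3) (hg : g * t * g⁻¹ ∈ zpowers t)
    (hn : g * t * g⁻¹ ≠ t⁻¹) : g * t = t * g := by
  have h3 : t ^ 3 = 1 := h ▸ pow_orderOf_eq_one t
  obtain ⟨k, hk⟩ := hg
  have h1 : t ^ k = t ^ (k % 3) := by rw [← zpow_mod_orderOf, h]; rfl
  dsimp only at hk
  rcases (by omega : k % 3 = 0 ∨ k % 3 = 1 ∨ k % 3 = 2) with e | e | e <;> rw [h1, e] at hk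
  · rw [zpow_zero, eq_comm, conj_eq_one_iff] at hk
    simp [hk] at h
  · exact mul_inv_eq_iff_eq_mul.1 (hk.symm.trans (zpow_one t))
  · exact absurd (hk.symm.trans (eq_inv_of_mul_eq_one_left (by rw [← h3]; group))) hn

theorem burnside {K : Subgroup G} {x : G} (h3 : orderOf x = 3) (hS : Syl 3 (zpowers x) K)
    (hN : ∀ g ∈ K, g * x * g⁻¹ ≠ x⁻¹) : ¬ 3 ∣ Nat.card (pResidualOf 3 K) := by
  obtain ⟨P, hP, -⟩ := hS.exists_sylow
  have h1 := Tr.hasNormalPComplement_of_normalizer_le_centralizer P (by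
    intro g hg
    rw [hP] at hg ⊢
    have h4 : Commute (g : G) x := comm_of_norm h3
      (conj_mem_of_norm hg (a := ⟨x, hS.le (mem_zpowers x)⟩) (mem_zpowers x)) (hN g g.2)
    refine mem_centralizer_iff.2 fun y hy => Subtype.ext ?_
    obtain ⟨k, hk⟩ : (y : G) ∈ zpowers x := hy
    change (y : G) * g = g * y
    rw [← hk]
    exact (h4.zpow_right k).symm.eq)
  rw [Tr.hasNormalPComplement_iff_not_dvd_card_pResidual] at h1
  rwa [pResidualOf, card_map_of_injective (subtype_injective K)]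

omit [Finite G] in
theorem ord_conj (g a : G) : orderOf (g * a * g⁻¹) = orderOf a :=
  (MulAut.conj g).orderOf_eq a

theorem lemD {D : Subgroup G} {a b : G} (ha : orderOf a = 2) (hb : orderOf b = 2) (aD : a ∈ D)
    (hn : ¬ IsConj a b) (h : ∀ c ∈ D, orderOf c = 2 → ∀ g, g * c * g⁻¹ ∈ D → g ∈ D) : D = ⊤ := by
  by_contra hD
  obtain ⟨g, hg⟩ : ∃ g, g ∉ D := by
    by_contra hc
    push Not at hc
    exact hD ((eq_top_iff' D).2 hc)
  obtain ⟨a1, a2⟩ := mul_self_of_orderOf_eq_two ha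
  refine hn ((S1225.result D ⟨hD, even_card_of_involution aD a1 a2, fun k hk =>
    odd_card_of_no_involution ?_⟩ _ ((ord_conj g a).trans ha) (fun e => hg (h a aD ha g e))
    a a ha aD ha aD).2 a b ha hb)
  rintro _ ⟨h1, c, hc, rfl⟩ h2
  by_contra h3
  exact hk (h c hc ((ord_conj k c).symm.trans (orderOf_eq_two h3 h2)) k h1)

theorem lemZ {D : Subgroup G} {f a b : G} (hf : orderOf f = 2) (fD : f ∈ D)
    (hc : ∀ k ∈ D, k * f * k⁻¹ = f) (h : ∀ g, g * f * g⁻¹ ∈ D → g ∈ D) (ha : orderOf a = 2)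
    (hb : orderOf b = 2) (hab : a ≠ b) (e : Commute a b) (h1 : centralizer {a} ≤ D)
    (h2 : centralizer {b} ≤ D) (h3 : centralizer {a * b} ≤ D) : D = ⊤ := by
  obtain ⟨P, hP⟩ := (IsPGroup.of_card (p := 2) (n := 1) (G := zpowers f)
    (by rw [Nat.card_zpowers, hf, pow_one])).exists_le_sylow
  have fP : f ∈ (P : Subgroup G) := hP (mem_zpowers f)
  have hPD : (P : Subgroup G) ≤ D := by
    by_contra hn
    have := P.2.isNilpotent
    obtain ⟨x, hx, x1, x2⟩ := PG.exists_mem_normalizer_notMem (N := (P : Subgroup G) ⊓ D) (M := P)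
      (inf_lt_left.2 hn)
    exact x1 ⟨hx, h x (conj_mem_of_norm x2 ⟨fP, fD⟩).2⟩
  obtain ⟨O, hO, o1, o2⟩ := S0215.result P f hf fP fun g hg => hc g (h g (hPD hg))
  have hOD : O ≤ D := le_of_four_group ha hb hab e (norm_normal ⊤ O (mem_top a))
    (norm_normal ⊤ O (mem_top b)) (by rwa [← even_iff_two_dvd, Nat.not_even_iff_odd])
    (inf_le_right.trans h1) (inf_le_right.trans h2) (inf_le_right.trans h3)
  refine (eq_top_iff' D).2 fun g => h g ?_
  simpa [mul_assoc] using inv_mem (mul_mem (inv_mem fD) (hOD (o2 g)))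

section Quot

variable {L W N : Subgroup G} [(W.subgroupOf L).Normal]

omit [Finite G] in
theorem mem_img (hW : W ≤ N) {x : L} : QuotientGroup.mk' (W.subgroupOf L) x ∈
    (N.subgroupOf L).map (QuotientGroup.mk' (W.subgroupOf L)) ↔ (x : G) ∈ N := by
  rw [← mem_comap, comap_map_eq, QuotientGroup.ker_mk',
    sup_of_le_left (subgroupOf_mono L hW)]; rfl

omit [Finite G] in
theorem ord_img {x : L} : orderOf (QuotientGroup.mk' (W.subgroupOf L) x) = 2 ↔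
    (x : G) ∉ W ∧ (x : G) * x ∈ W := by
  have e : ∀ y : L, QuotientGroup.mk' (W.subgroupOf L) y = 1 ↔ (y : G) ∈ W := fun y =>
    QuotientGroup.eq_one_iff y
  refine ⟨fun h => ?_, fun h => orderOf_eq_two (mt (e x).1 h.1) (by rw [← map_mul, e]; exact h.2)⟩
  obtain ⟨h1, h2⟩ := mul_self_of_orderOf_eq_two h
  exact ⟨mt (e x).2 h1, (e (x * x)).1 h2⟩

omit [Finite G] in
theorem le_of_img (hW : W ≤ N)
    (h : (N.subgroupOf L).map (QuotientGroup.mk' (W.subgroupOf L)) = ⊤) : L ≤ N :=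
  fun x hx => (mem_img hW (x := ⟨x, hx⟩)).1 (h ▸ mem_top _)

omit [Finite G] in
theorem img_conj (hW : W ≤ N) {c : L} (h : ∀ g ∈ L, g * c * g⁻¹ ∈ N → g ∈ N)
    (g : L ⧸ W.subgroupOf L) (hg : g * QuotientGroup.mk' (W.subgroupOf L) c * g⁻¹ ∈
      (N.subgroupOf L).map (QuotientGroup.mk' (W.subgroupOf L))) :
    g ∈ (N.subgroupOf L).map (QuotientGroup.mk' (W.subgroupOf L)) := by
  obtain ⟨g, rfl⟩ := QuotientGroup.mk'_surjective _ g
  rw [← map_inv, ← map_mul, ← map_mul, mem_img hW] at hg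
  exact (mem_img hW).2 (h g g.2 hg)

omit [Finite G] in
theorem img_cent (hW : W ≤ N) {c : L} (hc : (c : G) ∈ N) (h : ∀ g ∈ L, g * c * g⁻¹ ∈ N → g ∈ N) :
    centralizer {QuotientGroup.mk' (W.subgroupOf L) c} ≤
      (N.subgroupOf L).map (QuotientGroup.mk' (W.subgroupOf L)) := fun g hg =>
  img_conj hW h g (by
    rw [mem_centralizer_singleton_iff.1 hg, mul_inv_cancel_right]; exact (mem_img hW).2 hc)

end Quot

theorem modD {L W N : Subgroup G} (hL : L ≤ 𝐍[W]) (hW : W ≤ N) {a b : G} (aL : a ∈ L) (bL : b ∈ L)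
    (aN : a ∈ N) (ha : a ∉ W ∧ a * a ∈ W) (hb : b ∉ W ∧ b * b ∈ W)
    (hn : ∀ g ∈ L, (g * a * g⁻¹)⁻¹ * b ∉ W)
    (h : ∀ c ∈ L, c ∈ N → c ∉ W → c * c ∈ W → ∀ g ∈ L, g * c * g⁻¹ ∈ N → g ∈ N) : L ≤ N := by
  have := normal_subgroupOf_of_le_normalizer hL
  refine le_of_img hW (lemD (ord_img (x := ⟨a, aL⟩).2 ha) (ord_img (x := ⟨b, bL⟩).2 hb)
    ((mem_img hW).2 aN) (fun e => ?_) fun c hc c1 => ?_)
  · obtain ⟨g, hg⟩ := isConj_iff.1 e
    obtain ⟨g, rfl⟩ := QuotientGroup.mk'_surjective _ g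
    rw [← map_inv, ← map_mul, ← map_mul] at hg
    exact hn g g.2 (QuotientGroup.eq (s := W.subgroupOf L) |>.1 hg)
  · obtain ⟨c, rfl⟩ := QuotientGroup.mk'_surjective _ c
    exact img_conj hW (h c c.2 ((mem_img hW).1 hc) (ord_img.1 c1).1 (ord_img.1 c1).2)

theorem modZ {L W N : Subgroup G} (hL : L ≤ 𝐍[W]) (hW : W ≤ N) {f a b : G}
    (h : ∀ c, c = f ∨ c = a ∨ c = b ∨ c = a * b → c ∈ L ∧ c ∈ N ∧ (c ∉ W ∧ c * c ∈ W) ∧
      ∀ g ∈ L, g * c * g⁻¹ ∈ N → g ∈ N)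
    (hc : ∀ k ∈ L, k ∈ N → f⁻¹ * (k * f * k⁻¹) ∈ W) : L ≤ N := by
  have := normal_subgroupOf_of_le_normalizer hL
  obtain ⟨f1, f2, f3, f4⟩ := h f (by simp)
  obtain ⟨a1, a2, a3, a4⟩ := h a (by simp)
  obtain ⟨b1, b2, b3, b4⟩ := h b (by simp)
  obtain ⟨c1, c2, c3, c4⟩ := h (a * b) (by simp)
  have ha := (ord_img (x := ⟨a, a1⟩)).2 a3
  have hb := (ord_img (x := ⟨b, b1⟩)).2 b3
  have hab := mul_self_of_orderOf_eq_two ((ord_img (x := ⟨a, a1⟩ * ⟨b, b1⟩)).2 c3)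
  rw [map_mul] at hab
  refine le_of_img hW (lemZ (ord_img (x := ⟨f, f1⟩).2 f3) ((mem_img hW).2 f2) (fun k hk => ?_)
    (img_conj hW f4) ha hb (fun e => hab.1 (e ▸ (mul_self_of_orderOf_eq_two ha).2)) ?_
    (img_cent hW a2 a4) (img_cent hW b2 b4) (by
      rw [← map_mul]; exact img_cent hW (c := ⟨a, a1⟩ * ⟨b, b1⟩) c2 c4))
  · obtain ⟨k, rfl⟩ := QuotientGroup.mk'_surjective _ k
    rw [← map_inv, ← map_mul, ← map_mul]
    exact (QuotientGroup.eq (s := W.subgroupOf L) (a := ⟨f, f1⟩) |>.2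
      (hc k k.2 ((mem_img hW).1 hk))).symm
  · rw [Commute, SemiconjBy, eq_inv_of_mul_eq_one_left hab.2, mul_inv_rev,
      inv_eq_of_mul_eq_one_right (mul_self_of_orderOf_eq_two ha).2,
      inv_eq_of_mul_eq_one_right (mul_self_of_orderOf_eq_two hb).2]

end Abs

open Abs

theorem le_of_cent {Γ : Type*} [Group Γ] [Finite Γ] {A K H : Subgroup Γ} {t : Γ}
    (hA : IsMulCommutative A) (hnc : ¬ IsCyclic A) (h3 : ∀ a ∈ A, a ^ 3 = 1)
    (hAK : A ≤ normalizer (K : Set Γ)) (hC : ∀ a ∈ A, a ≠ 1 → K ⊓ centralizer {a} ≤ H)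
    (ht : orderOf t = 3) (htK : t ∈ K) (htH : t ∈ H) (htA : ∀ a ∈ A, a * t = t * a)
    (h4 : ∀ g ∈ K, g ∈ H → g * t = t * g → g ^ 4 ∈ zpowers t)
    (hinv : ∀ g ∈ K, g * t * g⁻¹ ≠ t⁻¹) : K ≤ H := by
  have : Fact (Nat.Prime 3) := ⟨Nat.prime_three⟩
  have pA : IsPGroup 3 A := pg_iff.2 fun a ha => ⟨1, by simpa using h3 a ha⟩
  have cT : Nat.card (zpowers t) = 3 := by rw [Nat.card_zpowers, ht]
  have pT : IsPGroup 3 (zpowers t) := IsPGroup.of_card (n := 1) cT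
  have hAT : A ≤ 𝐂[zpowers t] := cent_comm (zpowers_le.2 htA)
  obtain ⟨P, hP, hS⟩ := Syl.exists_ge (pg_sup pA pT (norm_of_cent hAT))
    (sup_le_sup_left (zpowers_le.2 htK) A)
  have hQ := hS.inf le_sup_right (hS.le.trans (sup_le hAK le_normalizer))
  have hT : zpowers t ≤ P ⊓ K := le_inf (le_sup_right.trans hP) (zpowers_le.2 htK)
  have e : zpowers t = P ⊓ K := by
    by_contra hne
    obtain ⟨R, r1, r2, r3, -, r5, r6⟩ := PG.exists_invariant_card_eq_mul hQ.pg pA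
      (norm_inf (norm_of_le (le_sup_left.trans hP)) hAK) (norm_of_cent hAT) (lt_of_le_of_ne hT hne)
    obtain ⟨g, hg, g1⟩ : ∃ g ∈ R, g ∉ zpowers t := SetLike.not_le_iff_exists.1 fun h => by
      have := card_le_of_le h
      omega
    have g2 := comm_of_norm ht (conj_mem_of_norm (r5 hg) (mem_zpowers t)) (hinv g (r2 hg).2)
    have g3 : ∀ a ∈ A, ⁅g, a⁆ ∈ zpowers t := fun a ha => r6 (commutator_mem_commutator hg ha)
    let f : A →* zpowers t := MonoidHom.mk' (fun a => ⟨⁅g, a⁆, g3 a a.2⟩) fun a b => Subtype.ext (by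
      change ⁅g, a.1 * b⁆ = ⁅g, a.1⁆ * ⁅g, b.1⁆
      calc _ = ⁅g, a.1⁆ * (a * ⁅g, b.1⁆) * (a : Γ)⁻¹ := by simp only [commutatorElement_def]; group
        _ = _ := by rw [← mem_cent.1 (hAT a.2) _ (g3 b b.2)]; group)
    have : IsCyclic (zpowers t) := inferInstance
    obtain ⟨a, a1, a2⟩ : ∃ a : A, f a = 1 ∧ a ≠ 1 := by
      by_contra hc
      push Not at hc
      exact hnc (isCyclic_of_injective f ((injective_iff_map_eq_one f).2 hc))
    have g4 := h4 g (r2 hg).2 (hC a a.2 (fun e => a2 (Subtype.ext e)) ⟨(r2 hg).2,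
      mem_centralizer_singleton_iff.2 (commutatorElement_eq_one_iff_mul_comm.1
        (congrArg Subtype.val a1))⟩) g2
    obtain ⟨k, hk⟩ := pg_iff.1 hQ.pg g (r2 hg)
    obtain ⟨j, hj⟩ := exists_pow_eq_self_of_coprime (x := g) (n := 4)
      (Nat.Coprime.coprime_dvd_right (orderOf_dvd_of_pow_eq_one hk)
        (Nat.Coprime.pow_right k (by norm_num)))
    exact g1 (hj ▸ pow_mem g4 j)
  rw [← e] at hQ
  obtain ⟨k, hk⟩ := pA.exists_card_eq
  rw [← hQ.res_sup]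
  exact sup_le (CopAct.le_of_centralizer_elt_le hA hnc (norm_res hAK)
    (hk ▸ ((Nat.Prime.coprime_iff_not_dvd Nat.prime_three).2 (burnside ht hQ hinv)).pow_left k)
    fun a ha a1 => (inf_le_inf_right _ (map_subtype_le _)).trans (hC a ha a1)) (zpowers_le.2 htH)

theorem eq_top_of_invol {M : Type*} [Group M] [Finite M] {N : Subgroup M} {s z u φ s₁ s₂ s₃ : M}
    (hs : orderOf s = 2) (hz : orderOf z = 2) (hsN : s ∈ N) (hsz : s * z = z * s)
    (hnc : ¬ IsConj s z) (hC : ∀ g, g * s = s * g → g ∈ N)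
    (hb : ∀ a ∈ N, orderOf a = 2 → ∃ n ∈ N, n * s * n⁻¹ = a ∨ n * z * n⁻¹ = a)
    (hzz : ∀ n ∈ N, n * z * n⁻¹ * z = z * (n * z * n⁻¹) → n * z * n⁻¹ = z)
    (huN : u ∈ N) (hu : u * u = z) (hc : ∀ c ∈ N, c * c = z → ∃ n ∈ N, n * u * n⁻¹ = c)
    (hφ : ∃ n ∈ N, n * s * n⁻¹ = φ) (hφu : φ * u * φ⁻¹ = u⁻¹)
    (he : ∀ ψ ∈ N, ψ * ψ = 1 → ψ * u * ψ⁻¹ = u⁻¹ → φ⁻¹ * ψ ∈ zpowers u)
    (h₁ : ∃ n ∈ N, n * s * n⁻¹ = s₁) (h₂ : ∃ n ∈ N, n * s * n⁻¹ = s₂)
    (h₃ : ∃ n ∈ N, n * s * n⁻¹ = s₃) (c₁ : s₁ * u = u * s₁) (c₂ : s₂ * u = u * s₂)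
    (h12 : s₁ * s₂ = u * s₃) : N = ⊤ := by
  obtain ⟨s1, s2⟩ := mul_self_of_orderOf_eq_two hs
  obtain ⟨z1, z2⟩ := mul_self_of_orderOf_eq_two hz
  have zN : z ∈ N := hu ▸ mul_mem huN huN
  have key : ∀ {x : M}, centralizer {x} ≤ N → ∀ {g n n' : M}, n ∈ N → n' ∈ N →
      n' * x * n'⁻¹ = g * (n * x * n⁻¹) * g⁻¹ → g ∈ N := fun {x} hx {g n n'} hn hn' e => by
    have : n'⁻¹ * g * n ∈ N := hx (mem_centralizer_singleton_iff.2 (by
      calc _ = n'⁻¹ * (g * (n * x * n⁻¹) * g⁻¹) * g * n := by group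
        _ = _ := by rw [← e]; group))
    exact (mul_mem_cancel_left (inv_mem hn')).1 ((mul_mem_cancel_right hn).1 this)
  have cj : ∀ {x y g n n' : M}, n' * y * n'⁻¹ = g * (n * x * n⁻¹) * g⁻¹ → IsConj x y :=
    fun {x y g n n'} e => isConj_iff.2 ⟨n'⁻¹ * g * n, by
      calc _ = n'⁻¹ * (g * (n * x * n⁻¹) * g⁻¹) * n' := by group
        _ = _ := by rw [← e]; group⟩
  have U : ∀ {c : M}, (∃ n ∈ N, n * s * n⁻¹ = c) → ∀ g, g * c * g⁻¹ ∈ N → g ∈ N := by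
    rintro _ ⟨n, hn, rfl⟩ g hg
    obtain ⟨n', hn', e | e⟩ := hb _ hg (by rw [ord_conj, ord_conj, hs])
    · exact key (fun g hg => hC g (mem_centralizer_singleton_iff.1 hg)) hn hn' e
    · exact absurd (cj e) hnc
  have u4 : u ^ 4 = 1 := by rw [← z2, ← hu, ← pow_two, ← pow_two, ← pow_mul]
  have mu : ∀ x ∈ zpowers u, x = 1 ∨ x = u ∨ x = z ∨ x = u⁻¹ := by
    rintro _ ⟨k, rfl⟩
    have h1 : u ^ k = u ^ (k % 4) := by
      nth_rw 1 [← Int.emod_add_mul_ediv k 4]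
      rw [zpow_add, zpow_mul, show u ^ (4 : ℤ) = 1 from mod_cast u4, one_zpow, mul_one]
    dsimp only
    rcases (by omega : k % 4 = 0 ∨ k % 4 = 1 ∨ k % 4 = 2 ∨ k % 4 = 3) with e | e | e | e <;>
      rw [h1, e]
    · simp
    · simp
    · exact .inr (.inr (.inl (by rw [← hu, zpow_two])))
    · exact .inr (.inr (.inr (eq_inv_of_mul_eq_one_left (by rw [← u4]; group))))
  have ui : u⁻¹ * u⁻¹ = z := by rw [← mul_inv_rev, hu, inv_eq_of_mul_eq_one_right z2]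
  have V : ∀ {c : M}, (∃ n ∈ N, n * s * n⁻¹ = c) → c ∈ N ∧ c * c = 1 ∧ c ∉ zpowers u := by
    rintro _ ⟨n, hn, rfl⟩
    have h1 : n * s * n⁻¹ * (n * s * n⁻¹) = 1 := by rw [conj_mul, s2]; simp
    refine ⟨conj_mem_of_norm (le_normalizer hn) hsN, h1, fun h => ?_⟩
    rcases mu _ h with e | e | e | e
    · exact s1 (conj_eq_one_iff.1 e)
    · exact z1 (by rw [← hu, ← e, h1])
    · exact hnc (isConj_iff.2 ⟨n, e⟩)
    · exact z1 (by rw [← ui, ← e, h1])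
  have cn : ∀ {c : M}, c * u * c⁻¹ ∈ zpowers u → c ∈ 𝐍[zpowers u] := fun {c} h =>
    mem_norm_of_cj_le (by rw [MonoidHom.map_zpowers]; exact zpowers_le.2 h)
  have cn' : ∀ {c : M}, c * u = u * c → c ∈ 𝐍[zpowers u] := fun {c} h =>
    cn (by rw [h, mul_inv_cancel_right]; exact mem_zpowers u)
  have uN := zpowers_le.2 huN
  have III : centralizer {u} ≤ N := by
    refine le_trans (fun g hg => cn' (mem_centralizer_singleton_iff.1 hg))
      (modZ le_rfl uN (f := φ) (a := s₁) (b := s₂) ?_ fun k hk kN => ?_)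
    · rintro _ (rfl | rfl | rfl | rfl)
      · exact ⟨cn (hφu ▸ inv_mem (mem_zpowers u)), (V hφ).1, ⟨(V hφ).2.2, (V hφ).2.1 ▸ one_mem _⟩,
          fun g _ => U hφ g⟩
      · exact ⟨cn' c₁, (V h₁).1, ⟨(V h₁).2.2, (V h₁).2.1 ▸ one_mem _⟩, fun g _ => U h₁ g⟩
      · exact ⟨cn' c₂, (V h₂).1, ⟨(V h₂).2.2, (V h₂).2.1 ▸ one_mem _⟩, fun g _ => U h₂ g⟩
      have c₃ : Commute (s₁ * s₂) u := Commute.mul_left c₁ c₂
      refine ⟨cn' c₃, mul_mem (V h₁).1 (V h₂).1, ⟨fun h => (V h₃).2.2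
        ((mul_mem_cancel_left (mem_zpowers u)).1 (h12 ▸ h)), ?_⟩, fun g hg h => U h₃ g ?_⟩
      · nth_rw 2 [h12]
        rw [← mul_assoc, c₃.eq, h12, mul_assoc, mul_assoc, (V h₃).2.1, mul_one]
        exact mul_mem (mem_zpowers u) (mem_zpowers u)
      · rw [h12, ← conj_mul] at h
        exact (mul_mem_cancel_left (uN (conj_mem_of_norm hg (mem_zpowers u)))).1 h
    refine he _ (conj_mem_of_norm (le_normalizer kN) (V hφ).1) (by rw [conj_mul, (V hφ).2.1]; simp) ?_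
    have h1 : ∀ x ∈ zpowers u, φ * x * φ⁻¹ = x⁻¹ := by
      rintro _ ⟨j, rfl⟩
      exact conj_zpow_of_inverts hφu j
    calc _ = k * (φ * (k⁻¹ * u * k) * φ⁻¹) * k⁻¹ := by group
      _ = _ := by rw [h1 _ (conj_mem_of_norm' hk (mem_zpowers u))]; group
  have mz : ∀ x ∈ zpowers z, x = 1 ∨ x = z := fun x hx => by
    rcases mem_four_group_cases (s := z) (t := 1) (by rw [pow_two, z2]) (one_pow 2)
      (Commute.one_right z) (mem_sup_left hx) with e | e | e | e <;> simp [e]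
  have zu : zpowers z ≤ zpowers u := zpowers_le.2 (hu ▸ mul_mem (mem_zpowers u) (mem_zpowers u))
  have II : centralizer {z} ≤ N := by
    have Vs := V ⟨1, one_mem _, rfl⟩
    rw [one_mul, inv_one, mul_one] at Vs
    refine modD (W := zpowers z) (norm_of_cent (cent_comm (zpowers_le.2 fun g hg =>
      mem_centralizer_singleton_iff.1 hg))) (zpowers_le.2 zN) (a := s) (b := u)
      (mem_centralizer_singleton_iff.2 hsz) (mem_centralizer_singleton_iff.2 (by rw [← hu]; group))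
      hsN ⟨fun h => Vs.2.2 (zu h), s2 ▸ one_mem _⟩ ⟨fun h => ?_, hu ▸ mem_zpowers z⟩
      (fun g hg h => ?_) fun c cz cN c1 c2 g hg h => ?_
    · rcases mz u h with e | e
      · exact z1 (by rw [← hu, e, mul_one])
      · exact z1 (by rw [← hu, e, z2])
    · have h1 := inv_mem ((mul_mem_cancel_right (mem_zpowers u)).1 (zu h))
      rw [inv_inv] at h1
      have h2 : g * s * g⁻¹ * (g * s * g⁻¹) = 1 := by rw [conj_mul, s2]; simp
      rcases mu _ h1 with e | e | e | e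
      · exact s1 (conj_eq_one_iff.1 e)
      · exact z1 (by rw [← hu, ← e, h2])
      · exact hnc (isConj_iff.2 ⟨g, e⟩)
      · exact z1 (by rw [← ui, ← e, h2])
    rcases mz _ c2 with e | e
    · obtain ⟨n, hn, e' | e'⟩ := hb c cN (orderOf_eq_two (fun e => c1 (e ▸ one_mem _)) e)
      · exact U ⟨n, hn, e'⟩ g h
      · subst e'
        exact absurd (by rw [hzz n hn (mem_centralizer_singleton_iff.1 cz)]; exact mem_zpowers z) c1
    · obtain ⟨n, hn, rfl⟩ := hc c cN e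
      obtain ⟨n', hn', e'⟩ := hc _ h (by
        rw [conj_mul, e, mem_centralizer_singleton_iff.1 hg, mul_inv_cancel_right])
      exact key III hn hn' e'
  refine lemD hs hz hsN hnc fun c cN c1 g hg => ?_
  obtain ⟨n, hn, e | rfl⟩ := hb c cN c1
  · exact U ⟨n, hn, e⟩ g hg
  obtain ⟨n', hn', e | e⟩ := hb _ hg (by rw [ord_conj, c1])
  · exact absurd (cj e).symm hnc
  · exact key II hn hn' e

end Cfsg.Agent.Cl.C9
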