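/-
Normalisers of `3^(1+4)` in `SL₉` and `SU₉`: the symplectic spaces over `𝔽₃`.
-/
import Mathlib
import Cfsg.Agent.Cl.SpTransv

set_option autoImplicit false

namespace Cfsg.Agent.Cl.C9

/-- The plane over `𝔽₃`. -/
abbrev U2 : Type := Fin 2 → ZMod 3

/-- The four-dimensional space over `𝔽₃`. -/
abbrev U4 : Type := Fin 4 → ZMod 3

/-- The alternating form on the plane. -/
def B2 : LinearMap.BilinForm (ZMod 3) U2 := Matrix.toBilin' !![0, -1; 1, 0]

/-- The alternating form on the four-dimensional space. -/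
def B4 : LinearMap.BilinForm (ZMod 3) U4 :=
  Matrix.toBilin' !![0, -1, 0, 0; 1, 0, 0, 0; 0, 0, 0, -1; 0, 0, 1, 0]

theorem B2_apply (u v : U2) : B2 u v = u 1 * v 0 - u 0 * v 1 := by
  simp [B2, Matrix.toBilin'_apply, Fin.sum_univ_two]; ring

theorem B4_apply (u v : U4) : B4 u v = u 1 * v 0 - u 0 * v 1 + (u 3 * v 2 - u 2 * v 3) := by
  simp [B4, Matrix.toBilin'_apply, Fin.sum_univ_four]; ring

theorem B2_alt : B2.IsAlt := fun u => by rw [B2_apply]; ring

theorem B4_alt : B4.IsAlt := fun u => by rw [B4_apply]; ring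

theorem B2_nd : B2.Nondegenerate := by
  refine B2_alt.isRefl.nondegenerate_iff_separatingLeft.2 fun u h => ?_
  have h0 := h (Pi.single 0 1)
  have h1 := h (Pi.single 1 1)
  simp [B2_apply] at h0 h1
  ext i; fin_cases i <;> simp [h0, h1]

theorem B4_nd : B4.Nondegenerate := by
  refine B4_alt.isRefl.nondegenerate_iff_separatingLeft.2 fun u h => ?_
  have h0 := h (Pi.single 0 1)
  have h1 := h (Pi.single 1 1)
  have h2 := h (Pi.single 2 1)
  have h3 := h (Pi.single 3 1)
  simp [B4_apply] at h0 h1 h2 h3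
  ext i; fin_cases i <;> simp [h0, h1, h2, h3]

end Cfsg.Agent.Cl.C9
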