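/-
Normalisers of `3^(1+4)` in `SL₉` and `SU₉`: Weyl operators and the action of the normaliser.
-/
import Mathlib
import Cfsg.Agent.Cl.C9Def
import Cfsg.Agent.Cl.MaxExtra

set_option autoImplicit false
set_option linter.unusedSectionVars false

namespace Cfsg.Agent.Cl.C9

open Matrix Cfsg.Geo Cfsg.Agent.Cl.Max

section Pw

variable {Γ Δ : Type*} [Group Γ] [Group Δ] {g : Γ}

/-- Powers with exponents modulo three. -/
def pw (g : Γ) (a : ZMod 3) : Γ := g ^ a.val

theorem pw_zero (g : Γ) : pw g 0 = 1 := pow_zero g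

theorem pw_one (g : Γ) : pw g 1 = g := pow_one g

theorem pw_two (g : Γ) : pw g 2 = g * g := pow_two g

theorem pw_add (h : g ^ 3 = 1) (a b : ZMod 3) : pw g (a + b) = pw g a * pw g b := by
  rw [pw, ZMod.val_add, ← pow_eq_pow_mod _ h, pow_add]; rfl

theorem pw_neg (h : g ^ 3 = 1) (a : ZMod 3) : pw g (-a) = (pw g a)⁻¹ :=
  eq_inv_of_mul_eq_one_left (by rw [← pw_add h, neg_add_cancel, pw_zero])

theorem pw_pw (h : g ^ 3 = 1) (a b : ZMod 3) : pw (pw g a) b = pw g (a * b) := by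
  rw [pw, pw, pw, ZMod.val_mul, ← pow_eq_pow_mod _ h, pow_mul]

theorem pw_cube (h : g ^ 3 = 1) (a : ZMod 3) : pw g a ^ 3 = 1 := by
  rw [pw, ← pow_mul, mul_comm, pow_mul, h, one_pow]

theorem map_pw (φ : Γ →* Δ) (g : Γ) (a : ZMod 3) : φ (pw g a) = pw (φ g) a := map_pow φ g _

theorem conj_pw (k g : Γ) (a : ZMod 3) : k * pw g a * k⁻¹ = pw (k * g * k⁻¹) a := conj_pow.symm

theorem pw_mem {H : Subgroup Γ} (h : g ∈ H) (a : ZMod 3) : pw g a ∈ H := pow_mem h _

theorem z3 (a : ZMod 3) : a = 0 ∨ a = 1 ∨ a = 2 := by revert a; decide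

theorem pw_inj (h1 : g ≠ 1) (h : g ^ 3 = 1) {a b : ZMod 3} (e : pw g a = pw g b) : a = b := by
  have h2 : pw g (a - b) = 1 := by rw [sub_eq_add_neg, pw_add h, pw_neg h, e, mul_inv_cancel]
  rw [← sub_eq_zero]
  rcases z3 (a - b) with h3 | h3 | h3
  · exact h3
  · exact absurd (by rwa [h3, pw_one] at h2) h1
  · rw [h3, pw_two] at h2
    exact absurd (by rwa [pow_three', h2, one_mul] at h) h1

end Pw

variable {ι : Type} [Fintype ι] [DecidableEq ι] {F : Type*} [Field F]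

theorem exists_pw {ω c : Fˣ} (h1 : ω ≠ 1) (h3 : ω ^ 3 = 1) (hc : c ^ 3 = 1) : ∃ a, c = pw ω a := by
  have h4 : (c : F) ^ 3 = 1 := by simpa using congrArg Units.val hc
  have h5 : (ω : F) ^ 3 = 1 := by simpa using congrArg Units.val h3
  have h6 : (ω : F) ≠ 1 := by simpa using h1
  have : (c : F) = 1 ∨ (c : F) = ω ∨ (c : F) = ω * ω := by grind
  rcases this with h | h | h
  exacts [⟨0, Units.ext (by rw [pw_zero, h]; rfl)⟩, ⟨1, Units.ext (by rw [pw_one, h])⟩,
    ⟨2, Units.ext (by rw [pw_two, h]; rfl)⟩]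

theorem root_of {ω : Fˣ} (h1 : ω ≠ 1) (h3 : ω ^ 3 = 1) : (ω : F) ^ 2 + ω + 1 = 0 := by
  have h5 : (ω : F) ^ 3 = 1 := by simpa using congrArg Units.val h3
  have h6 : (ω : F) ≠ 1 := by simpa using h1
  grind

theorem sc_mul_comm (c : Fˣ) (g : GL ι F) : sc ι c * g = g * sc ι c :=
  mul_comm_of_mem_scalars (sc_mem c) g

/-- The projection to the projective group. -/
abbrev pg : GL ι F →* GL ι F ⧸ scalars ι F := QuotientGroup.mk' _

theorem pg_eq_one {a : GL ι F} : pg a = 1 ↔ a ∈ scalars ι F := QuotientGroup.eq_one_iff a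

theorem pg_sc (c : Fˣ) : pg (sc ι c) = 1 := pg_eq_one.2 (sc_mem c)

theorem pg_eq {a b : GL ι F} : pg a = pg b ↔ ∃ c, a = sc ι c * b := by
  refine ⟨fun h => ?_, fun ⟨c, h⟩ => by rw [h, map_mul, pg_sc, one_mul]⟩
  obtain ⟨c, hc⟩ := (mem_scalars_iff_sc (a * b⁻¹)).1 
    (pg_eq_one.1 (by rw [map_mul, map_inv, h, mul_inv_cancel]))
  exact ⟨c, by rw [hc, inv_mul_cancel_right]⟩

theorem exists_of_comm [Nonempty ι] {H : Subgroup (GL ι F)} {g : GL ι F} (hH : Spans H)
    (hc : ∀ a ∈ H, ∀ b ∈ H, pg a * pg b = pg b * pg a)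
    (hg : ∀ a ∈ H, pg g * pg a = pg a * pg g) : ∃ a ∈ H, pg g = pg a := by
  obtain ⟨a, ha, h0⟩ : ∃ a ∈ H, ((g * a : GL ι F) : Matrix ι ι F).trace ≠ 0 := by
    by_contra! h
    have h1 : ∀ A ∈ spanAlg H, ((g : Matrix ι ι F) * A).trace = 0 := fun A hA =>
      spanAlg_induction (p := fun A => ((g : Matrix ι ι F) * A).trace = 0) h (by simp)
        (fun A B hA hB => by rw [mul_add, trace_add, hA, hB, add_zero])
        (fun c A hA => by rw [mul_smul_comm, trace_smul, hA, smul_zero]) hA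
    obtain ⟨j⟩ := ‹Nonempty ι›
    have := h1 _ (hH (((g⁻¹ : GL ι F) : Matrix ι ι F) * single j j 1))
    rw [← mul_assoc, ← Units.val_mul, mul_inv_cancel] at this
    simp at this
  refine ⟨a⁻¹, inv_mem ha, ?_⟩
  rw [map_inv, ← mul_eq_one_iff_eq_inv, ← map_mul, pg_eq_one]
  refine hH.mem_scalars fun b hb => ?_
  obtain ⟨c, h2⟩ := pg_eq.1 (show pg (b⁻¹ * (g * a) * b⁻¹⁻¹) = pg (g * a) by
    simp only [map_mul, map_inv, inv_inv]
    rw [mul_assoc, mul_assoc, hc a ha b hb, ← mul_assoc (pg g), hg b hb]; group)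
  have h3 := trace_cj b⁻¹ ((g * a : GL ι F) : Matrix ι ι F)
  rw [cj_coe, h2, Units.val_mul (sc _ c), coe_sc, smul_mul_assoc, one_mul, trace_smul,
    smul_eq_mul, mul_eq_right₀ h0, Units.val_eq_one] at h3
  rw [h3, map_one, one_mul] at h2
  calc g * a * b = b * (b⁻¹ * (g * a) * b⁻¹⁻¹) := by group
    _ = b * (g * a) := by rw [h2]

/-! ### The ambient groups -/

variable (ι) in
/-- The general linear group (`p` true) or the unitary group (`p` false). -/
def Am (p : Prop) (σ : F →+* F) : Subgroup (GL ι F) where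
  carrier := {g | p ∨ (g : Matrix ι ι F)ᵀ * (g : Matrix ι ι F).map σ = 1}
  one_mem' := Or.inr (by simp)
  mul_mem' {a b} ha hb := ha.elim Or.inl fun ha => hb.imp_right fun hb => by
    rw [Units.val_mul, transpose_mul, Matrix.map_mul, mul_assoc, ← mul_assoc _ (map _ _), ha,
      one_mul, hb]
  inv_mem' {a} ha := ha.imp_right fun ha => by
    have h1 : ((a⁻¹ : GL ι F) : Matrix ι ι F)ᵀ * ((a : Matrix ι ι F)ᵀ * (a : Matrix ι ι F).map σ) *
        ((a⁻¹ : GL ι F) : Matrix ι ι F).map σ = 1 := by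
      rw [← mul_assoc, ← transpose_mul, mul_assoc, ← Matrix.map_mul, ← Units.val_mul,
        mul_inv_cancel]
      simp
    rwa [ha, mul_one] at h1

variable {p : Prop} {σ : F →+* F}

theorem mem_Am {g : GL ι F} :
    g ∈ Am ι p σ ↔ p ∨ (g : Matrix ι ι F)ᵀ * (g : Matrix ι ι F).map σ = 1 := Iff.rfl

variable (ι) in
/-- The special linear or special unitary group. -/
abbrev Sm (p : Prop) (σ : F →+* F) : Subgroup (GL ι F) := Am ι p σ ⊓ specialLinear ι F

theorem sc_mem_Am {c : Fˣ} (h : p ∨ c * σ c = 1) : sc ι c ∈ Am ι p σ := h.imp_right fun h => by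
  rw [coe_sc, transpose_smul, transpose_one, smul_mul_assoc, one_mul, Matrix.smul_one_eq_diagonal,
    diagonal_map (map_zero σ), ← diagonal_smul]
  simp [Pi.smul_def, h]

theorem comm_mem_sl (a b : GL ι F) : a * b * a⁻¹ * b⁻¹ ∈ specialLinear ι F := by
  rw [mem_specialLinear_iff, ← Matrix.GeneralLinearGroup.val_det_apply, Units.val_eq_one]
  simp only [map_mul, map_inv]
  rw [mul_comm (Matrix.GeneralLinearGroup.det a)]
  group

/-! ### The elements acting as transvections -/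

theorem tv_mul {A : Type*} [Ring A] [Algebra F A] {y : A} {ω b b' : F} (hy : y * y * y = 1)
    (h : ω ^ 2 + ω + 1 = 0) (hb : b * (1 - ω ^ 2) = 1) (hb' : b' * (1 - ω) = 1) :
    b • (ω • 1 + y + y * y) * b' • (ω ^ 2 • 1 + y + y * y) = 1 := by
  have h4 : y * (y * y) = 1 := by rw [← mul_assoc, hy]
  have h5 : y * y * (y * y) = y := by rw [← mul_assoc, hy, one_mul]
  simp only [mul_add, add_mul, smul_mul_assoc, mul_smul_comm, one_mul, mul_one, hy, h4, h5]
  match_scalars <;> grind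

theorem exists_tv {w : GL ι F} {ω : Fˣ} (h1 : ω ≠ 1) (h3 : ω ^ 3 = 1) (hw : w ^ 3 = 1)
    (hω : p ∨ ω * σ ω = 1) (hA : w ∈ Am ι p σ) : ∃ T ∈ Am ι p σ, ∀ (u : GL ι F) (a : ZMod 3),
      u * w * u⁻¹ = sc ι (pw ω a) * w → pg (T * u * T⁻¹) = pg (pw w a * u) := by
  have h := root_of h1 h3
  have h2 : (ω : F) ≠ 1 := by simpa using h1
  obtain ⟨b, hb⟩ : ∃ b : F, b * (1 - ω ^ 2) = 1 := ⟨_, inv_mul_cancel₀ (by grind)⟩
  obtain ⟨b', hb'⟩ : ∃ b : F, b * (1 - ω) = 1 := ⟨_, inv_mul_cancel₀ (by grind)⟩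
  have hy : (w : Matrix ι ι F) * w * w = 1 := by
    rw [← Units.val_mul, ← Units.val_mul, ← pow_three', hw, Units.val_one]
  have h4 : (w : Matrix ι ι F) * (w * w) = 1 := by rw [← mul_assoc, hy]
  have h5 : (w : Matrix ι ι F) * w * (w * w) = w := by rw [← mul_assoc, hy, one_mul]
  have e := tv_mul hy h hb hb'
  refine ⟨⟨_, _, e, mul_eq_one_comm.1 e⟩, ?_, fun u a hu => ?_⟩
  · refine hω.elim Or.inl fun hω => hA.imp_right fun hA => ?_
    have hy' : (w : Matrix ι ι F)ᵀ * wᵀ * wᵀ = 1 := by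
      rw [← transpose_mul, ← transpose_mul, h4, transpose_one]
    have h6 : (w : Matrix ι ι F).map σ = wᵀ * wᵀ := by
      rw [← one_mul (map _ _), ← hy', mul_assoc, hA, mul_one]
    have h7 : σ ω = ω ^ 2 := by grind
    have h8 : σ b = b' := by
      have := congrArg σ hb
      rw [map_mul, map_sub, map_pow, h7, map_one] at this
      grind
    have h9 : (w : Matrix ι ι F)ᵀ * wᵀ * (wᵀ * wᵀ) = wᵀ := by rw [← mul_assoc, hy', one_mul]
    refine Eq.trans (congrArg₂ _ ?_ ?_) (tv_mul hy' h hb hb')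
    · simp [transpose_mul]
    · ext i j
      have := congrFun₂ (Matrix.map_mul (L := (w : Matrix ι ι F)) (M := w) (f := σ)) i j
      rw [h6, h9, map_apply] at this
      have h10 := congrFun₂ h6 i j
      rw [map_apply] at h10
      simp only [map_apply, Matrix.smul_apply, Matrix.add_apply, smul_eq_mul, map_mul, map_add,
        this, h10, h7, h8]
      rw [one_apply]
      split_ifs <;> simp only [map_one, map_zero] <;> ring
  · have hu' : (u : Matrix ι ι F) * w = ((pw ω a : Fˣ) : F) • (w * u) := by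
      rw [← Units.val_mul, mul_inv_eq_iff_eq_mul.1 hu]
      simp [coe_sc]
    have hu2 : (u : Matrix ι ι F) * (w * w) = ((pw ω a : Fˣ) : F) ^ 2 • (w * w * u) := by
      rw [← mul_assoc, hu', smul_mul_assoc, mul_assoc, hu', mul_smul_comm, smul_smul, sq, mul_assoc]
    refine pg_eq.2 ⟨pw ω (2 * a ^ 2), mul_inv_eq_of_eq_mul (Units.ext ?_)⟩
    simp only [Units.val_mul, coe_sc, mul_assoc, mul_add, add_mul, smul_mul_assoc, mul_smul_comm,
      one_mul, mul_one, hu', hu2]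
    rcases z3 a with rfl | rfl | rfl
    · simp [pw_zero]
    · rw [show (2 * 1 ^ 2 : ZMod 3) = 2 from rfl, pw_two, pw_one, pw_one]
      simp only [← mul_assoc, hy, one_mul, Units.val_mul]
      match_scalars <;> grind
    · rw [show (2 * 2 ^ 2 : ZMod 3) = 2 from rfl, pw_two, pw_two]
      simp only [← mul_assoc, hy, one_mul, Units.val_mul]
      match_scalars <;> grind

/-! ### Weyl operators -/

variable {U : Type*} [AddCommGroup U] [Module (ZMod 3) U] {B : LinearMap.BilinForm (ZMod 3) U}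
  {ω : Fˣ} {W : U → GL ι F} {R : Subgroup (GL ι F)} {k l : GL ι F} {g h : U → U}

/-- The multiplication rule of Weyl operators. -/
structure Wy0 (B : LinearMap.BilinForm (ZMod 3) U) (ω : Fˣ) (W : U → GL ι F) : Prop where
  ne : ω ≠ 1
  cube : ω ^ 3 = 1
  alt : B.IsAlt
  nd : B.Nondegenerate
  mul : ∀ u v, W u * W v = sc ι (pw ω (B u v)) * W (u + v)

/-- Weyl operators and the group they generate. -/
structure Wy (B : LinearMap.BilinForm (ZMod 3) U) (ω : Fˣ) (W : U → GL ι F)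
    (R : Subgroup (GL ι F)) : Prop extends Wy0 B ω W where
  mem : ∀ g, g ∈ R ↔ ∃ a v, g = sc ι (pw ω a) * W v
  spans : Spans R

/-- `k` acts on the Weyl operators as `g`. -/
def Act (W : U → GL ι F) (k : GL ι F) (g : U → U) : Prop :=
  ∀ v, pg k * pg (W v) * (pg k)⁻¹ = pg (W (g v))

theorem Act.mul (hk : Act W k g) (hl : Act W l h) : Act W (k * l) (g ∘ h) := fun v => by
  rw [Function.comp_apply, ← hk, ← hl, map_mul]; group

theorem Act.congr (hk : Act W k g) (e : pg k = pg l) : Act W l g := fun v => e ▸ hk v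

theorem Act.of_eq (hk : Act W k g) (e : ∀ v, g v = h v) : Act W k h := fun v => e v ▸ hk v

theorem act_one : Act W 1 id := fun v => by simp

theorem Act.inv (hk : Act W k g) (e : ∀ v, g (h v) = v) : Act W k⁻¹ h := fun v => by
  conv_lhs => rw [← e v, ← hk]
  rw [map_inv]; group

namespace Wy0

theorem zero (h : Wy0 B ω W) : W 0 = 1 := by simpa [pw_zero] using h.mul 0 0

theorem neg (h : Wy0 B ω W) (v : U) : W (-v) = (W v)⁻¹ := eq_inv_of_mul_eq_one_right (by
  rw [h.mul, map_neg, h.alt.self_eq_zero, neg_zero, pw_zero, add_neg_cancel, h.zero]; simp)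

theorem two (h : Wy0 B ω W) (v : U) : W v * W v = W (-v) := by
  rw [h.mul, h.alt.self_eq_zero, pw_zero, map_one, one_mul, ← two_smul (ZMod 3), ← neg_one_smul (ZMod 3)]
  rfl

theorem W_cube (h : Wy0 B ω W) (v : U) : W v ^ 3 = 1 := by
  rw [pow_three', h.two, h.neg, inv_mul_cancel]

theorem smul (h : Wy0 B ω W) (a : ZMod 3) (v : U) : W (a • v) = pw (W v) a := by
  rcases z3 a with rfl | rfl | rfl
  · rw [zero_smul, h.zero, pw_zero]
  · rw [one_smul, pw_one]
  · rw [pw_two, h.two, ← neg_one_smul (ZMod 3)]; rfl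

theorem conj (h : Wy0 B ω W) (u v : U) : W u * W v * (W u)⁻¹ = sc ι (pw ω (B v u)) * W v := by
  rw [mul_inv_eq_iff_eq_mul, mul_assoc, h.mul, h.mul, ← mul_assoc, ← map_mul, ← pw_add h.cube,
    add_comm v, ← h.alt.neg_eq v u]
  congr 3
  generalize B v u = a
  revert a; decide

theorem pg_add (h : Wy0 B ω W) (u v : U) : pg (W (u + v)) = pg (W u) * pg (W v) := by
  rw [← map_mul, h.mul, map_mul, pg_sc, one_mul]

theorem pg_comm (h : Wy0 B ω W) (u v : U) : pg (W u) * pg (W v) = pg (W v) * pg (W u) := by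
  rw [← h.pg_add, ← h.pg_add, add_comm]

theorem act_W (h : Wy0 B ω W) (x : U) : Act W (W x) id := fun v => by
  rw [h.pg_comm, mul_inv_cancel_right]; rfl

/-- The group generated by the Weyl operators. -/
def grp (h : Wy0 B ω W) : Subgroup (GL ι F) where
  carrier := {g | ∃ a v, g = sc ι (pw ω a) * W v}
  one_mem' := ⟨0, 0, by simp [pw_zero, h.zero]⟩
  mul_mem' := by
    rintro _ _ ⟨a, u, rfl⟩ ⟨b, v, rfl⟩
    refine ⟨a + (b + B u v), u + v, ?_⟩
    rw [mul_assoc, ← mul_assoc (W u), ← sc_mul_comm, mul_assoc, h.mul]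
    simp only [pw_add h.cube, map_mul, mul_assoc]
  inv_mem' := by
    rintro _ ⟨a, u, rfl⟩
    exact ⟨-a, -u, by rw [_root_.mul_inv_rev, pw_neg h.cube, h.neg, sc_mul_comm, map_inv]⟩

variable [Nonempty ι]

theorem form (h : Wy0 B ω W) {u v u' v' : U} (hu : pg (k * W u * k⁻¹) = pg (W u'))
    (hv : pg (k * W v * k⁻¹) = pg (W v')) : B u' v' = B u v := by
  obtain ⟨c, hc⟩ := pg_eq.1 hu
  obtain ⟨d, hd⟩ := pg_eq.1 hv
  have e : k * W v * k⁻¹ * (k * W u * k⁻¹) * (k * W v * k⁻¹)⁻¹ = k * (W v * W u * (W v)⁻¹) * k⁻¹ := by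
    group
  rw [h.conj, ← mul_assoc k (sc ι _), ← sc_mul_comm, mul_assoc (sc ι _), mul_assoc (sc ι _), hc, hd,
    sc_mul_comm d, show W v' * sc ι d * (sc ι c * W u') * (W v' * sc ι d)⁻¹ =
      W v' * (sc ι d * (sc ι c * W u') * (sc ι d)⁻¹) * (W v')⁻¹ by group, sc_mul_comm d,
    mul_inv_cancel_right, ← mul_assoc (W v'), ← sc_mul_comm, mul_assoc (sc ι c), mul_assoc (sc ι c),
    h.conj, ← mul_assoc, ← mul_assoc, mul_left_inj, sc_mul_comm c,
    mul_left_inj] at e
  exact pw_inj h.ne h.cube (sc_injective e)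

theorem inj (h : Wy0 B ω W) {u v : U} (e : pg (W u) = pg (W v)) : u = v := by
  rw [← sub_eq_zero]
  refine h.nd.1 _ fun x => ?_
  rw [map_sub, LinearMap.sub_apply, sub_eq_zero]
  exact (h.form (k := 1) (by simpa using e) (by simp)).symm

theorem act_unique (h : Wy0 B ω W) {g' : U → U} (h1 : Act W k g) (h2 : Act W k g') (v : U) :
    g v = g' v := h.inj ((h1 v).symm.trans (h2 v))

end Wy0

namespace Wy

theorem W_mem (h : Wy B ω W R) (v : U) : W v ∈ R := (h.mem _).2 ⟨0, v, by simp [pw_zero]⟩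

theorem sc_mem (h : Wy B ω W R) {c : Fˣ} (hc : c ^ 3 = 1) : sc ι c ∈ R := by
  obtain ⟨a, rfl⟩ := exists_pw h.ne h.cube hc
  exact (h.mem _).2 ⟨a, 0, by simp [h.zero]⟩

theorem cube_of_mem (h : Wy B ω W R) (hk : k ∈ R) : k ^ 3 = 1 := by
  obtain ⟨a, v, rfl⟩ := (h.mem _).1 hk
  rw [Commute.mul_pow (sc_mul_comm _ _), h.W_cube, ← map_pow, pw_cube h.cube]; simp

theorem exists_pg (h : Wy B ω W R) (hk : k ∈ R) : ∃ v, pg k = pg (W v) := by
  obtain ⟨a, v, rfl⟩ := (h.mem _).1 hk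
  exact ⟨v, pg_eq.2 ⟨_, rfl⟩⟩

theorem le_Am (h : Wy B ω W R) (hω : p ∨ ω * σ ω = 1) (hW : ∀ v, W v ∈ Am ι p σ) :
    R ≤ Am ι p σ := fun k hk => by
  obtain ⟨a, v, rfl⟩ := (h.mem _).1 hk
  exact mul_mem (map_pw (sc ι) ω a ▸ pw_mem (sc_mem_Am hω) a) (hW v)

variable [Nonempty ι]

theorem mem_of_pg (h : Wy B ω W R) (hk : k ^ 3 = 1) {v : U} (e : pg k = pg (W v)) : k ∈ R := by
  obtain ⟨c, rfl⟩ := pg_eq.1 e
  rw [Commute.mul_pow (sc_mul_comm _ _), h.W_cube, mul_one, ← map_pow, ← map_one (sc ι)] at hk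
  exact mul_mem (h.sc_mem (sc_injective hk)) (h.W_mem v)

theorem mem_norm [Finite F] (h : Wy B ω W R) (hk : Act W k g) : k ∈ subgroupNormalizer R := by
  refine Subgroup.mem_normalizer_fintype fun r hr => ?_
  obtain ⟨v, hv⟩ := h.exists_pg hr
  exact h.mem_of_pg (by rw [conj_pow, h.cube_of_mem hr, mul_one, mul_inv_cancel])
    (by rw [map_mul, map_mul, map_inv, hv, hk])

theorem act_id (h : Wy B ω W R) (hk : Act W k id) : ∃ v, pg k = pg (W v) := by
  obtain ⟨a, ha, e⟩ := exists_of_comm (g := k) h.spans (fun a ha b hb => by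
    obtain ⟨u, hu⟩ := h.exists_pg ha
    obtain ⟨v, hv⟩ := h.exists_pg hb
    rw [hu, hv, h.pg_comm]) fun a ha => by
      obtain ⟨u, hu⟩ := h.exists_pg ha
      rw [hu, ← mul_inv_eq_iff_eq_mul, hk]; rfl
  exact e ▸ h.exists_pg ha

variable [Finite U]

theorem exists_act (h : Wy B ω W R) (hk : k ∈ subgroupNormalizer R) :
    ∃ g : SpG B, Act W k g.1 := by
  choose g hg using fun v => h.exists_pg (normsG_subgroupNormalizer R k hk _ (h.W_mem v))
  have h1 : ∀ u v, B (g u) (g v) = B u v := fun u v => h.form (hg u) (hg v)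
  let φ : U →ₗ[ZMod 3] U := (AddMonoidHom.mk' g fun u v => h.inj (by
    rw [h.pg_add, ← hg, ← hg, ← hg]
    simp only [map_mul, h.pg_add, map_inv]; group)).toZModLinearMap 3
  have h2 : Function.Injective φ := (injective_iff_map_eq_zero φ).2 fun u hu =>
    h.nd.1 _ fun v => by rw [← h1, show g u = 0 from hu]; simp
  exact ⟨⟨LinearEquiv.ofBijective φ (Finite.injective_iff_bijective.1 h2), h1⟩, fun v => by
    rw [← map_inv, ← map_mul, ← map_mul]; exact hg v⟩

/-- The action of the normaliser. -/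
noncomputable def th (h : Wy B ω W R) : subgroupNormalizer R →* SpG B :=
  MonoidHom.mk' (fun k => (h.exists_act k.2).choose) fun k l => spG_ext fun v =>
    h.act_unique (h.exists_act (k * l).2).choose_spec
      ((h.exists_act k.2).choose_spec.mul (h.exists_act l.2).choose_spec) v

theorem act_th (h : Wy B ω W R) (k : subgroupNormalizer R) : Act W k.1 (h.th k).1 :=
  (h.exists_act k.2).choose_spec

theorem th_eq (h : Wy B ω W R) (k : subgroupNormalizer R) (hk : Act W k.1 g) (v : U) :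
    (h.th k).1 v = g v := h.act_unique (h.act_th k) hk v

variable [Finite F]

theorem surj_Am (h : Wy B ω W R) (hω : p ∨ ω * σ ω = 1) (hW : ∀ v, W v ∈ Am ι p σ) (g : SpG B) :
    ∃ k ∈ Am ι p σ, Act W k g.1 := by
  have hg : g ∈ Subgroup.closure (spTSet h.alt) := by rw [sp_closure_spT h.nd]; trivial
  induction hg using Subgroup.closure_induction with
  | mem x hx =>
    obtain ⟨v, c, rfl⟩ := hx
    obtain ⟨T, hT, e⟩ := exists_tv h.ne h.cube (h.W_cube v) hω (hW v)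
    have h1 : Act W T (spT h.alt v (-1)).1 := fun u => by
      rw [← map_inv, ← map_mul, ← map_mul, e _ _ (h.conj u v), ← h.smul, map_mul, ← h.pg_add,
        spT_apply, add_comm, neg_one_mul, h.alt.neg_eq]
    rcases z3 c with rfl | rfl | rfl
    · exact ⟨1, one_mem _, act_one.of_eq fun u => by simp⟩
    · refine ⟨_, mul_mem hT hT, (h1.mul h1).of_eq fun u => ?_⟩
      rw [Function.comp_apply, ← spG_mul_apply, spT_mul]; rfl
    · exact ⟨T, hT, h1⟩
  | one => exact ⟨1, one_mem _, act_one⟩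
  | mul x y _ _ hx hy =>
    obtain ⟨k, hk, e⟩ := hx
    obtain ⟨l, hl, e'⟩ := hy
    exact ⟨_, mul_mem hk hl, e.mul e'⟩
  | inv x _ hx =>
    obtain ⟨k, hk, e⟩ := hx
    exact ⟨_, inv_mem hk, e.inv x.1.apply_symm_apply⟩

theorem surj_Sm (h : Wy B ω W R) (hω : p ∨ ω * σ ω = 1) (hW : ∀ v, W v ∈ Am ι p σ)
    (hp : commutator (SpG B) = ⊤) (g : SpG B) : ∃ k ∈ Sm ι p σ, Act W k g.1 := by
  have hg : g ∈ commutator (SpG B) := by rw [hp]; trivial
  rw [commutator_eq_closure] at hg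
  induction hg using Subgroup.closure_induction with
  | mem x hx =>
    obtain ⟨a, b, rfl⟩ := hx
    obtain ⟨k, hk, e⟩ := h.surj_Am hω hW a
    obtain ⟨l, hl, e'⟩ := h.surj_Am hω hW b
    exact ⟨k * l * k⁻¹ * l⁻¹, Subgroup.mem_inf.2 ⟨mul_mem (mul_mem (mul_mem hk hl) (inv_mem hk))
      (inv_mem hl), comm_mem_sl k l⟩, ((e.mul e').mul (e.inv a.1.apply_symm_apply)).mul
        (e'.inv b.1.apply_symm_apply)⟩
  | one => exact ⟨1, one_mem _, act_one⟩
  | mul x y _ _ hx hy =>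
    obtain ⟨k, hk, e⟩ := hx
    obtain ⟨l, hl, e'⟩ := hy
    exact ⟨_, mul_mem hk hl, e.mul e'⟩
  | inv x _ hx =>
    obtain ⟨k, hk, e⟩ := hx
    exact ⟨_, inv_mem hk, e.inv x.1.apply_symm_apply⟩

/-- The normaliser is the product of `L` and the scalars when `L` induces everything. -/
theorem exists_pg_of_surj (h : Wy B ω W R) {L : Subgroup (GL ι F)} (hW : ∀ v, W v ∈ L)
    (hL : ∀ g : SpG B, ∃ l ∈ L, Act W l g.1) (hk : k ∈ subgroupNormalizer R) :
    ∃ l ∈ L, pg k = pg l := by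
  obtain ⟨g, hg⟩ := h.exists_act hk
  obtain ⟨l, hl, e⟩ := hL g
  obtain ⟨v, hv⟩ := h.act_id (((e.inv g.1.apply_symm_apply).mul hg).of_eq g.1.symm_apply_apply)
  exact ⟨l * W v, mul_mem hl (hW v), by rw [map_mul, ← hv, ← map_mul, mul_inv_cancel_left]⟩

/-- A subgroup normalised by the normaliser and containing one transvection. -/
theorem surj_of_spT (h : Wy B ω W R) {L : Subgroup (GL ι F)}
    (hn : NormsG (subgroupNormalizer R) L) {v : U} (hv : v ≠ 0) (hl : l ∈ L)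
    (e : Act W l (spT h.alt v 1).1) (g : SpG B) : ∃ l ∈ L, Act W l g.1 := by
  have hg : g ∈ Subgroup.closure (spTSet h.alt) := by rw [sp_closure_spT h.nd]; trivial
  induction hg using Subgroup.closure_induction with
  | mem x hx =>
    obtain ⟨u, c, rfl⟩ := hx
    by_cases hu : u = 0
    · exact ⟨1, one_mem _, act_one.of_eq fun u => by simp [hu]⟩
    obtain ⟨a, ha, rfl⟩ := sp_transitive h.nd h.alt hv hu
    obtain ⟨k, -, hk⟩ := h.surj_Am (p := True) (σ := RingHom.id F) (Or.inl trivial)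
      (fun _ => Or.inl trivial) ⟨a, ha⟩
    have h1 : Act W (k * l * k⁻¹) (spT h.alt (a v) 1).1 := ((hk.mul e).mul
      (hk.inv a.apply_symm_apply)).of_eq fun u => by rw [← spT_conj h.alt ⟨a, ha⟩]; rfl
    have h2 := hn k (h.mem_norm hk) l hl
    rcases z3 c with rfl | rfl | rfl
    · exact ⟨1, one_mem _, act_one.of_eq fun u => by simp⟩
    · exact ⟨_, h2, h1⟩
    · refine ⟨_, mul_mem h2 h2, (h1.mul h1).of_eq fun u => ?_⟩
      rw [Function.comp_apply, ← spG_mul_apply, spT_mul]; rfl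
  | one => exact ⟨1, one_mem _, act_one⟩
  | mul x y _ _ hx hy =>
    obtain ⟨k, hk, e⟩ := hx
    obtain ⟨l, hl, e'⟩ := hy
    exact ⟨_, mul_mem hk hl, e.mul e'⟩
  | inv x _ hx =>
    obtain ⟨k, hk, e⟩ := hx
    exact ⟨_, inv_mem hk, e.inv x.1.apply_symm_apply⟩

end Wy

end Cfsg.Agent.Cl.C9
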