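/-
Normalisers of `3^(1+4)` in `SL₉` and `SU₉`: Weyl operators in dimension three.
-/
import Mathlib
import Cfsg.Agent.Cl.C9Wey
import Cfsg.Agent.Cl.D3T3

set_option autoImplicit false
set_option linter.unusedSectionVars false
set_option linter.unusedSimpArgs false

namespace Cfsg.Agent.Cl.C9

open Matrix Cfsg.Geo Cfsg.Agent.Cl.Max Cfsg.Agent.Cl.Mx Cfsg.Agent.Cl.D3

section General

variable {ι : Type} [Fintype ι] [DecidableEq ι] {F : Type*} [Field F]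
  {U : Type*} [AddCommGroup U] [Module (ZMod 3) U] {B : LinearMap.BilinForm (ZMod 3) U}
  {ω : Fˣ} {W : U → GL ι F} {R L : Subgroup (GL ι F)} {k l : GL ι F} {g h : U → U}

theorem conj_eq_of_pg (e : pg k = pg l) (m : GL ι F) : k * m * k⁻¹ = l * m * l⁻¹ := by
  obtain ⟨c, rfl⟩ := pg_eq.1 e
  rw [sc_mul_comm, mul_assoc l, sc_mul_comm]; group

theorem comm_eq_of_pg {k' l' : GL ι F} (e : pg k = pg k') (e' : pg l = pg l') :
    k * l * k⁻¹ * l⁻¹ = k' * l' * k'⁻¹ * l'⁻¹ := by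
  rw [conj_eq_of_pg e, mul_assoc, mul_assoc, ← mul_assoc l, conj_eq_of_pg e']; group

theorem norm_of_pg (e : pg k = pg l) (hl : l ∈ subgroupNormalizer R) :
    k ∈ subgroupNormalizer R :=
  Subgroup.mem_normalizer_iff.2 fun x => by
    rw [conj_eq_of_pg e]; exact Subgroup.mem_normalizer_iff.1 hl x

theorem det_mem_Am {p : Prop} {σ : F →+* F} (h : k ∈ Am ι p σ) :
    p ∨ (k : Matrix ι ι F).det * σ (k : Matrix ι ι F).det = 1 := h.imp_right fun h => by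
  have := congrArg det h
  rwa [det_mul, det_transpose, det_one, ← RingHom.mapMatrix_apply, ← RingHom.map_det] at this

theorem conj_mem_Sm {p : Prop} {σ : F →+* F} (hk : k ∈ Am ι p σ) (hl : l ∈ Sm ι p σ) :
    k * l * k⁻¹ ∈ Sm ι p σ := Subgroup.mem_inf.2 ⟨mul_mem (mul_mem hk hl.1) (inv_mem hk), by
  simpa using mul_mem (comm_mem_sl k l) hl.2⟩

variable [Nonempty ι]

theorem Wy0.exists_form (h : Wy0 B ω W) {v : U} (hv : v ≠ 0) (a : ZMod 3) : ∃ u, B v u = a := by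
  obtain ⟨u, hu⟩ : ∃ u, B v u ≠ 0 := by
    by_contra! H
    exact hv (h.nd.1 v H)
  exact ⟨(a * (B v u)⁻¹) • u, by
    rw [map_smul, smul_eq_mul, mul_assoc, inv_mul_cancel₀ hu, mul_one]⟩

theorem Wy0.notMem (h : Wy0 B ω W) {v : U} (hv : v ≠ 0) : W v ∉ scalars ι F := fun e =>
  hv (h.inj (by rw [pg_eq_one.2 e, h.zero, map_one]))

theorem Wy.eq_of (h : Wy B ω W R) (hle : R ≤ L) (hc : ∀ g ∈ L, g ^ 3 = 1)
    (hm : ∀ x ∈ L, ∀ y ∈ L, x * y * x⁻¹ * y⁻¹ ∈ scalars ι F) : L = R := by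
  have h1 : ∀ x ∈ L, ∀ y ∈ R, pg x * pg y = pg y * pg x := fun x hx y hy => by
    have := pg_eq_one.2 (hm x hx y (hle hy))
    rwa [map_mul, map_mul, map_mul, map_inv, map_inv, mul_inv_eq_one, mul_inv_eq_iff_eq_mul] at this
  refine le_antisymm (fun x hx => ?_) hle
  obtain ⟨a, ha, e⟩ := exists_of_comm h.spans (fun a ha => h1 a (hle ha)) (h1 x hx)
  obtain ⟨v, hv⟩ := h.exists_pg ha
  exact h.mem_of_pg (hc x hx) (e.trans hv)

variable [Finite U] [Finite F]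

theorem Wy.W_norm (h : Wy B ω W R) (v : U) : W v ∈ subgroupNormalizer R := h.mem_norm (h.act_W v)

theorem Wy.exists_move (h : Wy B ω W R) (hL : ∀ g : SpG B, ∃ l ∈ L, Act W l g.1) {u v : U}
    (hu : u ≠ 0) (hv : v ≠ 0) : ∃ l ∈ L, l ∈ subgroupNormalizer R ∧
      pg l * pg (W u) * (pg l)⁻¹ = pg (W v) := by
  obtain ⟨a, ha, rfl⟩ := sp_transitive h.nd h.alt hu hv
  obtain ⟨l, hl, e⟩ := hL ⟨a, ha⟩
  exact ⟨l, hl, h.mem_norm e, e u⟩

theorem Wy.le_of_W (h : Wy B ω W R) (hn : NormsG (subgroupNormalizer R) L) {v : U} (hv : v ≠ 0)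
    (hW : W v ∈ L) : R ≤ L := by
  obtain ⟨u, hu⟩ := h.exists_form hv 1
  have h1 : ∀ a, sc ι (pw ω a) ∈ L := fun a => by
    have := mul_mem (hn _ (h.W_norm u) _ hW) (inv_mem hW)
    rw [h.conj, hu, pw_one, mul_inv_cancel_right] at this
    exact map_pw (sc ι) ω a ▸ pw_mem this a
  intro r hr
  obtain ⟨a, u, rfl⟩ := (h.mem _).1 hr
  refine mul_mem (h1 a) ?_
  by_cases hu : u = 0
  · rw [hu, h.zero]; exact one_mem _
  obtain ⟨l, -, hl, e⟩ := h.exists_move (fun g => h.surj_Am (p := True) (σ := RingHom.id F)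
    (Or.inl trivial) (fun _ => Or.inl trivial) g) hv hu
  obtain ⟨b, u', e'⟩ := (h.mem _).1 (normsG_subgroupNormalizer R l hl _ (h.W_mem v))
  have h2 := mul_mem (inv_mem (h1 b)) (hn l hl _ hW)
  rw [← map_inv, ← map_mul, ← map_mul, e', map_mul, pg_sc, one_mul] at e
  rwa [e', inv_mul_cancel_left, h.inj e] at h2

theorem Wy.cent_of (h : Wy B ω W R) (hW : ∀ v, W v ∈ L) (hL : ∀ g : SpG B, ∃ l ∈ L, Act W l g.1)
    {u : U} (hu : u ≠ 0) (hC : ∀ g ∈ L, g * W u = W u * g → g ∈ subgroupNormalizer R)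
    {v : U} (hv : v ≠ 0) (hk : k ∈ L) (e : pg k * pg (W v) = pg (W v) * pg k) :
    k ∈ subgroupNormalizer R := by
  obtain ⟨l, hl, hl', e'⟩ := h.exists_move hL hu hv
  obtain ⟨c, hc⟩ := pg_eq.1 (show pg (l⁻¹ * k * l * W u * (l⁻¹ * k * l)⁻¹) = pg (W u) by
    simp only [map_mul, map_inv]
    calc _ = (pg l)⁻¹ * (pg k * (pg l * pg (W u) * (pg l)⁻¹)) * (pg k)⁻¹ * pg l := by group
      _ = _ := by rw [e', e, ← e']; group)
  have h3 := congrArg (· ^ 3) hc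
  simp only [conj_pow, Commute.mul_pow (sc_mul_comm c (W u)), h.W_cube, mul_one, mul_inv_cancel,
    ← map_pow] at h3
  obtain ⟨a, rfl⟩ := exists_pw h.ne h.cube (sc_injective (h3.symm.trans (map_one _).symm))
  obtain ⟨y, hy⟩ := h.exists_form hu a
  rw [← hy, ← h.conj] at hc
  have h4 := hC ((W y)⁻¹ * (l⁻¹ * k * l))
    (mul_mem (inv_mem (hW y)) (mul_mem (mul_mem (inv_mem hl) hk) hl)) (by
      calc _ = (W y)⁻¹ * (l⁻¹ * k * l * W u * (l⁻¹ * k * l)⁻¹) * (l⁻¹ * k * l) := by group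
        _ = _ := by rw [hc]; group)
  simpa [mul_assoc] using mul_mem (mul_mem hl' (mul_mem (h.W_norm y) h4)) (inv_mem hl')

end General

variable {F : Type*} [Field F] {ω : Fˣ} {p : Prop} {σ : F →+* F} {R : Subgroup (GL (Fin 3) F)}
  {k : GL (Fin 3) F}

local notation "M3" => Matrix (Fin 3) (Fin 3) F
local notation "SL3" => specialLinear (Fin 3) F

/-- The Weyl operators in dimension three. -/
def w3 (ω : Fˣ) (u : U2) : GL (Fin 3) F :=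
  sc (Fin 3) (pw ω (u 0 * u 1)) * (pw (dd ω) (u 0) * pw (sh F) (u 1))

theorem inv_eq_sq (h3 : ω ^ 3 = 1) : ω⁻¹ = ω * ω :=
  inv_eq_of_mul_eq_one_right (by rw [← pow_three, h3])

theorem dd_cube (h3 : ω ^ 3 = 1) : dd ω ^ 3 = 1 := by
  rw [dg3_pow, inv_pow, h3, inv_one, one_pow, dg3_one]

theorem sc_dg3 (a b c d : Fˣ) : sc (Fin 3) d * dg3 a b c = dg3 (d * a) (d * b) (d * c) := by
  rw [← dg3_self, dg3_mul]

theorem sh_dd (h3 : ω ^ 3 = 1) : sh F * dd ω * (sh F)⁻¹ = sc (Fin 3) ω⁻¹ * dd ω := by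
  rw [sh_dg3, sc_dg3, inv_mul_cancel, mul_one, ← _root_.mul_inv_rev, ← inv_eq_sq h3, inv_inv]

theorem sh_pw (h3 : ω ^ 3 = 1) (a b : ZMod 3) : pw (sh F) b * pw (dd ω) a =
    sc (Fin 3) (pw ω (-(a * b))) * (pw (dd ω) a * pw (sh F) b) := by
  have h1 : ∀ a, sh F * pw (dd ω) a = sc (Fin 3) (pw ω (-a)) * (pw (dd ω) a * sh F) := fun a => by
    rw [← mul_assoc, ← mul_inv_eq_iff_eq_mul, conj_pw, sh_dd h3, pw_neg h3, pw,
      Commute.mul_pow (sc_mul_comm _ _), ← map_pow, inv_pow]; rfl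
  rcases z3 b with rfl | rfl | rfl
  · simp [pw_zero]
  · rw [pw_one, mul_one, h1]
  · rw [pw_two, mul_assoc, h1, ← mul_assoc, ← sc_mul_comm, mul_assoc, ← mul_assoc (sh F), h1,
      mul_assoc, mul_assoc, ← mul_assoc, ← map_mul, ← pw_add h3, mul_two, neg_add]

theorem wy0_three (h1 : ω ≠ 1) (h3 : ω ^ 3 = 1) : Wy0 B2 ω (w3 ω) where
  ne := h1
  cube := h3
  alt := B2_alt
  nd := B2_nd
  mul u v := by
    have e : ∀ c d : Fˣ, ∀ a b a' b' : GL (Fin 3) F, sc (Fin 3) c * (a * b) *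
        (sc (Fin 3) d * (a' * b')) = sc (Fin 3) (c * d) * (a * (b * a') * b') := fun c d a b a' b' => by
      rw [mul_assoc, ← mul_assoc (a * b), ← sc_mul_comm, map_mul]; group
    rw [w3, w3, w3, e, sh_pw h3, ← mul_assoc (pw (dd ω) _), ← sc_mul_comm, Pi.add_apply,
      Pi.add_apply, pw_add (dd_cube h3), pw_add sh_cube, B2_apply]
    simp only [← mul_assoc, ← map_mul, ← pw_add h3]
    congr 6
    generalize u 0 = a, u 1 = b, v 0 = c, v 1 = d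
    revert a b c d
    decide

theorem w3_zero : w3 ω ![1, 0] = dd ω := by simp [w3, pw_zero, pw_one]

theorem w3_one : w3 ω ![0, 1] = sh F := by simp [w3, pw_zero, pw_one]

theorem wy_three (h1 : ω ≠ 1) (h3 : ω ^ 3 = 1) : Wy B2 ω (w3 ω) (wy0_three h1 h3).grp :=
  ⟨wy0_three h1 h3, fun _ => Iff.rfl, spans_of_dd h1 ⟨0, ![1, 0], by simp [w3_zero, pw_zero]⟩
    ⟨0, ![0, 1], by simp [w3_one, pw_zero]⟩⟩

theorem e0_ne : (![1, 0] : U2) ≠ 0 := by decide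

theorem dg3_mem_Am {a b c : Fˣ} (h : p ∨ a * σ a = 1 ∧ b * σ b = 1 ∧ c * σ c = 1) :
    dg3 a b c ∈ Am (Fin 3) p σ := h.imp_right fun ⟨ha, hb, hc⟩ => by
  ext i j
  fin_cases i <;> fin_cases j <;> simp [coe_dg3, mul_apply, Fin.sum_univ_three, ha, hb, hc]

theorem dd_mem_Am {l : Fˣ} (h : p ∨ l * σ l = 1) : dd l ∈ Am (Fin 3) p σ :=
  dg3_mem_Am (h.imp_right fun h => ⟨h, by
    rw [Units.val_inv_eq_inv_val, map_inv₀, ← mul_inv, h, inv_one], by simp⟩)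

theorem sh_mem_Am : sh F ∈ Am (Fin 3) p σ := Or.inr (by
  ext i j
  fin_cases i <;> fin_cases j <;> simp [coe_sh, mul_apply, Fin.sum_univ_three])

theorem sw_mem_Am : sw F ∈ Am (Fin 3) p σ := Or.inr (by
  ext i j
  fin_cases i <;> fin_cases j <;> simp [coe_sw, mul_apply, Fin.sum_univ_three])

theorem w3_mem {H : Subgroup (GL (Fin 3) F)} (h0 : sc (Fin 3) ω ∈ H) (h1 : dd ω ∈ H)
    (h2 : sh F ∈ H) (u : U2) : w3 ω u ∈ H :=
  mul_mem (map_pw (sc (Fin 3)) ω _ ▸ pw_mem h0 _) (mul_mem (pw_mem h1 _) (pw_mem h2 _))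

theorem sc_mem_sl (h3 : ω ^ 3 = 1) : sc (Fin 3) ω ∈ SL3 := by
  rw [← dg3_self, mem_specialLinear_iff, det_dg3, ← pow_three', ← Units.val_pow_eq_pow_val, h3,
    Units.val_one]

theorem w3_mem_Sm (h3 : ω ^ 3 = 1) (h : p ∨ ω * σ ω = 1) (u : U2) : w3 ω u ∈ Sm (Fin 3) p σ :=
  w3_mem (H := Sm (Fin 3) p σ) (ω := ω) ⟨sc_mem_Am h, sc_mem_sl h3⟩ ⟨dd_mem_Am h, dd_mem_sl ω⟩
    ⟨sh_mem_Am, sh_mem_sl⟩ u

theorem sw_dd (l : Fˣ) : sw F * dd l * (sw F)⁻¹ = (dd l)⁻¹ := by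
  rw [sw_dg3, dg3_inv, inv_inv, inv_one]

theorem sw_w3 (h3 : ω ^ 3 = 1) (u : U2) : sw F * w3 ω u * (sw F)⁻¹ = w3 ω (-u) := by
  rw [w3, w3, Pi.neg_apply, Pi.neg_apply, neg_mul_neg, pw_neg (dd_cube h3), pw_neg sh_cube,
    ← mul_assoc, ← sc_mul_comm, mul_assoc, mul_assoc, ← mul_assoc (sw F), ← MulAut.conj_apply,
    map_mul, MulAut.conj_apply, MulAut.conj_apply, conj_pw, conj_pw, sw_dd, sw_sh]
  simp only [pw, inv_pow]

namespace Wy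

theorem dd_mem (h : Wy B2 ω (w3 ω) R) : dd ω ∈ R := w3_zero (ω := ω) ▸ h.W_mem _

theorem sh_mem (h : Wy B2 ω (w3 ω) R) : sh F ∈ R := w3_one (ω := ω) ▸ h.W_mem _

theorem le_three (h : Wy B2 ω (w3 ω) R) {H : Subgroup (GL (Fin 3) F)} (h0 : sc (Fin 3) ω ∈ H)
    (h1 : dd ω ∈ H) (h2 : sh F ∈ H) : R ≤ H := fun r hr => by
  obtain ⟨a, v, rfl⟩ := (h.mem r).1 hr
  exact mul_mem (map_pw (sc (Fin 3)) ω _ ▸ pw_mem h0 _) (w3_mem h0 h1 h2 v)

theorem le_Sm (h : Wy B2 ω (w3 ω) R) (hω : p ∨ ω * σ ω = 1) : R ≤ Sm (Fin 3) p σ :=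
  h.le_three ⟨sc_mem_Am hω, sc_mem_sl h.cube⟩ ⟨dd_mem_Am hω, dd_mem_sl ω⟩ ⟨sh_mem_Am, sh_mem_sl⟩

theorem hei (h : Wy B2 ω (w3 ω) R) : Hei R := by
  refine ⟨⟨Nat.prime_three, normsG_self R, h.spans, fun x hx y hy => ?_,
    fun x hx => h.cube_of_mem hx ▸ one_mem _⟩, fun x => h.cube_of_mem⟩
  obtain ⟨u, hu⟩ := h.exists_pg hx
  obtain ⟨v, hv⟩ := h.exists_pg hy
  rw [← pg_eq_one]
  simp only [map_mul, map_inv, hu, hv, h.pg_comm u v]
  group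

theorem act_three (h : Wy B2 ω (w3 ω) R) {a b : U2} (ha : pg (k * dd ω * k⁻¹) = pg (w3 ω a))
    (hb : pg (k * sh F * k⁻¹) = pg (w3 ω b)) : Act (w3 ω) k fun u => u 0 • a + u 1 • b := fun u => by
  rw [h.pg_add, h.smul, h.smul, map_pw, map_pw, ← ha, ← hb, w3, map_mul, pg_sc, one_mul,
    ← map_pw, ← map_pw, ← conj_pw, ← conj_pw]
  simp only [map_mul, map_inv]
  group

theorem act_sw (h : Wy B2 ω (w3 ω) R) : Act (w3 ω) (sw F) fun u => -u := fun u => by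
  rw [← sw_w3 h.cube, map_mul, map_mul, map_inv]

theorem act_tau (h : Wy B2 ω (w3 ω) R) : Act (w3 ω) (dg3 1 1 ω) (spT h.alt ![1, 0] 1).1 := by
  refine (h.act_three (a := ![1, 0]) (b := ![1, 1]) ?_ ?_).of_eq fun u => ?_
  · rw [w3_zero, dg3_inv, dg3_mul, dg3_mul]; simp
  · refine pg_eq.2 ⟨1, ?_⟩
    rw [map_one, one_mul, w3, dg3_inv, show dg3 1 1 ω * sh F * dg3 1⁻¹ 1⁻¹ ω⁻¹ =
      dg3 1 1 ω * (sh F * dg3 1⁻¹ 1⁻¹ ω⁻¹ * (sh F)⁻¹) * sh F by group, sh_dg3, dg3_mul]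
    simp [pw_one, ← mul_assoc, sc_dg3, inv_eq_sq h.cube, ← pow_three', h.cube]
  · rw [spT_apply, B2_apply]
    ext i; fin_cases i <;> simp

variable [Finite F]

theorem sw_norm (h : Wy B2 ω (w3 ω) R) : sw F ∈ subgroupNormalizer R := h.mem_norm h.act_sw

theorem tau_norm (h : Wy B2 ω (w3 ω) R) : dg3 1 1 ω ∈ subgroupNormalizer R := h.mem_norm h.act_tau

theorem pg_t (h : Wy B2 ω (w3 ω) R) : pg (dg3 ω ω 1) = pg (dg3 1 1 ω)⁻¹ :=
  pg_eq.2 ⟨ω, by simp [dg3_inv, sc_dg3]⟩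

theorem t_norm (h : Wy B2 ω (w3 ω) R) : dg3 ω ω 1 ∈ subgroupNormalizer R :=
  norm_of_pg h.pg_t (inv_mem h.tau_norm)

theorem fou_norm (h : Wy B2 ω (w3 ω) R) {s : F} {i : GL (Fin 3) F} (hi : Fou ω s i) :
    i ∈ subgroupNormalizer R :=
  h.mem_norm (h.act_three (a := -![0, 1]) (b := ![1, 0]) (by rw [hi.conj_dd, h.neg, w3_one])
    (by rw [hi.conj_sh, w3_zero]))

theorem sw_eq (h : Wy B2 ω (w3 ω) R) : ∃ a ∈ subgroupNormalizer R, ∃ b ∈ subgroupNormalizer R,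
    sw F = a * b * a⁻¹ * b⁻¹ := by
  obtain ⟨s, i, hi⟩ := exists_fou (root_of h.ne h.cube) h.ne
  refine ⟨i, h.fou_norm hi, _, mul_mem (mul_mem h.t_norm (h.fou_norm hi)) (inv_mem h.t_norm), ?_⟩
  rw [hi.comm]; group

end Wy

theorem dd_neg_comm (h : (dd (-1 : Fˣ) * sh F * (dd (-1 : Fˣ))⁻¹ * (sh F)⁻¹) ^ 3 = 1) :
    (2 : F) = 0 := by
  rw [mul_assoc, mul_assoc, ← mul_assoc (sh F), dg3_inv, sh_dg3, dg3_mul, dg3_pow] at h
  have := congrArg (fun g : GL (Fin 3) F => (g : M3) 0 0) h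
  simp [coe_dg3] at this
  linear_combination -this

theorem Wy.dd_neg [Finite F] (h : Wy B2 ω (w3 ω) R) (hd : dd (-1 : Fˣ) ∈ subgroupNormalizer R) :
    (2 : F) = 0 :=
  dd_neg_comm (h.cube_of_mem (mul_mem (normsG_subgroupNormalizer R _ hd _ h.sh_mem)
    (inv_mem h.sh_mem)))

end Cfsg.Agent.Cl.C9
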