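/-
Normalisers of `3^(1+4)` in `SL₉` and `SU₉`: groups of block-diagonal matrices.
-/
import Mathlib
import Cfsg.Agent.Cl.C9Three

set_option autoImplicit false
set_option linter.unusedSectionVars false
set_option linter.unusedSimpArgs false

namespace Cfsg.Agent.Cl.C9

open Matrix Cfsg.Geo Cfsg.Agent.Cl.Max Cfsg.Agent.Cl.Mx Cfsg.Agent.Cl.D3

section Pr

variable {Γ : Type*} [Group Γ] {C : Subgroup (Γ × Γ × Γ)} {S T : Subgroup Γ} {a b c : Γ}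

/-- First coordinates of the triples with the other coordinates in `S` and `T`. -/
def pr (C : Subgroup (Γ × Γ × Γ)) (S T : Subgroup Γ) : Subgroup Γ :=
  (C ⊓ (⊤ : Subgroup Γ).prod (S.prod T)).map (MonoidHom.fst _ _)

theorem mem_pr : a ∈ pr C S T ↔ ∃ b ∈ S, ∃ c ∈ T, (a, b, c) ∈ C :=
  ⟨fun ⟨⟨_, b, c⟩, ⟨h1, _, h2, h3⟩, e⟩ => ⟨b, h2, c, h3, e ▸ h1⟩,
    fun ⟨b, h2, c, h3, h1⟩ => ⟨(a, b, c), ⟨h1, trivial, h2, h3⟩, rfl⟩⟩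

theorem mul3 {a' b' c' : Γ} (h : (a, b, c) ∈ C) (h' : (a', b', c') ∈ C) :
    (a * a', b * b', c * c') ∈ C := mul_mem h h'

theorem inv3 (h : (a, b, c) ∈ C) : (a⁻¹, b⁻¹, c⁻¹) ∈ C := inv_mem h

theorem mem_pr_bot : a ∈ pr C ⊥ ⊥ ↔ (a, 1, 1) ∈ C := by simp [mem_pr]

theorem comm_mem_pr (ha : a ∈ pr C ⊤ ⊥) (hb : b ∈ pr C ⊥ ⊤) : a * b * a⁻¹ * b⁻¹ ∈ pr C ⊥ ⊥ := by
  obtain ⟨x, -, _, rfl, h1⟩ := mem_pr.1 ha
  obtain ⟨_, rfl, y, -, h2⟩ := mem_pr.1 hb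
  simpa [mem_pr_bot] using mul_mem (mul_mem (mul_mem h1 h2) (inv_mem h1)) (inv_mem h2)

end Pr

variable {F : Type*} [Field F] [Finite F] {ω : Fˣ} {p : Prop} {σ : F →+* F}
  {R : Subgroup (GL (Fin 3) F)} {C : Subgroup (GL (Fin 3) F × GL (Fin 3) F × GL (Fin 3) F)}
  {a b c : GL (Fin 3) F}

local notation "M3" => Matrix (Fin 3) (Fin 3) F
local notation "N3" => subgroupNormalizer R

/-- The facts used about dimension three. -/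
structure Ctx (p : Prop) (σ : F →+* F) (ω : Fˣ) (R : Subgroup (GL (Fin 3) F)) : Prop where
  wy : Wy B2 ω (w3 ω) R
  om : p ∨ ω * σ ω = 1
  k3 : ∀ A ≤ Am (Fin 3) p σ, subgroupNormalizer R ⊓ Sm (Fin 3) p σ ≤ A → dg3 ω ω 1 ∈ A →
    A ≤ subgroupNormalizer R ∨ (Sm (Fin 3) p σ ≤ A ∧ (2 : F) ≠ 0 ∧ QS (Sm (Fin 3) p σ))
  two : (2 : F) = 0 → Sm (Fin 3) p σ ≤ subgroupNormalizer R ∧ ∀ c : Fˣ, c ^ 3 = 1

/-- The block-diagonal part of an overgroup of the normaliser. -/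
structure Blk (p : Prop) (σ : F →+* F) (ω : Fˣ) (R : Subgroup (GL (Fin 3) F))
    (C : Subgroup (GL (Fin 3) F × GL (Fin 3) F × GL (Fin 3) F)) : Prop where
  am : ∀ a b c, (a, b, c) ∈ C → a ∈ Am (Fin 3) p σ
  det : ∀ a, (a, 1, 1) ∈ C → a ∈ specialLinear (Fin 3) F
  rot : ∀ a b c, (a, b, c) ∈ C → (c, a, b) ∈ C
  diag : ∀ n ∈ subgroupNormalizer R, ∃ m, pg n = pg m ∧ (m, m, m) ∈ C
  sm : ∀ n ∈ subgroupNormalizer R ⊓ Sm (Fin 3) p σ, (n, n, n) ∈ C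
  tv : (dg3 ω ω 1, dg3 ω ω 1, dg3 ω ω 1) ∈ C
  cp : ∀ r ∈ R, (1, r, r * r) ∈ C
  tr : ∀ a b c d e f g h i, (dg3 a b c, dg3 d e f, dg3 g h i) ∈ C →
    (dg3 a d g, dg3 b e h, dg3 c f i) ∈ C
  sw : (sw F, 1, 1) ∈ C → (1, 1, dd (-1)) ∈ C

namespace Blk

theorem full (h : Blk p σ ω R C) (hE : ∀ a ∈ Sm (Fin 3) p σ, (a, 1, 1) ∈ C)
    (ha : a ∈ Am (Fin 3) p σ) (hb : b ∈ Am (Fin 3) p σ) (hc : c ∈ Am (Fin 3) p σ)
    (hd : (a : M3).det * (b : M3).det * (c : M3).det = 1) : (a, b, c) ∈ C := by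
  have h1 : ∀ a ∈ Am (Fin 3) p σ, ∃ l : Fˣ, (l : F) = (a : M3).det ∧ (p ∨ l * σ l = 1) ∧
      (a * (dg3 l 1 1)⁻¹, 1, 1) ∈ C := fun a ha => by
    refine ⟨Matrix.GeneralLinearGroup.det a, rfl, det_mem_Am ha, hE _ (Subgroup.mem_inf.2
      ⟨mul_mem ha (inv_mem (dg3_mem_Am ((det_mem_Am ha).imp_right fun e =>
        ⟨e, by simp, by simp⟩))), ?_⟩)⟩
    rw [mem_specialLinear_iff, dg3_inv, Units.val_mul, det_mul, det_dg3]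
    simp [a.det_ne_zero]
  obtain ⟨l, l1, l2, l3⟩ := h1 a ha
  obtain ⟨m, m1, m2, m3⟩ := h1 b hb
  obtain ⟨n, n1, n2, n3⟩ := h1 c hc
  have h2 := hE (dg3 l m n) ⟨dg3_mem_Am (by tauto), (mem_specialLinear_iff _).2 (by
    rw [det_dg3, l1, m1, n1, hd])⟩
  rw [← dg3_one] at h2
  simpa using mul_mem (mul_mem (mul_mem l3 (h.rot _ _ _ m3)) (h.rot _ _ _ (h.rot _ _ _ n3)))
    (h.tr _ _ _ _ _ _ _ _ _ h2)

theorem conj (h : Blk p σ ω R C) {n : GL (Fin 3) F} (hn : n ∈ N3) (hx : (a, b, c) ∈ C) :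
    (n * a * n⁻¹, n * b * n⁻¹, n * c * n⁻¹) ∈ C := by
  obtain ⟨m, e, hm⟩ := h.diag n hn
  simp only [conj_eq_of_pg e]
  exact mul_mem (mul_mem hm hx) (inv_mem hm)

theorem normsG (h : Blk p σ ω R C) {S T : Subgroup (GL (Fin 3) F)} (hS : NormsG N3 S)
    (hT : NormsG N3 T) : NormsG N3 (pr C S T) := fun n hn x hx => by
  obtain ⟨b, hb, c, hc, e⟩ := mem_pr.1 hx
  exact mem_pr.2 ⟨_, hS n hn b hb, _, hT n hn c hc, h.conj hn e⟩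

theorem big (hc : Ctx p σ ω R) (h : Blk p σ ω R C) (hq : QS (Sm (Fin 3) p σ))
    (hA : Sm (Fin 3) p σ ≤ pr C ⊤ ⊤) : Sm (Fin 3) p σ ≤ pr C ⊥ ⊥ := by
  have hd := hc.wy.dd_mem
  have hy : ∀ x ∈ R, ∀ y ∈ Sm (Fin 3) p σ, x * y * x⁻¹ ∈ Sm (Fin 3) p σ := fun x hx y =>
    conj_mem_Sm (hc.wy.le_Sm hc.om hx).1
  have h1 : Sm (Fin 3) p σ ≤ pr C ⊤ ⊥ := by
    refine hq.le_of_norm (fun g hg x hx => ?_)
      (mem_pr.2 ⟨_, trivial, _, rfl, h.rot _ _ _ (h.rot _ _ _ (h.cp _ hd))⟩) (hy _ hd)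
      (w3_zero (ω := ω) ▸ hc.wy.notMem e0_ne)
    obtain ⟨b, -, c, -, e⟩ := mem_pr.1 (hA hg)
    obtain ⟨y, -, _, rfl, e'⟩ := mem_pr.1 hx
    exact mem_pr.2 ⟨_, trivial, _, by simp, mul_mem (mul_mem e e') (inv_mem e)⟩
  have h2 : Sm (Fin 3) p σ ≤ pr C ⊥ ⊤ := by
    refine hq.le_of_norm (fun g hg x hx => ?_)
      (mem_pr.2 ⟨_, rfl, _, trivial, h.rot _ _ _ (h.cp _ hd)⟩) (hy _ (mul_mem hd hd)) ?_
    · obtain ⟨b, -, c, -, e⟩ := mem_pr.1 (hA hg)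
      obtain ⟨_, rfl, y, -, e'⟩ := mem_pr.1 hx
      exact mem_pr.2 ⟨_, by simp, _, trivial, mul_mem (mul_mem e e') (inv_mem e)⟩
    · rw [← w3_zero, hc.wy.two]
      exact hc.wy.notMem (neg_ne_zero.2 e0_ne)
  rw [← hq.perfect, Subgroup.commutator_le]
  exact fun x hx y hy => comm_mem_pr (h1 hx) (h2 hy)

theorem normsG_bot : NormsG N3 (⊥ : Subgroup (GL (Fin 3) F)) := fun _ _ x hx => by
  rw [Subgroup.mem_bot.1 hx]; simp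

theorem normsG_top : NormsG N3 (⊤ : Subgroup (GL (Fin 3) F)) := fun _ _ _ _ => trivial

theorem odd_case (hc : Ctx p σ ω R) (h : Blk p σ ω R C) (hA : pr C ⊤ ⊤ ≤ N3)
    (ha : pg a = 1) (hb : pg b = 1) {v : U2} (hv : v ≠ 0) (e : pg c = pg (w3 ω v))
    (hx : (a, b, c) ∈ C) : Sm (Fin 3) p σ ≤ pr C ⊥ ⊥ := by
  have w := hc.wy
  obtain ⟨l, rfl⟩ := pg_eq.1 e
  have h1 : R ≤ pr C ⊥ ⊥ := by
    refine w.le_of_W (h.normsG normsG_bot normsG_bot) (neg_ne_zero.2 hv) (mem_pr_bot.2 ?_)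
    have := h.rot _ _ _ (mul3 hx (inv3 (h.conj w.sw_norm hx)))
    rw [conj_of_mem_scalars (pg_eq_one.1 ha), conj_of_mem_scalars (pg_eq_one.1 hb),
      ← mul_assoc (D3.sw F), ← sc_mul_comm,
      mul_assoc (sc _ l) (D3.sw F), mul_assoc (sc _ l) (D3.sw F * _), sw_w3 w.cube, w.neg,
      sc_mul_comm l, sc_mul_comm l, mul_inv_cancel, mul_inv_cancel] at this
    rw [← w.two]
    convert this using 2
    rw [_root_.mul_inv_rev, ← map_inv, inv_inv, mul_assoc, ← mul_assoc (sc _ l), ← map_mul]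
    simp
  have h2 : (dg3 1 1 ω, (dg3 1 1 ω)⁻¹, 1) ∈ C := by
    have := h.rot _ _ _ (h.rot _ _ _ (mem_pr_bot.1 (h1 w.dd_mem)))
    rw [← dg3_one] at this
    simpa [dg3_one, dg3_inv] using h.tr _ _ _ _ _ _ _ _ _ this
  have h3 : ∀ L, NormsG N3 L → pr C ⊥ ⊥ ≤ L → dg3 1 1 ω ∈ L → ∀ n ∈ N3, ∃ l ∈ L, pg n = pg l :=
    fun L hL hE ht n => w.exists_pg_of_surj (fun v => hE (h1 (w.W_mem v)))
      (w.surj_of_spT hL e0_ne ht w.act_tau)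
  have h4 : ∀ n ∈ N3, ∀ m ∈ N3, n * m * n⁻¹ * m⁻¹ ∈ pr C ⊥ ⊥ := fun n hn m hm => by
    obtain ⟨x, hx, e⟩ := h3 _ (h.normsG normsG_top normsG_bot)
      (fun x hx => mem_pr.2 ⟨_, trivial, _, rfl, mem_pr_bot.1 hx⟩)
      (mem_pr.2 ⟨_, trivial, _, rfl, h2⟩) n hn
    obtain ⟨y, hy, e'⟩ := h3 _ (h.normsG normsG_bot normsG_top)
      (fun x hx => mem_pr.2 ⟨_, rfl, _, trivial, mem_pr_bot.1 hx⟩)
      (mem_pr.2 ⟨1, rfl, _, trivial, by simpa using h.rot _ _ _ (h.rot _ _ _ (inv3 h2))⟩) m hm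
    rw [comm_eq_of_pg e e']
    exact comm_mem_pr hx hy
  by_cases h5 : (2 : F) = 0
  swap
  · obtain ⟨x, hx, y, hy, e⟩ := w.sw_eq
    exact absurd (w.dd_neg (hA (mem_pr.2 ⟨_, trivial, _, trivial,
      h.rot _ _ _ (h.sw (mem_pr_bot.1 (e ▸ h4 x hx y hy)))⟩))) h5
  obtain ⟨h6, h7⟩ := hc.two h5
  have h8 : ∀ j : ZMod 3, pw (dg3 1 1 ω) j = dg3 1 1 (pw ω j) := fun j => by
    rw [pw, dg3_pow, one_pow]; rfl
  have h9 : dg3 1 1 ω ^ 3 = 1 := by rw [dg3_pow, w.cube, one_pow, dg3_one]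
  have hE := h.normsG normsG_bot normsG_bot
  let L : Subgroup (GL (Fin 3) F) :=
    { carrier := {l | ∃ j, l * pw (dg3 1 1 ω) j ∈ pr C ⊥ ⊥}
      one_mem' := ⟨0, by rw [pw_zero, mul_one]; exact one_mem _⟩
      mul_mem' := fun {x y} ⟨i, hi⟩ ⟨j, hj⟩ => ⟨j + i, by
        simpa [pw_add h9, mul_assoc] using
          mul_mem hi (hE _ (inv_mem (pw_mem w.tau_norm i)) _ hj)⟩
      inv_mem' := fun {x} ⟨i, hi⟩ => ⟨-i, by
        simpa [pw_neg h9, mul_assoc] using hE _ (pw_mem w.tau_norm i) _ (inv_mem hi)⟩ }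
  intro x hx
  obtain ⟨y, ⟨j, hj⟩, e⟩ := h3 L (fun n hn y ⟨j, hj⟩ => ⟨j, by
      simpa [mul_assoc] using mul_mem (hE n hn _ hj)
        (h4 n hn _ (inv_mem (pw_mem w.tau_norm j)))⟩)
    (fun y hy => ⟨0, by rwa [pw_zero, mul_one]⟩)
    ⟨-1, by rw [pw_neg h9, pw_one, mul_inv_cancel]; exact one_mem _⟩ x (h6 hx)
  obtain ⟨d, rfl⟩ := pg_eq.1 e
  have h10 := (mem_specialLinear_iff _).1 (mul_mem (inv_mem (mul_mem (inv_mem (sc_mem_sl (h7 d)))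
    hx.2)) (h.det _ (mem_pr_bot.1 hj)))
  rw [inv_mul_cancel_left, inv_mul_cancel_left, h8, det_dg3] at h10
  rw [h8, show pw ω j = 1 by simpa using h10, dg3_one, mul_one] at hj
  exact mul_mem (h1 (w.sc_mem (h7 d))) hj

theorem main (hc : Ctx p σ ω R) (h : Blk p σ ω R C) : (∀ a ∈ Sm (Fin 3) p σ, (a, 1, 1) ∈ C) ∨
    ∀ x ∈ C, ∃ n ∈ N3, ∃ r ∈ R, ∃ a b c : Fˣ, dg3 a b c ∈ N3 ∧
      x = (n, n, n) * (1, r, r * r) * (sc (Fin 3) a, sc (Fin 3) b, sc (Fin 3) c) := by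
  have w := hc.wy
  rcases hc.k3 (pr C ⊤ ⊤) (fun a ha => by
      obtain ⟨b, -, c, -, e⟩ := mem_pr.1 ha
      exact h.am _ _ _ e) (fun n hn => mem_pr.2 ⟨_, trivial, _, trivial, h.sm n hn⟩)
      (mem_pr.2 ⟨_, trivial, _, trivial, h.tv⟩) with hA | ⟨hA, -, hq⟩
  swap
  · exact Or.inl fun a ha => mem_pr_bot.1 (h.big hc hq hA ha)
  refine or_iff_not_imp_left.2 fun hne => ?_
  have h0 : ∀ a b c, (a, b, c) ∈ C → a ∈ N3 := fun a b c e =>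
    hA (mem_pr.2 ⟨_, trivial, _, trivial, e⟩)
  have h1 : ∀ a b c u v, (a, b, c) ∈ C → pg a = 1 → pg b = pg (w3 ω u) → pg c = pg (w3 ω v) →
      u + v = 0 := fun a b c u v e ha hb hc' => by
    by_contra hv
    refine hne fun a ha' => mem_pr_bot.1 
      (h.odd_case hc hA ?_ ?_ hv ?_ (mul3 e (inv3 (h.cp _ (w.W_mem u)))) ha')
    · simpa using ha
    · rw [map_mul, map_inv, hb, mul_inv_cancel]
    · rw [w.two, w.neg, inv_inv, map_mul, hc', ← w.pg_add, add_comm]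
  rintro ⟨x, y, z⟩ e
  obtain ⟨m, e1, hm⟩ := h.diag x (h0 _ _ _ e)
  have e2 : (m⁻¹ * x, m⁻¹ * y, m⁻¹ * z) ∈ C := mul_mem (inv_mem hm) e
  have e3 : pg (m⁻¹ * x) = 1 := by rw [map_mul, map_inv, e1, inv_mul_cancel]
  obtain ⟨g, hg⟩ := w.exists_act (h0 _ _ _ (h.rot _ _ _ (h.rot _ _ _ e2)))
  obtain ⟨k, hk⟩ := w.exists_act (h0 _ _ _ (h.rot _ _ _ e2))
  have h2 : ∀ v, g.1 v - v + (k.1 v - v) = 0 := fun v => by
    refine h1 _ _ _ _ _ (mul3 e2 (h.conj (w.W_norm v) (inv3 e2))) ?_ ?_ ?_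
    · generalize m⁻¹ * x = x' at e3
      simp only [map_mul, map_inv, e3]; group
    · rw [sub_eq_add_neg, w.pg_add, w.neg, ← hg]; simp only [map_mul, map_inv]; group
    · rw [sub_eq_add_neg, w.pg_add, w.neg, ← hk]; simp only [map_mul, map_inv]; group
  have h3 : ∀ v, g.1 v - v + (k.1 (-v) - -v) = 0 := fun v => by
    have hv := h.cp _ (w.W_mem v)
    refine h1 _ _ _ _ _ (mul3 (mul3 (mul3 e2 hv) (inv3 e2)) (inv3 hv)) ?_ ?_ ?_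
    · simp
    · rw [sub_eq_add_neg, w.pg_add, w.neg, ← hg]; simp only [map_mul, map_inv]
    · rw [sub_eq_add_neg, w.pg_add, w.neg, ← hk, w.two]; simp only [map_mul, map_inv]
  have h4 : ∀ v, g.1 v = v ∧ k.1 v = v := fun v => by
    have a1 := h2 v
    have a2 := h3 v
    rw [map_neg] at a2
    have a3 : ∀ x : U2, x + x = 0 → x = 0 := by decide
    have a4 := a3 (g.1 v - v) (by linear_combination a1 + a2)
    exact ⟨sub_eq_zero.1 a4, by linear_combination a1 - a4⟩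
  obtain ⟨u, hu⟩ := w.act_id (hg.of_eq fun v => (h4 v).1)
  obtain ⟨v, hv⟩ := w.act_id (hk.of_eq fun v => (h4 v).2)
  obtain rfl := eq_neg_of_add_eq_zero_right (h1 _ _ _ _ _ e2 e3 hu hv)
  obtain ⟨a, ha⟩ := (mem_scalars_iff_sc _).1 (pg_eq_one.1 e3)
  obtain ⟨b, hb⟩ := pg_eq.1 hu
  obtain ⟨c, hc'⟩ := pg_eq.1 hv
  rw [← w.two] at hc'
  have e4 : (sc (Fin 3) a, sc (Fin 3) b, sc (Fin 3) c) ∈ C := by
    have := mul3 e2 (inv3 (h.cp _ (w.W_mem u)))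
    rwa [← ha, hb, hc', mul_inv_cancel_right, mul_inv_cancel_right, inv_one, mul_one] at this
  refine ⟨m, h0 _ _ _ hm, _, w.W_mem u, a, b, c, ?_, ?_⟩
  · simp only [← dg3_self] at e4
    exact h0 _ _ _ (h.tr _ _ _ _ _ _ _ _ _ e4)
  · rw [sc_mul_comm] at hb hc'
    simp only [Prod.mk_mul_mk, mul_assoc m, ← hb, ← hc', ha]
    simp

end Blk

end Cfsg.Agent.Cl.C9
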