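/-
Normalisers of `3^(1+4)` in `SL₉` and `SU₉`: centralisers of the Weyl operators.
-/
import Mathlib
import Cfsg.Agent.Cl.C9Blk
import Cfsg.Agent.Cl.MaxAschU

set_option autoImplicit false
set_option linter.unusedSectionVars false
set_option linter.unusedSimpArgs false

namespace Cfsg.Agent.Cl.C9

open Matrix Cfsg.Geo Cfsg.Agent.Cl.Max Cfsg.Agent.Cl.Mx Cfsg.Agent.Cl.D3
open scoped Kronecker

variable {F : Type*} [Field F] {ω : Fˣ} {p : Prop} {σ : F →+* F}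
  {R : Subgroup (GL (Fin 3) F)} {S M : Subgroup (GL (Fin 3 × Fin 3) F)}
  {a b c a' b' : GL (Fin 3) F} {g k : GL (Fin 3 × Fin 3) F}

local notation "M3" => Matrix (Fin 3) (Fin 3) F
local notation "I9" => Fin 3 × Fin 3
local notation "M9" => Matrix (Fin 3 × Fin 3) (Fin 3 × Fin 3) F
local notation "N3" => subgroupNormalizer R
local notation "N9" => subgroupNormalizer S

/-! ### Kronecker products -/

/-- The Kronecker product as a homomorphism. -/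
def kr : GL (Fin 3) F × GL (Fin 3) F →* GL I9 F :=
  MonoidHom.mk' (fun x => kronG x.1 x.2) fun _ _ => (kronG_mul _ _ _ _).symm

theorem coe_kr (a b : GL (Fin 3) F) : (kr (a, b) : M9) = (a : M3) ⊗ₖ (b : M3) := rfl

theorem kr_mul (a b a' b' : GL (Fin 3) F) : kr (a, b) * kr (a', b') = kr (a * a', b * b') :=
  kronG_mul _ _ _ _

theorem kr_inv (a b : GL (Fin 3) F) : (kr (a, b))⁻¹ = kr (a⁻¹, b⁻¹) := kronG_inv _ _

theorem kr_one : kr ((1 : GL (Fin 3) F), (1 : GL (Fin 3) F)) = 1 := map_one kr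

theorem kr_sc (c d : Fˣ) : kr (sc (Fin 3) c, sc (Fin 3) d) = sc I9 (c * d) := Units.ext (by
  rw [coe_kr, coe_sc, coe_sc, coe_sc, smul_kronecker, kronecker_smul, one_kronecker_one, smul_smul,
    Units.val_mul])

theorem kr_sc_left (c : Fˣ) : kr (sc (Fin 3) c, 1) = sc I9 c := by
  rw [← map_one (sc (Fin 3)), kr_sc, mul_one]

theorem kr_sc_right (c : Fˣ) : kr (1, sc (Fin 3) c) = sc I9 c := by
  rw [← map_one (sc (Fin 3)), kr_sc, one_mul]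

theorem kr_sc_mul (c d : Fˣ) (a b : GL (Fin 3) F) :
    kr (sc (Fin 3) c * a, sc (Fin 3) d * b) = sc I9 (c * d) * kr (a, b) := by rw [← kr_sc, kr_mul]

theorem pg_kr (h : pg a = pg a') (h' : pg b = pg b') : pg (kr (a, b)) = pg (kr (a', b')) := by
  obtain ⟨c, rfl⟩ := pg_eq.1 h
  obtain ⟨d, rfl⟩ := pg_eq.1 h'
  exact pg_eq.2 ⟨_, kr_sc_mul _ _ _ _⟩

theorem det_kr (a b : GL (Fin 3) F) : (kr (a, b) : M9).det = (a : M3).det ^ 3 * (b : M3).det ^ 3 := by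
  rw [coe_kr, det_kronecker]; rfl

theorem kr_mem_Am (ha : a ∈ Am (Fin 3) p σ) (hb : b ∈ Am (Fin 3) p σ) : kr (a, b) ∈ Am I9 p σ :=
  ha.elim Or.inl fun ha => hb.imp_right fun hb => by
    have : ((a : M3) ⊗ₖ (b : M3)).map σ = (a : M3).map σ ⊗ₖ (b : M3).map σ := by
      ext i j; simp
    rw [coe_kr, this, ← kroneckerMap_transpose, ← mul_kronecker_mul, ha, hb, one_kronecker_one]

theorem kr_mem_Sm (ha : a ∈ Sm (Fin 3) p σ) (hb : b ∈ Sm (Fin 3) p σ) : kr (a, b) ∈ Sm I9 p σ :=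
  ⟨kr_mem_Am ha.1 hb.1, (mem_specialLinear_iff _).2 (by
    rw [det_kr, (mem_specialLinear_iff _).1 ha.2, (mem_specialLinear_iff _).1 hb.2]; simp)⟩

theorem kr_mulVec (a b : GL (Fin 3) F) (x : I9 → F) (i j : Fin 3) :
    ((kr (a, b) : M9) *ᵥ x) (i, j) = ∑ k, ∑ l, (a : M3) i k * (b : M3) j l * x (k, l) :=
  kron_mulVec_apply _ _ _ _

/-- The Weyl operators in dimension nine. -/
def W9 (ω : Fˣ) (u : U4) : GL I9 F := kr (w3 ω ![u 0, u 1], w3 ω ![u 2, u 3])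

theorem W9_mk (u v : U2) : W9 ω ![u 0, u 1, v 0, v 1] = kr (w3 ω u, w3 ω v) := by
  rw [W9]; congr 3

theorem w3_nil : w3 ω ![0, 0] = 1 := by simp [w3, pw_zero]

theorem wy0_nine (h1 : ω ≠ 1) (h3 : ω ^ 3 = 1) : Wy0 B4 ω (W9 ω) where
  ne := h1
  cube := h3
  alt := B4_alt
  nd := B4_nd
  mul u v := by
    rw [W9, W9, W9, kr_mul, (wy0_three h1 h3).mul, (wy0_three h1 h3).mul, kr_sc_mul, ← pw_add h3,
      B4_apply, B2_apply, B2_apply]
    simp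

theorem kr_mem_of (w : Wy B2 ω (w3 ω) R) (hS : ∀ g, g ∈ S ↔ ∃ a v, g = sc I9 (pw ω a) * W9 ω v)
    (ha : a ∈ R) (hb : b ∈ R) : kr (a, b) ∈ S := by
  obtain ⟨i, u, rfl⟩ := (w.mem _).1 ha
  obtain ⟨j, v, rfl⟩ := (w.mem _).1 hb
  exact (hS _).2 ⟨i + j, _, by rw [kr_sc_mul, W9_mk, pw_add w.cube]⟩

theorem wy_nine (h1 : ω ≠ 1) (h3 : ω ^ 3 = 1) : Wy B4 ω (W9 ω) (wy0_nine h1 h3).grp := by
  have w := wy_three h1 h3
  refine ⟨wy0_nine h1 h3, fun _ => Iff.rfl,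
    (spans_kronHom (Equiv.refl _) 1 w.spans w.spans).mono ?_⟩
  rintro _ ⟨⟨a, b⟩, ⟨ha, hb⟩, rfl⟩
  convert kr_mem_of w (S := (wy0_nine h1 h3).grp) (fun _ => Iff.rfl) ha hb using 1
  refine Units.ext ((coe_trG _ _ _).trans ?_)
  rw [tr_apply, cj_one]
  rfl

theorem Wy.le_nine (v : Wy B4 ω (W9 ω) S) (w : Wy B2 ω (w3 ω) R) (h1 : ∀ a ∈ R, kr (a, 1) ∈ M)
    (h2 : kr (1, dd ω) ∈ M) (h3 : kr (1, sh F) ∈ M) : S ≤ M := fun g hg => by
  obtain ⟨i, u, rfl⟩ := (v.mem _).1 hg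
  have h4 : ∀ c : Fˣ, c ^ 3 = 1 → sc I9 c ∈ M := fun c hc => kr_sc_left c ▸ h1 _ (w.sc_mem hc)
  have h5 : R ≤ M.comap (kr.comp (MonoidHom.inr _ _)) :=
    w.le_three (show kr (1, _) ∈ M from (kr_sc_right ω).symm ▸ h4 _ w.cube) h2 h3
  refine mul_mem (h4 _ (pw_cube w.cube _)) ?_
  simpa [W9, kr_mul] using mul_mem (h1 _ (w.W_mem ![u 0, u 1])) (h5 (w.W_mem ![u 2, u 3]))

/-! ### Block matrices -/

theorem gl_ext_inb (h : ∀ i y, (g : M9) *ᵥ inb i y = (k : M9) *ᵥ inb i y) : g = k :=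
  gl_ext fun x => by
    rw [← sum_inb_blk x, mulVec_sum, mulVec_sum]
    exact Finset.sum_congr rfl fun i _ => h i _

theorem bm_mul (π τ : Equiv.Perm (Fin 3)) (A B : Fin 3 → GL (Fin 3) F) :
    bm π A * bm τ B = bm (π * τ) fun i => A (τ i) * B i :=
  gl_ext_inb fun i y => by simp only [mul_mulVec, bm_mulVec_inb, Equiv.Perm.mul_apply]

/-- Block-diagonal matrices. -/
noncomputable def bd : GL (Fin 3) F × GL (Fin 3) F × GL (Fin 3) F →* GL I9 F :=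
  MonoidHom.mk' (fun x => bm 1 ![x.1, x.2.1, x.2.2]) fun x y => by
    rw [bm_mul, one_mul]; congr 1; ext1 i; fin_cases i <;> rfl

theorem bd_eq (A : Fin 3 → GL (Fin 3) F) : bm 1 A = bd (A 0, A 1, A 2) := by
  change _ = bm 1 _; congr 1; ext1 i; fin_cases i <;> rfl

theorem bd_apply (a b c : GL (Fin 3) F) (i j k l : Fin 3) :
    (bd (a, b, c) : M9) (i, j) (k, l) = if j = l then (![a, b, c] l : M3) i k else 0 := rfl

theorem bd_mul (a b c a' b' c' : GL (Fin 3) F) :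
    bd (a, b, c) * bd (a', b', c') = bd (a * a', b * b', c * c') := (map_mul bd _ _).symm

theorem bd_inv (a b c : GL (Fin 3) F) : (bd (a, b, c))⁻¹ = bd (a⁻¹, b⁻¹, c⁻¹) :=
  (map_inv bd _).symm

theorem bd_mulVec (a b c : GL (Fin 3) F) (x : I9 → F) (i j : Fin 3) :
    ((bd (a, b, c) : M9) *ᵥ x) (i, j) = ∑ k, (![a, b, c] j : M3) i k * x (k, j) :=
  congrFun (blk_bm 1 ![a, b, c] x j) i

theorem det_bd (a b c : GL (Fin 3) F) :
    (bd (a, b, c) : M9).det = (a : M3).det * (b : M3).det * (c : M3).det :=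
  (det_bm 1 ![a, b, c]).trans (by simp [Fin.prod_univ_three])

theorem bm_mem_Am {A : Fin 3 → GL (Fin 3) F} : bm 1 A ∈ Am I9 p σ ↔ ∀ i, A i ∈ Am (Fin 3) p σ := by
  have e : (bm 1 A : M9) = blockDiagonal fun i => (A i : M3) := by
    ext ⟨i, j⟩ ⟨k, l⟩
    by_cases h : j = l <;> simp [coe_bm, bmM, blockDiagonal_apply, h]
  by_cases hp : p
  · simp [mem_Am, hp]
  simp only [mem_Am, hp, false_or]
  rw [e, blockDiagonal_transpose, blockDiagonal_map _ _ (map_zero σ), ← blockDiagonal_mul,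
    ← blockDiagonal_one, blockDiagonal_inj, funext_iff]
  rfl

theorem bd_diag (a : GL (Fin 3) F) : bd (a, a, a) = kr (a, 1) := Units.ext (by
  ext ⟨i, j⟩ ⟨k, l⟩
  rw [bd_apply, coe_kr]
  fin_cases l <;> simp [one_apply])

theorem bd_sc (a b c : Fˣ) :
    bd (sc (Fin 3) a, sc (Fin 3) b, sc (Fin 3) c) = kr (1, dg3 a b c) := Units.ext (by
  ext ⟨i, j⟩ ⟨k, l⟩
  rw [bd_apply, coe_kr]
  fin_cases j <;> fin_cases l <;> simp [coe_sc, coe_dg3, mul_comm])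

theorem kr_sh : kr (1, sh F) = bm (finRotate 3) 1 := Units.ext (by
  ext ⟨i, j⟩ ⟨k, l⟩
  rw [coe_kr, coe_bm]
  fin_cases j <;> fin_cases l <;> simp [coe_sh, bmM])

theorem kr_sw : kr (1, sw F) = bm (Equiv.swap 0 1) (-1) := Units.ext (by
  ext ⟨i, j⟩ ⟨k, l⟩
  rw [coe_kr, coe_bm]
  fin_cases j <;> fin_cases l <;> simp [coe_sw, bmM, Equiv.swap_apply_def])

theorem sh_bd (a b c : GL (Fin 3) F) :
    kr (1, sh F) * bd (a, b, c) * (kr (1, sh F))⁻¹ = bd (c, a, b) := by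
  rw [mul_inv_eq_iff_eq_mul, kr_sh]
  refine (bm_mul _ _ _ _).trans (Eq.trans ?_ (bm_mul _ _ _ _).symm)
  congr 1; ext1 i; fin_cases i <;> simp

theorem exists_bd (h1 : ω ≠ 1) (h3 : ω ^ 3 = 1) (h : g * kr (1, dd ω) = kr (1, dd ω) * g) :
    ∃ x, g = bd x := by
  have h4 := root_of h1 h3
  have h5 : (ω : F) ≠ 1 := by simpa using h1
  have e : ∀ (x : I9 → F) i j, ((kr (1, dd ω) : M9) *ᵥ x) (i, j) = ![(ω : F), ω * ω, 1] j * x (i, j) :=
    fun x i j => by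
      rw [kr_mulVec, dd, inv_eq_sq h3]
      fin_cases i <;> fin_cases j <;> simp [coe_dg3, Fin.sum_univ_three]
  obtain ⟨A, rfl⟩ := exists_bm (g := g) (σ := 1) fun i y k hk => funext fun j => by
    have e1 : (kr (1, dd ω) : M9) *ᵥ inb i y = ![(ω : F), ω * ω, 1] i • inb i y := by
      ext ⟨a, b⟩
      rw [e]
      by_cases hb : b = i <;> simp [inb, hb]
    have := congrFun (congrArg (fun g : GL I9 F => (g : M9) *ᵥ inb i y) h) (j, k)
    simp only [mul_mulVec, e, e1, mulVec_smul, Pi.smul_apply, smul_eq_mul] at this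
    refine (mul_eq_mul_right_iff.1 this).resolve_left ?_
    have := ω.ne_zero
    fin_cases i <;> fin_cases k <;> simp at hk ⊢ <;> grind
  exact ⟨_, bd_eq A⟩

variable (F) in
/-- The exchange of the two tensor factors. -/
def sg : GL I9 F := ofLin (LinearEquiv.funCongrLeft F F (Equiv.prodComm _ _))

theorem sg_conj (g : GL I9 F) (x : I9 → F) (i j : Fin 3) :
    ((sg F * g * (sg F)⁻¹ : GL I9 F) : M9).mulVec x (i, j) =
      ((g : M9) *ᵥ fun q => x q.swap) (j, i) := by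
  rw [mul_mulVec, mul_mulVec, sg, ofLin_mulVec, ofLin_inv_mulVec]; rfl

theorem sg_kr (a b : GL (Fin 3) F) : sg F * kr (a, b) * (sg F)⁻¹ = kr (b, a) :=
  gl_ext fun x => funext fun ⟨i, j⟩ => by
    rw [sg_conj, kr_mulVec, kr_mulVec, Finset.sum_comm]
    simp only [mul_comm ((a : M3) _ _), Prod.swap_prod_mk]

theorem sg_dg (a b c d e f g h i : Fˣ) :
    sg F * bd (dg3 a b c, dg3 d e f, dg3 g h i) * (sg F)⁻¹ = bd (dg3 a d g, dg3 b e h, dg3 c f i) :=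
  gl_ext fun x => funext fun ⟨i, j⟩ => by
    rw [sg_conj, bd_mulVec, bd_mulVec]
    fin_cases i <;> fin_cases j <;> simp [coe_dg3, Fin.sum_univ_three]

theorem sg_sw : sg F * bd (sw F, 1, 1) * (sg F)⁻¹ * bd (1, 1, sw F) =
    bd (1, 1, dd (-1) * sw F) * (sg F * bd (sw F, 1, 1) * (sg F)⁻¹) :=
  gl_ext fun x => funext fun ⟨i, j⟩ => by
    rw [mul_mulVec, mul_mulVec (bd _), sg_conj, bd_mulVec, bd_mulVec]
    simp only [sg_conj, bd_mulVec, Prod.swap_prod_mk]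
    fin_cases i <;> fin_cases j <;>
      simp [coe_dg3, coe_sw, Fin.sum_univ_three, mul_apply, one_apply]

/-! ### Elements of the normaliser -/

variable [Finite F]

theorem Wy.norm_of (v : Wy B4 ω (W9 ω) S) (w : Wy B2 ω (w3 ω) R)
    (h1 : ∀ a ∈ R, k * kr (a, 1) * k⁻¹ ∈ S) (h2 : k * kr (1, dd ω) * k⁻¹ ∈ S)
    (h3 : k * kr (1, sh F) * k⁻¹ ∈ S) : k ∈ N9 :=
  Subgroup.mem_normalizer_fintype fun _ hr =>
    v.le_nine w (M := S.comap (MulAut.conj k).toMonoidHom) h1 h2 h3 hr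

theorem Wy.kr_norm (v : Wy B4 ω (W9 ω) S) (w : Wy B2 ω (w3 ω) R) (ha : a ∈ N3) (hb : b ∈ N3) :
    kr (a, b) ∈ N9 := by
  have h : ∀ x ∈ R, ∀ y ∈ R, kr (a, b) * kr (x, y) * (kr (a, b))⁻¹ ∈ S := fun x hx y hy => by
    rw [kr_inv, kr_mul, kr_mul]
    exact kr_mem_of w v.mem (normsG_subgroupNormalizer R a ha x hx)
      (normsG_subgroupNormalizer R b hb y hy)
  exact v.norm_of w (fun x hx => h x hx 1 (one_mem _)) (h 1 (one_mem _) _ w.dd_mem)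
    (h 1 (one_mem _) _ w.sh_mem)

theorem Wy.sg_norm (v : Wy B4 ω (W9 ω) S) (w : Wy B2 ω (w3 ω) R) : sg F ∈ N9 :=
  v.norm_of w (fun x hx => sg_kr x 1 ▸ kr_mem_of w v.mem (one_mem _) hx)
    (sg_kr 1 (dd ω) ▸ kr_mem_of w v.mem w.dd_mem (one_mem _))
    (sg_kr 1 (sh F) ▸ kr_mem_of w v.mem w.sh_mem (one_mem _))

theorem Wy.cp_norm (v : Wy B4 ω (W9 ω) S) (w : Wy B2 ω (w3 ω) R) (ha : a ∈ R) :
    bd (1, a, a * a) ∈ N9 := by
  refine v.norm_of w (fun x hx => ?_) ?_ ?_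
  · obtain ⟨j, e⟩ : ∃ j, a * x * a⁻¹ = sc (Fin 3) (pw ω j) * x := by
      obtain ⟨_, u, rfl⟩ := (w.mem _).1 ha
      obtain ⟨i, u', rfl⟩ := (w.mem _).1 hx
      refine ⟨B2 u' u, ?_⟩
      rw [conj_eq_of_pg (pg_eq.2 ⟨_, rfl⟩), ← mul_assoc, ← sc_mul_comm, mul_assoc, mul_assoc,
        ← mul_assoc (w3 ω u), w.conj, ← mul_assoc, ← mul_assoc, sc_mul_comm (pw ω i)]
    have e' : a * a * x * (a * a)⁻¹ = sc (Fin 3) (pw ω j * pw ω j) * x := by
      rw [show a * a * x * (a * a)⁻¹ = a * (a * x * a⁻¹) * a⁻¹ by group, e, ← mul_assoc,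
        ← sc_mul_comm, mul_assoc, mul_assoc, ← mul_assoc a, e, map_mul, mul_assoc]
    have e1 : dg3 1 ω (ω * ω) = sc (Fin 3) (ω * ω) * dd ω := by
      rw [sc_dg3, mul_inv_cancel_right, mul_one, ← pow_three', w.cube]
    have e2 : dg3 1 (pw ω j) (pw ω j * pw ω j) = pw (dg3 1 ω (ω * ω)) j := by
      rw [pw, pw, dg3_pow, one_pow, mul_pow]
    rw [← bd_diag, bd_inv, bd_mul, bd_mul, e, e', inv_one, mul_one, ← map_one (sc (Fin 3)),
      ← bd_mul, bd_diag, bd_sc, kr_mul, one_mul, mul_one, e2, e1]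
    exact kr_mem_of w v.mem hx (pw_mem (mul_mem (w.sc_mem (by
      rw [mul_pow, w.cube, one_mul])) w.dd_mem) _)
  · rw [← bd_sc, bd_inv, bd_mul, bd_mul, conj_of_mem_scalars (Max.sc_mem _),
      conj_of_mem_scalars (Max.sc_mem _), conj_of_mem_scalars (Max.sc_mem _), bd_sc]
    exact kr_mem_of w v.mem (one_mem _) w.dd_mem
  · have e : (a * a)⁻¹ = a := inv_eq_of_mul_eq_one_right (by rw [← pow_three', w.cube_of_mem ha])
    rw [show bd (1, a, a * a) * kr (1, sh F) * (bd (1, a, a * a))⁻¹ = bd (1, a, a * a) *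
      (kr (1, sh F) * (bd (1, a, a * a))⁻¹ * (kr (1, sh F))⁻¹) * kr (1, sh F) by group, bd_inv,
      sh_bd, bd_mul, e, one_mul, inv_one, mul_one, mul_inv_cancel_right, bd_diag, kr_mul]
    exact kr_mem_of w v.mem (by simpa using ha) (by simpa using w.sh_mem)

/-- A proper overgroup of the normaliser. -/
structure Ov (p : Prop) (σ : F →+* F) (ω : Fˣ) (R : Subgroup (GL (Fin 3) F))
    (S M : Subgroup (GL (Fin 3 × Fin 3) F)) : Prop where
  ctx : Ctx p σ ω R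
  wy : Wy B4 ω (W9 ω) S
  ge : subgroupNormalizer S ⊓ Sm (Fin 3 × Fin 3) p σ ≤ M
  le : M ≤ Sm (Fin 3 × Fin 3) p σ
  full : (∀ π A, bm π A ∈ Sm (Fin 3 × Fin 3) p σ → bm π A ∈ M) → ∀ g ∈ M, ∃ π A, g = bm π A

theorem W9_mem_Sm (h3 : ω ^ 3 = 1) (h : p ∨ ω * σ ω = 1) (u : U4) : W9 ω u ∈ Sm I9 p σ :=
  kr_mem_Sm (w3_mem_Sm h3 h _) (w3_mem_Sm h3 h _)

theorem sp4_perfect : commutator (SpG B4) = ⊤ :=
  sp_commutator_eq_top_of_four_le B4_nd B4_alt (by decide) (by simp)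

namespace Ov

theorem W_mem (h : Ov p σ ω R S M) (u : U4) : W9 ω u ∈ M :=
  h.ge ⟨h.wy.W_norm u, W9_mem_Sm h.wy.cube h.ctx.om u⟩

theorem surj (h : Ov p σ ω R S M) (g : SpG B4) : ∃ l ∈ M, Act (W9 ω) l g.1 := by
  obtain ⟨l, hl, e⟩ := h.wy.surj_Sm h.ctx.om (fun u => (W9_mem_Sm h.wy.cube h.ctx.om u).1)
    sp4_perfect g
  exact ⟨l, h.ge ⟨h.wy.mem_norm e, hl⟩, e⟩

theorem exists_pg (h : Ov p σ ω R S M) (hk : k ∈ N9) : ∃ l ∈ M, pg k = pg l :=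
  h.wy.exists_pg_of_surj h.W_mem h.surj hk

theorem conj (h : Ov p σ ω R S M) (hk : k ∈ N9) (hg : g ∈ M) : k * g * k⁻¹ ∈ M := by
  obtain ⟨l, hl, e⟩ := h.exists_pg hk
  rw [conj_eq_of_pg e]
  exact mul_mem (mul_mem hl hg) (inv_mem hl)

theorem kr_mem (h : Ov p σ ω R S M) (ha : a ∈ N3 ⊓ Sm (Fin 3) p σ) (hb : b ∈ N3 ⊓ Sm (Fin 3) p σ) :
    kr (a, b) ∈ M := h.ge ⟨h.wy.kr_norm h.ctx.wy ha.1 hb.1, kr_mem_Sm ha.2 hb.2⟩

theorem R_le (h : Ov p σ ω R S M) : R ≤ N3 ⊓ Sm (Fin 3) p σ :=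
  le_inf Subgroup.le_normalizer (h.ctx.wy.le_Sm h.ctx.om)

theorem sw_mem (h : Ov p σ ω R S M) : sw F ∈ N3 ⊓ Sm (Fin 3) p σ :=
  ⟨h.ctx.wy.sw_norm, sw_mem_Am, sw_mem_sl⟩

theorem t_Am (h : Ov p σ ω R S M) : dg3 ω ω 1 ∈ Am (Fin 3) p σ :=
  dg3_mem_Am (h.ctx.om.imp_right fun e => ⟨e, e, by simp⟩)

theorem det_t (h : Ov p σ ω R S M) : (dg3 ω ω 1 : M3).det ^ 3 = 1 := by
  rw [det_dg3, Units.val_one, mul_one, mul_pow, ← Units.val_pow_eq_pow_val, h.wy.cube]; simp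

theorem diag (h : Ov p σ ω R S M) (ha : a ∈ N3) : ∃ m, pg a = pg m ∧ kr (m, 1) ∈ M := by
  obtain ⟨l, hl, e⟩ := h.exists_pg (h.wy.kr_norm h.ctx.wy ha (one_mem _))
  obtain ⟨c, rfl⟩ := pg_eq.1 e.symm
  refine ⟨sc (Fin 3) c * a, (pg_eq.2 ⟨_, rfl⟩).symm, ?_⟩
  rwa [← kr_sc_left, kr_mul, one_mul] at hl

theorem blk (h : Ov p σ ω R S M) : Blk p σ ω R (M.comap bd) where
  am a b c e := bm_mem_Am.1 (h.le e).1 0
  det a e := by simpa [mem_specialLinear_iff, det_bd] using (mem_specialLinear_iff _).1 (h.le e).2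
  rot a b c e := by
    rw [Subgroup.mem_comap, ← sh_bd]
    exact h.conj (h.wy.kr_norm h.ctx.wy (one_mem _) (h.R_le h.ctx.wy.sh_mem).1) e
  diag n hn := by simpa only [Subgroup.mem_comap, bd_diag] using h.diag hn
  sm n hn := by rw [Subgroup.mem_comap, bd_diag]; exact h.kr_mem hn (one_mem _)
  tv := by
    rw [Subgroup.mem_comap, bd_diag]
    exact h.ge ⟨h.wy.kr_norm h.ctx.wy h.ctx.wy.t_norm (one_mem _), kr_mem_Am h.t_Am (one_mem _),
      (mem_specialLinear_iff _).2 (by rw [det_kr, h.det_t]; simp)⟩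
  cp r hr := by
    have h1 := (h.R_le hr).2
    refine h.ge ⟨h.wy.cp_norm h.ctx.wy hr, bm_mem_Am.2 fun i => ?_, (mem_specialLinear_iff _).2 ?_⟩
    · fin_cases i
      exacts [one_mem _, h1.1, mul_mem h1.1 h1.1]
    · simp [det_bd, (mem_specialLinear_iff _).1 h1.2]
  tr a b c d e f g i j hm := by
    rw [Subgroup.mem_comap, ← sg_dg]
    exact h.conj (h.wy.sg_norm h.ctx.wy) hm
  sw e := by
    have h1 := h.conj (h.wy.sg_norm h.ctx.wy) e
    have h2 := h.conj (h.wy.kr_norm h.ctx.wy (one_mem _) (inv_mem (h.R_le h.ctx.wy.sh_mem).1)) e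
    rw [← sh_bd 1 1 (sw F), ← inv_one, ← kr_inv, inv_one] at h2
    have h3 := mul_mem (mul_mem (mul_mem h1 h2) (inv_mem h1)) (inv_mem h2)
    simp only [inv_inv, mul_assoc (kr (1, sh F))⁻¹, inv_mul_cancel_left,
      inv_mul_cancel_right] at h3
    rw [sg_sw, mul_inv_cancel_right, bd_inv, bd_mul] at h3
    simpa using h3

theorem cent_dd (h : Ov p σ ω R S M) (hg : g ∈ M) (e : g * kr (1, dd ω) = kr (1, dd ω) * g) :
    g ∈ N9 := by
  have w := h.ctx.wy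
  rcases h.blk.main h.ctx with h1 | h1
  · obtain ⟨s, i, hi⟩ := exists_fou (root_of w.ne w.cube) w.ne
    obtain ⟨l, hl, e1⟩ := h.exists_pg (h.wy.kr_norm w (one_mem _) (w.fou_norm hi))
    have h2 : ∀ π : Equiv.Perm (Fin 3), ∃ B, bm π B ∈ M := fun π => by
      have a1 : ∃ B, bm (finRotate 3) B ∈ M := ⟨_, kr_sh (F := F) ▸
        h.kr_mem (one_mem _) (h.R_le w.sh_mem)⟩
      have a2 : ∃ B, bm (Equiv.swap 0 1) B ∈ M := ⟨_, kr_sw (F := F) ▸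
        h.kr_mem (one_mem _) h.sw_mem⟩
      have a4 : ∀ π : Equiv.Perm (Fin 3), (∃ B, bm π B ∈ M) → ∃ B, bm (finRotate 3 * π) B ∈ M :=
        fun π ⟨B, b1⟩ => by
          obtain ⟨A, hA⟩ := a1
          exact ⟨_, bm_mul _ _ A B ▸ mul_mem hA b1⟩
      rcases (show π = finRotate 3 ∨ π = finRotate 3 * finRotate 3 ∨
        π = finRotate 3 * (finRotate 3 * finRotate 3) ∨ π = Equiv.swap 0 1 ∨
        π = finRotate 3 * Equiv.swap 0 1 ∨ π = finRotate 3 * (finRotate 3 * Equiv.swap 0 1) by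
          revert π; decide) with rfl | rfl | rfl | rfl | rfl | rfl
      exacts [a1, a4 _ a1, a4 _ (a4 _ a1), a2, a4 _ a2, a4 _ (a4 _ a2)]
    obtain ⟨π, A, rfl⟩ := h.full (fun π A hA => by
      obtain ⟨B, b1⟩ := h2 π⁻¹
      have b3 := mul_mem (h.le b1) hA
      rw [bm_mul, inv_mul_cancel] at b3
      have b4 := h.blk.full h1 (bm_mem_Am.1 b3.1 0) (bm_mem_Am.1 b3.1 1) (bm_mem_Am.1 b3.1 2)
        (by rw [← det_bd, ← bd_eq fun i => B (π i) * A i]; exact (mem_specialLinear_iff _).1 b3.2)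
      rw [Subgroup.mem_comap, ← bd_eq (fun i => B (π i) * A i), ← inv_mul_cancel π, ← bm_mul] at b4
      exact (mul_mem_cancel_left b1).1 b4) l hl
    obtain ⟨c, hc⟩ := pg_eq.1 e1
    obtain ⟨j, hj⟩ := exists_ne (π 0)
    have h3 := kronG_mulVec_inb (1 : GL (Fin 3) F) i 0 (fun _ => 1) j
    rw [show kronG 1 i = kr (1, i) from rfl, hc, mul_mulVec, sc_mulVec, bm_mulVec_inb, blk_smul,
      blk_inb_ne hj, smul_zero] at h3
    have h4 : s ≠ 0 := left_ne_zero_of_mul_eq_one hi.inv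
    have h5 := (congrFun h3 0).symm
    fin_cases j <;> simp [hi.coe, h4] at h5
  · obtain ⟨x, rfl⟩ := exists_bd w.ne w.cube e
    obtain ⟨n, hn, r, hr, a, b, c, h2, rfl⟩ := h1 x hg
    rw [map_mul, map_mul, bd_diag, bd_sc]
    exact mul_mem (mul_mem (h.wy.kr_norm w hn (one_mem _)) (h.wy.cp_norm w hr))
      (h.wy.kr_norm w (one_mem _) h2)

theorem cent (h : Ov p σ ω R S M) {v : U4} (hv : v ≠ 0) (hk : k ∈ M)
    (e : pg k * pg (W9 ω v) = pg (W9 ω v) * pg k) : k ∈ N9 :=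
  h.wy.cent_of h.W_mem h.surj (u := ![0, 0, 1, 0]) (by decide) (fun g hg e => h.cent_dd hg (by
    simpa [W9, w3_nil, w3_zero] using e)) hv hk e

end Ov

end Cfsg.Agent.Cl.C9
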