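/-
Normalisers of `3^(1+4)` in `SL₉` and `SU₉`: the centraliser of a non-central involution.
-/
import Mathlib
import Cfsg.Agent.Cl.C9Nine
import Cfsg.Agent.Cl.C9Abs

set_option autoImplicit false
set_option linter.unusedSectionVars false
set_option linter.unusedSimpArgs false

namespace Cfsg.Agent.Cl.C9

open Matrix Cfsg.Geo Cfsg.Agent.Cl.Max Cfsg.Agent.Cl.Mx Cfsg.Agent.Cl.D3
open scoped Kronecker

variable {F : Type*} [Field F] {ω : Fˣ} {p : Prop} {σ : F →+* F}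
  {R : Subgroup (GL (Fin 3) F)} {S M : Subgroup (GL (Fin 3 × Fin 3) F)}
  {a b : GL (Fin 3) F} {g k : GL (Fin 3 × Fin 3) F}

local notation "M3" => Matrix (Fin 3) (Fin 3) F
local notation "I9" => Fin 3 × Fin 3
local notation "M9" => Matrix (Fin 3 × Fin 3) (Fin 3 × Fin 3) F
local notation "N3" => subgroupNormalizer R
local notation "N9" => subgroupNormalizer S

variable (F) in
/-- The embedding `v ↦ v ⊗ (e₀ - e₁)`. -/
def Dm : Matrix I9 (Fin 3) F := of fun q i => if q.1 = i then ![1, -1, 0] q.2 else 0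

variable (F) in
/-- A left inverse of `Dm`. -/
def Lm : Matrix (Fin 3) I9 F := of fun i q => if q = (i, 0) then 1 else 0

theorem Lm_Dm : Lm F * Dm F = 1 := by
  ext i j
  simp [Lm, Dm, mul_apply, one_apply, -mul_ite, ite_mul]

theorem Dm_Dm : Dm F * (Dm F)ᵀ = 1 + (kr (1, sw F) : M9) := by
  ext ⟨i, j⟩ ⟨k, l⟩
  rw [Matrix.add_apply, coe_kr]
  by_cases h : i = k <;> fin_cases j <;> fin_cases l <;>
    simp [Dm, mul_apply, one_apply, coe_sw, h, Ne.symm]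

theorem Dm_map : (Dm F).map σ = Dm F := by
  ext ⟨i, j⟩ k
  by_cases h : i = k <;> fin_cases j <;> simp [Dm, h]

/-- `g` acts as `a` on the image of `Dm` and on the quotient by the kernel of its transpose. -/
def Rs (g : GL I9 F) (a : GL (Fin 3) F) : Prop :=
  (g : M9) * Dm F = Dm F * (a : M3) ∧ (Dm F)ᵀ * (g : M9) = (a : M3) * (Dm F)ᵀ

theorem Rs.mul (h : Rs g a) (h' : Rs k b) : Rs (g * k) (a * b) :=
  ⟨by rw [Units.val_mul, Units.val_mul, Matrix.mul_assoc, h'.1, ← Matrix.mul_assoc, h.1,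
    Matrix.mul_assoc], by rw [Units.val_mul, Units.val_mul, ← Matrix.mul_assoc, h.2,
    Matrix.mul_assoc, h'.2, Matrix.mul_assoc]⟩

theorem rs_one : Rs (1 : GL I9 F) 1 := by simp [Rs]

theorem Rs.inv (h : Rs g a) : Rs g⁻¹ a⁻¹ := by
  constructor
  · calc _ = ((g⁻¹ : GL I9 F) : M9) * (Dm F * (a : M3)) * ((a⁻¹ : GL (Fin 3) F) : M3) := by
          rw [Matrix.mul_assoc, Matrix.mul_assoc, Units.mul_inv, Matrix.mul_one]
      _ = _ := by rw [← h.1, ← Matrix.mul_assoc, Units.inv_mul, Matrix.one_mul]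
  · calc _ = ((a⁻¹ : GL (Fin 3) F) : M3) * ((a : M3) * (Dm F)ᵀ) * ((g⁻¹ : GL I9 F) : M9) := by
          rw [← Matrix.mul_assoc, Units.inv_mul, Matrix.one_mul]
      _ = _ := by rw [← h.2, Matrix.mul_assoc, Matrix.mul_assoc, Units.mul_inv, Matrix.mul_one]

theorem Rs.pow (h : Rs g a) (n : ℕ) : Rs (g ^ n) (a ^ n) := by
  induction n with
  | zero => simpa using rs_one
  | succ n ih => rw [pow_succ, pow_succ]; exact ih.mul h

theorem Rs.unique (h : Rs g a) (h' : Rs g b) : a = b := Units.ext (by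
  have := congrArg (Lm F * ·) (h.1.symm.trans h'.1)
  simpa only [← Matrix.mul_assoc, Lm_Dm, Matrix.one_mul] using this)

theorem Rs.comm (h : Rs g a) : g * kr (1, sw F) = kr (1, sw F) * g := Units.ext (by
  have : (g : M9) * (Dm F * (Dm F)ᵀ) = Dm F * (Dm F)ᵀ * (g : M9) := by
    rw [← Matrix.mul_assoc, h.1, Matrix.mul_assoc, ← h.2, Matrix.mul_assoc]
  rwa [Dm_Dm, mul_add, add_mul, mul_one, one_mul, add_right_inj] at this)

theorem Rs.am (h : Rs g a) (hg : g ∈ Am I9 p σ) : a ∈ Am (Fin 3) p σ := hg.imp_right fun hg => by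
  have h1 := congrArg (·.map σ) h.1
  have h2 := congrArg transpose h.2
  simp only [Matrix.map_mul, Dm_map, transpose_mul, transpose_transpose] at h1 h2
  have h3 := congrArg (fun x => Lm F * ((g : M9)ᵀ * x)) h1
  simp only [← Matrix.mul_assoc] at h3
  rw [Matrix.mul_assoc (Lm F), hg, Matrix.mul_one, Lm_Dm, Matrix.mul_assoc (Lm F), h2,
    ← Matrix.mul_assoc, Lm_Dm, Matrix.one_mul] at h3
  exact h3.symm

theorem exists_rs (h : g * kr (1, sw F) = kr (1, sw F) * g) : ∃ a, Rs g a := by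
  have e : (Dm F)ᵀ * (Lm F)ᵀ = 1 := by rw [← transpose_mul, Lm_Dm, transpose_one]
  have h1 : ∀ g : GL I9 F, g * kr (1, sw F) = kr (1, sw F) * g → ∃ A : M3,
      (g : M9) * Dm F = Dm F * A ∧ (Dm F)ᵀ * (g : M9) = A * (Dm F)ᵀ := fun g h => by
    have h2 : (g : M9) * (Dm F * (Dm F)ᵀ) = Dm F * (Dm F)ᵀ * (g : M9) := by
      rw [Dm_Dm, mul_add, add_mul, mul_one, one_mul, ← Units.val_mul, h, Units.val_mul]
    have h3 : (g : M9) * Dm F = Dm F * ((Dm F)ᵀ * (g : M9) * (Lm F)ᵀ) := by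
      rw [← Matrix.mul_assoc, ← Matrix.mul_assoc, ← h2, Matrix.mul_assoc, Matrix.mul_assoc, e,
        Matrix.mul_one]
    refine ⟨_, h3, ?_⟩
    have h4 := congrArg (Lm F * ·) h2
    simp only [← Matrix.mul_assoc, Lm_Dm, Matrix.one_mul] at h4
    rw [Matrix.mul_assoc (Lm F), h3, ← Matrix.mul_assoc, Lm_Dm, Matrix.one_mul] at h4
    exact h4.symm
  obtain ⟨A, a1, a2⟩ := h1 g h
  obtain ⟨B, b1, -⟩ := h1 g⁻¹ (by rw [inv_mul_eq_iff_eq_mul, ← mul_assoc, h, mul_inv_cancel_right])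
  have h2 : A * B = 1 := by
    rw [← Matrix.one_mul A, ← Lm_Dm, Matrix.mul_assoc (Lm F), ← a1, Matrix.mul_assoc,
      Matrix.mul_assoc, ← b1, ← Matrix.mul_assoc (g : M9), Units.mul_inv, Matrix.one_mul]
  exact ⟨⟨A, B, h2, mul_eq_one_comm.1 h2⟩, a1, a2⟩

theorem rs_kr (a : GL (Fin 3) F) : Rs (kr (a, 1)) a := by
  constructor
  · ext ⟨i, j⟩ k
    simp [coe_kr, Dm, mul_apply, Fintype.sum_prod_type, one_apply, mul_comm]
  · ext k ⟨i, j⟩
    simp [coe_kr, Dm, mul_apply, Fintype.sum_prod_type, one_apply, mul_comm]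

theorem rs_sc (c : Fˣ) : Rs (sc I9 c) (sc (Fin 3) c) := kr_sc_left c ▸ rs_kr _

theorem rs_t : Rs (kr (1, dg3 ω ω 1)) (sc (Fin 3) ω) := by
  constructor
  · ext ⟨i, j⟩ k
    fin_cases j <;>
      simp [coe_kr, coe_sc, coe_dg3, Dm, mul_apply, Fintype.sum_prod_type, one_apply,
        Fin.sum_univ_three]
  · ext k ⟨i, j⟩
    fin_cases j <;>
      simp [coe_kr, coe_sc, coe_dg3, Dm, mul_apply, Fintype.sum_prod_type, one_apply,
        Fin.sum_univ_three, eq_comm (a := k), neg_ite]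

theorem sw_W9 (h3 : ω ^ 3 = 1) (v : U4) :
    kr (1, sw F) * W9 ω v * (kr (1, sw F))⁻¹ = W9 ω ![v 0, v 1, -v 2, -v 3] := by
  rw [W9, kr_inv, kr_mul, kr_mul, sw_w3 h3, W9]
  simp

theorem Wy.eq_kr (v : Wy B4 ω (W9 ω) S) {u : U4} (e : pg g = pg (W9 ω u)) (h : Rs g a) :
    g = kr (a, 1) := by
  have h1 := v.inj (show pg (W9 ω ![u 0, u 1, -u 2, -u 3]) = pg (W9 ω u) by
    rw [← sw_W9 v.cube, map_mul, map_mul, ← e, ← map_mul, ← h.comm, ← map_mul,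
      mul_inv_cancel_right])
  have h2 : ∀ x : ZMod 3, -x = x → x = 0 := by decide
  obtain ⟨c, rfl⟩ := pg_eq.1 e
  rw [W9, h2 _ (congrFun h1 2), h2 _ (congrFun h1 3), w3_nil, ← kr_sc_left, kr_mul, one_mul] at h ⊢
  rw [h.unique (rs_kr _)]

theorem act_kr {f f' : U2 → U2} (ha : Act (w3 ω) a f) (hb : Act (w3 ω) b f') :
    Act (W9 ω) (kr (a, b)) fun v =>
      ![f ![v 0, v 1] 0, f ![v 0, v 1] 1, f' ![v 2, v 3] 0, f' ![v 2, v 3] 1] := fun v => by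
  rw [W9_mk, W9, ← map_inv, ← map_mul, ← map_mul, kr_inv, kr_mul, kr_mul]
  exact pg_kr (by rw [← ha, map_mul, map_mul, map_inv]) (by rw [← hb, map_mul, map_mul, map_inv])

theorem Wy.act_t (w : Wy B2 ω (w3 ω) R) (j : ZMod 3) :
    Act (W9 ω) (pw (kr (1, dg3 ω ω 1)) j) fun v => ![v 0, v 1, v 2 - j * v 3, v 3] := by
  have h1 : Act (w3 ω) (dg3 ω ω 1) fun u => ![u 0 - u 1, u 1] :=
    (w.act_tau.inv fun u => by
      rw [spT_apply, B2_apply]; ext i; fin_cases i <;> simp).congr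
      (pg_eq.2 ⟨ω, by simp [dg3_inv, sc_dg3]⟩).symm
  have h2 := act_kr act_one h1
  rcases z3 j with rfl | rfl | rfl
  · exact act_one.of_eq fun v => by ext i; fin_cases i <;> simp
  · rw [pw_one]; exact h2.of_eq fun v => by simp
  · rw [pw_two]; exact (h2.mul h2).of_eq fun v => by simp [two_mul, sub_sub]

theorem sp_sq (δ : SpG B4) (h0 : δ.1 ![1, 0, 0, 0] = ![1, 0, 0, 0])
    (h1 : δ.1 ![0, 1, 0, 0] = ![0, 1, 0, 0])
    (h : ∀ v, δ.1 ![v 0, v 1, v 2 - 1 * v 3, v 3] =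
      ![δ.1 v 0, δ.1 v 1, δ.1 v 2 - 1 * δ.1 v 3, δ.1 v 3]) :
    ∃ j : ZMod 3, ∀ v, δ.1 (δ.1 v) = ![v 0, v 1, v 2 - j * v 3, v 3] := by
  have e : ∀ v : U4, δ.1 v = v 0 • ![1, 0, 0, 0] + v 1 • ![0, 1, 0, 0] +
      v 2 • δ.1 ![0, 0, 1, 0] + v 3 • δ.1 ![0, 0, 0, 1] := fun v => by
    rw [← h0, ← h1, ← map_smul, ← map_smul, ← map_smul, ← map_smul, ← map_add, ← map_add,
      ← map_add]
    congr 1
    ext i; fin_cases i <;> simp
  have a0 := spG_form δ ![1, 0, 0, 0] ![0, 0, 0, 1]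
  have a1 := spG_form δ ![0, 1, 0, 0] ![0, 0, 0, 1]
  have a2 := spG_form δ ![0, 0, 1, 0] ![0, 0, 0, 1]
  have a3 := h ![0, 0, 0, 1]
  rw [e] at a3
  rw [h0] at a0
  rw [h1] at a1
  generalize δ.1 ![0, 0, 1, 0] = P at *
  generalize δ.1 ![0, 0, 0, 1] = Q at *
  have b0 := congrFun a3 0
  have b1 := congrFun a3 1
  have b2 := congrFun a3 2
  have b3 := congrFun a3 3
  simp [B4_apply] at a0 a1 a2 b0 b1 b2 b3
  have b4 : P 2 = Q 3 := by linear_combination -b2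
  simp [b0, b1, b3, b4] at a2
  refine ⟨-(2 * Q 2 * Q 3), fun v => ?_⟩
  rw [e, e v]
  ext i
  fin_cases i <;> simp [vecHead, vecTail, a0, a1, b0, b1, b3, b4, mul_assoc, a2]
  linear_combination v 2 * a2

variable (M) in
/-- The elements acting on the image of `Dm` by a diagonal matrix with scalar square. -/
def Kp : Subgroup (GL I9 F) where
  carrier := {g | g ∈ M ∧ ∃ x y z : Fˣ, Rs g (dg3 x y z) ∧ x * x = z * z ∧ y * y = z * z}
  one_mem' := ⟨one_mem _, 1, 1, 1, dg3_one (F := F) ▸ rs_one, rfl, rfl⟩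
  mul_mem' := fun ⟨a1, x, y, z, a2, a3, a4⟩ ⟨b1, x', y', z', b2, b3, b4⟩ =>
    ⟨mul_mem a1 b1, _, _, _, dg3_mul x y z x' y' z' ▸ a2.mul b2,
      by rw [mul_mul_mul_comm, a3, b3, mul_mul_mul_comm],
      by rw [mul_mul_mul_comm, a4, b4, mul_mul_mul_comm]⟩
  inv_mem' := fun ⟨a1, x, y, z, a2, a3, a4⟩ => ⟨inv_mem a1, _, _, _, dg3_inv x y z ▸ a2.inv,
    by rw [← mul_inv, a3, mul_inv], by rw [← mul_inv, a4, mul_inv]⟩

variable [Finite F]

namespace Ov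

theorem t_mem (h : Ov p σ ω R S M) : kr (1, dg3 ω ω 1) ∈ N9 ⊓ Kp M :=
  have h1 := h.wy.kr_norm h.ctx.wy (one_mem _) h.ctx.wy.t_norm
  ⟨h1, h.ge ⟨h1, kr_mem_Am (one_mem _) h.t_Am, (mem_specialLinear_iff _).2 (by
    rw [det_kr, h.det_t]; simp)⟩, ω, ω, ω, (dg3_self ω).symm ▸ rs_t, rfl, rfl⟩

theorem conj_kr (h : Ov p σ ω R S M) (hg : g ∈ N9) (e : Rs g a) (hb : b ∈ R) :
    g * kr (b, 1) * g⁻¹ = kr (a * b * a⁻¹, 1) := by
  obtain ⟨u, hu⟩ := h.wy.exists_pg (normsG_subgroupNormalizer S g hg _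
    (kr_mem_of h.ctx.wy h.wy.mem hb (one_mem _)))
  exact h.wy.eq_kr hu ((e.mul (rs_kr b)).mul e.inv)

theorem four (h : Ov p σ ω R S M) (hg : g ∈ N9 ⊓ Kp M)
    (e : pg g * pg (kr (1, dg3 ω ω 1)) = pg (kr (1, dg3 ω ω 1)) * pg g) :
    pg g ^ 4 ∈ Subgroup.zpowers (pg (kr (1, dg3 ω ω 1))) := by
  have w := h.ctx.wy
  obtain ⟨g1, -, x, y, z, g2, g3, g4⟩ := hg
  have h1 := g2.mul g2
  rw [dg3_mul, g3, g4, dg3_self] at h1
  obtain ⟨δ, hδ⟩ := h.wy.exists_act (mul_mem g1 g1)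
  have h2 : ∀ u : U2, δ.1 ![u 0, u 1, 0, 0] = ![u 0, u 1, 0, 0] := fun u => h.wy.inj (by
    rw [← hδ, ← map_inv, ← map_mul, ← map_mul, show W9 ω ![u 0, u 1, 0, 0] = kr (w3 ω u, 1) from
      w3_nil (ω := ω) ▸ W9_mk u ![0, 0], h.conj_kr (mul_mem g1 g1) h1 (w.W_mem u), sc_mul_comm,
      mul_inv_cancel_right])
  have h3 := w.act_t 1
  rw [pw_one] at h3
  obtain ⟨j, hj⟩ := sp_sq δ (h2 ![1, 0]) (h2 ![0, 1]) (h.wy.act_unique (hδ.mul h3)
    ((h3.mul hδ).congr (by simp only [map_mul, mul_assoc, e]; rw [← mul_assoc (pg g), e, mul_assoc])))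
  obtain ⟨u, hu⟩ := h.wy.act_id (((hδ.mul hδ).mul ((w.act_t j).inv (h := fun v =>
    ![v 0, v 1, v 2 + j * v 3, v 3]) fun v => by ext i; fin_cases i <;> simp)).of_eq fun v => by
      simp only [Function.comp_apply, hj]; ext i; fin_cases i <;> simp)
  have h4 := h.wy.eq_kr hu ((h1.mul h1).mul (rs_t.pow j.val).inv)
  rw [← map_pow, ← map_inv, ← map_mul, ← map_mul, kr_sc_left, mul_inv_eq_iff_eq_mul] at h4
  rw [← map_pow, show g ^ 4 = g * g * (g * g) by simp only [pow_succ, mul_assoc, pow_zero, one_mul],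
    h4, map_mul, pg_sc, one_mul, map_pw]
  exact pw_mem (Subgroup.mem_zpowers _) j

theorem not_inv (h : Ov p σ ω R S M) (hg : g ∈ Kp M) :
    pg g * pg (kr (1, dg3 ω ω 1)) * (pg g)⁻¹ ≠ (pg (kr (1, dg3 ω ω 1)))⁻¹ := fun e => by
  obtain ⟨-, x, y, z, g2, -⟩ := hg
  rw [← map_inv, ← map_inv, ← map_mul, ← map_mul] at e
  obtain ⟨c, hc⟩ := pg_eq.1 e
  have h1 := (g2.mul (rs_t (ω := ω))).mul g2.inv
  rw [hc, conj_of_mem_scalars (Max.sc_mem _)] at h1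
  have h2 := h1.unique ((rs_sc c).mul rs_t.inv)
  rw [← map_inv, ← map_mul] at h2
  obtain rfl : c = ω * ω := by rw [← inv_mul_cancel_right c ω, ← sc_injective h2]
  have h3 := trace_cj g (kr (1, dg3 ω ω 1) : M9)
  rw [cj_coe, hc, kr_inv, dg3_inv, inv_eq_sq h.wy.cube, Units.val_mul, coe_sc, smul_mul_assoc,
    one_mul, trace_smul, coe_kr, coe_kr, trace_kronecker, trace_kronecker] at h3
  have h4 := root_of h.wy.ne h.wy.cube
  have h5 : (ω : F) ≠ 1 := by simpa using h.wy.ne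
  have h6 : (3 : F) ≠ 0 := fun e => h5 (by
    have : ((ω : F) - 1) ^ 2 = 0 := by linear_combination h4 - ω * e
    grind)
  simp [coe_dg3, trace_fin_three] at h3
  grind

theorem Kp_le (h : Ov p σ ω R S M) : Kp M ≤ N9 := by
  have w := h.ctx.wy
  let φ := (pg (ι := I9) (F := F)).comp (kr.comp (MonoidHom.inl _ _))
  have h1 : ∀ a ∈ R.map φ, ∃ u : U2, a = pg (W9 ω ![u 0, u 1, 0, 0]) := by
    rintro _ ⟨r, hr, rfl⟩
    obtain ⟨u, hu⟩ := w.exists_pg hr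
    exact ⟨u, (pg_kr hu (congrArg pg (w3_nil (ω := ω)).symm)).trans
      (congrArg pg (W9_mk u ![0, 0]).symm)⟩
  have h2 : ∀ a ∈ R.map φ, a ^ 3 = 1 := by
    rintro _ ⟨r, hr, rfl⟩
    rw [← map_pow, w.cube_of_mem hr, map_one]
  have h3 : (Kp M).map pg ≤ (N9).map pg := by
    refine le_of_cent (A := R.map φ) (t := pg (kr (1, dg3 ω ω 1))) ⟨⟨fun a b => Subtype.ext ?_⟩⟩
      (fun hc => ?_) h2 ?_ ?_ ?_ ⟨_, h.t_mem.2, rfl⟩ ⟨_, h.t_mem.1, rfl⟩ ?_ ?_ ?_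
    · obtain ⟨u, hu⟩ := h1 _ a.2
      obtain ⟨v, hv⟩ := h1 _ b.2
      rw [Subgroup.coe_mul, Subgroup.coe_mul, hu, hv, h.wy.pg_comm]
    · obtain ⟨⟨x, hx⟩, e⟩ := hc.exists_generator
      obtain ⟨u, rfl⟩ := h1 x hx
      have h4 : ∀ v : U2, ∃ j : ZMod 3, j * u 0 = v 0 ∧ j * u 1 = v 1 := fun v => by
        obtain ⟨n, hn⟩ := e ⟨_, w3 ω v, w.W_mem v, rfl⟩
        have h5 : pg (W9 ω ![u 0, u 1, 0, 0]) ^ n = pg (kr (w3 ω v, 1)) := congrArg Subtype.val hn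
        rw [zpow_eq_zpow_emod' n (h2 _ hx), ← ZMod.val_intCast, zpow_natCast, ← pw, ← map_pw,
          ← h.wy.smul, ← w3_nil (ω := ω)] at h5
        have h6 := h.wy.inj (h5.trans (congrArg pg (W9_mk v ![0, 0]).symm))
        exact ⟨n, congrFun h6 0, congrFun h6 1⟩
      obtain ⟨i, a1, a2⟩ := h4 ![1, 0]
      obtain ⟨j, a3, a4⟩ := h4 ![0, 1]
      simp only [cons_val_zero, cons_val_one] at a1 a2 a3 a4
      grind
    · have h4 : ∀ r, kr (r, 1) ∈ M → (∀ x y z : Fˣ, x * x = z * z → y * y = z * z → ∃ x' y' z',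
          r * dg3 x y z * r⁻¹ = dg3 x' y' z' ∧ x' * x' = z' * z' ∧ y' * y' = z' * z') →
          kr (r, 1) ∈ Subgroup.normalizer (Kp M : Set (GL I9 F)) := fun r hr H =>
        Subgroup.mem_normalizer_fintype fun c ⟨c1, x, y, z, c2, c3, c4⟩ => by
          obtain ⟨x', y', z', e, c5⟩ := H x y z c3 c4
          exact ⟨mul_mem (mul_mem hr c1) (inv_mem hr), x', y', z',
            e ▸ ((rs_kr r).mul c2).mul (rs_kr r).inv, c5⟩
      have h5 : ∀ r ∈ R, kr (r, 1) ∈ M := fun r hr => h.kr_mem (h.R_le hr) (one_mem _)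
      have h6 : R ≤ (Subgroup.normalizer (Kp M : Set (GL I9 F))).comap
          (kr.comp (MonoidHom.inl _ _)) := w.le_three
        (h4 _ (h5 _ (w.sc_mem w.cube)) fun x y z a b =>
          ⟨x, y, z, by rw [sc_mul_comm, mul_inv_cancel_right], a, b⟩)
        (h4 _ (h5 _ w.dd_mem) fun x y z a b =>
          ⟨x, y, z, by simp [dg3_inv, dg3_mul, mul_comm], a, b⟩)
        (h4 _ (h5 _ w.sh_mem) fun x y z a b => ⟨_, _, _, sh_dg3 x y z, b.symm, a.trans b.symm⟩)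
      rintro _ ⟨r, hr, rfl⟩
      exact Subgroup.le_normalizer_map pg ⟨_, h6 hr, rfl⟩
    · rintro a ha a1 _ ⟨⟨c, hc, rfl⟩, e⟩
      obtain ⟨u, rfl⟩ := h1 a ha
      exact ⟨c, h.cent (fun e => a1 (by rw [e, h.wy.zero, map_one])) hc.1
        (Subgroup.mem_centralizer_singleton_iff.1 e), rfl⟩
    · have : Fact (Nat.Prime 3) := ⟨Nat.prime_three⟩
      refine orderOf_eq_prime ?_ fun e => ?_
      · rw [← map_pow, ← map_pow, Prod.pow_mk, dg3_pow, w.cube, one_pow, one_pow, dg3_one, kr_one,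
          map_one]
      · exact h.not_inv (one_mem _) (by simp [e])
    · rintro _ ⟨r, -, rfl⟩
      change pg (kr (r, 1)) * _ = _ * pg (kr (r, 1))
      rw [← map_mul pg, ← map_mul pg, kr_mul, kr_mul, one_mul, mul_one, one_mul, mul_one]
    · rintro _ ⟨c, hc, rfl⟩ ⟨n, hn, e⟩
      exact h.four ⟨norm_of_pg e.symm hn, hc⟩
    · rintro _ ⟨c, hc, rfl⟩
      exact h.not_inv hc
  intro c hc
  obtain ⟨n, hn, e⟩ := h3 ⟨c, hc, rfl⟩
  exact norm_of_pg e.symm hn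

theorem cent_sw (h : Ov p σ ω R S M) (hg : g ∈ M) (e : g * kr (1, sw F) = kr (1, sw F) * g) :
    g ∈ N9 := by
  have w := h.ctx.wy
  let A : Subgroup (GL (Fin 3) F) :=
    { carrier := {a | ∃ c ∈ M, Rs c a}
      one_mem' := ⟨1, one_mem _, rs_one⟩
      mul_mem' := fun ⟨c, c1, c2⟩ ⟨d, d1, d2⟩ => ⟨_, mul_mem c1 d1, c2.mul d2⟩
      inv_mem' := fun ⟨c, c1, c2⟩ => ⟨_, inv_mem c1, c2.inv⟩ }
  rcases h.ctx.k3 A (fun a ⟨c, c1, c2⟩ => c2.am (h.le c1).1)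
    (fun n hn => ⟨_, h.kr_mem hn (one_mem _), rs_kr n⟩)
    ⟨_, bd_diag (dg3 ω ω 1) ▸ h.blk.tv, rs_kr _⟩ with hA | ⟨hA, h2, -⟩
  · obtain ⟨a, ha⟩ := exists_rs e
    have h1 := hA ⟨g, hg, ha⟩
    obtain ⟨m, e1, hm⟩ := h.diag h1
    obtain ⟨c, hc⟩ := pg_eq.1 e1
    have h2 := (rs_kr m).inv.mul ha
    rw [hc, sc_mul_comm, inv_mul_cancel_left, ← dg3_self] at h2
    simpa using mul_mem (h.wy.kr_norm w (norm_of_pg e1.symm h1) (one_mem _))
      (h.Kp_le ⟨mul_mem (inv_mem hm) hg, c, c, c, h2, rfl, rfl⟩)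
  · obtain ⟨c, c1, c2⟩ := hA ⟨dd_mem_Am (l := -1) (Or.inr (by simp)), dd_mem_sl _⟩
    have h3 := kr_mem_of w h.wy.mem w.sh_mem (one_mem _)
    have h4 := (((c2.mul (rs_kr (sh F))).mul c2.inv).mul (rs_kr (sh F)).inv).pow 3
    rw [h.wy.cube_of_mem (mul_mem (normsG_subgroupNormalizer S c
      (h.Kp_le ⟨c1, _, _, _, c2, by simp, by simp⟩) _ h3) (inv_mem h3))] at h4
    exact absurd (dd_neg_comm (h4.unique rs_one)) h2

end Ov

end Cfsg.Agent.Cl.C9
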