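/-
Involutions and elements of order four in `Sp₄(3)`.
-/
import Mathlib
import Cfsg.Agent.Cl.C9Def

set_option autoImplicit false

namespace Cfsg.Agent.Cl.C9.Top

/-- The linear map with the given images of the standard basis. -/
def lin (a a' b b' : U4) : U4 →ₗ[ZMod 3] U4 where
  toFun x := x 0 • a + x 1 • a' + x 2 • b + x 3 • b'
  map_add' x y := by simp only [Pi.add_apply]; module
  map_smul' c x := by simp only [Pi.smul_apply, smul_eq_mul, RingHom.id_apply]; module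

/-- The Gram matrix condition of the standard basis. -/
def Gram (a a' b b' : U4) : Prop :=
  B4 a a' = -1 ∧ B4 b b' = -1 ∧ B4 a b = 0 ∧ B4 a b' = 0 ∧ B4 a' b = 0 ∧ B4 a' b' = 0

theorem lin_form {a a' b b' : U4} (h : Gram a a' b b') (x y : U4) :
    B4 (lin a a' b b' x) (lin a a' b b' y) = B4 x y := by
  obtain ⟨h1, h2, h3, h4, h5, h6⟩ := h
  change B4 (x 0 • a + x 1 • a' + x 2 • b + x 3 • b') (y 0 • a + y 1 • a' + y 2 • b + y 3 • b') = _
  simp only [map_add, map_smul, LinearMap.add_apply, LinearMap.smul_apply, smul_eq_mul,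
    B4_alt.self_eq_zero, ← B4_alt.neg_eq a a', ← B4_alt.neg_eq b b', ← B4_alt.neg_eq a b,
    ← B4_alt.neg_eq a b', ← B4_alt.neg_eq a' b, ← B4_alt.neg_eq a' b', h1, h2, h3, h4, h5, h6]
  rw [B4_apply]; ring

/-- The isometry with the given images of the standard basis. -/
noncomputable def mk (a a' b b' : U4) (h : Gram a a' b b') : SpG B4 :=
  ⟨LinearEquiv.ofInjectiveEndo (lin a a' b b') (by
    rw [injective_iff_map_eq_zero]
    intro x hx
    exact B4_nd.1 x fun y => by rw [← lin_form h, hx]; simp), lin_form h⟩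

theorem mk_apply {a a' b b' : U4} (h : Gram a a' b b') (x : U4) :
    (mk a a' b b' h).1 x = x 0 • a + x 1 • a' + x 2 • b + x 3 • b' := rfl

theorem two_eq {t : ZMod 3} (h : t = -t) : t = 0 := by revert t; decide

theorem sq_eq {t : ZMod 3} (h : t ≠ 0) : t * (t + t) = -1 := by revert t; decide

theorem exists_fixed {g : SpG B4} (hg : g * g = 1) (hn : g ≠ spNeg B4) :
    ∃ a a', g.1 a = a ∧ g.1 a' = a' ∧ B4 a a' = -1 := by
  have hgg : ∀ x, g.1 (g.1 x) = x := fun x => by rw [← spG_mul_apply, hg, spG_one_apply]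
  obtain ⟨y, hy⟩ : ∃ y, y + g.1 y ≠ 0 := by
    by_contra! h
    exact hn (spG_ext fun x => by rw [spNeg_apply]; exact (neg_eq_of_add_eq_zero_right (h x)).symm)
  obtain ⟨y', hy'⟩ : ∃ y', B4 (y + g.1 y) y' ≠ 0 := by by_contra! h; exact hy (B4_nd.1 _ h)
  have ha : g.1 (y + g.1 y) = y + g.1 y := by rw [map_add, hgg, add_comm]
  refine ⟨y + g.1 y, B4 (y + g.1 y) y' • (y' + g.1 y'), ha,
    by rw [map_smul, map_add g.1 y', hgg, add_comm y'], ?_⟩
  have h1 : B4 (y + g.1 y) (g.1 y') = B4 (y + g.1 y) y' := by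
    conv_lhs => rw [← ha]
    exact spG_form g _ _
  rw [map_smul, map_add (B4 (y + g.1 y)), h1, smul_eq_mul]
  exact sq_eq hy'

/-- Involutions of `Sp₄(3)`. -/
theorem invol {s g : SpG B4} (hs : ∀ v, s.1 v = ![v 0, v 1, -v 2, -v 3]) (hg : g * g = 1) :
    g = 1 ∨ g = spNeg B4 ∨ ∃ h, g = h * s * h⁻¹ := by
  by_cases h1 : g = 1
  · exact Or.inl h1
  by_cases h2 : g = spNeg B4
  · exact Or.inr (Or.inl h2)
  refine Or.inr (Or.inr ?_)
  obtain ⟨a, a', ha, ha', haa⟩ := exists_fixed hg h2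
  have hc := Subgroup.mem_center_iff.1 (spNeg_mem_center (B := B4)) g
  obtain ⟨b, b', hb, hb', hbb⟩ := exists_fixed (g := spNeg B4 * g)
    (by rw [mul_assoc, ← mul_assoc g, hc, mul_assoc, hg, mul_one, spNeg_mul_self])
    (fun h => h1 (by simpa using h))
  rw [spG_mul_apply, spNeg_apply, neg_eq_iff_eq_neg] at hb hb'
  have key : ∀ x y, g.1 x = x → g.1 y = -y → B4 x y = 0 := fun x y hx hy => two_eq (by
    conv_lhs => rw [← spG_form g, hx, hy, map_neg])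
  have hG : Gram a a' b b' := ⟨haa, hbb, key _ _ ha hb, key _ _ ha hb', key _ _ ha' hb,
    key _ _ ha' hb'⟩
  refine ⟨mk a a' b b' hG, ?_⟩
  rw [eq_mul_inv_iff_mul_eq]
  refine spG_ext fun x => ?_
  simp only [spG_mul_apply, mk_apply, hs, map_add, map_smul, ha, ha', hb, hb']
  simp

theorem gram_u : Gram ![0, 1, 0, 0] ![-1, 0, 0, 0] ![0, 0, 0, 1] ![0, 0, -1, 0] := by
  simp only [Gram, B4_apply]; decide

theorem gram_φ : Gram ![0, 0, 1, 1] ![0, 0, 1, -1] ![-1, -1, 0, 0] ![-1, 1, 0, 0] := by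
  simp only [Gram, B4_apply]; decide

theorem gram_s2 : Gram ![0, 0, 1, 0] ![0, 0, 0, 1] ![1, 0, 0, 0] ![0, 1, 0, 0] := by
  simp only [Gram, B4_apply]; decide

theorem gram_s3 : Gram ![0, 0, 0, 1] ![0, 0, -1, 0] ![0, -1, 0, 0] ![1, 0, 0, 0] := by
  simp only [Gram, B4_apply]; decide

/-- The element of order four. -/
noncomputable def u0 : SpG B4 := mk _ _ _ _ gram_u

/-- The involution inverting `u0`. -/
noncomputable def φ0 : SpG B4 := mk _ _ _ _ gram_φ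

/-- An involution commuting with `u0`. -/
noncomputable def s2 : SpG B4 := mk _ _ _ _ gram_s2

/-- Another involution commuting with `u0`. -/
noncomputable def s3 : SpG B4 := mk _ _ _ _ gram_s3

theorem u0_apply (x : U4) : u0.1 x = ![-x 1, x 0, -x 3, x 2] := by
  rw [u0, mk_apply]; ext i; fin_cases i <;> simp

theorem φ0_apply (x : U4) : φ0.1 x = ![-x 2 - x 3, -x 2 + x 3, x 0 + x 1, x 0 - x 1] := by
  rw [φ0, mk_apply]; ext i; fin_cases i <;> simp [sub_eq_add_neg]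

theorem s2_apply (x : U4) : s2.1 x = ![x 2, x 3, x 0, x 1] := by
  rw [s2, mk_apply]; ext i; fin_cases i <;> simp

theorem s3_apply (x : U4) : s3.1 x = ![x 3, -x 2, -x 1, x 0] := by
  rw [s3, mk_apply]; ext i; fin_cases i <;> simp

theorem u0_sq : u0 * u0 = spNeg B4 := spG_ext fun x => by
  simp only [spG_mul_apply, u0_apply, spNeg_apply]; revert x; decide

theorem φ0_sq : φ0 * φ0 = 1 := spG_ext fun x => by
  simp only [spG_mul_apply, φ0_apply, spG_one_apply]; revert x; decide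

theorem s2_sq : s2 * s2 = 1 := spG_ext fun x => by
  simp only [spG_mul_apply, s2_apply, spG_one_apply]; revert x; decide

theorem s3_sq : s3 * s3 = 1 := spG_ext fun x => by
  simp only [spG_mul_apply, s3_apply, spG_one_apply]; revert x; decide

theorem u0_φ0 : u0 * φ0 * u0 = φ0 := spG_ext fun x => by
  simp only [spG_mul_apply, φ0_apply, u0_apply]; revert x; decide

theorem s2_u0 : s2 * u0 = u0 * s2 := spG_ext fun x => by
  simp only [spG_mul_apply, s2_apply, u0_apply]; revert x; decide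

theorem s3_u0 : s3 * u0 = u0 * s3 := spG_ext fun x => by
  simp only [spG_mul_apply, s3_apply, u0_apply]; revert x; decide

theorem s_u0 {s : SpG B4} (hs : ∀ v, s.1 v = ![v 0, v 1, -v 2, -v 3]) : s * u0 = u0 * s :=
  spG_ext fun x => by simp only [spG_mul_apply, hs, u0_apply]; revert x; decide

theorem s_s2 {s : SpG B4} (hs : ∀ v, s.1 v = ![v 0, v 1, -v 2, -v 3]) : s * s2 = u0 * s3 :=
  spG_ext fun x => by simp only [spG_mul_apply, hs, u0_apply, s2_apply, s3_apply]; revert x; decide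

theorem ne_pm {g : SpG B4} (h : g.1 ![1, 0, 0, 0] 0 = 0) : g ≠ 1 ∧ g ≠ spNeg B4 := by
  constructor <;> rintro rfl
  · rw [spG_one_apply] at h; revert h; decide
  · rw [spNeg_apply] at h; revert h; decide

theorem sign_cases {t : ZMod 3} (h : t ≠ 0) : t = -1 ∨ t + t = -1 := by revert t; decide

theorem exists_Q {g : SpG B4} (hg : g * g = spNeg B4) (W : Submodule (ZMod 3) U4)
    (hW : ∀ x ∈ W, g.1 x ∈ W) (h : ∃ x ∈ W, ∃ y ∈ W, B4 x y ≠ 0) :
    ∃ a ∈ W, B4 a (g.1 a) = -1 := by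
  have hgg : ∀ x, g.1 (g.1 x) = -x := fun x => by rw [← spG_mul_apply, hg, spNeg_apply]
  have hsym : ∀ x y, B4 x (g.1 y) = B4 y (g.1 x) := fun x y => by
    rw [← spG_form g x, hgg, map_neg, B4_alt.neg_eq]
  obtain ⟨w, hw, hw0⟩ : ∃ w ∈ W, B4 w (g.1 w) ≠ 0 := by
    by_contra! h0
    obtain ⟨x, hx, y, hy, hxy⟩ := h
    have h1 := h0 _ (W.add_mem hx (hW y hy))
    rw [map_add g.1, map_add, map_add, LinearMap.add_apply, LinearMap.add_apply, h0 x hx,
      h0 _ (hW y hy), ← hsym x, hgg, map_neg, zero_add, add_zero] at h1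
    exact hxy (two_eq (by linear_combination -h1))
  rcases sign_cases hw0 with h1 | h1
  · exact ⟨w, hw, h1⟩
  refine ⟨w + g.1 w, W.add_mem hw (hW w hw), ?_⟩
  rw [map_add g.1, hgg, map_add, map_add, LinearMap.add_apply, LinearMap.add_apply, map_neg,
    map_neg, B4_alt.self_eq_zero, B4_alt.self_eq_zero, B4_alt.neg_eq (g.1 w), ← h1]
  ring

/-- Square roots of `-1` in `Sp₄(3)`. -/
theorem sqrt_neg {g : SpG B4} (hg : g * g = spNeg B4) : ∃ h, g = h * u0 * h⁻¹ := by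
  have hgg : ∀ x, g.1 (g.1 x) = -x := fun x => by rw [← spG_mul_apply, hg, spNeg_apply]
  obtain ⟨a, -, ha⟩ := exists_Q hg ⊤ (fun _ _ => trivial)
    ⟨![1, 0, 0, 0], trivial, ![0, 1, 0, 0], trivial, by rw [B4_apply]; decide⟩
  let W : Submodule (ZMod 3) U4 := LinearMap.ker (B4 a) ⊓ LinearMap.ker (B4 (g.1 a))
  have hW : ∀ x, x ∈ W ↔ B4 a x = 0 ∧ B4 (g.1 a) x = 0 := fun x => Iff.rfl
  have hWg : ∀ x ∈ W, g.1 x ∈ W := fun x hx => by
    obtain ⟨h1, h2⟩ := (hW x).1 hx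
    refine (hW _).2 ⟨?_, by rw [spG_form, h1]⟩
    rw [← spG_form g, hgg, map_neg, h2, neg_zero]
  have hp : ∀ y, y - B4 (g.1 a) y • a + B4 a y • g.1 a ∈ W := fun y => by
    rw [hW]
    simp only [map_add, map_sub, map_smul, smul_eq_mul, B4_alt.self_eq_zero, ha,
      ← B4_alt.neg_eq a (g.1 a)]
    constructor <;> ring
  obtain ⟨b, hb, hbb⟩ := exists_Q hg W hWg (by
    by_contra! h0
    have h1 : ∀ x ∈ W, x = 0 := fun x hx => B4_nd.1 x fun y => by
      obtain ⟨h2, h3⟩ := (hW x).1 hx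
      have h4 := h0 x hx _ (hp y)
      rw [map_add, map_sub, map_smul, map_smul, ← B4_alt.neg_eq a x, ← B4_alt.neg_eq (g.1 a) x,
        h2, h3] at h4
      simpa using h4
    have h2 := Fintype.card_le_of_surjective
      (fun c : ZMod 3 × ZMod 3 => c.1 • a - c.2 • g.1 a) fun y =>
        ⟨(B4 (g.1 a) y, B4 a y), by linear_combination (exp := 1) -(h1 _ (hp y))⟩
    simp at h2)
  obtain ⟨h1, h2⟩ := (hW b).1 hb
  obtain ⟨h3, h4⟩ := (hW _).1 (hWg b hb)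
  have hG : Gram a (g.1 a) b (g.1 b) := ⟨ha, hbb, h1, h3, h2, h4⟩
  refine ⟨mk a (g.1 a) b (g.1 b) hG, ?_⟩
  rw [eq_mul_inv_iff_mul_eq]
  refine spG_ext fun x => ?_
  simp only [spG_mul_apply, mk_apply, u0_apply, map_add, map_smul, hgg]
  simp only [Matrix.cons_val_zero, Matrix.cons_val_one, Matrix.cons_val]
  module

set_option synthInstance.maxSize 2000 in
theorem brute : ∀ a0 a1 a2 a3 : ZMod 3, a0 * a0 + a1 * a1 + a2 * a2 + a3 * a3 = -1 →
    ∀ b0 b1 b2 b3 : ZMod 3, b0 * b0 + b1 * b1 + b2 * b2 + b3 * b3 = -1 →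
    a0 * a0 + a1 * a1 + a2 * b0 + a3 * b1 = 1 → a0 * a1 - a1 * a0 + a2 * b1 - a3 * b0 = 0 →
    a0 * a2 + a1 * a3 + a2 * b2 + a3 * b3 = 0 → a0 * a3 - a1 * a2 + a2 * b3 - a3 * b2 = 0 →
    b0 * a2 + b1 * a3 + b2 * b2 + b3 * b3 = 1 →
    a0 = 0 ∧ a1 = 0 ∧ b2 = 0 ∧ b3 = 0 ∧ ((a2 = 1 ∧ a3 = 1 ∧ b0 = -1 ∧ b1 = -1) ∨
      (a2 = 1 ∧ a3 = -1 ∧ b0 = -1 ∧ b1 = 1) ∨ (a2 = -1 ∧ a3 = -1 ∧ b0 = 1 ∧ b1 = 1) ∨
      (a2 = -1 ∧ a3 = 1 ∧ b0 = 1 ∧ b1 = -1)) := by decide +kernel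

theorem decomp (x : U4) : x = x 0 • ![1, 0, 0, 0] + x 1 • u0.1 ![1, 0, 0, 0] +
    x 2 • ![0, 0, 1, 0] + x 3 • u0.1 ![0, 0, 1, 0] := by
  simp only [u0_apply]; ext i; fin_cases i <;> simp

/-- Involutions inverting `u0`. -/
theorem inverting {ψ : SpG B4} (h : ψ * ψ = 1) (hu : ψ * u0 * ψ⁻¹ = u0⁻¹) :
    ∃ k : ℕ, ψ = φ0 * u0 ^ k := by
  have hψ : ∀ x, ψ.1 (ψ.1 x) = x := fun x => by rw [← spG_mul_apply, h, spG_one_apply]
  have hu' : ψ * u0 = spNeg B4 * (u0 * ψ) := by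
    have h4 : u0 * u0 * (u0 * u0) = 1 := by rw [u0_sq, spNeg_mul_self]
    rw [← u0_sq, mul_inv_eq_iff_eq_mul.1 hu, ← mul_assoc, mul_left_inj,
      inv_eq_iff_mul_eq_one, ← h4]
    simp only [mul_assoc]
  have h1 : ∀ x, ψ.1 (u0.1 x) = -u0.1 (ψ.1 x) := fun x => congrArg (fun k : SpG B4 => k.1 x) hu'
  obtain ⟨a, ha⟩ : ∃ a, ψ.1 ![1, 0, 0, 0] = a := ⟨_, rfl⟩
  obtain ⟨b, hb⟩ : ∃ b, ψ.1 ![0, 0, 1, 0] = b := ⟨_, rfl⟩
  have hx : ∀ x, ψ.1 x = x 0 • a - x 1 • u0.1 a + x 2 • b - x 3 • u0.1 b := fun x => by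
    conv_lhs => rw [decomp x]
    simp only [map_add, map_smul, h1, ha, hb]
    module
  have ea := hψ ![1, 0, 0, 0]
  have eb := hψ ![0, 0, 1, 0]
  rw [ha, hx] at ea
  rw [hb, hx] at eb
  have fa := spG_form ψ ![1, 0, 0, 0] (u0.1 ![1, 0, 0, 0])
  have fb := spG_form ψ ![0, 0, 1, 0] (u0.1 ![0, 0, 1, 0])
  rw [h1, ha] at fa
  rw [h1, hb] at fb
  simp [B4_apply, u0_apply] at fa fb
  have e0 := congrFun ea 0
  have e1 := congrFun ea 1
  have e2 := congrFun ea 2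
  have e3 := congrFun ea 3
  have e4 := congrFun eb 2
  simp only [Pi.add_apply, Pi.sub_apply, Pi.smul_apply, smul_eq_mul, u0_apply,
    Matrix.cons_val_zero, Matrix.cons_val_one, Matrix.cons_val] at e0 e1 e2 e3 e4
  obtain ⟨r0, r1, r2, r3, hr⟩ := brute (a 0) (a 1) (a 2) (a 3) (by linear_combination fa)
    (b 0) (b 1) (b 2) (b 3) (by linear_combination fb) (by linear_combination e0)
    (by linear_combination e1) (by linear_combination e2) (by linear_combination e3)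
    (by linear_combination e4)
  have fin : ∀ k : ℕ, (∀ x : U4, x 0 • ![0, 0, a 2, a 3] - x 1 • ![0, 0, -a 3, a 2] +
      x 2 • ![b 0, b 1, 0, 0] - x 3 • ![-b 1, b 0, 0, 0] = (φ0 * u0 ^ k).1 x) →
      ψ = φ0 * u0 ^ k := fun k hk => spG_ext fun x => by
    rw [hx, ← hk]
    ext i; fin_cases i <;> simp [u0_apply, r0, r1, r2, r3, Matrix.vecHead, Matrix.vecTail]
  rcases hr with ⟨p, q, r, t⟩ | ⟨p, q, r, t⟩ | ⟨p, q, r, t⟩ | ⟨p, q, r, t⟩
  · refine ⟨0, fin _ ?_⟩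
    simp only [p, q, r, t, pow_zero, mul_one, φ0_apply]; decide
  · refine ⟨1, fin _ ?_⟩
    simp only [p, q, r, t, pow_one, spG_mul_apply, φ0_apply, u0_apply]; decide
  · refine ⟨2, fin _ ?_⟩
    simp only [p, q, r, t, pow_two, spG_mul_apply, φ0_apply, u0_apply]; decide
  · refine ⟨3, fin _ ?_⟩
    simp only [p, q, r, t, pow_three, spG_mul_apply, φ0_apply, u0_apply]; decide

end Cfsg.Agent.Cl.C9.Top
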