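/-
Normalisers of `3^(1+4)`: lifting the involution structure of `Sp₄(3)`.
-/
import Mathlib
import Cfsg.Agent.Cl.C9Def
import Cfsg.Agent.Cl.C9Abs
import Cfsg.Agent.Cl.C9TopA

set_option autoImplicit false

namespace Cfsg.Agent.Cl.C9

namespace Top

variable {H : Type*} [Group H] {θ : H →* SpG B4} {s z : H}

theorem key (hker : ∀ n, θ n = 1 → n * z = z * n → (∀ m, m * n = n * m) ∧ n ^ 9 = 1) {a b : H}
    (ha : Commute a z) (hb : Commute b z) (hθ : θ a = θ b) (ha4 : a ^ 4 = 1) (hb4 : b ^ 4 = 1) :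
    a = b := by
  obtain ⟨hc, h9⟩ := hker (a * b⁻¹) (by simp [hθ]) (ha.mul_left hb.inv_left)
  have h4 : (a * b⁻¹) ^ 4 = 1 := by
    have h1 : Commute (a * b⁻¹) b := (hc b).symm
    have h2 := h1.mul_pow 4
    rwa [inv_mul_cancel_right, ha4, hb4, mul_one, eq_comm] at h2
  rw [← mul_inv_eq_one]
  calc a * b⁻¹ = (a * b⁻¹) ^ 9 * (((a * b⁻¹) ^ 4)⁻¹) ^ 2 := by group
    _ = 1 := by rw [h9, h4]; simp

theorem lift_conj (hsurj : ∀ g, ∃ n, θ n = g ∧ n * z = z * n)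
    (hker : ∀ n, θ n = 1 → n * z = z * n → (∀ m, m * n = n * m) ∧ n ^ 9 = 1) {x y : H}
    (hx : Commute x z) (hy : Commute y z) (hx4 : x ^ 4 = 1) (hy4 : y ^ 4 = 1) {h : SpG B4}
    (hθ : θ x = h * θ y * h⁻¹) : ∃ m, m * y * m⁻¹ = x := by
  obtain ⟨m, rfl, hm⟩ := hsurj h
  have hm' : Commute m z := hm
  exact ⟨m, key hker ((hm'.mul_left hy).mul_left hm'.inv_left) hx (by simp [hθ])
    (by rw [conj_pow, hy4]; simp) hx4⟩

theorem four_of_two {a : H} (h : a * a = 1) : a ^ 4 = 1 := by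
  calc a ^ 4 = a * a * (a * a) := by simp only [pow_succ, pow_zero, one_mul, mul_assoc]
    _ = 1 := by rw [h, one_mul]

theorem lift_invol (θs : ∀ v, (θ s).1 v = ![v 0, v 1, -v 2, -v 3]) (hs : s * s = 1)
    (hsz : Commute s z) (hsurj : ∀ g, ∃ n, θ n = g ∧ n * z = z * n) {t : SpG B4}
    (ht : t * t = 1) (h0 : t.1 ![1, 0, 0, 0] 0 = 0) :
    ∃ a n, θ a = t ∧ Commute a z ∧ a * a = 1 ∧ n * s * n⁻¹ = a := by
  obtain ⟨h1, h2⟩ := ne_pm h0
  obtain ⟨h, rfl⟩ := ((invol θs ht).resolve_left h1).resolve_left h2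
  obtain ⟨m, rfl, hm⟩ := hsurj h
  have hm' : Commute m z := hm
  refine ⟨_, m, by simp, (hm'.mul_left hsz).mul_left hm'.inv_left, ?_, rfl⟩
  calc m * s * m⁻¹ * (m * s * m⁻¹) = m * (s * s) * m⁻¹ := by group
    _ = 1 := by rw [hs]; simp

theorem invol_cases (θs : ∀ v, (θ s).1 v = ![v 0, v 1, -v 2, -v 3]) (θz : θ z = spNeg B4)
    (hs : s * s = 1) (hz : z * z = 1) (hsz : Commute s z)
    (hsurj : ∀ g, ∃ n, θ n = g ∧ n * z = z * n)
    (hker : ∀ n, θ n = 1 → n * z = z * n → (∀ m, m * n = n * m) ∧ n ^ 9 = 1)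
    (hz3 : ∀ n, (n * z * n⁻¹ * z) ^ 3 = 1) {a : H} (ha : a * a = 1) (ha1 : a ≠ 1) :
    ∃ n, n * s * n⁻¹ = a ∨ n * z * n⁻¹ = a := by
  have ia : a⁻¹ = a := inv_eq_of_mul_eq_one_right ha
  have iz : z⁻¹ = z := inv_eq_of_mul_eq_one_right hz
  obtain ⟨n, hn⟩ : ∃ n : H, Commute (n * a * n⁻¹) z := by
    refine ⟨z * a * z, ?_⟩
    have h1 : (a * z) ^ 3 * (a * z) ^ 3 = 1 := by
      rw [← hz3 a, ia]; simp only [pow_succ, pow_zero, one_mul, mul_assoc]
    have h2 : (z * a) ^ 3 = (a * z) ^ 3 := by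
      rw [← inv_eq_of_mul_eq_one_right h1, ← inv_pow, mul_inv_rev, ia, iz]
    change _ * z = z * _
    calc z * a * z * a * (z * a * z)⁻¹ * z = (z * a) ^ 3 * (z * z) := by
          simp only [mul_inv_rev, ia, iz, pow_succ, pow_zero, one_mul, mul_assoc]
      _ = z * z * (a * z) ^ 3 := by rw [h2, hz, mul_one, one_mul]
      _ = _ := by simp only [mul_inv_rev, ia, iz, pow_succ, pow_zero, one_mul, mul_assoc]
  have hb : n * a * n⁻¹ * (n * a * n⁻¹) = 1 := by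
    calc _ = n * (a * a) * n⁻¹ := by group
      _ = 1 := by rw [ha]; simp
  rcases invol (g := θ (n * a * n⁻¹)) θs (by rw [← map_mul, hb, map_one]) with h | h | ⟨g, h⟩
  · have := key hker hn (Commute.one_left z) (by rw [h, map_one]) (four_of_two hb) (one_pow 4)
    exact absurd (by simpa using this) ha1
  · have := key hker hn (Commute.refl z) (by rw [h, θz]) (four_of_two hb) (four_of_two hz)
    exact ⟨n⁻¹, Or.inr (by rw [← this]; group)⟩
  · obtain ⟨m, hm⟩ := lift_conj hsurj hker hn hsz (four_of_two hb) (four_of_two hs) h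
    refine ⟨n⁻¹ * m, Or.inl ?_⟩
    calc _ = n⁻¹ * (m * s * m⁻¹) * n := by group
      _ = a := by rw [hm]; group

theorem exists_u (θz : θ z = spNeg B4) (hsurj : ∀ g, ∃ n, θ n = g ∧ n * z = z * n)
    (hker : ∀ n, θ n = 1 → n * z = z * n → (∀ m, m * n = n * m) ∧ n ^ 9 = 1) :
    ∃ u, θ u = u0 ∧ u * u = z := by
  obtain ⟨v, hv, hvz⟩ := hsurj u0
  have hvz' : Commute v z := hvz
  have h1 : θ (v * v * z⁻¹) = 1 := by simp [hv, θz, u0_sq]
  obtain ⟨hc, h9⟩ := hker _ h1 ((hvz'.mul_left hvz').mul_left (Commute.refl z).inv_left)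
  obtain ⟨l, hl⟩ : ∃ l, v * v * z⁻¹ = l := ⟨_, rfl⟩
  rw [hl] at h1 hc h9
  refine ⟨v * l ^ 4, by simp [hv, h1], ?_⟩
  have h2 : Commute v l := hc v
  have h3 : Commute z l := hc z
  calc v * l ^ 4 * (v * l ^ 4) = v * (l ^ 4 * v) * l ^ 4 := by group
    _ = v * v * z⁻¹ * (z * l ^ 8) := by rw [← (h2.pow_right 4).eq]; group
    _ = l ^ 9 * z := by rw [hl, (h3.pow_right 8).eq]; group
    _ = z := by rw [h9, one_mul]

theorem sq_eq_z (θz : θ z = spNeg B4)
    (hker : ∀ n, θ n = 1 → n * z = z * n → (∀ m, m * n = n * m) ∧ n ^ 9 = 1) (hz : z * z = 1)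
    {a b : H} (ha : a * a = 1) (hb : b * b = 1) (haz : Commute a z) (hbz : Commute b z)
    (h : θ (a * b) * θ (a * b) = spNeg B4) : (a * b) ^ 4 = 1 := by
  have hab := haz.mul_left hbz
  have h1 : θ (a * b * (a * b) * z⁻¹) = 1 := by rw [map_mul, map_mul, h, map_inv, θz]; simp
  obtain ⟨hc, h9⟩ := hker _ h1 ((hab.mul_left hab).mul_left (Commute.refl z).inv_left)
  obtain ⟨l, hl⟩ : ∃ l, a * b * (a * b) * z⁻¹ = l := ⟨_, rfl⟩
  rw [hl] at hc h9
  have h2 : a * b * (a * b) = l * z := by rw [← hl]; group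
  have h3 : b * a * (b * a) = l * z := by
    calc b * a * (b * a) = a * a * (b * a * (b * a)) := by rw [ha, one_mul]
      _ = a * (a * b * (a * b)) * a := by group
      _ = l * z * (a * a) := by rw [h2, ← mul_assoc, hc a, mul_assoc l a, haz.eq]; group
      _ = _ := by rw [ha, mul_one]
  calc (a * b) ^ 4 = a * b * (a * b) * (a * b * (a * b)) := by
        simp only [pow_succ, pow_zero, one_mul, mul_assoc]
    _ = a * b * (a * b) * (b * a * (b * a)) := by rw [h3, ← h2]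
    _ = a * (b * (a * (b * b) * a) * b) * a := by group
    _ = 1 := by rw [hb, mul_one, ha, mul_one, hb, mul_one, ha]

end Top

open _root_.Cfsg.Agent.Cl.C9.Top in
theorem eq_top_of_sp {M : Type*} [Group M] [Finite M] {N : Subgroup M} (θ : N →* SpG B4)
    {s z : N} (hs : s * s = 1) (hz : z * z = 1)
    (θs : ∀ v, (θ s).1 v = ![v 0, v 1, -v 2, -v 3]) (θz : ∀ v, (θ z).1 v = -v)
    (hsz : s * z = z * s) (hnc : ¬ IsConj (s : M) z) (hC : ∀ g : M, g * s = s * g → g ∈ N)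
    (hsurj : ∀ g, ∃ n : N, θ n = g ∧ n * z = z * n)
    (hker : ∀ n : N, θ n = 1 → n * z = z * n → (∀ m : N, m * n = n * m) ∧ n ^ 9 = 1)
    (hz3 : ∀ n : N, (n * z * n⁻¹ * z) ^ 3 = 1) : N = ⊤ := by
  have θz' : θ z = spNeg B4 := spG_ext θz
  have iz : z⁻¹ = z := inv_eq_of_mul_eq_one_right hz
  have ord : ∀ a : N, a * a = 1 → (θ a).1 ![0, 0, 1, 0] 2 = -1 → orderOf (a : M) = 2 := by
    intro a ha h
    rw [Subgroup.orderOf_coe]
    refine orderOf_eq_prime (by rw [pow_two, ha]) ?_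
    rintro rfl
    rw [map_one, spG_one_apply] at h
    revert h; decide
  obtain ⟨u, θu, hu⟩ := exists_u θz' hsurj hker
  have huz : Commute u z := by rw [← hu]; exact (Commute.refl u).mul_right (Commute.refl u)
  have sq4 : ∀ c : N, c * c = z → c ^ 4 = 1 := fun c hc => by
    calc c ^ 4 = c * c * (c * c) := by simp only [pow_succ, pow_zero, one_mul, mul_assoc]
      _ = 1 := by rw [hc, hz]
  have hu4 := sq4 u hu
  obtain ⟨φ, nφ, θφ, hφz, hφ, hnφ⟩ := lift_invol θs hs hsz hsurj φ0_sq (by rw [φ0_apply]; decide)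
  obtain ⟨t2, n2, θ2, h2z, h2, hn2⟩ := lift_invol θs hs hsz hsurj s2_sq (by rw [s2_apply]; decide)
  obtain ⟨t3, n3, θ3, h3z, h3, hn3⟩ := lift_invol θs hs hsz hsurj s3_sq (by rw [s3_apply]; decide)
  have hcomm : ∀ a : N, Commute a z → θ a * u0 = u0 * θ a → Commute a u := fun a ha h => by
    have := key hker ((ha.mul_left huz).mul_left ha.inv_left) huz (by simp [θu, h])
      (by rw [conj_pow, hu4]; simp) hu4
    exact mul_inv_eq_iff_eq_mul.1 this
  have c1 := hcomm s hsz (s_u0 θs)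
  have c2 := hcomm t2 h2z (by rw [θ2, s2_u0])
  have c3 := hcomm t3 h3z (by rw [θ3, s3_u0])
  have h12 : s * t2 = u * t3 := by
    have e : θ (s * t2) = θ (u * t3) := by rw [map_mul, map_mul, θ2, θu, θ3, s_s2 θs]
    refine key hker (Commute.mul_left hsz h2z) (huz.mul_left h3z) e
      (sq_eq_z θz' hker hz hs h2 hsz h2z ?_)
      (by rw [c3.symm.mul_pow, hu4, four_of_two h3, one_mul])
    rw [e, map_mul, θu, θ3, mul_assoc, ← mul_assoc s3, s3_u0, mul_assoc, s3_sq, mul_one, u0_sq]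
  have hφu : φ * u * φ⁻¹ = u⁻¹ := by
    refine key hker ((hφz.mul_left huz).mul_left hφz.inv_left) huz.inv_left ?_
      (by rw [conj_pow, hu4]; simp) (by rw [inv_pow, hu4, inv_one])
    rw [map_mul, map_mul, map_inv, map_inv, θu, θφ, mul_inv_eq_iff_eq_mul, eq_inv_mul_iff_mul_eq,
      ← mul_assoc, u0_φ0]
  refine eq_top_of_invol (s := s) (z := z) (u := u) (φ := φ) (s₁ := s) (s₂ := t2) (s₃ := t3)
    (ord s hs (by rw [θs]; decide)) (ord z hz (by rw [θz]; decide)) s.2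
    (congrArg Subtype.val hsz) hnc hC ?_ ?_ u.2 (congrArg Subtype.val hu) ?_
    ⟨nφ, nφ.2, congrArg Subtype.val hnφ⟩ (congrArg Subtype.val hφu) ?_ ⟨1, one_mem _, by simp⟩
    ⟨n2, n2.2, congrArg Subtype.val hn2⟩ ⟨n3, n3.2, congrArg Subtype.val hn3⟩
    (congrArg Subtype.val c1.eq) (congrArg Subtype.val c2.eq) (congrArg Subtype.val h12)
  · intro a ha ho
    obtain ⟨n, hn⟩ := invol_cases θs θz' hs hz hsz hsurj hker hz3 (a := ⟨a, ha⟩)
      (Subtype.ext (by change a * a = 1; rw [← pow_two, ← ho, pow_orderOf_eq_one]))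
      (fun h => by
        have : a = 1 := congrArg Subtype.val h
        rw [this, orderOf_one] at ho; omega)
    exact ⟨n, n.2, hn.imp (congrArg Subtype.val) (congrArg Subtype.val)⟩
  · intro n hn h
    have h' : Commute ((⟨n, hn⟩ : N) * z * (⟨n, hn⟩ : N)⁻¹) z := Subtype.ext h
    have e2 : ((⟨n, hn⟩ : N) * z * (⟨n, hn⟩ : N)⁻¹ * z) ^ 2 = 1 := by
      rw [h'.mul_pow, conj_pow, pow_two, hz]; simp
    have e3 := hz3 ⟨n, hn⟩
    rw [pow_succ, e2, one_mul, mul_eq_one_iff_eq_inv, iz] at e3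
    exact congrArg Subtype.val e3
  · intro c hc h
    have h' : (⟨c, hc⟩ : N) * ⟨c, hc⟩ = z := Subtype.ext h
    obtain ⟨g, hg⟩ := sqrt_neg (g := θ ⟨c, hc⟩) (by rw [← map_mul, h', θz'])
    obtain ⟨m, hm⟩ := lift_conj hsurj hker (x := ⟨c, hc⟩)
      (by rw [← h']; exact (Commute.refl _).mul_right (Commute.refl _)) huz (sq4 _ h') hu4
      (by rw [θu]; exact hg)
    exact ⟨m, m.2, congrArg Subtype.val hm⟩
  · intro ψ hψ h hψu
    obtain ⟨p, rfl⟩ : ∃ p : N, (p : M) = ψ := ⟨⟨ψ, hψ⟩, rfl⟩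
    have h' : p * p = 1 := Subtype.ext h
    have hpu : p * u * p⁻¹ = u⁻¹ := Subtype.ext hψu
    have hpz : Commute p z := by
      refine mul_inv_eq_iff_eq_mul.1 ?_
      calc p * z * p⁻¹ = p * u * p⁻¹ * (p * u * p⁻¹) := by rw [← hu]; group
        _ = z := by rw [hpu, ← mul_inv_rev, hu, iz]
    obtain ⟨k, hk⟩ := inverting (ψ := θ p) (by rw [← map_mul, h', map_one])
      (by rw [← θu, ← map_inv, ← map_inv, ← map_mul, ← map_mul, hpu])
    have e : p = φ * u ^ k := by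
      refine key hker hpz (hφz.mul_left (huz.pow_left k)) (by rw [hk, map_mul, map_pow, θφ, θu])
        (four_of_two h') (four_of_two ?_)
      calc φ * u ^ k * (φ * u ^ k) = (φ * u * φ⁻¹) ^ k * (φ * φ) * u ^ k := by
            rw [conj_pow]; group
        _ = 1 := by rw [hφu, hφ]; group
    refine ⟨k, ?_⟩
    rw [e]; simp

end Cfsg.Agent.Cl.C9
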