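import Mathlib
import Cfsg.Agent.Cl.MaxSUExtA

/-!
# Overgroups of `SU_m(q^r)` in `SU_{mr}(q)`, I

`UExt`: the form `B` is the trace of a Hermitian form `β` over an extension `K` of odd prime degree.
Rigidity and transfer: if the elements of `M` with commutator space in an isotropic `K`-point are
`K`-linear then `M` normalises `K`.
-/

set_option autoImplicit false
set_option linter.unusedSectionVars false

namespace Cfsg.Agent.Cl

open Module

variable {F : Type*} [Field F] {σ : F →+* F} {V : Type*} [AddCommGroup V] [Module F V]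
  [FiniteDimensional F V] {B : V →ₗ[F] V →ₛₗ[σ] F} {q : ℕ} {M : Subgroup (V ≃ₗ[F] V)}
  {K : Type*} [Field K] [Algebra F K] [Module K V] [IsScalarTower F K V] [FiniteDimensional F K]
  [FiniteDimensional K V] {ρ : K →+* K} {β : V →ₗ[K] V →ₛₗ[ρ] K}

/-- `B` is the trace of the form `β` over an extension field of odd prime degree. -/
structure UExt (q : ℕ) (B : V →ₗ[F] V →ₛₗ[σ] F) (β : V →ₗ[K] V →ₛₗ[ρ] K) : Prop where
  hq : UField σ q
  hB : IsHerm B
  hβ : IsHerm β
  tr : ∀ x y, Algebra.trace F K (β x y) = B x y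
  map : ∀ (c : F) (k : K), ρ (c • k) = σ c • ρ k
  tr_map : ∀ k, Algebra.trace F K (ρ k) = σ (Algebra.trace F K k)
  prime : (finrank F K).Prime
  three : 3 ≤ finrank F K

variable (F V K) in
/-- The `K`-semilinear maps. -/
def uKN : Subgroup (V ≃ₗ[F] V) where
  carrier := {g | ∃ φ : K ≃ₐ[F] K, ∀ (k : K) x, g (k • x) = φ k • g x}
  one_mem' := ⟨1, fun _ _ => rfl⟩
  mul_mem' := fun ⟨φ, H⟩ ⟨ψ, H'⟩ => ⟨φ * ψ, fun k x => by simp [H, H']⟩
  inv_mem' := fun {g} ⟨φ, H⟩ => ⟨φ.symm, fun k x => g.injective (by simp [H])⟩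

theorem u_exists_algEquiv {g : V ≃ₗ[F] V} {v : V} (hv : v ≠ 0)
    (H : ∀ k : K, ∃ k' : K, ∀ a : K, g ((k * a) • v) = k' • g (a • v)) :
    ∃ φ : K ≃ₐ[F] K, ∀ k : K, g (k • v) = φ k • g v := by
  choose φ hφ using H
  have h1 : ∀ k, g (k • v) = φ k • g v := fun k => by simpa using hφ k 1
  have h2 := smul_left_injective K (g.map_ne_zero_iff.2 hv)
  let ψ : K →ₐ[F] K := AlgHom.ofLinearMap
    { toFun := φ
      map_add' := fun a b => h2 (by simp only [add_smul, ← h1, map_add])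
      map_smul' := fun c a => h2 (by simp only [smul_assoc, ← h1, map_smul, RingHom.id_apply]) }
    (h2 (by simp [← h1])) fun a b => h2 (by
      simp only [LinearMap.coe_mk, AddHom.coe_mk, mul_smul (φ a), ← h1, hφ])
  exact ⟨AlgEquiv.ofBijective ψ (Algebra.IsAlgebraic.algHom_bijective ψ), h1⟩

theorem mem_uKN [Nontrivial V] {g : V ≃ₗ[F] V}
    (H : ∀ k : K, ∃ k' : K, ∀ x, g (k • x) = k' • g x) : g ∈ uKN F V K := by
  obtain ⟨v, hv⟩ := exists_ne (0 : V)
  obtain ⟨φ, hφ⟩ := u_exists_algEquiv (g := g) hv fun k =>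
    (H k).imp fun _ e a => by rw [mul_smul, e]
  refine ⟨φ, fun k x => ?_⟩
  obtain ⟨k', e⟩ := H k
  rw [e, smul_left_injective K (g.map_ne_zero_iff.2 hv) ((hφ k).symm.trans (e v))]

variable (β M) in
/-- `M` contains `SU(β)`. -/
def UKHas : Prop := ∀ g ∈ USG β, UHas M g

variable (β M) in
/-- The elements of `M` with commutator space in `K v` are `K`-linear. -/
def UKR (v : V) : Prop :=
  ∀ S : K →ₗ[F] K, UHas M (fun x => x + S (β x v) • v) → ∃ c : K, ∀ a, S a = c * a

namespace UExt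

theorem finite (h : UExt q B β) : Finite K :=
  have := h.hq.finite
  Module.finite_of_finite F

theorem hK (h : UExt q B β) : UField ρ (q ^ finrank F K) := by
  have := h.finite
  obtain ⟨Q, hQ⟩ := h.hβ.exists_uField
  have e := hQ.card
  rw [Module.natCard_eq_pow_finrank (K := F), h.hq.card, ← pow_mul, mul_comm, pow_mul] at e
  rwa [Nat.pow_left_injective two_ne_zero e]

theorem tr_ext (h : UExt q B β) {a b : K}
    (e : ∀ k, Algebra.trace F K (k * a) = Algebra.trace F K (k * b)) : a = b :=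
  have := h.hq.finite
  sub_eq_zero.1 ((traceForm_nondegenerate F K).2 _ fun k => by simp [mul_sub, e])

theorem smul_right (h : UExt q B β) (c : F) (x y : V) : β x (c • y) = σ c • β x y := by
  rw [← one_smul K y, ← smul_assoc, map_smulₛₗ, h.map, map_one, smul_assoc, one_smul, one_smul]

theorem adj (h : UExt q B β) (k : K) (x y : V) : B (k • x) y = B x (ρ k • y) := by
  simp [← h.tr, h.hβ.invol]

theorem ext (h : UExt q B β) {x y x' y' : V} (e : ∀ k : K, B (k • x) y = B (k • x') y') :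
    β x y = β x' y' := h.tr_ext fun k => by simpa [← h.tr] using e k

theorem ext' (h : UExt q B β) {x y x' y' : V} (e : ∀ k : K, B x (k • y) = B x' (k • y')) :
    β x y = β x' y' := h.ext fun k => by rw [h.adj, h.adj, e]

theorem zero (h : UExt q B β) {x y : V} (e : β x y = 0) : B x y = 0 := by simp [← h.tr, e]

theorem skew (h : UExt q B β) {θ : F} (hθ : σ θ = -θ) {c : K} (hc : ρ c = c) :
    θ • c + ρ (θ • c) = 0 := by simp [h.map, hθ, hc]

theorem exists_add (h : UExt q B β) {ω : F} (hω : σ ω ≠ ω) (k : K) :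
    ∃ a b : K, ρ a = a ∧ ρ b = b ∧ k = a + ω • b := by
  have h0 : ω - σ ω ≠ 0 := sub_ne_zero.2 hω.symm
  have h1 : σ (ω - σ ω)⁻¹ = -(ω - σ ω)⁻¹ := by
    rw [map_inv₀, map_sub, h.hB.invol, ← inv_neg, neg_sub]
  refine ⟨(ω - σ ω)⁻¹ • (ω • ρ k - σ ω • k), (ω - σ ω)⁻¹ • (k - ρ k), ?_, ?_, ?_⟩
  · rw [h.map, h1, map_sub, h.map, h.map, h.hβ.invol, h.hB.invol]; module
  · rw [h.map, h1, map_sub, h.hβ.invol]; module
  · rw [← inv_smul_smul₀ h0 k, inv_smul_smul₀ h0]
    nth_rw 1 [← inv_smul_smul₀ h0 k]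
    module

theorem comm (h : UExt q B β) (φ : K ≃ₐ[F] K) (k : K) : φ (ρ k) = ρ (φ k) := by
  rw [h.hK.pow, h.hK.pow, map_pow]

theorem res_mem (h : UExt q B β) {g : V ≃ₗ[K] V} (hg : g ∈ USG β) :
    g.restrictScalars F ∈ USG B ⊓ uKN F V K :=
  ⟨mem_USG'.2 ⟨fun x y => by simp [← h.tr, USG_map hg], by
    change LinearMap.det ((g : V →ₗ[K] V).restrictScalars F) = 1
    rw [LinearMap.det_restrictScalars, (mem_USG'.1 hg).2, map_one]⟩, 1, fun k x => by simp⟩

theorem uKHas (h : UExt q B β) (hM : USG B ⊓ uKN F V K ≤ M) : UKHas M β := fun _ hg =>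
  ⟨_, hM (h.res_mem hg), fun _ => rfl⟩

theorem eq_smul (h : UExt q B β) {v w x : V} (hp : UHypPair β v w)
    (H : ∀ y, β y v = 0 → β x y = 0) : x = β x w • v := h.hβ.ext_left fun z => by
  have := H (z - β z v • w) (by simp [hp.pair'])
  simp only [map_sub, map_smulₛₗ, smul_eq_mul, h.hβ.symm] at this
  simp only [map_smul, LinearMap.smul_apply, smul_eq_mul]
  linear_combination this

theorem exists_zE (h : UExt q B β) {v w : V} (hp : UHypPair β v w) {k : V ≃ₗ[F] V}
    (hk : k ∈ UG B) (H : ∀ x, ∃ a : K, k x = x + a • v) :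
    ∃ S : K →ₗ[F] K, ∀ x, k x = x + S (β x v) • v := by
  have h1 : ∀ y, β y v = 0 → k y = y := fun y hy => h.hB.ext_left fun z => by
    obtain ⟨z, rfl⟩ := k.surjective z
    obtain ⟨a, e⟩ := H z
    rw [UG_map hk, e, map_add, h.zero (x := y) (y := a • v) (by simp [hy]), add_zero]
  refine ⟨(β.flip w).restrictScalars F ∘ₗ ((k : V →ₗ[F] V) - LinearMap.id) ∘ₗ
    (LinearMap.toSpanSingleton K V w).restrictScalars F, fun x => ?_⟩
  obtain ⟨a, e⟩ := H (β x v • w)
  have := h1 (x - β x v • w) (by simp [hp.pair'])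
  rw [map_sub, e] at this
  simp [e, hp.pair]
  linear_combination (norm := module) this

theorem lin (h : UExt q B β) (hM : M ≤ UG B) {v w : V} (hp : UHypPair β v w) (h1 : UKR M β v)
    {L L' : V → V} (hL : UHas M L) (hL' : UHas M L') (H : ∀ x, ∃ a : K, L x = L' x + a • v) :
    ∃ c : K, ∀ x, L x = L' x + (c * β (L' x) v) • v := by
  obtain ⟨g, hg, e⟩ := hL
  obtain ⟨k, hk, e'⟩ := hL'
  have h2 := M.mul_mem hg (M.inv_mem hk)
  obtain ⟨S, hS⟩ := h.exists_zE hp (hM h2) fun x => by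
    simpa [← e, ← e', u_apply_inv] using H (k⁻¹ x)
  obtain ⟨c, hc⟩ := h1 S ⟨_, h2, hS⟩
  exact ⟨c, fun x => by simpa [← e, ← e', hc, u_inv_apply] using hS (k x)⟩

theorem has_uEich (h : UExt q B β) (hK : UKHas M β) {v y : V} (hv : β v v = 0) (hy : β y v = 0) :
    ∃ s : K, UHas M fun x => x + β x y • v - β x v • y + (s * β x v) • v := by
  obtain ⟨s, hs⟩ := h.hβ.exists_trace_eq (a := -β y y) (by rw [map_neg, h.hβ.fixed])
  exact ⟨s, (hK _ (h.hβ.uEich_mem (h.hβ.uEich0 hv hy) (s := s) (by simp [hs]))).congr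
    ((h.hβ.uEich0 hv hy).apply s)⟩

theorem has_uRefl (h : UExt q B β) (hK : UKHas M β) {v : V} (hv : β v v = 0) {c : K}
    (hc : c + ρ c = 0) : UHas M fun x => x + (c * β x v) • v :=
  (hK _ (h.hβ.uRefl_mem_USG hv hc)).congr (uRefl_apply_of_isotropic hv c)

theorem exists_uHyp (h : UExt q B β) (hK : UKHas M β) {v w : V} (hp : UHypPair β v w) {a : K}
    (h0 : a ≠ 0) (ha : ρ a = a) : ∃ t ∈ M, (∀ (b : K) x, t (b • x) = b • t x) ∧ t v = a • v ∧
      t w = a⁻¹ • w ∧ ∀ y, β y v = 0 → t y = y + ((a - 1) * β y w) • v := by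
  obtain ⟨t, ht, e⟩ := hK _ (mem_USG'.2 ⟨h.hβ.uHyp_mem hp h0, by
    rw [hp.det_uHyp h0, ha, mul_inv_cancel₀ h0]⟩)
  exact ⟨t, ht, fun b x => by rw [e, e, map_smul], by rw [e, hp.uHyp_left h0],
    by rw [e, hp.uHyp_right h0, ha], fun y hy => by simp [e, hp.uHyp_apply h0, hy]⟩

/-- The elements of `M` in the unipotent radical of the stabiliser of `K v` are `K`-linear. -/
theorem lin_of_radical (h : UExt q B β) (hM : M ≤ UG B) (hK : UKHas M β) {v w : V}
    (hp : UHypPair β v w) (h1 : UKR M β v) {k : V ≃ₗ[F] V} (hk : k ∈ M)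
    (h2 : ∀ a : K, k (a • v) = a • v) (h3 : ∀ y, β y v = 0 → ∃ a : K, k y = y + a • v) (c : K)
    (x : V) : k (c • x) = c • k x := by
  have h4 : ∀ x, β (k x) v = β x v := fun x => h.ext' fun a => by
    rw [← h2, UG_map (hM hk), h2]
  have hk' : UHas M k := ⟨k, hk, fun _ => rfl⟩
  have h5 : ∀ y, β y v = 0 → ∃ r : K, ∀ a : K,
      β (k (a • w) - a • w) y + β (k (a • y) - a • y) w = r * a := fun y hy => by
    obtain ⟨s, hs⟩ := h.has_uEich hK hp.left hy
    obtain ⟨r, hr⟩ := h.lin hM hp h1 (hk'.comp hs) (hs.comp hk') fun x => by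
      obtain ⟨a, e⟩ := h3 (β x v • y) (by simp [hy])
      exact ⟨β x y - a - β (k x) y, by simp only [map_add, map_sub, h2, h4, e]; module⟩
    refine ⟨-r, fun a => ?_⟩
    have := congrArg (fun z => β z w) (hr (a • w))
    simp [h2, h4, hp.left, hp.pair, hp.pair', hy] at this
    simp
    linear_combination -this
  have h6 : ∀ a : K, ∃ b : K, k (a • w) = a • k w + b • v := fun a => by
    refine ⟨_, sub_eq_iff_eq_add'.1 (h.eq_smul hp fun y hy => ?_)⟩
    obtain ⟨ω, hω⟩ := h.hB.exists_ne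
    obtain ⟨r, hr⟩ := h5 y hy
    obtain ⟨r', hr'⟩ := h5 (ω • y) (by simp [hy])
    have e : ∀ a : K, (σ ω - ω) • β (k (a • w) - a • w) y = (r' - ω • r) * a := fun a => by
      have := hr' a
      rw [h.smul_right, smul_comm a ω y, map_smul k ω, ← smul_sub ω,
        LinearMap.map_smul_of_tower β ω, LinearMap.smul_apply] at this
      rw [sub_mul, smul_mul_assoc, ← this, ← hr]
      module
    refine smul_right_injective K (sub_ne_zero.2 hω) ?_
    have e1 := e 1
    have e2 := e a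
    simp only [one_smul, map_sub, map_smul, LinearMap.sub_apply, LinearMap.smul_apply, smul_eq_mul,
      Algebra.smul_def] at e1 e2 ⊢
    linear_combination e2 - a * e1
  obtain ⟨s, hs⟩ := h.has_uEich hK hp.left (y := w - k w) (by simp [h4])
  obtain ⟨r, hr⟩ := h.lin hM hp h1 hk' hs fun x => by
    obtain ⟨a, e⟩ := h3 (x - β x v • w) (by simp [hp.pair'])
    obtain ⟨b, e'⟩ := h6 (β x v)
    rw [map_sub, e'] at e
    exact ⟨a + b - β x (w - k w) - s * β x v, by linear_combination (norm := module) e⟩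
  rw [hr, hr x]
  simp only [map_add, map_sub, map_smul, LinearMap.add_apply, LinearMap.sub_apply,
    LinearMap.smul_apply, smul_eq_mul]
  module

theorem step (h : UExt q B β) (hM : M ≤ UG B) (hK : UKHas M β) {g : V ≃ₗ[F] V} (hg : g ∈ M)
    {φ : K ≃ₐ[F] K} {v w : V} (hp : UHypPair β v w) (hv : ∀ k : K, g (k • v) = φ k • g v)
    (h1 : UKR M β (g v)) (c : K) : g (c • w) = φ c • g w := by
  have hg' := hM hg
  have h0 : β (g v) (g v) = 0 := by
    refine (h.ext (x' := v) (y' := 0) fun k => ?_).trans (by simp)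
    obtain ⟨k, rfl⟩ := φ.surjective k
    rw [← hv, UG_map hg', h.zero (by simp [hp.left]), map_zero]
  obtain ⟨w', hp'⟩ := h.hβ.exists_uHypPair (g.map_ne_zero_iff.2 hp.left_ne_zero) h0
  have h2 : ∀ a : K, g⁻¹ (a • g v) = φ.symm a • v := fun a => g.injective (by
    rw [hv, u_apply_inv, φ.apply_symm_apply])
  let δ : V → V := fun y => g⁻¹ (φ c • g y) - c • y
  have h3 : ∀ y, β (δ y) v = 0 := fun y => by
    refine (h.ext' (x' := 0) (y' := v) fun a => ?_).trans (by simp)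
    simp only [δ, map_sub, LinearMap.sub_apply, map_zero, LinearMap.zero_apply]
    rw [← UG_map hg', u_apply_inv, h.adj, h.adj, hv, smul_smul, ← h.comm, ← map_mul, ← hv,
      UG_map hg', smul_smul, sub_self]
  have h4 : ∀ a : K, a ≠ 0 → ρ a = a → δ (a • w) = δ w + ((a⁻¹ - 1) * β (δ w) w) • v := by
    intro a i j
    have i' : φ a ≠ 0 := by simpa using i
    obtain ⟨t, ht, t1, t2, t3, t4⟩ := h.exists_uHyp hK hp (inv_ne_zero i) (by rw [map_inv₀, j])
    obtain ⟨k, hk, k1, k2, -, k4⟩ := h.exists_uHyp hK hp' i' (by rw [← h.comm, j])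
    have h5 := h.lin_of_radical hM hK hp' h1
      (M.mul_mem hk (M.mul_mem (M.mul_mem hg ht) (M.inv_mem hg))) (fun b => by
        simp only [LinearEquiv.mul_apply, h2, t1, t2, smul_smul, hv, k1, k2]
        simp [i']) (fun y hy => by
        have : β (g⁻¹ y) v = 0 := (h.ext' (x' := 0) (y' := v) fun b => by
          rw [← UG_map hg', u_apply_inv, hv, h.zero (by simp [hy])]; simp).trans (by simp)
        simp only [LinearEquiv.mul_apply, t4 _ this, map_add, u_apply_inv, hv, k1, k2, k4 y hy,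
          smul_smul, add_assoc, ← add_smul]
        exact ⟨_, rfl⟩) (φ c) (g w)
    simp only [LinearEquiv.mul_apply, ← k1, k.injective.eq_iff, u_inv_apply, t3, inv_inv] at h5
    rw [show g⁻¹ (φ c • g w) = δ w + c • w by simp [δ], map_add, t4 _ (h3 w), t1, t3, inv_inv] at h5
    simp only [δ] at h5 ⊢
    rw [← h5, u_inv_apply, add_sub_cancel_right]
  obtain ⟨a, ⟨i, j⟩, ha⟩ := u_exists_pow_ne_one (P := fun a : K => a ≠ 0 ∧ ρ a = a) (n := 6)
    (by omega) (by
      have := Nat.pow_le_pow_left h.hq.two_le 3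
      have := Nat.pow_le_pow_right (zero_lt_two.trans_le h.hq.two_le) h.three
      rw [h.hK.card_fixed_ne_zero]
      omega)
  have i' : a + 1 ≠ 0 := fun e => ha (by rw [eq_neg_of_add_eq_zero_left e]; ring)
  have h5 := h4 (a + 1) i' (by simp [j])
  rw [show δ ((a + 1) • w) = δ (a • w) + δ w by simp [δ, add_smul]; abel, h4 a i j] at h5
  have h6 := congrArg (fun z => β z w) h5
  simp only [map_add, map_smul, LinearMap.add_apply, LinearMap.smul_apply, hp.pair, smul_eq_mul]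
    at h6
  have h7 : β (δ w) w = 0 := by
    by_contra e
    field_simp at h6
    exact ha (by linear_combination (a ^ 3 + 1) * (a - 1) * h6)
  have h8 : δ w = 0 := by simpa [h7] using h5
  rw [← sub_eq_zero.1 h8, u_apply_inv]

theorem rigid (h : UExt q B β) (hM : M ≤ UG B) (hK : UKHas M β) (hm : 2 ≤ finrank K V)
    (h1 : ∀ v, v ≠ 0 → β v v = 0 → UKR M β v) {g : V ≃ₗ[F] V} (hg : g ∈ M) {v : V} (hv0 : v ≠ 0)
    (hv : β v v = 0) (hv' : β (g v) (g v) = 0) (H : ∀ a : K, ∃ a' : K, g (a • v) = a' • g v) :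
    g ∈ uKN F V K := by
  have := h.finite
  obtain ⟨w, hp⟩ := h.hβ.exists_uHypPair hv0 hv
  have h0 := g.map_ne_zero_iff.2 hv0
  obtain ⟨w', hp'⟩ := h.hβ.exists_uHypPair h0 hv'
  obtain ⟨θ, hθ0, hθ⟩ := h.hB.exists_trace_zero
  have h2 : ∀ c, ρ c = c → ∃ c' : K, ∀ a : K,
      θ • g ((c * a) • v) = (c' * β (g (a • w)) (g v)) • g v := fun c hc => by
    obtain ⟨c', e⟩ := h.lin hM hp' (h1 _ h0 hv') ((h.has_uRefl hK hv (h.skew hθ hc)).conj hg)
      (L' := id) ⟨1, M.one_mem, fun _ => rfl⟩ fun x => by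
        simpa only [map_add, u_apply_inv, id, add_right_inj] using H _
    exact ⟨c', fun a => by simpa [u_inv_apply, hp.pair'] using e (g (a • w))⟩
  have h3 : ∀ c, ρ c = c → ∃ c' : K, ∀ a : K, g ((c * a) • v) = c' • g (a • v) := fun c hc => by
    obtain ⟨c₁, e₁⟩ := h2 1 (map_one ρ)
    obtain ⟨c', e⟩ := h2 c hc
    have i : c₁ ≠ 0 := fun i => by simpa [i, hθ0, hv0] using e₁ 1
    refine ⟨c' / c₁, fun a => smul_right_injective V hθ0 ?_⟩
    have := e₁ a
    rw [one_mul] at this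
    simp only [e, smul_comm θ, this, smul_smul]
    field_simp
  obtain ⟨φ, hφ⟩ := u_exists_algEquiv (g := g) hv0 fun k => by
    obtain ⟨ω, hω⟩ := h.hB.exists_ne
    obtain ⟨a, b, ha, hb, rfl⟩ := h.exists_add hω k
    obtain ⟨a', e⟩ := h3 a ha
    obtain ⟨b', e'⟩ := h3 b hb
    exact ⟨a' + ω • b', fun c => by
      rw [add_mul, add_smul, map_add, e, smul_mul_assoc, smul_assoc, map_smul g ω, e', add_smul,
        smul_assoc]⟩
  let W : Submodule K V :=
    { carrier := {x | ∀ k : K, g (k • x) = φ k • g x}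
      add_mem' := fun a b k => by simp [a k, b k]
      zero_mem' := fun k => by simp
      smul_mem' := fun c x a k => by rw [smul_smul, a, a, map_mul, mul_smul] }
  have h4 : ∀ x y, x ∈ W → β x x = 0 → β y y = 0 → β x y ≠ 0 → y ∈ W := fun x y i j k l => by
    have hp := h.hβ.uHypPair_smul j k l
    refine (W.smul_mem_iff (inv_ne_zero (mt h.hβ.eq_zero_symm l))).1 (h.step hM hK hg hp i (h1 _
      (g.map_ne_zero_iff.2 hp.left_ne_zero) ?_))
    refine (h.ext (x' := x) (y' := 0) fun k => ?_).trans (by simp)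
    obtain ⟨k, rfl⟩ := φ.surjective k
    rw [← i, UG_map (hM hg), h.zero (by simp [j]), map_zero]
  refine ⟨φ, fun k x => ((h.hβ.eq_top_of_isotropic hm (U := W) fun z hz => ?_).ge trivial : x ∈ W) k⟩
  by_cases hz0 : z = 0
  · simp [hz0]
  obtain ⟨y, i, j, l⟩ := h.hβ.exists_isotropic_two hv0 hz0 hv hz
  exact h4 y z (h4 v y hφ hv i j) i hz (mt h.hβ.eq_zero_symm l)

theorem eq_of_sq (h : UExt q B β) {φ : K ≃ₐ[F] K} (H : ∀ k, φ (φ k - k) = φ k - k) (k : K) :
    φ k = k := by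
  rcases (Subalgebra.isSimpleOrder_of_finrank_prime F K h.prime).eq_bot_or_eq_top
    (AlgHom.equalizer (φ : K →ₐ[F] K) (AlgHom.id F K)) with e | e
  swap
  · exact (e.ge trivial : k ∈ _)
  let f : K →ₗ[F] K := φ.toLinearMap - LinearMap.id
  have h1 : LinearMap.ker f = Subalgebra.toSubmodule ⊥ := by
    ext x
    simp [← e, f, sub_eq_zero]
  have h2 := Submodule.finrank_mono (show LinearMap.range f ≤ LinearMap.ker f by
    rintro _ ⟨x, rfl⟩
    simpa [f, sub_eq_zero] using H x)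
  have h3 := f.finrank_range_add_finrank_ker
  have h4 := h.three
  rw [h1, Subalgebra.finrank_toSubmodule, Subalgebra.finrank_bot] at h2 h3
  omega

theorem free (h : UExt q B β) (hM : M ≤ UG B) (hK : UKHas M β) (hm : 2 ≤ finrank K V)
    (h1 : ∀ v, v ≠ 0 → β v v = 0 → UKR M β v) {v : V} (hv0 : v ≠ 0) (hv : β v v = 0) {c : K}
    (hc : c ≠ 0) {a g : V ≃ₗ[F] V} (hg : g ∈ M) (ha : ∀ x, a x = x + (c * β x v) • v)
    (H : g * a * g⁻¹ ∈ uKN F V K) : g ∈ uKN F V K := by
  obtain ⟨φ, H⟩ := H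
  obtain ⟨w, hp⟩ := h.hβ.exists_uHypPair hv0 hv
  let ν : V →+ V := AddMonoidHom.mk' (fun x => g ((c * β (g⁻¹ x) v) • v)) fun x y => by
    simp [mul_add, add_smul]
  have h2 : ∀ (k : K) x, ν (k • x) = φ k • ν x + (φ k - k) • x := fun k x => by
    have := H k x
    simp only [LinearEquiv.mul_apply, ha, map_add, u_apply_inv] at this
    simp only [ν, AddMonoidHom.mk'_apply]
    linear_combination (norm := module) this
  have h3 : ∀ x, ν (ν x) = 0 := fun x => by simp [ν, hv]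
  have h4 : ν (g (c⁻¹ • w)) = g v := by simp [ν, hp.pair', hc]
  have h5 : ν (g v) = 0 := by rw [← h4, h3]
  have h0 := g.map_ne_zero_iff.2 hv0
  have h6 := h.eq_of_sq (φ := φ) fun k => by
    have i := congrArg ν (h2 k (g v))
    rw [h3, h5, smul_zero, zero_add, h2, h5, smul_zero, zero_add] at i
    exact sub_eq_zero.1 ((smul_eq_zero.1 i.symm).resolve_right h0)
  have h7 : ∀ k : K, ∃ k' : K, k • g v = g (k' • v) := fun k =>
    ⟨_, (by simpa [h6, h4] using (h2 k (g (c⁻¹ • w))).symm : _ = ν (k • g (c⁻¹ • w)))⟩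
  refine (inv_mem_iff (x := g)).1 (h.rigid hM hK hm h1 (M.inv_mem hg) h0 ?_
    (by rwa [u_inv_apply]) fun k => (h7 k).imp fun _ e => by rw [e, u_inv_apply, u_inv_apply])
  refine (h.ext (x' := v) (y' := 0) fun k => ?_).trans (by simp)
  obtain ⟨k', e⟩ := h7 k
  rw [e, UG_map (hM hg), h.zero (by simp [hv]), map_zero]

theorem map_of_mem (h : UExt q B β) {g : V ≃ₗ[F] V} (hg : g ∈ UG B) {φ : K ≃ₐ[F] K}
    (H : ∀ (k : K) x, g (k • x) = φ k • g x) (x y : V) : β (g x) (g y) = φ (β x y) :=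
  h.tr_ext fun k => by
    obtain ⟨k, rfl⟩ := φ.surjective k
    have := UG_map hg (k • x) y
    rw [H, ← h.tr, ← h.tr] at this
    rw [← map_mul, Algebra.trace_eq_of_algEquiv]
    simpa using this

/-- The transfer. -/
theorem le_uKN (h : UExt q B β) (hM : M ≤ UG B) (hK : UKHas M β) (hm : 2 ≤ finrank K V)
    (hex : ¬ (q = 2 ∧ finrank F K = 3) ∨ 4 ≤ finrank K V)
    (h1 : ∀ v, v ≠ 0 → β v v = 0 → UKR M β v) : M ≤ uKN F V K := fun g hg => by
  have := h.hq.finite
  have := h.finite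
  have := u_finite_linearEquiv (F := F) (V := V)
  have := Fintype.ofFinite (M ⧸ (uKN F V K).subgroupOf M)
  have := Fintype.ofFinite (uFix ρ)
  obtain ⟨p, s, hp, hc, hs, hq⟩ := h.hq.exists_prime_pow
  have := Fact.mk hp
  have := charP_of_injective_algebraMap (algebraMap F K).injective p
  let _ := ZMod.algebra (uFix ρ) p
  have hA : Nat.card (uFix ρ) = p ^ (s * finrank F K) := by rw [h.hK.card_uFix, hq, pow_mul]
  obtain ⟨θ, hθ0, hθ⟩ := h.hB.exists_trace_zero
  let d : V × V × V × V → F := fun ω => B (β ω.2.1 ω.2.2.2 • ω.1) ω.2.2.1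
  have hd : ∀ k ∈ (uKN F V K).subgroupOf M, ∀ ω, d (k • ω) = d ω := fun k ⟨φ, hk⟩ ω => by
    change B (β (k.1 _) (k.1 _) • k.1 _) (k.1 _) = _
    replace hk : ∀ (c : K) x, k.1 (c • x) = φ c • k.1 x := hk
    rw [h.map_of_mem (hM k.2) hk, ← hk, UG_map (hM k.2)]
  have h2 : ∀ ω, trSum ((uKN F V K).subgroupOf M) d ω = d ω := fun ⟨x, y, z, w⟩ => by
    obtain ⟨v, hv0, hv, h3⟩ : ∃ v, v ≠ 0 ∧ β v v = 0 ∧
        (¬ (q = 2 ∧ finrank F K = 3) ∨ β x v = 0 ∧ β y v = 0) := by
      rcases hex with e | e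
      · obtain ⟨v, w, hp⟩ := h.hβ.exists_uHypPair' hm
        exact ⟨v, hp.left_ne_zero, hp.left, Or.inl e⟩
      · obtain ⟨v, i, j, k, l⟩ := h.hβ.exists_isotropic_perp_two e x y
        exact ⟨v, i, j, Or.inr ⟨h.hβ.eq_zero_symm k, h.hβ.eq_zero_symm l⟩⟩
    choose a ha ha' using fun c : uFix ρ => h.has_uRefl hK hv (h.skew hθ c.2)
    let α : Multiplicative (uFix ρ) →* M := MonoidHom.mk' (fun c => ⟨a c.toAdd, ha _⟩) fun b c =>
      Subtype.ext (LinearEquiv.ext fun x => by simp [ha', hv, add_mul, add_smul]; abel)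
    refine trSum_eq hd α (fun c => ⟨1, fun k x => ?_⟩) (fun c hc k hk => h.free hM hK hm h1 hv0 hv
      (smul_ne_zero hθ0 fun e => hc (by ext; simpa using e)) k.2 (ha' _) hk) fun k _ => ?_
    · change a _ _ = k • a _ _
      simp only [ha', map_smul, LinearMap.smul_apply, smul_eq_mul]
      module
    let φ : V → uFix ρ →+ V := fun x => AddMonoidHom.mk' (fun c => k.1 ((θ • c.1 * β x v) • v))
      fun b c => by simp [add_mul, add_smul]
    rw [← Multiplicative.ofAdd.sum_comp]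
    change ∑ c : uFix ρ, B (β (k.1 (a c y)) (k.1 (a c w)) • k.1 (a c x)) (k.1 (a c z)) = 0
    simp only [ha', map_add k.1]
    have d3 : ∀ x y, (fun c => B (β y (k.1 w + φ w c) • x) (k.1 z + φ z c)) ∈ uDeg F _ 3 :=
      fun x y => uDeg_step (φ z) _ (G := fun z c => B (β y (k.1 w + φ w c) • x) z)
        (fun _ _ => by ext; simp) fun z => uDeg_step (φ w) _ (G := fun w _ => B (β y w • x) z)
          (fun _ _ => by ext; simp [add_smul]) fun _ => uDeg_const _
    have h4 := h.three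
    rcases h3 with e | ⟨i, j⟩
    · refine uDeg_sum_eq_zero hA (n := 5) ?_ (uDeg_step (φ x) _
        (G := fun x c => B (β (k.1 y + φ y c) (k.1 w + φ w c) • x) (k.1 z + φ z c))
        (fun _ _ => by ext; simp) fun x => uDeg_step (φ y) _
          (G := fun y c => B (β y (k.1 w + φ w c) • x) (k.1 z + φ z c))
          (fun _ _ => by ext; simp [add_smul]) (d3 x))
      by_cases h5 : p = 2
      · by_cases h6 : s = 1
        · have : finrank F K ≠ 4 := fun e => absurd (e ▸ h.prime) (by norm_num)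
          simp only [hq, h5, h6, pow_one, true_and] at e
          rw [h6]
          omega
        · exact Or.inl (by nlinarith [show 2 ≤ s by omega])
      · exact Or.inr ⟨by nlinarith, h5⟩
    · simpa [i, j, φ] using uDeg_sum_eq_zero hA (Or.inl (by nlinarith)) (d3 (k.1 x) (k.1 y))
  have : Nontrivial V := Module.nontrivial_of_finrank_pos (R := K) (by omega)
  obtain ⟨y, w, hp⟩ := h.hβ.exists_uHypPair' hm
  refine mem_uKN fun k => ⟨β (g (k • y)) (g w), fun x => h.hB.ext_left fun z => ?_⟩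
  obtain ⟨z, rfl⟩ := g.surjective z
  have := trSum_smul hd ⟨g, hg⟩ (x, k • y, z, w)
  rw [h2, h2] at this
  rw [UG_map (hM hg)]
  simpa [d, hp.pair] using this.symm

end UExt

end Cfsg.Agent.Cl
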