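import Mathlib
import Cfsg.Agent.Cl.MaxSUExtB

/-!
# Overgroups of `SU_m(q^r)` in `SU_{mr}(q)`, II

If an element of `M` with commutator space in an isotropic `K`-point is not `K`-linear then `M`
contains transvections: two images of the point with largest intersection meet in a hyperplane.
-/

set_option autoImplicit false
set_option linter.unusedSectionVars false

namespace Cfsg.Agent.Cl

open Module

variable {F : Type*} [Field F] {σ : F →+* F} {V : Type*} [AddCommGroup V] [Module F V]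
  [FiniteDimensional F V] {B : V →ₗ[F] V →ₛₗ[σ] F} {q : ℕ} {M : Subgroup (V ≃ₗ[F] V)}
  {K : Type*} [Field K] [Algebra F K] [Module K V] [IsScalarTower F K V] [FiniteDimensional F K]
  [FiniteDimensional K V] {ρ : K →+* K} {β : V →ₗ[K] V →ₛₗ[ρ] K}

namespace UExt

/-- The trace form on `K`. -/
noncomputable def C (h : UExt q B β) : K →ₗ[F] K →ₛₗ[σ] F :=
  LinearMap.mk₂'ₛₗ (RingHom.id F) σ (fun a b => Algebra.trace F K (a * ρ b))
    (fun _ _ _ => by simp [add_mul]) (fun _ _ _ => by simp) (fun _ _ _ => by simp [mul_add])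
    fun _ _ _ => by simp [h.map]

theorem C_apply (h : UExt q B β) (a b : K) : h.C a b = Algebra.trace F K (a * ρ b) := rfl

theorem hC (h : UExt q B β) : IsHerm h.C :=
  ⟨h.hB.toUInvol, fun a b => by rw [C_apply, C_apply, ← h.tr_map, map_mul, h.hβ.invol, mul_comm],
    fun a H => h.tr_ext fun k => by simpa [C_apply, h.hβ.invol, mul_comm] using H (ρ k)⟩

theorem C_left (h : UExt q B β) (x v : V) (b : K) : h.C (β x v) b = B x (b • v) := by
  simp [C_apply, ← h.tr, mul_comm]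

theorem C_mul (h : UExt q B β) (c a b : K) : h.C (c * a) b = h.C a (ρ c * b) := by
  simp [C_apply, h.hβ.invol, mul_assoc, mul_left_comm]

theorem iso (h : UExt q B β) {v : V} (hv : β v v = 0) (a b : K) : B (a • v) (b • v) = 0 :=
  h.zero (by simp [hv])

theorem exists_singular (h : UExt q B β) (hM : M ≤ UG B) (hK : UKHas M β) {v w : V}
    (hp : UHypPair β v w) (h1 : ¬ UKR M β v) : ∃ S : K →ₗ[F] K,
      UHas M (fun x => x + S (β x v) • v) ∧ S ≠ 0 ∧ ∃ a, a ≠ 0 ∧ S a = 0 := by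
  by_contra! H
  have := h.hq.finite
  have := h.finite
  have : Finite (K →ₗ[F] K) := Module.finite_of_finite F
  let N : AddSubgroup (K →ₗ[F] K) :=
    { carrier := {S | UHas M fun x => x + S (β x v) • v}
      add_mem' := fun a b => (a.comp b).congr fun x => by simp [hp.left, add_smul]; abel
      zero_mem' := ⟨1, M.one_mem, fun x => by simp⟩
      neg_mem' := fun a => UHas.div (L := id) ⟨1, M.one_mem, fun _ => rfl⟩ a fun x => by
        simp [hp.left] }
  obtain ⟨θ, hθ0, hθ⟩ := h.hB.exists_trace_zero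
  let f : N →+ (K →ₗ[F] K →ₛₗ[σ] F) := AddMonoidHom.mk' (fun S : N => θ • h.C ∘ₗ S.1)
    fun _ _ => by ext; simp
  have h2 := h.hq.card_dvd_of_forms (W := N) (j := 2 * finrank F (K →ₗ[F] K)) (by
    rw [pow_mul, ← h.hq.card, ← Module.natCard_eq_pow_finrank]
    exact N.card_addSubgroup_dvd_card) (one_le_two.trans h.prime.two_le) f fun S => by
      refine or_iff_not_imp_left.2 fun h0 => ⟨h.hB.toUInvol, fun a b => ?_, fun a i => ?_⟩
      · obtain ⟨g, hg, e⟩ := S.2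
        have := UG_map (hM hg) (b • w) (a • w)
        simp only [e, map_smul, LinearMap.smul_apply, hp.pair', smul_eq_mul, mul_one, map_add,
          LinearMap.add_apply, h.iso hp.left, h.iso hp.right, zero_add, add_zero] at this
        rw [← h.C_left, ← h.C_left] at this
        simp [f, hθ, h.hC.symm, hp.pair, hp.pair'] at this ⊢
        linear_combination (-θ) * this
      · by_contra ha
        exact H S S.2 (fun e => h0 (by simp [f, e])) a ha
          (h.hC.nondeg _ fun b => by simpa [f, hθ0] using i b)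
  rw [(AddMonoidHom.ker_eq_bot_iff f).2 ((injective_iff_map_eq_zero f).2 fun S e => Subtype.ext
    (LinearMap.ext fun a => h.hC.nondeg _ fun b => by
      simpa [f, hθ0] using LinearMap.congr_fun₂ e a b)), AddSubgroup.card_bot, mul_one,
    ← h.hK.card_uFix] at h2
  have h3 := Function.Injective.bijective_of_nat_card_le (f := fun c : uFix ρ =>
    (⟨LinearMap.mul F K (θ • c.1), h.has_uRefl hK hp.left (h.skew hθ c.2)⟩ : N))
    (fun a b e => Subtype.ext (smul_right_injective K hθ0 (by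
      simpa using LinearMap.congr_fun (congrArg Subtype.val e) 1))) (Nat.le_of_dvd Nat.card_pos h2)
  refine h1 fun S hS => ?_
  obtain ⟨c, e⟩ := h3.2 ⟨S, hS⟩
  exact ⟨θ • c.1, fun a => (LinearMap.congr_fun (congrArg Subtype.val e) a).symm⟩

/-- A pair of adjoint maps such that the forms `c ε x * ρ (ε y)` are zero or non-degenerate has
rank one. -/
theorem rank_one (h : UExt q B β) {ε ε' : K →ₗ[F] K} (hε : ∀ a b, h.C (ε a) b = h.C a (ε' b))
    (h0 : ε ≠ 0) {d : K} (hd0 : d ≠ 0) (hd : ε' d = 0) (H : ∀ c, ρ c = c →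
      (∀ x, ε' (c * ε x) = 0) ∨ ∀ x, ε' (c * ε x) = 0 → ε x = 0) :
    ∃ e ξ : K, e ≠ 0 ∧ ξ ≠ 0 ∧ (∀ x, ε x = h.C x ξ • e) ∧ ∀ y, ε' y = h.C y e • ξ := by
  have := h.hq.finite
  have := h.finite
  let E := LinearMap.range ε
  let f : uFix ρ →+ (E →ₗ[F] E →ₛₗ[σ] F) := AddMonoidHom.mk'
    (fun c => uRes (h.C ∘ₗ LinearMap.mul F K c.1) E) fun _ _ => by ext; simp [uRes_apply]
  have hf : ∀ c (a b : E), f c a b = h.C (c.1 * a) b := fun _ _ _ => rfl
  have h1 : ∀ y, ε' y = 0 ↔ ∀ x, h.C y (ε x) = 0 := fun y =>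
    ⟨fun e x => h.hC.eq_zero_symm (by simp [hε, e]),
      fun e => h.hC.nondeg' _ fun x => by rw [← hε, h.hC.eq_zero_symm (e x)]⟩
  have h2 : ∀ c, c ∈ f.ker ↔ ∀ x, ε' (c.1 * ε x) = 0 := fun c => by
    simp only [h1, AddMonoidHom.mem_ker, LinearMap.ext_iff, hf, LinearMap.zero_apply]
    exact ⟨fun e x y => e ⟨_, x, rfl⟩ ⟨_, y, rfl⟩, fun e ⟨_, x, i⟩ ⟨_, y, j⟩ => i ▸ j ▸ e x y⟩
  have h3 := h.hq.card_dvd_of_forms (W := uFix ρ) (j := finrank F K) (by rw [h.hK.card_uFix])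
    (Nat.pos_of_ne_zero fun e => h0 (LinearMap.range_eq_bot.1 (Submodule.finrank_eq_zero.1 e))) f
    fun c => (H c c.2).imp (h2 c).2 fun i => ⟨h.hB.toUInvol, fun a b => by
      rw [hf, hf, h.hC.symm, h.C_mul, mem_uFix.1 c.2], fun ⟨_, x, e⟩ j => by
        subst e
        exact Subtype.ext (i x ((h1 _).2 fun y => j ⟨_, y, rfl⟩))⟩
  have h4 : finrank F E + finrank F (LinearMap.ker ε') = finrank F K := by
    rw [← h.hC.finrank_add_finrank_uPerp E, show LinearMap.ker ε' = uPerp h.C E by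
      ext y
      simp [h1, E, h.hC.eq_zero_comm]]
  rw [h.hK.card_uFix, ← h4, pow_add, mul_dvd_mul_iff_left (pow_ne_zero _
    (zero_lt_two.trans_le h.hq.two_le).ne')] at h3
  obtain ⟨ω, hω⟩ := h.hB.exists_ne
  have h5 : ∀ x, ε x ≠ 0 → ∀ y, ε' y = 0 → ∃ c c' : f.ker, (c.1.1 + ω • c'.1.1) * ε x = y := by
    intro x hx y hy
    have := Function.Injective.bijective_of_nat_card_le (f := fun c : f.ker × f.ker =>
      (⟨(c.1.1.1 + ω • c.2.1.1) * ε x, by simp [add_mul, (h2 _).1 c.1.2, (h2 _).1 c.2.2]⟩ :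
        LinearMap.ker ε')) (fun a b e => by
        have e1 := mul_right_cancel₀ hx (congrArg Subtype.val e)
        have e2 := congrArg ρ e1
        simp only [map_add, h.map, mem_uFix.1 (Subtype.prop _)] at e2
        have e3 : a.2.1.1 = b.2.1.1 := smul_right_injective K (sub_ne_zero.2 hω) (by
          linear_combination (norm := module) e2 - e1)
        exact Prod.ext (Subtype.ext (Subtype.ext (by simpa [e3] using e1)))
          (Subtype.ext (Subtype.ext e3))) (by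
        rw [Module.natCard_eq_pow_finrank (K := F), h.hq.card, Nat.card_prod, ← pow_mul, two_mul,
          pow_add]
        exact Nat.mul_le_mul (Nat.le_of_dvd Nat.card_pos h3) (Nat.le_of_dvd Nat.card_pos h3))
    obtain ⟨c, e⟩ := this.2 ⟨y, hy⟩
    exact ⟨c.1, c.2, congrArg Subtype.val e⟩
  let A : Subalgebra F K :=
    { carrier := {k | ∀ y, ε' y = 0 → ε' (k * y) = 0}
      mul_mem' := fun ha hb y hy => by rw [mul_assoc]; exact ha _ (hb y hy)
      add_mem' := fun ha hb y hy => by rw [add_mul, map_add, ha y hy, hb y hy, add_zero]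
      algebraMap_mem' := fun c y hy => by rw [← Algebra.smul_def, map_smul, hy, smul_zero] }
  have hA : A = ⊥ := ((Subalgebra.isSimpleOrder_of_finrank_prime F K h.prime).eq_bot_or_eq_top
    A).resolve_right fun e => h0 (LinearMap.ext fun x => h.hC.nondeg _ fun y => by
      have : y / d ∈ A := e.ge trivial
      rw [hε, ← div_mul_cancel₀ y hd0, this d hd, map_zero])
  obtain ⟨x₀, hx⟩ := DFunLike.ne_iff.1 h0
  obtain ⟨κ, hκ⟩ := h.hC.exists_eq_one hx
  have h6 : ∀ x, ε x = h.C x (ε' κ) • ε x₀ := fun x => by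
    have : ε x / ε x₀ ∈ A := fun y hy => by
      obtain ⟨c, c', rfl⟩ := h5 x₀ hx y hy
      rw [mul_left_comm, div_mul_cancel₀ _ hx]
      simp [add_mul, (h2 _).1 c.2, (h2 _).1 c'.2]
    obtain ⟨c, hc⟩ := Algebra.mem_bot.1 (hA ▸ this)
    have e : ε x = c • ε x₀ := by rw [Algebra.smul_def, hc, div_mul_cancel₀ _ hx]
    rw [← hε, e]
    simp [hκ]
  refine ⟨ε x₀, ε' κ, hx, fun e => hx (by rw [h6, e]; simp), h6, fun y => h.hC.ext_right fun x => ?_⟩
  rw [← hε, h6 x]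
  simp [h.hC.symm, mul_comm]

theorem exists_rank_one (h : UExt q B β) (hM : M ≤ UG B) (hK : UKHas M β) {v w : V}
    (hp : UHypPair β v w) (h1 : ¬ UKR M β v) : ∃ g ∈ M, ∃ e ξ : K, e ≠ 0 ∧ ξ ≠ 0 ∧
      (∀ x : K, β (g (x • v)) v = h.C x ξ • e) ∧
        ∀ y : K, h.C y e = 0 → ∃ a : K, g⁻¹ (y • v) = a • v := by
  let G := M ⊓ uFixer F {y | β y v = 0 ∧ β y w = 0}
  let ε : (V ≃ₗ[F] V) → K →ₗ[F] K := fun g => (β.flip v).restrictScalars F ∘ₗ (g : V →ₗ[F] V) ∘ₗ
    (LinearMap.toSpanSingleton K V v).restrictScalars F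
  have hε : ∀ g x, ε g x = β (g (x • v)) v := fun _ _ => rfl
  have h2 : ∀ g ∈ G, ∀ x, ε g x = 0 → g (x • v) = β (g (x • v)) w • v := fun g hg x hx =>
    h.eq_smul hp fun y hy => by
      have : β (g (x • v)) (y - β y w • v) = 0 := (h.ext' (x' := 0) (y' := v) fun k => by
        rw [← hg.2 (k • (y - β y w • v)) ⟨by simp [hy, hp.left], by simp [hp.pair]⟩,
          UG_map (hM hg.1), h.zero (by simp [hp.left, h.hβ.eq_zero_symm hy])]
        simp).trans (by simp)
      simpa [← hε, hx] using this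
  have h3 : ∀ g ∈ G, ∀ a b, h.C (ε g a) b = h.C a (ε g⁻¹ b) := fun g hg a b => by
    rw [← h.hC.symm (ε g⁻¹ b), hε, hε, h.C_left, h.C_left, h.hB.symm, ← UG_map (hM hg.1) (a • v),
      u_apply_inv]
  have h4 : ∀ c, c + ρ c = 0 → ∀ u, β u u = 0 → (∀ y, β y v = 0 ∧ β y w = 0 → β y u = 0) →
      ∃ t ∈ G, ∀ x, t x = x + (c * β x u) • u := fun c hc u i j => by
    obtain ⟨t, ht, e⟩ := h.has_uRefl hK i hc
    exact ⟨t, ⟨ht, fun y hy => by simp [e, j y hy]⟩, e⟩
  obtain ⟨θ, hθ0, hθ⟩ := h.hB.exists_trace_zero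
  obtain ⟨S, ⟨s, hs, e⟩, h5, x₀, hx0, hx⟩ := h.exists_singular hM hK hp h1
  obtain ⟨t, ht, e₁⟩ := h4 _ (h.skew hθ (map_one ρ)) w hp.right fun _ i => i.2
  obtain ⟨t', ht', e₂⟩ := h4 _ (h.skew hθ (by simp : ρ (-1) = -1)) w hp.right
    fun _ i => i.2
  have h6 : ∀ x, ε (t' * s * t) x = -(θ * θ) • S x := fun x => by
    simp [hε, e, e₁, e₂, hp.left, hp.right, hp.pair, hp.pair', mul_smul]
  obtain ⟨_, h7, ⟨h8, g, hg, rfl⟩, hmax⟩ := exists_maximal_ge_of_wellFoundedGT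
    (fun D : Submodule F K => D ≠ ⊤ ∧ ∃ g ∈ G, D = LinearMap.ker (ε g)) _
    ⟨fun i => h5 (LinearMap.ext fun x => by simpa [h6, hθ0] using (i.ge trivial : x ∈ _)), _,
      G.mul_mem (G.mul_mem ht' ⟨hs, fun y hy => by simp [e, hy.1]⟩) ht, rfl⟩
  have h9 := h2 g hg x₀ (h7 (by simp [h6, hx]))
  obtain ⟨e, ξ, i1, i2, i3, i4⟩ := h.rank_one (h3 g hg) (fun i => h8 (by simp [i]))
    (d := β (g (x₀ • v)) w) (fun i => by simp [i, hx0, hp.left_ne_zero] at h9)
    (by rw [hε, ← h9, u_inv_apply]; simp [hp.left]) fun c hc => by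
      obtain ⟨t, ht, e⟩ := h4 _ (h.skew hθ hc) v hp.left fun _ i => i.1
      have i1 : ∀ x, ε (g⁻¹ * t * g) x = θ • ε g⁻¹ (c * ε g x) := fun x => by
        simp [hε, e, hp.left, smul_assoc]
      by_cases i2 : LinearMap.ker (ε (g⁻¹ * t * g)) = ⊤
      · exact Or.inl fun x => by simpa [i1, hθ0] using (i2.ge trivial : x ∈ _)
      · exact Or.inr fun x hx => hmax ⟨i2, _, G.mul_mem (G.mul_mem (G.inv_mem hg) ht) hg, rfl⟩
          (fun y hy => by simp [i1, LinearMap.mem_ker.1 hy]) (by simp [i1, hx])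
  exact ⟨g, hg.1, e, ξ, i1, i2, i3, fun y hy => ⟨_, h2 _ (G.inv_mem hg) y (by simp [i4, hy])⟩⟩

theorem exists_pairs (h : UExt q B β) (hM : M ≤ UG B) (hK : UKHas M β) {v : V} (hv0 : v ≠ 0)
    (hv : β v v = 0) (h1 : ¬ UKR M β v) : ∃ e : K, e ≠ 0 ∧ ∀ τ : F, τ + σ τ = 0 →
      ∀ c, c + ρ c = 0 → h.C (c * e) e = 0 → (∀ ν : F, σ ν = ν →
        UHas M fun x => x + ((ν * ν - ν) * τ * B x ((c * e) • v)) • (c * e) • v) ∧
      ∀ c', c' + ρ c' = 0 → h.C (c' * e) e = 0 → UHas M fun x =>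
        x + (τ * B x ((c' * e) • v)) • (c * e) • v + (τ * B x ((c * e) • v)) • (c' * e) • v := by
  obtain ⟨w, hp⟩ := h.hβ.exists_uHypPair hv0 hv
  obtain ⟨g, hg, e, ξ, he, hξ, h2, h3⟩ := h.exists_rank_one hM hK hp h1
  have hg' := hM hg
  have key : ∀ s c, s + ρ s = 0 → c + ρ c = 0 → h.C (c * e) e = 0 → UHas M fun x =>
      x + B x ((c * e) • v) • g ((s * ξ) • v) - B x (g ((s * ξ) • v)) • (c * e) • v +
        (h.C (s * ξ) ξ * B x ((c * e) • v)) • (c * e) • v := fun s c hs hc hc' => by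
    obtain ⟨y, hy⟩ := h3 _ hc'
    obtain ⟨a, ha, e₁⟩ := (h.has_uRefl hK hv hc).conj (M.inv_mem hg)
    have h4 : ∀ x : K, a (x • v) = x • v + h.C x ξ • y • v := fun x => by
      simp only [e₁, inv_inv, map_add, u_inv_apply, h2, mul_smul_comm, smul_assoc, map_smul, hy]
    have h5 : ∀ z, β (a⁻¹ z) v = β z v + B z (y • v) • ξ := fun z => h.hC.ext_left fun b => by
      rw [h.C_left, ← UG_map (hM ha), u_apply_inv, h4]
      simp [h.C_left, h.hC.symm, mul_comm]
    have h6 : ∀ z, h.C (s * β z v) ξ = -B z ((s * ξ) • v) := fun z => by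
      rw [h.C_mul, h.C_left, eq_neg_of_add_eq_zero_right hs, neg_mul, neg_smul, map_neg]
    refine (UHas.div (K := fun x => x + B x (y • v) • (s * ξ) • v - B x ((s * ξ) • v) • y • v +
      (h.C (s * ξ) ξ * B x (y • v)) • y • v) ((h.has_uRefl hK hv hs).conj ha)
      (h.has_uRefl hK hv hs) fun z => ?_).conj hg |>.congr fun x => ?_
    · simp only [map_add, u_apply_inv, h4, h5, mul_add, mul_smul_comm, map_smul, h6,
        LinearMap.add_apply, h.iso hv, add_smul, smul_assoc]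
      module
    · simp only [map_add, map_sub, map_smul, u_apply_inv, ← hy, ← UG_map hg' (g⁻¹ x)]
  obtain ⟨θ, hθ0, hθ⟩ := h.hB.exists_trace_zero
  obtain ⟨s₀, i1, i2⟩ : ∃ s, s + ρ s = 0 ∧ h.C (s * ξ) ξ ≠ 0 := by
    by_contra! H
    refine hξ (h.hC.nondeg' _ fun k => ?_)
    obtain ⟨ω, hω⟩ := h.hB.exists_ne
    obtain ⟨a, b, ha, hb, e⟩ := h.exists_add hω (k / ξ)
    have i := H _ (h.skew hθ ha)
    have j := H _ (h.skew hθ hb)
    rw [← div_mul_cancel₀ k hξ, e]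
    simp_all [add_mul]
  refine ⟨e, he, fun τ hτ c hc hc' => ?_⟩
  have i3 : σ (h.C (s₀ * ξ) ξ) = -h.C (s₀ * ξ) ξ := by
    rw [h.hC.symm, h.C_mul, eq_neg_of_add_eq_zero_right i1, neg_mul, map_neg, neg_neg]
  have i4 : ∀ (ν : F) s, σ ν = ν → s + ρ s = 0 → ν • s + ρ (ν • s) = 0 := fun ν s i j => by
    rw [h.map, i, ← smul_add, j, smul_zero]
  obtain ⟨s, hs, hs'⟩ : ∃ s, s + ρ s = 0 ∧ h.C (s * ξ) ξ = τ :=
    ⟨(τ / h.C (s₀ * ξ) ξ) • s₀, i4 _ _ (by
      rw [map_div₀, i3, eq_neg_of_add_eq_zero_right hτ, neg_div_neg_eq]) i1, by simp [i2]⟩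
  have h4 : ∀ c a, h.C (c * e) e = 0 → B ((c * e) • v) (g (a • v)) = 0 := fun c a i => by
    obtain ⟨y, hy⟩ := h3 _ i
    rw [← UG_map (inv_mem hg'), hy, u_inv_apply, h.iso hv]
  have h5 : ∀ a b : K, B (g (a • v)) (g (b • v)) = 0 := fun a b => by rw [UG_map hg', h.iso hv]
  refine ⟨fun ν hν => (key s _ hs (i4 ν c hν hc) (by simp [hc'])).div
    (key _ c (i4 ν s hν hs) hc hc') fun x => ?_, fun c' i j => (key s (c + c') hs
      (by rw [map_add]; linear_combination hc + i) (by simp [add_mul, hc', j])).div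
      ((key s c hs hc hc').comp (key s c' hs i j)) fun x => ?_⟩
  · simp only [smul_mul_assoc, smul_assoc, map_smul, map_smulₛₗ, hν, hs', map_add, map_sub,
      LinearMap.add_apply, LinearMap.sub_apply, LinearMap.smul_apply, h.iso hv,
      h.hB.eq_zero_symm (h4 c _ hc'), smul_eq_mul]
    module
  · simp only [add_mul, add_smul, map_smul, hs', map_add, map_sub, h4 c' _ j, h5,
      LinearMap.add_apply, LinearMap.sub_apply, LinearMap.smul_apply, h.iso hv,
      h.hB.eq_zero_symm (h4 c _ hc'), h.hB.eq_zero_symm (h4 c' _ j), smul_eq_mul]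
    module

end UExt

end Cfsg.Agent.Cl
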