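import Mathlib
import Cfsg.Agent.Cl.MaxSUExtC
import Cfsg.Agent.Cl.MaxSUC1
import Cfsg.Agent.Cl.MaxAlg
import Cfsg.Agent.Cl.FormSum

/-!
# Overgroups of `SU_m(q^r)` in `SU_{mr}(q)`, III

Maximality of the normaliser of a field of odd prime degree `r`, for `m ≥ 2`.
-/

set_option autoImplicit false
set_option linter.unusedSectionVars false

namespace Cfsg.Agent.Cl

open Module

variable {F : Type*} [Field F] {σ : F →+* F} {V : Type*} [AddCommGroup V] [Module F V]
  [FiniteDimensional F V] {B : V →ₗ[F] V →ₛₗ[σ] F} {q : ℕ} {M : Subgroup (V ≃ₗ[F] V)}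
  {K : Type*} [Field K] [Algebra F K] [Module K V] [IsScalarTower F K V] [FiniteDimensional F K]
  [FiniteDimensional K V] {ρ : K →+* K} {β : V →ₗ[K] V →ₛₗ[ρ] K}

variable (ρ M) in
/-- Some element of `M` multiplies `K v` by an element of norm one outside `F`. -/
def UKU (v : V) : Prop :=
  ∃ u : K, u * ρ u = 1 ∧ u ∉ (⊥ : Subalgebra F K) ∧ ∃ g ∈ M, ∀ k : K, g (k • v) = (u * k) • v

theorem UHas.uRefl_mem {p : V} (hp : B p p = 0) {c : F}
    (h : UHas M fun x => x + (c * B x p) • p) : uRefl B p c ∈ M := by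
  obtain ⟨g, hg, e⟩ := h
  rwa [show uRefl B p c = g from LinearEquiv.ext fun x => by rw [e, uRefl_apply_of_isotropic hp]]

namespace UExt

theorem exists_fixed (h : UExt q B β) (a : K) :
    ∃ c, c ≠ 0 ∧ ρ c = c ∧ Algebra.trace F K (c * a) = 0 := by
  by_contra! H
  have := h.hq.finite
  have := Nat.card_le_card_of_injective (fun c : uFix ρ => Algebra.trace F K (c.1 * a))
    fun b c e => Subtype.ext (sub_eq_zero.1 (by_contra fun i => H _ i (b - c).2 (by
      simp only [sub_mul, map_sub, e, sub_self])))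
  rw [h.hK.card_uFix, h.hq.card] at this
  exact absurd h.three (not_le.2 (Nat.lt_succ_of_le
    ((Nat.pow_le_pow_iff_right h.hq.two_le).1 this)))

theorem exists_uTv_two (h : UExt 2 B β) (hM : M ≤ UG B) (hK : UKHas M β) {v : V} (hv0 : v ≠ 0)
    (hv : β v v = 0) (hU : UKU M ρ v) {t : K} (ht : ρ t = t)
    (H : ∀ c c', ρ c = c → ρ c' = c' → Algebra.trace F K (c * t) = 0 →
      Algebra.trace F K (c' * t) = 0 →
        UHas M fun x => x + B x (c' • v) • c • v + B x (c • v) • c' • v) : UTv B M v := by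
  classical
  have := h.finite
  have h2 : (2 : F) = 0 := by exact_mod_cast h.hq.cast_eq_zero
  have h2' : (2 : K) = 0 := by rw [← map_ofNat (algebraMap F K), h2, map_zero]
  obtain ⟨w, hp⟩ := h.hβ.exists_uHypPair hv0 hv
  let R : K → K → Prop := fun a b => UHas M fun x => x + (B x (a • v) • a • v + B x (b • v) • b • v)
  have R1 : ∀ a b c : K, (∃ g ∈ M, ∀ k : K, g (k • v) = (c * k) • v) → R a b → R (c * a) (c * b) :=
    fun a b c ⟨g, hg, e⟩ i => (UHas.conj i hg).congr fun x => by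
      simp only [map_add, map_smul, u_apply_inv, ← e, ← UG_map (hM hg) (g⁻¹ x)]
  have R2 : ∀ d, R d (ρ d) := fun d => by
    obtain ⟨c, i, j, k⟩ := h.exists_fixed (d * t)
    obtain ⟨g, hg, e, e', -⟩ := h.exists_uHyp hK hp (inv_ne_zero i) (by rw [map_inv₀, j])
    suffices R (c * d) (c * ρ d) by
      simpa [i] using R1 _ _ c⁻¹ ⟨g, hg, fun k => by rw [e, e', smul_smul, mul_comm]⟩ this
    obtain ⟨ω, hω⟩ := h.hB.exists_ne
    obtain ⟨a, b, ha, hb, e⟩ := h.exists_add hω (c * d)
    have e' : c * ρ d = a + σ ω • b := by rw [← j, ← map_mul, e, map_add, h.map, ha, hb]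
    have h3 : ∀ a, ρ a = a → σ (Algebra.trace F K (a * t)) = Algebra.trace F K (a * t) :=
      fun a ha => by rw [← h.tr_map, map_mul, ha, ht]
    rw [← mul_assoc, e, add_mul, smul_mul_assoc, map_add, map_smul, smul_eq_mul] at k
    have k' := congrArg σ k
    rw [map_add, map_mul σ, h3 a ha, h3 b hb, map_zero] at k'
    have h4 : Algebra.trace F K (b * t) = 0 :=
      mul_left_cancel₀ (sub_ne_zero.2 hω) (by linear_combination k' - k)
    have h5 : ω + σ ω = 1 := h.hq.eq_one_of_trace_zero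
      (fun e => hω (by linear_combination e - ω * h2))
      (by rw [h.hB.trace_fixed]; linear_combination (ω + σ ω) * h2)
    refine (H a b ha hb (by simpa [h4] using k) h4).congr fun x => ?_
    simp only [e, e', add_smul, smul_assoc, map_add, map_smulₛₗ, h.hB.invol, smul_eq_mul]
    generalize a • v = P, b • v = P'
    match_scalars
    · rfl
    · linear_combination (-B x P) * h2 - B x P' * h5
    · linear_combination (-B x P' * ω * σ ω) * h2 - B x P * h5
  let U : Subgroup Kˣ :=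
    { carrier := {a | a * ρ a = 1 ∧ ∃ g ∈ M, ∀ k : K, g (k • v) = (a * k) • v}
      one_mem' := ⟨by simp, 1, M.one_mem, by simp⟩
      mul_mem' := fun {a b} ⟨i, g, hg, e⟩ ⟨j, k, hk, e'⟩ =>
        ⟨by rw [Units.val_mul, map_mul]; linear_combination (↑b * ρ b) * i + j, g * k,
          M.mul_mem hg hk, fun c => by simp [e, e', mul_assoc]⟩
      inv_mem' := fun {a} ⟨i, g, hg, e⟩ => ⟨(uNormOne ρ).inv_mem i, g⁻¹, M.inv_mem hg,
        fun c => g.injective (by simp [e])⟩ }
  have := Fintype.ofFinite U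
  have R3 : ∀ a : U, R a.1 1 := fun a => by
    obtain ⟨b, rfl⟩ := (Finite.injective_iff_surjective (f := fun a : U => a * a)).1 (fun a b e => by
      have e' : a.1.1 * a.1.1 = b.1.1 * b.1.1 := congrArg (fun x : U => x.1.1) e
      have : (a.1.1 - b.1.1) ^ 2 = 0 := by
        linear_combination e' + (b.1.1 ^ 2 - a.1.1 * b.1.1) * h2'
      exact Subtype.ext (Units.ext (sub_eq_zero.1 (pow_eq_zero_iff two_ne_zero |>.1 this)))) a
    simpa [b.2.1] using R1 _ _ _ b.2.2 (R2 b.1)
  have h3 : (Fintype.card U : F) = 1 := by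
    obtain ⟨n, hn⟩ := Odd.of_dvd_nat (n := Nat.card Kˣ) (by
      rw [Nat.card_units, h.hK.card]
      exact Nat.Even.sub_odd (Nat.one_le_pow _ _ (by positivity)) (by
        simp [Nat.even_pow, h.prime.ne_zero]) odd_one) U.card_subgroup_dvd_card
    simp [← Nat.card_eq_fintype_card, hn, h2]
  let S : K →ₗ[F] K := ∑ a : U, (h.C.flip a.1.1).smulRight a.1.1
  have hS : ∀ y, S y = ∑ a : U, h.C y a.1.1 • a.1.1 := fun y => by simp [S]
  let A : Subalgebra F K :=
    { carrier := {k | ∀ y, S (k * y) = k * S y}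
      mul_mem' := fun ha hb y => by rw [mul_assoc, ha, hb, mul_assoc]
      add_mem' := fun ha hb y => by rw [add_mul, map_add, ha, hb, add_mul]
      algebraMap_mem' := fun c y => by rw [← Algebra.smul_def, map_smul, Algebra.smul_def] }
  obtain ⟨u, i, j, k⟩ := hU
  have hA : A = ⊤ := ((Subalgebra.isSimpleOrder_of_finrank_prime F K h.prime).eq_bot_or_eq_top
    A).resolve_left fun e => j (e ▸ fun y => by
      rw [hS, hS, ← Equiv.sum_comp (Equiv.mulLeft
        (⟨Units.mk0 u (left_ne_zero_of_mul_eq_one i), i, k⟩ : U)), Finset.mul_sum]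
      refine Finset.sum_congr rfl fun a _ => ?_
      simp [h.C_mul, ← mul_assoc, mul_comm (ρ u) u, i])
  have h4 : ∀ y, S y = S 1 * y := fun y => by simpa [mul_comm] using (hA.ge trivial : y ∈ A) 1
  have h5 : ρ (S 1) = S 1 := h.hC.ext_right fun y => by
    have := h.C_mul (S 1) y 1
    rw [mul_one, ← h4] at this
    rw [← this]
    simp [hS, h.hC.symm, mul_comm]
  have h6 := (UHas.sum (f := fun a : U => (((B.flip (a.1.1 • v)).smulRight (a.1.1 • v) +
    (B.flip ((1 : K) • v)).smulRight ((1 : K) • v) : V →ₗ[F] V) : V →+ V))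
    (fun a b x => by simp [-one_smul, h.iso hv]) Finset.univ fun a _ => R3 a).div
    (K := fun x => x + B x v • v) (h.has_uRefl hK hv (c := S 1) (by linear_combination h5 + S 1 * h2'))
    fun x => by
      rw [map_add, LinearMap.add_apply, h.zero (x := (S 1 * β x v) • v) (by simp [hv]), ← h4]
      simp [Finset.sum_add_distrib, ← Nat.cast_smul_eq_nsmul F, h3, hS, h.C_left,
        Finset.sum_smul, add_assoc]
  intro c hc
  by_cases h0 : c = 0
  · rw [h0, uRefl_zero_right]; exact M.one_mem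
  exact UHas.uRefl_mem (h.zero hv) (by simpa [h.hq.eq_one_of_trace_zero h0 hc] using h6)

theorem exists_uTv (h : UExt q B β) (hM : M ≤ UG B) (hK : UKHas M β) {v : V} (hv0 : v ≠ 0)
    (hv : β v v = 0) (hU : ∀ v : V, v ≠ 0 → β v v = 0 → UKU M ρ v) (h1 : ¬ UKR M β v) :
    ∃ p, p ≠ 0 ∧ β p p = 0 ∧ UTv B M p := by
  obtain ⟨e, he, H⟩ := h.exists_pairs hM hK hv0 hv h1
  by_cases hq : q = 2
  · subst hq
    have h2 : (2 : F) = 0 := by exact_mod_cast h.hq.cast_eq_zero
    have h2' : (2 : K) = 0 := by rw [← map_ofNat (algebraMap F K), h2, map_zero]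
    have i := smul_ne_zero he hv0
    have j : β (e • v) (e • v) = 0 := by simp [hv]
    refine ⟨_, i, j, h.exists_uTv_two hM hK i j (hU _ i j) (h.hβ.norm_fixed e)
      fun c c' hc hc' k k' => ?_⟩
    simpa [mul_smul] using (H 1 (by rw [map_one]; linear_combination h2) c
      (by linear_combination hc + c * h2') (by rwa [C_apply, mul_assoc])).2 c'
      (by linear_combination hc' + c' * h2') (by rwa [C_apply, mul_assoc])
  obtain ⟨ν, h2, h3, h4⟩ := h.hq.exists_fixed_ne hq
  obtain ⟨θ, hθ0, hθ⟩ := h.hB.exists_trace_zero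
  obtain ⟨c, i, j, k⟩ := h.exists_fixed (e * ρ e)
  have h5 : ν * ν - ν ≠ 0 := by simp [sub_eq_zero, h3, h4]
  refine ⟨(θ • c * e) • v, by simp [hθ0, i, he, hv0], by
    rw [map_smul β, LinearMap.smul_apply, map_smulₛₗ, hv, smul_zero, smul_zero], fun τ hτ =>
    UHas.uRefl_mem (h.iso hv _ _) ?_⟩
  simpa only [mul_div_cancel₀ _ h5] using (H (τ / (ν * ν - ν)) (by
    rw [map_div₀, map_sub, map_mul, h2, ← add_div, hτ, zero_div]) _ (h.skew hθ j)
    (by simp [C_apply, mul_assoc, k])).1 ν h2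

theorem mem_bot_of_sq (h : UExt q B β) {u : K} {c : F} (e : u * u = algebraMap F K c) :
    u ∈ (⊥ : Subalgebra F K) := by
  have h1 := minpoly.degree_dvd (Algebra.IsIntegral.isIntegral (R := F) u)
  have h2 : (minpoly F u).natDegree ≤ 2 := by
    rw [← Polynomial.natDegree_X_pow_sub_C (n := 2) (r := c)]
    exact Polynomial.natDegree_le_of_dvd (minpoly.dvd F u (by simp [sq, e]))
      (Polynomial.X_pow_sub_C_ne_zero two_pos c)
  have h3 := h.three
  exact Algebra.mem_bot.2 (minpoly.natDegree_eq_one_iff.1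
    (((Nat.dvd_prime h.prime).1 h1).resolve_right (by omega)))

theorem exists_dual (h : UExt q B β) {x y : K} (hx : ρ x = x) (hy : ρ y = y) (H : x ∉ F ∙ y) :
    ∃ z, ρ z = z ∧ h.C x z = 1 ∧ h.C y z = 0 := by
  obtain ⟨k, i, j⟩ := h.hC.exists_perp_eq_one H
  obtain ⟨b, hb⟩ := h.hB.exists_trace_one
  have e : ∀ x, ρ x = x → h.C x (ρ k) = σ (h.C x k) := fun x hx => by
    rw [C_apply, C_apply, ← h.tr_map, map_mul ρ, hx]
  refine ⟨b • k + σ b • ρ k, by rw [map_add, h.map, h.map, h.hβ.invol, h.hB.invol, add_comm], ?_, ?_⟩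
  · simp [e x hx, j, h.hB.invol, add_comm, hb]
  · simp [e y hy, mem_uPerp_span_singleton.1 i]

theorem USG_le_of_uTv (h : UExt q B β) (hM : M ≤ UG B) (hK : UKHas M β) (hm : 2 ≤ finrank K V)
    {v : V} (hv0 : v ≠ 0) (hv : β v v = 0) (hU : UKU M ρ v) (hT : UTv B M v) : USG B ≤ M := by
  have := h.finite
  obtain ⟨θ, hθ0, hθ⟩ := h.hB.exists_trace_zero
  have hθ' : θ + σ θ = 0 := by simp [hθ]
  obtain ⟨ω, hω⟩ := h.hB.exists_ne
  have h1 : ∀ v w, UHypPair β v w → UTv B M v → ∀ c, ρ c = c → UTv B M (c • v) :=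
    fun v w hp hT c hc => by
      by_cases h0 : c = 0
      · simpa [h0] using hT.smul h.hB 0
      obtain ⟨g, hg, -, e, -⟩ := h.exists_uHyp hK hp h0 hc
      exact e ▸ hT.map hM hg
  obtain ⟨w, hp⟩ := h.hβ.exists_uHypPair hv0 hv
  have h2 : UTv B M w := by
    obtain ⟨g, hg, e⟩ := (h.has_uRefl hK hv (c := -(θ⁻¹ • 1)) (by simp [h.map, hθ])).comp
      (h.has_uRefl hK hp.right (h.skew hθ (map_one ρ)))
    have := (hT.map hM hg).smul h.hB θ⁻¹
    rwa [show g v = θ • w by simp [e, hv, hp.pair, hp.pair', hθ0, smul_smul],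
      inv_smul_smul₀ hθ0] at this
  obtain ⟨u, i, j, g, hg, e⟩ := hU
  obtain ⟨x, y, hx, hy, rfl⟩ := h.exists_add hω u
  have h3 : ∀ a b : F, ∀ z, ρ z = z → x = a • z → y = b • z → False := fun a b z hz i1 i2 => by
    have i3 : x + ω • y = (a + ω * b) • z := by rw [i1, i2]; module
    rw [i3] at i j
    have i4 : σ (a + ω * b) ≠ 0 := fun e => by simp [h.map, e] at i
    refine j (h.mem_bot_of_sq (c := (a + ω * b) / σ (a + ω * b)) ?_)
    rw [h.map, hz] at i
    rw [map_div₀, eq_div_iff ((map_ne_zero _).2 i4)]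
    simp only [Algebra.smul_def] at i ⊢
    linear_combination (algebraMap F K (a + ω * b)) * i
  obtain ⟨x', i1, i2, i3⟩ := h.exists_dual hx hy fun H => by
    obtain ⟨a, H⟩ := Submodule.mem_span_singleton.1 H
    exact h3 a 1 y hy H.symm (one_smul _ _).symm
  obtain ⟨y', j1, j2, j3⟩ := h.exists_dual hy hx fun H => by
    obtain ⟨a, H⟩ := Submodule.mem_span_singleton.1 H
    exact h3 1 a x hx (one_smul _ _).symm H.symm
  have h4 : ∀ a b : K, B (a • v) (b • w) = h.C a b := fun a b => by simp [← h.C_left, hp.pair]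
  have p1 := h.hB.uHypPair (h.iso hv x x) (h.iso hp.right x' x') ((h4 _ _).trans i2)
  refine h.hB.USG_le_of_two_pairs h.hq hM (fun W hW => ?_) p1
    (h.hB.uHypPair (h.iso hv y y) (h.iso hp.right y' y') ((h4 _ _).trans j2)) (h.iso hv _ _)
    ((h4 _ _).trans i3) (h.hB.eq_zero_symm ((h4 _ _).trans j3)) (h.iso hp.right _ _)
    (h1 v w hp hT x hx) (h1 w v hp.symm h2 x' i1) (h1 w v hp.symm h2 y' j1) fun c => ?_
  · have h5 : ∀ z, z ≠ 0 → β z z = 0 → (∀ k : K, k • z ∈ W) ∨ ∀ k : K, k • z ∈ uPerp B W := by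
      intro z i j
      obtain ⟨k, hk, a, ha, e⟩ := h.hβ.exists_USG_isotropic_smul hv0 hv i j
      obtain ⟨k', hk', e'⟩ := hK k hk
      have i1 : ∀ c, ρ c = c → c • a • z ∈ W ∨ c • a • z ∈ uPerp B W := fun c hc =>
        u_mem_or_perp hθ0 (by simp [smul_smul, h.iso j]) (hW _ (by
          simpa [e', e] using (h1 v w hp hT c hc).map hM hk' θ hθ')
          ⟨c • a • z, c • a • z, fun x hx _ => uRefl_apply_of_perp _ hx⟩)
      have i2 : ∀ X : Submodule F V, (∀ c, ρ c = c → c • a • z ∈ X) → ∀ k : K, k • z ∈ X :=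
        fun X H k => by
          obtain ⟨b, c, hb, hc, e⟩ := h.exists_add hω (k / a)
          rw [← div_mul_cancel₀ k ha, mul_smul, e, add_smul, smul_assoc]
          exact X.add_mem (H b hb) (X.smul_mem ω (H c hc))
      refine Or.imp (i2 _) (i2 _) (by_contra fun H => ?_)
      push Not at H
      obtain ⟨⟨b, hb, i3⟩, c, hc, i4⟩ := H
      have := i1 (b + c) (by simp [hb, hc])
      rw [add_smul, W.add_mem_iff_left ((i1 c hc).resolve_right i4),
        (uPerp B W).add_mem_iff_right ((i1 b hb).resolve_left i3)] at this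
      tauto
    have h6 : ∀ X : Submodule F V, (∀ z, z ≠ 0 → β z z = 0 → ∀ k : K, k • z ∈ X) → X = ⊤ :=
      fun X H => eq_top_iff.2 fun x _ => by
        let Y : Submodule K V :=
          { carrier := {x | ∀ k : K, k • x ∈ X}
            add_mem' := fun a b k => by rw [smul_add]; exact X.add_mem (a k) (b k)
            zero_mem' := fun k => by simp
            smul_mem' := fun c x a k => by rw [smul_smul]; exact a _ }
        simpa using ((h.hβ.eq_top_of_isotropic hm (U := Y) fun z hz => by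
          by_cases h0 : z = 0
          exacts [h0 ▸ Y.zero_mem, H z h0 hz]).ge trivial : x ∈ Y) 1
    by_cases h7 : ∃ z, z ≠ 0 ∧ β z z = 0 ∧ ∀ k : K, k • z ∈ W
    · obtain ⟨z, i1, i2, i3⟩ := h7
      have h8 : ∀ z y, (∀ k : K, k • z ∈ W) → β y y = 0 → β z y ≠ 0 → ∀ k : K, k • y ∈ W :=
        fun z y i j k => (h5 y (by rintro rfl; simp at k) j).resolve_right fun H =>
          k ((h.ext (x' := 0) (y' := y) fun c => by simpa using H 1 _ (i c)).trans (by simp))
      refine Or.inr (h6 W fun y j1 j2 => ?_)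
      obtain ⟨x, k1, k2, k3⟩ := h.hβ.exists_isotropic_two i1 j1 i2 j2
      exact h8 x y (h8 z x i3 k1 k2) j2 (mt h.hβ.eq_zero_symm k3)
    · refine Or.inl (le_bot_iff.1 (h.hB.uPerp_top ▸ h.hB.le_uPerp_comm.1 (h6 _ fun z i j => ?_).ge))
      exact (h5 z i j).resolve_left fun H => h7 ⟨z, i, j, H⟩
  · have h5 : ∀ a ν : F, σ ν = ν → UTv B M ((x + a • y) • v) →
        (ν * θ * a) • y • v ∈ uYadd h.hB M p1.left := fun a ν hν H => by
      have i : ν * θ + σ (ν * θ) = 0 := by simp [hν, hθ]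
      rw [mul_smul]
      exact h.hB.smul_mem_uYadd p1.left (by simp [h.iso hv]) (by simp [h.iso hv]) i
        (by simpa [add_smul, add_comm] using H _ i) ((h1 v w hp hT y hy).smul h.hB a _ i)
    have h0 : ω - σ ω ≠ 0 := sub_ne_zero.2 hω.symm
    have := add_mem (h5 1 ((ω * σ (c / θ) - σ ω * (c / θ)) / (ω - σ ω)) (by
      simp only [map_div₀, map_sub, map_mul, h.hB.invol]
      rw [← neg_div_neg_eq]; congr 1 <;> ring) (h1 v w hp hT _ (by simp [hx, hy])))
      (h5 ω ((c / θ - σ (c / θ)) / (ω - σ ω)) (by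
        simp only [map_div₀ σ _ (ω - σ ω), map_sub, h.hB.invol]
        rw [← neg_div_neg_eq]; congr 1 <;> ring) (by
        have := e 1
        rw [one_smul, mul_one] at this
        exact this ▸ hT.map hM hg))
    rw [← add_smul] at this
    convert this using 2
    field_simp
    ring

theorem uKU (h : UExt q B β) (hM : USG B ⊓ uKN F V K ≤ M)
    (hex : ¬ (q = 2 ∧ finrank F K = 3) ∨ 4 ≤ finrank K V) (v : V) (hv0 : v ≠ 0) (hv : β v v = 0) :
    UKU M ρ v := by
  have := h.finite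
  have h1 : ∀ j, 0 < j → j * (q + 1) < q ^ finrank F K + 1 →
      ∃ u : K, u * ρ u = 1 ∧ u ^ j ∉ (⊥ : Subalgebra F K) := fun j i k => by
    obtain ⟨u, hu, H⟩ := u_exists_pow_ne_one (P := fun u : K => u * ρ u = 1) (n := j * (q + 1))
      (by positivity) (by rwa [h.hK.card_norm_eq one_ne_zero (map_one ρ)])
    refine ⟨u, hu, fun e => H ?_⟩
    obtain ⟨c, e⟩ := Algebra.mem_bot.1 e
    have : u ^ j * ρ (u ^ j) = 1 := by rw [map_pow, ← mul_pow, hu, one_pow]
    rw [← e, Algebra.algebraMap_eq_smul_one, h.map, map_one, smul_mul_smul_comm,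
      h.hq.norm_eq_pow] at this
    rw [pow_mul, ← e, ← map_pow, Algebra.algebraMap_eq_smul_one]
    simpa using this
  have h2 := h.hq.two_le
  have h3 := h.three
  have h4 := Nat.pow_le_pow_right (zero_lt_two.trans_le h2) h3
  rcases hex with e | e
  · obtain ⟨u, i, j⟩ := h1 (q + 1) (by omega) (by
      by_cases h5 : q = 2
      · have : finrank F K ≠ 4 := fun e => absurd (e ▸ h.prime) (by norm_num)
        have := Nat.pow_le_pow_right two_pos (show 5 ≤ finrank F K by omega)
        subst h5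
        omega
      · nlinarith [show 3 ≤ q by omega, Nat.mul_le_mul_left (q * q) (show 3 ≤ q by omega)])
    let g := (LinearEquiv.smulOfNeZero K V u (left_ne_zero_of_mul_eq_one i)).restrictScalars F
    have hg : g ∈ UG B := fun x y => by
      change B (u • x) (u • y) = _
      rw [h.adj, smul_smul, mul_comm, i, one_smul]
    have h5 : ∀ n x, (g ^ n) x = u ^ n • x := fun n => by
      induction n with
      | zero => simp
      | succ n ih => exact fun x => by rw [pow_succ, LinearEquiv.mul_apply, ih, pow_succ, mul_smul]; rfl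
    refine ⟨u ^ (q + 1), by rw [map_pow, ← mul_pow, i, one_pow], j, g ^ (q + 1),
      hM ⟨mem_USG.2 ⟨pow_mem hg _, Units.ext ?_⟩, 1, fun k x => ?_⟩, fun k => by rw [h5, mul_smul]⟩
    · rw [map_pow, Units.val_pow_eq_pow_val, ← h.hq.norm_eq_pow]
      exact h.hB.det_mem_uNormOne hg
    · rw [h5, h5, smul_comm]; rfl
  · obtain ⟨u, i, j⟩ := h1 1 one_pos (by
      have := Nat.pow_lt_pow_right h2 (show 1 < 3 by omega)
      rw [pow_one] at this
      omega)
    obtain ⟨k, hk, e⟩ := h.hβ.exists_USG_isotropic (by omega) hv0 hv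
      (smul_ne_zero (left_ne_zero_of_mul_eq_one i) hv0) (z' := u • v) (by simp [hv])
    exact ⟨u, i, by simpa using j, _, hM (h.res_mem hk), fun c => by simp [e, smul_smul, mul_comm]⟩

theorem not_USG_le (h : UExt q B β) (hm : 2 ≤ finrank K V) : ¬ USG B ≤ uKN F V K := fun H => by
  have := h.finite
  obtain ⟨θ, hθ0, hθ⟩ := h.hB.exists_trace_zero
  obtain ⟨v, w, hp⟩ := h.hβ.exists_uHypPair' hm
  obtain ⟨φ, H⟩ := H (h.hB.uRefl_mem_USG (h.zero hp.left) (c := θ) (by simp [hθ]))
  simp only [uRefl_apply_of_isotropic (h.zero hp.left)] at H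
  have h1 : ∀ k, φ k = k := fun k => smul_left_injective K hp.left_ne_zero (by
    simpa [h.zero hp.left, h.zero (x := k • v) (y := v) (by simp [hp.left])] using (H k v).symm)
  obtain ⟨z, hz⟩ := h.hB.exists_ne_zero hp.left_ne_zero
  replace hz : θ * B z v ≠ 0 := mul_ne_zero hθ0 (mt h.hB.eq_zero_symm hz)
  have h2 : (⊥ : Subalgebra F K) = ⊤ := eq_top_iff.2 fun k _ => by
    have := H k z
    rw [h1, smul_add, add_right_inj] at this
    refine Algebra.mem_bot.2 ⟨θ * B (k • z) v / (θ * B z v), smul_left_injective K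
      hp.left_ne_zero ?_⟩
    change algebraMap F K _ • v = k • v
    rw [algebraMap_smul, div_eq_inv_mul, mul_smul, this, smul_comm k, inv_smul_smul₀ hz]
  exact absurd (Subalgebra.bot_eq_top_iff_finrank_eq_one.1 h2 ▸ h.prime) Nat.not_prime_one

theorem uMax (h : UExt q B β) (hm : 2 ≤ finrank K V)
    (hex : ¬ (q = 2 ∧ finrank F K = 3) ∨ 4 ≤ finrank K V) : UMax B (uKN F V K) :=
  ⟨h.not_USG_le hm, fun _ i j k => by_contra fun hne => k
    (h.le_uKN (fun _ hg => (j hg).1) (h.uKHas i) hm hex fun v hv0 hv => by_contra fun H => by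
      obtain ⟨p, i1, i2, i3⟩ := h.exists_uTv (fun _ hg => (j hg).1) (h.uKHas i) hv0 hv
        (h.uKU i hex) H
      exact hne (h.USG_le_of_uTv (fun _ hg => (j hg).1) (h.uKHas i) hm i1 i2
        (h.uKU i hex p i1 i2) i3))⟩

end UExt

theorem exists_uExt [Nontrivial V] (hq : UField σ q) (hB : IsHerm B) (hr : (finrank F K).Prime)
    (h3 : 3 ≤ finrank F K) (hadj : ∀ k : K, ∃ k' : K, ∀ x y, B (k • x) y = B x (k' • y)) :
    ∃ (ρ : K →+* K) (β : V →ₗ[K] V →ₛₗ[ρ] K), UExt q B β := by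
  have := hq.finite
  choose r hr' using hadj
  obtain ⟨v, hv⟩ := exists_ne (0 : V)
  have e1 : ∀ a b : K, (∀ x, B x (a • v) = B x (b • v)) → a = b := fun a b e =>
    smul_left_injective K hv (hB.ext_right e)
  let ρ : K →+* K :=
    { toFun := r
      map_one' := e1 _ _ fun x => by simp [← hr']
      map_mul' := fun a b => e1 _ _ fun x => by rw [← hr', mul_comm a, mul_smul, mul_smul, hr', hr']
      map_zero' := e1 _ _ fun x => by simp [← hr']
      map_add' := fun a b => e1 _ _ fun x => by simp [← hr', add_smul] }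
  have hρ : ∀ (k : K) x y, B (k • x) y = B x (ρ k • y) := hr'
  have h1 : ∀ k, ρ (ρ k) = k := fun k => e1 _ _ fun x => by
    rw [← hρ, ← hB.symm, ← hρ, hB.symm]
  have h2 : ∀ (c : F) k, ρ (c • k) = σ c • ρ k := fun c k => e1 _ _ fun x => by
    simp [← hρ, hB.invol]
  have h4 : ∀ k, Algebra.trace F K (ρ k) = σ (Algebra.trace F K k) := fun k => by
    rw [Algebra.trace_eq_of_equiv_equiv (RingEquiv.ofBijective σ hB.bijective)
      (RingEquiv.ofBijective ρ (Function.Involutive.bijective h1)) (RingHom.ext fun c => by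
        simp [Algebra.algebraMap_eq_smul_one, h2]) k]
    exact ((RingEquiv.ofBijective σ hB.bijective).apply_symm_apply _).symm
  have ext : ∀ a b : K, (∀ k, Algebra.trace F K (k * a) = Algebra.trace F K (k * b)) → a = b :=
    fun a b e => sub_eq_zero.1 ((traceForm_nondegenerate F K).2 _ fun k => by simp [mul_sub, e])
  have : ∀ x y : V, ∃ b : K, ∀ k, Algebra.trace F K (k * b) = B (k • x) y := fun x y => by
    obtain ⟨b, hb⟩ := ((Algebra.traceForm F K).toDual (traceForm_nondegenerate F K)).surjective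
      ((B.flip y).comp ((LinearMap.toSpanSingleton K V x).restrictScalars F))
    exact ⟨b, fun k => by rw [mul_comm]; exact LinearMap.congr_fun hb k⟩
  choose b hb using this
  let β : V →ₗ[K] V →ₛₗ[ρ] K := LinearMap.mk₂'ₛₗ (RingHom.id K) ρ b
    (fun x x' y => ext _ _ fun k => by simp [mul_add, hb])
    (fun c x y => ext _ _ fun k => by rw [smul_eq_mul, ← mul_assoc, hb, hb, mul_smul]; rfl)
    (fun x y y' => ext _ _ fun k => by simp [mul_add, hb])
    (fun c x y => ext _ _ fun k => by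
      rw [smul_eq_mul, ← mul_assoc, hb, hb, mul_comm, mul_smul, hρ (ρ c), h1])
  have tr : ∀ x y, Algebra.trace F K (β x y) = B x y := fun x y => by
    simpa [β] using hb x y 1
  obtain ⟨c, hc⟩ := hB.exists_ne
  exact ⟨ρ, β, hq, hB, ⟨⟨h1, c • 1, fun e => hc (smul_left_injective F (one_ne_zero' K) (by
    simpa [h2] using e))⟩, fun x y => ext _ _ fun k => by
      change _ = Algebra.trace F K (k * b y x)
      rw [← h1 k, ← map_mul, h4, hb y x, h1, hρ, ← hB.symm, ← hb]
      rfl, fun x H => hB.nondeg x fun y => by rw [← tr, H, map_zero]⟩, tr, h2, h4, hr, h3⟩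

open Matrix Cfsg.Geo

theorem UField.isMaximalIn_range (hq : UField σ q) {n : ℕ} (hr : (finrank F K).Prime)
    (h3 : 3 ≤ finrank F K) (hn : 2 * finrank F K ≤ n)
    (hex : ¬ (q = 2 ∧ finrank F K = 3) ∨ 4 * finrank F K ≤ n)
    (ι : K →ₐ[F] Matrix (Fin n) (Fin n) F) (hac : IsAdjointClosedFor (hermForm n F q) ι.range) :
    IsMaximalIn (GU n F q ⊓ specialLinear (Fin n) F)
      (subalgebraNormalizer ι.range ⊓ (GU n F q ⊓ specialLinear (Fin n) F)) := by
  have hne : Nonempty (Fin n) := ⟨⟨0, by omega⟩⟩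
  let _ : Module K (Fin n → F) := Module.compHom (Fin n → F)
    (((Matrix.toLinAlgEquiv' : Matrix (Fin n) (Fin n) F ≃ₐ[F] Module.End F (Fin n → F)) :
      Matrix (Fin n) (Fin n) F →+* Module.End F (Fin n → F)).comp
      (ι : K →+* Matrix (Fin n) (Fin n) F))
  have hs : ∀ (k : K) (x : Fin n → F), k • x = ι k *ᵥ x := fun _ _ => rfl
  have : IsScalarTower F K (Fin n → F) := ⟨fun c z v => by rw [hs, hs, map_smul, smul_mulVec]⟩
  have : FiniteDimensional K (Fin n → F) := Module.Finite.of_restrictScalars_finite F _ _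
  obtain ⟨ρ, β, h⟩ := exists_uExt (K := K) hq (hq.isHerm_uStd (Fin n)) hr h3 fun k => by
    obtain ⟨_, ⟨k', rfl⟩, H⟩ := hac _ ⟨k, rfl⟩
    exact ⟨k', fun x y => by rw [← hq.hermForm_eq, ← hq.hermForm_eq]; exact H x y⟩
  have hm : finrank F K * finrank K (Fin n → F) = n := by
    rw [Module.finrank_mul_finrank, Module.finrank_fin_fun]
  refine hq.isMaximalIn (fun g _ => ⟨fun H => mem_uKN fun k => ?_, fun ⟨φ, H⟩ => ?_⟩)
    (h.uMax (by nlinarith) (hex.imp id fun _ => by nlinarith))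
  · obtain ⟨k', e⟩ := (H (ι k)).1 ⟨k, rfl⟩
    refine ⟨k', fun x => ?_⟩
    rw [hs, hs, show ι k' = Max.cj g (ι k) from e]
    exact (Max.cj_mulVec g _ x).symm
  · refine Max.mem_subalgebraNormalizer.2
      (form_mem_iff_of_mapsTo (Max.cj g).toLinearEquiv (Subalgebra.toSubmodule ι.range) ?_)
    rintro _ ⟨k, rfl⟩
    exact ⟨φ k, ((Max.cj_eq_iff _ _ _).2 (Matrix.ext_iff_mulVec.2 fun x => by
      rw [← mulVec_mulVec, ← mulVec_mulVec]; exact H k x)).symm⟩

theorem UField.isMaximalIn_ext (hq : UField σ q) {n r : ℕ} (hr : r.Prime) (h3 : 3 ≤ r)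
    (hn : 2 * r ≤ n) (hex : ¬ (q = 2 ∧ r = 3) ∨ 4 * r ≤ n)
    {K : Subalgebra F (Matrix (Fin n) (Fin n) F)} (hK : IsFieldSubalgebra r K)
    (hac : IsAdjointClosedFor (hermForm n F q) K) :
    IsMaximalIn (GU n F q ⊓ specialLinear (Fin n) F)
      (subalgebraNormalizer K ⊓ (GU n F q ⊓ specialLinear (Fin n) F)) := by
  have hne : Nonempty (Fin n) := ⟨⟨0, by omega⟩⟩
  obtain rfl := hK.finrank_eq
  have := @UField.isMaximalIn_range F _ σ q K (Max.IsFieldSubalgebra.isField hK).toField K.algebra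
    (inferInstanceAs (FiniteDimensional F K)) hq n hr h3 hn hex K.val (K.range_val.symm ▸ hac)
  rwa [show _ = K from K.range_val] at this

end Cfsg.Agent.Cl
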