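import Mathlib
import Cfsg.Agent.Cl.MaxSUExtD

/-!
# The normaliser of a cubic field extension is maximal in `SU_9(q)`

The arguments of `MaxSUExtB` and `MaxSUExtD` with `3 ≤ finrank K V`.
-/

set_option autoImplicit false
set_option linter.unusedSectionVars false

namespace Cfsg.Agent.Cl

namespace C9.X

open Module

variable {F : Type*} [Field F] {σ : F →+* F} {V : Type*} [AddCommGroup V] [Module F V]
  [FiniteDimensional F V] {B : V →ₗ[F] V →ₛₗ[σ] F} {q : ℕ} {M : Subgroup (V ≃ₗ[F] V)}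
  {K : Type*} [Field K] [Algebra F K] [Module K V] [IsScalarTower F K V] [FiniteDimensional F K]
  [FiniteDimensional K V] {ρ : K →+* K} {β : V →ₗ[K] V →ₛₗ[ρ] K}

/-- A bi-additive property of pairs which holds for pairs with a common isotropic perpendicular
vector holds for all pairs. -/
theorem pairs [Finite K] (hβ : IsHerm β) (hm : 3 ≤ finrank K V) {P : V → V → Prop}
    (a1 : ∀ x x' y, P x y → P x' y → P (x + x') y) (a2 : ∀ x y y', P x y → P x y' → P x (y + y'))
    (H : ∀ x y v, v ≠ 0 → β v v = 0 → β x v = 0 → β y v = 0 → P x y) (x y : V) : P x y := by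
  have h1 : ∀ x, β x x ≠ 0 → P x y := fun p hp => by
    obtain ⟨u, h1, h2, h3⟩ := hβ.exists_mem_isotropic (U := uPerp β (K ∙ p)) (by
      have := u_finrank_span_singleton_le (F := K) p
      rw [hβ.finrank_uPerp]
      omega)
    rw [mem_uPerp_span_singleton] at h1
    obtain ⟨f, hf, h4⟩ := hβ.exists_uHypPair_perp hp h2 h3 (hβ.eq_zero_symm h1)
    have := a2 p (y - β y u • f) (β y u • f) (H _ _ u h2 h3 h1 (by simp [hf.pair']))
      (H _ _ f hf.symm.left_ne_zero hf.right (hβ.eq_zero_symm h4) (by simp [hf.right]))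
    rwa [sub_add_cancel] at this
  by_cases hx : β x x = 0
  swap
  · exact h1 x hx
  by_cases h0 : x = 0
  · obtain ⟨u, h1, h2, h3⟩ := hβ.exists_mem_isotropic (U := uPerp β (K ∙ y)) (by
      have := u_finrank_span_singleton_le (F := K) y
      rw [hβ.finrank_uPerp]
      omega)
    rw [mem_uPerp_span_singleton] at h1
    exact H x y u h2 h3 (by simp [h0]) h1
  obtain ⟨w, hp⟩ := hβ.exists_uHypPair h0 hx
  obtain ⟨a, ha⟩ := hβ.exists_trace_eq (a := -1) (by simp)
  have := a1 (x + (a • x + w)) (-(a • x + w)) y (h1 _ (by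
    have : β (x + (a • x + w)) (x + (a • x + w)) = 1 := by
      simp [hp.left, hp.right, hp.pair, hp.pair']
      linear_combination ha
    rw [this]; exact one_ne_zero)) (h1 _ (by
    have : β (-(a • x + w)) (-(a • x + w)) = -1 := by
      simp [hp.left, hp.right, hp.pair, hp.pair']
      linear_combination ha
    rw [this]; simp))
  rwa [add_neg_cancel_right] at this

theorem le_uKN (h : UExt q B β) (hM : M ≤ UG B) (hK : UKHas M β) (hm : 3 ≤ finrank K V)
    (h1 : ∀ v, v ≠ 0 → β v v = 0 → UKR M β v) : M ≤ uKN F V K := fun g hg => by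
  have := h.hq.finite
  have := h.finite
  have := u_finite_linearEquiv (F := F) (V := V)
  have := Fintype.ofFinite (M ⧸ (uKN F V K).subgroupOf M)
  have := Fintype.ofFinite (uFix ρ)
  have hm' : 2 ≤ finrank K V := by omega
  obtain ⟨p, s, hp, hc, hs, hq⟩ := h.hq.exists_prime_pow
  have := Fact.mk hp
  have := charP_of_injective_algebraMap (algebraMap F K).injective p
  let _ := ZMod.algebra (uFix ρ) p
  have hA : Nat.card (uFix ρ) = p ^ (s * finrank F K) := by rw [h.hK.card_uFix, hq, pow_mul]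
  obtain ⟨θ, hθ0, hθ⟩ := h.hB.exists_trace_zero
  let d : V × V × V × V → F := fun ω => B (β ω.2.1 ω.2.2.2 • ω.1) ω.2.2.1
  have hd : ∀ k ∈ (uKN F V K).subgroupOf M, ∀ ω, d (k • ω) = d ω := fun k ⟨φ, hk⟩ ω => by
    change B (β (k.1 _) (k.1 _) • k.1 _) (k.1 _) = _
    replace hk : ∀ (c : K) x, k.1 (c • x) = φ c • k.1 x := hk
    rw [h.map_of_mem (hM k.2) hk, ← hk, UG_map (hM k.2)]
  have e0 : ∀ x y z w, trSum ((uKN F V K).subgroupOf M) d (x, y, z, w) =
      ∑ c : M ⧸ (uKN F V K).subgroupOf M,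
        B (β (c.out⁻¹.1 y) (c.out⁻¹.1 w) • c.out⁻¹.1 x) (c.out⁻¹.1 z) := fun _ _ _ _ => rfl
  have h2 : ∀ ω, trSum ((uKN F V K).subgroupOf M) d ω = d ω := fun ⟨x, y, z, w⟩ => by
    refine pairs (P := fun x y => trSum ((uKN F V K).subgroupOf M) d (x, y, z, w) = d (x, y, z, w))
      h.hβ hm (fun x x' y i j => ?_) (fun x y y' i j => ?_) (fun x y v hv0 hv i j => ?_) x y
    · rw [e0] at i j ⊢
      simp only [d] at i j ⊢
      simp only [map_add, smul_add, LinearMap.add_apply, Finset.sum_add_distrib, i, j]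
    · rw [e0] at i j ⊢
      simp only [d] at i j ⊢
      simp only [map_add, add_smul, LinearMap.add_apply, Finset.sum_add_distrib, i, j]
    choose a ha ha' using fun c : uFix ρ => h.has_uRefl hK hv (h.skew hθ c.2)
    let α : Multiplicative (uFix ρ) →* M := MonoidHom.mk' (fun c => ⟨a c.toAdd, ha _⟩) fun b c =>
      Subtype.ext (LinearEquiv.ext fun x => by simp [ha', hv, add_mul, add_smul]; abel)
    refine trSum_eq hd α (fun c => ⟨1, fun k x => ?_⟩) (fun c hc k hk => h.free hM hK hm' h1 hv0 hv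
      (smul_ne_zero hθ0 fun e => hc (by ext; simpa using e)) k.2 (ha' _) hk) fun k _ => ?_
    · change a _ _ = k • a _ _
      simp only [ha', map_smul, LinearMap.smul_apply, smul_eq_mul]
      module
    let φ : V → uFix ρ →+ V := fun x => AddMonoidHom.mk' (fun c => k.1 ((θ • c.1 * β x v) • v))
      fun b c => by simp [add_mul, add_smul]
    rw [← Multiplicative.ofAdd.sum_comp]
    change ∑ c : uFix ρ, B (β (k.1 (a c y)) (k.1 (a c w)) • k.1 (a c x)) (k.1 (a c z)) = 0
    simp only [ha', map_add k.1]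
    have d3 : ∀ x y, (fun c => B (β y (k.1 w + φ w c) • x) (k.1 z + φ z c)) ∈ uDeg F _ 3 :=
      fun x y => uDeg_step (φ z) _ (G := fun z c => B (β y (k.1 w + φ w c) • x) z)
        (fun _ _ => by ext; simp) fun z => uDeg_step (φ w) _ (G := fun w _ => B (β y w • x) z)
          (fun _ _ => by ext; simp [add_smul]) fun _ => uDeg_const _
    have h4 := h.three
    simpa [i, j, φ] using uDeg_sum_eq_zero hA (Or.inl (by nlinarith)) (d3 (k.1 x) (k.1 y))
  have : Nontrivial V := Module.nontrivial_of_finrank_pos (R := K) (by omega)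
  obtain ⟨y, w, hp⟩ := h.hβ.exists_uHypPair' hm'
  refine mem_uKN fun k => ⟨β (g (k • y)) (g w), fun x => h.hB.ext_left fun z => ?_⟩
  obtain ⟨z, rfl⟩ := g.surjective z
  have := trSum_smul hd ⟨g, hg⟩ (x, k • y, z, w)
  rw [h2, h2] at this
  rw [UG_map (hM hg)]
  simpa [d, hp.pair] using this.symm

theorem uKU (h : UExt q B β) (hM : USG B ⊓ uKN F V K ≤ M) (hm : 3 ≤ finrank K V) (v : V)
    (hv0 : v ≠ 0) (hv : β v v = 0) : UKU M ρ v := by
  have := h.finite
  have h2 := h.hq.two_le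
  have h3 := h.three
  have h4 := Nat.pow_le_pow_right (zero_lt_two.trans_le h2) h3
  obtain ⟨u, i, j⟩ : ∃ u : K, u * ρ u = 1 ∧ u ∉ (⊥ : Subalgebra F K) := by
    obtain ⟨u, hu, H⟩ := u_exists_pow_ne_one (P := fun u : K => u * ρ u = 1) (n := q + 1)
      (by positivity) (by
        have := Nat.pow_lt_pow_right h2 (show 1 < 3 by omega)
        rw [pow_one] at this
        rw [h.hK.card_norm_eq one_ne_zero (map_one ρ)]
        omega)
    refine ⟨u, hu, fun e => H ?_⟩
    obtain ⟨c, rfl⟩ := Algebra.mem_bot.1 e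
    rw [Algebra.algebraMap_eq_smul_one, h.map, map_one, smul_mul_smul_comm,
      h.hq.norm_eq_pow] at hu
    rw [← map_pow, Algebra.algebraMap_eq_smul_one]
    simpa using hu
  obtain ⟨k, hk, e⟩ := h.hβ.exists_USG_isotropic hm hv0 hv
    (smul_ne_zero (left_ne_zero_of_mul_eq_one i) hv0) (z' := u • v) (by simp [hv])
  exact ⟨u, i, j, _, hM (h.res_mem hk), fun c => by simp [e, smul_smul, mul_comm]⟩

theorem uMax (h : UExt q B β) (hm : 3 ≤ finrank K V) : UMax B (uKN F V K) :=
  have hm' : 2 ≤ finrank K V := by omega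
  ⟨h.not_USG_le hm', fun _ i j k => by_contra fun hne => k
    (le_uKN h (fun _ hg => (j hg).1) (h.uKHas i) hm fun v hv0 hv => by_contra fun H => by
      obtain ⟨p, i1, i2, i3⟩ := h.exists_uTv (fun _ hg => (j hg).1) (h.uKHas i) hv0 hv
        (uKU h i hm) H
      exact hne (h.USG_le_of_uTv (fun _ hg => (j hg).1) (h.uKHas i) hm' i1 i2
        (uKU h i hm p i1 i2) i3))⟩

open Matrix Cfsg.Geo

theorem isMaximalIn_range (hq : UField σ q) {n : ℕ} (hr : (finrank F K).Prime)
    (h3 : 3 ≤ finrank F K) (hn : 3 * finrank F K ≤ n)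
    (ι : K →ₐ[F] Matrix (Fin n) (Fin n) F) (hac : IsAdjointClosedFor (hermForm n F q) ι.range) :
    IsMaximalIn (GU n F q ⊓ specialLinear (Fin n) F)
      (subalgebraNormalizer ι.range ⊓ (GU n F q ⊓ specialLinear (Fin n) F)) := by
  have hne : Nonempty (Fin n) := ⟨⟨0, by omega⟩⟩
  let _ : Module K (Fin n → F) := Module.compHom (Fin n → F)
    (((Matrix.toLinAlgEquiv' : Matrix (Fin n) (Fin n) F ≃ₐ[F] Module.End F (Fin n → F)) :
      Matrix (Fin n) (Fin n) F →+* Module.End F (Fin n → F)).comp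
      (ι : K →+* Matrix (Fin n) (Fin n) F))
  have hs : ∀ (k : K) (x : Fin n → F), k • x = ι k *ᵥ x := fun _ _ => rfl
  have : IsScalarTower F K (Fin n → F) := ⟨fun c z v => by rw [hs, hs, map_smul, smul_mulVec]⟩
  have : FiniteDimensional K (Fin n → F) := Module.Finite.of_restrictScalars_finite F _ _
  obtain ⟨ρ, β, h⟩ := exists_uExt (K := K) hq (hq.isHerm_uStd (Fin n)) hr h3 fun k => by
    obtain ⟨_, ⟨k', rfl⟩, H⟩ := hac _ ⟨k, rfl⟩
    exact ⟨k', fun x y => by rw [← hq.hermForm_eq, ← hq.hermForm_eq]; exact H x y⟩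
  have hm : finrank F K * finrank K (Fin n → F) = n := by
    rw [Module.finrank_mul_finrank, Module.finrank_fin_fun]
  refine hq.isMaximalIn (fun g _ => ⟨fun H => mem_uKN fun k => ?_, fun ⟨φ, H⟩ => ?_⟩)
    (uMax h (by nlinarith))
  · obtain ⟨k', e⟩ := (H (ι k)).1 ⟨k, rfl⟩
    refine ⟨k', fun x => ?_⟩
    rw [hs, hs, show ι k' = Max.cj g (ι k) from e]
    exact (Max.cj_mulVec g _ x).symm
  · refine Max.mem_subalgebraNormalizer.2
      (form_mem_iff_of_mapsTo (Max.cj g).toLinearEquiv (Subalgebra.toSubmodule ι.range) ?_)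
    rintro _ ⟨k, rfl⟩
    exact ⟨φ k, ((Max.cj_eq_iff _ _ _).2 (Matrix.ext_iff_mulVec.2 fun x => by
      rw [← mulVec_mulVec, ← mulVec_mulVec]; exact H k x)).symm⟩

end C9.X

open Matrix Cfsg.Geo

theorem UField.isMaximalIn_ext_nine {F : Type*} [Field F] {σ : F →+* F} {q : ℕ}
    (hq : UField σ q) {K : Subalgebra F (Matrix (Fin 9) (Fin 9) F)} (hK : IsFieldSubalgebra 3 K)
    (hac : IsAdjointClosedFor (hermForm 9 F q) K) :
    IsMaximalIn (GU 9 F q ⊓ specialLinear (Fin 9) F)
      (subalgebraNormalizer K ⊓ (GU 9 F q ⊓ specialLinear (Fin 9) F)) := by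
  have e := hK.finrank_eq
  have := @C9.X.isMaximalIn_range F _ σ q K (Max.IsFieldSubalgebra.isField hK).toField K.algebra
    (inferInstanceAs (FiniteDimensional F K)) hq 9 (by rw [show _ = 3 from e]; exact Nat.prime_three) e.ge
    (by rw [show _ = 3 from e]) K.val (K.range_val.symm ▸ hac)
  rwa [show _ = K from K.range_val] at this

end Cfsg.Agent.Cl
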