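import Mathlib
import Cfsg.Agent.Blk.DefectCard
import Cfsg.Agent.Ch.BrauerCongr

/-!
Characters of degree prime to `p` in groups of characteristic `p` type: same block iff same
central character.
-/

set_option autoImplicit false

namespace Cfsg.Agent.Cl.CT

open Cfsg Cfsg.Agent.Ch Cfsg.Agent.Blk

variable {G : Type*} [Group G] [Finite G] {p : ℕ} {M : Ideal AlgInt}

omit [Finite G] in
theorem memLocalRing_inv_degree (hM : IsPModular p M) {χ : G → ℂ} (hχ : IsIrrCharacter G χ)
    (h : ¬ p ∣ charDegree χ) : MemLocalRing M (χ 1)⁻¹ := by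
  have := hM.isMaximal
  rw [← hχ.coe_charDegree]; exact hM.inv_natCast_mem h

theorem centralChar_mem_of_dvd (hM : IsPModular p M) {χ : G → ℂ} (hχ : IsIrrCharacter G χ)
    (h : ¬ p ∣ charDegree χ) {g : G} (hg : p ∣ (Subgroup.centralizer ({g} : Set G)).index) :
    MemLocalIdeal M (centralChar χ g) := by
  have := hM.isMaximal
  rw [centralChar, div_eq_mul_inv]
  exact (((hM.natCast_mem_iff _).mpr hg).mul_right
    (MemLocalRing.of_isIntegral (hχ.isCharacter.isIntegral g))).mul_right
    (memLocalRing_inv_degree hM hχ h)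

theorem sameBlock_of_not_dvd (hM : IsPModular p M)
    (hG : ∀ g : G, p ∣ (Subgroup.centralizer ({g} : Set G)).index ∨
      ∃ z ∈ Subgroup.center G, ∃ u, (∃ k, orderOf u = p ^ k) ∧ IsConj g (u * z))
    {χ ψ : G → ℂ} (hχ : IsIrrCharacter G χ) (hψ : IsIrrCharacter G ψ) (h1 : ¬ p ∣ charDegree χ)
    (h2 : ¬ p ∣ charDegree ψ) (h : ∀ z ∈ Subgroup.center G, χ z / χ 1 = ψ z / ψ 1) :
    SameBlock M χ ψ := by
  have := hM.isMaximal
  intro g
  rcases hG g with hg | ⟨z, hz, u, hu, hc⟩
  · exact (centralChar_mem_of_dvd hM hχ h1 hg).sub (centralChar_mem_of_dvd hM hψ h2 hg)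
  · have key : ∀ {θ : G → ℂ}, IsIrrCharacter G θ → ¬ p ∣ charDegree θ → MemLocalIdeal M
        (centralChar θ g - (Subgroup.centralizer ({g} : Set G)).index * (θ z / θ 1)) := by
      intro θ hθ h3
      have h4 := memLocalIdeal_apply_mul_sub hM hθ.isGeneralizedCharacter
        (show Commute u z from Subgroup.mem_center_iff.mp hz u) hu
      have h5 := (h4.mul_right (memLocalRing_inv_degree hM hθ h3)).mul_left
        (MemLocalRing.natCast (Subgroup.centralizer ({g} : Set G)).index)
      convert h5 using 1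
      rw [centralChar, hθ.isClassFunction.eq_of_isConj hc]; ring
    exact (key hχ h1).trans (h z hz ▸ (key hψ h2).symm)

omit [Finite G] in
theorem SameBlock.sub_center {χ ψ : G → ℂ} (h : SameBlock M χ ψ) {z : G}
    (hz : z ∈ Subgroup.center G) : MemLocalIdeal M (χ z / χ 1 - ψ z / ψ 1) := by
  have h1 : Subgroup.centralizer ({z} : Set G) = ⊤ := by
    rw [eq_top_iff]; intro x _
    exact Subgroup.mem_centralizer_singleton_iff.mpr (Subgroup.mem_center_iff.mp hz x)
  simpa [centralChar, h1] using h z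

end Cfsg.Agent.Cl.CT
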