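import Mathlib
import Cfsg.Agent.Cl.ClassDet
import Cfsg.Agent.Cl.UStab
import Cfsg.Agent.Cl.Transport
import Cfsg.Agent.Cl.Witt

/-!
# Groups covered by the conjugates of two subgroups, I

Generalities, roots of an irreducible polynomial in `F[D]`, and the linear groups.
-/

set_option autoImplicit false

namespace Cfsg.Agent.Cl.Cov

open Polynomial Module Cls

section Grp

/-- `G` is the union of the conjugates of two proper subgroups. -/
def Cov2 (G : Type*) [Group G] : Prop :=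
  ∃ H K : Subgroup G, H ≠ ⊤ ∧ K ≠ ⊤ ∧ ∀ g : G, ∃ x : G, x * g * x⁻¹ ∈ H ∨ x * g * x⁻¹ ∈ K

variable {G G' : Type*} [Group G] [Group G']

theorem Cov2.of_equiv (e : G ≃* G') (h : Cov2 G) : Cov2 G' := by
  obtain ⟨H, K, hH, hK, h⟩ := h
  have key : ∀ H : Subgroup G, H ≠ ⊤ → H.comap e.symm.toMonoidHom ≠ ⊤ := fun H hH e1 => by
    refine hH (eq_top_iff.2 fun x _ => ?_)
    have : e x ∈ H.comap e.symm.toMonoidHom := e1 ▸ Subgroup.mem_top _
    simpa using this
  refine ⟨_, _, key H hH, key K hK, fun g => ?_⟩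
  obtain ⟨x, hx⟩ := h (e.symm g)
  exact ⟨e x, by simpa using hx⟩

/-- A covering by two subgroups of an overgroup, each containing the centre. -/
theorem cov2_quot (M H K : Subgroup G) (hz : ∀ z : M, z ∈ Subgroup.center M → z.1 ∈ H ∧ z.1 ∈ K)
    (hH : ∃ g ∈ M, g ∉ H) (hK : ∃ g ∈ M, g ∉ K)
    (h : ∀ g ∈ M, ∃ x ∈ M, x * g * x⁻¹ ∈ H ∨ x * g * x⁻¹ ∈ K) :
    Cov2 (M ⧸ Subgroup.center M) := by
  have key : ∀ H : Subgroup G, (∀ z : M, z ∈ Subgroup.center M → z.1 ∈ H) → (∃ g ∈ M, g ∉ H) →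
      (H.subgroupOf M).map (QuotientGroup.mk' (Subgroup.center M)) ≠ ⊤ := by
    rintro H h1 ⟨g, hg, hgH⟩ e1
    have : QuotientGroup.mk' (Subgroup.center M) ⟨g, hg⟩ ∈
        (H.subgroupOf M).map (QuotientGroup.mk' (Subgroup.center M)) := e1 ▸ Subgroup.mem_top _
    obtain ⟨y, hy, e2⟩ := this
    have h2 := h1 _ (QuotientGroup.eq.1 e2)
    apply hgH
    have := H.mul_mem (Subgroup.mem_subgroupOf.1 hy) h2
    simpa using this
  refine ⟨_, _, key H (fun z h => (hz z h).1) hH, key K (fun z h => (hz z h).2) hK, fun g => ?_⟩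
  obtain ⟨g, rfl⟩ := QuotientGroup.mk'_surjective _ g
  obtain ⟨x, hx, h1⟩ := h g.1 g.2
  refine ⟨QuotientGroup.mk' _ ⟨x, hx⟩, h1.imp (fun h2 => ?_) fun h2 => ?_⟩ <;>
    exact ⟨⟨x, hx⟩ * g * ⟨x, hx⟩⁻¹, h2, by simp⟩

theorem cov2_sub (M H K : Subgroup G) (hH : ∃ g ∈ M, g ∉ H) (hK : ∃ g ∈ M, g ∉ K)
    (h : ∀ g ∈ M, ∃ x ∈ M, x * g * x⁻¹ ∈ H ∨ x * g * x⁻¹ ∈ K) : Cov2 M := by
  have key : ∀ H : Subgroup G, (∃ g ∈ M, g ∉ H) → H.subgroupOf M ≠ ⊤ := by
    rintro H ⟨g, hg, hgH⟩ e1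
    have : (⟨g, hg⟩ : M) ∈ H.subgroupOf M := e1 ▸ Subgroup.mem_top _
    exact hgH this
  refine ⟨_, _, key H hH, key K hK, fun g => ?_⟩
  obtain ⟨x, hx, h1⟩ := h g.1 g.2
  exact ⟨⟨x, hx⟩, h1⟩

end Grp

section Root

variable {F : Type*} [Field F]

theorem aeval_pow_card [Fintype F] {E : Type*} [Ring E] [Algebra F E] (x : E) (p : F[X]) (k : ℕ) :
    aeval (x ^ Fintype.card F ^ k) p = aeval x p ^ Fintype.card F ^ k := by
  induction k with
  | zero => simp
  | succ k ih => rw [pow_succ, pow_mul, pow_mul, ← ih, ← map_pow, ← FiniteField.expand_card,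
      expand_aeval]

theorem exists_dvd_aeval [Finite F] {p f : F[X]} (hp : Irreducible p) (hf : Irreducible f)
    (h : p.natDegree ∣ f.natDegree) : ∃ r : F[X], f ∣ aeval r p := by
  have := Fact.mk hp
  have := Fact.mk hf
  have := finiteDimensional_adjoinRoot hf.ne_zero
  have : Finite (AdjoinRoot f) := Module.finite_of_finite F
  obtain ⟨φ⟩ := FiniteField.nonempty_algHom_of_finrank_dvd (F := F) (K := AdjoinRoot p)
    (L := AdjoinRoot f) (by rwa [finrank_adjoinRoot, finrank_adjoinRoot])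
  obtain ⟨r, hr⟩ := AdjoinRoot.mk_surjective (φ (AdjoinRoot.root p))
  refine ⟨r, AdjoinRoot.mk_eq_zero.1 ?_⟩
  rw [← AdjoinRoot.aeval_eq, ← aeval_algHom_apply (aeval (AdjoinRoot.root f)), AdjoinRoot.aeval_eq,
    hr, aeval_algHom_apply, AdjoinRoot.aeval_eq, AdjoinRoot.mk_self, map_zero]

theorem sub_dvd_aeval_sub (r s p : F[X]) : r - s ∣ aeval r p - aeval s p := by
  have := sub_dvd_eval_sub r s (p.map (algebraMap F F[X]))
  rwa [eval_map_algebraMap, eval_map_algebraMap] at this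

theorem exists_dvd_aeval_pow {p m : F[X]} (hm : m ≠ 0)
    (h : ∀ f, Irreducible f → f ∣ m → ∃ r : F[X], f ∣ aeval r p) :
    ∃ (r : F[X]) (k : ℕ), m ∣ aeval r p ^ k := by
  induction m using WfDvdMonoid.induction_on_irreducible with
  | zero => exact (hm rfl).elim
  | unit u hu => exact ⟨0, 0, hu.dvd⟩
  | mul a f ha hf ih =>
    obtain ⟨r, k, hr⟩ := ih ha fun f' h1 h2 => h f' h1 (h2.mul_left f)
    by_cases hd : f ∣ a
    · exact ⟨r, k + k, by rw [pow_add]; exact mul_dvd_mul (hd.trans hr) hr⟩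
    obtain ⟨s, hs⟩ := h f hf (dvd_mul_right f a)
    obtain ⟨u, v, huv⟩ := (hf.coprime_iff_not_dvd).2 hd
    refine ⟨r * (u * f) + s * (v * a), k + 1, ?_⟩
    rw [pow_succ']
    refine mul_dvd_mul ?_ ?_
    · have h1 : f ∣ r * (u * f) + s * (v * a) - s :=
        ⟨(r - s) * u, by linear_combination s * huv⟩
      simpa using (h1.trans (sub_dvd_aeval_sub _ s p)).add hs
    · have h1 : a ∣ r * (u * f) + s * (v * a) - r :=
        ⟨(s - r) * v, by linear_combination r * huv⟩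
      simpa using ((h1.trans (sub_dvd_aeval_sub _ r p)).trans (sub_dvd_pow_sub_pow _ _ k)).add hr

theorem pow_card_eq_zero [Fintype F] {E : Type*} [Ring E] {x : E} (hx : IsNilpotent x) :
    ∃ k, x ^ Fintype.card F ^ k = 0 := by
  obtain ⟨k, hk⟩ := hx
  exact ⟨k, pow_eq_zero_of_le (Nat.lt_pow_self Fintype.one_lt_card).le hk⟩

/-- An irreducible polynomial with a root in every residue field has a root in `F[D]`. -/
theorem exists_root_aeval [Finite F] {E : Type*} [Ring E] [Algebra F E] {D : E} {p m : F[X]}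
    (hp : Irreducible p) (hm : m ≠ 0) (hD : aeval D m = 0)
    (h : ∀ f, Irreducible f → f ∣ m → p.natDegree ∣ f.natDegree) :
    ∃ r : F[X], aeval (aeval D r) p = 0 := by
  have := Fintype.ofFinite F
  obtain ⟨r, k, s, hs⟩ := exists_dvd_aeval_pow (p := p) hm
    fun f h1 h2 => exists_dvd_aeval hp h1 (h f h1 h2)
  have h1 : IsNilpotent (aeval (aeval D r) p) :=
    ⟨k, by rw [aeval_algHom_apply (aeval D), ← map_pow, hs, map_mul, hD, zero_mul]⟩
  obtain ⟨j, hj⟩ := pow_card_eq_zero (F := F) h1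
  exact ⟨r ^ Fintype.card F ^ j, by rw [map_pow, aeval_pow_card, hj]⟩

theorem exists_irred [Finite F] {d : ℕ} (hd : 0 < d) :
    ∃ p : F[X], p.Monic ∧ Irreducible p ∧ p.natDegree = d := by
  obtain ⟨l, hl⟩ := CharP.exists F
  have := Fintype.ofFinite F
  have : Fact l.Prime := ⟨CharP.char_is_prime F l⟩
  have : NeZero d := ⟨hd.ne'⟩
  obtain ⟨a, ha⟩ := Field.exists_primitive_element F (FiniteField.Extension F l d)
  have hi : IsIntegral F a := Algebra.IsIntegral.isIntegral a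
  refine ⟨minpoly F a, minpoly.monic hi, minpoly.irreducible hi, ?_⟩
  rw [← IntermediateField.adjoin.finrank hi, ha, IntermediateField.finrank_top',
    FiniteField.finrank_extension]

variable {V : Type*} [AddCommGroup V] [Module F V] [FiniteDimensional F V]

theorem ed_eq_replicate {p : F[X]} (hm : p.Monic) (hp : Irreducible p) {J : End F V}
    (hJ : aeval J p = 0) : ∃ k, ed J = Multiset.replicate k p ∧ k * p.natDegree = finrank F V := by
  have h1 : ∀ e ∈ ed J, e = p := fun e he => by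
    have h2 := isPP_of_mem_ed he
    obtain ⟨c, hc⟩ := (aeval_eq_zero_iff_ed J p).1 hJ e he
    exact eq_of_monic_of_associated h2.monic hm
      ⟨((hp.isUnit_or_isUnit hc).resolve_left h2.not_isUnit).unit, hc.symm⟩
  have h2 := Multiset.eq_replicate_card.2 h1
  refine ⟨_, h2, ?_⟩
  rw [← sum_natDegree_ed J]
  conv_rhs => rw [h2]
  simp

theorem natDegree_dvd_finrank {p : F[X]} (hm : p.Monic) (hp : Irreducible p) {J : End F V}
    (hJ : aeval J p = 0) : p.natDegree ∣ finrank F V :=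
  let ⟨k, _, h⟩ := ed_eq_replicate hm hp hJ
  ⟨k, by rw [← h, mul_comm]⟩

theorem sim_of_root {p : F[X]} (hm : p.Monic) (hp : Irreducible p) {J J' : End F V}
    (hJ : aeval J p = 0) (hJ' : aeval J' p = 0) : Sim J J' := by
  obtain ⟨k, h1, h2⟩ := ed_eq_replicate hm hp hJ
  obtain ⟨k', h1', h2'⟩ := ed_eq_replicate hm hp hJ'
  rw [sim_iff_ed_eq, h1, h1', Nat.eq_of_mul_eq_mul_right hp.natDegree_pos (h2.trans h2'.symm)]

theorem exists_sl_of_root [Finite F] [Nontrivial V] {p : F[X]} (hm : p.Monic) (hp : Irreducible p)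
    {J J' : End F V} (hJ : aeval J p = 0) (hJ' : aeval J' p = 0) :
    ∃ k ∈ slAut F V, ∀ v, k (J v) = J' (k v) := by
  obtain ⟨e, he⟩ := sim_of_root hm hp hJ hJ'
  obtain ⟨k, h1, h2⟩ := ed_eq_replicate hm hp hJ
  have h3 : p ^ 1 ∈ ed J := by
    rw [h1, pow_one, Multiset.mem_replicate]
    refine ⟨?_, rfl⟩
    rintro rfl
    have := finrank_pos (R := F) (M := V)
    omega
  obtain ⟨c, hc, hd⟩ := exists_commute_det_eq hm hp h3 ((LinearEquiv.det e)⁻¹ : Fˣ)
  have hu : IsUnit c := (LinearMap.isUnit_iff_isUnit_det c).2 (by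
    rw [hd, pow_one]; exact Units.isUnit _)
  obtain ⟨c, rfl⟩ := hu
  refine ⟨e * LinearMap.GeneralLinearGroup.toLinearEquiv c, ?_, fun v => ?_⟩
  · rw [mem_slAut, map_mul, ← Units.val_inj, Units.val_mul,
      LinearEquiv.coe_det (LinearMap.GeneralLinearGroup.toLinearEquiv c)]
    change _ * LinearMap.det (c : End F V) = _
    rw [hd, pow_one, Units.mul_inv, Units.val_one]
  · change e (c.1 (J v)) = J' (e (c.1 v))
    rw [← he, ← End.mul_apply, ← hc.eq, End.mul_apply]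

omit [FiniteDimensional F V] in
theorem root_no_eigen {p : F[X]} (hp : ∀ a, p.eval a ≠ 0) {J : End F V} (hJ : aeval J p = 0)
    {v : V} {a : F} (h : J v = a • v) : v = 0 := by
  by_contra hv
  have := End.aeval_apply_of_hasEigenvector (p := p) (f := J) (μ := a) (x := v)
    ⟨End.mem_eigenspace_iff.2 h, hv⟩
  rw [hJ, LinearMap.zero_apply, eq_comm, smul_eq_zero] at this
  exact this.elim (hp a) hv

end Root

section Stab

variable {F V : Type*} [Field F] [AddCommGroup V] [Module F V]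

/-- The automorphisms that translate `J` by a scalar of `S`. -/
def stabJ (S : AddSubgroup F) (J : End F V) : Subgroup (V ≃ₗ[F] V) where
  carrier := {g | ∃ c ∈ S, ∀ v, g (J v) = J (g v) + c • g v}
  one_mem' := ⟨0, zero_mem _, fun v => by simp⟩
  mul_mem' := by
    rintro a b ⟨c, hc, ha⟩ ⟨d, hd, hb⟩
    refine ⟨c + d, add_mem hc hd, fun v => ?_⟩
    simp only [LinearEquiv.mul_apply, hb, map_add, map_smul, ha, add_smul, add_assoc]
  inv_mem' := by
    rintro a ⟨c, hc, ha⟩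
    refine ⟨-c, neg_mem hc, fun v => ?_⟩
    obtain ⟨v, rfl⟩ := a.surjective v
    apply a.injective
    change a (a.symm _) = a (J (a.symm _) + _ • a.symm _)
    simp only [LinearEquiv.apply_symm_apply, LinearEquiv.symm_apply_apply, map_add, map_smul, ha]
    module

theorem scalar_mem_stabJ (S : AddSubgroup F) (J : End F V) {z : V ≃ₗ[F] V} {a : F}
    (h : ∀ x, z x = a • x) : z ∈ stabJ S J := ⟨0, zero_mem _, fun v => by simp [h]⟩

theorem conj_mem_stabJ {S : AddSubgroup F} {J J₀ : End F V} {g k : V ≃ₗ[F] V}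
    (hg : g ∈ stabJ S J) (hk : ∀ v, k (J v) = J₀ (k v)) : k * g * k⁻¹ ∈ stabJ S J₀ := by
  obtain ⟨c, hc, hg⟩ := hg
  refine ⟨c, hc, fun v => ?_⟩
  obtain ⟨v, rfl⟩ := k.surjective v
  change k (g (k.symm _)) = J₀ (k (g (k.symm _))) + c • k (g (k.symm _))
  rw [← hk, k.symm_apply_apply, k.symm_apply_apply, hg, map_add, map_smul, hk]

theorem notMem_stabJ [FiniteDimensional F V] {S : AddSubgroup F} {J : End F V}
    (hJ : ∀ v (a : F), J v = a • v → v = 0) (hS : S = ⊥ ∨ 3 ≤ finrank F V) {t : V ≃ₗ[F] V}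
    {f : Dual F V} {v x : V} (ht : ∀ x, t x = x + f x • v) (hv : v ≠ 0) (hx : f x ≠ 0) :
    t ∉ stabJ S J := by
  rintro ⟨c, hc, h⟩
  have hc0 : c = 0 := by
    rcases hS with rfl | hS
    · exact hc
    let φ : V →ₗ[F] F × F := f.prod (f ∘ₗ J)
    have h1 := φ.finrank_range_add_finrank_ker
    have h2 := (LinearMap.range φ).finrank_le
    rw [finrank_prod, finrank_self] at h2
    have h3 : LinearMap.ker φ ≠ ⊥ := fun e => by rw [e, finrank_bot] at h1; omega
    obtain ⟨y, hy, hy0⟩ := Submodule.exists_mem_ne_zero_of_ne_bot h3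
    have h4 : f y = 0 := congrArg Prod.fst hy
    have h5 : f (J y) = 0 := congrArg Prod.snd hy
    have h6 := h y
    simp only [ht, h4, h5, zero_smul, add_zero, left_eq_add, smul_eq_zero] at h6
    exact h6.resolve_right hy0
  have h1 := h x
  simp only [ht, hc0, zero_smul, add_zero, map_add, map_smul, add_right_inj] at h1
  refine hv (hJ v ((f x)⁻¹ * f (J x)) ?_)
  rw [mul_smul, h1, smul_smul, inv_mul_cancel₀ hx, one_smul]

theorem scalar_mem_uStab [FiniteDimensional F V] (W : Submodule F V) {z : V ≃ₗ[F] V} {a : F}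
    (h : ∀ x, z x = a • x) : z ∈ uStab F (W : Set V) :=
  mem_uStab_of_forall fun v hv => by rw [h]; exact W.smul_mem a hv

theorem conj_mem_uStab [FiniteDimensional F V] {s : Set V} {g k : V ≃ₗ[F] V} {W : Submodule F V}
    (hg : ∀ v ∈ s, g v ∈ Submodule.span F s) (hk : Submodule.span F (k '' s) = W) :
    k * g * k⁻¹ ∈ uStab F (W : Set V) := by
  have h1 : (Submodule.span F s).map (k : V →ₗ[F] V) = W := by rw [Submodule.map_span]; exact hk
  have h2 : (Submodule.span F s).map (g : V →ₗ[F] V) ≤ Submodule.span F s := by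
    rw [Submodule.map_span, Submodule.span_le]
    rintro _ ⟨v, hv, rfl⟩
    exact hg v hv
  refine mem_uStab_of_forall fun v hv => ?_
  rw [← h1] at hv ⊢
  obtain ⟨v, hv, rfl⟩ := hv
  refine ⟨g v, h2 ⟨v, hv, rfl⟩, ?_⟩
  change k (g v) = k (g (k.symm (k v)))
  rw [k.symm_apply_apply]

end Stab

section Lin

variable {F V : Type*} [Field F] [AddCommGroup V] [Module F V] [FiniteDimensional F V]

omit [FiniteDimensional F V] in
theorem exists_tv {v x : V} (h : x ∉ F ∙ v) :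
    ∃ t ∈ slAut F V, ∃ f : Dual F V, f x = 1 ∧ ∀ y, t y = y + f y • v := by
  obtain ⟨f, h1, h2, -⟩ := exists_functional_ne_zero_two (F ∙ v) h h
  have h3 := h1 v (Submodule.mem_span_singleton_self v)
  exact ⟨LinearEquiv.transvection h3, LinearEquiv.transvection.det_eq_one h3, f, h2,
    LinearEquiv.transvection.apply h3⟩

omit [FiniteDimensional F V] in
theorem exists_sl_point {u v : V} (hu : u ≠ 0) (hv : v ≠ 0) :
    ∃ k ∈ slAut F V, Submodule.span F (k '' {u}) = F ∙ v := by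
  by_cases h : u ∈ F ∙ v
  · refine ⟨1, one_mem _, ?_⟩
    obtain ⟨a, rfl⟩ := Submodule.mem_span_singleton.1 h
    simpa using Submodule.span_singleton_smul_eq (IsUnit.mk0 a (left_ne_zero_of_smul hu)) v
  have h1 : u ∉ F ∙ (v - u) := fun h1 => by
    obtain ⟨a, ha⟩ := Submodule.mem_span_singleton.1 h1
    by_cases h2 : 1 + a = 0
    · refine hv (neg_eq_zero.1 ?_)
      rw [eq_neg_of_add_eq_zero_right h2] at ha
      simpa using ha
    refine h (Submodule.mem_span_singleton.2 ⟨(1 + a)⁻¹ * a, ?_⟩)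
    rw [mul_smul, inv_smul_eq_iff₀ h2, add_smul, one_smul]
    nth_rewrite 1 [← ha]
    module
  obtain ⟨t, ht, f, h2, h3⟩ := exists_tv h1
  exact ⟨t, ht, by simp [h3, h2]⟩

omit [FiniteDimensional F V] in
theorem exists_notMem_span (h : 2 ≤ finrank F V) (v : V) : ∃ x, x ∉ F ∙ v := by
  by_contra! H
  have h1 := finrank_span_le_card (R := F) ({v} : Set V)
  rw [show (F ∙ v) = ⊤ from eq_top_iff.2 fun x _ => H x] at h1
  simp at h1
  omega

theorem cov2_sl [Finite F] {d : ℕ} (hd : 2 ≤ d) (hn : d ∣ finrank F V) (h0 : 0 < finrank F V)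
    (hz : ∀ z : slAut F V, z ∈ Subgroup.center (slAut F V) → ∃ a : F, ∀ x, z.1 x = a • x)
    (H : ∀ a b : ℕ, a + b = finrank F V → a ≠ 0 → a ≠ 1 → b ≠ 1 → d ∣ a) :
    Cov2 (slAut F V ⧸ Subgroup.center (slAut F V)) := by
  have : Nontrivial V := Module.nontrivial_of_finrank_pos h0
  have h2 : 2 ≤ finrank F V := hd.trans (Nat.le_of_dvd h0 hn)
  obtain ⟨p, hm, hp, hpd⟩ := exists_irred (F := F) (d := d) (by omega)
  have hpe : ∀ a, p.eval a ≠ 0 := fun a ha => by
    have := degree_eq_one_of_irreducible_of_root hp ha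
    rw [degree_eq_natDegree hp.ne_zero, hpd] at this
    norm_cast at this
    omega
  obtain ⟨k, hk⟩ := hn
  obtain ⟨J₀, hJ₀⟩ := exists_ed_eq (V := V) (s := Multiset.replicate k p)
    (fun e he => Multiset.eq_of_mem_replicate he ▸ isPP_of_irreducible hm hp)
    (by simp [hk, hpd, mul_comm])
  have hJ : aeval J₀ p = 0 := (aeval_eq_zero_iff_ed J₀ p).2 fun e he => by
    rw [hJ₀] at he
    rw [Multiset.eq_of_mem_replicate he]
  obtain ⟨v₀, hv₀⟩ := exists_ne (0 : V)
  obtain ⟨x₀, hx₀⟩ := exists_notMem_span h2 v₀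
  refine cov2_quot _ (uStab F ((F ∙ v₀ : Submodule F V) : Set V)) (stabJ ⊥ J₀) (fun z h => ?_) ?_ ?_
    fun g hg => ?_
  · obtain ⟨a, ha⟩ := hz z h
    exact ⟨scalar_mem_uStab _ ha, scalar_mem_stabJ _ _ ha⟩
  · obtain ⟨t, ht, h1⟩ := exists_sl_point (F := F) hv₀ (v := x₀) fun e => hx₀ (by rw [e]; exact zero_mem _)
    refine ⟨t, ht, fun h => hx₀ ?_⟩
    have h3 : (F ∙ x₀) ≤ F ∙ v₀ := by
      rw [← h1, Set.image_singleton, Submodule.span_singleton_le_iff_mem]
      exact (h v₀).1 (Submodule.mem_span_singleton_self v₀)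
    exact h3 (Submodule.mem_span_singleton_self x₀)
  · obtain ⟨t, ht, f, h1, h3⟩ := exists_tv hx₀
    exact ⟨t, ht, notMem_stabJ (fun v a => root_no_eigen hpe hJ) (Or.inl rfl) h3 hv₀
      (by rw [h1]; exact one_ne_zero)⟩
  by_cases he : ∃ a, (g : End F V).charpoly.IsRoot a
  · obtain ⟨a, ha⟩ := he
    obtain ⟨v, hv⟩ := ((End.hasEigenvalue_iff_isRoot_charpoly _ a).2 ha).exists_hasEigenvector
    obtain ⟨t, ht, h1⟩ := exists_sl_point (F := F) hv.2 hv₀
    refine ⟨t, ht, Or.inl (conj_mem_uStab ?_ h1)⟩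
    rintro _ rfl
    exact Submodule.mem_span_singleton.2 ⟨a, hv.apply_eq_smul.symm⟩
  have hc := (g : End F V).charpoly_monic
  obtain ⟨r, hr⟩ := exists_root_aeval (D := (g : End F V)) hp hc.ne_zero
    (LinearMap.aeval_self_charpoly _) fun f hf ⟨s, hs⟩ => by
      have hs0 : s ≠ 0 := by rintro rfl; exact hc.ne_zero (by rw [hs, mul_zero])
      have h1 : ∀ a : F[X], a ∣ (g : End F V).charpoly → a.natDegree ≠ 1 := fun a ha h => by
        obtain ⟨x, hx⟩ := exists_root_of_degree_eq_one (p := a) (by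
          rw [degree_eq_natDegree (by rintro rfl; simp at h), h]; rfl)
        exact he ⟨x, hx.dvd ha⟩
      rw [hpd]
      refine H _ s.natDegree ?_ hf.natDegree_pos.ne' (h1 f ⟨s, hs⟩) (h1 s ⟨f, by rw [hs, mul_comm]⟩)
      rw [← natDegree_mul hf.ne_zero hs0, ← hs, LinearMap.charpoly_natDegree]
  obtain ⟨t, ht, h1⟩ := exists_sl_of_root hm hp hr hJ
  refine ⟨t, ht, Or.inr (conj_mem_stabJ ⟨0, zero_mem _, fun v => ?_⟩ h1)⟩
  rw [zero_smul, add_zero]
  exact intertwine_aeval (f := (g : End F V)) (g := (g : End F V)) (g : End F V) (fun _ => rfl) r v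

theorem cov2_psl [Finite F] {n d : ℕ} (hd : 2 ≤ d) (hn : d ∣ n) (h0 : 0 < n)
    (H : ∀ a b : ℕ, a + b = n → a ≠ 0 → a ≠ 1 → b ≠ 1 → d ∣ a) :
    Cov2 (Matrix.ProjectiveSpecialLinearGroup (Fin n) F) := by
  refine (cov2_sl (F := F) (V := Fin n → F) hd (by simpa using hn) (by simpa using h0)
    (fun z hz => ?_) (by simpa using H)).of_equiv (centerQuotCongr (slEquiv (Fin n) F).symm)
  obtain ⟨r, -, hr⟩ := Matrix.SpecialLinearGroup.mem_center_iff.1
    ((mulEquiv_mem_center_iff (slEquiv (Fin n) F).symm z).2 hz)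
  refine ⟨r, fun x => ?_⟩
  rw [← slEquiv_symm_mulVec, ← hr]
  ext i
  simp [Matrix.mulVec_diagonal]

theorem cov2_psl2 [Finite F] : Cov2 (Matrix.ProjectiveSpecialLinearGroup (Fin 2) F) :=
  cov2_psl (d := 2) le_rfl dvd_rfl (by norm_num) fun a b _ _ _ _ => by omega

theorem cov2_psl3 [Finite F] : Cov2 (Matrix.ProjectiveSpecialLinearGroup (Fin 3) F) :=
  cov2_psl (d := 3) (by norm_num) dvd_rfl (by norm_num) fun a b _ _ _ _ => by omega

theorem cov2_psl4 [Finite F] : Cov2 (Matrix.ProjectiveSpecialLinearGroup (Fin 4) F) :=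
  cov2_psl (d := 2) le_rfl (by norm_num) (by norm_num) fun a b _ _ _ _ => by omega

end Lin

end Cfsg.Agent.Cl.Cov
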