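import Mathlib
import Cfsg.Agent.Cl.CharCovA
import Cfsg.Agent.Cl.SpTransv
import Cfsg.Agent.Cl.QuadClassify
import Cfsg.Agent.Oct.Basic

/-!
# Groups covered by the conjugates of two subgroups, II

Characteristic two: symplectic groups (two orthogonal subgroups) and `G₂` (stabilisers of the two
types of separable quadratic subalgebras).
-/

set_option autoImplicit false

namespace Cfsg.Agent.Cl.Cov

open Module QuadraticMap Cfsg.Agent.Oct

variable {F V : Type*} [Field F] [AddCommGroup V] [Module F V]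

theorem exists_delta [Finite F] (h2 : (2 : F) = 0) :
    ∃ δ : F, ∀ n : F, (∃ a, n + 0 = a ^ 2 + a) ∨ ∃ a, n + δ = a ^ 2 + a := by
  obtain ⟨H, h1, h3⟩ := quad_artinSchreier_index h2
  obtain ⟨δ, hδ⟩ := AddSubgroup.index_eq_two_iff.1 h1
  refine ⟨δ, fun n => ?_⟩
  rcases hδ n with h | h
  · exact Or.inr (let ⟨a, ha⟩ := (h3 _).1 h.1; ⟨a, ha.symm⟩)
  · exact Or.inl (let ⟨a, ha⟩ := (h3 _).1 h.1; ⟨a, by rw [add_zero, ha]⟩)

theorem sq_bijective [Finite F] (h2 : (2 : F) = 0) : Function.Bijective fun a : F => a ^ 2 := by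
  refine Finite.injective_iff_bijective.1 fun a b h => ?_
  have : (a - b) ^ 2 = 0 := by
    linear_combination h + (b ^ 2 - a * b) * h2
  exact sub_eq_zero.1 (pow_eq_zero_iff two_ne_zero |>.1 this)

theorem exists_dual_comp {W : Type*} [AddCommGroup W] [Module F W] (φ : V →ₗ[F] W) (l : Dual F V)
    (h : ∀ x, φ x = 0 → l x = 0) : ∃ ψ : Dual F W, ∀ x, ψ (φ x) = l x := by
  have : l ∈ LinearMap.range φ.dualMap := by
    rw [LinearMap.range_dualMap_eq_dualAnnihilator_ker, Submodule.mem_dualAnnihilator]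
    exact h
  obtain ⟨ψ, rfl⟩ := this
  exact ⟨ψ, fun _ => rfl⟩

section Sp

variable {B : LinearMap.BilinForm F V} {Q : QuadraticForm F V}

/-- The quadratic form `Q + B(·, c) ^ 2`. -/
def qc (B : LinearMap.BilinForm F V) (Q : QuadraticForm F V) (c x : V) : F := Q x + B x c ^ 2

theorem qc_add_smul (h2 : (2 : F) = 0) (hQ : ∀ x y, polar Q x y = B x y) (c x v : V) (a : F) :
    qc B Q c (x + a • v) = qc B Q c x + a * B x v + a ^ 2 * qc B Q c v := by
  simp only [qc, o_qadd, o_qsmul, hQ, map_add, map_smul, LinearMap.add_apply, LinearMap.smul_apply,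
    smul_eq_mul]
  linear_combination (a * B x c * B v c) * h2

theorem exists_qc_fix [Finite F] [FiniteDimensional F V] (h2 : (2 : F) = 0) (hB : B.Nondegenerate)
    (hA : B.IsAlt) (hQ : ∀ x y, polar Q x y = B x y) {g : V ≃ₗ[F] V} (hg : g ∈ SpG B) :
    ∃ c, g ∈ isomQ F (qc B Q c) := by
  obtain ⟨hi, hs⟩ := sq_bijective h2
  choose s hs using hs
  simp only at hs
  let l : Dual F V :=
    { toFun := fun x => s (Q (g x) - Q x)
      map_add' := fun x y => hi (by
        have h1 := hs (Q (g x) - Q x)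
        have h3 := hs (Q (g y) - Q y)
        simp only [hs, map_add, o_qadd, hQ, hg x y]
        linear_combination -h1 - h3 - (s (Q (g x) - Q x) * s (Q (g y) - Q y)) * h2)
      map_smul' := fun a x => hi (by
        simp only [hs, map_smul, o_qsmul, smul_eq_mul, mul_pow, RingHom.id_apply]
        ring) }
  obtain ⟨ψ, hψ⟩ := exists_dual_comp ((g : V →ₗ[F] V) - LinearMap.id) l fun x hx => hi (by
    have h1 : g x = x := sub_eq_zero.1 hx
    simp [l, hs, h1])
  obtain ⟨c, rfl⟩ := (B.toDual hB).surjective ψ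
  refine ⟨c, fun x => ?_⟩
  have h1 : B c (g x - x) = s (Q (g x) - Q x) := hψ x
  have h3 := hs (Q (g x) - Q x)
  rw [← h1, map_sub] at h3
  rw [qc, qc, ← hA.neg_eq c, ← hA.neg_eq c]
  linear_combination -h3 + (B c (g x) ^ 2 - B c (g x) * B c x) * h2

theorem exists_qc_conj (h2 : (2 : F) = 0) (hA : B.IsAlt) (hQ : ∀ x y, polar Q x y = B x y)
    {c c' : V} {a : F} (h : Q c + Q c' = a ^ 2 + a) {g : V ≃ₗ[F] V} (hg : g ∈ isomQ F (qc B Q c)) :
    ∃ k ∈ SpG B, k * g * k⁻¹ ∈ isomQ F (qc B Q c') := by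
  obtain ⟨α, hα⟩ : ∃ α : F, α + α ^ 2 * qc B Q c' (c + c') = 1 := by
    have h1 : qc B Q c' (c + c') = (a + B c c') ^ 2 + (a + B c c') := by
      simp only [qc, o_qadd, hQ, map_add, LinearMap.add_apply, hA.self_eq_zero]
      linear_combination h - (a * B c c') * h2
    by_cases h0 : qc B Q c' (c + c') = 0
    · exact ⟨1, by simp [h0]⟩
    · refine ⟨(a + B c c') / qc B Q c' (c + c'), ?_⟩
      field_simp
      rw [h1]; ring
  have hk : ∀ x, qc B Q c' ((spT hA (c + c') α).1 x) = qc B Q c x := fun x => by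
    rw [spT_apply, qc_add_smul h2 hQ]
    simp only [qc, map_add] at hα ⊢
    linear_combination (B x c + B x c') ^ 2 * hα + (B x c' ^ 2 + B x c * B x c') * h2
  refine ⟨(spT hA (c + c') α).1, (spT hA (c + c') α).2, fun x => ?_⟩
  obtain ⟨x, rfl⟩ := (spT hA (c + c') α).1.surjective x
  change qc B Q c' ((spT hA (c + c') α).1 (g ((spT hA (c + c') α).1.symm _))) = _
  rw [LinearEquiv.symm_apply_apply, hk, hk, hg]

theorem exists_notMem_qc (h2 : (2 : F) = 0) (hB : B.Nondegenerate) (hA : B.IsAlt)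
    (hQ : ∀ x y, polar Q x y = B x y) {u v : V} (hu : u ≠ 0) (hv : v ≠ 0) (huv : u + v ≠ 0)
    (h : B u v = 0) (c : V) : ∃ g ∈ SpG B, g ∉ isomQ F (qc B Q c) := by
  obtain ⟨w, hw, hw1⟩ : ∃ w, w ≠ 0 ∧ qc B Q c w ≠ 1 := by
    by_contra! H
    have h1 := qc_add_smul h2 hQ c u v 1
    rw [one_smul, H _ hu, H _ hv, H _ huv, h] at h1
    exact one_ne_zero (α := F) (by linear_combination h1 + h2)
  refine ⟨(spT hA w 1).1, (spT hA w 1).2, fun H => hw (hB.2 w fun x => ?_)⟩
  have h1 : qc B Q c ((spT hA w 1).1 x) = qc B Q c x := H x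
  rw [spT_apply, qc_add_smul h2 hQ] at h1
  have h3 : (1 - qc B Q c w) * B x w ^ 2 = 0 := by
    linear_combination h1 - (B x w ^ 2 * qc B Q c w) * h2
  exact pow_eq_zero_iff two_ne_zero |>.1 ((mul_eq_zero.1 h3).resolve_left (sub_ne_zero.2 hw1.symm))

theorem cov2_sp_two [Finite F] [FiniteDimensional F V] (h2 : (2 : F) = 0) (hB : B.Nondegenerate)
    (hA : B.IsAlt) (hQ : ∀ x y, polar Q x y = B x y) {u v : V} (hu : u ≠ 0) (hv : v ≠ 0)
    (huv : u + v ≠ 0) (h : B u v = 0) (hs : ∀ a, ∃ c, Q c = a) :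
    Cov2 (SpG B ⧸ Subgroup.center (SpG B)) := by
  obtain ⟨δ, hδ⟩ := exists_delta h2
  obtain ⟨c₁, hc₁⟩ := hs δ
  have : Nontrivial V := ⟨u, 0, hu⟩
  refine cov2_quot _ (isomQ F (qc B Q 0)) (isomQ F (qc B Q c₁)) (fun z hz => ?_)
    (exists_notMem_qc h2 hB hA hQ hu hv huv h _) (exists_notMem_qc h2 hB hA hQ hu hv huv h _)
    fun g hg => ?_
  · have : z = 1 := ((sp_mem_center_iff hB hA z).1 hz).elim id fun e =>
      e.trans (spNeg_eq_one_iff.2 h2)
    rw [this]
    exact ⟨one_mem _, one_mem _⟩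
  obtain ⟨c, hc⟩ := exists_qc_fix h2 hB hA hQ hg
  rcases hδ (Q c) with ⟨a, ha⟩ | ⟨a, ha⟩
  · obtain ⟨k, h1, h3⟩ := exists_qc_conj h2 hA hQ (c' := 0) (by rw [map_zero]; exact ha) hc
    exact ⟨k, h1, Or.inl h3⟩
  · obtain ⟨k, h1, h3⟩ := exists_qc_conj h2 hA hQ (c' := c₁) (by rw [hc₁]; exact ha) hc
    exact ⟨k, h1, Or.inr h3⟩

theorem cov2_psp_two [Finite F] (h2 : (2 : F) = 0) {m : ℕ} (hm : 2 ≤ m) : Cov2 (PSp m F) := by
  obtain ⟨m, rfl⟩ := Nat.exists_eq_add_of_le' hm
  let Q : QuadraticForm F (Fin (m + 2) ⊕ Fin (m + 2) → F) :=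
    ∑ i, QuadraticMap.proj (Sum.inl i) (Sum.inr i)
  have hQ : ∀ x, Q x = ∑ i, x (Sum.inl i) * x (Sum.inr i) := fun x => by
    simp [Q]
  refine (cov2_sp_two (Q := Q) h2 spB_nondegenerate spB_isAlt (fun x y => ?_)
    (u := Pi.single (Sum.inl 0) 1) (v := Pi.single (Sum.inl 1) 1) (by simp) (by simp)
    (fun e => by simpa using congrFun e (Sum.inl 0)) (by simp [spB_single_inl]) fun a =>
      ⟨Pi.single (Sum.inl 0) 1 + Pi.single (Sum.inr 0) a, ?_⟩).of_equiv
    (centerQuotCongr (spStdEquiv (m + 2) F).symm)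
  · simp only [polar, hQ, spB_eq_sum, ← Finset.sum_sub_distrib, Pi.add_apply]
    exact Finset.sum_congr rfl fun i _ => by
      linear_combination (x (Sum.inl i) * y (Sum.inr i)) * h2
  · simp [hQ, Pi.single_apply]

end Sp

section Oct

variable {A : Comp F V}

theorem polar_mul_left (x u v : V) :
    polar A.N (A.m x u) v = polar A.N u (A.m (A.c x) v) := by
  have h1 : ∀ x, polar A.N (A.m x u) (A.m x v) = A.N x * polar A.N u v := fun x => by
    simp only [polar, ← map_add, A.N_mul]; ring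
  have h2 := h1 (x + A.e)
  have h3 := h1 x
  simp only [map_add, LinearMap.add_apply, A.one_mul, polar_add_left, polar_add_right, o_qadd,
    A.N_e] at h2
  rw [A.c_def, map_sub, map_smul, LinearMap.sub_apply, LinearMap.smul_apply, A.one_mul,
    polar_sub_right, o_polar_smul_right]
  linear_combination h2 - h3

/-- A model `(W, μ, κ)` of a non-degenerate subalgebra. -/
structure Emb (A : Comp F V) {W : Type*} [AddCommGroup W] [Module F W] (μ : W → W → W) (κ : W → W)
    (E : W →ₗ[F] V) : Prop where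
  mul : ∀ u v, E (μ u v) = A.m (E u) (E v)
  conj : ∀ u, E (κ u) = A.c (E u)
  one : ∃ u, E u = A.e
  nd : ∀ u, (∀ v, polar A.N (E u) (E v) = 0) → u = 0

variable {W : Type*} [AddCommGroup W] [Module F W] {μ : W → W → W} {κ : W → W} {E : W →ₗ[F] V}

/-- The product of the double. -/
def dMul (μ : W → W → W) (κ : W → W) (p q : W × W) : W × W :=
  (μ p.1 q.1 - μ (κ q.2) p.2, μ q.2 p.1 + μ p.2 (κ q.1))

/-- The conjugation of the double. -/
def dConj (κ : W → W) (p : W × W) : W × W := (κ p.1, -p.2)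

/-- The embedding of the double. -/
def dEmb (A : Comp F V) (E : W →ₗ[F] V) (l : V) : W × W →ₗ[F] V :=
  E.coprod (A.m.flip l ∘ₗ E)

theorem dEmb_apply (l : V) (p : W × W) : dEmb A E l p = E p.1 + A.m (E p.2) l := rfl

theorem Emb.double (h : Emb A μ κ E) {l : V} (hl : ∀ u, polar A.N (E u) l = 0) (hN : A.N l = 1) :
    Emb A (dMul μ κ) (dConj κ) (dEmb A E l) := by
  obtain ⟨u₀, hu₀⟩ := h.one
  have hc : A.c l = -l := A.c_of_perp (by rw [polar_comm, ← hu₀, hl])
  have hp : ∀ u v, polar A.N (A.m (E u) l) (E v) = 0 := fun u v => by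
    rw [polar_mul_left, ← h.conj, ← h.mul, polar_comm, hl]
  have hc' : ∀ u, A.c (A.m (E u) l) = -A.m (E u) l := fun u => A.c_of_perp (by rw [← hu₀, hp])
  have f0 : ∀ u, A.m (E u) l = A.m l (A.c (E u)) := fun u => by
    have := A.lin_e (E u) l
    rwa [hl, zero_smul, hc, map_neg, neg_add_eq_zero] at this
  have f1 : ∀ u v, A.m (E u) (A.m (E v) l) = A.m (A.m (E v) (E u)) l := fun u v => by
    have := A.linL (E u) l (A.c (E v))
    rw [hl, zero_smul, hc, map_neg, LinearMap.neg_apply, map_neg, neg_add_eq_zero, ← f0,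
      ← A.c_mul] at this
    rw [this, ← h.mul, ← f0]
  have f2 : ∀ x v, A.m (A.m x l) (E v) = A.m (A.m x (A.c (E v))) l := fun x v => by
    have := A.linR x (E v) l
    rw [hl, zero_smul, hc, map_neg, map_neg, LinearMap.neg_apply, add_neg_eq_zero] at this
    exact this.symm
  have f3 : ∀ u v, A.m (A.m (E u) l) (A.m (E v) l) = -A.m (A.c (E v)) (E u) := fun u v => by
    have h3 : A.m (A.m (E u) l) l = -E u := by
      have := A.altR' (E u) l
      rw [hc, map_neg, hN, one_smul] at this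
      exact neg_eq_iff_eq_neg.1 this
    have := A.linL (A.m (E u) l) (A.c (E v)) l
    rw [← h.conj, hp, zero_smul, h.conj, A.c_c, hc', map_neg, LinearMap.neg_apply, h3, neg_neg,
      add_eq_zero_iff_eq_neg] at this
    exact this
  refine ⟨fun p q => ?_, fun p => ?_, ⟨(u₀, 0), by simp [dEmb_apply, hu₀]⟩, fun p H => ?_⟩
  · simp only [dEmb_apply, dMul, map_add, map_sub, LinearMap.add_apply, h.mul, h.conj, f1, f2, f3]
    abel
  · simp only [dEmb_apply, dConj, map_add, map_neg, LinearMap.neg_apply, h.conj, hc']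
  · refine Prod.ext (h.nd _ fun v => ?_) (h.nd _ fun v => ?_)
    · simpa [dEmb_apply, polar_add_left, hp] using H (v, 0)
    · have h1 := H (0, v)
      have h3 : polar A.N (A.m (E p.2) l) (A.m (E v) l) = polar A.N (E p.2) (E v) := by
        simp only [polar, ← LinearMap.add_apply, ← map_add, A.N_mul, hN, mul_one]
      simp only [dEmb_apply, map_zero, zero_add, polar_add_left, h3] at h1
      rwa [polar_comm, hp, zero_add] at h1

theorem Emb.exists_perp [Finite F] [FiniteDimensional F V] [FiniteDimensional F W]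
    (h2 : (2 : F) = 0) (h : Emb A μ κ E) (hW : finrank F W < finrank F V) :
    ∃ l, (∀ u, polar A.N (E u) l = 0) ∧ A.N l = 1 := by
  obtain ⟨l, hl, hN⟩ : ∃ l ∈ operp A.N (LinearMap.range E), A.N l ≠ 0 := by
    by_contra! H
    have h1 : operp A.N (LinearMap.range E) ≤ operp A.N (operp A.N (LinearMap.range E)) :=
      fun x hx y hy => by
        change polar _ _ _ = 0
        rw [polar, H _ hx, H _ hy, H _ (add_mem hy hx)]; simp
    rw [operp_operp A.nondeg] at h1
    have h3 : operp A.N (LinearMap.range E) = ⊥ := eq_bot_iff.2 fun x hx => by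
      obtain ⟨u, rfl⟩ := h1 hx
      rw [h.nd u fun v => (polar_comm _ _ _).trans (hx _ ⟨v, rfl⟩), map_zero]
      exact zero_mem _
    have h4 := finrank_operp A.nondeg (LinearMap.range E)
    have h5 := E.finrank_range_le
    rw [h3, finrank_bot] at h4
    omega
  obtain ⟨a, ha⟩ := (sq_bijective h2).2 (A.N l)⁻¹
  refine ⟨a • l, fun u => ?_, ?_⟩
  · rw [o_polar_smul_right, mem_operp.1 hl _ ⟨u, rfl⟩, mul_zero]
  · simp only at ha
    rw [o_qsmul, ha, inv_mul_cancel₀ hN]

/-- The product of the quadratic algebra `F[x]`, `x ^ 2 = x - n`. -/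
def qMul (n : F) (p q : F × F) : F × F :=
  (p.1 * q.1 - n * p.2 * q.2, p.1 * q.2 + p.2 * q.1 + p.2 * q.2)

/-- The conjugation of the quadratic algebra. -/
def qConj (p : F × F) : F × F := (p.1 + p.2, -p.2)

theorem emb_base (h2 : (2 : F) = 0) {x : V} (hx : polar A.N x A.e = 1) :
    Emb A (qMul (A.N x)) qConj ((LinearMap.toSpanSingleton F V A.e).coprod
      (LinearMap.toSpanSingleton F V x)) := by
  refine ⟨fun p q => ?_, fun p => ?_, ⟨(1, 0), by simp⟩, fun p H => ?_⟩
  · simp only [qMul, LinearMap.coprod_apply, LinearMap.toSpanSingleton_apply, map_add, map_smul,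
      LinearMap.add_apply, LinearMap.smul_apply, A.one_mul, A.mul_one, A.mul_self, hx]
    module
  · simp only [qConj, LinearMap.coprod_apply, LinearMap.toSpanSingleton_apply, map_add, map_smul,
      A.c_e, A.c_def x, hx]
    module
  · have h1 := H (1, 0)
    have h3 := H (0, 1)
    simp only [LinearMap.coprod_apply, LinearMap.toSpanSingleton_apply, one_smul, zero_smul,
      add_zero, zero_add, polar_add_left, o_polar_smul_left, o_polar_self, hx, h2,
      polar_comm _ A.e x] at h1 h3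
    exact Prod.ext (by simpa using h3) (by simpa using h1)

theorem exists_full [Finite F] (h2 : (2 : F) = 0) (hV : finrank F V = 8) {x : V}
    (hx : polar A.N x A.e = 1) :
    ∃ E : (((F × F) × F × F) × (F × F) × F × F) ≃ₗ[F] V, E (((0, 1), 0), 0) = x ∧
      ∀ u v, E (dMul (dMul (qMul (A.N x)) qConj) (dConj qConj) u v) = A.m (E u) (E v) := by
  have : FiniteDimensional F V := Module.finite_of_finrank_pos (by omega)
  have h1 := emb_base h2 hx
  obtain ⟨l, hl, hN⟩ := h1.exists_perp h2 (by simp [hV])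
  have h3 := h1.double hl hN
  obtain ⟨l', hl', hN'⟩ := h3.exists_perp h2 (by simp [hV])
  have h4 := h3.double hl' hN'
  have h5 := (injective_iff_map_eq_zero _).2 fun u hu => h4.nd u fun v => by
    rw [hu, polar_zero_left]
  refine ⟨LinearEquiv.ofInjectiveOfFinrankEq _ h5 (by simp [hV]), ?_, h4.mul⟩
  change dEmb _ _ _ _ = _
  simp [dEmb_apply]

theorem exists_aut [Finite F] (h2 : (2 : F) = 0) (hV : finrank F V = 8) {x y : V}
    (hx : polar A.N x A.e = 1) (hy : polar A.N y A.e = 1) (h : A.N x = A.N y) :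
    ∃ k ∈ A.Aut, k x = y := by
  obtain ⟨E, h1, h3⟩ := exists_full h2 hV hx
  obtain ⟨E', h1', h3'⟩ := exists_full h2 hV hy
  refine ⟨E.symm.trans E', fun a b => ?_, by rw [← h1, ← h1']; simp⟩
  obtain ⟨a, rfl⟩ := E.surjective a
  obtain ⟨b, rfl⟩ := E.surjective b
  rw [← h3]
  simp only [LinearEquiv.trans_apply, LinearEquiv.symm_apply_apply, h, h3']

theorem exists_fix [FiniteDimensional F V] {g : V ≃ₗ[F] V} (hg : g ∈ A.Aut) :
    ∃ x, polar A.N x A.e = 1 ∧ g x ∈ Submodule.span F {A.e, x} := by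
  by_contra! H
  obtain ⟨ψ, hψ⟩ := exists_dual_comp ((F ∙ A.e).mkQ ∘ₗ ((g : V →ₗ[F] V) - LinearMap.id))
    (polarBilin A.N A.e) fun x hx => by
      by_contra h0
      change ¬ polar A.N A.e x = 0 at h0
      refine H ((polar A.N A.e x)⁻¹ • x) ?_ ?_
      · rw [o_polar_smul_left, polar_comm _ x, inv_mul_cancel₀ h0]
      obtain ⟨a, ha⟩ := Submodule.mem_span_singleton.1 ((Submodule.Quotient.mk_eq_zero _).1 hx)
      refine Submodule.mem_span_pair.2 ⟨(polar A.N A.e x)⁻¹ * a, 1, ?_⟩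
      change a • A.e = g x - x at ha
      rw [map_smul, mul_smul, ha]
      module
  obtain ⟨y, hy⟩ := (LinearMap.BilinForm.toDual (polarBilin A.N) A.nondeg).surjective
    (ψ ∘ₗ (F ∙ A.e).mkQ)
  have h1 : ∀ x, polar A.N y x = ψ ((F ∙ A.e).mkQ x) := LinearMap.congr_fun hy
  have h3 : polar A.N y A.e = 0 := by
    rw [h1, Submodule.mkQ_apply, (Submodule.Quotient.mk_eq_zero _).2
      (Submodule.mem_span_singleton_self _), map_zero]
  obtain ⟨z, rfl⟩ := g.surjective y
  have h4 : z = g z + A.e := o_eq_of_polar A.nondeg fun x => by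
    have h5 : polar A.N (g z) (g x - x) = polar A.N A.e x := (h1 _).trans (hψ x)
    rw [polar_sub_right, Comp.aut_polar ⟨g, hg⟩] at h5
    rw [polar_add_left]
    linear_combination h5
  have h5 := Comp.aut_N ⟨g, hg⟩ z
  nth_rewrite 2 [h4] at h5
  rw [o_qadd, h3, A.N_e] at h5
  exact one_ne_zero (α := F) (by linear_combination -h5)

theorem cov2_aut [Finite F] (h2 : (2 : F) = 0) (hV : finrank F V = 8)
    (hs : ∀ n, ∃ x y, polar A.N x A.e = 1 ∧ polar A.N y A.e = 1 ∧ A.N x = n ∧ A.N y = n ∧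
      y ∉ Submodule.span F {A.e, x}) : Cov2 A.Aut := by
  have : FiniteDimensional F V := Module.finite_of_finrank_pos (by omega)
  obtain ⟨δ, hδ⟩ := exists_delta h2
  choose x y hx hy hx' hy' hxy using hs
  have h1 : ∀ n, ∃ g ∈ A.Aut, g ∉ uStab F (Submodule.span F {A.e, x n} : Set V) := fun n => by
    obtain ⟨k, hk, h⟩ := exists_aut h2 hV (hx n) (hy n) ((hx' n).trans (hy' n).symm)
    exact ⟨k, hk, fun H => hxy n (h ▸ (H (x n)).1 (Submodule.subset_span (by simp)))⟩
  have h3 : ∀ g ∈ A.Aut, ∀ z, polar A.N z A.e = 1 → g z ∈ Submodule.span F {A.e, z} →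
      ∀ n a, A.N z + n = a ^ 2 + a →
      ∃ k ∈ A.Aut, k * g * k⁻¹ ∈ uStab F (Submodule.span F {A.e, x n} : Set V) := by
    intro g hg z hz hgz n a h
    obtain ⟨k, hk, h4⟩ := exists_aut (A := A) h2 hV (x := z + a • A.e) (y := x n)
      (by rw [polar_add_left, o_polar_smul_left, hz, A.polar_e_e, h2]; simp) (hx n) (by
        rw [o_qadd, o_qsmul, o_polar_smul_right, hz, A.N_e, hx']
        linear_combination h + (a ^ 2 + a - n) * h2)
    refine ⟨k, hk, conj_mem_uStab (s := {A.e, z + a • A.e}) ?_ ?_⟩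
    · rintro _ (rfl | rfl)
      · rw [Comp.aut_e ⟨g, hg⟩]; exact Submodule.subset_span (by simp)
      · obtain ⟨s, t, hst⟩ := Submodule.mem_span_pair.1 hgz
        refine Submodule.mem_span_pair.2 ⟨s + a - t * a, t, ?_⟩
        rw [map_add, map_smul, Comp.aut_e ⟨g, hg⟩, ← hst]
        module
    · rw [Set.image_pair, h4, Comp.aut_e ⟨k, hk⟩]
  refine cov2_sub _ _ _ (h1 0) (h1 δ) fun g hg => ?_
  obtain ⟨z, hz, hgz⟩ := exists_fix hg
  rcases hδ (A.N z) with ⟨a, ha⟩ | ⟨a, ha⟩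
  · obtain ⟨k, h4, h5⟩ := h3 g hg z hz hgz _ a ha
    exact ⟨k, h4, Or.inl h5⟩
  · obtain ⟨k, h4, h5⟩ := h3 g hg z hz hgz _ a ha
    exact ⟨k, h4, Or.inr h5⟩

theorem cov2_g2 [Finite F] (h2 : (2 : F) = 0) : Cov2 (Cfsg.Lie.G2 F) := by
  refine (cov2_aut (A := zorn F) h2 (by simp) fun n => ⟨![1, 1, 0, 0, -n, 0, 0, 0],
    ![1, 0, 1, 0, 0, -n, 0, 0], ?_, ?_, ?_, ?_, fun h => ?_⟩).of_equiv (g2Equiv F).symm
  · simp [zorn, polar_zN]
  · simp [zorn, polar_zN]
  · simp [zorn, zN_apply]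
  · simp [zorn, zN_apply]
  · obtain ⟨a, b, hab⟩ := Submodule.mem_span_pair.1 h
    simpa [zorn] using congrFun hab 2

end Oct

end Cfsg.Agent.Cl.Cov
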