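import Mathlib
import Cfsg.Agent.Cl.CharCovA
import Cfsg.Agent.Cl.UOrder
import Cfsg.Agent.Cl.USimple

/-!
# Groups covered by the conjugates of two subgroups, III

Every isometry of a four-dimensional unitary space fixes a non-isotropic point or a totally
isotropic line.
-/

set_option autoImplicit false

namespace Cfsg.Agent.Cl.Cov

open Polynomial Module Cls

variable {F V : Type*} [Field F] [AddCommGroup V] [Module F V] {σ : F →+* F}
  {B : V →ₗ[F] V →ₛₗ[σ] F}

theorem odd_of_selfdual [Finite F] (h : UInvol σ) {f : F[X]} [hf : Fact (Irreducible f)]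
    (h1 : aeval (AdjoinRoot.root f)⁻¹ (f.map σ) = 0) :
    Odd f.natDegree := by
  have := finiteDimensional_adjoinRoot hf.out.ne_zero
  have : Finite (AdjoinRoot f) := Module.finite_of_finite F
  let τ : AdjoinRoot f →+* AdjoinRoot f := AdjoinRoot.lift ((AdjoinRoot.of f).comp σ)
    (AdjoinRoot.root f)⁻¹ (by rw [← eval₂_map]; exact h1)
  have h2 : ∀ a, τ (AdjoinRoot.of f a) = AdjoinRoot.of f (σ a) := fun a => AdjoinRoot.lift_of _
  have h3 : τ (AdjoinRoot.root f) = (AdjoinRoot.root f)⁻¹ := AdjoinRoot.lift_root _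
  obtain ⟨a, ha⟩ := h.exists_ne
  have h4 : UInvol τ := by
    refine ⟨fun x => ?_, AdjoinRoot.of f a, fun e => ha ((AdjoinRoot.of f).injective (h2 a ▸ e))⟩
    obtain ⟨x, rfl⟩ := AdjoinRoot.mk_surjective x
    induction x using Polynomial.induction_on' with
    | add p q hp hq => simp only [map_add, hp, hq]
    | monomial n c =>
      rw [← C_mul_X_pow_eq_monomial]
      simp only [map_mul, map_pow, AdjoinRoot.mk_C, AdjoinRoot.mk_X, h2, h3, map_inv₀, inv_inv,
        h.invol]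
  obtain ⟨r, hr⟩ := h4.exists_uField
  obtain ⟨q, hq⟩ := h.exists_uField
  have h5 := Module.natCard_eq_pow_finrank (K := F) (V := AdjoinRoot f)
  rw [hr.card, hq.card, finrank_adjoinRoot, ← pow_mul, mul_comm, pow_mul] at h5
  have h6 : r = q ^ f.natDegree := Nat.pow_left_injective two_ne_zero h5
  rw [← Nat.not_even_iff_odd]
  rintro ⟨k, hk⟩
  have := Fintype.ofFinite F
  apply ha
  apply (AdjoinRoot.of f).injective
  rw [← h2, hr.pow, ← map_pow, h6, hk, ← two_mul, pow_mul, ← hq.card, Nat.card_eq_fintype_card,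
    FiniteField.pow_card_pow]

theorem adj_aeval (hσ : ∀ a, σ (σ a) = a) {g S : End F V} {W : Submodule F V}
    (hS : ∀ x, ∀ y ∈ W, B (g x) y = B x (S y)) (hW : ∀ y ∈ W, S y ∈ W) (a : F[X]) (x : V) {y : V}
    (hy : y ∈ W) : B (aeval g a x) y = B x (aeval S (a.map σ) y) := by
  have h1 : ∀ (n : ℕ) (x : V), ∀ y ∈ W, B ((g ^ n) x) y = B x ((S ^ n) y) := fun n => by
    induction n with
    | zero => exact fun _ _ _ => rfl
    | succ n ih =>
      intro x y hy
      rw [pow_succ' g, End.mul_apply, hS _ _ hy, ih _ _ (hW _ hy), pow_succ S, End.mul_apply]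
  induction a using Polynomial.induction_on' with
  | add p q hp hq => simp only [map_add, Polynomial.map_add, LinearMap.add_apply, hp, hq]
  | monomial n c => simp [aeval_monomial, h1 n x y hy, hσ]

theorem aeval_comm_apply (g : End F V) (a b : F[X]) (x : V) :
    aeval g a (aeval g b x) = aeval g b (aeval g a x) := by
  rw [← End.mul_apply, ← map_mul, mul_comm, map_mul, End.mul_apply]

theorem ti_of_even [Finite F] (h : UInvol σ) {g : End F V} (hg : ∀ x y, B (g x) (g y) = B x y)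
    {f : F[X]} (hf : Irreducible f) (he : Even f.natDegree) {x y : V} (hx : aeval g f x = 0)
    (hy : aeval g f y = 0) : B x y = 0 := by
  have := Fact.mk hf
  have h0 : AdjoinRoot.root f ≠ 0 := fun e => by
    have h1 := natDegree_le_of_dvd (AdjoinRoot.mk_eq_zero.1 e) X_ne_zero
    have h2 := hf.natDegree_pos
    rw [natDegree_X] at h1
    obtain ⟨k, hk⟩ := he
    omega
  obtain ⟨s, hs⟩ := AdjoinRoot.mk_surjective (AdjoinRoot.root f)⁻¹
  obtain ⟨t, ht⟩ : f ∣ X * s - 1 := by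
    rw [← AdjoinRoot.mk_eq_zero, map_sub, map_mul, hs, AdjoinRoot.mk_X, mul_inv_cancel₀ h0, map_one,
      sub_self]
  have hW : ∀ (a : F[X]), ∀ y ∈ LinearMap.ker (aeval g f), aeval g a y ∈ LinearMap.ker (aeval g f) :=
    fun a y hy => by rw [LinearMap.mem_ker, aeval_comm_apply, hy, map_zero]
  have h1 : ¬ f ∣ aeval s (f.map σ) := fun e => by
    refine Nat.not_even_iff_odd.2 (odd_of_selfdual h ?_) he
    rw [← hs, ← AdjoinRoot.aeval_eq, aeval_algHom_apply, AdjoinRoot.aeval_eq,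
      AdjoinRoot.mk_eq_zero.2 e]
  obtain ⟨u, v, huv⟩ := (hf.coprime_iff_not_dvd).2 h1
  have h2 := adj_aeval (B := B) h.invol (g := g) (S := aeval g s) (W := LinearMap.ker (aeval g f))
    (fun x y hy => by
      have h3 := LinearMap.congr_fun (congrArg (aeval g) ht) y
      rw [mul_comm f, map_mul, End.mul_apply, hy, map_zero, map_sub, map_mul, aeval_X, map_one,
        LinearMap.sub_apply, sub_eq_zero, End.mul_apply, End.one_apply] at h3
      rw [← hg x, h3]) (hW s) f x (hW v y hy)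
  have h3 := LinearMap.congr_fun (congrArg (aeval g) huv) y
  rw [mul_comm v, map_add, map_mul, map_mul, LinearMap.add_apply, End.mul_apply, hy, map_zero,
    zero_add, End.mul_apply, map_one, End.one_apply] at h3
  rw [hx, aeval_algHom_apply, h3, map_zero, LinearMap.zero_apply] at h2
  exact h2.symm

theorem finrank_pair {u v : V} (h : LinearIndependent F ![u, v]) :
    finrank F (Submodule.span F {u, v}) = 2 := by
  have := finrank_span_eq_card h
  rwa [Matrix.range_cons_cons_empty, Fintype.card_fin] at this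

theorem indep_pair {u v : V} (hu : u ≠ 0) (h : v ∉ F ∙ u) : LinearIndependent F ![u, v] :=
  (LinearIndependent.pair_iff' hu).2 fun a e => h (Submodule.mem_span_singleton.2 ⟨a, e⟩)

variable [FiniteDimensional F V]

theorem exists_irred_nonunit [Nontrivial V] (D : End F V) :
    ∃ P : F[X], P.Monic ∧ Irreducible P ∧ P ∣ D.charpoly ∧ ¬ IsUnit (aeval D P) := by
  obtain ⟨e, he⟩ := Multiset.exists_mem_of_ne_zero (s := ed D) fun h =>
    (finrank_pos (R := F) (M := V)).ne' ((ed_eq_zero_iff D).1 h)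
  obtain ⟨P, k, h1, h2, h3, rfl⟩ := isPP_iff.1 (isPP_of_mem_ed he)
  exact ⟨P, h1, h2, (dvd_pow_self P h3.ne').trans (dvd_charpoly_of_mem_ed he), fun h =>
    h2.not_isUnit (((isUnit_aeval_iff_ed D P).1 h _ he).isUnit_of_dvd' (dvd_pow_self P h3.ne')
      dvd_rfl)⟩

theorem exists_ker_of_nonunit {D : End F V} (h : ¬ IsUnit D) : ∃ x, x ≠ 0 ∧ D x = 0 := by
  rw [LinearMap.isUnit_iff_ker_eq_bot] at h
  obtain ⟨x, h1, h2⟩ := Submodule.exists_mem_ne_zero_of_ne_bot h
  exact ⟨x, h2, h1⟩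

theorem deg_of_no_eigen {D : End F V} (hD : ∀ v (a : F), D v = a • v → v = 0) {f : F[X]}
    (hf : Irreducible f) (h : f ∣ D.charpoly) :
    ∃ b, f.natDegree + b = finrank F V ∧ f.natDegree ≠ 0 ∧ f.natDegree ≠ 1 ∧ b ≠ 1 := by
  obtain ⟨s, hs⟩ := h
  have hc := D.charpoly_monic
  have hs0 : s ≠ 0 := by rintro rfl; exact hc.ne_zero (by rw [hs, mul_zero])
  have h1 : ∀ a : F[X], a ∣ D.charpoly → a.natDegree ≠ 1 := fun a ha h => by
    obtain ⟨x, hx⟩ := exists_root_of_degree_eq_one (p := a) (by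
      rw [degree_eq_natDegree (by rintro rfl; simp at h), h]; rfl)
    obtain ⟨v, hv⟩ := ((End.hasEigenvalue_iff_isRoot_charpoly _ x).2
      (hx.dvd ha)).exists_hasEigenvector
    exact hv.2 (hD v x hv.apply_eq_smul)
  refine ⟨s.natDegree, ?_, hf.natDegree_pos.ne', h1 f ⟨s, hs⟩, h1 s ⟨f, by rw [hs, mul_comm]⟩⟩
  rw [← natDegree_mul hf.ne_zero hs0, ← hs, LinearMap.charpoly_natDegree]

variable (B) in
/-- `g` fixes a non-isotropic point. -/
def FixPt (g : End F V) : Prop := ∃ p, B p p ≠ 0 ∧ ∃ a : F, g p = a • p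

variable (B) in
/-- `g` fixes a totally isotropic line. -/
def FixTI (g : End F V) : Prop :=
  ∃ W : Submodule F V, finrank F W = 2 ∧ W ≤ uPerp B W ∧ ∀ v ∈ W, g v ∈ W

variable [Finite F] {g : End F V}

theorem fixTI_of_even (hB : IsHerm B) (hn : finrank F V = 4) (hg : ∀ x y, B (g x) (g y) = B x y)
    {f : F[X]} (hf : Irreducible f) (he : Even f.natDegree) {x : V} (hx0 : x ≠ 0)
    (hx : aeval g f x = 0) : FixTI B g := by
  have hW : ∀ y ∈ LinearMap.ker (aeval g f), g y ∈ LinearMap.ker (aeval g f) := fun y hy => by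
    have := aeval_comm_apply g f X y
    rwa [hy, map_zero, aeval_X] at this
  have h1 : LinearMap.ker (aeval g f) ≤ uPerp B (LinearMap.ker (aeval g f)) :=
    fun y hy z hz => ti_of_even hB.toUInvol hg hf he hz hy
  have h2 := hB.two_mul_finrank_le h1
  have h3 : g x ∉ F ∙ x := fun h => by
    obtain ⟨a, ha⟩ := Submodule.mem_span_singleton.1 h
    have h4 := End.aeval_apply_of_hasEigenvector (p := f) (f := g) (μ := a) (x := x)
      ⟨End.mem_eigenspace_iff.2 ha.symm, hx0⟩
    rw [hx, eq_comm, smul_eq_zero] at h4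
    have := natDegree_eq_of_degree_eq_some (n := 1)
      (degree_eq_one_of_irreducible_of_root hf (h4.resolve_right hx0))
    rw [this] at he
    exact Nat.not_even_one he
  have h4 : Submodule.span F {x, g x} ≤ LinearMap.ker (aeval g f) := by
    rw [Submodule.span_le]
    rintro _ (rfl | rfl)
    exacts [hx, hW x hx]
  have h5 := Submodule.finrank_mono h4
  rw [finrank_pair (indep_pair hx0 h3)] at h5
  exact ⟨_, by omega, h1, hW⟩

omit [Finite F] [FiniteDimensional F V] in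
theorem step_line (hB : IsHerm B) {v w : V} {l m c : F} (hv0 : v ≠ 0) (hv : B v v = 0)
    (hgv : g v = l • v) (hw : B v w = 0) (hw0 : w ∉ F ∙ v) (hgw : g w = m • w + c • v) :
    (FixPt B g ∨ FixTI B g) ∨ (B w w ≠ 0 ∧ m = l) := by
  have hw' := hB.eq_zero_symm hw
  by_cases h1 : B w w = 0
  · refine Or.inl (Or.inr ⟨Submodule.span F {v, w}, finrank_pair (indep_pair hv0 hw0), ?_, ?_⟩)
    · rw [Submodule.span_le]
      rintro _ (rfl | rfl)
      exacts [mem_uPerp_span_pair.2 ⟨hv, hw'⟩, mem_uPerp_span_pair.2 ⟨hw, h1⟩]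
    · intro x hx
      obtain ⟨a, b, rfl⟩ := Submodule.mem_span_pair.1 hx
      exact Submodule.mem_span_pair.2 ⟨a * l + b * c, b * m, by
        rw [map_add, map_smul, map_smul, hgv, hgw]; module⟩
  by_cases h2 : m = l
  · exact Or.inr ⟨h1, h2⟩
  have h3 := sub_ne_zero.2 h2
  refine Or.inl (Or.inl ⟨w + (c / (m - l)) • v, by simpa [hv, hw, hw'] using h1, m, ?_⟩)
  rw [map_add, map_smul, hgv, hgw, smul_add, add_assoc, smul_smul, smul_smul, ← add_smul]
  congr 2
  field_simp
  ring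

theorem exists_line (hB : IsHerm B) (hn : finrank F V = 4) (hg : ∀ x y, B (g x) (g y) = B x y)
    {v : V} {l : F} (hv0 : v ≠ 0) (hv : B v v = 0) (hgv : g v = l • v)
    (hP : ∀ x, B v x = 0 → B v (g x) = 0) :
    FixTI B g ∨ ∃ w, B v w = 0 ∧ w ∉ F ∙ v ∧ ∃ m c : F, g w = m • w + c • v := by
  have h1 := hB.finrank_add_finrank_uPerp (F ∙ v)
  rw [finrank_span_singleton hv0] at h1
  obtain ⟨w, hw, hw0⟩ : ∃ w ∈ uPerp B (F ∙ v), w ∉ F ∙ v := by
    by_contra! H
    have := Submodule.finrank_mono (show uPerp B (F ∙ v) ≤ F ∙ v from H)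
    rw [finrank_span_singleton hv0] at this
    omega
  rw [mem_uPerp_span_singleton] at hw
  by_cases h2 : g w ∈ Submodule.span F {v, w}
  · obtain ⟨a, b, h⟩ := Submodule.mem_span_pair.1 h2
    exact Or.inr ⟨w, hw, hw0, b, a, by rw [← h, add_comm]⟩
  have h3 : Submodule.span F {g w, v, w} ≤ uPerp B (F ∙ v) := by
    rw [Submodule.span_le]
    rintro _ (rfl | rfl | rfl) <;> rw [SetLike.mem_coe, mem_uPerp_span_singleton]
    exacts [hP _ hw, hv, hw]
  have h4 : Submodule.span F {v, w} < Submodule.span F {g w, v, w} :=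
    lt_of_le_of_ne (Submodule.span_mono (Set.subset_insert _ _)) fun e =>
      h2 (e ▸ Submodule.subset_span (Set.mem_insert _ _))
  have h5 := Submodule.finrank_lt_finrank_of_lt h4
  rw [finrank_pair (indep_pair hv0 hw0)] at h5
  have h6 : g (g w) ∈ Submodule.span F {g w, v, w} := by
    rw [Submodule.eq_of_le_of_finrank_le h3 (by omega), mem_uPerp_span_singleton]
    exact hP _ (hP _ hw)
  obtain ⟨a, c, b, h7⟩ := Submodule.mem_span_triple.1 h6
  by_cases h8 : ∃ m : F, m ^ 2 - a * m - b = 0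
  · obtain ⟨m, hm⟩ := h8
    refine Or.inr ⟨g w - (a - m) • w, by simp [hP _ hw, hw], fun h => h2 ?_, m, c, ?_⟩
    · obtain ⟨t, ht⟩ := Submodule.mem_span_singleton.1 h
      exact Submodule.mem_span_pair.2 ⟨t, a - m, by rw [ht, sub_add_cancel]⟩
    · rw [map_sub, map_smul, ← h7, show b = m ^ 2 - a * m by linear_combination -hm]
      module
  push Not at h8
  have h9 : (X ^ 2 - C a * X - C b : F[X]).natDegree = 2 := by compute_degree!
  refine Or.inl (fixTI_of_even hB hn hg (f := X ^ 2 - C a * X - C b)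
    (irreducible_of_degree_le_three_of_not_isRoot (by simp [h9]) fun x hx => h8 x (by simpa using hx))
    (by simp [h9]) (x := w - (c / (l ^ 2 - a * l - b)) • v) (fun h => hw0 ?_) ?_)
  · exact Submodule.mem_span_singleton.2 ⟨_, (sub_eq_zero.1 h).symm⟩
  · have h10 : c = c / (l ^ 2 - a * l - b) * (l ^ 2 - a * l - b) := (div_mul_cancel₀ _ (h8 l)).symm
    generalize c / (l ^ 2 - a * l - b) = t at h10
    simp only [map_sub, map_mul, aeval_X, aeval_C, pow_two, LinearMap.sub_apply, End.mul_apply,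
      map_smul, hgv, ← h7, Module.algebraMap_end_apply, h10]
    module

theorem fixPt_or_fixTI (hB : IsHerm B) (hn : finrank F V = 4)
    (hg : ∀ x y, B (g x) (g y) = B x y) : FixPt B g ∨ FixTI B g := by
  have : Nontrivial V := Module.nontrivial_of_finrank_pos (R := F) (by omega)
  by_cases he : ∀ v (a : F), g v = a • v → v = 0
  · obtain ⟨P, -, h1, h2, h3⟩ := exists_irred_nonunit g
    obtain ⟨x, hx0, hx⟩ := exists_ker_of_nonunit h3
    obtain ⟨b, h4, h5, h6, h7⟩ := deg_of_no_eigen he h1 h2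
    exact Or.inr (fixTI_of_even hB hn hg h1 (Nat.even_iff.2 (by omega)) hx0 hx)
  push Not at he
  obtain ⟨v, l, hgv, hv0⟩ := he
  by_cases hv : B v v = 0
  swap
  · exact Or.inl ⟨v, hv, l, hgv⟩
  have hl : l ≠ 0 := by
    rintro rfl
    exact hv0 (hB.nondeg v fun y => by rw [← hg, hgv]; simp)
  have hP : ∀ x, B v x = 0 → B v (g x) = 0 := fun x hx => by
    have := hg v x
    rw [hgv, hx, map_smul, LinearMap.smul_apply, smul_eq_zero] at this
    exact this.resolve_left hl
  rcases exists_line hB hn hg hv0 hv hgv hP with h | ⟨w, hw, hw0, m, c, hgw⟩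
  · exact Or.inr h
  rcases step_line hB hv0 hv hgv hw hw0 hgw with h | ⟨h1, rfl⟩
  · exact h
  have h2 := hB.finrank_add_finrank_uPerp (Submodule.span F {v, w})
  rw [finrank_pair (indep_pair hv0 hw0)] at h2
  obtain ⟨w', hw', hw0'⟩ : ∃ w' ∈ uPerp B (Submodule.span F {v, w}), w' ∉ F ∙ v := by
    by_contra! H
    have := Submodule.finrank_mono (show uPerp B (Submodule.span F {v, w}) ≤ F ∙ v from H)
    rw [finrank_span_singleton hv0] at this
    omega
  have h3 : Submodule.span F {v, w'} ≤ uPerp B (Submodule.span F {v, w}) := by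
    rw [Submodule.span_le]
    rintro _ (rfl | rfl)
    exacts [mem_uPerp_span_pair.2 ⟨hv, hB.eq_zero_symm hw⟩, hw']
  rw [mem_uPerp_span_pair] at hw'
  have h4 : g w' ∈ Submodule.span F {v, w'} := by
    rw [Submodule.eq_of_le_of_finrank_le h3 (by rw [finrank_pair (indep_pair hv0 hw0')]; omega),
      mem_uPerp_span_pair]
    refine ⟨hP _ hw'.1, ?_⟩
    have := hg w w'
    simpa [hgw, hw'.2, hP _ hw'.1, hl] using this
  obtain ⟨c', m', hgw'⟩ := Submodule.mem_span_pair.1 h4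
  rcases step_line hB hv0 hv hgv hw'.1 hw0' (by rw [← hgw', add_comm]) with h | ⟨h5, rfl⟩
  · exact h
  obtain ⟨a, -, ha⟩ := hB.exists_isotropic_of_orthogonal h1 h5 hw'.2
  refine (step_line hB hv0 hv hgv (w := w + a • w') (m := m') (c := c + a * c')
    (by simp [hw, hw'.1]) (fun h => h1 ?_) ?_).resolve_right fun h => h.1 ha
  · obtain ⟨t, ht⟩ := Submodule.mem_span_singleton.1 h
    simpa [hw, hB.eq_zero_symm hw'.2] using (congrArg (B · w) ht).symm
  · rw [map_add, map_smul, hgw, ← hgw']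
    module

omit [Finite F] in
theorem conj_mem_uStab' {W W₀ : Submodule F V} {g k : V ≃ₗ[F] V} (hg : ∀ v ∈ W, g v ∈ W)
    (hk : W.map (k : V →ₗ[F] V) = W₀) : k * g * k⁻¹ ∈ uStab F (W₀ : Set V) :=
  conj_mem_uStab (s := W) (by simpa using hg) (by rw [← hk, ← Submodule.span_eq (W.map _)]; rfl)

omit [Finite F] in
theorem exists_USG_ti (hB : IsHerm B) (hn : 1 ≤ finrank F V) {W W' : Submodule F V}
    (h : finrank F W = finrank F W') (hW : W ≤ uPerp B W) (hW' : W' ≤ uPerp B W') :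
    ∃ k ∈ USG B, W.map (k : V →ₗ[F] V) = W' := by
  let e := LinearEquiv.ofFinrankEq W W' h
  obtain ⟨g, hg, h1⟩ := hB.witt W (W'.subtype ∘ₗ e.toLinearMap) (W'.injective_subtype.comp
    e.injective) fun x y => (hW' (e y).2 _ (e x).2).trans (hW y.2 _ x.2).symm
  obtain ⟨s, hs, h2⟩ := hB.exists_stab_det_eq hn hW (inv_mem (hB.det_mem_uNormOne hg))
  refine ⟨g * s, mem_USG.2 ⟨mul_mem hg hs.1, by rw [map_mul, h2, mul_inv_cancel]⟩, ?_⟩
  rw [LinearEquiv.coe_toLinearMap_mul, End.mul_eq_comp, Submodule.map_comp,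
    mem_uStab_iff_map.1 hs.2]
  refine Submodule.eq_of_le_of_finrank_eq ?_ (by rw [LinearEquiv.finrank_map_eq, h])
  rintro _ ⟨x, hx, rfl⟩
  exact (h1 ⟨x, hx⟩).symm ▸ (e ⟨x, hx⟩).2

theorem exists_USG_pt (hB : IsHerm B) (hn : 2 ≤ finrank F V) {p p' : V} (hp : B p p ≠ 0)
    (hp' : B p' p' ≠ 0) : ∃ k ∈ USG B, Submodule.span F (k '' {p}) = F ∙ p' := by
  obtain ⟨a, ha⟩ := hB.exists_smul_norm_eq hp' (hB.fixed p)
  obtain ⟨k, hk, h⟩ := hB.exists_USG_nonisotropic hn hp ha.symm
  refine ⟨k, hk, ?_⟩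
  rw [Set.image_singleton, h]
  exact Submodule.span_singleton_smul_eq (IsUnit.mk0 a (by rintro rfl; simp [hp.symm] at ha)) p'

theorem exists_notMem_pt (hB : IsHerm B) (hn : 2 ≤ finrank F V) {p : V} (hp : B p p ≠ 0) :
    ∃ g ∈ USG B, g ∉ uStab F ((F ∙ p : Submodule F V) : Set V) := by
  obtain ⟨r, hr, hr'⟩ := hB.exists_perp_nonisotropic (hB.disjoint_span_singleton hp)
    (by rw [finrank_span_singleton (by rintro rfl; simp at hp)]; omega)
  obtain ⟨k, hk, h⟩ := exists_USG_pt hB hn hp hr'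
  refine ⟨k, hk, fun H => hr' (hr r ?_)⟩
  have h3 : (F ∙ r) ≤ F ∙ p := by
    rw [← h, Set.image_singleton, Submodule.span_singleton_le_iff_mem]
    exact (H p).1 (Submodule.mem_span_singleton_self p)
  exact h3 (Submodule.mem_span_singleton_self r)

theorem conj_of_fixPt (hB : IsHerm B) (hn : 2 ≤ finrank F V) {p : V} (hp : B p p ≠ 0)
    {g : V ≃ₗ[F] V} (h : FixPt B (g : End F V)) :
    ∃ k ∈ USG B, k * g * k⁻¹ ∈ uStab F ((F ∙ p : Submodule F V) : Set V) := by
  obtain ⟨r, hr, a, ha⟩ := h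
  obtain ⟨k, hk, h⟩ := exists_USG_pt hB hn hr hp
  refine ⟨k, hk, conj_mem_uStab ?_ h⟩
  rintro _ rfl
  exact Submodule.mem_span_singleton.2 ⟨a, ha.symm⟩

theorem cov2_su4 (hB : IsHerm B) (hn : finrank F V = 4) :
    Cov2 (USG B ⧸ Subgroup.center (USG B)) := by
  have : Nontrivial V := Module.nontrivial_of_finrank_pos (R := F) (by omega)
  obtain ⟨p, hp⟩ := hB.exists_norm_one
  have hp0 : B p p ≠ 0 := by rw [hp]; exact one_ne_zero
  obtain ⟨v, hv⟩ := hB.exists_orthonormal_family 4 hn.ge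
  obtain ⟨a, -, ha⟩ := hB.exists_isotropic_of_orthogonal (p := v 0) (r := v 1) (by simp [hv])
    (by simp [hv]) (by simp [hv])
  obtain ⟨b, -, hb⟩ := hB.exists_isotropic_of_orthogonal (p := v 2) (r := v 3) (by simp [hv])
    (by simp [hv]) (by simp [hv])
  have hab : B (v 0 + a • v 1) (v 2 + b • v 3) = 0 := by simp [hv]
  have h0 : v 0 + a • v 1 ≠ 0 := fun e => by simpa [hv] using congrArg (B · (v 0)) e
  have h1 : v 2 + b • v 3 ∉ F ∙ (v 0 + a • v 1) := fun e => by
    obtain ⟨t, ht⟩ := Submodule.mem_span_singleton.1 e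
    simpa [hv] using congrArg (B · (v 2)) ht
  have h2 : Submodule.span F {v 0 + a • v 1, v 2 + b • v 3} ≤
      uPerp B (Submodule.span F {v 0 + a • v 1, v 2 + b • v 3}) := by
    rw [Submodule.span_le]
    rintro _ (rfl | rfl)
    exacts [mem_uPerp_span_pair.2 ⟨ha, hB.eq_zero_symm hab⟩, mem_uPerp_span_pair.2 ⟨hab, hb⟩]
  refine cov2_quot _ (uStab F ((F ∙ p : Submodule F V) : Set V))
    (uStab F (Submodule.span F {v 0 + a • v 1, v 2 + b • v 3} : Set V)) (fun z hz => ?_)
    (exists_notMem_pt hB (by omega) hp0) ?_ fun g hg => ?_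
  · obtain ⟨c, hc⟩ := (hB.mem_center_USG_iff (by omega)).1 hz
    exact ⟨scalar_mem_uStab _ hc, scalar_mem_uStab _ hc⟩
  · obtain ⟨w, hw, hw'⟩ := hB.exists_partner h0 ha
    obtain ⟨k, hk, h3⟩ := hB.exists_USG_isotropic (by omega) h0 ha
      (by rintro rfl; simp at hw') hw
    refine ⟨k, hk, fun H => ?_⟩
    have h4 := h2 (h3 ▸ (H _).1 (Submodule.subset_span (Set.mem_insert _ _)))
    rw [(mem_uPerp_span_pair.1 h4).1] at hw'
    exact zero_ne_one hw'
  rcases fixPt_or_fixTI (g := (g : End F V)) hB hn hg.1 with h | ⟨W, h3, h4, h5⟩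
  · obtain ⟨k, hk, h⟩ := conj_of_fixPt hB (by omega) hp0 h
    exact ⟨k, hk, Or.inl h⟩
  · obtain ⟨k, hk, h⟩ := exists_USG_ti hB (by omega) (h3.trans (finrank_pair
      (indep_pair h0 h1)).symm) h4 h2
    exact ⟨k, hk, Or.inr (conj_mem_uStab' h5 h)⟩

theorem cov2_psu4 {K : Type} [Field K] [Fintype K] {q : ℕ} (h : Fintype.card K = q ^ 2) :
    Cov2 (PSU 4 K q) :=
  (cov2_su4 ((uField_uConj h).isHerm_uStd (Fin 4)) (by simp)).of_equiv
    (centerQuotCongr ((uField_uConj h).suEquiv 4).symm)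

end Cfsg.Agent.Cl.Cov
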