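import Mathlib
import Cfsg.Agent.Cl.CharCovC
import Cfsg.Agent.Cl.ClassStar

/-!
# Groups covered by the conjugates of two subgroups, IV

Characteristic three: an isometry all of whose self-adjoint commuting endomorphisms are scalar
modulo nilpotents translates a self-adjoint root of `X ^ 3 - X - δ` by one.
-/

set_option autoImplicit false

namespace Cfsg.Agent.Cl.Cov

open Polynomial Module Cls

variable {F V : Type*} [Field F] [AddCommGroup V] [Module F V] {σ : F →+* F}
  {B : V →ₗ[F] V →ₛₗ[σ] F} {τ : End F V → End F V}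

/-- The Artin–Schreier polynomial of degree three. -/
noncomputable def asP (δ : F) : F[X] := X ^ 3 - X - C δ

theorem aeval_asP {E : Type*} [Ring E] [Algebra F E] (x : E) (δ : F) :
    aeval x (asP δ) = x ^ 3 - x - algebraMap F E δ := by simp [asP]

theorem natDegree_asP (δ : F) : (asP δ).natDegree = 3 := by unfold asP; compute_degree!

theorem monic_asP (δ : F) : (asP δ).Monic := by unfold asP; monicity!

theorem eval_asP_ne {δ : F} (h : ∀ a, a ^ 3 - a ≠ δ) (a : F) : (asP δ).eval a ≠ 0 := by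
  simpa [asP, sub_eq_zero] using h a

theorem irreducible_asP {δ : F} (h : ∀ a, a ^ 3 - a ≠ δ) : Irreducible (asP δ) :=
  irreducible_of_degree_le_three_of_not_isRoot (by simp [natDegree_asP]) (eval_asP_ne h)

theorem exists_delta3 [Finite F] (h3 : (3 : F) = 0) (hσ : ∀ a, σ (σ a) = a) :
    ∃ δ : F, σ δ = δ ∧ ∀ a, a ^ 3 - a ≠ δ := by
  let f : {a : F // σ a = a} → {a : F // σ a = a} := fun a => ⟨a.1 ^ 3 - a.1, by simp [a.2]⟩
  have h1 : ¬ Function.Surjective f := fun h => by
    have := Finite.injective_iff_surjective.2 h (a₁ := ⟨0, map_zero σ⟩) (a₂ := ⟨1, map_one σ⟩)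
      (by simp [f])
    simp at this
  simp only [Function.Surjective, not_forall, not_exists] at h1
  obtain ⟨δ, hδ⟩ := h1
  refine ⟨δ.1, δ.2, fun a ha => hδ ⟨-(a + σ a), by simp [hσ, add_comm]⟩ (Subtype.ext ?_)⟩
  have h2 := congrArg σ ha
  rw [map_sub, map_pow, δ.2] at h2
  change (-(a + σ a)) ^ 3 - -(a + σ a) = δ.1
  linear_combination -ha - h2 - (δ.1 + a ^ 2 * σ a + a * σ a ^ 2) * h3

theorem cube_bijective [Finite F] (h3 : (3 : F) = 0) : Function.Bijective fun a : F => a ^ 3 := by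
  refine Finite.injective_iff_bijective.1 fun a b h => ?_
  have : (a - b) ^ 3 = 0 := by linear_combination h + (a * b ^ 2 - a ^ 2 * b) * h3
  exact sub_eq_zero.1 (pow_eq_zero_iff three_ne_zero |>.1 this)

theorem cube_add {E : Type*} [Ring E] (h3 : (3 : E) = 0) {a b c : E} (h1 : a * b - b * a = c)
    (h2 : a * c - c * a = b) (h4 : Commute b c) : (a + b) ^ 3 = a ^ 3 + b ^ 3 + b := by
  have : (a + b) ^ 3 = a ^ 3 + b ^ 3 + (a * (a * b - b * a) - (a * b - b * a) * a) -
      (b * (a * b - b * a) - (a * b - b * a) * b) + 3 * (a * b * a + b * a * b) := by noncomm_ring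
  rw [this, h1, h2, h4.eq, h3, sub_self, sub_zero, zero_mul, add_zero]

/-- `τ` is the adjoint for the non-degenerate form `B`. -/
structure Star (B : V →ₗ[F] V →ₛₗ[σ] F) (τ : End F V → End F V) : Prop where
  invol : ∀ a, σ (σ a) = a
  left : ∀ X u v, B (τ X u) v = B u (X v)
  right : ∀ X u v, B u (τ X v) = B (X u) v
  nd : ∀ x, (∀ y, B x y = 0) → x = 0
  nd' : ∀ y, (∀ x, B x y = 0) → y = 0
  rep : ∀ f : Dual F V, ∃ w, ∀ x, B x w = f x

theorem exists_star (hσ : ∀ a, σ (σ a) = a) {ε : F} (hs : ∀ x y, B y x = ε * σ (B x y))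
    (nd : ∀ x, (∀ y, B x y = 0) → x = 0) (rep : ∀ f : Dual F V, ∃ w, ∀ x, B x w = f x) :
    ∃ τ, Star B τ := by
  have ext : ∀ {y y' : V}, (∀ x, B x y = B x y') → y = y' := fun {y y'} h =>
    sub_eq_zero.1 (nd _ fun x => by rw [hs, map_sub, h, sub_self, map_zero, mul_zero])
  choose t ht using fun (X : End F V) (v : V) => rep (B.flip v ∘ₗ X)
  replace ht : ∀ X v x, B x (t X v) = B (X x) v := ht
  refine ⟨fun X =>
    { toFun := t X
      map_add' := fun u v => ext fun x => by simp only [ht, map_add]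
      map_smul' := fun a v => ext fun x => by simp only [ht, map_smulₛₗ, RingHom.id_apply] },
    hσ, fun X u v => ?_, fun X u v => ht X v u, nd,
    fun y hy => ext fun x => by rw [hy, map_zero], rep⟩
  change B (t X u) v = _
  rw [hs, ht, ← hs]

namespace Star

variable (h : Star B τ)
include h

theorem eq_of {X Y : End F V} (H : ∀ u v, B (Y u) v = B u (X v)) : τ X = Y :=
  LinearMap.ext fun u => sub_eq_zero.1 (h.nd _ fun v => by simp [h.left, H])

theorem anti : IsAntiInv τ where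
  add X Y := h.eq_of fun u v => by simp [h.left]
  mul X Y := h.eq_of fun u v => by simp [h.left]
  invol X := h.eq_of fun u v => (h.right X u v).symm

theorem smul (c : F) (X : End F V) : τ (c • X) = σ c • τ X :=
  h.eq_of fun u v => by simp [h.left]

theorem algMap (c : F) : τ (algebraMap F (End F V) c) = algebraMap F (End F V) (σ c) := by
  rw [Algebra.algebraMap_eq_smul_one, h.smul, h.anti.one, Algebra.algebraMap_eq_smul_one]

theorem self {X : End F V} (hX : τ X = X) (u v : V) : B (X u) v = B u (X v) := by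
  rw [← h.left, hX]

theorem aeval_self {D : End F V} (hD : τ D = D) (a : F[X]) :
    τ (aeval D a) = aeval D (a.map σ) := by
  rw [← h.anti.invol (aeval D (a.map σ))]
  exact congrArg τ (h.eq_of fun u v => adj_aeval h.invol (W := ⊤) (fun x y _ => h.self hD x y)
    (fun _ _ => trivial) a u trivial).symm

theorem nilp {X : End F V} (hX : IsNilpotent X) : IsNilpotent (τ X) := by
  obtain ⟨k, hk⟩ := hX
  exact ⟨k, by rw [← h.anti.antiHom.pow, hk, h.anti.antiHom.zero]⟩

theorem fixed_of_nilp [Nontrivial V] {D : End F V} (hD : τ D = D) {a : F}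
    (ha : IsNilpotent (D - algebraMap F _ a)) : σ a = a := by
  have h1 := h.nilp ha
  rw [h.anti.antiHom.sub, hD, h.algMap] at h1
  have h2 := Commute.isNilpotent_sub (((Commute.refl D).sub_right
    (Algebra.commute_algebraMap_right _ _)).sub_left (Algebra.commute_algebraMap_left _ _)) ha h1
  rw [sub_sub_sub_cancel_left, ← map_sub] at h2
  by_contra hne
  exact h2.not_isUnit ((IsUnit.mk0 _ (sub_ne_zero.2 hne)).map _)

theorem sym_root (h3 : (3 : F) = 0) {D : End F V} (hD : τ D = D) {δ : F} (hδ : σ δ = δ) {r : F[X]}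
    (hr : aeval (aeval D r) (asP δ) = 0) :
    ∃ s : F[X], τ (aeval D s) = aeval D s ∧ aeval (aeval D s) (asP δ) = 0 := by
  have h1 := congrArg τ hr
  rw [aeval_asP, h.anti.antiHom.sub, h.anti.antiHom.sub, h.anti.antiHom.pow, h.algMap, hδ,
    h.aeval_self hD, ← aeval_asP, h.anti.antiHom.zero] at h1
  refine ⟨-(r + r.map σ), ?_, ?_⟩
  · rw [h.aeval_self hD, Polynomial.map_neg, Polynomial.map_add, Polynomial.map_map,
      show σ.comp σ = RingHom.id F from RingHom.ext h.invol, Polynomial.map_id, add_comm]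
  · have h4 : (3 : F[X]) = 0 := by rw [← map_ofNat C, h3, map_zero]
    rw [aeval_algHom_apply] at hr h1 ⊢
    have : aeval (-(r + r.map σ)) (asP δ) = -(aeval r (asP δ) + aeval (r.map σ) (asP δ)) := by
      simp only [aeval_asP, algebraMap_eq]
      linear_combination (-C δ - r ^ 2 * r.map σ - r * r.map σ ^ 2) * h4
    rw [this, map_neg, map_add, hr, h1, add_zero, neg_zero]

theorem frob_step [Finite F] {g J : End F V} (hJ : τ J = J) (hg : g * J = (J + 1) * g) {d : F}
    (hN : IsNilpotent (aeval J (asP d))) :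
    ∃ J', τ J' = J' ∧ aeval J' (asP d) = 0 ∧ g * J' = (J' + 1) * g := by
  have := Fintype.ofFinite F
  obtain ⟨k, hk⟩ := pow_card_eq_zero (F := F) hN
  refine ⟨J ^ Fintype.card F ^ k, by rw [h.anti.antiHom.pow, hJ], by rw [aeval_pow_card, hk], ?_⟩
  have h1 := aeval_pow_card J (X + 1 : F[X]) k
  simp only [map_add, aeval_X, map_one] at h1
  rw [h1]
  exact SemiconjBy.pow_right hg _

variable [FiniteDimensional F V]

theorem trace (X : End F V) : LinearMap.trace F V (τ X) = σ (LinearMap.trace F V X) := by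
  let b := Module.finBasis F V
  choose w hw using fun i => h.rep (b.coord i)
  let f : _ → Dual F V := fun i =>
    { toFun := fun y => σ (B (b i) y)
      map_add' := fun x y => by simp
      map_smul' := fun a x => by simp [h.invol] }
  have h1 : X = ∑ i, (b.coord i).smulRight (X (b i)) := b.ext fun j => by
    simp [Finsupp.single_apply]
  have h3 : ∀ y, y = ∑ i, f i y • w i := fun y => sub_eq_zero.1 (h.nd' _ fun x => by
    have : B (∑ i, b.repr x i • b i) y = B x (∑ i, f i y • w i) := by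
      simp [f, hw, h.invol, mul_comm, -Basis.sum_repr]
    rw [map_sub, ← this, b.sum_repr, sub_self])
  have h2 : τ X = ∑ i, (f i).smulRight (τ X (w i)) := LinearMap.ext fun y => by
    conv_lhs => rw [h3 y]
    simp
  rw [h2]
  conv_rhs => rw [h1]
  simp only [map_sum, LinearMap.trace_smulRight]
  refine Finset.sum_congr rfl fun i _ => ?_
  change σ (B (b i) (τ X (w i))) = _
  rw [h.right, hw]

variable {g : End F V} (hg : ∀ x y, B (g x) (g y) = B x y)
include hg

omit [FiniteDimensional F V] in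
theorem inv_mul : τ g * g = 1 :=
  LinearMap.ext fun u => sub_eq_zero.1 (h.nd _ fun v => by simp [h.left, hg])

theorem mul_inv : g * τ g = 1 := mul_eq_one_comm.1 (h.inv_mul hg)

theorem comm_star {c : End F V} (hc : Commute g c) : Commute g (τ c) := by
  have h1 := (h.anti.antiHom.commute hc).eq
  calc g * τ c = g * (τ c * τ g) * g := by rw [mul_assoc, mul_assoc, h.inv_mul hg, mul_one]
    _ = τ c * g := by rw [← h1, ← mul_assoc, h.mul_inv hg, one_mul]

theorem trace_eq_zero (h3 : (3 : F) = 0) (hn : 3 ∣ finrank F V)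
    (H : ∀ D, Commute g D → τ D = D → ∃ a : F, IsNilpotent (D - algebraMap F _ a))
    {c : End F V} (hc : Commute g c) : LinearMap.trace F V c = 0 := by
  have h1 : ∀ c, Commute g c → LinearMap.trace F V c + σ (LinearMap.trace F V c) = 0 := by
    intro c hc
    obtain ⟨a, ha⟩ := H (c + τ c) (hc.add_right (h.comm_star hg hc))
      (by rw [h.anti.add, h.anti.invol, add_comm])
    have h2 := (LinearMap.isNilpotent_trace_of_isNilpotent ha).eq_zero
    obtain ⟨k, hk⟩ := hn
    rw [map_sub, map_add, h.trace, Algebra.algebraMap_eq_smul_one, map_smul, LinearMap.trace_one,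
      hk] at h2
    simpa [h3] using h2
  by_contra h0
  have h2 := h1 ((LinearMap.trace F V c)⁻¹ • c) (hc.smul_right _)
  rw [map_smul, smul_eq_mul, inv_mul_cancel₀ h0, map_one] at h2
  exact one_ne_zero (α := F) (by linear_combination h3 - h2)

omit h hg in
theorem exists_translate (H : ∀ c, Commute g c → LinearMap.trace F V c = 0) :
    ∃ J : End F V, g * J = (J + 1) * g := by
  let T : LinearMap.BilinForm F (End F V) := (LinearMap.mul F _).compr₂ (LinearMap.trace F V)
  have hT : ∀ X Y, T X Y = LinearMap.trace F V (X * Y) := fun _ _ => rfl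
  have h1 : ∀ Z, (∀ X, T X Z = 0) → Z = 0 := fun Z hZ => LinearMap.ext fun v =>
    (Module.forall_dual_apply_eq_zero_iff F (Z v)).1 fun f => by
      have := hZ (f.smulRight v)
      rwa [hT, show f.smulRight v * Z = (f ∘ₗ Z).smulRight v from rfl,
        LinearMap.trace_smulRight] at this
  have h2 : T.Nondegenerate :=
    ⟨fun Z hZ => h1 Z fun X => by rw [hT, LinearMap.trace_mul_comm]; exact hZ X, h1⟩
  let φ : End F V →ₗ[F] End F V := LinearMap.mulLeft F g - LinearMap.mulRight F g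
  by_contra! H0
  have h3 : g ∉ LinearMap.range φ := by
    rintro ⟨J, hJ⟩
    refine H0 J ?_
    change g * J - J * g = g at hJ
    rw [add_mul, one_mul, ← sub_eq_iff_eq_add', hJ]
  obtain ⟨l, h4, h5, -⟩ := exists_functional_ne_zero_two _ h3 h3
  obtain ⟨c, rfl⟩ := (T.toDual h2).surjective l
  have h6 : c * g - g * c = 0 := h1 _ fun X => by
    have : LinearMap.trace F V (c * (g * X - X * g)) = 0 := h4 _ ⟨X, rfl⟩
    rw [hT, ← this, mul_sub, mul_sub, map_sub, map_sub, LinearMap.trace_mul_comm F X (c * g),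
      ← mul_assoc X, LinearMap.trace_mul_comm F (X * g), mul_assoc]
  have h7 : Commute g c := (sub_eq_zero.1 h6).symm
  have h8 : LinearMap.trace F V (c * g) = 1 := h5
  rw [H _ (h7.mul_right (Commute.refl g))] at h8
  exact zero_ne_one h8

omit hg [FiniteDimensional F V] in
theorem shift [Finite F] [Nontrivial V] (h3 : (3 : F) = 0) {J u u' : End F V} (hJ : τ J = J)
    (hgJ : g * J = (J + 1) * g) {d δ r t : F} (hd : σ d = d) (hδ : σ δ = δ)
    (h0 : aeval J (asP d) = 0) (hr : r * r = 1) (hu : u * J = J * u + r • u)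
    (hu' : u' * J = J * u' - r • u') (hc : Commute u u') (hs : τ (u + u') = u + u')
    (hgu : Commute g (u + u')) (ht : t ≠ 0) (hN : IsNilpotent (u + u' - algebraMap F _ t)) :
    ∃ J', τ J' = J' ∧ aeval J' (asP δ) = 0 ∧ g * J' = (J' + 1) * g := by
  obtain ⟨hi, hsu⟩ := cube_bijective h3
  obtain ⟨α, hα⟩ := hsu ((δ - d) / t ^ 3)
  simp only at hα
  have h1 : σ α = α := hi (by
    simp only [← map_pow, hα, map_div₀, map_sub, hd, hδ]
    rw [map_pow, h.fixed_of_nilp hs hN])
  have h4 : (3 : End F V) = 0 := by rw [← map_ofNat (algebraMap F (End F V)), h3, map_zero]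
  have h5 := cube_add h4 (a := J) (b := α • (u + u')) (c := (α * r) • (u' - u))
    (by simp only [mul_smul_comm, smul_mul_assoc, mul_add, add_mul, hu, hu']; module)
    (by
      simp only [mul_smul_comm, smul_mul_assoc, mul_sub, sub_mul, hu, hu']
      match_scalars <;> first | ring1 | linear_combination α * hr)
    ((((hc.sub_right (Commute.refl u)).add_left
      ((Commute.refl u').sub_right hc.symm)).smul_left _).smul_right _)
  refine h.frob_step (J := J + α • (u + u')) (by rw [h.anti.add, h.smul, hJ, hs, h1]) ?_ ?_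
  · rw [mul_add, hgJ, mul_smul_comm, hgu.eq]
    simp only [add_mul, smul_mul_assoc, one_mul]
    abel
  · obtain ⟨N, hN'⟩ : ∃ N, N = u + u' - algebraMap F _ t := ⟨_, rfl⟩
    have h6 : u + u' = aeval N (X + C t) := by simp [hN']
    have h7 : (X + C t : F[X]) ^ 3 = X ^ 3 + C (t ^ 3) := by
      have h4 : (3 : F[X]) = 0 := by rw [← map_ofNat C, h3, map_zero]
      rw [C_pow]
      linear_combination (X ^ 2 * C t + X * C t ^ 2) * h4
    have h8 : (u + u') ^ 3 = N ^ 3 + algebraMap F _ (t ^ 3) := by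
      rw [h6, ← map_pow, h7]; simp
    have h9 : δ = d + α ^ 3 * t ^ 3 := by rw [hα]; field_simp; ring
    rw [aeval_asP, sub_eq_zero, sub_eq_iff_eq_add] at h0
    have : aeval (J + α • (u + u')) (asP δ) = α ^ 3 • N ^ 3 := by
      rw [aeval_asP, h5, _root_.smul_pow, h8, h0, h9]
      simp only [Algebra.algebraMap_eq_smul_one]
      module
    rw [this]
    exact ((hN' ▸ hN).pow_succ 2).smul _

theorem exists_J [Finite F] [Nontrivial V] (h3 : (3 : F) = 0) (hn : 3 ∣ finrank F V)
    (H : ∀ D, Commute g D → τ D = D → ∃ a : F, IsNilpotent (D - algebraMap F _ a)) {δ : F}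
    (hδ : σ δ = δ) : ∃ J, τ J = J ∧ aeval J (asP δ) = 0 ∧ g * J = (J + 1) * g := by
  have h4 : (3 : End F V) = 0 := by rw [← map_ofNat (algebraMap F (End F V)), h3, map_zero]
  have e1 := h.inv_mul hg
  have e2 := h.mul_inv hg
  have key : ∀ J, g * J = (J + 1) * g → J * τ g = τ g * (J + 1) := fun J hJ => by
    calc J * τ g = τ g * (g * J) * τ g := by rw [← mul_assoc (τ g), e1, one_mul]
      _ = τ g * (J + 1) := by rw [hJ, mul_assoc, mul_assoc, e2, mul_one]
  obtain ⟨J₀, hJ₀⟩ := exists_translate (g := g) fun c => h.trace_eq_zero hg h3 hn H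
  have h1 : g * τ J₀ = (τ J₀ + 1) * g := by
    have := congrArg τ (key J₀ hJ₀)
    rwa [h.anti.mul, h.anti.mul, h.anti.invol, h.anti.add, h.anti.one] at this
  obtain ⟨J₁, hJ₁, hg₁⟩ : ∃ J, τ J = J ∧ g * J = (J + 1) * g := ⟨-(J₀ + τ J₀), by
    rw [h.anti.antiHom.neg, h.anti.add, h.anti.invol, add_comm], by
    rw [mul_neg, mul_add, hJ₀, h1]
    linear_combination (norm := noncomm_ring) -h4 * g⟩
  obtain ⟨d, hd⟩ := H (J₁ ^ 3 - J₁) (by
    have h5 : g * J₁ ^ 3 = (J₁ + 1) ^ 3 * g := SemiconjBy.pow_right hg₁ 3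
    change g * (J₁ ^ 3 - J₁) = (J₁ ^ 3 - J₁) * g
    rw [mul_sub, h5, hg₁]
    linear_combination (norm := noncomm_ring) h4 * ((J₁ ^ 2 + J₁) * g))
    (by rw [h.anti.antiHom.sub, h.anti.antiHom.pow, hJ₁])
  have hd' := h.fixed_of_nilp (by rw [h.anti.antiHom.sub, h.anti.antiHom.pow, hJ₁]) hd
  obtain ⟨J, hJ, h0, hgJ⟩ := h.frob_step hJ₁ hg₁ (d := d) (by rwa [aeval_asP])
  have c1 : Commute g (τ g) := e2.trans e1.symm
  have a1 : g * J = J * g + g := by rw [hgJ, add_mul, one_mul]
  have a2 : τ g * J = J * τ g - τ g := by rw [key J hgJ, mul_add, mul_one, add_sub_cancel_right]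
  have s1 : τ (g + τ g) = g + τ g := by rw [h.anti.add, h.anti.invol, add_comm]
  obtain ⟨t, ht⟩ := H _ ((Commute.refl g).add_right c1) s1
  by_cases ht0 : t = 0
  swap
  · exact h.shift h3 hJ hgJ hd' hδ h0 (one_mul 1) (by rw [a1, one_smul]) (by rw [a2, one_smul]) c1
      s1 ((Commute.refl g).add_right c1) ht0 ht
  refine h.shift h3 hJ hgJ hd' hδ h0 (r := 2) (t := 1) (u := g * g) (u' := τ g * τ g)
    (by linear_combination h3) ?_ ?_ ((c1.mul_right c1).mul_left (c1.mul_right c1)) ?_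
    (((Commute.refl g).mul_right (Commute.refl g)).add_right (c1.mul_right c1)) one_ne_zero ?_
  · rw [mul_assoc, a1, mul_add, ← mul_assoc, a1, two_smul]; noncomm_ring
  · rw [mul_assoc, a2, mul_sub, ← mul_assoc, a2, two_smul]; noncomm_ring
  · rw [h.anti.add, h.anti.mul, h.anti.mul, h.anti.invol, add_comm]
  · rw [ht0, map_zero, sub_zero] at ht
    have : g * g + τ g * τ g - 1 = (g + τ g) ^ 2 := by
      linear_combination (norm := noncomm_ring) -e1 - e2 - h4 * 1
    rw [map_one, this]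
    exact ht.pow_succ 1

omit hg in
theorem split {x : End F V} (hx : τ x = x) (hc : Commute g x) (h1 : ¬ IsNilpotent x)
    (h2 : ¬ IsUnit x) : ∃ W W' : Submodule F V, IsCompl W W' ∧ W ≠ ⊥ ∧ W' ≠ ⊥ ∧
      (∀ u ∈ W, ∀ v ∈ W', B u v = 0) ∧ (∀ u ∈ W, ∀ v ∈ W', B v u = 0) ∧ (∀ u ∈ W, g u ∈ W) ∧
      ∀ u ∈ W', g u ∈ W' := by
  obtain ⟨n, hn, hn0⟩ := (x.eventually_isCompl_ker_pow_range_pow.and
    (Filter.eventually_gt_atTop 0)).exists
  have h3 : τ (x ^ n) = x ^ n := by rw [h.anti.antiHom.pow, hx]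
  have h4 : ∀ v, g ((x ^ n) v) = (x ^ n) (g v) := LinearMap.congr_fun (hc.pow_right n).eq
  refine ⟨_, _, hn, fun e => h2 ?_, fun e => h1 ⟨n, LinearMap.range_eq_bot.1 e⟩, ?_, ?_, ?_, ?_⟩
  · exact (isUnit_pow_iff hn0.ne').1 ((LinearMap.isUnit_iff_ker_eq_bot _).2 e)
  · rintro u hu _ ⟨v, rfl⟩
    rw [← h.self h3, hu, map_zero, LinearMap.zero_apply]
  · rintro u hu _ ⟨v, rfl⟩
    rw [h.self h3, hu, map_zero]
  · intro u hu
    rw [LinearMap.mem_ker, ← h4, hu, map_zero]
  · rintro _ ⟨v, rfl⟩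
    exact ⟨g v, (h4 v).symm⟩

end Star

theorem cov2_three (G H : Subgroup (V ≃ₗ[F] V)) (P : End F V → Prop)
    (hz : ∀ z : G, z ∈ Subgroup.center G → ∃ a : F, ∀ x, z.1 x = a • x)
    (hHz : ∀ (z : V ≃ₗ[F] V) (a : F), (∀ x, z x = a • x) → z ∈ H) (hH : ∃ g ∈ G, g ∉ H)
    (hK : ∀ J, P J → ∃ g ∈ G, g ∉ stabJ ⊤ J)
    (htr : ∀ J J', P J → P J' → ∃ k ∈ G, ∀ v, k (J v) = J' (k v))
    (h : ∀ g ∈ G, (∃ k ∈ G, k * g * k⁻¹ ∈ H) ∨ ∃ J, P J ∧ g ∈ stabJ ⊤ J) :
    Cov2 (G ⧸ Subgroup.center G) := by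
  by_cases h0 : ∃ J, P J
  · obtain ⟨J₀, h0⟩ := h0
    refine cov2_quot _ H (stabJ ⊤ J₀) (fun z h1 => ?_) hH (hK _ h0) fun g hg => ?_
    · obtain ⟨a, ha⟩ := hz z h1
      exact ⟨hHz _ a ha, scalar_mem_stabJ _ _ ha⟩
    rcases h g hg with ⟨k, h1, h2⟩ | ⟨J, h1, h2⟩
    · exact ⟨k, h1, Or.inl h2⟩
    · obtain ⟨k, h3, h4⟩ := htr J J₀ h1 h0
      exact ⟨k, h3, Or.inr (conj_mem_stabJ h2 h4)⟩
  · refine cov2_quot _ H H (fun z h1 => ?_) hH hH fun g hg => ?_
    · obtain ⟨a, ha⟩ := hz z h1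
      exact ⟨hHz _ a ha, hHz _ a ha⟩
    obtain ⟨k, h1, h2⟩ := (h g hg).resolve_right fun ⟨J, h1, _⟩ => h0 ⟨J, h1⟩
    exact ⟨k, h1, Or.inl h2⟩

theorem mem_stabJ_of_aeval (g : V ≃ₗ[F] V) {D : End F V} (h : Commute (g : End F V) D) (r : F[X]) :
    g ∈ stabJ ⊤ (aeval D r) := ⟨0, trivial, fun v => by
  rw [zero_smul, add_zero]
  exact intertwine_aeval (f := D) (g := D) (g : End F V) (LinearMap.congr_fun h.eq) r v⟩

theorem mem_stabJ_of_translate (g : V ≃ₗ[F] V) {J : End F V}
    (h : (g : End F V) * J = (J + 1) * (g : End F V)) : g ∈ stabJ ⊤ J :=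
  ⟨1, trivial, fun v => by rw [one_smul]; exact LinearMap.congr_fun h v⟩

end Cfsg.Agent.Cl.Cov
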