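import Mathlib
import Cfsg.Agent.Cl.CharCovD
import Cfsg.Agent.Cl.SpTransv

/-!
# Groups covered by the conjugates of two subgroups, V

`PSU₃(3^a)` and `PSp₆(3^a)`.
-/

set_option autoImplicit false

namespace Cfsg.Agent.Cl.Cov

open Polynomial Module Cls

variable {F V : Type*} [Field F] [AddCommGroup V] [Module F V] [FiniteDimensional F V]
  {τ : End F V → End F V}

omit [FiniteDimensional F V] in
theorem commute_aeval {g D : End F V} (h : Commute g D) (a : F[X]) : Commute g (aeval D a) :=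
  LinearMap.ext (intertwine_aeval (f := D) (g := D) g (LinearMap.congr_fun h.eq) a)

theorem finrank_pos_of_ne {W : Submodule F V} (h : W ≠ ⊥) : 0 < finrank F W :=
  Nat.pos_of_ne_zero fun e => h (Submodule.finrank_eq_zero.1 e)

section Unitary

variable {σ : F →+* F} {B : V →ₗ[F] V →ₛₗ[σ] F} {g : End F V}

theorem fixPt_of_compl (hB : IsHerm B) {W W' : Submodule F V} (h : IsCompl W W')
    (h1 : finrank F W = 1) (h2 : ∀ u ∈ W, ∀ v ∈ W', B u v = 0) (h3 : ∀ u ∈ W, g u ∈ W) :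
    FixPt B g := by
  obtain ⟨p, hp0, hp⟩ := finrank_eq_one_iff'.1 h1
  obtain ⟨a, ha⟩ := hp ⟨g p, h3 p p.2⟩
  refine ⟨p, fun e => hp0 (Subtype.ext (hB.nondeg _ fun y => ?_)), a,
    (congrArg Subtype.val ha).symm⟩
  obtain ⟨x, z, rfl⟩ := u_exists_add_of_isCompl h y
  obtain ⟨c, rfl⟩ := hp x
  simp [e, h2 p p.2 z z.2]

theorem nilp_of_not_fixPt (hB : IsHerm B) (h : Star B τ) (hn : finrank F V = 3) (hg : ¬ FixPt B g)
    {x : End F V} (hx : τ x = x) (hc : Commute g x) (h2 : ¬ IsUnit x) : IsNilpotent x := by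
  by_contra h1
  obtain ⟨W, W', e1, e2, e3, e4, e5, e6, e7⟩ := h.split hx hc h1 h2
  have e8 := Submodule.finrank_add_eq_of_isCompl e1
  have := finrank_pos_of_ne e2
  have := finrank_pos_of_ne e3
  by_cases e9 : finrank F W = 1
  · exact hg (fixPt_of_compl hB e1 e9 e4 e6)
  · exact hg (fixPt_of_compl hB e1.symm (by omega) (fun u hu v hv => e5 v hv u hu) e7)

theorem su3_case [Finite F] (hB : IsHerm B) (h : Star B τ) (h3 : (3 : F) = 0)
    (hn : finrank F V = 3) (hg : ¬ FixPt B g) {δ : F} (hδ : σ δ = δ) (hδ' : ∀ a, a ^ 3 - a ≠ δ)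
    {D : End F V} (hc : Commute g D) (hD : τ D = D) :
    (∃ s : F[X], τ (aeval D s) = aeval D s ∧ aeval (aeval D s) (asP δ) = 0) ∨
      ∃ a : F, IsNilpotent (D - algebraMap F _ a) := by
  by_cases he : ∀ v (a : F), D v = a • v → v = 0
  · obtain ⟨r, hr⟩ := exists_root_aeval (irreducible_asP hδ') D.charpoly_monic.ne_zero
      (LinearMap.aeval_self_charpoly D) fun f h1 h2 => by
        obtain ⟨b, e1, e2, e3, e4⟩ := deg_of_no_eigen he h1 h2
        rw [natDegree_asP]
        omega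
    exact Or.inl (h.sym_root h3 hD hδ hr)
  push Not at he
  obtain ⟨v, a, hv, hv0⟩ := he
  have h1 : IsNilpotent (aeval D ((X - C (σ a)) * (X - C a))) := by
    refine nilp_of_not_fixPt hB h hn hg ?_ (commute_aeval hc _) fun hu => hv0 ?_
    · rw [h.aeval_self hD]
      congr 1
      simp [hB.invol, mul_comm]
    · refine LinearMap.ker_eq_bot'.1 ((LinearMap.isUnit_iff_ker_eq_bot _).1 hu) v ?_
      simp [hv]
  by_cases ha : σ a = a
  · rw [ha, ← pow_two, map_pow] at h1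
    exact Or.inr ⟨a, by simpa using h1.of_pow⟩
  exfalso
  have := Fintype.ofFinite F
  have h0 : a - σ a ≠ 0 := sub_ne_zero.2 (Ne.symm ha)
  obtain ⟨y, hy⟩ : ∃ y, y = aeval D (C (a - σ a)⁻¹ * (X - C (σ a))) := ⟨_, rfl⟩
  have h4 : C (a - σ a)⁻¹ * (C a - C (σ a)) = 1 := by
    rw [← C_sub, ← C_mul, inv_mul_cancel₀ h0, C_1]
  have h5 : IsNilpotent (aeval y (X ^ 2 - X : F[X])) := by
    have : aeval (C (a - σ a)⁻¹ * (X - C (σ a))) (X ^ 2 - X : F[X]) =
        C ((a - σ a)⁻¹ ^ 2) * ((X - C (σ a)) * (X - C a)) := by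
      simp only [map_sub, map_pow, aeval_X]
      linear_combination (C (a - σ a)⁻¹ * (X - C (σ a))) * h4
    rw [hy, aeval_algHom_apply, this, map_mul, aeval_C, ← Algebra.smul_def]
    exact h1.smul _
  have h6 : τ y = aeval y (1 - X : F[X]) := by
    rw [hy, h.aeval_self hD, aeval_algHom_apply]
    congr 1
    simp only [Polynomial.map_mul, Polynomial.map_sub, map_C, map_X, hB.invol, map_inv₀, map_sub,
      map_one, aeval_X]
    rw [← neg_sub a, inv_neg, C_neg]
    linear_combination h4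
  obtain ⟨k, hk⟩ := pow_card_eq_zero (F := F) h5
  obtain ⟨e, he⟩ : ∃ e, e = y ^ Fintype.card F ^ k := ⟨_, rfl⟩
  rw [← aeval_pow_card, ← he] at hk
  have h7 : τ e = 1 - e := by
    rw [he, h.anti.antiHom.pow, h6, ← aeval_pow_card]; simp
  have h8 : ∀ u, e (e u) = e u := fun u => by
    simpa [pow_two, sub_eq_zero] using LinearMap.congr_fun hk u
  have h9 := hB.two_mul_finrank_le (W := LinearMap.range e) (by
    rintro _ ⟨u, rfl⟩ _ ⟨w, rfl⟩
    change B _ _ = 0
    rw [← h.right, h7]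
    simp [h8])
  have h10 := hB.two_mul_finrank_le (W := LinearMap.ker e) fun u hu w hw => by
    have := h.right e w u
    rw [h7, hw] at this
    simpa [LinearMap.mem_ker.1 hu] using this
  have := e.finrank_range_add_finrank_ker
  omega

theorem su3_trans [Finite F] (hB : IsHerm B) (h : Star B τ) (h3 : (3 : F) = 0)
    (hn : finrank F V = 3) {p : F[X]} (hm : p.Monic) (hp : Irreducible p) {J J' : End F V}
    (hJ : τ J = J) (hJ' : τ J' = J') (h1 : aeval J p = 0) (h1' : aeval J' p = 0) :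
    ∃ k ∈ USG B, ∀ v, k (J v) = J' (k v) := by
  have : Finite V := Module.finite_of_finite F
  have : Finite (End F V) := Module.finite_of_finite F
  obtain ⟨e, he⟩ := sim_of_root hm hp h1 h1'
  have e1 : (e : End F V) * J = J' * (e : End F V) := LinearMap.ext he
  have e2 : J * τ (e : End F V) = τ (e : End F V) * J' := by
    simpa only [h.anti.mul, hJ, hJ'] using congrArg τ e1
  have e3 : IsUnit (e : End F V) := (End.isUnit_iff _).2 e.bijective
  obtain ⟨a, ha⟩ := hB.exists_ne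
  obtain ⟨c, hc, hcu, hc1, -⟩ := h.anti.exists_norm_eq (z := algebraMap F _ a)
    (h := τ (e : End F V) * (e : End F V))
    (by rw [h.algMap, ← map_sub]; exact (IsUnit.mk0 _ (sub_ne_zero.2 ha.symm)).map _)
    (Algebra.commute_algebraMap_left _ _) ((h.anti.antiHom.isUnit e3).mul e3)
    (by rw [h.anti.mul, h.anti.invol]) (Algebra.commute_algebraMap_left _ _)
  have e4 : Commute J c := commute_of_mem_closure (by
    rintro x (rfl | rfl | rfl)
    · change J * _ = _ * J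
      rw [← mul_assoc, e2, mul_assoc, ← e1, mul_assoc]
    · exact Algebra.commute_algebraMap_right _ _
    · rw [h.algMap]; exact Algebra.commute_algebraMap_right _ _) hc
  let c' := LinearEquiv.ofBijective c ((End.isUnit_iff _).1 hcu)
  have e5 : e * c'⁻¹ ∈ UG B := fun u v => by
    obtain ⟨u, rfl⟩ := c'.surjective u
    obtain ⟨v, rfl⟩ := c'.surjective v
    change B (e (c'.symm _)) (e (c'.symm _)) = B (c u) (c v)
    rw [c'.symm_apply_apply, c'.symm_apply_apply, ← h.left c, ← End.mul_apply, hc1, End.mul_apply,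
      h.left]
    rfl
  have e6 := inv_mem (hB.det_mem_uNormOne e5)
  rw [mem_uNormOne] at e6
  obtain ⟨hi, hs⟩ := cube_bijective h3
  obtain ⟨l, hl⟩ := hs ((LinearEquiv.det (e * c'⁻¹))⁻¹ : Fˣ)
  simp only at hl
  have e7 : l * σ l = 1 := hi (by simp only [mul_pow, ← map_pow, hl, e6, one_pow])
  have e8 : l ≠ 0 := left_ne_zero_of_mul_eq_one e7
  refine ⟨LinearEquiv.smulOfNeZero F V l e8 * (e * c'⁻¹), mem_USG.2 ⟨mul_mem (fun u v => ?_) e5,
    ?_⟩, fun v => ?_⟩
  · change B (l • u) (l • v) = _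
    simp only [map_smul, map_smulₛₗ, LinearMap.smul_apply, smul_eq_mul]
    linear_combination B u v * e7
  · rw [map_mul, ← Units.val_inj, Units.val_mul,
      LinearEquiv.coe_det (LinearEquiv.smulOfNeZero F V l e8),
      show (LinearEquiv.smulOfNeZero F V l e8 : V →ₗ[F] V) = l • LinearMap.id from rfl,
      LinearMap.det_smul, hn, hl, LinearMap.det_id, mul_one, Units.inv_mul, Units.val_one]
  · obtain ⟨v, rfl⟩ := c'.surjective v
    have : J (c' v) = c' (J v) := LinearMap.congr_fun e4.eq v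
    change l • e (c'.symm _) = J' (l • e (c'.symm _))
    rw [this, c'.symm_apply_apply, c'.symm_apply_apply, he, map_smul]

theorem cov2_su3 [Finite F] (hB : IsHerm B) (h3 : (3 : F) = 0) (hn : finrank F V = 3) :
    Cov2 (USG B ⧸ Subgroup.center (USG B)) := by
  have : Nontrivial V := Module.nontrivial_of_finrank_pos (R := F) (by omega)
  obtain ⟨τ, h⟩ := exists_star (B := B) hB.invol (ε := 1) (fun x y => by rw [hB.symm, one_mul])
    hB.nondeg hB.exists_rep
  obtain ⟨δ, hδ, hδ'⟩ := exists_delta3 h3 hB.invol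
  obtain ⟨p, hp⟩ := hB.exists_norm_one
  have hp0 : B p p ≠ 0 := by rw [hp]; exact one_ne_zero
  refine cov2_three _ (uStab F ((F ∙ p : Submodule F V) : Set V))
    (fun J => τ J = J ∧ aeval J (asP δ) = 0)
    (fun z hz => (hB.mem_center_USG_iff (by omega)).1 hz) (fun z a => scalar_mem_uStab _)
    (exists_notMem_pt hB (by omega) hp0) (fun J hJ => ?_)
    (fun J J' h1 h2 => su3_trans hB h h3 hn (monic_asP δ) (irreducible_asP hδ') h1.1 h2.1 h1.2 h2.2)
    fun g hg => ?_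
  · obtain ⟨e, f, e1, -, e2⟩ := hB.exists_hyperbolic_pair (by omega)
    obtain ⟨c, e3, e4⟩ := hB.exists_trace_zero
    exact ⟨_, hB.uRefl_mem_USG e1 (c := c) (by rw [e4, add_neg_cancel]), notMem_stabJ
      (fun v a => root_no_eigen (eval_asP_ne hδ') hJ.2) (Or.inr hn.ge) (f := c • B.flip e)
      (x := f) (uRefl_apply_of_isotropic e1 c) (by rintro rfl; simp at e2)
      (by simpa [hB.eq_one_symm e2] using e3)⟩
  by_cases h1 : FixPt B (g : End F V)
  · exact Or.inl (conj_of_fixPt hB (by omega) hp0 h1)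
  right
  by_contra H
  obtain ⟨J, e1, e2, e3⟩ := h.exists_J (g := (g : End F V)) hg.1 h3 (by rw [hn])
    (fun D hc hD => (su3_case hB h h3 hn h1 hδ hδ' hc hD).resolve_left fun ⟨s, hs⟩ =>
      H ⟨_, hs, mem_stabJ_of_aeval g hc s⟩) hδ
  exact H ⟨J, ⟨e1, e2⟩, mem_stabJ_of_translate g e3⟩

theorem cov2_psu3 {K : Type} [Field K] [Fintype K] {q : ℕ} (h : Fintype.card K = q ^ 2)
    (h3 : (3 : K) = 0) : Cov2 (PSU 3 K q) :=
  (cov2_su3 ((uField_uConj h).isHerm_uStd (Fin 3)) h3 (by simp)).of_equiv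
    (centerQuotCongr ((uField_uConj h).suEquiv 3).symm)

end Unitary

section Symplectic

variable {B : LinearMap.BilinForm F V} {g : End F V}

variable (B) in
/-- `g` fixes a hyperbolic line. -/
def FixPl (g : End F V) : Prop :=
  ∃ u v, B u v = 1 ∧ ∀ x ∈ ({u, v} : Set V), g x ∈ Submodule.span F {u, v}

omit [FiniteDimensional F V] in
theorem nd_of_compl (hB : B.Nondegenerate) {W W' : Submodule F V} (h : IsCompl W W')
    (h2 : ∀ u ∈ W, ∀ v ∈ W', B u v = 0) {u : V} (hu : u ∈ W) (H : ∀ v ∈ W, B u v = 0) : u = 0 :=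
  hB.1 u fun y => by
    obtain ⟨x, z, rfl⟩ := u_exists_add_of_isCompl h y
    rw [map_add, H x x.2, h2 u hu z z.2, add_zero]

theorem fixPl_of_compl (hB : B.Nondegenerate) (hA : B.IsAlt) {W W' : Submodule F V}
    (h : IsCompl W W') (h1 : finrank F W = 2) (h2 : ∀ u ∈ W, ∀ v ∈ W', B u v = 0)
    (h3 : ∀ u ∈ W, g u ∈ W) : FixPl B g := by
  obtain ⟨u, hu, hu0⟩ := Submodule.exists_mem_ne_zero_of_ne_bot (p := W) (by
    rintro rfl; simp at h1)
  obtain ⟨v, hv, huv⟩ : ∃ v ∈ W, B u v ≠ 0 := by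
    by_contra! H
    exact hu0 (nd_of_compl hB h h2 hu H)
  have h4 : B u ((B u v)⁻¹ • v) = 1 := by simp [huv]
  have h5 : Submodule.span F {u, (B u v)⁻¹ • v} ≤ W := by
    rw [Submodule.span_le]
    rintro _ (rfl | rfl)
    exacts [hu, W.smul_mem _ hv]
  refine ⟨u, _, h4, fun x hx => ?_⟩
  have h6 := Submodule.eq_of_le_of_finrank_le h5 (by
    rw [finrank_pair (sp_linearIndependent_pair hA (by rw [h4]; exact one_ne_zero)), h1])
  exact h6.symm ▸ h3 x (h5 (Submodule.subset_span hx))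

theorem even_of_compl (hB : B.Nondegenerate) (hA : B.IsAlt) {W W' : Submodule F V}
    (h : IsCompl W W') (h2 : ∀ u ∈ W, ∀ v ∈ W', B u v = 0) : Even (finrank F W) :=
  sp_even_finrank (B := B.restrict W)
    ⟨fun u hu => Subtype.ext (nd_of_compl hB h h2 u.2 fun v hv => hu ⟨v, hv⟩),
      fun u hu => Subtype.ext (nd_of_compl hB h h2 u.2 fun v hv =>
        hA.isRefl _ _ (hu ⟨v, hv⟩))⟩ fun x => hA x

theorem nilp_of_not_fixPl (hB : B.Nondegenerate) (hA : B.IsAlt) (h : Star B τ)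
    (hn : finrank F V = 6) (hg : ¬ FixPl B g) {x : End F V} (hx : τ x = x) (hc : Commute g x)
    (h2 : ¬ IsUnit x) : IsNilpotent x := by
  by_contra h1
  obtain ⟨W, W', e1, e2, e3, e4, e5, e6, e7⟩ := h.split hx hc h1 h2
  have e8 := Submodule.finrank_add_eq_of_isCompl e1
  have := finrank_pos_of_ne e2
  have := finrank_pos_of_ne e3
  obtain ⟨k, hk⟩ := even_of_compl hB hA e1 e4
  by_cases e9 : finrank F W = 2
  · exact hg (fixPl_of_compl hB hA e1 e9 e4 e6)
  · exact hg (fixPl_of_compl hB hA e1.symm (by omega) (fun u hu v hv => e5 v hv u hu) e7)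

omit [FiniteDimensional F V] in
theorem aeval_ti (hA : B.IsAlt) (h : Star B τ) (h2 : (2 : F) ≠ 0) {J : End F V} (hJ : τ J = J)
    (r s : F[X]) (x : V) : B (aeval J r x) (aeval J s x) = 0 := by
  have h1 : ∀ r : F[X], τ (aeval J r) = aeval J r := fun r => by rw [h.aeval_self hJ, map_id]
  have h3 := h.self (h1 (r * s)) x x
  rw [← hA.neg_eq, neg_eq_iff_add_eq_zero, ← two_mul, mul_eq_zero] at h3
  rw [h.self (h1 r), ← End.mul_apply, ← map_mul]
  exact h3.resolve_left h2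

theorem exists_lagr (hA : B.IsAlt) (h : Star B τ) (h2 : (2 : F) ≠ 0) {J : End F V}
    (hJ : τ J = J) : ∃ U : Submodule F V, (∀ u ∈ U, J u ∈ U) ∧ B.orthogonal U = U := by
  obtain ⟨U, ⟨h3, h4⟩, hU⟩ := set_has_maximal_iff_noetherian.2 (inferInstance : IsNoetherian F V)
    {U : Submodule F V | (∀ u ∈ U, J u ∈ U) ∧ ∀ u ∈ U, ∀ v ∈ U, B u v = 0} ⟨⊥, by simp, by simp⟩
  refine ⟨U, h3, le_antisymm (fun y hy => ?_) fun u hu v hv => h4 v hv u hu⟩
  by_contra hyU
  let φ : F[X] →ₗ[F] V := LinearMap.applyₗ y ∘ₗ (aeval J).toLinearMap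
  have hφ : ∀ r, φ r = aeval J r y := fun _ => rfl
  have h5 : ∀ u ∈ U, ∀ r, B u (φ r) = 0 := fun u hu r => by
    rw [hφ, ← h.self (by rw [h.aeval_self hJ, map_id])]
    exact hy _ ((intertwine_aeval (f := J.restrict h3) (g := J) U.subtype (fun _ => rfl) r
      ⟨u, hu⟩) ▸ Submodule.coe_mem _)
  refine hU (U ⊔ LinearMap.range φ) ⟨fun z hz => ?_, fun z hz w hw => ?_⟩
    (lt_of_le_of_ne le_sup_left fun e => hyU (e ▸ Submodule.mem_sup_right ⟨1, by simp [hφ]⟩))
  · obtain ⟨u, hu, _, ⟨r, rfl⟩, rfl⟩ := Submodule.mem_sup.1 hz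
    rw [map_add]
    exact Submodule.add_mem_sup (h3 u hu) ⟨X * r, by simp [hφ]⟩
  · obtain ⟨u, hu, _, ⟨r, rfl⟩, rfl⟩ := Submodule.mem_sup.1 hz
    obtain ⟨u', hu', _, ⟨r', rfl⟩, rfl⟩ := Submodule.mem_sup.1 hw
    simp only [map_add, LinearMap.add_apply, h4 u hu u' hu', h5 u hu, hA.isRefl _ _ (h5 u' hu' r),
      zero_add]
    exact aeval_ti hA h h2 hJ r r' y

theorem sp6_case [Finite F] (hB : B.Nondegenerate) (hA : B.IsAlt) (h : Star B τ)
    (h2 : (2 : F) ≠ 0) (hn : finrank F V = 6) (hg : ¬ FixPl B g) {δ : F}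
    (hδ' : ∀ a, a ^ 3 - a ≠ δ) {D : End F V} (hc : Commute g D) (hD : τ D = D) :
    (∃ s : F[X], τ (aeval D s) = aeval D s ∧ aeval (aeval D s) (asP δ) = 0) ∨
      ∃ a : F, IsNilpotent (D - algebraMap F _ a) := by
  have : Nontrivial V := Module.nontrivial_of_finrank_pos (R := F) (by omega)
  have h1 : ∀ r : F[X], τ (aeval D r) = aeval D r := fun r => by rw [h.aeval_self hD, map_id]
  obtain ⟨P, hm, hP, -, h3⟩ := exists_irred_nonunit D
  have h4 := nilp_of_not_fixPl hB hA h hn hg (h1 P) (commute_aeval hc P) h3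
  obtain ⟨k, hk⟩ := id h4
  have h5 : ∀ {p : F[X]}, Irreducible p → p.natDegree ∣ P.natDegree →
      ∃ r : F[X], aeval (aeval D r) p = 0 := fun hp hd =>
    exists_root_aeval hp (pow_ne_zero k hP.ne_zero) (by rw [map_pow, hk]) fun f e1 e2 => by
      rwa [natDegree_eq_of_degree_eq (degree_eq_degree_of_associated
        (e1.associated_of_dvd hP (e1.prime.dvd_of_dvd_pow e2)))]
  obtain ⟨r, hr⟩ := h5 hP dvd_rfl
  obtain ⟨U, h6, h7⟩ := exists_lagr hA h h2 (h1 r)
  have h8 := sp_finrank_of_lagrangian hB h7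
  have h9 := natDegree_dvd_finrank hm hP (J := (aeval D r).restrict h6) (LinearMap.ext fun u =>
    Subtype.ext ((intertwine_aeval (f := (aeval D r).restrict h6) (g := aeval D r) U.subtype
      (fun _ => rfl) P u).trans (by rw [hr]; rfl)))
  rw [show finrank F U = 3 by omega] at h9
  rcases (Nat.dvd_prime Nat.prime_three).1 h9 with e | e
  · rw [hm.eq_X_add_C e] at h4
    exact Or.inr ⟨-P.coeff 0, by simpa using h4⟩
  · obtain ⟨s, hs⟩ := h5 (irreducible_asP hδ') (by rw [e, natDegree_asP])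
    exact Or.inl ⟨s, h1 s, hs⟩

omit [FiniteDimensional F V] in
theorem sp6_frame (hA : B.IsAlt) (h : Star B τ) (h2 : (2 : F) ≠ 0) [Nontrivial V] {δ : F}
    (hδ : ∀ a, a ^ 3 - a ≠ δ) {J : End F V} (hJ : τ J = J) (h0 : aeval J (asP δ) = 0) :
    ∃ e f : Fin 3 → V, (∀ i j, B (e i) (e j) = 0) ∧ (∀ i j, B (e i) (f j) = if i = j then 1 else 0) ∧
      (∀ i j, B (f i) (f j) = 0) ∧ J (e 0) = e 1 ∧ J (e 1) = e 2 ∧ J (e 2) = e 1 + δ • e 0 ∧
      J (f 0) = δ • f 2 ∧ J (f 1) = f 0 + f 2 ∧ J (f 2) = f 1 := by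
  obtain ⟨x, hx⟩ := exists_ne (0 : V)
  have h3 : ∀ v, J (J (J v)) = J v + δ • v := fun v => by
    have := LinearMap.congr_fun h0 v
    rw [aeval_asP, sub_sub] at this
    simpa [pow_succ, sub_eq_zero] using this
  have h4 : J (J x) ∉ Submodule.span F {x, J x} := fun e => by
    obtain ⟨a, b, hab⟩ := Submodule.mem_span_pair.1 e
    have e1 : (X ^ 2 - C b * X - C a : F[X]).natDegree = 2 := by compute_degree!
    obtain ⟨u, v, huv⟩ := ((irreducible_asP hδ).coprime_iff_not_dvd).2 fun e2 => by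
      have := natDegree_le_of_dvd e2 (q := X ^ 2 - C b * X - C a) (fun e3 => by simp [e3] at e1)
      rw [e1, natDegree_asP] at this
      omega
    have e3 := LinearMap.congr_fun (congrArg (aeval J) huv) x
    have e4 : aeval J (X ^ 2 - C b * X - C a : F[X]) x = 0 := by simp [pow_two, ← hab]
    rw [map_add, map_mul, map_mul, h0, mul_zero, zero_add, End.mul_apply, e4, map_zero, map_one,
      End.one_apply] at e3
    exact hx e3.symm
  obtain ⟨l, h5, h6, -⟩ := exists_functional_ne_zero_two _ h4 h4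
  obtain ⟨y, hy⟩ := h.rep l
  have b0 : B x y = 0 := (hy x).trans (h5 _ (Submodule.subset_span (by simp)))
  have b1 : B (J x) y = 0 := (hy _).trans (h5 _ (Submodule.subset_span (by simp)))
  have b2 : B (J (J x)) y = 1 := (hy _).trans h6
  have h7 := aeval_ti hA h h2 hJ
  refine ⟨fun i => aeval J (![1, X, X ^ 2] i : F[X]) x,
    fun i => aeval J (![X ^ 2 - 1, X, 1] i : F[X]) y, fun i j => h7 _ _ _, fun i j => ?_,
    fun i j => h7 _ _ _, by simp, by simp [pow_two], by simp [pow_two, h3], by simp [pow_two, h3],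
    by simp [pow_two], by simp⟩
  fin_cases i <;> fin_cases j <;> simp [pow_two, ← h.self hJ, h3, b0, b1, b2]

theorem sp6_trans (hB : B.Nondegenerate) (hA : B.IsAlt) (h : Star B τ) (h2 : (2 : F) ≠ 0)
    (hn : finrank F V = 6) {δ : F} (hδ : ∀ a, a ^ 3 - a ≠ δ) {J J' : End F V} (hJ : τ J = J)
    (hJ' : τ J' = J') (h0 : aeval J (asP δ) = 0) (h0' : aeval J' (asP δ) = 0) :
    ∃ k ∈ SpG B, ∀ v, k (J v) = J' (k v) := by
  have : Nontrivial V := Module.nontrivial_of_finrank_pos (R := F) (by omega)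
  obtain ⟨e, f, a1, a2, a3, a4, a5, a6, a7, a8, a9⟩ := sp6_frame hA h h2 hδ hJ h0
  obtain ⟨e', f', b1, b2, b3, b4, b5, b6, b7, b8, b9⟩ := sp6_frame hA h h2 hδ hJ' h0'
  have h3 := (wittData_alt hA).linearIndependent_hyperbolic e f a1 a2 a3
  obtain ⟨k, h4, h5⟩ := witt_alt_family hB hA _ _ h3
    ((wittData_alt hA).linearIndependent_hyperbolic e' f' b1 b2 b3) (by
      rintro (i | i) (j | j)
      · exact (b1 i j).trans (a1 i j).symm
      · exact (b2 i j).trans (a2 i j).symm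
      · exact (hA.neg_eq _ _).symm.trans ((congrArg Neg.neg ((b2 j i).trans (a2 j i).symm)).trans
          (hA.neg_eq _ _))
      · exact (b3 i j).trans (a3 i j).symm)
  have h6 : ∀ i, k (e i) = e' i := fun i => h5 (Sum.inl i)
  have h7 : ∀ i, k (f i) = f' i := fun i => h5 (Sum.inr i)
  refine ⟨k, h4, LinearMap.congr_fun (f := (k : End F V) * J) (g := J' * (k : End F V))
    ((basisOfLinearIndependentOfCardEqFinrank h3 (by simp [hn])).ext ?_)⟩
  rintro (i | i) <;> fin_cases i <;> simp [*]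

theorem cov2_sp6 [Finite F] (hB : B.Nondegenerate) (hA : B.IsAlt) (h3 : (3 : F) = 0)
    (hn : finrank F V = 6) : Cov2 (SpG B ⧸ Subgroup.center (SpG B)) := by
  have : Nontrivial V := Module.nontrivial_of_finrank_pos (R := F) (by omega)
  have h2 : (2 : F) ≠ 0 := fun e => one_ne_zero (α := F) (by linear_combination h3 - e)
  obtain ⟨τ, h⟩ := exists_star (B := B) (fun _ => rfl) (ε := -1)
    (fun x y => by rw [← hA.neg_eq, neg_one_mul]; rfl) hB.1 fun f => by
      obtain ⟨w, rfl⟩ := (B.toDual hB).surjective f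
      exact ⟨-w, fun x => by rw [map_neg, hA.neg_eq]; rfl⟩
  obtain ⟨δ, -, hδ⟩ := exists_delta3 (σ := RingHom.id F) h3 fun _ => rfl
  have hv : ∀ u : V, u ≠ 0 → ∃ v, B u v ≠ 0 := fun u hu => by
    by_contra! H
    exact hu (hB.1 u H)
  obtain ⟨u, hu⟩ := exists_ne (0 : V)
  obtain ⟨v, huv⟩ : ∃ v, B u v = 1 :=
    let ⟨v, hv⟩ := hv u hu
    ⟨(B u v)⁻¹ • v, by simp [hv]⟩
  have h4 := sp_linearIndependent_pair hA (by rw [huv]; exact one_ne_zero)
  refine cov2_three _ (uStab F (Submodule.span F {u, v} : Set V))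
    (fun J => τ J = J ∧ aeval J (asP δ) = 0) (fun z hz => ?_) (fun z a => scalar_mem_uStab _) ?_
    (fun J hJ => ?_) (fun J J' e1 e2 => sp6_trans hB hA h h2 hn hδ e1.1 e2.1 e1.2 e2.2)
    fun g hg => ?_
  · rcases (sp_mem_center_iff hB hA z).1 hz with rfl | rfl
    exacts [⟨1, fun x => (one_smul F x).symm⟩, ⟨-1, fun x => (neg_one_smul F x).symm⟩]
  · obtain ⟨w, hw⟩ : ∃ w, w ∉ Submodule.span F {u, v} := by
      by_contra! H
      have := finrank_pair h4
      rw [show Submodule.span F {u, v} = ⊤ from eq_top_iff.2 fun x _ => H x, finrank_top] at this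
      omega
    obtain ⟨k, hk, e⟩ := sp_transitive hB hA hu (v := w) (by rintro rfl; exact hw (zero_mem _))
    exact ⟨k, hk, fun H => hw (e ▸ (H u).1 (Submodule.subset_span (by simp)))⟩
  · exact ⟨(spT hA v 1).1, (spT hA v 1).2, notMem_stabJ
      (fun v a => root_no_eigen (eval_asP_ne hδ) hJ.2) (Or.inr (by omega)) (f := B.flip v)
      (x := u) (fun x => by rw [spT_apply, one_mul]; rfl) (by rintro rfl; simp at huv)
      (by simp [huv])⟩
  by_cases h1 : FixPl B (g : End F V)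
  · obtain ⟨u', v', e1, e2⟩ := h1
    obtain ⟨k, hk, e3, e4⟩ := sp_transitive_pair hB hA
      (sp_linearIndependent_pair hA (by rw [e1]; exact one_ne_zero)) h4 (huv.trans e1.symm)
    exact Or.inl ⟨k, hk, conj_mem_uStab e2 (by rw [Set.image_pair, e3, e4])⟩
  right
  by_contra H
  obtain ⟨J, e1, e2, e3⟩ := h.exists_J (g := (g : End F V)) hg h3 (by rw [hn]; norm_num)
    (fun D hc hD => (sp6_case hB hA h h2 hn h1 hδ hc hD).resolve_left fun ⟨s, hs⟩ =>
      H ⟨_, hs, mem_stabJ_of_aeval g hc s⟩) (δ := δ) rfl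
  exact H ⟨J, ⟨e1, e2⟩, mem_stabJ_of_translate g e3⟩

theorem cov2_psp6 [Finite F] (h3 : (3 : F) = 0) : Cov2 (PSp 3 F) :=
  (cov2_sp6 spB_nondegenerate spB_isAlt h3 (by simp)).of_equiv
    (centerQuotCongr (spStdEquiv 3 F).symm)

end Symplectic

end Cfsg.Agent.Cl.Cov
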