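import Mathlib
import Cfsg.Agent.S2420
import Cfsg.Agent.Chev.RelFix

/-!
Double cosets of standard parabolic subgroups of `GL_n` and of Young subgroups of `S_n` are both counted by
contingency tables.
-/

set_option autoImplicit false

namespace Cfsg.Agent.Cl.Un

open Finset

/-- Orbits on pairs of cosets are counted by a complete invariant of double cosets. -/
theorem card_orbits_eq {G T : Type*} [Group G] (H K : Subgroup G) (f : G → T) (hf : Function.Surjective f)
    (h : ∀ x y, f x = f y ↔ ∃ a ∈ H, ∃ b ∈ K, y = a * x * b) :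
    Nat.card (MulAction.orbitRel.Quotient G ((G ⧸ H) × G ⧸ K)) = Nat.card T := by
  let φ : (G ⧸ H) × (G ⧸ K) → T := fun z => f (z.1.out⁻¹ * z.2.out)
  have hφ : ∀ x y : G, φ ((x : G ⧸ H), (y : G ⧸ K)) = f (x⁻¹ * y) := fun x y => by
    obtain ⟨a, ha⟩ := QuotientGroup.mk_out_eq_mul H x
    obtain ⟨b, hb⟩ := QuotientGroup.mk_out_eq_mul K y
    refine ((h _ _).2 ⟨a⁻¹, H.inv_mem a.2, b, b.2, ?_⟩).symm
    simp only [ha, hb]
    group
  refine Nat.card_congr (Equiv.ofBijective (Quotient.lift φ ?_) ⟨?_, ?_⟩)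
  · rintro _ ⟨x, y⟩ ⟨g, rfl⟩
    obtain ⟨x, rfl⟩ := QuotientGroup.mk_surjective x
    obtain ⟨y, rfl⟩ := QuotientGroup.mk_surjective y
    change φ (((g * x : G) : G ⧸ H), ((g * y : G) : G ⧸ K)) = _
    rw [hφ, hφ]
    congr 1
    group
  · intro u v
    obtain ⟨⟨x, y⟩, rfl⟩ := Quotient.exists_rep u
    obtain ⟨⟨x', y'⟩, rfl⟩ := Quotient.exists_rep v
    obtain ⟨x, rfl⟩ := QuotientGroup.mk_surjective x
    obtain ⟨y, rfl⟩ := QuotientGroup.mk_surjective y
    obtain ⟨x', rfl⟩ := QuotientGroup.mk_surjective x'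
    obtain ⟨y', rfl⟩ := QuotientGroup.mk_surjective y'
    intro e
    simp only [Quotient.lift_mk, hφ] at e
    obtain ⟨a, ha, b, hb, e⟩ := (h _ _).1 e
    refine Quotient.sound ⟨x * a⁻¹ * x'⁻¹, Prod.ext ?_ ?_⟩
    · change ((x * a⁻¹ * x'⁻¹ * x' : G) : G ⧸ H) = x
      rw [QuotientGroup.eq]
      simpa using ha
    · change ((x * a⁻¹ * x'⁻¹ * y' : G) : G ⧸ K) = y
      rw [QuotientGroup.eq, mul_assoc (x * a⁻¹), e]
      simpa [mul_assoc] using hb
  · intro t
    obtain ⟨x, rfl⟩ := hf t
    exact ⟨Quotient.mk _ (((1 : G) : G ⧸ H), (x : G ⧸ K)), by simp [hφ]⟩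

theorem exists_equiv_of_card_fiber {X Y T : Type*} [Finite X] [Finite Y] (f : X → T) (g : Y → T)
    (h : ∀ t, Nat.card {x // f x = t} = Nat.card {y // g y = t}) : ∃ e : X ≃ Y, ∀ x, g (e x) = f x :=
  ⟨Equiv.ofFiberEquiv fun t => (Finite.card_eq.1 (h t)).some, fun x => Equiv.ofFiberEquiv_map _ x⟩

section Tab

variable {ι α : Type*} [Fintype ι] [Fintype α]

/-- Tables with prescribed row and column sums. -/
abbrev Tab (μ ν : α → ℕ) : Type _ :=
  {M : α → α → ℕ // (∀ i, ∑ j, M i j = μ i) ∧ ∀ j, ∑ i, M i j = ν j}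

/-- The table of a permutation with respect to two labellings. -/
noncomputable def tab (a b : ι → α) (σ : Equiv.Perm ι) (i j : α) : ℕ :=
  Nat.card {l // (a (σ l), b l) = (i, j)}

omit [Fintype α] in
theorem tab_eq_iff (a b : ι → α) (σ τ : Equiv.Perm ι) :
    tab a b σ = tab a b τ ↔
      ∃ h : Equiv.Perm ι, (∀ l, a (h l) = a l) ∧ ∃ k : Equiv.Perm ι, (∀ l, b (k l) = b l) ∧ τ = h * σ * k := by
  constructor
  · intro e
    obtain ⟨k, hk⟩ := exists_equiv_of_card_fiber (fun l => (a (τ l), b l)) (fun l => (a (σ l), b l))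
      fun t => (congrFun (congrFun e t.1) t.2).symm
    refine ⟨τ * (σ * k)⁻¹, fun l => ?_, k, fun l => congrArg Prod.snd (hk l), by group⟩
    have := congrArg Prod.fst (hk ((σ * k)⁻¹ l))
    simp only [Equiv.Perm.mul_apply] at this ⊢
    rw [← this]
    congr 1
    exact (σ * k).apply_symm_apply l
  · rintro ⟨h, hh, k, hk, rfl⟩
    funext i j
    refine (Nat.card_congr (Equiv.subtypeEquiv k fun l => ?_)).symm
    simp [hh, hk]

theorem sum_card_fiber {X : Type*} [Finite X] (f : X → α) (p : X → Prop) :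
    ∑ j, Nat.card {x // p x ∧ f x = j} = Nat.card {x // p x} := by
  rw [← Nat.card_sigma]
  exact Nat.card_congr
    { toFun := fun z => ⟨z.2.1, z.2.2.1⟩
      invFun := fun x => ⟨f x, x.1, x.2, rfl⟩
      left_inv := by rintro ⟨_, x, hx, rfl⟩; rfl
      right_inv := fun _ => rfl }

theorem sum_tab_row (a b : ι → α) (σ : Equiv.Perm ι) (i : α) :
    ∑ j, tab a b σ i j = Nat.card {l // a l = i} := by
  simp only [tab, Prod.mk.injEq]
  rw [sum_card_fiber b fun l => a (σ l) = i]
  exact Nat.card_congr (Equiv.subtypeEquiv σ fun _ => Iff.rfl)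

theorem sum_tab_col (a b : ι → α) (σ : Equiv.Perm ι) (j : α) :
    ∑ i, tab a b σ i j = Nat.card {l // b l = j} := by
  simp only [tab, Prod.mk.injEq, and_comm (b := b _ = j)]
  exact sum_card_fiber (fun l => a (σ l)) fun l => b l = j

/-- The table of a permutation, with its margins. -/
noncomputable def tabT (a b : ι → α) (σ : Equiv.Perm ι) :
    Tab (fun i => Nat.card {l // a l = i}) fun j => Nat.card {l // b l = j} :=
  ⟨tab a b σ, sum_tab_row a b σ, sum_tab_col a b σ⟩

theorem tabT_surjective (a b : ι → α) : Function.Surjective (tabT a b) := by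
  rintro ⟨M, h1, h2⟩
  have hX : ∀ i j, Nat.card {z : Σ c : α × α, Fin (M c.1 c.2) // z.1 = (i, j)} = M i j := fun i j => by
    rw [← Nat.card_fin (M i j)]
    exact Nat.card_congr
      { toFun := fun z => z.1.2.cast (by rw [z.2])
        invFun := fun x => ⟨⟨(i, j), x⟩, rfl⟩
        left_inv := by rintro ⟨⟨c, x⟩, h⟩; obtain rfl : c = (i, j) := h; rfl
        right_inv := fun _ => rfl }
  obtain ⟨e1, he1⟩ := exists_equiv_of_card_fiber (fun z : Σ c : α × α, Fin (M c.1 c.2) => z.1.1) a fun i => by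
    rw [← sum_card_fiber (fun z : Σ c : α × α, Fin (M c.1 c.2) => z.1.2)]
    refine Eq.trans (sum_congr rfl fun j _ => ?_) (h1 i)
    rw [← hX]
    simp only [Prod.ext_iff]
  obtain ⟨e2, he2⟩ := exists_equiv_of_card_fiber (fun z : Σ c : α × α, Fin (M c.1 c.2) => z.1.2) b fun j => by
    rw [← sum_card_fiber (fun z : Σ c : α × α, Fin (M c.1 c.2) => z.1.1)]
    refine Eq.trans (sum_congr rfl fun i _ => ?_) (h2 j)
    rw [← hX]
    simp only [Prod.ext_iff, and_comm]
  refine ⟨e2.symm.trans e1, Subtype.ext (funext fun i => funext fun j => ?_)⟩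
  change tab a b _ i j = M i j
  rw [← hX, tab]
  refine (Nat.card_congr (Equiv.subtypeEquiv e2 fun z => ?_)).symm
  simp [he1, he2]

end Tab

section GenLin

variable {F : Type*} [Field F] {ι : Type*} [Fintype ι] [DecidableEq ι]

variable (F) in
/-- The permutation matrix sending `e_l` to `e_{σ l}`. -/
def pm : Equiv.Perm ι →* GL ι F :=
  MonoidHom.toHomUnits
    { toFun := fun σ => Matrix.of fun i l => if i = σ l then (1 : F) else 0
      map_one' := by ext i l; simp [Matrix.one_apply]; congr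
      map_mul' := fun σ τ => by ext i l; simp [Matrix.mul_apply]; congr }

theorem pm_apply (σ : Equiv.Perm ι) (i l : ι) : (pm F σ : Matrix ι ι F) i l = if i = σ l then 1 else 0 := rfl

theorem mul_pm_apply (m : Matrix ι ι F) (σ : Equiv.Perm ι) (i l : ι) :
    (m * (pm F σ : Matrix ι ι F)) i l = m i (σ l) := by
  simp [Matrix.mul_apply, pm_apply]

theorem pm_mul_apply (m : Matrix ι ι F) (σ : Equiv.Perm ι) (i l : ι) :
    ((pm F σ : Matrix ι ι F) * m) (σ i) l = m i l := by
  simp [Matrix.mul_apply, pm_apply]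

theorem pm_mem_parab {α : Type*} [LinearOrder α] {a : ι → α} {σ : Equiv.Perm ι} (h : ∀ l, a (σ l) = a l) :
    pm F σ ∈ parab F a := by
  rw [mem_parab]
  intro i j hij
  rw [pm_apply, if_neg]
  rintro rfl
  exact absurd (h j) hij.ne'

omit [DecidableEq ι] in
theorem eq_of_le_perm {α : Type*} [LinearOrder α] {a : ι → α} {σ : Equiv.Perm ι} (h : ∀ l, a (σ l) ≤ a l)
    (l : ι) : a (σ l) = a l := by
  classical
  by_contra hl
  have h1 : ∀ l, (univ.filter fun i => a i < a (σ l)).card ≤ (univ.filter fun i => a i < a l).card :=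
    fun l => card_le_card fun i hi => by
      simp only [mem_filter, mem_univ, true_and] at hi ⊢
      exact hi.trans_le (h l)
  have h2 : (univ.filter fun i => a i < a (σ l)).card < (univ.filter fun i => a i < a l).card := by
    refine card_lt_card ⟨fun i hi => ?_, fun hs => ?_⟩
    · simp only [mem_filter, mem_univ, true_and] at hi ⊢
      exact hi.trans_le (h l)
    · simpa using hs (mem_filter.2 ⟨mem_univ (σ l), lt_of_le_of_ne (h l) hl⟩)
  have h3 := sum_lt_sum (s := univ) (fun l _ => h1 l) ⟨l, mem_univ _, h2⟩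
  rw [Equiv.sum_comp σ fun l => (univ.filter fun i => a i < a l).card] at h3
  exact h3.false

theorem exists_of_pm_eq {α : Type*} [LinearOrder α] {a b : ι → α} {σ τ : Equiv.Perm ι} {x y : GL ι F}
    (hx : x ∈ parab F a) (hy : y ∈ parab F b) (e : pm F τ = x * pm F σ * y) :
    ∃ h : Equiv.Perm ι, (∀ l, a (h l) = a l) ∧ ∃ k : Equiv.Perm ι, (∀ l, b (k l) = b l) ∧ τ = h * σ * k := by
  have e' : x * pm F σ = pm F τ * y⁻¹ := by rw [e]; group
  have hd := (x * pm F σ).det_ne_zero
  rw [Matrix.det_apply] at hd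
  obtain ⟨π, -, hπ⟩ := exists_ne_zero_of_sum_ne_zero hd
  have hπ' : ∀ l, (x * pm F σ : GL ι F) (π l) l ≠ 0 := fun l h0 =>
    hπ (smul_eq_zero_of_right _ (prod_eq_zero (mem_univ l) h0))
  have h1 : ∀ l, a ((π * σ⁻¹) l) ≤ a l := fun l => by
    have := hπ' (σ⁻¹ l)
    rw [Units.val_mul, mul_pm_apply] at this
    by_contra hlt
    exact this (by simpa using mem_parab.1 hx _ _ (not_le.1 hlt))
  have h2 : ∀ l, b ((τ⁻¹ * π) l) ≤ b l := fun l => by
    have := hπ' l
    rw [e', Units.val_mul, show π l = τ ((τ⁻¹ * π) l) by simp, pm_mul_apply] at this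
    by_contra hlt
    exact this (mem_parab.1 (inv_mem hy) _ _ (not_le.1 hlt))
  refine ⟨π * σ⁻¹, eq_of_le_perm h1, (τ⁻¹ * π)⁻¹, fun l => ?_, by group⟩
  rw [← eq_of_le_perm h2 ((τ⁻¹ * π)⁻¹ l)]
  exact congrArg b ((τ⁻¹ * π).apply_symm_apply l)

/-- The Bruhat decomposition of `GL_n`. -/
theorem exists_bruhat {n : ℕ} (g : GL (Fin n) F) :
    ∃ x ∈ parab F (id : Fin n → Fin n), ∃ σ : Equiv.Perm (Fin n), ∃ y ∈ parab F (id : Fin n → Fin n),
      g = x * pm F σ * y := by
  classical
  let P : ℕ → Prop := fun s => ∃ y ∈ parab F (id : Fin n → Fin n), ∃ w : Fin n → ℕ, ∑ l, w l = s ∧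
    ∀ i l : Fin n, w l ≤ i → (g * y : GL (Fin n) F) i l = 0
  have hP : ∃ s, P s := ⟨_, 1, one_mem _, fun _ => n, rfl, fun i _ h => absurd i.2 (not_lt.2 h)⟩
  obtain ⟨y, hy, w, hs, hw⟩ := Nat.find_spec hP
  have key : ∀ y ∈ parab F (id : Fin n → Fin n), (∀ i l : Fin n, w l ≤ i → (g * y : GL (Fin n) F) i l = 0) →
      ∀ l, ∃ r : Fin n, r + 1 = w l ∧ (g * y : GL (Fin n) F) r l ≠ 0 := fun y hy hw l => by
    by_contra hne
    push Not at hne
    rcases Nat.eq_zero_or_pos (w l) with h0 | h0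
    · exact (g * y).det_ne_zero (Matrix.det_eq_zero_of_column_eq_zero l fun i => hw i l (by omega))
    · refine Nat.find_min hP (m := ∑ k, Function.update w l (w l - 1) k) ?_ ⟨y, hy, _, rfl, fun i k hk => ?_⟩
      · rw [← hs]
        refine sum_lt_sum (fun k _ => ?_) ⟨l, mem_univ _, by simp; omega⟩
        by_cases hkl : k = l
        · subst hkl; simp
        · simp [hkl]
      · by_cases hkl : k = l
        · subst hkl
          rw [Function.update_self] at hk
          by_cases h1 : w k ≤ i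
          · exact hw i k h1
          · exact hne i (by omega)
        · rw [Function.update_of_ne hkl] at hk
          exact hw i k hk
  choose r hr1 hr2 using key y hy hw
  have hlt : ∀ k l, k < l → r k ≠ r l := fun k l hkl e => by
    let c : F := -((g * y : GL (Fin n) F) (r l) l / (g * y : GL (Fin n) F) (r k) k)
    let t : GL (Fin n) F := Matrix.GeneralLinearGroup.mkOfDetNeZero (Matrix.transvection k l c)
      (by rw [Matrix.det_transvection_of_ne _ _ hkl.ne]; exact one_ne_zero)
    have ht : t ∈ parab F (id : Fin n → Fin n) := by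
      rw [mem_parab]
      intro i j hij
      change Matrix.transvection k l c i j = 0
      have hij' : j < i := hij
      rw [Matrix.transvection, Matrix.add_apply, Matrix.one_apply_ne hij'.ne', Matrix.single_apply_of_ne, add_zero]
      rintro ⟨rfl, rfl⟩
      exact lt_asymm hkl hij'
    have hv : (g * (y * t) : GL (Fin n) F).val = (g * y : GL (Fin n) F).val * Matrix.transvection k l c := by
      rw [← mul_assoc, Units.val_mul]; rfl
    obtain ⟨s, hs1, hs2⟩ := key (y * t) (mul_mem hy ht) (fun i j hj => by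
      rw [hv]
      by_cases hjl : j = l
      · subst hjl
        rw [Matrix.mul_transvection_apply_same, hw i j hj, hw i k (by rw [← hr1, e, hr1]; exact hj)]
        simp
      · rw [Matrix.mul_transvection_apply_of_ne _ _ _ _ hjl, hw i j hj]) l
    have : s = r l := Fin.ext (by have := hr1 l; omega)
    subst this
    apply hs2
    rw [hv, Matrix.mul_transvection_apply_same, ← e]
    have := hr2 k
    simp only [c, ← e]
    field_simp
    ring
  have hinj : Function.Injective r := fun k l e => by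
    rcases lt_trichotomy k l with h | h | h
    · exact absurd e (hlt k l h)
    · exact h
    · exact absurd e.symm (hlt l k h)
  let σ : Equiv.Perm (Fin n) := Equiv.ofBijective r (Finite.injective_iff_bijective.1 hinj)
  refine ⟨g * y * pm F σ⁻¹, ?_, σ, y⁻¹, inv_mem hy, by rw [map_inv]; group⟩
  rw [mem_parab]
  intro i j hij
  rw [Units.val_mul, mul_pm_apply]
  refine hw _ _ ?_
  rw [← hr1]
  have : r (σ⁻¹ j) = j := σ.apply_symm_apply j
  rw [this]
  exact hij

theorem parab_id_le {n : ℕ} {α : Type*} [LinearOrder α] {a : Fin n → α} (ha : Monotone a) :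
    parab F (id : Fin n → Fin n) ≤ parab F a := fun _ hg =>
  mem_parab.2 fun i j hij => mem_parab.1 hg i j (ha.reflect_lt hij)

theorem card_orbits_parab {n : ℕ} {α : Type*} [LinearOrder α] [Fintype α] {a b : Fin n → α} (ha : Monotone a)
    (hb : Monotone b) :
    Nat.card (MulAction.orbitRel.Quotient (GL (Fin n) F) ((GL (Fin n) F ⧸ parab F a) × GL (Fin n) F ⧸ parab F b)) =
      Nat.card (Tab (fun i => Nat.card {l // a l = i}) fun j => Nat.card {l // b l = j}) := by
  choose x hx σ y hy e using exists_bruhat (F := F) (n := n)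
  have key : ∀ g g', tabT a b (σ g) = tabT a b (σ g') ↔ ∃ u ∈ parab F a, ∃ v ∈ parab F b, g' = u * g * v := by
    intro g g'
    rw [Subtype.ext_iff]
    change tab a b _ = tab a b _ ↔ _
    rw [tab_eq_iff]
    constructor
    · rintro ⟨h, hh, k, hk, e'⟩
      refine ⟨x g' * pm F h * (x g)⁻¹, mul_mem (mul_mem (parab_id_le ha (hx _)) (pm_mem_parab hh))
        (inv_mem (parab_id_le ha (hx _))), (y g)⁻¹ * pm F k * y g', mul_mem (mul_mem
        (inv_mem (parab_id_le hb (hy _))) (pm_mem_parab hk)) (parab_id_le hb (hy _)), ?_⟩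
      calc g' = x g' * pm F (σ g') * y g' := e g'
        _ = x g' * pm F h * (x g)⁻¹ * (x g * pm F (σ g) * y g) * ((y g)⁻¹ * pm F k * y g') := by
          rw [e', map_mul, map_mul]; group
        _ = _ := by rw [← e g]
    · rintro ⟨u, hu, v, hv, e'⟩
      refine exists_of_pm_eq (F := F) (x := (x g')⁻¹ * u * x g) (y := y g * v * (y g')⁻¹)
        (mul_mem (mul_mem (inv_mem (parab_id_le ha (hx _))) hu) (parab_id_le ha (hx _)))
        (mul_mem (mul_mem (parab_id_le hb (hy _)) hv) (inv_mem (parab_id_le hb (hy _)))) ?_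
      calc pm F (σ g') = (x g')⁻¹ * (x g' * pm F (σ g') * y g') * (y g')⁻¹ := by group
        _ = (x g')⁻¹ * (u * (x g * pm F (σ g) * y g) * v) * (y g')⁻¹ := by rw [← e g', ← e g, ← e']
        _ = _ := by group
  refine card_orbits_eq _ _ (fun g => tabT a b (σ g)) (fun t => ?_) key
  obtain ⟨τ, rfl⟩ := tabT_surjective a b t
  refine ⟨pm F τ, Subtype.ext ?_⟩
  change tab a b _ = tab a b _
  rw [tab_eq_iff]
  exact exists_of_pm_eq (F := F) (parab_id_le ha (hx _)) (parab_id_le hb (hy _)) (e _)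

end GenLin

section Comp

variable {n : ℕ}

theorem compLabel_mono (μ : Fin n → ℕ) : Monotone (compLabel μ) := fun i j hij =>
  card_le_card fun k hk => by
    simp only [mem_filter, mem_univ, true_and] at hk ⊢
    exact hk.trans hij

/-- The block label as an element of `Fin n`. -/
def lab (μ : Fin n → ℕ) (hμ : ∑ i, μ i = n) (i : Fin n) : Fin n := ⟨compLabel μ i, S2420.label_lt μ hμ i⟩

theorem card_lab (μ : Fin n → ℕ) (hμ : ∑ i, μ i = n) : (fun i => Nat.card {l // lab μ hμ l = i}) = μ := by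
  funext i
  rw [← S2420.card_label μ hμ i, ← Nat.card_eq_fintype_card]
  simp only [lab, Fin.ext_iff]

theorem parabolicGL_eq {F : Type*} [Field F] (μ : Fin n → ℕ) (hμ : ∑ i, μ i = n) :
    parabolicGL n F μ = parab F (lab μ hμ) :=
  (rfl : parabolicGL n F μ = parab F (compLabel μ)).trans (parab_congr fun _ _ => Iff.rfl)

theorem classInner_parabolicGL {F : Type*} [Field F] [Fintype (GL (Fin n) F)] {μ ν : Fin n → ℕ}
    (hμ : ∑ i, μ i = n) (hν : ∑ i, ν i = n) :
    classInner (fixedPointCharacter (parabolicGL n F μ)) (fixedPointCharacter (parabolicGL n F ν)) =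
      Nat.card (Tab μ ν) := by
  rw [Chev.classInner_fixedPointCharacter, parabolicGL_eq μ hμ, parabolicGL_eq ν hν,
    card_orbits_parab (a := lab μ hμ) (b := lab ν hν) (compLabel_mono μ) (compLabel_mono ν), card_lab, card_lab]

theorem classInner_youngSubgroup {μ ν : Fin n → ℕ} (hμ : ∑ i, μ i = n) (hν : ∑ i, ν i = n) :
    classInner (fixedPointCharacter (youngSubgroup μ)) (fixedPointCharacter (youngSubgroup ν)) =
      Nat.card (Tab μ ν) := by
  rw [Chev.classInner_fixedPointCharacter, card_orbits_eq _ _ _ (tabT_surjective (lab μ hμ) (lab ν hν)),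
    card_lab, card_lab]
  intro x y
  rw [Subtype.ext_iff]
  change tab _ _ _ = tab _ _ _ ↔ _
  rw [tab_eq_iff]
  simp only [lab, Fin.mk.injEq]
  rfl

end Comp

end Cfsg.Agent.Cl.Un
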