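import Mathlib
import Cfsg.Agent.Cl.CharUnipA
import Cfsg.Agent.Ch.Decomp

/-!
The Jacobi-Trudi identity and the orthonormality of the alternating sums of flag characters of `GL_n`.
-/

set_option autoImplicit false

namespace Cfsg.Agent.Cl.Un

open Finset

section JT

variable {R : Type*} [CommRing R] {n : ℕ}

/-- Complete homogeneous symmetric functions of `x`. -/
noncomputable def hh (x : Fin n → R) (m : ℕ) : R :=
  PowerSeries.coeff m (∏ i, PowerSeries.mk fun k => x i ^ k)

/-- The Jacobi-Trudi matrix. -/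
noncomputable def jt (x : Fin n → R) (l : Fin n → ℕ) : Matrix (Fin n) (Fin n) R :=
  Matrix.of fun k j => if (k : ℕ) ≤ l j then hh x (l j - k) else 0

theorem hh_zero (x : Fin n → R) : hh x 0 = 1 := by
  simp [hh, PowerSeries.coeff_zero_eq_constantCoeff, map_prod]

theorem exists_mul_jt (x : Fin n → R) : ∃ M : Matrix (Fin n) (Fin n) R, ∀ l : Fin n → ℕ,
    (Matrix.of fun i j => x i ^ l j) = M * jt x l := by
  classical
  let E : Fin n → Polynomial R := fun i => ∏ k ∈ univ.erase i, (1 - Polynomial.C (x k) * Polynomial.X)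
  have hE : ∀ i, (E i).natDegree < n := fun i => by
    refine (Polynomial.natDegree_prod_le _ _).trans_lt ((sum_le_card_nsmul _ _ 1 fun k _ => ?_).trans_lt ?_)
    · compute_degree
    · have := i.2
      simp [card_erase_of_mem]
      omega
  have hG : ∀ i, (PowerSeries.mk fun k => x i ^ k) = (E i : PowerSeries R) * ∏ k, PowerSeries.mk fun m => x k ^ m :=
    fun i => by
    rw [← mul_prod_erase univ _ (mem_univ i), mul_left_comm]
    have : (E i : PowerSeries R) = ∏ k ∈ univ.erase i, (1 - PowerSeries.C (x k) * PowerSeries.X) := by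
      rw [← Polynomial.coeToPowerSeries.ringHom_apply, map_prod]
      simp
    rw [this, ← prod_mul_distrib, prod_eq_one, mul_one]
    intro k _
    ext m
    rcases m with _ | m
    · simp
    · simp [sub_mul, mul_assoc, PowerSeries.coeff_succ_X_mul, PowerSeries.coeff_one, pow_succ']
  refine ⟨Matrix.of fun i k => (E i).coeff k, fun l => ?_⟩
  ext i j
  have h := congrArg (PowerSeries.coeff (l j)) (hG i)
  rw [PowerSeries.coeff_mk, PowerSeries.coeff_mul, Finset.Nat.sum_antidiagonal_eq_sum_range_succ_mk] at h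
  simp only [Matrix.mul_apply, Matrix.of_apply, jt, h, Polynomial.coeff_coe]
  rw [Fin.sum_univ_eq_sum_range (fun k => (E i).coeff k * if k ≤ l j then hh x (l j - k) else 0)]
  have h1 : ∀ k, ((E i).coeff k * if k ≤ l j then hh x (l j - k) else 0) =
      if k ∈ range (l j + 1) then (E i).coeff k * hh x (l j - k) else 0 := fun k => by
    simp
  simp only [h1]
  rw [sum_ite_mem]
  refine (sum_subset inter_subset_right fun k hk hk' => ?_).symm
  rw [Polynomial.coeff_eq_zero_of_natDegree_lt, zero_mul]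
  refine (hE i).trans_le (not_lt.1 fun hkn => hk' ?_)
  exact mem_inter.2 ⟨mem_range.2 hkn, hk⟩

/-- The Jacobi-Trudi identity. -/
theorem det_pow_eq (x : Fin n → R) (l : Fin n → ℕ) :
    (Matrix.of fun i j => x i ^ l j).det = (Matrix.of fun i j : Fin n => x i ^ (j : ℕ)).det * (jt x l).det := by
  obtain ⟨M, hM⟩ := exists_mul_jt x
  have h1 : (jt x fun j => (j : ℕ)).det = 1 := by
    rw [Matrix.det_of_isUpperTriangular]
    · simp [jt, hh_zero]
    · intro i j hij
      exact if_neg (not_le.2 hij)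
  rw [hM l, hM fun j => (j : ℕ), Matrix.det_mul, Matrix.det_mul, h1, mul_one]

end JT

section Coeff

open MvPolynomial

variable {n : ℕ}

/-- A function on `Fin n` as an exponent vector. -/
noncomputable abbrev ex (a : Fin n → ℕ) : Fin n →₀ ℕ := Finsupp.equivFunOnFinite.symm a

theorem prod_X_pow (a : Fin n → ℕ) :
    (∏ i, X i ^ a i : MvPolynomial (Fin n) ℂ) = monomial (ex a) 1 := by
  rw [monomial_eq, C_1, one_mul, Finsupp.prod_fintype _ _ (by simp)]
  rfl

theorem coeff_prod_hh (a b : Fin n → ℕ) :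
    coeff (ex a) (∏ j, hh (X : Fin n → MvPolynomial (Fin n) ℂ) (b j)) = Nat.card (Tab a b) := by
  classical
  simp only [hh, PowerSeries.coeff_prod, PowerSeries.coeff_mk]
  rw [prod_univ_sum, coeff_sum]
  have h1 : ∀ L : Fin n → Fin n →₀ ℕ, coeff (ex a) (∏ j, ∏ i, X i ^ L j i : MvPolynomial (Fin n) ℂ) =
      if (fun i => ∑ j, L j i) = a then 1 else 0 := fun L => by
    rw [prod_comm]
    simp only [prod_pow_eq_pow_sum]
    rw [prod_X_pow, coeff_monomial]
    simp
  simp only [h1]
  rw [sum_boole, ← Nat.card_eq_finsetCard]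
  congr 1
  refine Nat.card_congr
    { toFun := fun L => ⟨fun i j => L.1 j i, ?_, ?_⟩
      invFun := fun M => ⟨fun j => ex fun i => M.1 i j, ?_⟩
      left_inv := fun L => by ext; simp
      right_inv := fun M => by ext; simp }
  · exact congrFun (mem_filter.1 L.2).2
  · intro j
    exact (mem_finsuppAntidiag.1 (Fintype.mem_piFinset.1 (mem_filter.1 L.2).1 j)).1
  · simp only [mem_filter, Fintype.mem_piFinset, mem_finsuppAntidiag, subset_univ, and_true]
    exact ⟨M.2.2, funext M.2.1⟩

theorem det_X_pow (l : Fin n → ℕ) :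
    (Matrix.of fun i j => X i ^ l j : Matrix _ _ (MvPolynomial (Fin n) ℂ)).det =
      ∑ σ : Equiv.Perm (Fin n), monomial (ex fun i => l (σ i)) ((Equiv.Perm.sign σ : ℤ) : ℂ) := by
  rw [← Matrix.det_transpose, Matrix.det_apply']
  refine sum_congr rfl fun σ _ => ?_
  simp only [Matrix.transpose_apply, Matrix.of_apply]
  rw [prod_X_pow, ← map_intCast (C : ℂ →+* MvPolynomial (Fin n) ℂ), C_mul_monomial, mul_one]

theorem sum_sign_tab {l m : Fin n → ℕ} (hl : StrictMono l) (hm : StrictMono m) :
    ∑ κ : Equiv.Perm (Fin n), ∑ τ : Equiv.Perm (Fin n),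
      (if ∀ i, (κ i : ℕ) ≤ l i then if ∀ i, (τ i : ℕ) ≤ m i then
        ((Equiv.Perm.sign κ : ℤ) : ℂ) * ((Equiv.Perm.sign τ : ℤ) : ℂ) *
          Nat.card (Tab (fun i => l i - κ i) fun i => m i - τ i) else 0 else 0) = if l = m then 1 else 0 := by
  classical
  have h := congrArg (coeff (ex l)) (det_pow_eq (X : Fin n → MvPolynomial (Fin n) ℂ) m)
  rw [det_X_pow, det_X_pow, sum_mul, coeff_sum, coeff_sum] at h
  refine Eq.trans (sum_congr rfl fun κ _ => ?_) (h.symm.trans ?_)
  · rw [coeff_monomial_mul']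
    have e : (ex fun i => (κ i : ℕ)) ≤ ex l ↔ ∀ i, (κ i : ℕ) ≤ l i := by simp [Finsupp.le_def]
    simp only [e]
    split_ifs with hκ
    · rw [Matrix.det_apply', coeff_sum, mul_sum]
      refine sum_congr rfl fun τ _ => ?_
      rw [← map_intCast (C : ℂ →+* MvPolynomial (Fin n) ℂ), coeff_C_mul]
      split_ifs with hτ
      · have e2 : ex l - (ex fun i => (κ i : ℕ)) = ex fun i => l i - κ i := by ext; simp
        simp only [jt, Matrix.of_apply, hτ, if_true]
        rw [e2, coeff_prod_hh, mul_assoc]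
      · obtain ⟨i, hi⟩ := not_forall.1 hτ
        rw [prod_eq_zero (mem_univ i) (by simp [jt, hi])]
        simp
    · simp
  · have key : ∀ σ : Equiv.Perm (Fin n), (fun i => m (σ i)) = l → σ = 1 := fun σ e => by
      have h1 : StrictMono σ := fun i j hij => hm.lt_iff_lt.1 (by
        have := hl hij
        rwa [← e] at this)
      ext i
      exact congrArg Fin.val h1.apply_eq
    simp only [coeff_monomial, EmbeddingLike.apply_eq_iff_eq]
    rw [sum_eq_single 1 (fun σ _ hσ => if_neg fun e => hσ (key σ e)) (by simp)]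
    simp [eq_comm]

end Coeff

variable {F : Type*} [Field F] {n : ℕ}

theorem sum_sub_perm {ν : Fin n → ℕ} (hs : ∑ i, ν i = n) {κ : Equiv.Perm (Fin n)}
    (h : ∀ i, (κ i : ℕ) ≤ ν i + i) : ∑ i, (ν i + i - κ i) = n := by
  rw [sum_tsub_distrib _ fun i _ => h i, sum_add_distrib, hs, Equiv.sum_comp κ fun i => (i : ℕ),
    Nat.add_sub_cancel]

theorem strictMono_add {ν : Fin n → ℕ} (h : Monotone ν) : StrictMono fun i => ν i + i :=
  fun _ _ hij => add_lt_add_of_le_of_lt (h hij.le) hij

theorem classInner_unipotentCharacterGL [Fintype (GL (Fin n) F)] {ν μ : Fin n → ℕ} (hν : Monotone ν)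
    (hνs : ∑ i, ν i = n) (hμ : Monotone μ) (hμs : ∑ i, μ i = n) :
    classInner (unipotentCharacterGL n F ν) (unipotentCharacterGL n F μ) = if ν = μ then 1 else 0 := by
  have h := sum_sign_tab (strictMono_add hν) (strictMono_add hμ)
  have e : ((fun i => ν i + i) = fun i => μ i + i) ↔ ν = μ := by simp [funext_iff]
  simp only [e] at h
  rw [← h]
  simp only [classInner, unipotentCharacterGL, map_sum, sum_mul_sum]
  rw [sum_comm, mul_sum]
  refine sum_congr rfl fun κ _ => ?_
  rw [sum_comm, mul_sum]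
  refine sum_congr rfl fun τ _ => ?_
  split_ifs with h1 h2
  · rw [← classInner_parabolicGL (F := F) (sum_sub_perm hνs h1) (sum_sub_perm hμs h2), classInner, mul_left_comm]
    congr 1
    rw [mul_sum]
    refine sum_congr rfl fun g _ => ?_
    simp only [map_mul, map_intCast]
    ring
  all_goals simp

theorem isGeneralizedCharacter_unipotentCharacterGL [Finite F] (ν : Fin n → ℕ) :
    IsGeneralizedCharacter (GL (Fin n) F) (unipotentCharacterGL n F ν) := by
  classical
  have := Fintype.ofFinite (GL (Fin n) F)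
  have e : unipotentCharacterGL n F ν = ∑ κ : Equiv.Perm (Fin n), if ∀ i, (κ i : ℕ) ≤ ν i + i then
      ((Equiv.Perm.sign κ : ℤ) : ℂ) • fixedPointCharacter (parabolicGL n F fun i => ν i + i - κ i) else 0 := by
    funext g
    simp only [unipotentCharacterGL, Finset.sum_apply, ite_apply, Pi.smul_apply, smul_eq_mul, Pi.zero_apply]
  rw [e]
  refine IsGeneralizedCharacter.sum fun κ _ => ?_
  split_ifs
  · exact (Chev.isCharacter_fixedPointCharacter _).isGeneralizedCharacter.intCast_smul _
  · exact IsGeneralizedCharacter.zero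

section Degree

/-- The `q`-integer. -/
def qn (q r : ℕ) : ℕ := ∑ l ∈ range r, q ^ l

/-- The `q`-factorial. -/
def qf (q r : ℕ) : ℕ := ∏ j ∈ range r, qn q (j + 1)

theorem qf_mul_pow (q : ℕ) {m k : ℕ} (h : k ≤ m) :
    (qf q m : ℂ) * (q : ℂ) ^ (∑ t ∈ range k, t) = qf q (m - k) * ∏ t ∈ range k, ((qn q m : ℂ) - qn q t) := by
  induction k with
  | zero => simp
  | succ k ih =>
    obtain ⟨d, rfl⟩ : ∃ d, m = k + (d + 1) := ⟨m - k - 1, by omega⟩
    have e1 : (qn q (k + (d + 1)) : ℂ) - qn q k = (q : ℂ) ^ k * qn q (d + 1) := by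
      simp only [qn, sum_range_add _ k, pow_add]
      push_cast
      rw [mul_sum]
      ring
    rw [sum_range_succ, prod_range_succ, pow_add, ← mul_assoc, ih (by omega), e1, Nat.add_sub_cancel_left,
      show k + (d + 1) - (k + 1) = d by omega, qf, prod_range_succ, ← qf]
    push_cast
    ring

theorem sum_sum_range (n : ℕ) : ∑ k ∈ range n, ∑ t ∈ range k, t = n * (n - 1) * (n - 2) / 6 := by
  refine (Nat.div_eq_of_eq_mul_left (by norm_num) ?_).symm
  rcases n with _ | _ | n
  · simp
  · simp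
  · induction n with
    | zero => simp [sum_range_succ]
    | succ n ih =>
      rw [sum_range_succ, add_mul _ _ 6, ← ih]
      have := sum_range_id_mul_two (n + 1 + 1)
      simp only [Nat.add_sub_cancel, show n + 1 + 1 - 2 = n by omega, show n + 1 + 1 + 1 - 2 = n + 1 by omega] at *
      nlinarith

theorem degree_unipotentCharacterGL [Fintype F] {q : ℕ} (hq : Fintype.card F = q) {ν : Fin n → ℕ}
    (hs : ∑ i, ν i = n) :
    unipotentCharacterGL n F ν 1 * (q : ℂ) ^ (n * (n - 1) * (n - 2) / 6) * ∏ i : Fin n, (qf q (ν i + i) : ℂ) =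
      qf q n * ∏ i : Fin n, ∏ j ∈ Ioi i, ((qn q (ν j + j) : ℂ) - qn q (ν i + i)) := by
  let P : Fin n → Polynomial ℂ := fun k => ∏ t ∈ range k, (Polynomial.X - Polynomial.C (qn q t : ℂ))
  rw [← Matrix.det_vandermonde, Matrix.det_eval_matrixOfPolynomials_eq_det_vandermonde _ P
    (fun k => (Polynomial.natDegree_finsetProd_X_sub_C_eq_card _ _).trans (card_range _))
    (fun k => Polynomial.monic_prod_X_sub_C _ _), ← Matrix.det_transpose, Matrix.det_apply', ← sum_sum_range,
    ← Fin.sum_univ_eq_sum_range (fun k => ∑ t ∈ range k, t), unipotentCharacterGL, sum_mul, sum_mul, mul_sum]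
  refine sum_congr rfl fun κ _ => ?_
  simp only [Matrix.transpose_apply, Matrix.of_apply, P, Polynomial.eval_prod, Polynomial.eval_sub, Polynomial.eval_X,
    Polynomial.eval_C]
  split_ifs with h
  · have h1 := S2420.result hq _ (sum_sub_perm hs h)
    have h2 : fixedPointCharacter (parabolicGL n F fun i => ν i + i - κ i) 1 =
        Nat.card (GL (Fin n) F ⧸ parabolicGL n F fun i => ν i + i - κ i) := by
      simp [fixedPointCharacter]
    change _ * ∏ i, qf q (ν i + i - κ i) = qf q n at h1
    rw [h2, ← h1, ← Equiv.sum_comp κ fun k : Fin n => ∑ t ∈ range k, t, ← prod_pow_eq_pow_sum, mul_assoc,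
      ← prod_mul_distrib]
    simp only [mul_comm ((q : ℂ) ^ _), qf_mul_pow q (h _), prod_mul_distrib]
    push_cast
    ring
  · obtain ⟨i, hi⟩ := not_forall.1 h
    rw [prod_eq_zero (f := fun i => ∏ t ∈ range (κ i), ((qn q (ν i + i) : ℂ) - qn q t)) (mem_univ i)
      (prod_eq_zero (mem_range.2 (not_le.1 hi)) (sub_self _))]
    simp

theorem isIrrCharacter_unipotentCharacterGL [Fintype F] {ν : Fin n → ℕ} (hν : Monotone ν) (hs : ∑ i, ν i = n) :
    IsIrrCharacter (GL (Fin n) F) (unipotentCharacterGL n F ν) := by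
  classical
  refine (isGeneralizedCharacter_unipotentCharacterGL ν).isIrr_of_norm_one
    ((classInner_unipotentCharacterGL hν hs hν hs).trans (if_pos rfl)) ?_
  have h := degree_unipotentCharacterGL (F := F) rfl hs
  have hq : 0 < Fintype.card F := Fintype.card_pos
  generalize Fintype.card F = q at h hq
  have hf : ∀ r, 0 < qf q r := fun r => prod_pos fun j _ => sum_pos (fun _ _ => pow_pos hq _) (by simp)
  have e : ∀ i : Fin n, ∀ j ∈ Ioi i, ((qn q (ν j + j) : ℂ) - qn q (ν i + i)) =
      ((qn q (ν j + j) - qn q (ν i + i) : ℕ) : ℂ) := fun i j hj =>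
    (Nat.cast_sub (sum_le_sum_of_subset (range_subset_range.2 (strictMono_add hν (mem_Ioi.1 hj)).le))).symm
  rw [prod_congr rfl fun i _ => prod_congr rfl (e i), mul_assoc] at h
  have h0 : (0 : ℝ) < (q ^ (n * (n - 1) * (n - 2) / 6) * ∏ i : Fin n, qf q (ν i + i) : ℕ) :=
    Nat.cast_pos.2 (mul_pos (pow_pos hq _) (prod_pos fun i _ => hf _))
  have h1 := congrArg Complex.re h
  norm_cast at h1
  rw [Complex.mul_re, Complex.natCast_re, Complex.natCast_im, mul_zero, sub_zero] at h1
  exact nonneg_of_mul_nonneg_left (h1 ▸ Nat.cast_nonneg _) h0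

end Degree

end Cfsg.Agent.Cl.Un
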