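import Mathlib
import Cfsg.Agent.Cl.ClassCyc
import Cfsg.Agent.Cl.UOrder

/-!
# Orders of centralisers of unipotent elements in `GL` and `GU`
-/

set_option autoImplicit false

namespace Cfsg.Agent.Cl.Cls

open Polynomial Module Matrix

section Fibres

variable {F : Type*} [Field F] {E B : Type*} [AddCommGroup E] [Module F E] [AddCommGroup B]
  [Module F B] [FiniteDimensional F E] [FiniteDimensional F B]

omit [FiniteDimensional F B] in
theorem card_subtype_comp_linear (ρ : E →ₗ[F] B) (hρ : Function.Surjective ρ) (Q : B → Prop) :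
    Nat.card {c : E // Q (ρ c)} =
      Nat.card {b // Q b} * Nat.card F ^ (finrank F E - finrank F B) := by
  have h1 := ρ.finrank_range_add_finrank_ker
  rw [LinearMap.range_eq_top.2 hρ, finrank_top] at h1
  rw [show finrank F E - finrank F B = finrank F (LinearMap.ker ρ) by omega,
    ← Module.natCard_eq_pow_finrank]
  exact card_subtype_comp ρ.toAddMonoidHom hρ Q

theorem card_fixed_subtype_comp {σ : F →+* F} {q : ℕ} (h : UField σ q) (ρ : E →ₗ[F] B)
    (hρ : Function.Surjective ρ) (τ : E →+ E) (hτ : ∀ v, τ (τ v) = v)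
    (hτσ : ∀ (a : F) (v : E), τ (a • v) = σ a • τ v) (θ : B →+ B) (hθ : ∀ v, θ (θ v) = v)
    (hθσ : ∀ (a : F) (v : B), θ (a • v) = σ a • θ v) (hc : ∀ v, ρ (τ v) = θ (ρ v))
    (Q : B → Prop) : Nat.card {c : E // τ c = c ∧ Q (ρ c)} =
      Nat.card {b // θ b = b ∧ Q b} * q ^ (finrank F E - finrank F B) := by
  let ρ' : τ.eqLocus (AddMonoidHom.id E) →+ θ.eqLocus (AddMonoidHom.id B) :=
    { toFun := fun c => ⟨ρ c.1, (hc c.1).symm.trans (congrArg ρ c.2)⟩
      map_zero' := Subtype.ext (map_zero ρ)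
      map_add' := fun a b => Subtype.ext (map_add ρ a.1 b.1) }
  have hρ' : Function.Surjective ρ' := by
    rintro ⟨b, hb⟩
    obtain ⟨c, rfl⟩ := hρ b
    obtain ⟨z, hz⟩ := h.invol.exists_trace_one
    refine ⟨⟨z • c + τ (z • c), ?_⟩, Subtype.ext ?_⟩
    · change τ _ = z • c + τ (z • c)
      rw [map_add, hτ, add_comm]
    · change ρ (z • c + τ (z • c)) = ρ c
      have hb' : θ (ρ c) = ρ c := hb
      rw [map_add, hc, map_smul, hθσ, hb', ← add_smul, hz, one_smul]
  have h1 := card_eq_mul_card_ker ρ' hρ'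
  have h2 := card_subtype_comp ρ' hρ' fun b => Q b.1
  have h3 : Nat.card (τ.eqLocus (AddMonoidHom.id E)) = q ^ finrank F E :=
    card_fixed_of_card_eq h τ hτ hτσ
  have h4 : Nat.card (θ.eqLocus (AddMonoidHom.id B)) = q ^ finrank F B :=
    card_fixed_of_card_eq h θ hθ hθσ
  have h5 : finrank F B ≤ finrank F E := LinearMap.finrank_le_finrank_of_surjective hρ
  rw [h3, h4, ← Nat.add_sub_cancel' h5, pow_add] at h1
  rw [← Nat.eq_of_mul_eq_mul_left (pow_pos (by have := h.two_le; omega) _) h1] at h2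
  rw [← Nat.card_congr (Equiv.subtypeSubtypeEquivSubtypeInter (fun c => τ c = c) fun c => Q (ρ c)),
    ← Nat.card_congr (Equiv.subtypeSubtypeEquivSubtypeInter (fun c => θ c = c) Q)]
  exact h2

end Fibres

section Jordan

variable {F : Type*} [Field F] {t : ℕ} {d : Fin t → ℕ}

variable (F d) in
/-- The nilpotent matrix of Jordan type `d`. -/
def jN : Matrix ((k : Fin t) × Fin (d k)) ((k : Fin t) × Fin (d k)) F := jordanTypeMatrix d F - 1

theorem jN_pow_apply (j : ℕ) (a b : (k : Fin t) × Fin (d k)) :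
    (jN F d ^ j) a b = if a.1 = b.1 ∧ (a.2 : ℕ) = b.2 + j then 1 else 0 := by
  have h : jN F d = Matrix.blockDiagonal' fun k => jordanBlock (d k) F - 1 := by
    rw [jN, jordanTypeMatrix, ← Matrix.blockDiagonal'_one, ← Matrix.blockDiagonal'_sub]
    rfl
  obtain ⟨k, a⟩ := a
  obtain ⟨l, b⟩ := b
  rw [h, ← Matrix.blockDiagonal'_pow]
  by_cases hkl : k = l
  · subst hkl
    rw [Matrix.blockDiagonal'_apply_eq, Pi.pow_apply, jordanBlock_sub_one_pow]
    simp
  · rw [Matrix.blockDiagonal'_apply_ne _ _ _ hkl, if_neg fun h => hkl h.1]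

theorem mul_jN_pow_apply {α : Type*} (c : Matrix α ((k : Fin t) × Fin (d k)) F) (j : ℕ) (a : α)
    (l : Fin t) (i : Fin (d l)) :
    (c * jN F d ^ j) a ⟨l, i⟩ = if h : i + j < d l then c a ⟨l, ⟨i + j, h⟩⟩ else 0 := by
  rw [Matrix.mul_apply]
  simp only [jN_pow_apply]
  split_ifs with h
  · rw [Finset.sum_eq_single ⟨l, ⟨i + j, h⟩⟩]
    · simp
    · rintro ⟨k, b⟩ - hb
      rw [if_neg, mul_zero]
      rintro ⟨rfl, h2⟩
      exact hb (Sigma.ext rfl (heq_of_eq (Fin.ext h2)))
    · simp
  · refine Finset.sum_eq_zero ?_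
    rintro ⟨k, b⟩ -
    rw [if_neg, mul_zero]
    rintro ⟨rfl, h2⟩
    exact h (h2 ▸ b.2)

theorem jN_pow_mul_apply {α : Type*} (c : Matrix ((k : Fin t) × Fin (d k)) α F) (j : ℕ)
    (k : Fin t) (i : Fin (d k)) (b : α) :
    (jN F d ^ j * c) ⟨k, i⟩ b =
      if j ≤ i then c ⟨k, ⟨i - j, lt_of_le_of_lt (Nat.sub_le _ _) i.2⟩⟩ b else 0 := by
  rw [Matrix.mul_apply]
  simp only [jN_pow_apply]
  split_ifs with h
  · rw [Finset.sum_eq_single ⟨k, ⟨i - j, lt_of_le_of_lt (Nat.sub_le _ _) i.2⟩⟩]
    · simp [h]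
    · rintro ⟨l, a⟩ - ha
      rw [if_neg, zero_mul]
      rintro ⟨rfl, h2⟩
      exact ha (Sigma.ext rfl (heq_of_eq (Fin.ext (Nat.eq_sub_of_add_eq h2.symm))))
    · simp
  · refine Finset.sum_eq_zero ?_
    rintro ⟨l, a⟩ -
    rw [if_neg, zero_mul]
    rintro ⟨rfl, h2⟩
    exact h (h2 ▸ Nat.le_add_left _ _)

/-- The matrices commuting with a given one. -/
def commSub {ι : Type*} [Fintype ι] (A : Matrix ι ι F) : Submodule F (Matrix ι ι F) where
  carrier := {c | Commute A c}
  zero_mem' := Commute.zero_right A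
  add_mem' := Commute.add_right
  smul_mem' := fun a _ h => h.smul_right a

variable (hd : ∀ k, 1 ≤ d k)

/-- The first index of a block. -/
def jz (k : Fin t) : (k : Fin t) × Fin (d k) := ⟨k, ⟨0, hd k⟩⟩

include hd

theorem edM_jN : edM (jN F d) = jt 0 (Finset.univ.val.map d) :=
  edM_eq_jt_of_rank rfl (edM_jordanTypeMatrix hd) fun k => by
    rw [aeval_X_sub_C_zero, aeval_X_sub_C_one, jN]

theorem apply_eq_of_commute_jN {c : Matrix _ _ F} (hc : Commute (jN F d) c) (k l : Fin t)
    (i : Fin (d k)) (j : Fin (d l)) : c ⟨k, i⟩ ⟨l, j⟩ =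
      if (j : ℕ) ≤ i then c ⟨k, ⟨i - j, lt_of_le_of_lt (Nat.sub_le _ _) i.2⟩⟩ (jz hd l) else 0 := by
  rw [← jN_pow_mul_apply, (hc.pow_left j).eq, jz, mul_jN_pow_apply, dif_pos (by simp)]
  simp

theorem finrank_commSub_jN : finrank F (commSub (jN F d)) = ∑ l, ∑ k, min (d k) (d l) := by
  let φ : commSub (jN F d) →ₗ[F] ∀ l, LinearMap.ker (Matrix.toLin' (jN F d ^ d l)) :=
    { toFun := fun c l => ⟨fun a => c.1 a (jz hd l), funext fun a => by
        change (jN F d ^ d l * c.1) a (jz hd l) = 0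
        rw [(Commute.pow_left c.2 _).eq, jz, mul_jN_pow_apply, dif_neg (by simp)]⟩
      map_add' := fun _ _ => rfl
      map_smul' := fun _ _ => rfl }
  have hφ : Function.Bijective φ := by
    refine ⟨fun c c' h => Subtype.ext ?_, fun v => ?_⟩
    · ext ⟨k, i⟩ ⟨l, j⟩
      rw [apply_eq_of_commute_jN hd c.2, apply_eq_of_commute_jN hd c'.2]
      split_ifs
      · exact congrFun (congrArg Subtype.val (congrFun h l)) _
      · rfl
    · refine ⟨⟨Matrix.of fun a b => (jN F d ^ (b.2 : ℕ) *ᵥ (v b.1).1) a, ?_⟩, ?_⟩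
      · change _ * _ = _ * _
        ext a ⟨l, j⟩
        have h1 := mul_jN_pow_apply
          (Matrix.of fun a (b : (k : Fin t) × Fin (d k)) => (jN F d ^ (b.2 : ℕ) *ᵥ (v b.1).1) a)
          1 a l j
        rw [pow_one] at h1
        rw [h1]
        change (jN F d *ᵥ (jN F d ^ (j : ℕ) *ᵥ (v l).1)) a = _
        rw [Matrix.mulVec_mulVec, ← pow_succ']
        split_ifs with h
        · rfl
        · rw [show (j : ℕ) + 1 = d l by have := j.2; omega]
          exact congrFun (v l).2 a
      · funext l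
        ext a
        simp [φ, jz]
  rw [(LinearEquiv.ofBijective φ hφ).finrank_eq, Module.finrank_pi_fintype]
  refine Finset.sum_congr rfl fun l _ => ?_
  have := finrank_ker_pow_of_edM_eq_jt (edM_jN (F := F) hd) (d l)
  rw [aeval_X_sub_C_zero, Multiset.map_map] at this
  exact this

theorem submatrix_jz_mul {c : Matrix _ _ F} (hc : Commute (jN F d) c) (c' : Matrix _ _ F) :
    (c * c').submatrix (jz hd) (jz hd) =
      c.submatrix (jz hd) (jz hd) * c'.submatrix (jz hd) (jz hd) := by
  ext k l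
  simp only [Matrix.submatrix_apply, Matrix.mul_apply, Fintype.sum_sigma]
  refine Finset.sum_congr rfl fun m _ => ?_
  rw [Finset.sum_eq_single (⟨0, hd m⟩ : Fin (d m)) (fun j _ hj => ?_) (by simp)]
  · rfl
  rw [jz, apply_eq_of_commute_jN hd hc, if_neg fun h => hj (Fin.ext (Nat.le_zero.1 h)), zero_mul]

theorem blockTriangular_submatrix_jz {c : Matrix _ _ F} (hc : Commute (jN F d) c) :
    (c.submatrix (jz hd) (jz hd)).BlockTriangular d := fun k l h => by
  have h1 := jN_pow_mul_apply c (d l) k ⟨d l, h⟩ (jz hd l)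
  rw [(hc.pow_left _).eq, jz, mul_jN_pow_apply, dif_neg (by simp), if_pos le_rfl] at h1
  simpa [jz] using h1.symm

theorem isUnit_iff_submatrix_jz {c : Matrix _ _ F} (hc : Commute (jN F d) c) :
    IsUnit c ↔ IsUnit (c.submatrix (jz hd) (jz hd)) := by
  have hz : Function.Injective (jz hd) := fun k l h => congrArg Sigma.fst h
  constructor
  · intro h
    obtain ⟨c', h'⟩ := h.exists_right_inv
    exact IsUnit.of_mul_eq_one (c'.submatrix (jz hd) (jz hd))
      (by rw [← submatrix_jz_mul hd hc, h', Matrix.submatrix_one _ hz])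
  · intro h
    have h0 : ∀ v, v ᵥ* c = 0 → v ᵥ* jN F d = 0 → v = 0 := fun v h1 h2 => by
      have h3 : ∀ (k : Fin t) (i : Fin (d k)), i ≠ ⟨0, hd k⟩ → v ⟨k, i⟩ = 0 := fun k i hi => by
        have h4 : (i : ℕ) ≠ 0 := fun h => hi (Fin.ext h)
        have h5 := mul_jN_pow_apply (Matrix.replicateRow Unit v) 1 () k
          ⟨i - 1, lt_of_le_of_lt (Nat.sub_le _ _) i.2⟩
        rw [dif_pos (by have := i.2; simp only; omega), pow_one] at h5
        have h6 : (⟨i - 1 + 1, by have := i.2; omega⟩ : Fin (d k)) = i :=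
          Fin.ext (Nat.sub_add_cancel (Nat.pos_of_ne_zero h4))
        simp only [h6] at h5
        exact h5.symm.trans (congrFun h2 _)
      have h4 : (v ∘ jz hd) ᵥ* c.submatrix (jz hd) (jz hd) = 0 := by
        funext l
        refine Eq.trans ?_ (congrFun h1 (jz hd l))
        simp only [Matrix.vecMul, dotProduct, Fintype.sum_sigma, Matrix.submatrix_apply]
        refine Finset.sum_congr rfl fun m _ => ?_
        rw [Finset.sum_eq_single (⟨0, hd m⟩ : Fin (d m))
          (fun j _ hj => by rw [h3 m j hj, zero_mul]) (by simp)]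
        rfl
      have h5 := Matrix.vecMul_injective_iff_isUnit.2 h (h4.trans (Matrix.zero_vecMul _).symm)
      funext ⟨k, i⟩
      by_cases hi : i = ⟨0, hd k⟩
      · subst hi
        exact congrFun h5 k
      · exact h3 k i hi
    have h1 : ∀ j v, v ᵥ* c = 0 → v ᵥ* jN F d ^ j = 0 → v = 0 := fun j => by
      induction j with
      | zero => exact fun v _ h => by simpa using h
      | succ j ih =>
        refine fun v h1 h2 => h0 v h1 (ih _ ?_ ?_)
        · rw [Matrix.vecMul_vecMul, hc.eq, ← Matrix.vecMul_vecMul, h1, Matrix.zero_vecMul]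
        · rw [Matrix.vecMul_vecMul, ← pow_succ', h2]
    have h2 := pow_card_eq_zero_of_edM_eq_jt (edM_jN (F := F) hd)
    rw [aeval_X_sub_C_zero] at h2
    rw [← Matrix.vecMul_injective_iff_isUnit]
    exact (injective_iff_map_eq_zero (Matrix.vecMulLinear c)).2 fun v hv =>
      h1 _ v hv (h2 ▸ Matrix.vecMul_zero v)

/-- The diagonal blocks of the reduction of a matrix commuting with the nilpotent matrix. -/
def jRed (s : ℕ) : commSub (jN F d) →ₗ[F]
    ∀ i : Fin s, Matrix {k // d k = i} {k // d k = i} F where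
  toFun c i := (c.1.submatrix (jz hd) (jz hd)).toSquareBlock d i
  map_add' _ _ := rfl
  map_smul' _ _ := rfl

theorem isUnit_iff_jRed {s : ℕ} (hs : ∀ k, d k < s) (c : commSub (jN F d)) :
    IsUnit c.1 ↔ ∀ i, IsUnit (jRed hd s c i) := by
  rw [isUnit_iff_submatrix_jz hd c.2, Matrix.isUnit_iff_isUnit_det,
    (blockTriangular_submatrix_jz hd c.2).det, isUnit_iff_ne_zero, Finset.prod_ne_zero_iff]
  constructor
  · intro h i
    by_cases hi : (i : ℕ) ∈ Finset.univ.image d
    · exact (Matrix.isUnit_iff_isUnit_det _).2 (isUnit_iff_ne_zero.2 (h i hi))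
    · have : IsEmpty {k // d k = i} := ⟨fun k => hi (Finset.mem_image.2 ⟨k.1, by simp, k.2⟩)⟩
      exact isUnit_of_subsingleton _
  · intro h a ha
    obtain ⟨k, -, rfl⟩ := Finset.mem_image.1 ha
    exact ((Matrix.isUnit_iff_isUnit_det _).1 (h ⟨d k, hs k⟩)).ne_zero

theorem jRed_surjective {s : ℕ} (hs : ∀ k, d k < s) :
    Function.Surjective (jRed (F := F) hd s) := fun M => by
  let M' : Matrix (Fin t) (Fin t) F := Matrix.of fun k l =>
    if h : d k = d l then M ⟨d l, hs l⟩ ⟨k, h⟩ ⟨l, rfl⟩ else 0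
  refine ⟨⟨Matrix.of fun a b => if (a.2 : ℕ) = b.2 then M' a.1 b.1 else 0, ?_⟩, ?_⟩
  · change _ * _ = _ * _
    ext ⟨k, i⟩ ⟨l, j⟩
    conv_lhs => rw [← pow_one (jN F d)]
    conv_rhs => rw [← pow_one (jN F d)]
    rw [jN_pow_mul_apply, mul_jN_pow_apply]
    simp only [Matrix.of_apply]
    by_cases h : d k = d l
    · have := i.2
      split_ifs <;> first | rfl | omega
    · simp [M', h]
  · funext ⟨i, hi⟩
    ext ⟨k, hk⟩ ⟨l, hl⟩
    obtain rfl : i = d l := hl.symm
    have hk' : d k = d l := hk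
    simp [jRed, M', jz, Matrix.toSquareBlock_def, hk']

omit hd in
theorem card_subtype_fiber (i : ℕ) :
    Fintype.card {k // d k = i} = (Finset.univ.filter fun k => d k = i).card :=
  Fintype.card_subtype _

omit hd in
theorem sum_min_eq {s : ℕ} (hs : ∀ k, d k < s) : ∑ l, ∑ k, min (d k) (d l) =
    2 * (∑ i ∈ Finset.range s, ∑ j ∈ Finset.range s, if i < j then
      i * (Finset.univ.filter fun k => d k = i).card * (Finset.univ.filter fun k => d k = j).card
      else 0) + ∑ i ∈ Finset.range s, i * (Finset.univ.filter fun k => d k = i).card ^ 2 := by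
  have h : ∀ f : ℕ → ℕ, ∑ k, f (d k) =
      ∑ i ∈ Finset.range s, (Finset.univ.filter fun k => d k = i).card * f i := fun f => by
    rw [← Finset.sum_fiberwise_of_maps_to (g := d) (t := Finset.range s)
      fun k _ => Finset.mem_range.2 (hs k)]
    refine Finset.sum_congr rfl fun i _ => ?_
    rw [Finset.sum_congr rfl fun k hk => congrArg f (Finset.mem_filter.1 hk).2, Finset.sum_const,
      smul_eq_mul]
  set a : ℕ → ℕ := fun i => (Finset.univ.filter fun k => d k = i).card with ha
  rw [h fun j => ∑ k, min (d k) j, Finset.sum_congr rfl fun j _ => by rw [h fun i => min i j]]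
  have h2 : ∑ i ∈ Finset.range s, i * a i ^ 2 =
      ∑ i ∈ Finset.range s, ∑ j ∈ Finset.range s, if i = j then i * a i * a j else 0 :=
    Finset.sum_congr rfl fun i hi => by rw [Finset.sum_ite_eq, if_pos hi, sq, mul_assoc]
  change ∑ j ∈ Finset.range s, a j * ∑ i ∈ Finset.range s, a i * min i j =
    2 * (∑ i ∈ Finset.range s, ∑ j ∈ Finset.range s, if i < j then i * a i * a j else 0) +
      ∑ i ∈ Finset.range s, i * a i ^ 2
  rw [h2, two_mul]
  nth_rewrite 1 [Finset.sum_comm]
  simp only [← Finset.sum_add_distrib, Finset.mul_sum]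
  refine Finset.sum_congr rfl fun j _ => Finset.sum_congr rfl fun i _ => ?_
  rcases lt_trichotomy i j with h | rfl | h
  · simp [h, h.le, h.not_gt, h.ne']
    ring
  · simp
    ring
  · simp [h, h.le, h.not_gt, h.ne]
    ring

theorem finrank_commSub_sub {s : ℕ} (hs : ∀ k, d k < s) : finrank F (commSub (jN F d)) -
      finrank F (∀ i : Fin s, Matrix {k // d k = i} {k // d k = i} F) =
    2 * (∑ i ∈ Finset.range s, ∑ j ∈ Finset.range s, if i < j then
      i * (Finset.univ.filter fun k => d k = i).card * (Finset.univ.filter fun k => d k = j).card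
      else 0) +
      ∑ i ∈ Finset.range s, (i - 1) * (Finset.univ.filter fun k => d k = i).card ^ 2 := by
  rw [finrank_commSub_jN hd, sum_min_eq hs, Module.finrank_pi_fintype]
  simp only [Module.finrank_matrix, card_subtype_fiber, Module.finrank_self, mul_one]
  rw [Fin.sum_univ_eq_sum_range fun i => (Finset.univ.filter fun k => d k = i).card *
    (Finset.univ.filter fun k => d k = i).card]
  refine Nat.sub_eq_of_eq_add ?_
  rw [add_assoc, ← Finset.sum_add_distrib]
  refine congrArg _ (Finset.sum_congr rfl fun i _ => ?_)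
  rcases i with _ | i
  · rw [Finset.filter_eq_empty_iff.2 fun k _ => by have := hd k; omega]
    simp
  · rw [Nat.add_sub_cancel]
    ring

theorem card_isUnit_commute_jN {s : ℕ} (hs : ∀ k, d k < s) :
    Nat.card {c : Matrix _ _ F // IsUnit c ∧ Commute (jN F d) c} =
      (∏ i : Fin s, Nat.card (GL {k // d k = i} F)) * Nat.card F ^ (finrank F (commSub (jN F d)) -
      finrank F (∀ i : Fin s, Matrix {k // d k = i} {k // d k = i} F)) := by
  have h1 := card_subtype_comp_linear _ (jRed_surjective (F := F) hd hs) fun M => ∀ i, IsUnit (M i)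
  rw [Nat.card_congr (Equiv.subtypePiEquivPi (p := fun _ => IsUnit)), Nat.card_pi] at h1
  simp only [card_isUnit] at h1
  rw [← h1]
  refine Nat.card_congr ((Equiv.subtypeEquivRight fun c => and_comm).trans
    ((Equiv.subtypeSubtypeEquivSubtypeInter _ _).symm.trans
      (Equiv.subtypeEquivRight fun c => isUnit_iff_jRed hd hs c)))

variable {σ : F →+* F}

variable (d) in
/-- Reversal of the order inside every block. -/
def jRev : Equiv.Perm ((k : Fin t) × Fin (d k)) := Equiv.sigmaCongrRight fun _ => Fin.revPerm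

omit hd in
theorem jRev_jRev (a : (k : Fin t) × Fin (d k)) : jRev d (jRev d a) = a := by
  obtain ⟨k, i⟩ := a
  simp [jRev]

omit hd in
theorem uStar_jN_submatrix : (uStar σ (jN F d)).submatrix (jRev d) (jRev d) = jN F d := by
  ext ⟨k, i⟩ ⟨l, j⟩
  have h1 := jN_pow_apply (F := F) 1 (jRev d ⟨l, j⟩) (jRev d ⟨k, i⟩)
  have h2 := jN_pow_apply (F := F) 1 ⟨k, i⟩ ⟨l, j⟩
  rw [pow_one] at h1 h2
  rw [Matrix.submatrix_apply, uStar_apply, h1, h2, apply_ite σ, map_one, map_zero]
  refine if_congr (?_ : l = k ∧ (j.rev : ℕ) = i.rev + 1 ↔ k = l ∧ (i : ℕ) = j + 1) rfl rfl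
  rw [eq_comm]
  refine and_congr_right ?_
  rintro rfl
  have := i.2
  have := j.2
  simp only [Fin.val_rev]
  omega

variable (σ d) in
/-- The adjoint for the standard invariant form of the nilpotent matrix. -/
def jStar : commSub (jN F d) →+ commSub (jN F d) where
  toFun c := ⟨(uStar σ c.1).submatrix (jRev d) (jRev d), by
    obtain ⟨c, hc⟩ := c
    have h : (uStar σ (jN F d)).submatrix (jRev d) (jRev d) * (uStar σ c).submatrix (jRev d) (jRev d) =
        (uStar σ c).submatrix (jRev d) (jRev d) * (uStar σ (jN F d)).submatrix (jRev d) (jRev d) := by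
      rw [Matrix.submatrix_mul_equiv, Matrix.submatrix_mul_equiv, ← uStar_mul, ← uStar_mul,
        Commute.eq hc]
    rwa [uStar_jN_submatrix] at h⟩
  map_zero' := Subtype.ext (by ext; simp [uStar_apply])
  map_add' _ _ := Subtype.ext (by ext; simp [uStar_apply])

theorem jRed_jStar (s : ℕ) (c : commSub (jN F d)) (i : Fin s) :
    jRed hd s (jStar d σ c) i = uStar σ (jRed hd s c i) := by
  ext ⟨k, hk⟩ ⟨l, hl⟩
  change σ (c.1 ⟨l, Fin.rev ⟨0, hd l⟩⟩ ⟨k, Fin.rev ⟨0, hd k⟩⟩) = σ (c.1 (jz hd l) (jz hd k))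
  rw [apply_eq_of_commute_jN hd c.2, if_pos (by simp [hk, hl]), jz, jz]
  simp [hk, hl]

theorem card_herm_commute_jN {q : ℕ} (h : UField σ q) {s : ℕ} (hs : ∀ k, d k < s) :
    Nat.card {H : Matrix _ _ F //
        uStar σ H = H ∧ IsUnit H ∧ H * jN F d = uStar σ (jN F d) * H} =
      (∏ i : Fin s, Nat.card {H : Matrix {k // d k = i} {k // d k = i} F //
        uStar σ H = H ∧ IsUnit H}) * q ^ (finrank F (commSub (jN F d)) -
      finrank F (∀ i : Fin s, Matrix {k // d k = i} {k // d k = i} F)) := by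
  let θ : (∀ i : Fin s, Matrix {k // d k = i} {k // d k = i} F) →+
      ∀ i : Fin s, Matrix {k // d k = i} {k // d k = i} F :=
    { toFun := fun M i => uStar σ (M i)
      map_zero' := by ext; simp [uStar_apply]
      map_add' := fun _ _ => funext fun _ => uStar_add _ _ }
  have h1 := card_fixed_subtype_comp h _ (jRed_surjective (F := F) hd hs) (jStar d σ)
    (fun c => Subtype.ext (by ext; simp [jStar, uStar_apply, jRev_jRev, h.invol.invol]))
    (fun a c => Subtype.ext (by ext; simp [jStar, uStar_apply])) θ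
    (fun M => funext fun i => uStar_uStar h.invol _) (fun a M => funext fun i => uStar_smul _ _)
    (fun c => funext (jRed_jStar hd s c)) fun M => ∀ i, IsUnit (M i)
  rw [← Nat.card_pi, ← Nat.card_congr (Equiv.subtypePiEquivPi
    (p := fun i (H : Matrix {k // d k = (i : Fin s)} {k // d k = i} F) =>
      uStar σ H = H ∧ IsUnit H)),
    Nat.card_congr (Equiv.subtypeEquivRight (q := fun M => θ M = M ∧ ∀ i, IsUnit (M i))
      fun M => by rw [forall_and, funext_iff]; rfl), ← h1]
  have h2 : ∀ A B : Matrix ((k : Fin t) × Fin (d k)) ((k : Fin t) × Fin (d k)) F,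
      (A * B).submatrix (jRev d) id = A.submatrix (jRev d) (jRev d) * B.submatrix (jRev d) id :=
    fun A B => (Matrix.submatrix_mul_equiv _ _ _ _ _).symm
  have h3 : ∀ A B : Matrix ((k : Fin t) × Fin (d k)) ((k : Fin t) × Fin (d k)) F,
      (A * B).submatrix (jRev d) id = A.submatrix (jRev d) id * B := fun A B => rfl
  have h4 : ∀ A : Matrix ((k : Fin t) × Fin (d k)) ((k : Fin t) × Fin (d k)) F,
      (A.submatrix (jRev d) id).submatrix (jRev d) id = A := fun A => by
    ext
    simp [jRev_jRev]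
  have h5 : ∀ A : Matrix ((k : Fin t) × Fin (d k)) ((k : Fin t) × Fin (d k)) F,
      IsUnit (A.submatrix (jRev d) id) ↔ IsUnit A := fun A =>
    Matrix.isUnit_submatrix_equiv (jRev d) (Equiv.refl _)
  exact Nat.card_congr
    { toFun := fun H => ⟨⟨H.1.submatrix (jRev d) id, by
          change _ * _ = _ * _
          rw [← h3, H.2.2.2, h2, uStar_jN_submatrix]⟩, Subtype.ext (by
          ext a b
          have := congrFun (congrFun H.2.1 (jRev d a)) b
          simpa [jStar, uStar_apply, jRev_jRev] using this),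
          (isUnit_iff_jRed hd hs _).1 ((h5 _).2 H.2.2.1)⟩
      invFun := fun c => ⟨c.1.1.submatrix (jRev d) id, by
          ext a b
          have := congrFun (congrFun (congrArg Subtype.val c.2.1) (jRev d a)) b
          simpa [jStar, uStar_apply, jRev_jRev] using this,
          (h5 _).2 ((isUnit_iff_jRed hd hs _).2 c.2.2), by
          rw [← h3, ← Commute.eq c.1.2, h2]
          congr 1
          conv_lhs => rw [← uStar_jN_submatrix (σ := σ)]
          ext
          simp [jRev_jRev]⟩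
      left_inv := fun H => Subtype.ext (h4 _)
      right_inv := fun c => Subtype.ext (Subtype.ext (h4 _)) }

end Jordan

end Cfsg.Agent.Cl.Cls
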