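import Mathlib
import Cfsg.Agent.Cl.ClassCent

/-!
# Orders of centralisers of unipotent elements in `GL` and `GU`, final formulas
-/

set_option autoImplicit false

namespace Cfsg.Agent.Cl.Cls

open Polynomial Module Matrix

section Hermitian

theorem card_eq_mul_of_fibers {G X : Type*} [Group G] (U : Subgroup G) (f : G → X)
    (hf : Function.Surjective f) (h : ∀ a b, f a = f b ↔ a⁻¹ * b ∈ U) :
    Nat.card G = Nat.card X * Nat.card U := by
  rw [Subgroup.card_eq_card_quotient_mul_card_subgroup U]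
  congr 1
  refine Nat.card_congr (Equiv.ofBijective (Quotient.lift f fun a b hab =>
    (h a b).2 (QuotientGroup.leftRel_apply.1 hab)) ⟨?_, fun x => ?_⟩)
  · rintro ⟨a⟩ ⟨b⟩ hab
    exact Quotient.sound (QuotientGroup.leftRel_apply.2 ((h a b).1 hab))
  · obtain ⟨a, rfl⟩ := hf x
    exact ⟨(a : G ⧸ U), rfl⟩

theorem centralizer_singleton_one {G : Type*} [Group G] :
    Subgroup.centralizer ({1} : Set G) = ⊤ :=
  eq_top_iff.2 fun _ _ => Subgroup.mem_centralizer_singleton_iff.2 (Commute.one_right _)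

variable {F : Type*} [Field F] {σ : F →+* F} {ι κ : Type*} [Fintype ι] [DecidableEq ι]
  [Fintype κ] [DecidableEq κ]

theorem card_centralizer_GL (g : GL ι F) : Nat.card (Subgroup.centralizer ({g} : Set (GL ι F))) =
    Nat.card {c : Matrix ι ι F // IsUnit c ∧ Commute (g : Matrix ι ι F) c} := by
  refine Nat.card_congr (Equiv.ofBijective (fun c => ⟨c.1, c.1.isUnit, congrArg Units.val
    (Subgroup.mem_centralizer_singleton_iff.1 c.2).symm⟩) ⟨fun a b h => ?_, ?_⟩)
  · exact Subtype.ext (Units.ext (congrArg Subtype.val h))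
  · rintro ⟨_, ⟨c, rfl⟩, hc⟩
    exact ⟨⟨c, Subgroup.mem_centralizer_singleton_iff.2 (Units.ext hc.symm)⟩, rfl⟩

/-- Invertible matrices commuting with a unitary matrix act transitively on the invertible
Hermitian ones. -/
theorem card_centralizer_eq_mul {q n : ℕ} (h : UField σ q) (u : GU n F q) :
    Nat.card (Subgroup.centralizer ({(u : GL (Fin n) F)} : Set (GL (Fin n) F))) =
      Nat.card {H : Matrix (Fin n) (Fin n) F // uStar σ H = H ∧ IsUnit H ∧
        Commute ((u : GL (Fin n) F) : Matrix (Fin n) (Fin n) F) H} *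
      Nat.card (Subgroup.centralizer ({u} : Set (GU n F q))) := by
  have := h.finite
  have hu := uStar_eq_inv_of_mem_GU h u.2
  have h1 : ∀ c : Matrix (Fin n) (Fin n) F,
      Commute ((u : GL (Fin n) F) : Matrix (Fin n) (Fin n) F) c →
      Commute ((u : GL (Fin n) F) : Matrix (Fin n) (Fin n) F) (uStar σ c) := fun c hc => by
    have h2 := congrArg (uStar σ) hc.eq
    rw [uStar_mul, uStar_mul, hu] at h2
    simpa using Commute.units_inv_left (u := (u : GL (Fin n) F)⁻¹) h2.symm
  have h2 : ∀ c : Subgroup.centralizer ({(u : GL (Fin n) F)} : Set (GL (Fin n) F)),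
      Commute ((u : GL (Fin n) F) : Matrix (Fin n) (Fin n) F) (c.1 : Matrix (Fin n) (Fin n) F) :=
    fun c => congrArg Units.val (Subgroup.mem_centralizer_singleton_iff.1 c.2).symm
  rw [card_eq_mul_of_fibers ((GU n F q).subgroupOf (Subgroup.centralizer {(u : GL (Fin n) F)}))
    (fun c => (⟨(c.1 : Matrix (Fin n) (Fin n) F) * uStar σ (c.1 : Matrix (Fin n) (Fin n) F), by rw [uStar_mul, uStar_uStar h.invol],
      c.1.isUnit.mul ((isAntiInv_uStar h.invol).antiHom.isUnit c.1.isUnit),
      (h2 c).mul_right (h1 _ (h2 c))⟩ : {H : Matrix (Fin n) (Fin n) F // uStar σ H = H ∧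
        IsUnit H ∧ Commute ((u : GL (Fin n) F) : Matrix (Fin n) (Fin n) F) H}))]
  · congr 1
    exact Nat.card_congr
      { toFun := fun c => ⟨⟨c.1.1, c.2⟩, Subgroup.mem_centralizer_singleton_iff.2
          (Subtype.ext (Subgroup.mem_centralizer_singleton_iff.1 c.1.2))⟩
        invFun := fun c => ⟨⟨c.1.1, Subgroup.mem_centralizer_singleton_iff.2
          (congrArg Subtype.val (Subgroup.mem_centralizer_singleton_iff.1 c.2))⟩, c.1.2⟩
        left_inv := fun _ => rfl
        right_inv := fun _ => rfl }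
  · rintro ⟨H, h3, h4, h5⟩
    obtain ⟨_, ⟨c, rfl⟩, -, h6, h7⟩ := exists_uStar_mul_eq h.invol h4 h3
    exact ⟨⟨c, Subgroup.mem_centralizer_singleton_iff.2 (Units.ext (h7 _ h5).symm)⟩,
      Subtype.ext h6⟩
  · rintro ⟨a, ha⟩ ⟨b, hb⟩
    rw [Subgroup.mem_subgroupOf, mem_GU_iff_uStar h, mul_eq_one_comm, Subtype.ext_iff]
    change a.val * uStar σ a.val = b.val * uStar σ b.val ↔
      (a⁻¹).val * b.val * uStar σ ((a⁻¹).val * b.val) = 1
    have h3 : uStar σ (a : Matrix (Fin n) (Fin n) F) *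
        uStar σ ((a⁻¹ : GL (Fin n) F) : Matrix (Fin n) (Fin n) F) = 1 := by
      rw [← uStar_mul, Units.inv_mul, uStar_one]
    rw [uStar_mul, mul_assoc, Units.inv_mul_eq_iff_eq_mul, mul_one, ← mul_assoc]
    constructor
    · intro h4
      rw [← h4, mul_assoc, h3, mul_one]
    · intro h4
      have h5 := congrArg (· * uStar σ a.val) h4
      simp only [mul_assoc, mul_eq_one_comm.1 h3, mul_one] at h5
      exact h5.symm

theorem herm_transport (h : UInvol σ) {A : Matrix ι ι F} {B : Matrix κ κ F} {P : Matrix κ ι F}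
    {Q : Matrix ι κ F} (hPQ : P * Q = 1) (hQP : Q * P = 1) (hP : P * A = B * P) (H : Matrix κ κ F)
    (hH : uStar σ H = H ∧ IsUnit H ∧ H * B = uStar σ B * H) :
    uStar σ ((P.map σ)ᵀ * H * P) = (P.map σ)ᵀ * H * P ∧ IsUnit ((P.map σ)ᵀ * H * P) ∧
      (P.map σ)ᵀ * H * P * A = uStar σ A * ((P.map σ)ᵀ * H * P) := by
  obtain ⟨h1, h2, h3⟩ := hH
  have hσ : (P.map σ).map σ = P := by ext; simp [h.invol]
  refine ⟨?_, ?_, ?_⟩
  · conv_rhs => rw [← h1]
    simp only [uStar, Matrix.map_mul, Matrix.transpose_mul, Matrix.transpose_map, hσ,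
      Matrix.transpose_transpose, Matrix.mul_assoc]
  · obtain ⟨H', h4⟩ := h2.exists_right_inv
    refine IsUnit.of_mul_eq_one (Q * H' * (Q.map σ)ᵀ) ?_
    rw [Matrix.mul_assoc, Matrix.mul_assoc Q, ← Matrix.mul_assoc P, hPQ, Matrix.one_mul,
      Matrix.mul_assoc, ← Matrix.mul_assoc H, h4, Matrix.one_mul, ← Matrix.transpose_mul,
      ← Matrix.map_mul, hQP, Matrix.map_one _ (map_zero σ) (map_one σ), Matrix.transpose_one]
  · rw [Matrix.mul_assoc, hP, Matrix.mul_assoc, ← Matrix.mul_assoc H, h3, ← Matrix.mul_assoc,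
      ← Matrix.mul_assoc, ← Matrix.mul_assoc, ← Matrix.mul_assoc, uStar, uStar,
      ← Matrix.transpose_mul, ← Matrix.transpose_mul, ← Matrix.map_mul, ← Matrix.map_mul, hP]

omit [DecidableEq κ] in
theorem herm_transport_cancel {P : Matrix κ ι F} {Q : Matrix ι κ F} (hQP : Q * P = 1)
    (H : Matrix ι ι F) : (P.map σ)ᵀ * ((Q.map σ)ᵀ * H * Q) * P = H := by
  rw [← Matrix.mul_assoc, ← Matrix.mul_assoc, ← Matrix.transpose_mul, ← Matrix.map_mul, hQP,
    Matrix.mul_assoc, hQP, Matrix.map_one _ (map_zero σ) (map_one σ), Matrix.transpose_one,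
    Matrix.one_mul, Matrix.mul_one]

theorem exists_intertwiners {A : Matrix ι ι F} {B : Matrix κ κ F} (hAB : edM A = edM B) :
    ∃ (P : Matrix κ ι F) (Q : Matrix ι κ F), P * Q = 1 ∧ Q * P = 1 ∧ P * A = B * P ∧
      Q * B = A * Q := by
  have hc : Fintype.card κ = Fintype.card ι := by
    rw [← sum_natDegree_edM A, ← sum_natDegree_edM B, hAB]
  let e := Fintype.equivOfCardEq hc
  obtain ⟨g, hg⟩ := isConj_iff_edM_eq.2 (hAB.trans (edM_reindex e B).symm)
  obtain ⟨P, Q, hPQ, hQP, hP⟩ : ∃ (P : Matrix κ ι F) (Q : Matrix ι κ F), P * Q = 1 ∧ Q * P = 1 ∧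
      P * A = B * P := by
    refine ⟨(g : Matrix ι ι F).submatrix e id, ((g⁻¹ : GL ι F) : Matrix ι ι F).submatrix id e,
      ?_, ?_, ?_⟩
    · rw [← Equiv.coe_refl, Matrix.submatrix_mul_equiv, Units.mul_inv, Matrix.submatrix_one_equiv]
    · rw [Matrix.submatrix_mul_equiv, Units.inv_mul, Matrix.submatrix_id_id]
    · have h1 : ((g : Matrix ι ι F) * A).submatrix e id =
          (Matrix.reindex e e B * (g : Matrix ι ι F)).submatrix e id := by rw [hg.eq]
      rw [← Matrix.submatrix_mul_equiv (Matrix.reindex e e B) _ _ e] at h1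
      simpa using (show (g : Matrix ι ι F).submatrix e id * A = _ from h1)
  refine ⟨P, Q, hPQ, hQP, hP, ?_⟩
  rw [← Matrix.mul_one (Q * B), ← hPQ, ← Matrix.mul_assoc, Matrix.mul_assoc Q, ← hP,
    ← Matrix.mul_assoc, hQP, Matrix.one_mul]

theorem card_herm_congr (h : UInvol σ) {A : Matrix ι ι F} {B : Matrix κ κ F}
    (hAB : edM A = edM B) :
    Nat.card {H : Matrix ι ι F // uStar σ H = H ∧ IsUnit H ∧ H * A = uStar σ A * H} =
      Nat.card {H : Matrix κ κ F // uStar σ H = H ∧ IsUnit H ∧ H * B = uStar σ B * H} := by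
  obtain ⟨P, Q, hPQ, hQP, hP, hQ⟩ := exists_intertwiners hAB
  exact Nat.card_congr
    { toFun := fun H => ⟨_, herm_transport h hQP hPQ hQ H.1 H.2⟩
      invFun := fun H => ⟨_, herm_transport h hPQ hQP hP H.1 H.2⟩
      left_inv := fun H => Subtype.ext (herm_transport_cancel hQP _)
      right_inv := fun H => Subtype.ext (herm_transport_cancel hPQ _) }

theorem commute_transport {A : Matrix ι ι F} {B : Matrix κ κ F} {P : Matrix κ ι F}
    {Q : Matrix ι κ F} (hPQ : P * Q = 1) (hQP : Q * P = 1) (hP : P * A = B * P)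
    (hQ : Q * B = A * Q) (c : Matrix ι ι F) (hc : IsUnit c ∧ Commute A c) :
    IsUnit (P * c * Q) ∧ Commute B (P * c * Q) := by
  obtain ⟨c', h⟩ := hc.1.exists_right_inv
  refine ⟨IsUnit.of_mul_eq_one (P * c' * Q) ?_, ?_⟩
  · rw [Matrix.mul_assoc, Matrix.mul_assoc P c', ← Matrix.mul_assoc Q, hQP, Matrix.one_mul,
      Matrix.mul_assoc, ← Matrix.mul_assoc c, h, Matrix.one_mul, hPQ]
  · change _ * _ = _ * _
    rw [← Matrix.mul_assoc, ← Matrix.mul_assoc, ← hP, Matrix.mul_assoc P, hc.2.eq,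
      Matrix.mul_assoc _ Q, hQ, Matrix.mul_assoc, Matrix.mul_assoc, Matrix.mul_assoc]

theorem card_isUnit_commute_congr {A : Matrix ι ι F} {B : Matrix κ κ F} (hAB : edM A = edM B) :
    Nat.card {c : Matrix ι ι F // IsUnit c ∧ Commute A c} =
      Nat.card {c : Matrix κ κ F // IsUnit c ∧ Commute B c} := by
  obtain ⟨P, Q, hPQ, hQP, hP, hQ⟩ := exists_intertwiners hAB
  exact Nat.card_congr
    { toFun := fun c => ⟨_, commute_transport hPQ hQP hP hQ c.1 c.2⟩
      invFun := fun c => ⟨_, commute_transport hQP hPQ hQ hP c.1 c.2⟩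
      left_inv := fun c => Subtype.ext (by
        simp only [Matrix.mul_assoc, hQP, Matrix.mul_one]
        rw [← Matrix.mul_assoc, hQP, Matrix.one_mul])
      right_inv := fun c => Subtype.ext (by
        simp only [Matrix.mul_assoc, hPQ, Matrix.mul_one]
        rw [← Matrix.mul_assoc, hPQ, Matrix.one_mul]) }

/-- The exponent of `q` in the order of the centraliser of a unipotent element. -/
def jExp {t : ℕ} (d : Fin t → ℕ) (s : ℕ) : ℕ :=
  2 * (∑ i ∈ Finset.range s, ∑ j ∈ Finset.range s, if i < j then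
    i * (Finset.univ.filter fun k => d k = i).card * (Finset.univ.filter fun k => d k = j).card
    else 0) + ∑ i ∈ Finset.range s, (i - 1) * (Finset.univ.filter fun k => d k = i).card ^ 2

theorem card_isUnit_commute_of_jt {A : Matrix ι ι F} {c : F} {t : ℕ} {d : Fin t → ℕ}
    (hA : edM A = jt c (Finset.univ.val.map d)) {s : ℕ} (hs : ∀ k, d k < s) :
    Nat.card {x : Matrix ι ι F // IsUnit x ∧ Commute A x} = Nat.card F ^ jExp d s *
      ∏ i ∈ Finset.range s, Nat.card (GL (Fin (Finset.univ.filter fun k => d k = i).card) F) := by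
  have hd : ∀ k, 1 ≤ d k := fun k =>
    pos_of_edM_eq_jt hA (Multiset.mem_map_of_mem d (Finset.mem_univ_val k))
  have h1 : edM (aeval A (X - C c)) = edM (jN F d) := by
    rw [edM_jN hd]
    exact edM_eq_jt_of_rank rfl hA fun k => by rw [aeval_X_sub_C_zero]
  rw [jExp, ← finrank_commSub_sub (F := F) hd hs, mul_comm, Finset.prod_range,
    Finset.prod_congr rfl fun (i : Fin s) _ => Nat.card_congr
      (glReindexEquiv F (Fintype.equivFinOfCardEq (card_subtype_fiber (d := d) i)).symm).toEquiv,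
    ← card_isUnit_commute_jN hd hs, ← card_isUnit_commute_congr h1, aeval_X_sub_C']
  refine Nat.card_congr (Equiv.subtypeEquivRight fun x => and_congr_right fun _ => ?_)
  have h2 : Commute (c • (1 : Matrix ι ι F)) x := (Commute.one_left x).smul_left c
  exact ⟨fun h => h.sub_left h2, fun h => by simpa using h.add_left h2⟩

theorem card_centralizer_GL_of_jt {g : GL ι F} {c : F} {t : ℕ} {d : Fin t → ℕ}
    (hg : edM (g : Matrix ι ι F) = jt c (Finset.univ.val.map d)) {s : ℕ} (hs : ∀ k, d k < s) :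
    Nat.card (Subgroup.centralizer ({g} : Set (GL ι F))) = Nat.card F ^ jExp d s *
      ∏ i ∈ Finset.range s, Nat.card (GL (Fin (Finset.univ.filter fun k => d k = i).card) F) := by
  rw [card_centralizer_GL, card_isUnit_commute_of_jt hg hs]

theorem card_herm_mul_uOrd {q : ℕ} (h : UField σ q) {n : ℕ} (hn : Fintype.card ι = n) :
    Nat.card {H : Matrix ι ι F // uStar σ H = H ∧ IsUnit H} * uOrd q n =
      Nat.card (GL (Fin n) F) := by
  have h1 := card_centralizer_eq_mul h (1 : GU n F q)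
  have h2 := card_herm_congr h.invol (A := (1 : Matrix ι ι F)) (B := (1 : Matrix (Fin n) (Fin n) F))
    (by rw [edM_one, edM_one, hn, Fintype.card_fin])
  simp only [uStar_one, mul_one, one_mul, and_true] at h2
  simpa only [OneMemClass.coe_one, Units.val_one, Commute.one_left, and_true,
    centralizer_singleton_one, Subgroup.card_top, h.card_GU, ← h2] using h1.symm

/-- A Cayley transform: a Hermitian nilpotent matrix with the commutant and type of a unitary
unipotent matrix. -/
theorem exists_cayley (h : UInvol σ) {u : Matrix ι ι F} (hu : uStar σ u * u = 1)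
    {s : Multiset ℕ} (hs : edM u = jt 1 s) : ∃ x : Matrix ι ι F, uStar σ x = x ∧ edM x = jt 0 s ∧
      ∀ H, Commute u H ↔ Commute x H := by
  obtain ⟨z, hz⟩ := h.exists_ne
  have hn : IsNilpotent (u - 1) := by
    rw [← aeval_X_sub_C_one, isNilpotent_iff_exists_jt]
    exact ⟨s, hs⟩
  have hc : ∀ H, Commute u H → Commute (z • 1 - σ z • u) H := fun H hH =>
    ((Commute.one_left H).smul_left z).sub_left (hH.smul_left _)
  have hcu : Commute u (u - 1) := (Commute.refl u).sub_right (Commute.one_right u)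
  obtain ⟨w, hw⟩ : IsUnit (z • 1 - σ z • u) := by
    have h1 : z • 1 - σ z • u = (-σ z) • (u - 1) + (z - σ z) • (1 : Matrix ι ι F) := by module
    rw [h1]
    refine (hn.smul _).isUnit_add_right_of_commute ?_
      ((Commute.one_right _).smul_right _)
    rw [← Algebra.algebraMap_eq_smul_one]
    exact (sub_ne_zero.2 hz.symm).isUnit.map _
  have hw1 : Commute (w : Matrix ι ι F) (u - 1) := hw ▸ hc _ hcu
  have hx : ∀ k, ((w⁻¹).val * (u - 1)) ^ k = (w⁻¹ ^ k).val * (u - 1) ^ k := fun k => by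
    rw [hw1.units_inv_left.mul_pow, Units.val_pow_eq_pow_val]
  refine ⟨(w⁻¹).val * (u - 1), ?_, edM_eq_jt_of_rank rfl hs fun k => ?_, fun H => ⟨fun hH =>
    (hw ▸ hc H hH : Commute w.val H).units_inv_left.mul_left (hH.sub_left (Commute.one_left H)),
    fun hH => ?_⟩⟩
  · have h1 : uStar σ w.val * u = -w.val := by
      rw [hw, sub_eq_add_neg, ← neg_smul, uStar_add, uStar_smul, uStar_smul, uStar_one, add_mul,
        smul_mul_assoc, smul_mul_assoc, hu, map_neg, h.invol, one_mul]
      module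
    have h2 : uStar σ (u - 1) * u = -(u - 1) := by
      rw [sub_eq_add_neg, ← neg_one_smul F 1, uStar_add, uStar_smul, uStar_one, add_mul, hu,
        map_neg, map_one, smul_mul_assoc, one_mul]
      module
    have h3 : uStar σ ((w⁻¹).val * (u - 1)) * w.val = u - 1 := by
      rw [← neg_inj, ← mul_neg, ← h1, ← mul_assoc, ← uStar_mul, Units.mul_inv_cancel_left, h2]
    rw [hw1.units_inv_left.eq, Units.eq_mul_inv_iff_mul_eq, ← hw1.units_inv_left.eq, h3]
  · rw [aeval_X_sub_C_zero, aeval_X_sub_C_one, hx, Matrix.rank_mul_eq_right_of_isUnit_det _ _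
      ((Matrix.isUnit_iff_isUnit_det _).1 (w⁻¹ ^ k).isUnit)]
  · set x := (w⁻¹).val * (u - 1) with hxd
    have h1 : u * (1 + σ z • x) = 1 + z • x := by
      have h2 : (z • 1 - σ z • u) * x = u - 1 := by rw [← hw, hxd, Units.mul_inv_cancel_left]
      rw [sub_mul, smul_mul_assoc, smul_mul_assoc, one_mul] at h2
      rw [mul_add, mul_smul_comm, mul_one]
      linear_combination (norm := module) -h2
    have h2 : IsUnit (1 + σ z • x) := by
      obtain ⟨k, hk⟩ := hn
      exact (IsNilpotent.smul ⟨k, by rw [hx, hk, mul_zero]⟩ _).isUnit_one_add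
    have h3 : ∀ a : F, Commute (1 + a • x) H := fun a =>
      (Commute.one_left H).add_left (hH.smul_left a)
    refine h2.mul_right_cancel ?_
    rw [mul_assoc, ← (h3 _).eq, ← mul_assoc, h1, mul_assoc, h1, (h3 _).eq]

theorem card_centralizer_GU_of_jt {q n : ℕ} (h : UField σ q) {u : GU n F q} {t : ℕ}
    {d : Fin t → ℕ}
    (hu : edM ((u : GL (Fin n) F) : Matrix (Fin n) (Fin n) F) = jt 1 (Finset.univ.val.map d))
    {s : ℕ} (hs : ∀ k, d k < s) :
    Nat.card (Subgroup.centralizer ({u} : Set (GU n F q))) = q ^ jExp d s *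
      ∏ i ∈ Finset.range s, uOrd q (Finset.univ.filter fun k => d k = i).card := by
  have := h.finite
  have hd : ∀ k, 1 ≤ d k := fun k =>
    pos_of_edM_eq_jt hu (Multiset.mem_map_of_mem d (Finset.mem_univ_val k))
  have h1 := card_centralizer_eq_mul h u
  obtain ⟨x, hx1, hx2, hx3⟩ := exists_cayley h.invol ((mem_GU_iff_uStar h _).1 u.2) hu
  have h2 := card_herm_congr h.invol (hx2.trans (edM_jN hd).symm)
  rw [card_herm_commute_jN hd h hs, finrank_commSub_sub hd hs, ← jExp, hx1] at h2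
  have h3 := Nat.card_pos (α := Subgroup.centralizer ({(u : GL (Fin n) F)} : Set (GL (Fin n) F)))
  rw [Nat.card_congr (Equiv.subtypeEquivRight (q := fun H => uStar σ H = H ∧ IsUnit H ∧
    H * x = x * H) fun H => by rw [hx3, Commute.symm_iff]; rfl), h2] at h1
  rw [h1] at h3
  refine Nat.eq_of_mul_eq_mul_left (Nat.pos_of_mul_pos_right h3) ?_
  rw [← h1, card_centralizer_GL_of_jt hu hs, h.card, Finset.prod_range, Finset.prod_range,
    Finset.prod_congr rfl fun (i : Fin s) _ =>
      (card_herm_mul_uOrd h (card_subtype_fiber (d := d) i)).symm, Finset.prod_mul_distrib]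
  ring

end Hermitian

end Cfsg.Agent.Cl.Cls
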