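import Mathlib
import Cfsg.Agent.Cl.AutField

/-!
# Matrices fixed modulo scalars by a field automorphism
-/

set_option autoImplicit false

namespace Cfsg.Agent.Cl.Cls

open Matrix Aut

variable {ι : Type*} [Fintype ι] [DecidableEq ι] {F F₀ : Type*} [Field F] [Field F₀]

theorem card_scal_mul_glMap [Nonempty ι] (e : F₀ →+* F) (Z : Subgroup Fˣ) (H : Subgroup (GL ι F₀))
    (Z₀ : Subgroup F₀ˣ) (h1 : ∀ c, c ∈ Z₀ ↔ Units.map (e : F₀ →* F) c ∈ Z)
    (h2 : ∀ c ∈ Z₀, scal ι F₀ c ∈ H) :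
    Nat.card {g : GL ι F // ∃ a ∈ Z, ∃ h ∈ H, scal ι F a * glMap ι e h = g} * Nat.card Z₀ =
      Nat.card Z * Nat.card H := by
  let ψ : Z × H →* GL ι F := MonoidHom.noncommCoprod ((scal ι F).comp Z.subtype)
    ((glMap ι e).comp H.subtype) fun _ _ => scal_comm _ _
  rw [← Nat.card_prod Z H, ← ψ.ker.index_mul_card, Subgroup.index_ker]
  congr 1
  · exact Nat.card_congr (Equiv.subtypeEquivRight fun g =>
      ⟨fun ⟨a, ha, h, hh, hg⟩ => ⟨(⟨a, ha⟩, ⟨h, hh⟩), hg⟩,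
        fun ⟨⟨a, h⟩, hg⟩ => ⟨a, a.2, h, h.2, hg⟩⟩)
  · refine Nat.card_congr (Equiv.ofBijective (fun c => ⟨(⟨_, (h1 _).1 c.2⟩,
      ⟨_, h2 _ (inv_mem c.2)⟩), ?_⟩) ⟨fun c d h => ?_, ?_⟩)
    · change scal ι F (Units.map (e : F₀ →* F) c) * glMap ι e (scal ι F₀ _) = 1
      rw [glMap_scal, ← map_mul, ← map_mul, mul_inv_cancel, map_one, map_one]
    · exact Subtype.ext (Units.map_injective e.injective
        (congrArg (fun x : ψ.ker => (x.1.1 : Fˣ)) h))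
    · rintro ⟨⟨⟨a, ha⟩, h, hh⟩, hx⟩
      have h3 : glMap ι e h = scal ι F a⁻¹ := by
        rw [map_inv]
        exact eq_inv_of_mul_eq_one_right hx
      obtain ⟨c, rfl⟩ := (glMap_eq_scal_iff e h).1 ⟨_, h3⟩
      rw [glMap_scal] at h3
      obtain rfl : a = Units.map (e : F₀ →* F) c⁻¹ := by rw [map_inv, scal_injective h3, inv_inv]
      exact ⟨⟨c⁻¹, (h1 _).2 ha⟩, Subtype.ext (Prod.ext rfl (Subtype.ext (by simp)))⟩

theorem exists_entry_ne_zero [Nonempty ι] (g : GL ι F) :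
    ∃ i j, (g : Matrix ι ι F) i j ≠ 0 := by
  by_contra h
  push Not at h
  exact g.ne_zero (Matrix.ext h)

theorem exists_glMap_eq_scal_mul {σ : F ≃+* F} {e : F₀ →+* F} (he : ∀ a, σ a = a ↔ ∃ b, e b = a)
    {g : GL ι F} {c : F} (h : (g : Matrix ι ι F).map σ = c • (g : Matrix ι ι F)) {a : Fˣ}
    (ha : σ a * c = a) : ∃ g₀, glMap ι e g₀ = scal ι F a * g :=
  exists_glMap_eq e fun i j => (he _).1 (by
    have h1 := congrFun (congrFun h i) j
    simp only [Matrix.map_apply, Matrix.smul_apply, smul_eq_mul] at h1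
    simp only [Units.val_mul, coe_scal, smul_mul_assoc, one_mul, Matrix.smul_apply, smul_eq_mul,
      map_mul, h1, ← mul_assoc, ha])

theorem map_scal_mul_glMap {σ : F ≃+* F} {e : F₀ →+* F} (he : ∀ a, σ a = a ↔ ∃ b, e b = a)
    (a : Fˣ) (h : GL ι F₀) : ((scal ι F a * glMap ι e h : GL ι F) : Matrix ι ι F).map σ =
      (σ a * (a : F)⁻¹) • ((scal ι F a * glMap ι e h : GL ι F) : Matrix ι ι F) := by
  ext i j
  simp [(he _).2 ⟨_, rfl⟩, mul_assoc]

end Cfsg.Agent.Cl.Cls
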