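import Mathlib

/-!
# The Lang-Steinberg theorem for the general linear group
-/

set_option autoImplicit false

namespace Cfsg.Agent.Cl.Cls

open Polynomial Module

theorem exists_basis_mem_of_span {F V ι : Type*} [Field F] [AddCommGroup V] [Module F V]
    [FiniteDimensional F V] [Fintype ι] (hι : Fintype.card ι = finrank F V) {S : Set V}
    (h : ⊤ ≤ Submodule.span F S) : ∃ b : Basis ι F V, ∀ j, b j ∈ S := by
  let b := Basis.ofSpan h
  have := Module.Finite.finite_basis b
  have := Fintype.ofFinite ((linearIndepOn_empty F (id : V → V)).extend (Set.empty_subset S))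
  refine ⟨b.reindex (Fintype.equivOfCardEq (by rw [hι, finrank_eq_card_basis b])), fun j => ?_⟩
  rw [Basis.reindex_apply]
  exact Basis.ofSpan_subset h ⟨_, rfl⟩

variable {K : Type*} [Field K] [IsAlgClosed K]

theorem exists_additive_root {q : ℕ} (hq : 2 ≤ q) (a : ℕ → K) (m : ℕ) (h0 : a 0 ≠ 0)
    (hm : a (m + 1) ≠ 0) : ∃ (c : K) (x : ℕ → K), c ≠ 0 ∧ x 0 = -(a 0 * c) ∧
      (∀ i, x (i + 1) = x i ^ q - a (i + 1) * c) ∧ x (m + 1) = 0 := by
  let P : ℕ → K[X] := fun i => Nat.rec (-(C (a 0) * X)) (fun i p => p ^ q - C (a (i + 1)) * X) i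
  have h1 : ∀ i, (P i).natDegree = q ^ i := fun i => by
    induction i with
    | zero => simp [P, natDegree_C_mul_X _ h0]
    | succ i ih =>
      change ((P i) ^ q - C (a (i + 1)) * X).natDegree = _
      have h2 : ((P i) ^ q).natDegree = q ^ (i + 1) := by rw [natDegree_pow, ih, pow_succ']
      rw [natDegree_sub_eq_left_of_natDegree_lt, h2]
      exact h2 ▸ ((natDegree_C_mul_le _ _).trans natDegree_X_le).trans_lt
        (Nat.one_lt_pow (by omega) hq)
  have h2 : ∀ i, X ∣ P i := fun i => by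
    induction i with
    | zero => exact (dvd_mul_left _ _).neg_right
    | succ i ih => exact dvd_sub (ih.pow (by omega)) (dvd_mul_left _ _)
  obtain ⟨R, hR⟩ := h2 m
  obtain ⟨k, rfl⟩ : ∃ k, q = k + 2 := ⟨q - 2, by omega⟩
  have h3 : P (m + 1) = X * (X ^ (k + 1) * R ^ (k + 2) - C (a (m + 1))) := by
    change (P m) ^ (k + 2) - C (a (m + 1)) * X = _
    rw [hR]
    ring
  obtain ⟨c, hc⟩ := IsAlgClosed.exists_root (X ^ (k + 1) * R ^ (k + 2) - C (a (m + 1))) (by
    intro h
    have h4 := h1 (m + 1)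
    have h5 := natDegree_mul_le (p := X) (q := X ^ (k + 1) * R ^ (k + 2) - C (a (m + 1)))
    rw [← h3, h4, natDegree_X, natDegree_eq_zero_iff_degree_le_zero.2 h.le] at h5
    exact absurd h5 (not_le.2 (Nat.one_lt_pow (by omega) hq)))
  refine ⟨c, fun i => (P i).eval c, ?_, by simp [P], fun i => by simp [P], ?_⟩
  · rintro rfl
    exact hm (by simpa using hc)
  · simp only [h3, eval_mul, hc.eq_zero, mul_zero]

/-- An injective `q`-semilinear map of a finite-dimensional space over an algebraically closed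
field fixes a spanning set. -/
theorem span_fixed_eq_top {V : Type*} [AddCommGroup V] [Module K V] [FiniteDimensional K V]
    {q : ℕ} (hq : 2 ≤ q) (T : V →+ V) (hT : ∀ (a : K) v, T (a • v) = a ^ q • T v)
    (hinj : Function.Injective T) : ⊤ ≤ Submodule.span K {v | T v = v} := by
  classical
  set W := Submodule.span K {v | T v = v}
  have h1 : ∀ ε : K, ∀ w ∈ W, ∀ c : K, ∃ u ∈ W, T u - ε • u = c • w := fun ε w hw => by
    induction hw using Submodule.span_induction with
    | mem w hw =>
      intro c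
      obtain ⟨x, hx⟩ := IsAlgClosed.exists_root (X ^ q - (C ε * X + C c)) (by
        rw [degree_sub_eq_left_of_degree_lt, degree_X_pow]
        · exact_mod_cast (show q ≠ 0 by omega)
        · rw [degree_X_pow]
          exact degree_linear_le.trans_lt (by exact_mod_cast hq))
      refine ⟨x • w, W.smul_mem x (Submodule.subset_span hw), ?_⟩
      rw [hT, show T w = w from hw, smul_smul, ← sub_smul]
      congr 1
      simp only [IsRoot.def, eval_sub, eval_pow, eval_X, eval_add, eval_mul, eval_C] at hx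
      linear_combination hx
    | zero => exact fun c => ⟨0, W.zero_mem, by simp⟩
    | add v w _ _ hv hw =>
      intro c
      obtain ⟨u, hu, h⟩ := hv c
      obtain ⟨u', hu', h'⟩ := hw c
      exact ⟨u + u', W.add_mem hu hu', by rw [map_add, smul_add, smul_add, ← h, ← h']; abel⟩
    | smul a w _ hw => exact fun c => by simpa only [smul_smul] using hw (c * a)
  intro v _
  by_contra hv
  have h2 : ∃ m, ∃ a : ℕ → K, (∃ i ≤ m, a i ≠ 0) ∧
      ∑ i ∈ Finset.range (m + 1), a i • T^[i] v ∈ W := by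
    have h3 : ¬ LinearIndependent K fun i : Fin (finrank K V + 1) => T^[i] v := fun h => by
      simpa using h.fintype_card_le_finrank
    obtain ⟨a, ha, i, hi⟩ := Fintype.not_linearIndependent_iff.1 h3
    refine ⟨finrank K V, fun i => if h : i < finrank K V + 1 then a ⟨i, h⟩ else 0,
      ⟨i, Nat.le_of_lt_succ i.2, by simpa only [Fin.is_lt, dite_true] using hi⟩, ?_⟩
    rw [Finset.sum_range]
    simp only [Fin.is_lt, dite_true, ha, W.zero_mem]
  obtain ⟨a, ⟨j, hj, haj⟩, ha⟩ := Nat.find_spec h2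
  have hmin := fun m => Nat.find_min h2 (m := m)
  generalize Nat.find h2 = m at hj ha hmin
  rcases m with _ | m
  · obtain rfl := Nat.le_zero.1 hj
    exact hv ((W.smul_mem_iff haj).1 (by simpa using ha))
  have hm : a (m + 1) ≠ 0 := fun h => hmin m m.lt_succ_self ⟨a, ⟨j, Nat.le_of_lt_succ
    (lt_of_le_of_ne hj fun h' => haj (h' ▸ h)), haj⟩, by
      rwa [Finset.sum_range_succ, h, zero_smul, add_zero] at ha⟩
  have h3 : ∀ x : ℕ → K, T (∑ i ∈ Finset.range (m + 1), x i • T^[i] v) =
      ∑ i ∈ Finset.range (m + 1), x i ^ q • T^[i + 1] v := fun x => by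
    simp only [map_sum, hT, Function.iterate_succ_apply']
  have h0 : a 0 ≠ 0 := fun h => by
    choose b hb using fun i => IsAlgClosed.exists_pow_nat_eq (a (i + 1)) (show 0 < q by omega)
    refine hmin m m.lt_succ_self ⟨b, ⟨m, le_rfl, fun h' => hm ?_⟩, ?_⟩
    · rw [← hb, h', zero_pow (by omega)]
    · obtain ⟨u, hu, hu'⟩ := h1 0 _ ha 1
      rw [zero_smul, sub_zero, one_smul, Finset.sum_range_succ', h, zero_smul, add_zero] at hu'
      simp only [← hb, ← h3] at hu'
      exact hinj hu' ▸ hu
  obtain ⟨c, x, hc, hx0, hx, hxm⟩ := exists_additive_root hq a m h0 hm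
  obtain ⟨u, hu, hu'⟩ := h1 1 _ ha c
  refine hmin m m.lt_succ_self ⟨x, ⟨0, m.zero_le, by simp [hx0, h0, hc]⟩, ?_⟩
  rw [← sub_add_cancel (∑ i ∈ Finset.range (m + 1), x i • T^[i] v) u]
  refine W.add_mem (Submodule.subset_span ?_) hu
  change T _ = _
  have h4 : ∑ i ∈ Finset.range (m + 1), x i • T^[i] v =
      ∑ i ∈ Finset.range (m + 1 + 1), x i • T^[i] v := by
    rw [Finset.sum_range_succ _ (m + 1), hxm, zero_smul, add_zero]
  rw [one_smul] at hu'
  rw [map_sub, h3, sub_eq_sub_iff_sub_eq_sub, hu', h4,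
    Finset.sum_range_succ' _ (m + 1), Finset.sum_range_succ' _ (m + 1), smul_add, Finset.smul_sum,
    ← sub_sub, ← Finset.sum_sub_distrib, hx0, neg_smul, sub_neg_eq_add, smul_smul, mul_comm c]
  refine congrArg (· + _) (Finset.sum_congr rfl fun i _ => ?_)
  rw [hx, ← sub_smul, sub_sub_cancel, smul_smul, mul_comm]

theorem lang_GL {n : Type*} [Fintype n] [DecidableEq n] {q : ℕ} (hq : 2 ≤ q) (σ : K →+* K)
    (hσ : ∀ a, σ a = a ^ q) (g : GL n K) :
    ∃ x : GL n K, g = x * (Matrix.GeneralLinearGroup.map σ x)⁻¹ := by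
  let T : (n → K) →+ (n → K) :=
    { toFun := fun v => g.val.mulVec fun i => σ (v i)
      map_zero' := by simp [← Pi.zero_def]
      map_add' := fun v w => by
        rw [← Matrix.mulVec_add]
        simp only [Pi.add_apply, map_add]
        rfl }
  obtain ⟨b, hb⟩ := exists_basis_mem_of_span (ι := n) (Module.finrank_fintype_fun_eq_card K).symm
    (span_fixed_eq_top hq T (fun a v => by
      change g.val.mulVec _ = _ • g.val.mulVec _
      rw [← Matrix.mulVec_smul]
      simp only [Pi.smul_apply, smul_eq_mul, map_mul, hσ a]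
      rfl)
      fun v w h => funext fun i => σ.injective
        (congrFun (Matrix.mulVec_injective_iff_isUnit.2 g.isUnit h) i))
  obtain ⟨x, hx⟩ : IsUnit (Matrix.of fun i j => b j i) :=
    Matrix.linearIndependent_cols_iff_isUnit.1 b.linearIndependent
  refine ⟨x, eq_mul_inv_of_mul_eq (Units.ext ?_)⟩
  ext i j
  change (g.val * x.val.map σ) i j = _
  rw [hx]
  exact congrFun (hb j) i

end Cfsg.Agent.Cl.Cls
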