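import Mathlib
import Cfsg.Agent.Cl.CharStSub
import Cfsg.Agent.Chev.AutSub
import Cfsg.Agent.S2314

/-!
# Steinberg's count of unipotent elements for abstract root subgroup data
-/

set_option autoImplicit false

namespace Cfsg.Agent.Cl.SpO

open Cfsg Cfsg.Agent.Chev Cfsg.Agent.Chev.RootBN

variable {Γ : Type*} [Group Γ] {Φ I : Type*} (R : RootBN Γ Φ I) [Finite Φ]

theorem par_le_P (K : Set R.topSub.bnPair.S) :
    R.topSub.bnPair.par K ≤ (R.P (R.topSub.node ⁻¹' K)).subgroupOf R.G :=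
  BNPair.par_le_iff.2 ⟨fun _ hb => B_le_P _ hb.1, fun s hs => by
    obtain ⟨i, rfl⟩ := R.topSub.node_surjective s
    exact NS_le_P _ (s_mem_NS hs)⟩

theorem mem_par_of_NS (K : Set R.topSub.bnPair.S) {n : Γ} (hn : n ∈ R.NS (R.topSub.node ⁻¹' K)) :
    (⟨n, N_le_G (NS_le_N _ hn)⟩ : R.topSub.K) ∈ R.topSub.bnPair.par K := by
  have : R.NS (R.topSub.node ⁻¹' K) ≤ (R.topSub.bnPair.par K).map R.G.subtype := by
    refine sup_le ((Subgroup.closure_le _).2 ?_) fun h hh => ?_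
    · rintro _ ⟨i, hi, rfl⟩
      exact ⟨_, BNPair.coe_mem_par (s := R.topSub.node i) hi, rfl⟩
    · exact ⟨⟨h, H_le_G hh⟩, R.topSub.bnPair.B_le_par _ (R.topSub.mem_bnPair_B.2 (H_le_B hh)), rfl⟩
  obtain ⟨x, hx, rfl⟩ := this hn
  exact hx

/-- In a finite group with root subgroup data of characteristic `p`, the number of `p`-elements is
the square of the order of a Sylow `p`-subgroup. -/
theorem card_pElts_rootBN [Finite Γ] {p : ℕ} [Fact p.Prime] (hG : R.G = ⊤) (hU : IsPGroup p R.U)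
    (hH : ∀ h ∈ R.H, h ^ p = 1 → h = 1) :
    Nat.card {g : Γ // ∃ k : ℕ, orderOf g = p ^ k} = (p ^ (Nat.card Γ).factorization p) ^ 2 := by
  set T := R.topSub with hT
  have := Fintype.ofFinite T.K
  have := Fintype.ofFinite T.bnPair.S
  have hU' : IsPGroup p (R.U ⊓ T.K : Subgroup Γ) := hU.to_le inf_le_left
  obtain ⟨P, hP⟩ := CT.sub_exists_sylow T hU' fun h hh _ => hH h hh
  have hmem : ∀ x : T.K, x ∈ (P : Subgroup T.K) ↔ (x : Γ) ∈ R.U := fun x => by
    rw [hP]; exact ⟨fun h => h.1, fun h => ⟨h, x.2⟩⟩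
  have hPB : (P : Subgroup T.K) ≤ T.bnPair.B := fun x hx =>
    T.mem_bnPair_B.2 (U_le_B ((hmem x).1 hx))
  have h := BNPair.card_unipotent (P := T.bnPair) {g | ∃ k : ℕ, orderOf g = p ^ k}
    (fun x g => by
      have : orderOf (x⁻¹ * g * x) = orderOf g := by
        simpa using (MulAut.conj x⁻¹).orderOf_eq g
      simp [this]) P
    (fun u hu => by
      obtain ⟨k, hk⟩ := (IsPGroup.iff_orderOf.1 P.isPGroup') ⟨u, hu⟩
      exact ⟨k, (Subgroup.orderOf_mk u hu).symm.trans hk⟩)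
    (fun b hb => Subgroup.mem_normalizer_iff.2 fun u => by
      rw [T.mem_bnPair_B] at hb
      simp only [hmem]
      refine ⟨fun hu => conj_B_U hb hu, fun hu => ?_⟩
      simpa [mul_assoc] using conj_B_U (inv_mem hb) hu) hPB
    (fun K g hg hK => S2314.exists_conj_mem P.isPGroup' P.not_dvd_index
      (hPB.trans (T.bnPair.B_le_par _)) hg hK)
    fun K => by
      set S := T.node ⁻¹' (K : Set T.bnPair.S)
      have hn := nS_mem_N (R := R) S
      let n : T.bnPair.N := ⟨⟨R.nS S, N_le_G hn⟩, hn, N_le_G hn⟩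
      have h1 : ∀ x : T.K, x ∈ T.bnPair.Bw n ⊓ P ↔ (x : Γ) ∈ R.Q S := fun x => by
        rw [Subgroup.mem_inf, BNPair.mem_Bw, T.mem_bnPair_B, T.mem_bnPair_B, hmem, ← Up_nS,
          ← Up_eq_of_w_eq (w_inv_of_sq hn (mul_self_mem_H_of_Inv hn (Inv_nS S)))]
        constructor
        · rintro ⟨⟨-, h1⟩, h2⟩
          exact mem_Up_of_conj_mem_B (inv_mem hn) h2 (by rw [inv_inv]; exact h1)
        · intro h
          have h1 := conj_Up (inv_mem hn) h
          rw [inv_inv] at h1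
          have h2 := Up_le_U _ h
          exact ⟨⟨U_le_B h2, U_le_B h1⟩, h2⟩
      refine ⟨n, ⟨BNPair.coe_mem_par_iff_toW.1 (mem_par_of_NS R _ (nS_mem S)), fun s hs => ?_⟩,
        le_antisymm (sup_le (BNPair.Bw_le _) hPB) fun b hb => ?_, fun x hx q hq => ?_⟩
      · obtain ⟨i, rfl⟩ := T.node_surjective s
        refine CT.sub_isRightDescent T n _ i rfl fun r hr => ?_
        have h2 : r ∈ R.Inv (R.nS S) := by
          rw [Inv_nS]
          rw [T.Inv_t] at hr
          exact ⟨hr.1, hr.2.trans (Set.singleton_subset_iff.2 hs)⟩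
        exact h2.2
      · obtain ⟨u, hu, c, hc, e⟩ := mem_B.1 (T.mem_bnPair_B.1 hb)
        have e' : b = ⟨u, U_le_G hu⟩ * ⟨c, H_le_G hc⟩ := Subtype.ext e
        rw [e']
        refine mul_mem (Subgroup.mem_sup_right ((hmem _).2 hu)) (Subgroup.mem_sup_left ?_)
        rw [BNPair.mem_Bw, T.mem_bnPair_B, T.mem_bnPair_B]
        exact ⟨H_le_B hc, H_le_B (by simpa using conj_H (inv_mem hn) hc)⟩
      · rw [h1] at hq ⊢
        simpa using conj_P_Q (inv_mem (par_le_P R _ hx)) hq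
  have h2 : T.K = ⊤ := hG
  have h3 := CT.sub_card_U T hU' fun h hh _ => hH h hh
  rw [CT.sub_st_one T fun i => ⟨i, rfl⟩, P.card_eq_multiplicity, h3] at h
  have h4 : Nat.card T.K = Nat.card Γ := by rw [h2, Subgroup.card_top]
  rw [h4] at h
  rw [sq]
  refine Eq.trans (Nat.card_congr ?_) (by exact_mod_cast h)
  exact ((Subgroup.topEquiv.symm.trans (MulEquiv.subgroupCongr h2.symm)).toEquiv.subtypeEquiv
    fun g => by simp [← Subgroup.orderOf_coe])

end Cfsg.Agent.Cl.SpO
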