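/-
Subgroups of `SL₄(F)`: vocabulary.
-/
import Mathlib
import Cfsg.Agent.Cl.D5Base
import Cfsg.Prelude.Def_Classical

set_option autoImplicit false

namespace Cfsg.Agent.Cl.D4

open Matrix Cfsg.Geo Cfsg.Agent.Cl.Max Cfsg.Agent.Cl.Mx
open Cfsg.Agent.Cl.D5 (MT Root TrGen Cov NoTv)
open scoped MatrixGroups

/-- Square matrices of size four. -/
abbrev M4 (F : Type*) := Matrix (Fin 4) (Fin 4) F

/-- The general linear group of degree four. -/
abbrev G4 (F : Type*) [Field F] := GL (Fin 4) F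

variable {F : Type*} [Field F]

/-- The matrix of an element of `P`. -/
abbrev mat {P : Subgroup (G4 F)} (g : P) : M4 F := ((g : G4 F) : M4 F)

/-- `X` is the matrix of an element of `P`. -/
def Mem (P : Subgroup (G4 F)) (X : M4 F) : Prop := ∃ g ∈ P, (g : M4 F) = X

/-- Groups of commuting quadratic unipotent elements have at most three elements. -/
def Small (P : Subgroup (G4 F)) : Prop :=
  ∀ N M : M4 F, Mem P (1 + N) → Mem P (1 + M) → N ≠ 0 → N * N = 0 → M * M = 0 → N * M = 0 →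
    M * N = 0 → M = 0 ∨ M = N ∨ M = -N

/-- Every element has the trace of its inverse. -/
def Real (P : Subgroup (G4 F)) : Prop :=
  ∀ g ∈ P, (g : M4 F).trace = ((g⁻¹ : G4 F) : M4 F).trace

/-- `P` preserves a non-degenerate hermitian form, and `|F| = q ^ 2`. -/
def Herm (P : Subgroup (G4 F)) (q : ℕ) : Prop :=
  ∃ (σ : F →+* F) (f : (Fin 4 → F) → (Fin 4 → F) → F), UField σ q ∧ HForm σ 1 f ∧ P ≤ isoG f

/-- `P` is a special unitary group. -/
def IsSU (P : Subgroup (G4 F)) : Prop :=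
  ∃ (σ : F →+* F) (q : ℕ) (f : (Fin 4 → F) → (Fin 4 → F) → F),
    UField σ q ∧ HForm σ 1 f ∧ P = suG f

/-- `P` is the special linear group, has real traces, or is a special unitary group. -/
def Big (P : Subgroup (G4 F)) : Prop := P = specialLinear (Fin 4) F ∨ Real P ∨ IsSU P

/-- The field conditions for `A₇`. -/
def C7 (P : Subgroup (G4 F)) (p : ℕ) : Prop :=
  (Nat.card F = p ∧ (p = 2 ∨ p % 7 = 1 ∨ p % 7 = 2 ∨ p % 7 = 4)) ∨
    ((p % 7 = 3 ∨ p % 7 = 5 ∨ p % 7 = 6) ∧ Herm P p)

/-- The field conditions for `U₄(2)`. -/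
def C42 (P : Subgroup (G4 F)) (p : ℕ) : Prop :=
  (Nat.card F = p ∧ p % 6 = 1) ∨ (p % 6 = 5 ∧ Herm P p)

/-- `P` is normalised only by `P` times scalars, and lies properly (modulo scalars) in a subgroup
`K` of `SL₄` without scalar multiples of transvections, which preserves the hermitian forms
preserved by `P`. -/
def Over (P : Subgroup (G4 F)) : Prop :=
  (∀ h : G4 F, (∀ x ∈ P, h * x * h⁻¹ ∈ P) → h ∈ P ⊔ scalars (Fin 4) F) ∧
    ∃ K : Subgroup (G4 F), P ≤ K ∧ K ≤ specialLinear (Fin 4) F ∧ ¬ K ≤ P ⊔ scalars (Fin 4) F ∧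
      NoTv (K ⊔ scalars (Fin 4) F) ∧
      ∀ (σ : F →+* F) (q : ℕ) (f : (Fin 4 → F) → (Fin 4 → F) → F), UField σ q → HForm σ 1 f →
        P ≤ isoG f → K ≤ isoG f

section Iso

variable (G : Type*) [Group G]

/-- `G ≅ L₂(r)`. -/
def IsoL2 (r : ℕ) : Prop :=
  ∃ (K : Type) (_ : Field K) (_ : Fintype K), Fintype.card K = r ∧ Nonempty (G ≃* PSL(2, K))

/-- `G ≅ L₃(r)`. -/
def IsoL3 (r : ℕ) : Prop :=
  ∃ (K : Type) (_ : Field K) (_ : Fintype K), Fintype.card K = r ∧ Nonempty (G ≃* PSL(3, K))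

/-- `G ≅ U₃(q)`. -/
def IsoU3 (q : ℕ) : Prop :=
  ∃ (K : Type) (_ : Field K) (_ : Fintype K), Fintype.card K = q ^ 2 ∧ Nonempty (G ≃* PSU 3 K q)

/-- `G ≅ PSp₄(r)`. -/
def IsoS4 (r : ℕ) : Prop :=
  ∃ (K : Type) (_ : Field K) (_ : Fintype K), Fintype.card K = r ∧ Nonempty (G ≃* PSp 2 K)

/-- `G ≅ A_n`. -/
def IsoA (n : ℕ) : Prop := Nonempty (G ≃* alternatingGroup (Fin n))

/-- The four simple groups that survive. -/
def Fin4 : Prop := IsoA G 7 ∨ IsoL2 G 7 ∨ IsoL3 G 4 ∨ IsoS4 G 3

/-- All centralisers of involutions are solvable. -/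
def SolvC : Prop := ∀ t : G, orderOf t = 2 → Group.IsSolvable (Subgroup.centralizer ({t} : Set G))

/-- `E` is elementary abelian of order `2 ^ n`. -/
def EA {G : Type*} [Group G] (E : Subgroup G) (n : ℕ) : Prop :=
  (∀ x ∈ E, x * x = 1) ∧ Nat.card E = 2 ^ n

end Iso

variable {G : Type*} [Group G] {P : Subgroup (G4 F)}

/-- `π` identifies `P` modulo its scalars with `G`. -/
structure PC (P : Subgroup (G4 F)) (π : P →* G) : Prop where
  surj : Function.Surjective π
  ker : ∀ g : P, π g = 1 ↔ (g : G4 F) ∈ scalars (Fin 4) F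

/-- A quasisimple absolutely irreducible subgroup of `SL₄(F)` and its simple quotient. -/
structure Ctx (P : Subgroup (G4 F)) (π : P →* G) : Prop where
  cov : Cov P π
  qs : QS P
  simple : IsSimpleGroup G
  nonab : ¬ IsMulCommutative G

/-- Characteristic two, root groups of order at most two. -/
structure Ev (P : Subgroup (G4 F)) (π : P →* G) : Prop extends Ctx P π where
  two : (2 : F) = 0
  noRoot : ¬ Root P 4

/-- Odd characteristic: `P` contains all scalars, `P` modulo scalars is the simple group `G`, the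
field is large enough, and `P` has few quadratic unipotent elements. -/
structure Od (P : Subgroup (G4 F)) (π : P →* G) : Prop extends PC P π where
  sc : scalars (Fin 4) F ≤ P
  spans : Spans P
  simple : IsSimpleGroup G
  nonab : ¬ IsMulCommutative G
  two : (2 : F) ≠ 0
  zeta : ∃ ζ : F, ζ ^ 4 = -1
  split : ∀ g ∈ P, (g : M4 F).charpoly.Splits
  noTv : NoTv P
  small : Small P

/-- All lifts of `x` and `y` commute. -/
def Cm (π : P →* G) (x y : G) : Prop := ∀ a b : P, π a = x → π b = y → a * b = b * a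

/-- All lifts of `x` and `y` anticommute. -/
def An (π : P →* G) (x y : G) : Prop :=
  ∀ a b : P, π a = x → π b = y → mat a * mat b = -(mat b * mat a)

/-- `t` is the image of an involution with two eigenspaces of dimension two. -/
def ZT (π : P →* G) (t : G) : Prop := ∃ g : P, π g = t ∧ g * g = 1 ∧ (mat g - 1).rank = 2

/-- `t` is the image of a reflection. -/
def RT (π : P →* G) (t : G) : Prop := ∃ g : P, π g = t ∧ g * g = 1 ∧ (mat g - 1).rank = 1

/-- The elements of `G` whose lifts commute with the lifts of `z`. -/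
def C0 (π : P →* G) (hπ : PC P π) (z : G) : Subgroup G where
  carrier := {x | Cm π z x}
  one_mem' := fun a b _ hb =>
    (Subtype.ext (mul_comm_of_mem_scalars ((hπ.ker b).1 hb) a)).symm
  mul_mem' := fun {x y} hx hy a b ha hb => by
    obtain ⟨c, rfl⟩ := hπ.surj x
    have h1 : π (c⁻¹ * b) = y := by rw [map_mul, map_inv, hb, inv_mul_cancel_left]
    have h2 : Commute a (c * (c⁻¹ * b)) :=
      Commute.mul_right (hx a c ha rfl) (hy a _ ha h1)
    rwa [mul_inv_cancel_left] at h2
  inv_mem' := fun {x} hx a b ha hb => by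
    have h2 : Commute a b⁻¹ := hx a _ ha (by rw [map_inv, hb, inv_inv])
    exact (show Commute a b by simpa using h2.inv_right).eq

theorem mem_C0 {π : P →* G} {hπ : PC P π} {z x : G} : x ∈ C0 π hπ z ↔ Cm π z x := Iff.rfl

/-- The conjugate of `P` by `Q`. -/
def cP (Q : G4 F) (P : Subgroup (G4 F)) : Subgroup (G4 F) := P.map (MulAut.conj Q).toMonoidHom

/-- Conjugation by `Q`. -/
noncomputable def cE (Q : G4 F) (P : Subgroup (G4 F)) : P ≃* cP Q P :=
  Subgroup.equivMapOfInjective P _ (MulAut.conj Q).injective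

/-- The quotient map of the conjugate group. -/
noncomputable def cπ (Q : G4 F) (π : P →* G) : cP Q P →* G :=
  π.comp (cE Q P).symm.toMonoidHom

theorem coe_cE (Q : G4 F) (g : P) : ((cE Q P g : cP Q P) : G4 F) = Q * g * Q⁻¹ := rfl

theorem cπ_cE (Q : G4 F) (π : P →* G) (g : P) : cπ Q π (cE Q P g) = π g := by simp [cπ]

end Cfsg.Agent.Cl.D4
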