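/-
Subgroups of `SL₄(F)`: lists of groups, quadratic elements, the Pauli frame.
-/
import Mathlib
import Cfsg.Agent.Cl.D4Defs
import Cfsg.Agent.Wal.Defs
import Cfsg.Prelude.Def_Sz
import Cfsg.Prelude.Def_Sporadic
import Cfsg.Prelude.Def_Spor_Mathieu

set_option autoImplicit false

namespace Cfsg.Agent.Cl.D4

open Matrix Cfsg.Geo Equiv

/-- The simple groups with a Sylow 2-subgroup of class at most two or of type `A₈`. -/
def Lst2 (G : Type*) [Group G] : Prop :=
  (∃ r, 4 ≤ r ∧ IsoL2 G r) ∨ Lie.IsoSuzuki G ∨ (∃ n, 2 ≤ n ∧ IsoU3 G (2 ^ n)) ∨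
    (∃ n, 2 ≤ n ∧ IsoL3 G (2 ^ n)) ∨ (∃ n, 2 ≤ n ∧ IsoS4 G (2 ^ n)) ∨ IsoA G 7 ∨ IsoA G 8 ∨
    IsoA G 9 ∨ IsoS4 G 3 ∨ Wal.IsJR G

/-- All simple groups produced by the classification theorems that are used. -/
def Lst (G : Type*) [Group G] : Prop :=
  Lst2 G ∨ IsoL3 G 3 ∨ IsoU3 G 3 ∨ IsM11 G ∨ Spor.IsoM22 G ∨ Spor.IsoM23 G ∨ ¬ PRankLE 2 4 G

variable {F : Type*} [Field F] {G : Type*} [Group G] {P : Subgroup (G4 F)}

/-! ### Quadratic unipotent elements -/

/-- `1 + N` is a quadratic unipotent element of `P`. -/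
def Qd (P : Subgroup (G4 F)) (N : M4 F) : Prop := Mem P (1 + N) ∧ N * N = 0

/-- `M` belongs to the group of quadratic elements attached to `N`. -/
def QA (P : Subgroup (G4 F)) (N M : M4 F) : Prop := Qd P M ∧ N * M = 0 ∧ M * N = 0

/-- The group of quadratic elements attached to `N` has more than three elements. -/
def Bg (P : Subgroup (G4 F)) (N : M4 F) : Prop :=
  Qd P N ∧ N ≠ 0 ∧ ∃ M, QA P N M ∧ M ≠ 0 ∧ M ≠ N ∧ M ≠ -N

/-! ### Involutions with non-solvable centraliser -/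

/-- The lifts of `x` are linear combinations of `1` and a lift of `z`. -/
def Bi (π : P →* G) (z x : G) : Prop :=
  ∀ g k : P, π g = z → π k = x → ∃ a b : F, mat k = a • (1 : M4 F) + b • mat g

/-- The elements whose lifts commute with those of `z` form the group `K × D`, where `K ≅ A₅` and
`D` consists of the elements which are scalar on both eigenspaces of `z`. -/
structure I0 (π : P →* G) (z : G) (K : Subgroup G) : Prop where
  zt : ZT π z
  iso : Nonempty (K ≃* alternatingGroup (Fin 5))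
  cm : ∀ x ∈ K, Cm π z x
  dec : ∀ x, Cm π z x → ∃ k ∈ K, Bi π z (k⁻¹ * x)
  an : ∀ a ∈ K, ∀ b ∈ K, a * a = 1 → b * b = 1 → a ≠ 1 → b ≠ 1 → a ≠ b → a * b = b * a → An π a b

/-! ### Signed permutations -/

/-- Signed permutations: `e_i ↦ ± e_(s i)`, with a minus sign iff `e i`. -/
@[ext] structure SP where
  /-- The signs. -/
  e : Fin 6 → Bool
  /-- The permutation. -/
  s : Perm (Fin 6)
deriving DecidableEq

namespace SP

instance instMulSP : Mul SP := ⟨fun g h => ⟨fun i => xor (g.e (h.s i)) (h.e i), g.s * h.s⟩⟩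
instance instOneSP : One SP := ⟨⟨fun _ => false, 1⟩⟩
instance instInvSP : Inv SP := ⟨fun g => ⟨fun i => g.e (g.s⁻¹ i), g.s⁻¹⟩⟩

@[simp] theorem mul_e (g h : SP) (i : Fin 6) : (g * h).e i = xor (g.e (h.s i)) (h.e i) := rfl
@[simp] theorem mul_s (g h : SP) : (g * h).s = g.s * h.s := rfl
@[simp] theorem one_e (i : Fin 6) : (1 : SP).e i = false := rfl
@[simp] theorem one_s : (1 : SP).s = 1 := rfl
@[simp] theorem inv_e (g : SP) (i : Fin 6) : g⁻¹.e i = g.e (g.s⁻¹ i) := rfl
@[simp] theorem inv_s (g : SP) : g⁻¹.s = g.s⁻¹ := rfl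

instance instGroupSP : Group SP := Group.ofLeftAxioms
  (fun a b c => SP.ext (funext fun i => by simp) (mul_assoc _ _ _))
  (fun a => SP.ext (funext fun i => by simp) (one_mul _))
  (fun a => SP.ext (funext fun i => by simp) (inv_mul_cancel _))

/-- Minus the identity. -/
def neg : SP := ⟨fun _ => true, 1⟩

/-- The sign change at two places. -/
def dg (i j : Fin 6) : SP := ⟨fun a => xor (decide (a = i)) (decide (a = j)), 1⟩

/-- The product of the signs. -/
def sgn (g : SP) : ℤˣ := ∏ i, if g.e i then -1 else 1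

theorem sgn_mul (g h : SP) : (g * h).sgn = g.sgn * h.sgn := by
  rw [sgn, sgn, sgn, ← Equiv.prod_comp h.s fun i => if g.e i then (-1 : ℤˣ) else 1,
    ← Finset.prod_mul_distrib]
  refine Finset.prod_congr rfl fun i _ => ?_
  rw [mul_e]
  cases g.e (h.s i) <;> cases h.e i <;> simp

/-- The determinant. -/
def det : SP →* ℤˣ := MonoidHom.mk' (fun g => g.sgn * Perm.sign g.s) fun g h => by
  rw [sgn_mul, mul_s, map_mul, mul_mul_mul_comm]

theorem det_apply (g : SP) : det g = g.sgn * Perm.sign g.s := rfl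

/-- The underlying permutation. -/
def perm : SP →* Perm (Fin 6) := MonoidHom.mk' SP.s mul_s

end SP

/-- The signed permutations of determinant one over `H`. -/
def Gam (H : Subgroup (Perm (Fin 6))) : Subgroup SP := H.comap SP.perm ⊓ SP.det.ker

theorem mem_Gam {H : Subgroup (Perm (Fin 6))} {g : SP} :
    g ∈ Gam H ↔ g.s ∈ H ∧ g.sgn * Perm.sign g.s = 1 := Iff.rfl

theorem dg_mem_Gam (H : Subgroup (Perm (Fin 6))) (i j : Fin 6) : SP.dg i j ∈ Gam H :=
  mem_Gam.2 ⟨H.one_mem, by revert i j; decide⟩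

theorem neg_mem_Gam (H : Subgroup (Perm (Fin 6))) : SP.neg ∈ Gam H :=
  mem_Gam.2 ⟨H.one_mem, by decide⟩

/-- Five anticommuting involutions (and the identity). -/
def As (ι : F) : Fin 6 → M4 F :=
  ![1, !![1, 0, 0, 0; 0, -1, 0, 0; 0, 0, -1, 0; 0, 0, 0, 1],
    !![0, 0, 1, 0; 0, 0, 0, 1; 1, 0, 0, 0; 0, 1, 0, 0],
    !![0, 0, -ι, 0; 0, 0, 0, -ι; ι, 0, 0, 0; 0, ι, 0, 0],
    !![0, 1, 0, 0; 1, 0, 0, 0; 0, 0, 0, -1; 0, 0, -1, 0],
    !![0, -ι, 0, 0; ι, 0, 0, 0; 0, 0, 0, ι; 0, 0, -ι, 0]]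

/-- The products `γ_i γ_j` of six anticommuting involutions, on a half-spin space:
`Gs i j * Gs j k = Gs i k`, `Gs i i = 1`, `Gs j i = - Gs i j` for `i ≠ j`. -/
def Gs (ι : F) (i j : Fin 6) : M4 F :=
  ((if i = 0 then 1 else -ι) * if j = 0 then 1 else ι) • (As ι i * As ι j)

theorem As_mul_self {ι : F} (h : ι * ι = -1) (i : Fin 6) : As ι i * As ι i = 1 := by
  fin_cases i <;> simp [As] <;> ext a b <;> fin_cases a <;> fin_cases b <;> simp [h]

theorem As_anti {ι : F} (h : ι * ι = -1) {i j : Fin 6} (hi : i ≠ 0) (hj : j ≠ 0) (hij : i ≠ j) :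
    As ι i * As ι j = -(As ι j * As ι i) := by
  fin_cases i <;> fin_cases j <;> simp at hi hj hij <;> simp [As, h]

theorem As_zero (ι : F) : As ι 0 = 1 := rfl

theorem Gs_mul {ι : F} (h : ι * ι = -1) (i j k : Fin 6) : Gs ι i j * Gs ι j k = Gs ι i k := by
  rw [Gs, Gs, Gs, smul_mul_smul_comm, mul_assoc (As ι i), ← mul_assoc (As ι j), As_mul_self h,
    one_mul]
  congr 1
  by_cases hj : j = 0 <;> simp only [hj, if_true, if_false]
  · ring
  · linear_combination (-(if i = 0 then 1 else -ι) * if k = 0 then 1 else ι) * h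

theorem Gs_self {ι : F} (h : ι * ι = -1) (i : Fin 6) : Gs ι i i = 1 := by
  rw [Gs, As_mul_self h]
  by_cases hi : i = 0 <;> simp [hi, h]

theorem Gs_swap {ι : F} (h : ι * ι = -1) {i j : Fin 6} (hij : i ≠ j) : Gs ι j i = -Gs ι i j := by
  by_cases hi : i = 0
  · subst hi
    simp [Gs, hij.symm, As_zero]
  by_cases hj : j = 0
  · subst hj
    simp [Gs, hi, As_zero]
  simp only [Gs, hi, hj, if_false]
  rw [As_anti h hj hi hij.symm, smul_neg]

theorem Gs_prod {ι : F} (h : ι * ι = -1) : Gs ι 0 1 * Gs ι 2 3 * Gs ι 4 5 = -ι • (1 : M4 F) := by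
  ext a b
  fin_cases a <;> fin_cases b <;> simp [Gs, As, h] <;> grind

/-- The sign attached to a Boolean. -/
def sg (F : Type*) [Field F] (b : Bool) : F := if b then -1 else 1

/-- Conjugation by `X` acts on the matrices `Gs i j` as the signed permutation `g`. -/
def Act (ι : F) (X : M4 F) (g : SP) : Prop :=
  ∀ i j, X * Gs ι i j = (sg F (g.e i) * sg F (g.e j)) • (Gs ι (g.s i) (g.s j) * X)

/-- `E` is the image of the standard Pauli group, and `Φ` identifies its normaliser with the group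
of signed permutations of determinant one over `H`, modulo `±1`. -/
structure Fr (P : Subgroup (G4 F)) (π : P →* G) (ι : F) (γ : Fin 6 → Fin 6 → P) (E : Subgroup G)
    (H : Subgroup (Perm (Fin 6))) (Φ : Gam H →* G) : Prop where
  od : Od P π
  ii : ι * ι = -1
  mat_eq : ∀ i j, mat (γ i j) = Gs ι i j
  mem : ∀ x, x ∈ E ↔ ∃ i j, π (γ i j) = x
  range : Φ.range = Subgroup.normalizer (E : Set G)
  ker : ∀ g, Φ g = 1 ↔ g.1 = 1 ∨ g.1 = SP.neg
  act : ∀ (g : Gam H) (k : P), π k = Φ g ↔ Act ι (mat k) g.1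
  dg : ∀ i j, Φ ⟨SP.dg i j, dg_mem_Gam H i j⟩ = π (γ i j)

/-- `x ↦ x + 1` on the projective line `∞, 0, 1, 4, 2, 3` over the field with five elements. -/
def c5 : Perm (Fin 6) := ⟨![0, 2, 4, 1, 5, 3], ![0, 3, 1, 5, 2, 4], by decide, by decide⟩

/-- `x ↦ 2 x`. -/
def m4 : Perm (Fin 6) := ⟨![0, 1, 4, 5, 3, 2], ![0, 1, 5, 4, 2, 3], by decide, by decide⟩

/-- `x ↦ -1 / x`. -/
def w2 : Perm (Fin 6) := swap 0 1 * swap 2 3

/-- The symmetric group on the first five points. -/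
def S5 : Subgroup (Perm (Fin 6)) := MulAction.stabilizer (Perm (Fin 6)) (5 : Fin 6)

/-- The alternating group on the first five points. -/
def A5 : Subgroup (Perm (Fin 6)) := S5 ⊓ alternatingGroup (Fin 6)

/-- The transitive group `PSL₂(5)`. -/
def L25 : Subgroup (Perm (Fin 6)) := Subgroup.closure {c5, w2}

/-- The transitive group `PGL₂(5)`. -/
def G25 : Subgroup (Perm (Fin 6)) := Subgroup.closure {c5, w2, m4}

end Cfsg.Agent.Cl.D4
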