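/-
Subgroups of `SL₄(F)`: projective covers, commuting and anticommuting lifts, change of basis.
-/
import Mathlib
import Cfsg.Agent.Cl.D4Defs2

set_option autoImplicit false

namespace Cfsg.Agent.Cl.D4

open Matrix Cfsg.Geo Cfsg.Agent.Cl.Max Cfsg.Agent.Cl.Mx Subgroup
open Cfsg.Agent.Cl.D5 (MT Root TrGen Cov NoTv)
open scoped MatrixGroups commutatorElement

variable {F : Type*} [Field F] {G : Type*} [Group G] {P : Subgroup (G4 F)} {π : P →* G}

theorem smul_one_inj {a b : F} (h : a • (1 : M4 F) = b • 1) : a = b := by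
  simpa using congrFun (congrFun h 0) 0
theorem mat_mul (a b : P) : mat (a * b) = mat a * mat b := rfl
theorem mat_one : mat (1 : P) = 1 := rfl
theorem mat_pow (a : P) (n : ℕ) : mat (a ^ n) = mat a ^ n := D5.coe_coe_pow a n
theorem mat_inj {a b : P} (h : mat a = mat b) : a = b := D5.sub_ext h
theorem mat_mul_inv (a : P) : mat a * mat a⁻¹ = 1 := by rw [← mat_mul, mul_inv_cancel, mat_one]
theorem mat_inv_mul (a : P) : mat a⁻¹ * mat a = 1 := by rw [← mat_mul, inv_mul_cancel, mat_one]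
theorem det_mat_ne (a : P) : (mat a).det ≠ 0 := (a : G4 F).det_ne_zero
theorem mem_mat (a : P) : Mem P (mat a) := ⟨a, a.2, rfl⟩
theorem Mem.exists {X : M4 F} (h : Mem P X) : ∃ a : P, mat a = X :=
  let ⟨g, hg, e⟩ := h
  ⟨⟨g, hg⟩, e⟩
theorem Mem.mul {X Y : M4 F} (hX : Mem P X) (hY : Mem P Y) : Mem P (X * Y) := by
  obtain ⟨a, rfl⟩ := hX.exists
  obtain ⟨b, rfl⟩ := hY.exists
  exact mem_mat (a * b)
theorem trace_conj (a b : P) : (mat (a * b * a⁻¹)).trace = (mat b).trace := trace_cj (a : G4 F) _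

theorem smul_mat_inj {a : P} {c d : F} (h : c • mat a = d • mat a) : c = d := by
  have := congrArg (· * mat a⁻¹) h
  simp only [smul_mul_assoc, mat_mul_inv] at this
  exact smul_one_inj this

theorem ne_zero_of_smul {a : P} {c : F} {X : M4 F} (h : mat a = c • X) : c ≠ 0 := by
  rintro rfl
  exact det_mat_ne a (by rw [h, zero_smul, det_zero])

theorem mat_inv_of_smul {a b : P} {c : F} (h : mat a = c • mat b) : mat a⁻¹ = c⁻¹ • mat b⁻¹ := by
  have h0 := ne_zero_of_smul h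
  calc mat a⁻¹ = mat a⁻¹ * (mat b * mat b⁻¹) := by rw [mat_mul_inv, mul_one]
    _ = c⁻¹ • (mat a⁻¹ * mat a * mat b⁻¹) := by
      rw [h, mul_smul_comm, smul_mul_assoc, inv_smul_smul₀ h0, mul_assoc]
    _ = _ := by rw [mat_inv_mul, one_mul]

/-! ### Projective covers -/

theorem pc_of_cov (h : Cov P π) : PC P π := ⟨h.surj, h.ker⟩
theorem Ctx.pc (h : Ctx P π) : PC P π := pc_of_cov h.cov
theorem PC.finite [Finite F] (h : PC P π) : Finite G := Finite.of_surjective π h.surj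
theorem PC.eq_one_iff (h : PC P π) (a : P) : π a = 1 ↔ ∃ c : F, mat a = c • (1 : M4 F) :=
  (h.ker a).trans ⟨fun e => let ⟨c, _, e⟩ := coe_eq_smul_of_mem_scalars e; ⟨c, e⟩,
    fun ⟨_, e⟩ => mem_scalars_of_eq_smul e⟩
theorem PC.eq_iff (h : PC P π) (a b : P) : π a = π b ↔ ∃ c : F, mat a = c • mat b := by
  rw [← mul_inv_eq_one, ← map_inv, ← map_mul, h.eq_one_iff]
  refine exists_congr fun c => ⟨fun e => ?_, fun e => ?_⟩
  · rw [← one_mul (mat b), ← smul_mul_assoc, ← e, ← mat_mul, inv_mul_cancel_right]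
  · rw [mat_mul, e, smul_mul_assoc, mat_mul_inv]
theorem PC.comm (h : PC P π) {a b : P} (e : Commute (π a) (π b)) :
    ∃ c : F, c ^ 4 = 1 ∧ mat a * mat b = c • (mat b * mat a) := by
  obtain ⟨c, hc⟩ := (h.eq_iff (a * b) (b * a)).1 (by rw [map_mul, map_mul, e.eq])
  refine ⟨c, ?_, hc⟩
  have := congrArg det hc
  rw [det_smul, mat_mul, mat_mul, det_mul, det_mul, mul_comm (mat a).det, Fintype.card_fin] at this
  exact (mul_eq_right₀ (mul_ne_zero (det_mat_ne b) (det_mat_ne a))).1 this.symm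

theorem PC.rel (h : PC P π) {a b a' b' : P} {c : F} (e : mat a * mat b = c • (mat b * mat a))
    (ha : π a' = π a) (hb : π b' = π b) : mat a' * mat b' = c • (mat b' * mat a') := by
  obtain ⟨s, hs⟩ := (h.eq_iff _ _).1 ha
  obtain ⟨t, ht⟩ := (h.eq_iff _ _).1 hb
  rw [hs, ht, smul_mul_smul_comm, smul_mul_smul_comm, e, smul_comm, mul_comm s]

theorem PC.cm_of (h : PC P π) {a b : P} (e : a * b = b * a) : Cm π (π a) (π b) :=
  fun a' b' ha hb => mat_inj (by
    rw [mat_mul, mat_mul]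
    simpa using h.rel (c := 1) (by rw [one_smul, ← mat_mul, e, mat_mul]) ha hb)
theorem PC.an_of (h : PC P π) {a b : P} (e : mat a * mat b = -(mat b * mat a)) :
    An π (π a) (π b) := fun a' b' ha hb => by
  simpa using h.rel (c := -1) (by rw [e, neg_one_smul]) ha hb
theorem Cm.commute (h : PC P π) {x y : G} (e : Cm π x y) : Commute x y := by
  obtain ⟨a, rfl⟩ := h.surj x
  obtain ⟨b, rfl⟩ := h.surj y
  exact (show Commute a b from e a b rfl rfl).map π
theorem An.commute (h : PC P π) {x y : G} (e : An π x y) : Commute x y := by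
  obtain ⟨a, rfl⟩ := h.surj x
  obtain ⟨b, rfl⟩ := h.surj y
  change _ * _ = _ * _
  rw [← map_mul, ← map_mul, h.eq_iff]
  exact ⟨-1, by rw [neg_one_smul]; exact e a b rfl rfl⟩
theorem Cm.symm {x y : G} (e : Cm π x y) : Cm π y x := fun a b ha hb => (e b a hb ha).symm
theorem An.symm {x y : G} (e : An π x y) : An π y x := fun a b ha hb => by
  rw [e b a hb ha, neg_neg]
theorem Cm.conj (h : PC P π) {x y : G} (e : Cm π x y) (g : G) :
    Cm π (g * x * g⁻¹) (g * y * g⁻¹) := by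
  obtain ⟨a, rfl⟩ := h.surj x
  obtain ⟨b, rfl⟩ := h.surj y
  obtain ⟨k, rfl⟩ := h.surj g
  have := h.cm_of (a := k * a * k⁻¹) (b := k * b * k⁻¹) (by rw [conj_mul, conj_mul, e a b rfl rfl])
  simpa using this
theorem An.conj (h : PC P π) {x y : G} (e : An π x y) (g : G) :
    An π (g * x * g⁻¹) (g * y * g⁻¹) := by
  obtain ⟨a, rfl⟩ := h.surj x
  obtain ⟨b, rfl⟩ := h.surj y
  obtain ⟨k, rfl⟩ := h.surj g
  have := h.an_of (a := k * a * k⁻¹) (b := k * b * k⁻¹) (by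
    rw [← mat_mul, ← mat_mul, conj_mul, conj_mul]
    simp only [mat_mul, e a b rfl rfl, mul_neg, neg_mul])
  simpa using this
theorem PC.cm_self (h : PC P π) (x : G) : Cm π x x := by
  obtain ⟨a, rfl⟩ := h.surj x
  exact h.cm_of rfl
theorem PC.cm_one (h : PC P π) (x : G) : Cm π x 1 := (C0 π h x).one_mem
theorem Cm.mul (h : PC P π) {x y z : G} (e : Cm π x y) (e' : Cm π x z) : Cm π x (y * z) :=
  (C0 π h x).mul_mem e e'
theorem Cm.inv {x y : G} (e : Cm π x y) : Cm π x y⁻¹ := fun a b ha hb => by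
  have h2 : Commute a b⁻¹ := e a _ ha (by rw [map_inv, hb, inv_inv])
  exact (show Commute a b by simpa using h2.inv_right).eq
theorem Cm.pow (h : PC P π) {x y : G} (e : Cm π x y) (n : ℕ) : Cm π x (y ^ n) :=
  (C0 π h x).pow_mem e n
theorem Cm.mul_an (h : PC P π) {x y z : G} (e : Cm π x y) (e' : An π x z) : An π x (y * z) := by
  obtain ⟨a, rfl⟩ := h.surj x
  obtain ⟨b, rfl⟩ := h.surj y
  obtain ⟨c, rfl⟩ := h.surj z
  rw [← map_mul]
  have h1 : mat a * mat b = mat b * mat a := congrArg mat (e a b rfl rfl)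
  exact h.an_of (by rw [mat_mul, ← mul_assoc, h1, mul_assoc, e' a c rfl rfl, mul_neg, mul_assoc])
theorem An.mul_cm (h : PC P π) {x y z : G} (e : An π x y) (e' : Cm π x z) : An π x (y * z) := by
  obtain ⟨a, rfl⟩ := h.surj x
  obtain ⟨b, rfl⟩ := h.surj y
  obtain ⟨c, rfl⟩ := h.surj z
  rw [← map_mul]
  have h1 : mat a * mat c = mat c * mat a := congrArg mat (e' a c rfl rfl)
  exact h.an_of (by rw [mat_mul, ← mul_assoc, e a b rfl rfl, neg_mul, mul_assoc, h1, mul_assoc])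
theorem An.mul_an (h : PC P π) {x y z : G} (e : An π x y) (e' : An π x z) : Cm π x (y * z) := by
  obtain ⟨a, rfl⟩ := h.surj x
  obtain ⟨b, rfl⟩ := h.surj y
  obtain ⟨c, rfl⟩ := h.surj z
  rw [← map_mul]
  exact h.cm_of (mat_inj (by
    simp only [mat_mul]
    rw [← mul_assoc, e a b rfl rfl, neg_mul, mul_assoc, e' a c rfl rfl, mul_neg, neg_neg,
      mul_assoc]))
theorem An.inv {x y : G} (e : An π x y) : An π x y⁻¹ := fun a b ha hb => by
  have h1 := e a b⁻¹ ha (by rw [map_inv, hb, inv_inv])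
  linear_combination (norm := noncomm_ring) mat b * h1 * mat b - mat b * mat a * mat_inv_mul b -
    mat_mul_inv b * (mat a * mat b)

theorem pow_mul_of_rel {X Y : M4 F} {c : F} (e : X * Y = c • (Y * X)) (n : ℕ) :
    X ^ n * Y = c ^ n • (Y * X ^ n) := by
  induction n with
  | zero => simp
  | succ n ih =>
    rw [pow_succ, mul_assoc, e, mul_smul_comm, ← mul_assoc, ih, smul_mul_assoc, smul_smul,
      mul_assoc, pow_succ' c]

theorem PC.pow_eq_one (h : PC P π) {a b : P} {c : F} (e : mat a * mat b = c • (mat b * mat a))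
    {n : ℕ} (hx : π a ^ n = 1) : c ^ n = 1 := by
  obtain ⟨d, hd⟩ := (h.eq_one_iff (a ^ n)).1 (by rw [map_pow, hx])
  have h1 := pow_mul_of_rel e n
  rw [← mat_pow, hd, smul_mul_assoc, mul_smul_comm, one_mul, mul_one, smul_smul] at h1
  exact ((mul_eq_right₀ (ne_zero_of_smul hd)).1 (smul_mat_inj h1).symm)

theorem PC.cm_of_odd (h : PC P π) {x y : G} {n : ℕ} (hn : Odd n) (hx : x ^ n = 1)
    (e : Commute x y) : Cm π x y := by
  obtain ⟨a, rfl⟩ := h.surj x
  obtain ⟨b, rfl⟩ := h.surj y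
  obtain ⟨c, h4, hc⟩ := h.comm e
  have h1 := pow_gcd_eq_one.2 ⟨h4, h.pow_eq_one hc hx⟩
  rw [show Nat.gcd 4 n = 1 from (Nat.coprime_two_left.2 hn).pow_left 2, pow_one] at h1
  exact h.cm_of (mat_inj (by rw [mat_mul, hc, h1, one_smul, mat_mul]))
theorem PC.cm_or_an (h : PC P π) {x y : G} (hx : x * x = 1) (e : Commute x y) :
    Cm π x y ∨ An π x y := by
  obtain ⟨a, rfl⟩ := h.surj x
  obtain ⟨b, rfl⟩ := h.surj y
  obtain ⟨c, -, hc⟩ := h.comm e
  rcases sq_eq_one_iff.1 (h.pow_eq_one hc (n := 2) (by rw [pow_two, hx])) with rfl | rfl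
  · exact Or.inl (h.cm_of (mat_inj (by rw [mat_mul, hc, one_smul, mat_mul])))
  · exact Or.inr (h.an_of (by rw [hc, neg_one_smul]))
theorem PC.not_cm_an (h : PC P π) (h2 : (2 : F) ≠ 0) {x y : G} (e : Cm π x y) : ¬ An π x y := by
  obtain ⟨a, rfl⟩ := h.surj x
  obtain ⟨b, rfl⟩ := h.surj y
  intro e'
  have h1 := e' a b rfl rfl
  rw [← mat_mul, e a b rfl rfl, ← mat_mul, ← neg_one_smul F, ← one_smul F (mat (b * a)),
    smul_smul] at h1
  exact h2 (by linear_combination smul_mat_inj h1)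
theorem An.trace (h : PC P π) (h2 : (2 : F) ≠ 0) {a : P} {y : G} (e : An π (π a) y) :
    (mat a).trace = 0 := by
  obtain ⟨b, rfl⟩ := h.surj y
  have h1 := trace_conj b a
  rw [mat_mul, mat_mul, ← neg_neg (mat b * mat a), ← e a b rfl rfl, neg_mul, mul_assoc, mat_mul_inv,
    mul_one, trace_neg] at h1
  exact (mul_eq_zero.1 (show 2 * (mat a).trace = 0 by linear_combination -h1)).resolve_left h2
theorem PC.comp (h : PC P π) {G' : Type*} [Group G'] (e : G ≃* G') :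
    PC P ((e : G →* G').comp π) :=
  ⟨e.surjective.comp h.surj, fun g => by
    rw [← h.ker, MonoidHom.comp_apply, MonoidHom.coe_coe, map_eq_one_iff _ e.injective]⟩

theorem not_comm_of_equiv {G' : Type*} [Group G'] (e : G ≃* G') (h : ¬ IsMulCommutative G) :
    ¬ IsMulCommutative G' := fun h' =>
  h ⟨⟨fun a b => e.injective (by rw [map_mul, map_mul, h'.is_comm.comm])⟩⟩

theorem Ctx.comp (h : Ctx P π) {G' : Type*} [Group G'] (e : G ≃* G') :
    Ctx P ((e : G →* G').comp π) :=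
  have := h.simple
  ⟨⟨h.cov.sl, (h.pc.comp e).surj, (h.pc.comp e).ker⟩, h.qs, e.symm.isSimpleGroup,
    not_comm_of_equiv e h.nonab⟩
theorem Ev.comp (h : Ev P π) {G' : Type*} [Group G'] (e : G ≃* G') :
    Ev P ((e : G →* G').comp π) := ⟨h.toCtx.comp e, h.two, h.noRoot⟩
theorem Od.comp (h : Od P π) {G' : Type*} [Group G'] (e : G ≃* G') :
    Od P ((e : G →* G').comp π) :=
  have := h.simple
  ⟨h.toPC.comp e, h.sc, h.spans, e.symm.isSimpleGroup, not_comm_of_equiv e h.nonab, h.two, h.zeta,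
    h.split, h.noTv, h.small⟩

/-! ### Change of basis -/

theorem mat_cE (Q : G4 F) (g : P) : mat (cE Q P g) = (Q : M4 F) * mat g * ((Q⁻¹ : G4 F) : M4 F) :=
  rfl
theorem mat_cE' (Q : G4 F) (g : P) : mat (cE Q P g) = cj Q (mat g) := rfl
theorem mem_cP_iff {Q g : G4 F} : g ∈ cP Q P ↔ Q⁻¹ * g * Q ∈ P :=
  ⟨fun ⟨k, hk, e⟩ => by simpa [← e, mul_assoc] using hk,
    fun h => ⟨_, h, by simp [mul_assoc]⟩⟩
theorem cP_cP (Q : G4 F) : cP Q⁻¹ (cP Q P) = P :=
  Subgroup.ext fun g => by simp [mem_cP_iff, mul_assoc]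
theorem mem_cP' {Q : G4 F} {X : M4 F} : Mem (cP Q P) (cj Q X) ↔ Mem P X :=
  ⟨fun h => by
    obtain ⟨a, e⟩ := h.exists
    obtain ⟨a, rfl⟩ := (cE Q P).surjective a
    exact (cj Q).injective e ▸ mem_mat a, fun h => by
    obtain ⟨a, rfl⟩ := h.exists
    exact mem_mat (cE Q P a)⟩
theorem mem_cP {Q : G4 F} {X : M4 F} :
    Mem (cP Q P) ((Q : M4 F) * X * ((Q⁻¹ : G4 F) : M4 F)) ↔ Mem P X := mem_cP'
theorem conj_mem_scalars {Q g : G4 F} : Q * g * Q⁻¹ ∈ scalars (Fin 4) F ↔ g ∈ scalars (Fin 4) F :=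
  ⟨fun h => by
    have e := conj_of_mem_scalars h Q⁻¹
    rw [← e] at h
    simpa [mul_assoc] using h, fun h => (conj_of_mem_scalars h Q).symm ▸ h⟩
theorem PC.conj (h : PC P π) (Q : G4 F) : PC (cP Q P) (cπ Q π) :=
  ⟨h.surj.comp (cE Q P).symm.surjective, fun g => by
    obtain ⟨a, rfl⟩ := (cE Q P).surjective g
    rw [cπ_cE, h.ker, coe_cE, conj_mem_scalars]⟩
theorem spans_conj (h : Spans P) (Q : G4 F) : Spans (cP Q P) := fun x => by
  rw [← cj_cj_inv Q x]
  exact spanAlg_induction (p := fun y => cj Q y ∈ spanAlg (cP Q P))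
    (fun g hg => coe_mem_spanAlg (cE Q P ⟨g, hg⟩).2) (by simp)
    (fun a b ha hb => by rw [map_add]; exact add_mem ha hb)
    (fun c a ha => by rw [map_smul]; exact Subalgebra.smul_mem _ ha c) (h _)
theorem qs_conj (h : QS P) (Q : G4 F) : QS (cP Q P) where
  two_le := h.two_le
  perfect := by rw [cP, ← Subgroup.map_commutator, h.perfect]
  spans := spans_conj h.spans Q
  simple := fun N hN hn => by
    rcases h.simple (cP Q⁻¹ N) (fun g hg => by
        simpa [mem_cP_iff, mul_assoc] using hN (mem_cP_iff.1 hg))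
      (fun g hg x hx => mem_cP_iff.2 (by
        simpa [mul_assoc] using hn (Q * g * Q⁻¹) (mem_cP_iff.2 (by simpa [mul_assoc] using hg)) _
          (mem_cP_iff.1 hx))) with h1 | h1
    · exact Or.inl fun g hg => by
        simpa using (conj_mem_scalars (Q := Q⁻¹)).1
          (h1 (mem_cP_iff.2 (by simpa [mul_assoc] using hg)))
    · exact Or.inr (by rw [← h1, ← inv_inv Q, inv_inv Q⁻¹, cP_cP])
theorem mt_conj {v φ : Fin 4 → F} (h : MT P v φ) (Q : G4 F) :
    MT (cP Q P) ((Q : M4 F) *ᵥ v) (φ ᵥ* ((Q⁻¹ : G4 F) : M4 F)) := by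
  obtain ⟨h0, g, hg, e⟩ := h
  refine ⟨by rw [← dotProduct_mulVec, inv_mulVec_mulVec, h0], _, (cE Q P ⟨g, hg⟩).2, fun x => ?_⟩
  rw [coe_cE, mul_mulVec, mul_mulVec, e, mulVec_add, mulVec_inv_mulVec, mulVec_smul,
    dotProduct_mulVec]
theorem noTv_of_conj {Q : G4 F} (h : NoTv (cP Q P)) : NoTv P := fun v φ e =>
  (h _ _ (mt_conj e Q)).imp (fun e => (mulVec_eq_zero_iff Q v).1 e)
    fun e => by_contra fun h0 => D5.vecMul_gl_ne_zero h0 _ e
theorem noTv_conj {Q : G4 F} : NoTv (cP Q P) ↔ NoTv P :=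
  ⟨noTv_of_conj, fun h => noTv_of_conj (Q := Q⁻¹) ((cP_cP (P := P) Q).symm ▸ h)⟩
theorem root_conj {n : ℕ} (h : Root P n) (Q : G4 F) : Root (cP Q P) n := by
  obtain ⟨v, φ, hv, hφ, A, hA, e⟩ := h
  exact ⟨_, _, mulVec_ne_zero Q hv, D5.vecMul_gl_ne_zero hφ Q⁻¹, A, hA, fun a ha => by
    simpa only [smul_vecMul] using mt_conj (e a ha) Q⟩
theorem small_of_conj {Q : G4 F} (h : Small (cP Q P)) : Small P := fun N M h1 h2 h3 h4 h5 h6 h7 => by
  have := h (cj Q N) (cj Q M) (by simpa using (mem_cP' (Q := Q)).2 h1)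
    (by simpa using (mem_cP' (Q := Q)).2 h2) (by simpa using h3) (by rw [← map_mul, h4, map_zero])
    (by rw [← map_mul, h5, map_zero]) (by rw [← map_mul, h6, map_zero])
    (by rw [← map_mul, h7, map_zero])
  simpa only [← map_neg, EmbeddingLike.apply_eq_iff_eq, EmbeddingLike.map_eq_zero_iff] using this
theorem small_conj {Q : G4 F} : Small (cP Q P) ↔ Small P :=
  ⟨small_of_conj, fun h => small_of_conj (Q := Q⁻¹) ((cP_cP (P := P) Q).symm ▸ h)⟩
theorem real_iff : Real P ↔ ∀ a : P, (mat a).trace = (mat a⁻¹).trace :=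
  ⟨fun h a => h a a.2, fun h g hg => h ⟨g, hg⟩⟩
theorem real_conj {Q : G4 F} : Real (cP Q P) ↔ Real P := by
  simp only [real_iff, (cE Q P).surjective.forall, ← map_inv, mat_cE', trace_cj]
theorem hform_conj {σ : F →+* F} {ε : F} {f : (Fin 4 → F) → (Fin 4 → F) → F} (hf : HForm σ ε f)
    (Q : G4 F) : HForm σ ε fun u v => f ((Q : M4 F) *ᵥ u) ((Q : M4 F) *ᵥ v) where
  invol := hf.invol
  eps := hf.eps
  add_left x y v := by rw [mulVec_add, hf.add_left]
  smul_left c x v := by rw [mulVec_smul, hf.smul_left]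
  herm v w := hf.herm _ _
  nondeg v h := (mulVec_eq_zero_iff Q v).1 (hf.nondeg _ fun x => by
    simpa only [mulVec_inv_mulVec] using h (((Q⁻¹ : G4 F) : M4 F) *ᵥ x))
theorem le_isoG_conj {Q : G4 F} {f : (Fin 4 → F) → (Fin 4 → F) → F} (h : cP Q P ≤ isoG f) :
    P ≤ isoG fun u v => f ((Q : M4 F) *ᵥ u) ((Q : M4 F) *ᵥ v) := fun g hg => mem_isoG.2 fun u v => by
  have := mem_isoG.1 (h (cE Q P ⟨g, hg⟩).2) ((Q : M4 F) *ᵥ u) ((Q : M4 F) *ᵥ v)
  simpa only [coe_cE, mul_mulVec, inv_mulVec_mulVec] using this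
theorem herm_of_conj {Q : G4 F} {q : ℕ} (h : Herm (cP Q P) q) : Herm P q :=
  let ⟨σ, _, h1, h2, h3⟩ := h
  ⟨σ, _, h1, hform_conj h2 Q, le_isoG_conj h3⟩
theorem herm_conj {Q : G4 F} {q : ℕ} : Herm (cP Q P) q ↔ Herm P q :=
  ⟨herm_of_conj, fun h => herm_of_conj (Q := Q⁻¹) ((cP_cP (P := P) Q).symm ▸ h)⟩
theorem trGen_conj {Q : G4 F} : TrGen (cP Q P) ↔ TrGen P := by
  refine forall_congr' fun k => imp_congr_left ⟨fun h g hg => ?_, fun h g hg => ?_⟩
  · simpa only [← cj_coe, trace_cj, coe_cE] using h _ (cE Q P ⟨g, hg⟩).2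
  · obtain ⟨k, hk, rfl⟩ := hg
    exact (trace_cj Q _).symm ▸ h k hk
theorem Ctx.conj (h : Ctx P π) (Q : G4 F) : Ctx (cP Q P) (cπ Q π) :=
  ⟨⟨D5.qs_le_sl (qs_conj h.qs Q), (h.pc.conj Q).surj, (h.pc.conj Q).ker⟩, qs_conj h.qs Q, h.simple,
    h.nonab⟩
theorem Ev.conj (h : Ev P π) (Q : G4 F) : Ev (cP Q P) (cπ Q π) :=
  ⟨h.toCtx.conj Q, h.two, fun e => h.noRoot ((cP_cP (P := P) Q) ▸ root_conj e Q⁻¹)⟩
theorem charpoly_cj (Q : G4 F) (X : M4 F) : (cj Q X).charpoly = X.charpoly := by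
  rw [cj_apply, Matrix.coe_units_inv, charpoly_units_conj]
theorem Od.conj (h : Od P π) (Q : G4 F) : Od (cP Q P) (cπ Q π) where
  toPC := h.toPC.conj Q
  sc g hg := mem_cP_iff.2 (h.sc (by simpa using (conj_mem_scalars (Q := Q⁻¹)).2 hg))
  spans := spans_conj h.spans Q
  simple := h.simple
  nonab := h.nonab
  two := h.two
  zeta := h.zeta
  split g hg := by
    obtain ⟨a, ha⟩ := (cE Q P).surjective ⟨g, hg⟩
    have e : (g : M4 F) = cj Q (mat a) := by rw [← mat_cE', ha]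
    rw [e, charpoly_cj]
    exact h.split _ a.2
  noTv := noTv_conj.2 h.noTv
  small := small_conj.2 h.small
theorem cm_conj {Q : G4 F} {x y : G} : Cm (cπ Q π) x y ↔ Cm π x y := by
  simp only [Cm, (cE Q P).surjective.forall, cπ_cE, ← map_mul, EmbeddingLike.apply_eq_iff_eq]
theorem an_conj {Q : G4 F} {x y : G} : An (cπ Q π) x y ↔ An π x y := by
  simp only [An, (cE Q P).surjective.forall, cπ_cE, mat_cE', ← map_mul, ← map_neg,
    EmbeddingLike.apply_eq_iff_eq]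
theorem rank_cj (Q : G4 F) (X : M4 F) : (cj Q X).rank = X.rank := by
  rw [cj_apply, rank_mul_eq_left_of_isUnit_det _ _ (isUnits_det_units Q⁻¹),
    rank_mul_eq_right_of_isUnit_det _ _ (isUnits_det_units Q)]
theorem rank_cj_sub (Q : G4 F) (X : M4 F) : (cj Q X - 1).rank = (X - 1).rank := by
  rw [← rank_cj Q (X - 1), map_sub, map_one]
theorem zt_conj {Q : G4 F} {x : G} : ZT (cπ Q π) x ↔ ZT π x := by
  simp only [ZT, (cE Q P).surjective.exists, cπ_cE, mat_cE', ← map_mul, rank_cj_sub,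
    EmbeddingLike.map_eq_one_iff]
theorem rt_conj {Q : G4 F} {x : G} : RT (cπ Q π) x ↔ RT π x := by
  simp only [RT, (cE Q P).surjective.exists, cπ_cE, mat_cE', ← map_mul, rank_cj_sub,
    EmbeddingLike.map_eq_one_iff]
theorem cj_eq_comb (Q : G4 F) (X Y : M4 F) (a b : F) :
    cj Q X = a • (1 : M4 F) + b • cj Q Y ↔ X = a • (1 : M4 F) + b • Y := by
  rw [← (cj Q).injective.eq_iff (a := X), map_add, map_smul, map_smul, map_one]
theorem bi_conj {Q : G4 F} {z x : G} : Bi (cπ Q π) z x ↔ Bi π z x := by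
  simp only [Bi, (cE Q P).surjective.forall, cπ_cE, mat_cE', cj_eq_comb]
theorem i0_conj {Q : G4 F} {z : G} {K : Subgroup G} : I0 (cπ Q π) z K ↔ I0 π z K :=
  ⟨fun h => ⟨zt_conj.1 h.zt, h.iso, by simpa only [cm_conj] using h.cm,
      by simpa only [cm_conj, bi_conj] using h.dec, by simpa only [an_conj] using h.an⟩,
    fun h => ⟨zt_conj.2 h.zt, h.iso, by simpa only [cm_conj] using h.cm,
      by simpa only [cm_conj, bi_conj] using h.dec, by simpa only [an_conj] using h.an⟩⟩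

end Cfsg.Agent.Cl.D4
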