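/-
Subgroups of `SL₄(F)`: lifts, irreducibility, traces.
-/
import Mathlib
import Cfsg.Agent.Cl.D4Ba
import Cfsg.Agent.Cl.LinearSylow

set_option autoImplicit false

namespace Cfsg.Agent.Cl.D4

open Matrix Cfsg.Geo Cfsg.Agent.Cl.Max Cfsg.Agent.Cl.Mx Subgroup
open Cfsg.Agent.Cl.D5 (MT Root TrGen Cov NoTv)
open scoped MatrixGroups commutatorElement

variable {F : Type*} [Field F] {G : Type*} [Group G] {P : Subgroup (G4 F)} {π : P →* G}

theorem det_of_cov (h : Cov P π) (a : P) : (mat a).det = 1 :=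
  (mem_specialLinear_iff _).1 (h.sl a.2)
theorem Cov.eq_iff4 (h : Cov P π) (a b : P) :
    π a = π b ↔ ∃ c : F, c ^ 4 = 1 ∧ mat a = c • mat b := by
  rw [(pc_of_cov h).eq_iff]
  refine exists_congr fun c => ⟨fun e => ⟨?_, e⟩, fun e => e.2⟩
  have := congrArg det e
  rw [det_smul, det_of_cov h, det_of_cov h] at this
  simpa using this.symm

theorem eq_one_of_pow_four {c : F} (h4 : c ^ 4 = 1) {n : ℕ} (hn : Odd n ∨ (2 : F) = 0)
    (h : c ^ n = 1) : c = 1 := by
  rcases hn with hn | hn
  · have := pow_gcd_eq_one.2 ⟨h4, h⟩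
    rwa [show Nat.gcd 4 n = 1 from (Nat.coprime_two_left.2 hn).pow_left 2, pow_one] at this
  · have : (c - 1) ^ 4 = 0 := by linear_combination h4 + (1 - 2 * c + 3 * c ^ 2 - 2 * c ^ 3) * hn
    exact sub_eq_zero.1 (pow_eq_zero_iff (by norm_num) |>.1 this)

theorem lift_unique (h : Cov P π) {n : ℕ} (hn : Odd n ∨ (2 : F) = 0) {a b : P} (e : π a = π b)
    (ha : a ^ n = 1) (hb : b ^ n = 1) : a = b := by
  obtain ⟨c, h4, e⟩ := (Cov.eq_iff4 h a b).1 e
  have h1 := mat_pow a n
  rw [e, smul_pow, ← mat_pow, ha, hb] at h1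
  have h2 : c ^ n = 1 := (smul_one_inj (a := 1) (by simpa [mat_one] using h1)).symm
  rw [eq_one_of_pow_four h4 hn h2, one_smul] at e
  exact mat_inj e

theorem pow_four_of_ker (h : Cov P π) {g : P} (e : π g = 1) : g ^ 4 = 1 := by
  obtain ⟨c, h4, e⟩ := (Cov.eq_iff4 h g 1).1 (by rw [e, map_one])
  refine mat_inj ?_
  rw [mat_pow, e, smul_pow, h4]
  simp [mat_one]

theorem exists_lift (h : Cov P π) {n : ℕ} (hn : Odd n ∨ (2 : F) = 0) {x : G} (hx : x ^ n = 1) :
    ∃ a : P, π a = x ∧ a ^ n = 1 := by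
  obtain ⟨g, rfl⟩ := h.surj x
  have h1 : π (g ^ n) = 1 := by rw [map_pow, hx]
  have h4 := pow_four_of_ker h h1
  rcases hn with hn | hn
  · obtain ⟨k, j, hj⟩ : ∃ k, 4 ∣ 1 + n * k := by
      have : n % 4 = 1 ∨ n % 4 = 3 := by obtain ⟨k, rfl⟩ := hn; omega
      rcases this with h | h
      exacts [⟨3, by omega⟩, ⟨1, by omega⟩]
    refine ⟨g ^ (1 + n * k), by rw [map_pow, pow_add, pow_mul, hx, one_pow, mul_one, pow_one], ?_⟩
    rw [← pow_mul, mul_comm, pow_mul, hj, pow_mul, h4, one_pow]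
  · exact ⟨g, rfl, lift_unique h (n := 4) (Or.inr hn) (by rw [h1, map_one]) h4 (one_pow _)⟩
theorem isConj_lift (h : Cov P π) {n : ℕ} (hn : Odd n ∨ (2 : F) = 0) {a b : P} (ha : a ^ n = 1)
    (hb : b ^ n = 1) (e : IsConj (π a) (π b)) : IsConj a b := by
  obtain ⟨y, hy⟩ := isConj_iff.1 e
  obtain ⟨y, rfl⟩ := h.surj y
  exact isConj_iff.2 ⟨y, lift_unique h hn (by rw [← hy]; simp) (by rw [conj_pow, ha]; simp) hb⟩
theorem injective_of_two (h : Cov P π) (h2 : (2 : F) = 0) : Function.Injective π :=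
  (injective_iff_map_eq_one π).2 fun g hg => lift_unique h (n := 4) (Or.inr h2)
    (by rw [hg, map_one]) (pow_four_of_ker h hg) (one_pow _)
theorem trace_eq_of_isConj {a b : P} (e : IsConj a b) : (mat a).trace = (mat b).trace :=
  D5.trace_eq_of_isConj e
theorem cov_mk (hP : P ≤ specialLinear (Fin 4) F) :
    Cov P (QuotientGroup.mk' ((scalars (Fin 4) F).subgroupOf P)) :=
  ⟨hP, QuotientGroup.mk'_surjective _, fun g => QuotientGroup.eq_one_iff g⟩
theorem nonempty_equiv (h : PC P π) : Nonempty ((P ⧸ (scalars (Fin 4) F).subgroupOf P) ≃* G) :=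
  ⟨(QuotientGroup.quotientMulEquivOfEq (Subgroup.ext fun g => (h.ker g).symm)).trans
    (QuotientGroup.quotientKerEquivOfSurjective π h.surj)⟩
/-- Schur's lemma. -/
theorem scalar_of_commute (h : Spans P) {X : M4 F} (hX : ∀ a : P, X * mat a = mat a * X) :
    ∃ c : F, X = c • (1 : M4 F) := h.scalar_of_commute fun g hg => hX ⟨g, hg⟩
theorem irr_of_spans (h : Spans P) (U : Submodule F (Fin 4 → F))
    (hU : ∀ a : P, ∀ v ∈ U, mat a *ᵥ v ∈ U) : U = ⊥ ∨ U = ⊤ := h.irr U fun g hg => hU ⟨g, hg⟩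

theorem inv_mem_subalgebra (A : Subalgebra F (M4 F)) {a : P} (ha : mat a ∈ A) : mat a⁻¹ ∈ A := by
  have h1 : Function.Injective (LinearMap.mulLeft F (⟨mat a, ha⟩ : A)) := fun x y e =>
    Subtype.ext ((a : G4 F).mul_right_inj.1 (congrArg Subtype.val e))
  obtain ⟨y, hy⟩ := LinearMap.injective_iff_surjective.1 h1 1
  have h2 : mat a * y = 1 := congrArg Subtype.val hy
  rw [← mul_one (mat a⁻¹), ← h2, ← mul_assoc, mat_inv_mul, one_mul]
  exact y.2

/-- A subalgebra containing lifts of generators is everything. -/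
theorem PC.mem_of_gen (h : PC P π) (hs : Spans P) {S : Set P} (hS : closure (π '' S) = ⊤)
    (A : Subalgebra F (M4 F)) (hA : ∀ a ∈ S, mat a ∈ A) (X : M4 F) : X ∈ A := by
  have key : ∀ a b : P, π a = π b → mat b ∈ A → mat a ∈ A := fun a b e hb => by
    obtain ⟨c, hc⟩ := (h.eq_iff a b).1 e
    exact hc ▸ A.smul_mem hb c
  have h1 : ∀ x ∈ closure (π '' S), ∀ a : P, π a = x → mat a ∈ A := fun x hx => by
    induction hx using closure_induction with
    | mem x hx =>
      obtain ⟨b, hb, rfl⟩ := hx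
      exact fun a e => key a b e (hA b hb)
    | one => exact fun a e => key a 1 (by rw [e, map_one]) A.one_mem
    | mul x y _ _ hx hy =>
      obtain ⟨b, rfl⟩ := h.surj x
      obtain ⟨c, rfl⟩ := h.surj y
      exact fun a e => key a (b * c) (by rw [e, map_mul]) (A.mul_mem (hx b rfl) (hy c rfl))
    | inv x _ hx =>
      obtain ⟨b, rfl⟩ := h.surj x
      exact fun a e => key a b⁻¹ (by rw [e, map_inv]) (inv_mem_subalgebra A (hx b rfl))
  exact spanAlg_induction (p := fun X => X ∈ A) (fun g hg => h1 _ (hS ▸ mem_top _) ⟨g, hg⟩ rfl)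
    A.zero_mem (fun _ _ => A.add_mem) (fun c _ e => A.smul_mem e c) (hs X)

/-- A subgroup mapping onto `G` together with the scalars generates `P`. -/
theorem PC.irr_of_gen (h : PC P π) (hs : Spans P) {S : Set P} (hS : closure (π '' S) = ⊤)
    (U : Submodule F (Fin 4 → F)) (hU : ∀ a ∈ S, ∀ v ∈ U, mat a *ᵥ v ∈ U) : U = ⊥ ∨ U = ⊤ :=
  irr_of_spans hs U fun a => h.mem_of_gen hs hS
    { carrier := {X | ∀ v ∈ U, X *ᵥ v ∈ U}
      mul_mem' := fun hx hy v hv => by rw [← mulVec_mulVec]; exact hx _ (hy v hv)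
      add_mem' := fun hx hy v hv => by rw [add_mulVec]; exact U.add_mem (hx v hv) (hy v hv)
      algebraMap_mem' := fun c v hv => by
        rw [Algebra.algebraMap_eq_smul_one, smul_mulVec, one_mulVec]; exact U.smul_mem c hv }
    hU (mat a)

theorem PC.commute_of_ker (h : PC P π) {g : P} (e : π g = 1) (k : P) : Commute g k :=
  Subtype.ext (mul_comm_of_mem_scalars ((h.ker g).1 e) k)

theorem PC.commutator_eq (h : PC P π) {a b a' b' : P} (ha : π a = π a') (hb : π b = π b') :
    ⁅a, b⁆ = ⁅a', b'⁆ := by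
  obtain ⟨s, hs⟩ := (h.eq_iff _ _).1 ha
  obtain ⟨t, ht⟩ := (h.eq_iff _ _).1 hb
  refine mat_inj ?_
  simp only [commutatorElement_def, mat_mul, mat_inv_of_smul hs, mat_inv_of_smul ht]
  rw [hs, ht]
  simp only [smul_mul_assoc, mul_smul_comm, smul_smul]
  rw [show t⁻¹ * (s⁻¹ * (t * s)) = 1 by
    have := ne_zero_of_smul hs; have := ne_zero_of_smul ht; field_simp, one_smul]

theorem commutator_eq_top (h : ⁅P, P⁆ = P) : commutator P = ⊤ := by
  have h2 : (commutator P).map P.subtype = P := by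
    rw [commutator_def, Subgroup.map_commutator, ← MonoidHom.range_eq_map,
      Subgroup.range_subtype, h]
  exact eq_top_iff.2 fun z _ => (Subgroup.mem_map_iff_mem P.subtype_injective).1 (h2.symm ▸ z.2)

theorem PC.commutator_le (h : PC P π) {H : Subgroup P} (hH : H.map π = ⊤) :
    commutator P ≤ ⁅H, H⁆ := Subgroup.commutator_le.2 fun a _ b _ => by
  obtain ⟨a', ha, e⟩ : π a ∈ H.map π := hH ▸ mem_top _
  obtain ⟨b', hb, e'⟩ : π b ∈ H.map π := hH ▸ mem_top _
  rw [← h.commutator_eq e e']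
  exact commutator_mem_commutator ha hb

theorem Ctx.closure_eq_top (h : Ctx P π) {S : Set P} (hS : closure (π '' S) = ⊤) :
    closure S = ⊤ :=
  eq_top_iff.2 (((commutator_eq_top h.qs.perfect).ge.trans
    (h.pc.commutator_le (by rw [MonoidHom.map_closure, hS]))).trans (commutator_le_self _))

/-- Two quadratic elements do not generate. -/
theorem PC.q2 (h : PC P π) (hs : Spans P) {x y : P} {a b c d : F}
    (hx : mat x * mat x = a • mat x + b • (1 : M4 F))
    (hy : mat y * mat y = c • mat y + d • (1 : M4 F)) : closure {π x, π y} ≠ ⊤ := fun hg' => by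
  have hg := h.mem_of_gen hs (S := {x, y}) (by rwa [Set.image_pair]) (Algebra.adjoin F {mat x, mat y})
    (by rintro _ (rfl | rfl) <;> exact Algebra.subset_adjoin (by simp))
  generalize mat x = x at hx hg
  generalize mat y = y at hy hg
  obtain ⟨e, he⟩ : ∃ e : F, x * y + y * x - c • x - a • y = e • 1 := by
    refine eq_smul_one_of_commute fun g => ?_
    have : Algebra.adjoin F {x, y} ≤ Subalgebra.centralizer F {x * y + y * x - c • x - a • y} := by
      refine Algebra.adjoin_le ?_
      rintro z (rfl | rfl) _ rfl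
      · simp only [sub_mul, mul_sub, add_mul, mul_add, smul_mul_assoc, mul_smul_comm]
        linear_combination (norm := noncomm_ring) y * hx - hx * y
      · simp only [sub_mul, mul_sub, add_mul, mul_add, smul_mul_assoc, mul_smul_comm]
        linear_combination (norm := noncomm_ring) x * hy - hy * x
    exact this (hg g) _ rfl
  let U : Submodule F (M4 F) := Submodule.span F (Set.range ![1, x, y, x * y])
  have m : ∀ i, ![1, x, y, x * y] i ∈ U := fun i => Submodule.subset_span ⟨i, rfl⟩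
  have m0 : (1 : M4 F) ∈ U := m 0
  have m1 : x ∈ U := m 1
  have m2 : y ∈ U := m 2
  have m3 : x * y ∈ U := m 3
  have hyx : y * x = e • 1 + c • x + a • y - x * y := by rw [← he]; abel
  have hU : ∀ z ∈ Algebra.adjoin F {x, y}, ∀ u ∈ U, z * u ∈ U := fun z hz => by
    induction hz using Algebra.adjoin_induction with
    | mem z hz =>
      intro u hu
      induction hu using Submodule.span_induction with
      | mem u hu =>
        obtain ⟨i, rfl⟩ := hu
        rcases hz with rfl | rfl
        · fin_cases i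
          · simpa using m1
          · simpa [hx] using U.add_mem (U.smul_mem a m1) (U.smul_mem b m0)
          · simpa using m3
          · simpa [← Matrix.mul_assoc, hx, add_mul] using
              U.add_mem (U.smul_mem a m3) (U.smul_mem b m2)
        · have h4 : z * x ∈ U := hyx ▸ U.sub_mem (U.add_mem (U.add_mem (U.smul_mem e m0)
            (U.smul_mem c m1)) (U.smul_mem a m2)) m3
          have h5 : z * z ∈ U := hy ▸ U.add_mem (U.smul_mem c m2) (U.smul_mem d m0)
          fin_cases i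
          · simpa using m2
          · simpa using h4
          · simpa using h5
          · have : z * (x * z) = e • z + a • (z * z) - d • x := by
              rw [← Matrix.mul_assoc, hyx]
              simp only [sub_mul, add_mul, smul_mul_assoc, Matrix.one_mul, Matrix.mul_assoc, hy,
                mul_add, mul_smul_comm, Matrix.mul_one]
              abel
            simpa [this] using U.sub_mem (U.add_mem (U.smul_mem e m2) (U.smul_mem a h5))
              (U.smul_mem d m1)
      | zero => simp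
      | add u v _ _ hu hv => rw [mul_add]; exact U.add_mem hu hv
      | smul r u _ hu => rw [mul_smul_comm]; exact U.smul_mem r hu
    | algebraMap r => intro u hu; rw [← Algebra.smul_def]; exact U.smul_mem r hu
    | add z w _ _ hz hw => intro u hu; rw [add_mul]; exact U.add_mem (hz u hu) (hw u hu)
    | mul z w _ _ hz hw => intro u hu; rw [Matrix.mul_assoc]; exact hz _ (hw u hu)
  have : U = ⊤ := eq_top_iff.2 fun z _ => by simpa using hU z (hg z) 1 m0
  have h4 : Module.finrank F U ≤ 4 := (finrank_range_le_card _).trans (by simp)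
  rw [this, finrank_top, Module.finrank_matrix] at h4
  simp at h4

theorem rank_sub_one (X : M4 F) :
    (X - 1).rank = Module.finrank F (LinearMap.range (1 - toLin' X)) := by
  have : 1 - toLin' X = -(X - 1).mulVecLin := by
    ext x i
    simp
  rw [this, LinearMap.range_neg]
  rfl

/-- Scott's inequality. -/
theorem PC.scott (h : PC P π) (hs : Spans P) {a b c : P} (e : a * b * c = 1)
    (hg : closure {π a, π b} = ⊤) :
    8 ≤ (mat a - 1).rank + (mat b - 1).rank + (mat c - 1).rank := by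
  have key := Spor.Scott.scott (toLin' (mat a)) (toLin' (mat b)) (toLin' (mat c)) (by
    rw [Module.End.mul_eq_comp, Module.End.mul_eq_comp, ← toLin'_mul, ← toLin'_mul, ← mat_mul,
      ← mat_mul, e, mat_one, toLin'_one, Module.End.one_eq_id])
  simp only [← rank_sub_one] at key
  have hg' : closure (π '' {a, b}) = ⊤ := by rwa [Set.image_pair]
  have hne : ¬ (∀ g ∈ ({a, b} : Set P), ∀ x, mat g *ᵥ x = x) := fun h0 => by
    rcases h.irr_of_gen hs hg' (Submodule.span F {Pi.single 0 1}) fun g hg v hv => by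
      rwa [h0 g hg] with h1 | h1
    · simp at h1
    · have h2 := finrank_span_singleton (K := F) (v := (Pi.single 0 1 : Fin 4 → F)) (by simp)
      rw [h1] at h2
      simp at h2
  set X := toLin' (mat a)
  set Y := toLin' (mat b)
  have h1 : LinearMap.range (1 - X) ⊔ LinearMap.range (1 - Y) = ⊤ := by
    refine (h.irr_of_gen hs hg' _ fun g hg x hx => ?_).resolve_left fun e => hne ?_
    · have : mat g *ᵥ x = x - (x - mat g *ᵥ x) := by abel
      rw [this]
      refine Submodule.sub_mem _ hx ?_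
      rcases hg with rfl | rfl
      · exact Submodule.mem_sup_left ⟨x, by simp [X]⟩
      · exact Submodule.mem_sup_right ⟨x, by simp [Y]⟩
    · rintro g (rfl | rfl) x
      · have : (1 - X) x ∈ (⊥ : Submodule F (Fin 4 → F)) := e ▸ Submodule.mem_sup_left ⟨x, rfl⟩
        simpa [X, sub_eq_zero, eq_comm] using this
      · have : (1 - Y) x ∈ (⊥ : Submodule F (Fin 4 → F)) := e ▸ Submodule.mem_sup_right ⟨x, rfl⟩
        simpa [Y, sub_eq_zero, eq_comm] using this
  have h2 : LinearMap.ker (1 - X) ⊓ LinearMap.ker (1 - Y) = ⊥ := by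
    refine (h.irr_of_gen hs hg' _ fun g hg x hx => ?_).resolve_right fun e => hne ?_
    · have : mat g *ᵥ x = x := by
        rcases hg with rfl | rfl
        · simpa [X, sub_eq_zero, eq_comm] using hx.1
        · simpa [Y, sub_eq_zero, eq_comm] using hx.2
      rwa [this]
    · intro g hg x
      have hx : x ∈ LinearMap.ker (1 - X) ⊓ LinearMap.ker (1 - Y) := e ▸ Submodule.mem_top
      rcases hg with rfl | rfl
      · simpa [X, sub_eq_zero, eq_comm] using hx.1
      · simpa [Y, sub_eq_zero, eq_comm] using hx.2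
  rw [h1, h2] at key
  simpa using key

theorem trace_uni {l : ℕ} (hl : l.Prime) (h0 : (l : F) = 0) {a : P} {k : ℕ} (h : a ^ l ^ k = 1) :
    (mat a).trace = 4 := by
  have := (isNilpotent_trace_of_isNilpotent (D5.uni_of_pow' hl h0 h)).eq_zero
  rw [trace_sub, trace_one, sub_eq_zero] at this
  simpa using this
theorem trace_pow_char (p : ℕ) [Fact p.Prime] [CharP F p] (a : P) :
    (mat a).trace ^ p = (mat (a ^ p)).trace := D5.tr_pow_char p a
/-- The trace only depends on the `p'`-part. -/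
theorem trace_mul_uni {l : ℕ} (hl : l.Prime) (h0 : (l : F) = 0) {a u : P} {k : ℕ}
    (h : u ^ l ^ k = 1) (e : Commute a u) : (mat (a * u)).trace = (mat a).trace := by
  have h1 : Commute (mat a) (mat u - 1) := (D5.coe_commute e).sub_right (Commute.one_right _)
  have := (isNilpotent_trace_of_isNilpotent
    (h1.isNilpotent_mul_left (D5.uni_of_pow' hl h0 h))).eq_zero
  rwa [mul_sub, mul_one, trace_sub, sub_eq_zero] at this
theorem trace_pow_char_pow (p : ℕ) [Fact p.Prime] [CharP F p] (a : P) (k : ℕ) :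
    (mat a).trace ^ p ^ k = (mat (a ^ p ^ k)).trace := by
  induction k with
  | zero => simp
  | succ k ih => rw [pow_succ, pow_mul, ih, trace_pow_char, ← pow_mul]
theorem real_of_coprime [Finite F] (p : ℕ) [Fact p.Prime] [CharP F p]
    (h : ∀ a : P, ¬ p ∣ orderOf a → (mat a).trace = (mat a⁻¹).trace) : Real P := real_iff.2 fun a => by
  obtain ⟨k, m, hm, e⟩ := Nat.exists_eq_pow_mul_and_not_dvd (orderOf_pos a).ne' p
    (Fact.out : p.Prime).ne_one
  have h1 := h (a ^ p ^ k) fun h1 => hm (h1.trans (orderOf_dvd_of_pow_eq_one (by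
    rw [← pow_mul, ← e, pow_orderOf_eq_one])))
  rw [← inv_pow, ← trace_pow_char_pow, ← trace_pow_char_pow] at h1
  exact (iterateFrobenius F p k).injective h1
theorem real_or_herm [Fintype F] (p : ℕ) [Fact p.Prime] [CharP F p] (hP : QS P) (ht : TrGen P)
    (h : ∀ a : P, (mat a).trace ^ p = (mat a⁻¹).trace) : Real P ∨ Herm P p := by
  have h1 : ∀ g : P, D5.tr g ^ p ^ 2 = D5.tr g := fun g => by
    rw [pow_two, pow_mul, h, h, inv_inv]
  by_cases h2 : ∀ a : F, a ^ p = a
  · exact Or.inl (real_iff.2 fun g => by rw [← h, h2])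
  push Not at h2
  obtain ⟨a, ha⟩ := h2
  obtain ⟨ε, f, h3, h4, h5⟩ := D5.exists_form_of_trace hP.spans (σ := frobenius F p)
    (fun a => by rw [frobenius_def, frobenius_def, ← pow_mul, ← pow_two,
      (D5.card_dvd_of_pow p ht h1).1]) fun g hg => h ⟨g, hg⟩
  obtain rfl := h5 ⟨a, ha⟩
  exact Or.inr ⟨_, f, ⟨by rw [Nat.card_eq_fintype_card, D5.card_of_sq p ht h1 ha], fun _ => rfl⟩,
    h3, h4⟩
theorem card_eq_of_fix [Fintype F] (p : ℕ) [Fact p.Prime] [CharP F p] (ht : TrGen P)
    (h : ∀ a : P, (mat a).trace ^ p = (mat a).trace) : Nat.card F = p := by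
  rw [Nat.card_eq_fintype_card, D5.card_eq_of_fix p ht h]
/-- A `p`-group is unitriangular in a suitable basis. -/
theorem exists_ut [Finite F] (p : ℕ) [Fact p.Prime] [CharP F p] (U : Subgroup P)
    (hU : IsPGroup p U) : ∃ Q : G4 F, ∀ a ∈ U, ∀ i j : Fin 4, j ≤ i →
      mat (cE Q P a) i j = if i = j then 1 else 0 := by
  obtain ⟨Q, hQ⟩ := exists_conj_le_unipRad p (b := (id : Fin 4 → Fin 4)) Function.injective_id
    (hU.map P.subtype)
  exact ⟨Q, fun a ha i j e => (mem_unipRad.1 (hQ a ⟨a, ha, rfl⟩) i j e).trans one_apply⟩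

theorem exists_vec_of_rank {N : M4 F} (h : N.rank ≤ 1) :
    ∃ v φ : Fin 4 → F, ∀ x, N *ᵥ x = (φ ⬝ᵥ x) • v := by
  obtain ⟨v, hv⟩ := (finrank_le_one_iff (K := F) (V := LinearMap.range N.mulVecLin)).1 h
  choose c hc using fun i : Fin 4 => hv ⟨N *ᵥ Pi.single i 1, _, rfl⟩
  refine ⟨v, c, fun x => ?_⟩
  have h1 : ∀ i, N *ᵥ Pi.single i 1 = c i • (v : Fin 4 → F) := fun i =>
    (congrArg Subtype.val (hc i)).symm
  conv_lhs => rw [pi_eq_sum_univ' x]
  simp only [mulVec_sum, mulVec_smul, h1, smul_smul, dotProduct, Finset.sum_smul, mul_comm]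

theorem notTv_of_noTv (h : NoTv P) {N : M4 F} (hN : Mem P (1 + N)) (h2 : N * N = 0)
    (h1 : N.rank ≤ 1) : N = 0 := by
  obtain ⟨v, φ, e⟩ := exists_vec_of_rank h1
  obtain ⟨g, hg, e'⟩ := hN
  by_contra h0
  have hv : v ≠ 0 := fun hv => h0 (ext_iff_mulVec.2 fun x => by simp [e, hv])
  have hφ : φ ≠ 0 := fun hv => h0 (ext_iff_mulVec.2 fun x => by simp [e, hv])
  refine (h v φ ⟨by_contra fun h3 => hφ (dotProduct_eq_zero φ fun x => ?_), g, hg, fun x => by
    rw [e', add_mulVec, one_mulVec, e]⟩).elim hv hφ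
  have := congrArg (· *ᵥ x) h2
  simp only [← mulVec_mulVec, e, dotProduct_smul, zero_mulVec, smul_eq_mul, smul_eq_zero,
    mul_eq_zero, hv, h3, or_false] at this
  exact this

end Cfsg.Agent.Cl.D4
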