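/-
Subgroups of `GL₄(F)` in odd characteristic: involutions and diagonalisation.
-/
import Mathlib
import Cfsg.Agent.Cl.D4Bb

set_option autoImplicit false

namespace Cfsg.Agent.Cl.D4

open Matrix Cfsg.Geo Cfsg.Agent.Cl.Max Cfsg.Agent.Cl.Mx Subgroup
open Cfsg.Agent.Cl.D5 (MT Root TrGen Cov NoTv)
open scoped MatrixGroups commutatorElement

variable {F : Type*} [Field F] {G : Type*} [Group G] {P : Subgroup (G4 F)} {π : P →* G}

theorem Od.pc (h : Od P π) : PC P π := h.toPC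
theorem Od.exists_smul (h : Od P π) (a : P) {c : F} (hc : c ≠ 0) :
    ∃ b : P, mat b = c • mat a ∧ π b = π a := by
  have e : mat ((⟨_, h.sc (sc_mem (Units.mk0 c hc))⟩ : P) * a) = c • mat a := by
    rw [mat_mul, mat, coe_sc, smul_mul_assoc, one_mul, Units.val_mk0]
  exact ⟨_, e, (h.pc.eq_iff _ _).2 ⟨c, e⟩⟩
theorem Od.mem_smul (h : Od P π) {X : M4 F} (hX : Mem P X) {c : F} (hc : c ≠ 0) :
    Mem P (c • X) := by
  obtain ⟨a, rfl⟩ := hX.exists
  obtain ⟨b, e, -⟩ := h.exists_smul a hc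
  exact e ▸ mem_mat b
theorem Od.exists_i (h : Od P π) : ∃ ι : F, ι * ι = -1 :=
  let ⟨ζ, e⟩ := h.zeta
  ⟨ζ ^ 2, by rw [← e]; ring⟩

theorem exists_eigen {X : M4 F} {c : F} (h : X.charpoly.IsRoot c) : ∃ v ≠ 0, X *ᵥ v = c • v := by
  rw [Polynomial.IsRoot, eval_charpoly, ← exists_mulVec_eq_zero_iff] at h
  obtain ⟨v, hv, e⟩ := h
  exact ⟨v, hv, by simpa [sub_mulVec, sub_eq_zero, eq_comm] using e⟩

theorem pow_mulVec_eigen {X : M4 F} {c : F} {v : Fin 4 → F} (e : X *ᵥ v = c • v) (n : ℕ) :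
    (X ^ n) *ᵥ v = c ^ n • v := by
  induction n with
  | zero => simp
  | succ n ih => rw [pow_succ, ← mulVec_mulVec, e, mulVec_smul, ih, smul_smul, pow_succ']

theorem ne_zero_of_isRoot {a : P} {c : F} (h : (mat a).charpoly.IsRoot c) : c ≠ 0 := by
  obtain ⟨v, hv, e⟩ := exists_eigen h
  rintro rfl
  exact mulVec_ne_zero _ hv (e.trans (zero_smul _ _))

theorem Od.exists_lift (h : Od P π) {x : G} {n : ℕ} (hx : x ^ n = 1) :
    ∃ a : P, π a = x ∧ a ^ n = 1 := by
  obtain ⟨a, rfl⟩ := h.surj x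
  obtain ⟨d, hd⟩ := (h.pc.eq_one_iff (a ^ n)).1 (by rw [map_pow, hx])
  obtain ⟨c, hc⟩ := (h.split a a.2).exists_eval_eq_zero (by simp [charpoly_degree_eq_dim])
  obtain ⟨v, hv, e⟩ := exists_eigen hc
  have h0 := ne_zero_of_isRoot hc
  have h1 := pow_mulVec_eigen e n
  rw [← mat_pow, hd, smul_mulVec, one_mulVec] at h1
  obtain ⟨b, hb, e'⟩ := h.exists_smul a (inv_ne_zero h0)
  refine ⟨b, e', mat_inj ?_⟩
  rw [mat_pow, hb, smul_pow, ← mat_pow, hd, smul_left_injective F hv h1, inv_pow,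
    inv_smul_smul₀ (pow_ne_zero n h0), mat_one]

theorem commutator_le_sl (P : Subgroup (G4 F)) : ⁅P, P⁆ ≤ specialLinear (Fin 4) F :=
  Subgroup.commutator_le.2 fun a _ b _ => by
    rw [specialLinear, MonoidHom.mem_ker, map_commutatorElement, commutatorElement_eq_one_iff_mul_comm,
      mul_comm]

theorem mem_commutator_iff {a : P} : a ∈ commutator P ↔ (a : G4 F) ∈ ⁅P, P⁆ := by
  rw [← Subgroup.map_subtype_commutator]
  exact (Subgroup.mem_map_iff_mem P.subtype_injective).symm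

theorem commutator_top_of_simple (hs : IsSimpleGroup G) (hn : ¬ IsMulCommutative G) :
    commutator G = ⊤ :=
  (hs.eq_bot_or_eq_top_of_normal _ inferInstance).resolve_left fun e =>
    hn ⟨⟨fun a b => commutatorElement_eq_one_iff_mul_comm.1 (Subgroup.mem_bot.1
      (e ▸ commutator_mem_commutator (mem_top a) (mem_top b)))⟩⟩

theorem Od.map_commutator (h : Od P π) : (commutator P).map π = ⊤ := by
  rw [map_commutator_eq, MonoidHom.range_eq_top.2 h.surj, ← commutator_def,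
    commutator_top_of_simple h.simple h.nonab]

theorem Od.exists_det (h : Od P π) (x : G) :
    ∃ a : P, π a = x ∧ (a : G4 F) ∈ ⁅P, P⁆ ∧ (mat a).det = 1 := by
  obtain ⟨a, ha, e⟩ : x ∈ (commutator P).map π := h.map_commutator ▸ mem_top _
  have := mem_commutator_iff.1 ha
  exact ⟨a, e, this, (mem_specialLinear_iff _).1 (commutator_le_sl P this)⟩

theorem Od.commutator_le (h : Od P π) {N : Subgroup (G4 F)} (hN : N ≤ P)
    (e : (N.subgroupOf P).map π = ⊤) : ⁅P, P⁆ ≤ ⁅N, N⁆ := by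
  have := Subgroup.map_mono (f := P.subtype) (h.pc.commutator_le e)
  rwa [Subgroup.map_subtype_commutator, Subgroup.map_commutator, subgroupOf_map_subtype,
    inf_eq_left.2 hN] at this

theorem Od.ctx (h : Od P π) :
    Ctx ⁅P, P⁆ (π.comp (inclusion (commutator_le_self P))) := by
  have h0 : (⁅P, P⁆.subgroupOf P).map π = ⊤ := by
    rw [← h.map_commutator]
    congr 1
    exact Subgroup.ext fun a => mem_commutator_iff.symm
  refine ⟨⟨commutator_le_sl P, fun x => ?_, fun g => h.ker _⟩, ⟨by simp,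
    le_antisymm (commutator_le_self _) (h.commutator_le (commutator_le_self P) h0),
    h.pc.mem_of_gen h.spans (S := (⁅P, P⁆.subgroupOf P : Subgroup P))
      (by rw [← coe_map, closure_eq, h0]) _ fun a ha => coe_mem_spanAlg ha,
    fun N hN hn => ?_⟩, h.simple, h.nonab⟩
  · obtain ⟨a, e, ha, -⟩ := h.exists_det x
    exact ⟨⟨a, ha⟩, e⟩
  have hN' := hN.trans (commutator_le_self P)
  refine (h.simple.eq_bot_or_eq_top_of_normal ((N.subgroupOf P).map π) ⟨?_⟩).imp
    (fun e g hg => (h.ker ⟨g, hN' hg⟩).1 (Subgroup.mem_bot.1 (e.le (mem_map_of_mem π hg))))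
    fun e => le_antisymm hN ((h.commutator_le hN' e).trans (commutator_le_self _))
  rintro _ ⟨a, ha, rfl⟩ x
  obtain ⟨b, rfl, hb, -⟩ := h.exists_det x
  exact ⟨b * a * b⁻¹, hn _ hb _ ha, by simp⟩

/-- No quadratic unipotent elements in characteristic at least five. -/
theorem Od.quad (h : Od P π) (h3 : (3 : F) ≠ 0) {N : M4 F} (hN : Mem P (1 + N)) (h2 : N * N = 0) :
    N = 0 := by_contra fun h0 => by
  have h4 : (1 + N) * (1 + N) = 1 + (2 : F) • N := by
    rw [two_smul]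
    linear_combination (norm := noncomm_ring) h2
  rcases h.small N ((2 : F) • N) hN (h4 ▸ hN.mul hN) h0 h2 (by simp [h2]) (by simp [h2])
    (by simp [h2]) with e | e | e
  · exact h0 ((smul_eq_zero.1 e).resolve_left h.two)
  · exact h0 (by linear_combination (norm := module) e)
  · exact h0 ((smul_eq_zero.1 (show (3 : F) • N = 0 by
      linear_combination (norm := module) e)).resolve_left h3)

/-! ### Diagonalisation -/

theorem exists_isDiag (B : Subgroup P) (hc : ∀ a ∈ B, ∀ b ∈ B, a * b = b * a) {r : ℕ} (hr : 0 < r)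
    {ζ : F} (hζ : IsPrimitiveRoot ζ r) (hB : ∀ a ∈ B, a ^ r = 1) :
    ∃ Q : G4 F, ∀ a ∈ B, (cj Q (mat a)).IsDiag := by
  obtain ⟨Q, d, hd⟩ := Cls.exists_hom_rootsOfUnity
    ((Units.coeHom _).comp (P.subtype.comp B.subtype))
    (fun a b => Subtype.ext (hc a a.2 b b.2)) hr hζ fun a => Subtype.ext (hB a a.2)
  exact ⟨Q⁻¹, fun a ha => (show cj Q⁻¹ (mat a) = _ from hd ⟨a, ha⟩) ▸ isDiag_diagonal _⟩

/-- The permutation matrix. -/
def pm (F : Type*) [Field F] (σ : Equiv.Perm (Fin 4)) : G4 F :=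
  ⟨σ.toPEquiv.toMatrix, σ.symm.toPEquiv.toMatrix,
    by rw [← PEquiv.toMatrix_trans, ← Equiv.toPEquiv_trans]; simp,
    by rw [← PEquiv.toMatrix_trans, ← Equiv.toPEquiv_trans]; simp⟩

theorem cj_pm (σ : Equiv.Perm (Fin 4)) (X : M4 F) : cj (pm F σ) X = X.submatrix σ σ := by
  change σ.toPEquiv.toMatrix * X * σ.symm.toPEquiv.toMatrix = _
  rw [PEquiv.toMatrix_toPEquiv_mul, PEquiv.mul_toMatrix_toPEquiv]
  rfl

theorem invol_diag (h2 : (2 : F) ≠ 0) {g : P} (hg : g * g = 1) {b : Fin 4 → Bool}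
    (hb : (mat g - 1).rank = (Finset.univ.filter fun i => b i).card) :
    ∃ Q : G4 F, cj Q (mat g) = diagonal fun i => sg F (b i) := by
  classical
  have := Fact.mk Nat.prime_two
  obtain ⟨Q, hQ⟩ := exists_isDiag (zpowers g) (by
      rintro _ ⟨m, rfl⟩ _ ⟨n, rfl⟩
      exact Commute.zpow_zpow_self g m n) two_pos (ζ := -1)
    (IsPrimitiveRoot.neg_one (ringChar F) fun e => h2 (by
      exact_mod_cast e ▸ ringChar.Nat.cast_ringChar (R := F))) (by
      rintro _ ⟨m, rfl⟩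
      rw [← zpow_natCast, ← _root_.zpow_mul, mul_comm, _root_.zpow_mul, zpow_natCast, pow_two, hg,
        _root_.one_zpow])
  have h1 := (hQ g (mem_zpowers g)).diagonal_diag.symm
  generalize (cj Q (mat g)).diag = d at h1
  have h3 : ∀ i, d i = sg F (decide (d i ≠ 1)) := fun i => by
    have h4 := congrArg (fun X => cj Q (mat X) i i) hg
    simp only [mat_mul, map_mul, h1, mat_one, map_one, diagonal_mul_diagonal, diagonal_apply_eq,
      one_apply_eq, mul_self_eq_one_iff] at h4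
    by_cases e : d i = 1
    · simp [sg, e]
    · simp [sg, e, h4.resolve_left e]
  rw [← rank_cj_sub Q, h1, ← diagonal_one, diagonal_sub, rank_diagonal, Fintype.card_subtype] at hb
  obtain ⟨σ, hσ⟩ := (show ∀ b c : Fin 4 → Bool, (Finset.univ.filter fun i => b i).card =
      (Finset.univ.filter fun i => c i).card → ∃ σ : Equiv.Perm (Fin 4), ∀ i, b (σ i) = c i by
    decide +kernel) (fun i => decide (d i ≠ 1)) b (by simpa [sub_eq_zero] using hb)
  refine ⟨pm F σ * Q, ?_⟩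
  rw [cj_mul, h1, cj_pm, submatrix_diagonal_equiv]
  exact congrArg diagonal (funext fun i => by rw [Function.comp_apply, h3, hσ])

theorem ZT.exists_diag' (h : Od P π) {t : G} (ht : ZT π t) : ∃ (Q : G4 F) (g : P), π g = t ∧
    g * g = 1 ∧ cj Q (mat g) = diagonal ![1, 1, -1, -1] := by
  obtain ⟨g, e, h1, h2⟩ := ht
  obtain ⟨Q, hQ⟩ := invol_diag h.two h1 (b := ![false, false, true, true]) (h2.trans (by decide))
  exact ⟨Q, g, e, h1, hQ.trans (congrArg diagonal (funext fun i => by fin_cases i <;> rfl))⟩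
theorem RT.exists_diag' (h : Od P π) {t : G} (ht : RT π t) : ∃ (Q : G4 F) (g : P), π g = t ∧
    g * g = 1 ∧ cj Q (mat g) = diagonal ![-1, 1, 1, 1] := by
  obtain ⟨g, e, h1, h2⟩ := ht
  obtain ⟨Q, hQ⟩ := invol_diag h.two h1 (b := ![true, false, false, false]) (h2.trans (by decide))
  exact ⟨Q, g, e, h1, hQ.trans (congrArg diagonal (funext fun i => by fin_cases i <;> rfl))⟩
theorem ZT.exists_diag (h : Od P π) {t : G} (ht : ZT π t) : ∃ (Q : G4 F) (g : P), π g = t ∧
    mat (cE Q P g) = diagonal ![1, 1, -1, -1] :=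
  let ⟨Q, g, h1, _, h2⟩ := ht.exists_diag' h
  ⟨Q, g, h1, h2⟩
theorem RT.exists_diag (h : Od P π) {t : G} (ht : RT π t) : ∃ (Q : G4 F) (g : P), π g = t ∧
    mat (cE Q P g) = diagonal ![-1, 1, 1, 1] :=
  let ⟨Q, g, h1, _, h2⟩ := ht.exists_diag' h
  ⟨Q, g, h1, h2⟩

theorem pow_eq_one_of_splits [Finite F] {a : P} (hs : (mat a).charpoly.Splits) {n : ℕ}
    (hn : (n : F) ≠ 0) (ha : π a ^ n = 1) (h : PC P π) : a ^ Nat.card Fˣ = 1 := by
  have hc : ∀ c : F, c ≠ 0 → c ^ Nat.card Fˣ = 1 := fun c hc => by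
    exact congrArg Units.val (pow_card_eq_one' (x := Units.mk0 c hc))
  obtain ⟨d, hd⟩ := (h.eq_one_iff (a ^ n)).1 (by rw [map_pow, ha])
  set u := mat (a ^ Nat.card Fˣ) with hu
  have h1 : u ^ n = 1 := by
    rw [hu, ← mat_pow, ← pow_mul, mul_comm, pow_mul, mat_pow, hd, smul_pow, one_pow,
      hc d (ne_zero_of_smul hd), one_smul]
  have h2 : IsNilpotent (u - 1) := by
    obtain ⟨k, hk⟩ : (mat a).charpoly ∣
        (Polynomial.X ^ Nat.card Fˣ - 1) ^ Multiset.card (mat a).charpoly.roots := by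
      conv_lhs => rw [hs.eq_prod_roots_of_monic (charpoly_monic _)]
      rw [← Multiset.prod_replicate, ← Multiset.map_const']
      exact Multiset.prod_dvd_prod_of_dvd _ _ fun c hc' => Polynomial.dvd_iff_isRoot.2 (by
        simp [hc c (ne_zero_of_isRoot (Polynomial.isRoot_of_mem_roots hc'))])
    have := congrArg (Polynomial.aeval (mat a)) hk
    rw [map_mul, aeval_self_charpoly, zero_mul, map_pow, map_sub, map_pow, Polynomial.aeval_X,
      map_one, ← mat_pow] at this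
    exact ⟨_, this⟩
  have h3 : IsUnit (∑ i ∈ Finset.range n, u ^ i) := by
    obtain ⟨k, hk⟩ : Polynomial.X - 1 ∣ ∑ i ∈ Finset.range n, (Polynomial.X : Polynomial F) ^ i -
        Polynomial.C (n : F) := Polynomial.dvd_iff_isRoot.2 (by simp [Polynomial.eval_finset_sum])
    have h4 := congrArg (Polynomial.aeval u) hk
    simp only [map_sub, map_sum, map_pow, Polynomial.aeval_X, Polynomial.aeval_C, map_mul,
      map_one, sub_eq_iff_eq_add] at h4
    rw [h4]
    refine IsNilpotent.isUnit_add_right_of_commute (Commute.isNilpotent_mul_right ?_ h2)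
      ((IsUnit.mk0 _ hn).map _) (Algebra.commutes _ _).symm
    have h5 := (Commute.all (Polynomial.X - 1) k).map (Polynomial.aeval u)
    rwa [map_sub, map_one, Polynomial.aeval_X] at h5
  exact mat_inj (sub_eq_zero.1 (h3.mul_right_eq_zero.1 ((geom_sum_mul u n).trans
    (by rw [h1, sub_self]))))

/-- Simultaneous diagonalisation of commuting lifts of elements of order prime to `p`. -/
theorem Od.exists_diag [Finite F] (h : Od P π) {A : Subgroup G} (hc : ∀ x ∈ A, ∀ y ∈ A, Cm π x y) {n : ℕ}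
    (hn : (n : F) ≠ 0) (hA : ∀ x ∈ A, x ^ n = 1) :
    ∃ Q : G4 F, ∀ a : P, π a ∈ A → (mat (cE Q P a)).IsDiag := by
  obtain ⟨ζ, hζ⟩ := IsCyclic.exists_ofOrder_eq_natCard (α := Fˣ)
  exact exists_isDiag (A.comap π) (fun a ha b hb => hc _ ha _ hb a b rfl rfl) Nat.card_pos
    (IsPrimitiveRoot.coe_units_iff.2 (hζ ▸ IsPrimitiveRoot.orderOf ζ))
    fun a ha => pow_eq_one_of_splits (h.split a a.2) hn (hA _ ha) h.pc

/-! ### The two kinds of involutions -/

theorem rank_add_rank (h2 : (2 : F) ≠ 0) {g : M4 F} (h : g * g = 1) :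
    (g - 1).rank + (g + 1).rank = 4 := by
  refine le_antisymm (rank_add_rank_le_card_of_mul_eq_zero (A := g - 1) (B := g + 1)
      (by rw [sub_mul, mul_add, h]; simp [add_comm])) ?_
  have h1 : (⊤ : Submodule F (Fin 4 → F)) ≤
      LinearMap.range (g - 1).mulVecLin ⊔ LinearMap.range (g + 1).mulVecLin := fun x _ => by
    have : x = (g - 1) *ᵥ (-(2 : F)⁻¹ • x) + (g + 1) *ᵥ ((2 : F)⁻¹ • x) := by
      simp only [sub_mulVec, add_mulVec, one_mulVec, mulVec_smul]
      have : (2 : F)⁻¹ + 2⁻¹ = 1 := by field_simp; norm_num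
      linear_combination (norm := module) (-this) • x
    rw [this]
    exact Submodule.add_mem_sup ⟨_, rfl⟩ ⟨_, rfl⟩
  simpa [Matrix.rank] using
    (Submodule.finrank_mono h1).trans (Submodule.finrank_add_le_finrank_add_finrank _ _)

theorem eq_zero_of_rank {X : M4 F} (h : X.rank = 0) : X = 0 := by
  have : LinearMap.range X.mulVecLin = ⊥ := Submodule.finrank_eq_zero.1 h
  rw [LinearMap.range_eq_bot] at this
  exact Matrix.toLin'.injective (this.trans (map_zero _).symm)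

theorem rank_neg4 (X : M4 F) : (-X).rank = X.rank := by
  rw [← neg_one_mul X, rank_mul_eq_right_of_isUnit_det _ _ (by simp [det_neg])]

theorem Od.zt_or_rt (h : Od P π) {t : G} (ht : orderOf t = 2) : ZT π t ∨ RT π t := by
  obtain ⟨g, rfl, hg⟩ := h.exists_lift (ht ▸ pow_orderOf_eq_one t)
  rw [pow_two] at hg
  have h1 : π g ≠ 1 := fun e => by simp [e] at ht
  have h2 := rank_add_rank h.two (g := mat g) (congrArg mat hg)
  have h3 : (mat g - 1).rank ≠ 0 := fun e => h1 ((h.pc.eq_one_iff g).2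
    ⟨1, by rw [one_smul]; exact sub_eq_zero.1 (eq_zero_of_rank e)⟩)
  have h4 : (mat g + 1).rank ≠ 0 := fun e => h1 ((h.pc.eq_one_iff g).2
    ⟨-1, by rw [neg_one_smul]; exact eq_neg_of_add_eq_zero_left (eq_zero_of_rank e)⟩)
  obtain e | e | e : (mat g - 1).rank = 2 ∨ (mat g - 1).rank = 1 ∨ (mat g + 1).rank = 1 := by omega
  · exact Or.inl ⟨g, rfl, hg, e⟩
  · exact Or.inr ⟨g, rfl, hg, e⟩
  · obtain ⟨b, hb, e'⟩ := h.exists_smul g (neg_ne_zero.2 (one_ne_zero' F))
    refine Or.inr ⟨b, e', mat_inj ?_, ?_⟩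
    · rw [mat_mul, hb, smul_mul_smul_comm, ← mat_mul, hg]; simp
    · rw [hb, neg_one_smul, ← neg_add', rank_neg4, e]

theorem orderOf_of_diag (h : Od P π) {Q : G4 F} {g : P} (hg : g * g = 1) {d : Fin 4 → F}
    (e : cj Q (mat g) = diagonal d) (hd : d 0 = -d 2) : orderOf (π g) = 2 := by
  have := Fact.mk Nat.prime_two
  refine orderOf_eq_prime (by rw [pow_two, ← map_mul, hg, map_one]) fun h1 => ?_
  obtain ⟨c, hc⟩ := (h.pc.eq_one_iff g).1 h1
  rw [hc, map_smul, map_one] at e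
  have h2 := congrFun₂ e 0 0
  have h3 := congrFun₂ e 2 2
  simp only [Matrix.smul_apply, one_apply_eq, smul_eq_mul, mul_one, diagonal_apply_eq] at h2 h3
  exact mul_ne_zero h.two (ne_zero_of_smul hc) (by rw [← h2, ← h3] at hd; linear_combination hd)

theorem ZT.orderOf (h : Od P π) {t : G} (ht : ZT π t) : orderOf t = 2 := by
  obtain ⟨Q, g, rfl, h1, h2⟩ := ht.exists_diag' h
  exact orderOf_of_diag h h1 h2 (by simp)
theorem RT.orderOf (h : Od P π) {t : G} (ht : RT π t) : orderOf t = 2 := by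
  obtain ⟨Q, g, rfl, h1, h2⟩ := ht.exists_diag' h
  exact orderOf_of_diag h h1 h2 (by simp)
theorem ZT.conj (h : PC P π) {t : G} (ht : ZT π t) (g : G) : ZT π (g * t * g⁻¹) := by
  obtain ⟨a, rfl, h1, h2⟩ := ht
  obtain ⟨k, rfl⟩ := h.surj g
  exact ⟨k * a * k⁻¹, by simp, by rw [conj_mul, h1]; simp, (rank_cj_sub (k : G4 F) _).trans h2⟩
theorem RT.conj (h : PC P π) {t : G} (ht : RT π t) (g : G) : RT π (g * t * g⁻¹) := by
  obtain ⟨a, rfl, h1, h2⟩ := ht
  obtain ⟨k, rfl⟩ := h.surj g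
  exact ⟨k * a * k⁻¹, by simp, by rw [conj_mul, h1]; simp, (rank_cj_sub (k : G4 F) _).trans h2⟩
theorem ZT.trace (h : Od P π) {a : P} (ht : ZT π (π a)) : (mat a).trace = 0 := by
  obtain ⟨Q, g, e, -, h2⟩ := ht.exists_diag' h
  obtain ⟨c, hc⟩ := (h.pc.eq_iff _ _).1 e.symm
  rw [hc, trace_smul, ← trace_cj Q, h2]
  simp [Fin.sum_univ_four]
theorem RT.trace (h : Od P π) {a : P} (ht : RT π (π a)) : (mat a).trace ≠ 0 := by
  obtain ⟨Q, g, e, -, h2⟩ := ht.exists_diag' h
  obtain ⟨c, hc⟩ := (h.pc.eq_iff _ _).1 e.symm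
  rw [hc, trace_smul, ← trace_cj Q, h2]
  simpa [Fin.sum_univ_four, one_add_one_eq_two] using ⟨ne_zero_of_smul hc, h.two⟩
theorem Od.not_zt_rt (h : Od P π) {t : G} (ht : ZT π t) : ¬ RT π t := by
  obtain ⟨a, rfl⟩ := h.surj t
  exact fun e => e.trace h (ht.trace h)
theorem Od.zt_of_trace (h : Od P π) {a : P} (ht : orderOf (π a) = 2) (h0 : (mat a).trace = 0) :
    ZT π (π a) := (h.zt_or_rt ht).resolve_right fun e => e.trace h h0
theorem Od.zt_of_an (h : Od P π) {t y : G} (ht : orderOf t = 2) (e : An π t y) : ZT π t := by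
  obtain ⟨a, rfl⟩ := h.surj t
  exact h.zt_of_trace ht (e.trace h.pc h.two)
theorem RT.cm (h : Od P π) {r y : G} (hr : RT π r) (e : Commute r y) : Cm π r y :=
  (h.pc.cm_or_an (by rw [← pow_two, ← hr.orderOf h, pow_orderOf_eq_one]) e).resolve_right
    fun e' => h.not_zt_rt (h.zt_of_an (hr.orderOf h) e') hr

end Cfsg.Agent.Cl.D4
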