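/-
Subgroups of `GL₄(F)` in odd characteristic: elements which are scalar on both eigenspaces of an
involution.
-/
import Mathlib
import Cfsg.Agent.Cl.D4Bc

set_option autoImplicit false

namespace Cfsg.Agent.Cl.D4

open Matrix Cfsg.Geo Cfsg.Agent.Cl.Max Cfsg.Agent.Cl.Mx Subgroup
open Cfsg.Agent.Cl.D5 (MT Root TrGen Cov NoTv)
open scoped MatrixGroups commutatorElement

variable {F : Type*} [Field F] {G : Type*} [Group G] {P : Subgroup (G4 F)} {π : P →* G}

theorem PC.bi_of (h : PC P π) {g k : P} {a b : F} (e : mat k = a • (1 : M4 F) + b • mat g) :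
    Bi π (π g) (π k) := fun g' k' hg hk => by
  obtain ⟨s, hs⟩ := (h.eq_iff _ _).1 hg.symm
  obtain ⟨t, ht⟩ := (h.eq_iff _ _).1 hk
  exact ⟨t * a, t * b * s, by rw [ht, e, hs]; module⟩

theorem ZT.lift (h : Od P π) {z : G} (hz : ZT π z) : ∃ g : P, π g = z ∧ mat g * mat g = 1 ∧
    ∀ a b : F, a • mat g = b • (1 : M4 F) → a = 0 := by
  have h2 := hz.orderOf h
  obtain ⟨g, rfl, h1, -⟩ := hz
  refine ⟨g, rfl, congrArg mat h1, fun a b e => by_contra fun ha => ?_⟩
  rw [(h.pc.eq_one_iff g).2 ⟨a⁻¹ * b, by rw [mul_smul, ← e, inv_smul_smul₀ ha]⟩] at h2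
  simp at h2

theorem comb_mul {g : M4 F} (hg : g * g = 1) (a b c d : F) :
    (a • (1 : M4 F) + b • g) * (c • (1 : M4 F) + d • g) =
      (a * c + b * d) • (1 : M4 F) + (a * d + b * c) • g := by
  simp only [add_mul, mul_add, smul_mul_smul_comm, hg, one_mul, mul_one]
  module

theorem Bi.cm {z x y : G} (h : PC P π) (hx : Bi π z x) (hy : Cm π z y) : Cm π x y :=
  fun k l hk hl => mat_inj (by
    obtain ⟨g, hg⟩ := h.surj z
    obtain ⟨a, b, e⟩ := hx g k hg hk
    have h1 : mat g * mat l = mat l * mat g := congrArg mat (hy g l hg hl)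
    simp only [mat_mul, e, add_mul, mul_add, smul_mul_assoc, mul_smul_comm, h1, one_mul, mul_one])
theorem PC.bi_one (h : PC P π) (z : G) : Bi π z 1 := by
  obtain ⟨g, rfl⟩ := h.surj z
  simpa using h.bi_of (g := g) (k := 1) (a := 1) (b := 0) (by simp [mat_one])
theorem PC.bi_self (h : PC P π) (z : G) : Bi π z z := by
  obtain ⟨g, rfl⟩ := h.surj z
  exact h.bi_of (a := 0) (b := 1) (by simp)
theorem Bi.mul (h : Od P π) {z x y : G} (hz : ZT π z) (hx : Bi π z x) (hy : Bi π z y) :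
    Bi π z (x * y) := by
  obtain ⟨g, rfl, hg, -⟩ := hz.lift h
  obtain ⟨k, rfl⟩ := h.surj x
  obtain ⟨l, rfl⟩ := h.surj y
  obtain ⟨a, b, e⟩ := hx g k rfl rfl
  obtain ⟨c, d, e'⟩ := hy g l rfl rfl
  rw [← map_mul]
  exact h.pc.bi_of (by rw [mat_mul, e, e', comb_mul hg])
theorem Bi.inv (h : Od P π) {z x : G} (hz : ZT π z) (hx : Bi π z x) : Bi π z x⁻¹ := by
  obtain ⟨g, rfl, hg, -⟩ := hz.lift h
  obtain ⟨k, rfl⟩ := h.surj x
  obtain ⟨a, b, e⟩ := hx g k rfl rfl
  let A : Subalgebra F (M4 F) :=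
    { carrier := {X | ∃ a b : F, X = a • (1 : M4 F) + b • mat g}
      mul_mem' := by
        rintro _ _ ⟨a, b, rfl⟩ ⟨c, d, rfl⟩
        exact ⟨_, _, comb_mul hg a b c d⟩
      add_mem' := by
        rintro _ _ ⟨a, b, rfl⟩ ⟨c, d, rfl⟩
        exact ⟨a + c, b + d, by module⟩
      algebraMap_mem' := fun c => ⟨c, 0, by simp [Algebra.algebraMap_eq_smul_one]⟩ }
  obtain ⟨c, d, e'⟩ := inv_mem_subalgebra A (a := k) ⟨a, b, e⟩
  rw [← map_inv]
  exact h.pc.bi_of e'
theorem Bi.eq_of_sq (h : Od P π) {z x : G} (hz : ZT π z) (hx : Bi π z x) (h2 : x * x = 1) :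
    x = 1 ∨ x = z := by
  obtain ⟨g, rfl, hg, h0⟩ := hz.lift h
  obtain ⟨k, rfl⟩ := h.surj x
  obtain ⟨a, b, e⟩ := hx g k rfl rfl
  obtain ⟨c, hc⟩ := (h.pc.eq_one_iff (k * k)).1 (by rw [map_mul, h2])
  rw [mat_mul, e, comb_mul hg] at hc
  have h3 := h0 (a * b + b * a) (c - (a * a + b * b)) (by rw [sub_smul, ← hc, add_sub_cancel_left])
  rcases mul_eq_zero.1 ((mul_eq_zero.1 (show 2 * (b * a) = 0 by linear_combination h3)).resolve_left
    h.two) with rfl | rfl
  · exact Or.inl ((h.pc.eq_one_iff k).2 ⟨a, by simpa using e⟩)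
  · exact Or.inr ((h.pc.eq_iff k g).2 ⟨b, by simpa using e⟩)
theorem Bi.conj_an (h : Od P π) {z x s : G} (hz : ZT π z) (hx : Bi π z x) (hs : An π z s) :
    s * x * s⁻¹ = x⁻¹ := by
  obtain ⟨g, rfl, hg, -⟩ := hz.lift h
  obtain ⟨k, rfl⟩ := h.surj x
  obtain ⟨l, rfl⟩ := h.surj s
  obtain ⟨a, b, e⟩ := hx g k rfl rfl
  have h1 : mat (l * k * l⁻¹) = a • (1 : M4 F) + (-b) • mat g := by
    rw [mat_mul, mat_mul, e, mul_add, mul_smul_comm, mul_smul_comm, hs.symm l g rfl rfl, add_mul,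
      smul_mul_assoc, smul_mul_assoc, mul_one, neg_mul, mul_assoc, mat_mul_inv, mul_one, smul_neg,
      neg_smul]
  rw [← mul_eq_one_iff_eq_inv, ← map_inv, ← map_mul, ← map_mul, ← map_mul, h.pc.eq_one_iff]
  exact ⟨a * a + -b * b, by rw [mat_mul, h1, e, comb_mul hg]; module⟩
theorem Bi.sq_eq_one (h : Od P π) {z s : G} (hz : ZT π z) (hs : An π z s) (h2 : Bi π z (s * s)) :
    s * s = 1 := by
  have h1 := h2.conj_an h hz hs
  refine (h2.eq_of_sq h hz ?_).resolve_right fun e => h.pc.not_cm_an h.two ?_ hs.symm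
  · rw [mul_eq_one_iff_eq_inv, ← h1]
    group
  · exact e ▸ (h.pc.cm_self s).mul h.pc (h.pc.cm_self s)
theorem Bi.conj (h : PC P π) {z x : G} (hx : Bi π z x) (g : G) :
    Bi π (g * z * g⁻¹) (g * x * g⁻¹) := by
  obtain ⟨a, rfl⟩ := h.surj z
  obtain ⟨k, rfl⟩ := h.surj x
  obtain ⟨l, rfl⟩ := h.surj g
  obtain ⟨s, t, e⟩ := hx a k rfl rfl
  simpa using h.bi_of (g := l * a * l⁻¹) (k := l * k * l⁻¹) ((cj_eq_comb (l : G4 F) _ _ s t).2 e)

/-- The group of the elements which are scalar on both eigenspaces. -/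
def biS (h : Od P π) {z : G} (hz : ZT π z) : Subgroup G where
  carrier := {x | Bi π z x}
  one_mem' := h.pc.bi_one z
  mul_mem' := Bi.mul h hz
  inv_mem' := Bi.inv h hz

/-- The group of these elements is cyclic. -/
theorem exists_bi_gen [Finite F] (h : Od P π) {z : G} (hz : ZT π z) :
    ∃ d : G, ∀ x, Bi π z x ↔ x ∈ zpowers d := by
  obtain ⟨g, rfl, hg, h0⟩ := hz.lift h
  have h2 := h.two
  let M : F → M4 F := fun t => (2⁻¹ * (1 + t)) • (1 : M4 F) + (2⁻¹ * (1 - t)) • mat g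
  have hM : ∀ s t, M s * M t = M (s * t) := fun s t => by
    simp only [M, comb_mul hg]
    congr 2 <;> field_simp <;> ring
  have hM1 : M 1 = 1 := by simp [M, one_add_one_eq_two, h2]
  let S : Subgroup Fˣ :=
    { carrier := {t | Mem P (M t)}
      one_mem' := show Mem P (M 1) from hM1 ▸ mem_mat 1
      mul_mem' := fun {s t} hs ht => show Mem P (M (s * t)) from hM s t ▸ Mem.mul hs ht
      inv_mem' := fun {t} ht => by
        obtain ⟨k, hk⟩ := Mem.exists ht
        change Mem P (M _)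
        rw [← one_mul (M _), ← mat_inv_mul k, mul_assoc, hk, hM, Units.mul_inv, hM1, mul_one]
        exact mem_mat _ }
  obtain ⟨⟨t, ht⟩, hS⟩ := IsCyclic.exists_monoid_generator (α := S)
  obtain ⟨d, hd⟩ := Mem.exists ht
  have hn : ∀ n : ℕ, mat (d ^ n) = M (t ^ n : Fˣ) := fun n => by
    induction n with
    | zero => simp [hM1, mat_one]
    | succ n ih => rw [pow_succ, mat_mul, ih, hd, hM, pow_succ, Units.val_mul]
  refine ⟨π d, fun x => ⟨fun hx => ?_, fun hx => (zpowers_le (H := biS h hz)).2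
    (h.pc.bi_of hd) hx⟩⟩
  obtain ⟨k, rfl⟩ := h.surj x
  obtain ⟨a, b, e⟩ := hx g k rfl rfl
  have key : ∀ ε : F, ε * ε = 1 → a + ε * b ≠ 0 := fun ε hε h3 => by
    have h4 : mat k * ((1 : F) • (1 : M4 F) + ε • mat g) = 0 := by
      rw [e, comb_mul hg, show a * 1 + b * ε = 0 by linear_combination h3,
        show a * ε + b * 1 = 0 by linear_combination ε * h3 - b * hε]
      simp
    have h5 := h0 ε (-1) (by
      rw [neg_one_smul, ← add_eq_zero_iff_eq_neg', ← one_smul F (1 : M4 F)]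
      exact (k : G4 F).mul_right_eq_zero.1 h4)
    simp [h5] at hε
  have h3 : a + b ≠ 0 := by simpa using key 1 (by simp)
  have h4 : a - b ≠ 0 := by simpa [sub_eq_add_neg] using key (-1) (by simp)
  obtain ⟨k', hk, e'⟩ := h.exists_smul k (inv_ne_zero h3)
  have h5 : mat k' = M (Units.mk0 _ (div_ne_zero h4 h3)) := by
    simp only [M, hk, e, smul_add, smul_smul, Units.val_mk0]
    congr 2 <;> field_simp <;> ring
  obtain ⟨n, hn'⟩ := hS ⟨Units.mk0 _ (div_ne_zero h4 h3), show Mem P (M _) from h5 ▸ mem_mat k'⟩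
  have h6 : t ^ n = Units.mk0 _ (div_ne_zero h4 h3) := congrArg Subtype.val hn'
  rw [← e', mat_inj (h5.trans (h6 ▸ (hn n).symm)), map_pow]
  exact pow_mem (mem_zpowers _) n

theorem I0.eq_one (h : Od P π) {z x : G} {K : Subgroup G} (hK : I0 π z K) (hx : x ∈ K)
    (hb : Bi π z x) : x = 1 := by
  obtain ⟨e⟩ := hK.iso
  have : e ⟨x, hx⟩ ∈ center (alternatingGroup (Fin 5)) := mem_center_iff.2 fun y => by
    obtain ⟨y, rfl⟩ := e.surjective y
    rw [← map_mul, ← map_mul]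
    exact congrArg e (Subtype.ext ((hb.cm h.pc (hK.cm y y.2)).commute h.pc).eq.symm)
  rw [alternatingGroup.center_eq_bot (by simp), Subgroup.mem_bot,
    map_eq_one_iff _ e.injective] at this
  exact congrArg Subtype.val this
theorem I0.conj (h : Od P π) {z : G} {K : Subgroup G} (hK : I0 π z K) (g : G) :
    I0 π (g * z * g⁻¹) (K.map (MulAut.conj g).toMonoidHom) where
  zt := hK.zt.conj h.pc g
  iso := ⟨((MulAut.conj g).subgroupMap K).symm.trans hK.iso.some⟩
  cm := by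
    rintro _ ⟨x, hx, rfl⟩
    exact (hK.cm x hx).conj h.pc g
  dec x hx := by
    obtain ⟨k, hk, e⟩ := hK.dec (g⁻¹ * x * g) (by simpa [mul_assoc] using hx.conj h.pc g⁻¹)
    exact ⟨_, ⟨k, hk, rfl⟩, by simpa [mul_assoc] using e.conj h.pc g⟩
  an := by
    rintro _ ⟨a, ha, rfl⟩ _ ⟨b, hb, rfl⟩ h1 h2 h3 h4 h5 h6
    simp only [← map_mul, ne_eq, MulEquiv.coe_toMonoidHom, EmbeddingLike.map_eq_one_iff,
      EmbeddingLike.apply_eq_iff_eq] at h1 h2 h3 h4 h5 h6
    exact (hK.an a ha b hb h1 h2 h3 h4 h5 h6).conj h.pc g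
theorem I0.perfect {z : G} {K : Subgroup G} (hK : I0 π z K) : ⁅K, K⁆ = K := by
  rw [← Subgroup.map_subtype_commutator, commutator_eq_top_of_mulEquiv hK.iso.some.symm
    (commutator_alternatingGroup_eq_top (by simp)), ← MonoidHom.range_eq_map, range_subtype]
theorem I0.eq_commutator (h : Od P π) {z : G} {K : Subgroup G} (hK : I0 π z K) :
    K = ⁅C0 π h.pc z, C0 π h.pc z⁆ := by
  refine le_antisymm (hK.perfect.ge.trans (commutator_mono hK.cm hK.cm))
    (Subgroup.commutator_le.2 fun x hx y hy => ?_)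
  obtain ⟨k, hk, e⟩ := hK.dec x hx
  obtain ⟨l, hl, e'⟩ := hK.dec y hy
  have h1 := (e.cm h.pc hy).commute h.pc
  have h2 := (e'.cm h.pc (hK.cm k hk)).commute h.pc
  have : ⁅x, y⁆ = ⁅k, l⁆ := calc
    ⁅x, y⁆ = k * ((k⁻¹ * x) * y * (k⁻¹ * x)⁻¹) * k⁻¹ * y⁻¹ := by rw [commutatorElement_def]; group
    _ = k * l * (l⁻¹ * y * k⁻¹) * y⁻¹ := by rw [h1.eq]; group
    _ = _ := by rw [h2.inv_right.eq, commutatorElement_def]; group
  exact this ▸ hK.perfect.le (commutator_mem_commutator hk hl)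
/-- `K` is the commutator subgroup of `C0`, so it is unique, and normal in the centraliser. -/
theorem I0.unique (h : Od P π) {z : G} {K K' : Subgroup G} (hK : I0 π z K) (hK' : I0 π z K') :
    K = K' := (hK.eq_commutator h).trans (hK'.eq_commutator h).symm
theorem I0.le_of_perfect (h : Od P π) {z : G} {K L : Subgroup G} (hK : I0 π z K)
    (hL : ⁅L, L⁆ = L) (hc : ∀ x ∈ L, Commute z x) : L ≤ K := by
  have h1 : L ≤ C0 π h.pc z := hL.ge.trans (commutator_le_of_sq fun x hx =>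
    (h.pc.cm_or_an (by rw [← pow_two, ← hK.zt.orderOf h, pow_orderOf_eq_one]) (hc x hx)).elim
      (fun e => e.mul h.pc e) fun e => e.mul_an h.pc e)
  exact hL.ge.trans ((commutator_mono h1 h1).trans (hK.eq_commutator h).ge)
theorem I0.conj_mem (h : Od P π) {z g x : G} {K : Subgroup G} (hK : I0 π z K) (hg : Commute z g)
    (hx : x ∈ K) : g * x * g⁻¹ ∈ K := by
  have h1 := hK.conj h g
  rw [← hg.eq, mul_inv_cancel_right] at h1
  exact (h1.unique h hK).le ⟨x, hx, rfl⟩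

end Cfsg.Agent.Cl.D4
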