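/-
Subgroups of `SL₄(F)`: weights, elementary abelian 2-subgroups.
-/
import Mathlib
import Cfsg.Agent.Cl.D4B

set_option autoImplicit false

namespace Cfsg.Agent.Cl.D4

open Matrix Cfsg.Geo Cfsg.Agent.Cl.Max Cfsg.Agent.Cl.Mx Subgroup
open Cfsg.Agent.Cl.D5 (MT Root TrGen Cov NoTv)
open scoped MatrixGroups commutatorElement

variable {F : Type*} [Field F] {G : Type*} [Group G] {P : Subgroup (G4 F)} {π : P →* G}

namespace W

/-- Extension of scalars followed by a change of basis. -/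
structure Emb (Θ : M4 F →ₐ[F] M4 (AlgebraicClosure F)) : Prop where
  inj : Function.Injective Θ
  tr : ∀ X, (Θ X).trace = algebraMap F _ X.trace
  rank : ∀ X, (Θ X).rank = X.rank
  sc : ∀ X (c : AlgebraicClosure F), Θ X = c • 1 → ∃ c' : F, X = c' • 1

variable {Θ : M4 F →ₐ[F] M4 (AlgebraicClosure F)}

theorem exists_emb (Q : GL (Fin 4) (AlgebraicClosure F)) : ∃ Θ, Emb (F := F) Θ ∧
    ∀ X, Θ X = (Q⁻¹).val * X.map (algebraMap F (AlgebraicClosure F)) * Q.val := by
  let K := AlgebraicClosure F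
  let Θ : M4 F →ₐ[F] M4 K :=
    { toFun := fun X => (Q⁻¹).val * X.map (algebraMap F K) * Q.val
      map_one' := by simp
      map_mul' := fun X Y => by
        rw [Matrix.map_mul]
        simp only [mul_assoc, Units.mul_inv_cancel_left]
      map_zero' := by simp
      map_add' := fun X Y => by rw [Matrix.map_add _ (map_add _), mul_add, add_mul]
      commutes' := fun c => by
        rw [Algebra.algebraMap_eq_smul_one, Algebra.algebraMap_eq_smul_one,
          Matrix.map_smul' _ _ _ (map_mul _)]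
        simp [K] }
  have h1 : ∀ X, Θ X = (Q⁻¹).val * X.map (algebraMap F K) * Q.val := fun _ => rfl
  have h0 : ∀ X, X.map (algebraMap F K) = Q.val * Θ X * (Q⁻¹).val := fun X => by
    simp [h1, mul_assoc]
  refine ⟨Θ, ⟨fun X Y e => ?_, fun X => ?_, fun X => ?_, fun X c e => ?_⟩, h1⟩
  · exact Matrix.map_injective (algebraMap F K).injective (by simp only [h0, e])
  · rw [h1, trace_mul_cycle, Units.mul_inv, one_mul, AddMonoidHom.map_trace]
  · rw [h1, rank_mul_eq_left_of_isUnit_det _ _ (Matrix.isUnits_det_units Q),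
      rank_mul_eq_right_of_isUnit_det _ _ (Matrix.isUnits_det_units Q⁻¹), Cls.rank_map]
  · have h1 := h0 X
    rw [e, mul_smul_comm, smul_mul_assoc, mul_one, Units.mul_inv] at h1
    refine ⟨X 0 0, Matrix.ext fun i j => (algebraMap F K).injective ?_⟩
    have h2 := congrFun (congrFun h1 i) j
    have h3 := congrFun (congrFun h1 0) 0
    simp only [map_apply, Matrix.smul_apply, one_apply, if_true, smul_eq_mul, mul_one] at h2 h3 ⊢
    rw [h2, map_mul, h3]
    split_ifs <;> simp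

theorem exists_dg [Finite F] (h : PC P π) {A : Subgroup G} (hc : ∀ x ∈ A, ∀ y ∈ A, Cm π x y)
    {n : ℕ} (hn : (n : F) ≠ 0) (hA : ∀ x ∈ A, x ^ n = 1) :
    ∃ Θ, Emb (F := F) Θ ∧ ∀ a : P, π a ∈ A → (Θ (mat a)).IsDiag := by
  let K := AlgebraicClosure F
  have := Fintype.ofFinite F
  set r := n * (Fintype.card F - 1) with hr
  have hr0 : (r : F) ≠ 0 := by
    rw [hr, Nat.cast_mul, Nat.cast_sub Fintype.card_pos, FiniteField.cast_card_eq_zero]
    simpa using hn
  have : NeZero (r : K) := ⟨by rwa [← map_natCast (algebraMap F K), _root_.map_ne_zero]⟩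
  have h0 : r ≠ 0 := fun h => hr0 (by simp [h])
  have : NeZero r := ⟨h0⟩
  obtain ⟨ζ, hζ⟩ := HasEnoughRootsOfUnity.exists_primitiveRoot K r
  let ψ : A.comap π →* M4 K := (algebraMap F K).mapMatrix.toMonoidHom.comp
    ((Units.coeHom _).comp (P.subtype.comp (A.comap π).subtype))
  obtain ⟨Q, d, hd⟩ := Cls.exists_hom_rootsOfUnity ψ
    (fun a b => Subtype.ext (hc _ a.2 _ b.2 a b rfl rfl)) (Nat.pos_of_ne_zero h0) hζ fun a => by
      obtain ⟨c, hc⟩ := (h.eq_one_iff (a.1 ^ n)).1 (by rw [map_pow, hA _ a.2])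
      have hc0 : c ≠ 0 := fun e => det_mat_ne (a.1 ^ n) (by simp [hc, e])
      refine Subtype.ext (mat_inj ?_)
      rw [Subgroup.coe_pow, hr, pow_mul, mat_pow, hc, smul_pow,
        FiniteField.pow_card_sub_one_eq_one c hc0]
      simp [mat]
  obtain ⟨Θ, h1, h2⟩ := exists_emb (F := F) Q
  refine ⟨Θ, h1, fun a ha => ?_⟩
  rw [h2]
  exact (hd ⟨a, ha⟩).symm ▸ isDiag_diagonal _

theorem Emb.eq_one (e : Emb Θ) (h : PC P π) {a : P} (ha : (Θ (mat a)).IsDiag)
    {c : AlgebraicClosure F} (hc : ∀ i, Θ (mat a) i i = c) : π a = 1 := by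
  refine (h.eq_one_iff a).2 (e.sc _ c ?_)
  rw [← ha.diagonal_diag, smul_one_eq_diagonal]
  exact congrArg _ (funext hc)

theorem dg_mul {K : Type*} [Field K] {X : M4 K} (h : X.IsDiag) (Y : M4 K) (i j : Fin 4) :
    (X * Y) i j = X i i * Y i j := by
  rw [← h.diagonal_diag, diagonal_mul]
  simp

theorem mul_dg {K : Type*} [Field K] {X : M4 K} (h : X.IsDiag) (Y : M4 K) (i j : Fin 4) :
    (Y * X) i j = Y i j * X j j := by
  rw [← h.diagonal_diag, mul_diagonal]
  simp

theorem th_mul (Θ : M4 F →ₐ[F] M4 (AlgebraicClosure F)) (a b : P) :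
    Θ (mat (a * b)) = Θ (mat a) * Θ (mat b) := map_mul Θ _ _

theorem th_det (Θ : M4 F →ₐ[F] M4 (AlgebraicClosure F)) (a : P) : (Θ (mat a)).det ≠ 0 :=
  left_ne_zero_of_mul_eq_one (b := (Θ (mat a⁻¹)).det)
    (by rw [← det_mul, ← map_mul, mat_mul_inv, map_one, det_one])

theorem dg_ne {a : P} (ha : (Θ (mat a)).IsDiag) (i : Fin 4) : Θ (mat a) i i ≠ 0 :=
  left_ne_zero_of_mul_eq_one (b := Θ (mat a⁻¹) i i)
    (by rw [← dg_mul ha, ← map_mul, mat_mul_inv, map_one, one_apply_eq])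

/-- Entries of an element commuting with a diagonal element. -/
theorem off_zero {a s : P} (ha : (Θ (mat a)).IsDiag) (e : a * s = s * a) {i j : Fin 4}
    (hij : Θ (mat a) i i ≠ Θ (mat a) j j) : Θ (mat s) i j = 0 := by
  have h1 := congrArg (fun g => Θ (mat g) i j) e
  simp only [th_mul] at h1
  rw [dg_mul ha, mul_dg ha, mul_comm] at h1
  exact (mul_eq_mul_left_iff.1 h1).resolve_left hij

theorem sign (h : PC P π) {a : P} (ha : (Θ (mat a)).IsDiag) (h2 : π a * π a = 1) (i : Fin 4) :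
    Θ (mat a) i i = Θ (mat a) 0 0 ∨ Θ (mat a) i i = -Θ (mat a) 0 0 := by
  obtain ⟨c, hc⟩ := (h.eq_one_iff (a * a)).1 (by rw [map_mul, h2])
  have h1 : ∀ j, Θ (mat a) j j * Θ (mat a) j j = algebraMap F _ c := fun j => by
    rw [← dg_mul ha, ← th_mul, hc, map_smul, map_one]
    simp [Algebra.smul_def]
  exact mul_self_eq_mul_self_iff.1 ((h1 i).trans (h1 0).symm)

theorem two_ne (h2 : (2 : F) ≠ 0) : (2 : AlgebraicClosure F) ≠ 0 := by
  rwa [← map_ofNat (algebraMap F (AlgebraicClosure F)), _root_.map_ne_zero]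

theorem conj_eq (h : PC P π) {x y : P} (e : π x = π y) (a : P) : x * a * x⁻¹ = y * a * y⁻¹ := by
  have h1 : π (y⁻¹ * x) = 1 := by rw [map_mul, map_inv, e, inv_mul_cancel]
  have h2 := h.cm_one (π a) a _ rfl h1
  calc x * a * x⁻¹ = y * (y⁻¹ * x * a) * x⁻¹ := by group
    _ = _ := by rw [← h2]; group

/-- The action of `G` on `P` by conjugation. -/
noncomputable def kap (h : PC P π) : G →* MulAut P :=
  MonoidHom.mk' (fun g => MulAut.conj (Function.surjInv h.surj g)) fun g k => by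
    ext1 a
    rw [← map_mul, MulAut.conj_apply, MulAut.conj_apply]
    exact conj_eq h (by simp [Function.surjInv_eq]) a

theorem kap_apply (h : PC P π) (g a : P) : kap h (π g) a = g * a * g⁻¹ :=
  conj_eq h (Function.surjInv_eq _ _) a

theorem pi_kap (h : PC P π) (g : G) (a : P) : π (kap h g a) = g * π a * g⁻¹ := by
  obtain ⟨g, rfl⟩ := h.surj g
  simp [kap_apply]

end W

open W

variable [Finite F]

/-- The normaliser of a group with commuting lifts permutes the four weights. -/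
theorem PC.wperm (h : PC P π) {A : Subgroup G} (hc : ∀ x ∈ A, ∀ y ∈ A, Cm π x y) {n : ℕ}
    (hn : (n : F) ≠ 0) (hA : ∀ x ∈ A, x ^ n = 1) :
    ∃ φ : normalizer (A : Set G) →* Equiv.Perm (Fin 4), ∀ g, φ g = 1 → ∀ x ∈ A, Cm π g x := by
  classical
  obtain ⟨Θ, e, hd⟩ := exists_dg h hc hn hA
  let B := {a : P // π a ∈ A}
  let : MulAction (normalizer (A : Set G)) B :=
    { smul := fun g a => ⟨kap h g a, by rw [pi_kap]; exact (g.2 _).1 a.2⟩
      one_smul := fun a => Subtype.ext (by change kap h 1 a = a; simp)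
      mul_smul := fun g k a => Subtype.ext (by change kap h (g * k) a = kap h g (kap h k a); simp) }
  let : MulAction (normalizer (A : Set G)) (B → AlgebraicClosure F) := arrowAction
  let w : Fin 4 → B → AlgebraicClosure F := fun i a => Θ (mat a.1) i i
  let S : SubMulAction (normalizer (A : Set G)) (B → AlgebraicClosure F) :=
    { carrier := Set.range w
      smul_mem' := by
        rintro g _ ⟨i, rfl⟩
        obtain ⟨k, hk⟩ := h.surj g
        have h1 := th_det Θ k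
        rw [det_apply] at h1
        obtain ⟨σ, -, hσ⟩ := Finset.exists_ne_zero_of_sum_ne_zero h1
        refine ⟨σ i, funext fun a => ?_⟩
        have h2 : (a : P) * k = k * (g⁻¹ • a : B) := by
          change _ = k * kap h (g : G)⁻¹ a
          rw [← hk, ← map_inv, kap_apply]
          group
        have h3 := congrArg (fun g => Θ (mat g) (σ i) i) h2
        simp only [th_mul] at h3
        rw [dg_mul (hd _ a.2), mul_dg (hd _ (g⁻¹ • a : B).2), mul_comm] at h3
        exact mul_left_cancel₀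
          (Finset.prod_ne_zero_iff.1 (right_ne_zero_of_smul hσ) i (by simp)) h3 }
  let ι : S ↪ Fin 4 := ⟨fun s => s.2.choose, fun s t hst =>
    Subtype.ext (by rw [← s.2.choose_spec, ← t.2.choose_spec]; exact congrArg w hst)⟩
  refine ⟨(Equiv.Perm.viaEmbeddingHom ι).comp (MulAction.toPermHom _ S), fun g hg x hx => ?_⟩
  have h1 : MulAction.toPermHom _ S g = 1 :=
    Equiv.Perm.viaEmbeddingHom_injective ι (hg.trans (map_one _).symm)
  obtain ⟨a, rfl⟩ := h.surj x
  obtain ⟨k, hk⟩ := h.surj g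
  have h2 : ((g⁻¹ • (⟨a, hx⟩ : B) : B) : P) = a := by
    refine mat_inj (e.inj ?_)
    rw [← (hd _ (g⁻¹ • (⟨a, hx⟩ : B) : B).2).diagonal_diag, ← (hd a hx).diagonal_diag]
    refine congrArg _ (funext fun i => ?_)
    exact congrFun (congrArg Subtype.val (DFunLike.congr_fun h1 ⟨w i, i, rfl⟩)) ⟨a, hx⟩
  change kap h (g : G)⁻¹ a = a at h2
  rw [← hk, ← map_inv, kap_apply] at h2
  rw [← hk]
  refine h.cm_of ?_
  conv_lhs => rw [← h2]
  group

theorem W.perm_pow (s : Equiv.Perm (Fin 4)) : s ^ 3 = 1 ∨ s ^ 4 = 1 := by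
  revert s; decide +kernel

theorem W.pow_cm (h : PC P π) {A : Subgroup G} (hc : ∀ x ∈ A, ∀ y ∈ A, Cm π x y) {n : ℕ}
    (hn : (n : F) ≠ 0) (hA : ∀ x ∈ A, x ^ n = 1) {y : G} (hy : y ∈ normalizer (A : Set G)) :
    (∀ x ∈ A, Commute (y ^ 3) x) ∨ ∀ x ∈ A, Commute (y ^ 4) x := by
  obtain ⟨φ, hφ⟩ := h.wperm hc hn hA
  exact (perm_pow (φ ⟨y, hy⟩)).imp
    (fun e x hx => (hφ (⟨y, hy⟩ ^ 3) (by rw [map_pow, e]) x hx).commute h)
    fun e x hx => (hφ (⟨y, hy⟩ ^ 4) (by rw [map_pow, e]) x hx).commute h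

omit [Finite F] in
theorem W.cm_zpowers (h : PC P π) (x : G) : ∀ a ∈ zpowers x, ∀ b ∈ zpowers x, Cm π a b := by
  intro a ha b hb
  have h1 : ∀ y, Cm π y x → Cm π y b := fun y hy =>
    (zpowers_le (H := C0 π h y)).2 hy hb
  exact h1 a (Cm.symm ((zpowers_le (H := C0 π h x)).2 (h.cm_self x) ha))

/-- Cyclic version. -/
theorem PC.pow_comm (h : PC P π) {x y : G} {n k : ℕ} (hn : (n : F) ≠ 0) (hx : x ^ n = 1)
    (e : y * x * y⁻¹ = x ^ k) : Commute (y ^ 3) x ∨ Commute (y ^ 4) x := by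
  have := h.finite
  have hy : y ∈ normalizer (zpowers x : Set G) := mem_normalizer_fintype (by
    rintro _ ⟨m, rfl⟩
    simp only [← conj_zpow, e]
    exact zpow_mem (npow_mem_zpowers _ _) _)
  exact (pow_cm h (cm_zpowers h x) hn (by
    rintro _ ⟨m, rfl⟩
    rw [← zpow_natCast, ← _root_.zpow_mul, mul_comm, _root_.zpow_mul, zpow_natCast, hx,
      _root_.one_zpow]) hy).imp (fun e => e x (mem_zpowers x)) fun e => e x (mem_zpowers x)

/-- Sign patterns. -/
theorem W.exists_pat (h : PC P π) (h2 : (2 : F) ≠ 0) {A : Subgroup G}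
    (hc : ∀ x ∈ A, ∀ y ∈ A, Cm π x y) (hA : ∀ x ∈ A, x * x = 1) :
    Nat.card A ≤ 8 ∧ (8 ≤ Nat.card A → ∀ y, (∀ x ∈ A, Commute x y) → ∀ x ∈ A, Cm π y x) := by
  classical
  have := h.finite
  obtain ⟨Θ, e, hd⟩ := exists_dg h hc (n := 2) (by exact_mod_cast h2) fun x hx => by
    rw [pow_two, hA x hx]
  choose s hs using h.surj
  have hd' : ∀ x : A, (Θ (mat (s x))).IsDiag := fun x => hd _ (by rw [hs]; exact x.2)
  have hsg : ∀ (x : A) i, _ := fun x i => sign h (hd' x) (by rw [hs, hA x x.2]) i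
  let β : A → Fin 3 → Bool := fun x i => decide (Θ (mat (s x)) i.succ i.succ = Θ (mat (s x)) 0 0)
  have hβ : Function.Injective β := fun x y hxy => by
    have h1 : π (s x * s y) = 1 := by
      refine e.eq_one h (c := Θ (mat (s x)) 0 0 * Θ (mat (s y)) 0 0)
        (hd _ (by rw [map_mul, hs, hs]; exact A.mul_mem x.2 y.2)) fun i => ?_
      rw [th_mul, dg_mul (hd' x)]
      refine Fin.cases rfl (fun i => ?_) i
      have h3 := decide_eq_decide.1 (congrFun hxy i)
      by_cases h4 : Θ (mat (s x)) i.succ i.succ = Θ (mat (s x)) 0 0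
      · rw [h4, h3.1 h4]
      · rw [(hsg x _).resolve_left h4, (hsg y _).resolve_left (mt h3.2 h4), neg_mul_neg]
    rw [map_mul, hs, hs] at h1
    exact Subtype.ext (mul_right_cancel (h1.trans (hA y y.2).symm))
  have hcard : Nat.card (Fin 3 → Bool) = 8 := by simp
  refine ⟨hcard ▸ Nat.card_le_card_of_injective β hβ, fun h8 y hy x hx => ?_⟩
  have hb := (hβ.bijective_of_nat_card_le (hcard ▸ h8)).2
  obtain ⟨k, rfl⟩ := h.surj y
  have h3 : ∀ (i : Fin 3) (j : Fin 4), j ≠ i.succ →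
      Θ (mat k) i.succ j = 0 ∧ Θ (mat k) j i.succ = 0 := fun i j hj => by
    obtain ⟨r, hr⟩ := hb fun l => decide (l ≠ i)
    have h4 : ∀ j, j ≠ i.succ → Θ (mat (s r)) j j = Θ (mat (s r)) 0 0 := fun j => by
      refine Fin.cases (fun _ => rfl) (fun l hl => ?_) j
      exact (decide_eq_decide.1 (congrFun hr l)).2 fun e => hl (by rw [e])
    have h5 : Θ (mat (s r)) i.succ i.succ ≠ Θ (mat (s r)) 0 0 := fun e =>
      (decide_eq_decide.1 (congrFun hr i)).1 e rfl
    have h6 : Cm π r (π k) := by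
      refine (h.cm_or_an (hA r r.2) (hy r r.2)).resolve_right fun h7 => ?_
      have h8 := e.tr (mat (s r))
      rw [An.trace h h2 (by rw [hs]; exact h7), map_zero, trace] at h8
      simp only [diag_apply] at h8
      rw [← Finset.add_sum_erase _ _ (Finset.mem_univ i.succ),
        Finset.sum_congr rfl fun j hj => h4 j (Finset.ne_of_mem_erase hj),
        (hsg r _).resolve_left h5] at h8
      refine mul_ne_zero (two_ne h2) (dg_ne (hd' r) 0) ?_
      simp at h8
      linear_combination h8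
    have h7 := h6 (s r) k (hs _) rfl
    exact ⟨off_zero (hd' r) h7 (by rw [h4 j hj]; exact h5),
      off_zero (hd' r) h7 (by rw [h4 j hj]; exact h5.symm)⟩
  have h4 : (Θ (mat k)).IsDiag := fun i j hij => by
    rcases Fin.eq_zero_or_eq_succ i with rfl | ⟨i, rfl⟩
    · obtain ⟨j, rfl⟩ := Fin.exists_succ_eq.2 hij.symm
      exact (h3 j 0 hij).2
    · exact (h3 i j hij.symm).1
  rw [← hs x]
  refine h.cm_of (mat_inj (e.inj ?_))
  rw [th_mul, th_mul, ← h4.diagonal_diag, ← (hd' ⟨x, hx⟩).diagonal_diag]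
  exact (commute_diagonal _ _).eq

theorem PC.card_le_eight (h : PC P π) (h2 : (2 : F) ≠ 0) {A : Subgroup G}
    (hc : ∀ x ∈ A, ∀ y ∈ A, Cm π x y) (hA : ∀ x ∈ A, x * x = 1) : Nat.card A ≤ 8 :=
  (exists_pat h h2 hc hA).1

omit [Finite F] in
theorem W.ea_comm {E : Subgroup G} (hE : ∀ x ∈ E, x * x = 1) {x y : G} (hx : x ∈ E) (hy : y ∈ E) :
    Commute x y := by
  have h1 : ∀ z ∈ E, z⁻¹ = z := fun z hz => inv_eq_of_mul_eq_one_right (hE z hz)
  have := h1 _ (E.mul_mem hx hy)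
  rw [_root_.mul_inv_rev, h1 x hx, h1 y hy] at this
  exact this.symm

open Classical in
/-- The commutator form. -/
noncomputable def W.bf (π : P →* G) (x y : G) : ℂˣ := if Cm π x y then 1 else -1

omit [Finite F] in
theorem W.bf_eq_one {x y : G} : bf π x y = 1 ↔ Cm π x y := by
  unfold bf
  split_ifs with h
  · simp [h]
  · simp only [h, iff_false]
    intro e
    have := congrArg Units.val e
    norm_num at this

omit [Finite F] in
theorem W.bf_symm (x y : G) : bf π x y = bf π y x := by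
  classical
  exact if_congr ⟨Cm.symm, Cm.symm⟩ rfl rfl

omit [Finite F] in
theorem W.bf_mul (h : PC P π) (h2 : (2 : F) ≠ 0) {E : Subgroup G} (hE : ∀ x ∈ E, x * x = 1)
    {x y z : G} (hx : x ∈ E) (hy : y ∈ E) (hz : z ∈ E) :
    bf π x (y * z) = bf π x y * bf π x z := by
  unfold bf
  rcases h.cm_or_an (hE x hx) (ea_comm hE hx hy) with a | a <;>
    rcases h.cm_or_an (hE x hx) (ea_comm hE hx hz) with b | b
  · simp [a, b, a.mul h b]
  · simp [a, mt (h.not_cm_an h2) (not_not.2 b), mt (h.not_cm_an h2) (not_not.2 (a.mul_an h b))]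
  · simp [b, mt (h.not_cm_an h2) (not_not.2 a), mt (h.not_cm_an h2) (not_not.2 (a.mul_cm h b))]
  · simp [mt (h.not_cm_an h2) (not_not.2 a), mt (h.not_cm_an h2) (not_not.2 b), a.mul_an h b]

omit [Finite F] in
theorem W.bf_conj (h : PC P π) (x y g : G) : bf π (g * x * g⁻¹) (g * y * g⁻¹) = bf π x y := by
  classical
  exact if_congr ⟨fun e => by simpa [mul_assoc] using e.conj h g⁻¹, fun e => e.conj h g⟩ rfl rfl

theorem W.ea_main (h : PC P π) (h2 : (2 : F) ≠ 0) {E : Subgroup G} (hE : ∀ x ∈ E, x * x = 1) :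
    Nat.card E ≤ 16 ∧ ∀ x ∈ E, x ≠ 1 → (∀ y ∈ E, Cm π x y) → Nat.card E < 16 := by
  have := h.finite
  obtain ⟨I, ⟨hIE, hI⟩, hmax⟩ := (Set.toFinite
    {I : Subgroup G | I ≤ E ∧ ∀ x ∈ I, ∀ y ∈ I, Cm π x y}).exists_maximal
    ⟨⊥, bot_le, fun x _ y hy => by rw [mem_bot.1 hy]; exact h.cm_one x⟩
  have hk : ∀ y ∈ E, (∀ x ∈ I, Cm π y x) → y ∈ I := fun y hy hc => by
    have h1 : ∀ z, (∀ x ∈ I, Cm π z x) → Cm π z y → ∀ w ∈ I ⊔ zpowers y, Cm π z w :=
      fun z a b => sup_le (α := Subgroup G) (c := C0 π h z) a (zpowers_le.2 b)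
    refine hmax (y := I ⊔ zpowers y) ⟨sup_le hIE (zpowers_le.2 hy), fun z hz => h1 z
      (fun x hx => (h1 x (hI x hx) (hc x hx).symm z hz).symm) (h1 y hc (h.cm_self y) z hz).symm⟩
      le_sup_left (mem_sup_right (mem_zpowers y))
  obtain ⟨h8, h8'⟩ := exists_pat h h2 hI fun x hx => hE x (hIE hx)
  by_cases h4 : 8 ≤ Nat.card I
  · have : Nat.card E ≤ Nat.card I := card_le_of_le fun y hy =>
      hk y hy (h8' h4 y fun x hx => ea_comm hE (hIE hx) hy)
    exact ⟨by omega, fun _ _ _ _ => by omega⟩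
  have h5 : Nat.card I ≤ 4 := by
    have := Fact.mk Nat.prime_two
    obtain ⟨k, hk⟩ := IsPGroup.iff_card.1 (show IsPGroup 2 I from fun x =>
      ⟨1, Subtype.ext (by simpa [pow_two] using hE x (hIE x.2))⟩)
    rw [hk] at h4 ⊢
    exact Nat.pow_le_pow_right two_pos (show k ≤ 2 by
      by_contra h5
      exact h4 (Nat.pow_le_pow_right two_pos (show 3 ≤ k by omega)))
  let : CommGroup I := { (inferInstance : Group I) with
    mul_comm := fun a b => Subtype.ext (ea_comm hE (hIE a.2) (hIE b.2)).eq }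
  let f : E →* (I →* ℂˣ) := MonoidHom.mk'
    (fun y => MonoidHom.mk' (fun x => bf π y x) fun a b => bf_mul h h2 hE y.2 (hIE a.2) (hIE b.2))
    fun a b => MonoidHom.ext fun x => by
      change bf π (a * b) x = bf π a x * bf π b x
      rw [bf_symm, bf_mul h h2 hE (hIE x.2) a.2 b.2, bf_symm (a : G), bf_symm (b : G)]
  have hc := CommGroup.card_monoidHom_of_hasEnoughRootsOfUnity I ℂ
  have : Finite (I →* ℂˣ) := Nat.finite_of_card_ne_zero (hc ▸ Nat.card_pos.ne')
  have h6 : Nat.card f.ker ≤ 4 := by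
    rw [← card_map_of_injective E.subtype_injective]
    refine (card_le_of_le ?_).trans h5
    rintro _ ⟨y, hy, rfl⟩
    exact hk y y.2 fun x hx => bf_eq_one.1 (DFunLike.congr_fun hy ⟨x, hx⟩)
  have h7 := f.ker.index_mul_card
  rw [index_ker] at h7
  have h9 : Nat.card f.range ≤ 4 := (card_le_card_group _).trans (hc ▸ h5)
  refine ⟨h7 ▸ Nat.mul_le_mul h9 h6, fun x hx h1 hr => ?_⟩
  have hxI := hk x hx fun y hy => hr y (hIE hy)
  obtain ⟨φ, hφ⟩ := CommGroup.exists_apply_ne_one_of_hasEnoughRootsOfUnity I ℂ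
    (a := ⟨x, hxI⟩) fun e => h1 (congrArg Subtype.val e)
  have h10 : Nat.card f.range ≠ Nat.card (I →* ℂˣ) := fun e => by
    obtain ⟨y, rfl⟩ : φ ∈ f.range := (card_eq_iff_eq_top _).1 e ▸ mem_top φ
    exact hφ (bf_eq_one.2 (hr y y.2).symm)
  have h11 := card_le_card_group f.range
  have := Nat.mul_le_mul (show Nat.card f.range ≤ 3 by omega) h6
  omega

/-- The commutator form on an elementary abelian group of order at least 16 is non-degenerate. -/
theorem PC.nondeg (h : PC P π) (h2 : (2 : F) ≠ 0) {E : Subgroup G} (hE : ∀ x ∈ E, x * x = 1)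
    (h16 : 16 ≤ Nat.card E) {x : G} (hx : x ∈ E) (h1 : x ≠ 1) : ∃ y ∈ E, An π x y := by
  by_contra h3
  push Not at h3
  exact ((ea_main h h2 hE).2 x hx h1 fun y hy =>
    (h.cm_or_an (hE x hx) (ea_comm hE hx hy)).resolve_right (h3 y hy)).not_ge h16

theorem PC.card_le_sixteen (h : PC P π) (h2 : (2 : F) ≠ 0) {E : Subgroup G}
    (hE : ∀ x ∈ E, x * x = 1) : Nat.card E ≤ 16 := (ea_main h h2 hE).1

theorem PC.rank_le (h : PC P π) (h2 : (2 : F) ≠ 0) : PRankLE 2 4 G := fun _ _ hA =>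
  h.card_le_sixteen h2 fun x hx => by rw [← pow_two, hA x hx]

/-- The lifts of an elementary abelian group of order 16 span the matrix algebra. -/
theorem PC.span_ea (h : PC P π) (h2 : (2 : F) ≠ 0) {E : Subgroup G} (hE : EA E 4) :
    Spans ((E.comap π).map P.subtype) := by
  classical
  have := h.finite
  have := Fintype.ofFinite E
  choose s hs using h.surj
  have h1 : LinearIndependent F fun x : E => mat (s x) := by
    refine Fintype.linearIndependent_iff.2 fun c hc y => ?_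
    have h3 := congrArg (fun X => (mat (s y)⁻¹ * X).trace) hc
    simp only [Finset.mul_sum, mul_smul_comm, trace_sum, trace_smul, mul_zero, trace_zero] at h3
    rw [Finset.sum_eq_single y (fun x _ hx => ?_) (by simp), mat_inv_mul, trace_one] at h3
    · have h4 : (4 : F) ≠ 0 := by
        rw [show (4 : F) = 2 * 2 by norm_num]
        exact mul_ne_zero h2 h2
      simpa [h4] using h3
    · have e : π ((s y)⁻¹ * s x) = (y⁻¹ * x : E) := by simp [hs]
      obtain ⟨z, -, hz⟩ := h.nondeg h2 hE.1 (by rw [hE.2]; norm_num) (y⁻¹ * x).2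
        fun e => hx (inv_mul_eq_one.1 (Subtype.ext e)).symm
      rw [← mat_mul, An.trace h h2 (e ▸ hz), smul_zero]
  have h3 := h1.span_eq_top_of_card_eq_finrank' (by
    rw [← Nat.card_eq_fintype_card, hE.2]; simp [Module.finrank_matrix])
  intro X
  refine (Submodule.span_le (p := (spanAlg _).toSubmodule)).2 ?_ (h3 ▸ Submodule.mem_top (x := X))
  rintro _ ⟨x, rfl⟩
  exact coe_mem_spanAlg ⟨s x, by simp [hs], rfl⟩

omit [Finite F] in
theorem W.small_orbit [Finite G] {E : Subgroup G} (h8 : 8 ≤ Nat.card E) {y : G}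
    (ht : ∀ a ∈ E, ∀ b ∈ E, a ≠ 1 → b ≠ 1 → ∃ n : ℕ, y ^ n * a * (y ^ n)⁻¹ = b) {a : G}
    (ha : a ∈ E) (h1 : a ≠ 1) {m : ℕ} (h0 : 0 < m) (h4 : m ≤ 4) (hc : Commute (y ^ m) a) :
    False := by
  classical
  have h2 : (E : Set G) ⊆ ↑(insert 1 ((Finset.range m).image fun n => y ^ n * a * (y ^ n)⁻¹)) :=
    fun b hb => by
    by_cases e : b = 1
    · simp [e]
    obtain ⟨n, rfl⟩ := ht a ha b hb h1 e
    refine Finset.mem_coe.2 (Finset.mem_insert_of_mem (Finset.mem_image.2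
      ⟨n % m, Finset.mem_range.2 (Nat.mod_lt _ h0), ?_⟩))
    conv_rhs => rw [← Nat.mod_add_div n m, pow_add, pow_mul, mul_assoc (y ^ _), (hc.pow_left _).eq]
    group
  have h3 := Set.ncard_le_ncard h2
  rw [Set.ncard_coe_finset] at h3
  have h5 := h3.trans ((Finset.card_insert_le _ _).trans (Nat.succ_le_succ Finset.card_image_le))
  rw [Finset.card_range] at h5
  change (E : Set G).ncard ≥ 8 at h8
  omega

/-- No element permutes transitively the involutions of an elementary abelian group of order at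
least eight. -/
theorem PC.not_regular (h : PC P π) (h2 : (2 : F) ≠ 0) {E : Subgroup G} (hE : ∀ x ∈ E, x * x = 1)
    (h8 : 8 ≤ Nat.card E) {y : G} (hy : y ∈ normalizer (E : Set G))
    (ht : ∀ a ∈ E, ∀ b ∈ E, a ≠ 1 → b ≠ 1 → ∃ n : ℕ, y ^ n * a * (y ^ n)⁻¹ = b) : False := by
  have := h.finite
  have hn : ∀ (n : ℕ), ∀ x ∈ E, y ^ n * x * (y ^ n)⁻¹ ∈ E := fun n x hx =>
    (pow_mem hy n x).1 hx
  have h1 : ∀ x ∈ E, y * x * y⁻¹ ∈ E := fun x hx => (hy x).1 hx
  obtain ⟨⟨a, ha⟩, a1⟩ := ne_bot_iff_exists_ne_one.1 ((one_lt_card_iff_ne_bot E).1 (by omega))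
  replace a1 : a ≠ 1 := fun e => a1 (Subtype.ext e)
  by_cases hr : ∃ x ∈ E, x ≠ 1 ∧ ∀ z ∈ E, Cm π x z
  · obtain ⟨x, hx, x1, hr⟩ := hr
    rcases pow_cm h (A := E) (n := 2) (fun b hb z hz => by
        by_cases e : b = 1
        · exact e ▸ (h.cm_one z).symm
        obtain ⟨n, rfl⟩ := ht x hx b hb x1 e
        simpa [mul_assoc] using (hr _ ((inv_mem (pow_mem hy n) z).1 hz)).conj h (y ^ n))
      (by exact_mod_cast h2) (fun x hx => by rw [pow_two, hE x hx]) hy with e | e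
    · exact small_orbit h8 ht ha a1 (by norm_num) (by norm_num) (e a ha)
    · exact small_orbit h8 ht ha a1 (by norm_num) (by norm_num) (e a ha)
  push Not at hr
  obtain ⟨k, hk⟩ := ht a ha _ (E.mul_mem ha (h1 a ha)) a1 fun e =>
    small_orbit h8 ht ha a1 one_pos (by norm_num) (by
      rw [pow_one]
      exact mul_inv_eq_iff_eq_mul.1 (mul_left_cancel (e.trans (hE a ha).symm)))
  have h3 : ∀ u ∈ E, y ^ k * u * (y ^ k)⁻¹ = u * (y * u * y⁻¹) := fun u hu => by
    by_cases e : u = 1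
    · simp [e]
    obtain ⟨n, rfl⟩ := ht a ha u hu a1 e
    calc _ = y ^ n * (y ^ k * a * (y ^ k)⁻¹) * (y ^ n)⁻¹ := by group
      _ = _ := by rw [hk]; group
  have bl : ∀ {x z w : G}, x ∈ E → z ∈ E → w ∈ E → bf π (x * z) w = bf π x w * bf π z w :=
    fun {x z w} hx hz hw => by rw [bf_symm, bf_mul h h2 hE hw hx hz, bf_symm x, bf_symm z]
  have h4 : a * (y * a * y⁻¹) * (y * (y * a * y⁻¹) * y⁻¹) = 1 := by
    by_contra e
    have a2 := h1 a ha
    have a3 := h1 _ a2
    obtain ⟨v, hv, e⟩ := hr _ (E.mul_mem (E.mul_mem ha a2) a3) e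
    refine e (bf_eq_one.1 ?_)
    have v2 := h1 v hv
    have h5 := bf_conj h (y * a * y⁻¹) v (y ^ k)
    rw [h3 _ a2, h3 _ hv, bl a2 a3 (E.mul_mem hv v2), bf_mul h h2 hE a2 hv v2,
      bf_mul h h2 hE a3 hv v2, bf_conj h, bf_conj h] at h5
    rw [bl (E.mul_mem ha a2) a3 hv, bl ha a2 hv]
    refine mul_left_cancel (a := bf π (y * a * y⁻¹) v) ?_
    conv_rhs => rw [mul_one, ← h5]
    ac_rfl
  refine small_orbit h8 ht ha a1 (m := 3) (by norm_num) (by norm_num) ?_
  have h5 : y * a * y⁻¹ * (y * (y * a * y⁻¹) * y⁻¹) * (y ^ 3 * a * (y ^ 3)⁻¹) = 1 := by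
    calc _ = y * (a * (y * a * y⁻¹) * (y * (y * a * y⁻¹) * y⁻¹)) * y⁻¹ := by group
      _ = 1 := by rw [h4]; group
  rw [mul_assoc a] at h4
  exact mul_inv_eq_iff_eq_mul.1
    ((eq_inv_of_mul_eq_one_right h5).trans (eq_inv_of_mul_eq_one_left h4).symm)

end Cfsg.Agent.Cl.D4
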