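/-
Subgroups of `SL₄(F)`: Heisenberg groups, transfer.
-/
import Mathlib
import Cfsg.Agent.Cl.D4Wa

set_option autoImplicit false

namespace Cfsg.Agent.Cl.D4

open Matrix Cfsg.Geo Cfsg.Agent.Cl.Max Cfsg.Agent.Cl.Mx Subgroup
open Cfsg.Agent.Cl.D5 (MT Root TrGen Cov NoTv)
open scoped MatrixGroups commutatorElement
open W

variable {F : Type*} [Field F] [Finite F] {G : Type*} [Group G] {P : Subgroup (G4 F)}
  {π : P →* G}

theorem W.two_unique (α β : Fin 4 → Bool) (h1 : ∃ i, α i ≠ α 0) (h2 : ∃ i, β i ≠ β 0)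
    (h3 : ∃ i, xor (α i) (β i) ≠ xor (α 0) (β 0)) : ∃ i j, i ≠ j ∧
      (∀ k, k ≠ i → α i ≠ α k ∨ β i ≠ β k) ∧ ∀ k, k ≠ j → α j ≠ α k ∨ β j ≠ β k := by
  revert α β; decide +kernel

theorem W.comm_ker {H A : Type*} [Group H] [CommMonoid A] {T : Subgroup H} (f : T →* A) {a : H}
    (ha : a ∈ ⁅T, T⁆) (h : a ∈ T) : f ⟨a, h⟩ = 1 := by
  rw [← map_subtype_commutator] at ha
  obtain ⟨b, hb, rfl⟩ := ha
  exact congrArg Units.val (Abelianization.commutator_subset_ker f.toHomUnits hb)

set_option linter.unusedVariables false in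
/-- A four-group with central lifts does not lie in the commutator subgroup. -/
theorem PC.not_four_le (h : PC P π) (h2 : (2 : F) ≠ 0) {S : Subgroup G} (hS : IsPGroup 2 S)
    {a b : G} (ha : a ∈ ⁅S, S⁆) (hb : b ∈ ⁅S, S⁆) (a2 : a * a = 1) (b2 : b * b = 1) (a1 : a ≠ 1)
    (b1 : b ≠ 1) (ab : a ≠ b) (ca : ∀ s ∈ S, Cm π a s) (cb : ∀ s ∈ S, Cm π b s) : False := by
  classical
  have hm : (⁅S.comap π, S.comap π⁆).map π = ⁅S, S⁆ := by
    rw [map_commutator, map_comap_eq_self_of_surjective h.surj]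
  obtain ⟨a, ha', rfl⟩ := hm ▸ ha
  obtain ⟨b, hb', rfl⟩ := hm ▸ hb
  have hle : zpowers (π a) ⊔ zpowers (π b) ≤ S :=
    sup_le (zpowers_le.2 (commutator_le_self S ha)) (zpowers_le.2 (commutator_le_self S hb))
  have hc : ∀ x ∈ zpowers (π a) ⊔ zpowers (π b), ∀ s ∈ S, Cm π x s := fun x hx s hs =>
    Cm.symm (sup_le (α := Subgroup G) (c := C0 π h s) (zpowers_le.2 (ca s hs).symm)
      (zpowers_le.2 (cb s hs).symm) hx)
  have := h.finite
  obtain ⟨n, hn⟩ := (Fact.mk Nat.prime_two).elim.pos |> fun _ =>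
    haveI := Fact.mk Nat.prime_two; IsPGroup.iff_card.1 hS
  obtain ⟨Θ, e, hd⟩ := exists_dg h (fun x hx y hy => hc x hx y (hle hy)) (n := 2 ^ n)
    (by exact_mod_cast pow_ne_zero n h2) fun x hx =>
      congrArg Subtype.val (hn ▸ pow_card_eq_one' (x := (⟨x, hle hx⟩ : S)))
  have da := hd a (mem_sup_left (mem_zpowers _))
  have db := hd b (mem_sup_right (mem_zpowers _))
  have key : ∀ {c : P}, (Θ (mat c)).IsDiag → π c * π c = 1 → ∀ i j,
      decide (Θ (mat c) i i = Θ (mat c) 0 0) ≠ decide (Θ (mat c) j j = Θ (mat c) 0 0) →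
        Θ (mat c) i i ≠ Θ (mat c) j j := fun _ _ i j hij e => hij (by rw [e])
  obtain ⟨i, j, hij, hi, hj⟩ := two_unique (fun i => decide (Θ (mat a) i i = Θ (mat a) 0 0))
    (fun i => decide (Θ (mat b) i i = Θ (mat b) 0 0))
    (by
      by_contra h3
      push Not at h3
      exact a1 (e.eq_one h da fun i => by simpa using h3 i))
    (by
      by_contra h3
      push Not at h3
      exact b1 (e.eq_one h db fun i => by simpa using h3 i))
    (by
      by_contra h3
      push Not at h3
      refine ab (mul_right_cancel (((map_mul π a b).symm.trans (e.eq_one h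
        (c := Θ (mat a) 0 0 * Θ (mat b) 0 0) (hd _ ?_) fun i => ?_)).trans b2.symm))
      · rw [map_mul]
        exact mul_mem_sup (mem_zpowers _) (mem_zpowers _)
      · rw [th_mul, dg_mul da]
        have h4 := h3 i
        by_cases h5 : Θ (mat a) i i = Θ (mat a) 0 0
        · rw [h5, show Θ (mat b) i i = Θ (mat b) 0 0 by simpa [h5] using h4]
        · rw [(sign h da a2 i).resolve_left h5,
            (sign h db b2 i).resolve_left (by simpa [h5] using h4), neg_mul_neg])
  have one : ∀ i, (∀ k, k ≠ i → Θ (mat a) i i ≠ Θ (mat a) k k ∨ Θ (mat b) i i ≠ Θ (mat b) k k) →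
      Θ (mat a) i i = 1 ∧ Θ (mat b) i i = 1 := fun i hi => by
    let f : S.comap π →* AlgebraicClosure F :=
      { toFun := fun s => Θ (mat s.1) i i
        map_one' := by simp [mat]
        map_mul' := fun s t => by
          rw [Subgroup.coe_mul, th_mul, mul_apply, Finset.sum_eq_single i (fun k _ hk => ?_)
            (by simp)]
          rw [(hi k hk).elim (off_zero da (ca _ s.2 a s rfl rfl))
            (off_zero db (cb _ s.2 b s rfl rfl)), zero_mul] }
    exact ⟨comm_ker f ha' (commutator_le_self _ ha'), comm_ker f hb' (commutator_le_self _ hb')⟩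
  obtain ⟨i1, i2⟩ := one i fun k hk => (hi k hk).imp (key da a2 i k) (key db b2 i k)
  obtain ⟨j1, j2⟩ := one j fun k hk => (hj k hk).imp (key da a2 j k) (key db b2 j k)
  exact ((hi j hij.symm).imp (key da a2 i j) (key db b2 i j)).elim
    (fun e => e (i1.trans j1.symm)) fun e => e (i2.trans j2.symm)

/-- The determinant on an eigenspace. -/
theorem W.pow_card_eq {K : Type*} [Field K] [DecidableEq K] {X X' Y Y' D : M4 K} (hD : D.IsDiag)
    (hX : X * X' = 1) (hY : Y * Y' = 1) (c1 : Commute D X) (c2 : Commute D Y)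
    (e : X * Y = Y * X * D) (c : K) :
    c ^ (Finset.univ.filter fun j => D j j = c).card = 1 := by
  set E : M4 K := diagonal fun j => if D j j = c then 1 else 0 with hE
  have hc : ∀ {T : M4 K}, Commute D T → T * E = E * T := fun {T} hT => by
    ext i j
    have := congrFun (congrFun hT.eq i) j
    rw [dg_mul hD, mul_dg hD, mul_comm] at this
    rw [hE, mul_diagonal, diagonal_mul]
    rcases mul_eq_mul_left_iff.1 this with h | h
    · simp [h]
    · simp [h]
  have hEE : E * E = E := by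
    rw [hE, diagonal_mul_diagonal]
    exact congrArg _ (funext fun j => by split_ifs <;> simp)
  have hm : ∀ (T : M4 K) {U : M4 K}, U * E = E * U →
      (T * E + (1 - E)) * (U * E + (1 - E)) = T * U * E + (1 - E) := fun T U hU => by
    have h1 : E * U * E = U * E := by rw [← hU, mul_assoc, hEE]
    linear_combination (norm := noncomm_ring) T * h1 - T * hEE - h1 + hEE
  have inv : ∀ {T T' : M4 K}, T * T' = 1 → Commute D T → (T * E + (1 - E)).det ≠ 0 :=
    fun {T T'} h1 h2 => by
    have h3 : T' * E = E * T' := by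
      have h4 := mul_eq_one_comm.1 h1
      calc T' * E = T' * E * (T * T') := by rw [h1, mul_one]
        _ = T' * (T * E) * T' := by rw [hc h2]; simp only [mul_assoc]
        _ = _ := by rw [← mul_assoc, h4, one_mul]
    exact left_ne_zero_of_mul_eq_one (b := (T' * E + (1 - E)).det)
      (by rw [← det_mul, hm _ h3, h1]; simp)
  have h1 : (X * E + (1 - E)) * (Y * E + (1 - E)) =
      (Y * E + (1 - E)) * (X * E + (1 - E)) * (D * E + (1 - E)) := by
    rw [hm _ (hc c2), hm _ (hc c1), hm _ (hc (Commute.refl D)), e]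
  have h2 := congrArg det h1
  rw [det_mul, det_mul, det_mul, mul_comm] at h2
  have h3 := (mul_eq_left₀ (mul_ne_zero (inv hY c2) (inv hX c1))).1 h2.symm
  have h4 : D * E + (1 - E) = diagonal fun j => if D j j = c then c else 1 := by
    ext i j
    rw [Matrix.add_apply, dg_mul hD, Matrix.sub_apply, hE, diagonal_apply, diagonal_apply, one_apply]
    split_ifs <;> simp_all
  rw [h4, det_diagonal] at h3
  rw [← Finset.prod_const, Finset.prod_filter, h3]

omit [Finite F] in
/-- The commutator of two lifts. -/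
theorem W.heis_lift (h : PC P π) {l : ℕ} (hl : Odd l) {x y z : G} (xl : x ^ l = 1) (zl : z ^ l = 1)
    (e : x * y = y * x * z) (zx : Commute z x) (zy : Commute z y) {a b : P} (ha : π a = x)
    (hb : π b = y) : ∃ c : P, π c = z ∧ a * b = b * a * c ∧ Commute c a ∧ Commute c b ∧
      c ^ l = 1 := by
  have h0 : π ((b * a)⁻¹ * (a * b)) = z := by
    rw [map_mul, map_inv, map_mul, map_mul, ha, hb, e, inv_mul_cancel_left]
  have h1 : Commute ((b * a)⁻¹ * (a * b)) a := h.cm_of_odd hl zl zx _ _ h0 ha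
  refine ⟨_, h0, by group, h1, h.cm_of_odd hl zl zy _ _ h0 hb, ?_⟩
  have h2 : Commute b (a ^ l) := h.cm_one _ _ _ rfl (by rw [map_pow, ha, xl])
  have h3 : a * ((b * a)⁻¹ * (a * b)) = b⁻¹ * a * b⁻¹⁻¹ := by group
  have h4 := h1.symm.mul_pow l
  rw [h3, conj_pow, h2.inv_left.eq, mul_inv_cancel_right] at h4
  exact mul_eq_left.1 h4.symm

theorem W.heis_core (h : PC P π) {l : ℕ} (hl : l.Prime) (h2 : l ≠ 2) (h0 : (l : F) ≠ 0)
    {x y z : G} (xl : x ^ l = 1) (zl : orderOf z = l) (e : x * y = y * x * z)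
    (zx : Commute z x) (zy : Commute z y) : ∃ c : P, π c = z ∧ c ^ l = 1 ∧ (mat c).det = 1 ∧
      l = 3 ∧ ∃ ω : F, ω * ω + ω + 1 = 0 ∧ (mat c - ω • (1 : M4 F)).rank = 1 ∧
      (mat c).trace = 3 * ω + 1 ∧ (mat (c * c)).trace = 3 * (ω * ω) + 1 := by
  classical
  obtain ⟨a, ha⟩ := h.surj x
  obtain ⟨b, hb⟩ := h.surj y
  have zl' : z ^ l = 1 := zl ▸ pow_orderOf_eq_one z
  obtain ⟨c, hc, e', c1, c2, cl⟩ := heis_lift h (hl.odd_of_ne_two h2) xl zl' e zx zy ha hb
  obtain ⟨Θ, em, hd⟩ := exists_dg h (cm_zpowers h z) h0 (by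
    rintro _ ⟨m, rfl⟩
    rw [← zpow_natCast, ← _root_.zpow_mul, mul_comm, _root_.zpow_mul, zpow_natCast, zl',
      _root_.one_zpow])
  have dc := hd c (hc ▸ mem_zpowers _)
  have h1 := pow_card_eq dc (X := Θ (mat a)) (X' := Θ (mat a⁻¹)) (Y := Θ (mat b))
    (Y' := Θ (mat b⁻¹)) (by rw [← map_mul, mat_mul_inv, map_one])
    (by rw [← map_mul, mat_mul_inv, map_one]) (by rw [Commute, SemiconjBy, ← th_mul, c1.eq, th_mul])
    (by rw [Commute, SemiconjBy, ← th_mul, c2.eq, th_mul]) (by simp only [← th_mul, e'])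
  set d : Fin 4 → AlgebraicClosure F := fun i => Θ (mat c) i i with hdd
  have hD : Θ (mat c) = diagonal d := dc.diagonal_diag.symm
  have h3 : ∀ i, d i ^ l = 1 := fun i => by
    have := congrArg (fun g => Θ (mat g) i i) cl
    simpa [mat_pow, hD, diagonal_pow, mat_one] using this
  have z1 : z ≠ 1 := fun e => hl.one_lt.ne (by rw [← zl, e, orderOf_one])
  have h4 : ∀ i, d i ≠ 1 → l = 3 ∧ (Finset.univ.filter fun j => d j = d i).card = 3 := fun i hi => by
    have := Fact.mk hl
    have h5 := orderOf_dvd_of_pow_eq_one (h1 (d i))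
    rw [orderOf_eq_prime (h3 i) hi] at h5
    have h6 : 0 < (Finset.univ.filter fun j => d j = d i).card := Finset.card_pos.2 ⟨i, by simp⟩
    have h7 : (Finset.univ.filter fun j => d j = d i).card ≤ 4 := Finset.card_le_univ _
    have h8 := Nat.le_of_dvd h6 h5
    have h9 := hl.two_le
    change l ∣ (Finset.univ.filter fun j => d j = d i).card at h5
    have h10 : l ≠ 4 := fun e => by rw [e] at hl; norm_num at hl
    obtain rfl : l = 3 := by omega
    omega
  obtain ⟨i, hi⟩ : ∃ i, d i ≠ 1 := by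
    by_contra h5
    push Not at h5
    exact z1 (hc ▸ em.eq_one h dc h5)
  obtain ⟨rfl, h5⟩ := h4 i hi
  obtain ⟨j, hj⟩ := Finset.card_eq_one.1 (show (Finset.univ.filter fun j => ¬ d j = d i).card = 1 by
    have := Finset.card_filter_add_card_filter_not (s := Finset.univ) fun j => d j = d i
    simp only [Finset.card_univ, Fintype.card_fin] at this
    omega)
  have h6 : ∀ k, k ≠ j → d k = d i := fun k hk => by
    by_contra h7
    exact hk (Finset.mem_singleton.1 (hj ▸ Finset.mem_filter.2 ⟨Finset.mem_univ _, h7⟩))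
  have h7 : d j ≠ d i := by simpa using hj.ge (Finset.mem_singleton_self j)
  have h8 : d j = 1 := by
    by_contra h8
    have := Finset.card_le_card (show (Finset.univ.filter fun k => d k = d j) ⊆ {j} from
      fun k hk => Finset.mem_singleton.2 (by
        by_contra h9
        exact h7 ((Finset.mem_filter.1 hk).2.symm.trans (h6 k h9))))
    rw [(h4 j h8).2, Finset.card_singleton] at this
    omega
  have hs : ∀ f : AlgebraicClosure F → AlgebraicClosure F, ∑ k, f (d k) = 3 * f (d i) + f 1 :=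
    fun f => by
    rw [← Finset.add_sum_erase _ _ (Finset.mem_univ j), h8,
      Finset.sum_congr rfl fun k hk => congrArg f (h6 k (Finset.ne_of_mem_erase hk))]
    simp [add_comm]
  have inj := (algebraMap F (AlgebraicClosure F)).injective
  have h30 : (3 : F) ≠ 0 := by exact_mod_cast h0
  have h9 : algebraMap F _ (((mat c).trace - 1) / 3) = d i := by
    rw [map_div₀, map_sub, ← em.tr, hD, trace_diagonal, hs fun t => t, map_one, map_ofNat,
      div_eq_iff (by rwa [← map_ofNat (algebraMap F (AlgebraicClosure F)), _root_.map_ne_zero])]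
    simp [mul_comm]
  refine ⟨c, hc, cl, ?_, rfl, ((mat c).trace - 1) / 3, inj ?_, ?_, by field_simp; ring, inj ?_⟩
  · have := congrArg (fun g => (mat g).det) e'
    simp only [mat_mul, det_mul] at this
    rw [mul_comm] at this
    exact (mul_eq_left₀ (mul_ne_zero (det_mat_ne b) (det_mat_ne a))).1 this.symm
  · rw [map_add, map_add, map_mul, h9, map_one, map_zero]
    exact mul_left_cancel₀ (sub_ne_zero.2 hi) (by linear_combination h3 i)
  · rw [← em.rank, map_sub, map_smul, map_one, hD, ← algebraMap_smul (AlgebraicClosure F), h9,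
      smul_one_eq_diagonal, diagonal_sub, rank_diagonal, Fintype.card_subtype]
    simp only [ne_eq, sub_eq_zero, hj, Finset.card_singleton]
  · rw [← em.tr, th_mul, hD, diagonal_mul_diagonal, trace_diagonal, hs fun t => t * t, map_add,
      map_mul, map_mul, h9, map_ofNat, map_one, mul_one]

set_option linter.unusedVariables false in
/-- Heisenberg groups in coprime characteristic: only `l = 3`, and the centre is generated by a
scalar multiple of a homology. -/
theorem heis_coprime (h : Cov P π) {l : ℕ} (hl : l.Prime) (h2 : l ≠ 2) (h0 : (l : F) ≠ 0)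
    {x y z : G} (xl : x ^ l = 1) (yl : y ^ l = 1) (zl : orderOf z = l) (e : x * y = y * x * z)
    (zx : Commute z x) (zy : Commute z y) {a : P} (ha : π a = z) (al : a ^ l = 1) :
    l = 3 ∧ ∃ ω : F, ω * ω + ω + 1 = 0 ∧ (mat a - ω • (1 : M4 F)).rank = 1 ∧
      (mat a).trace = 3 * ω + 1 := by
  obtain ⟨c, h1, h3, -, h4, ω, h5, h6, h7, -⟩ := heis_core (pc_of_cov h) hl h2 h0 xl zl e zx zy
  obtain rfl := lift_unique h (Or.inl (hl.odd_of_ne_two h2)) (h1.trans ha.symm) h3 al
  exact ⟨h4, ω, h5, h6, h7⟩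

set_option linter.unusedVariables false in
theorem PC.not_heis (h : PC P π) {l : ℕ} (hl : l.Prime) (h2 : l ≠ 2) (h0 : (l : F) ≠ 0)
    {x y z : G} (xl : x ^ l = 1) (yl : y ^ l = 1) (zl : orderOf z = l) (e : x * y = y * x * z)
    (zx : Commute z x) (zy : Commute z y) : ¬ IsConj z z⁻¹ := by
  obtain ⟨c, rfl, h3, hd, rfl, ω, h5, -, h7, h8⟩ := heis_core h hl h2 h0 xl zl e zx zy
  intro hc
  obtain ⟨g, hg⟩ := isConj_iff.1 hc
  obtain ⟨g, rfl⟩ := h.surj g
  have h4 : c⁻¹ = c * c := inv_eq_of_mul_eq_one_right (by rw [← h3, pow_three])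
  obtain ⟨t, ht⟩ := (h.eq_iff (g * c * g⁻¹) (c * c)).1 (by rw [← h4]; simpa using hg)
  have t4 : t ^ 4 = 1 := by
    have := congrArg det ht
    rw [mat_mul, mat_mul, det_mul, det_mul, mul_right_comm, ← det_mul, mat_mul_inv, det_one, hd,
      det_smul, mat_mul, det_mul, hd] at this
    simpa using this.symm
  have t3 : t ^ 3 = 1 := by
    have := congrArg (· ^ 3) ht
    simp only [smul_pow, ← mat_pow, conj_pow, h3, mul_one, mul_inv_cancel,
      (Commute.refl c).mul_pow] at this
    exact (smul_one_inj (a := 1) (by simpa [mat_one] using this)).symm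
  have t1 : t = 1 := by linear_combination t4 - t * t3
  have h9 := congrArg trace ht
  rw [trace_conj, t1, one_smul, h7, h8] at h9
  have h30 : (3 : F) ≠ 0 := by exact_mod_cast h0
  have h10 : ω = ω * ω := mul_left_cancel₀ h30 (by linear_combination h9)
  exact h30 (by linear_combination (3 - 2 * ω) * h5 - (1 + 2 * ω) * h10)

theorem W.heis_cube {H : Type*} [Group H] {x y z : H} (e : x * y = y * x * z) (zx : Commute z x)
    (zy : Commute z y) (x3 : x ^ 3 = 1) (y3 : y ^ 3 = 1) (z3 : z ^ 3 = 1) : (y * x) ^ 3 = 1 := by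
  have e' : ∀ w, x * (y * w) = y * (x * (z * w)) := fun w => by simp only [← mul_assoc, e]
  have : (y * x) ^ 3 = y ^ 3 * x ^ 3 * z ^ 3 := by
    simp only [pow_three, mul_assoc, e', zx.left_comm, zy.left_comm, zx.eq]
  rw [this, x3, y3, z3, one_mul, one_mul]

omit [Finite F] in
theorem W.ut_eq {T : M4 F} (h : ∀ i j : Fin 4, j ≤ i → T i j = if i = j then 1 else 0) :
    ∃ a b c d e f : F, T = !![1, a, d, f; 0, 1, b, e; 0, 0, 1, c; 0, 0, 0, 1] :=
  ⟨T 0 1, T 1 2, T 2 3, T 0 2, T 1 3, T 0 3, by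
    ext i j
    fin_cases i <;> fin_cases j <;> first | rfl | exact h _ _ (by decide)⟩

omit [Finite F] in
theorem W.ut_three (h3 : (3 : F) = 0) {X Y Z : M4 F}
    (hX : ∀ i j : Fin 4, j ≤ i → X i j = if i = j then 1 else 0)
    (hY : ∀ i j : Fin 4, j ≤ i → Y i j = if i = j then 1 else 0)
    (hZ : ∀ i j : Fin 4, j ≤ i → Z i j = if i = j then 1 else 0) (e : X * Y = Y * X * Z)
    (h1 : X ^ 3 = 1) (h2 : Y ^ 3 = 1) (h4 : (Y * X) ^ 3 = 1) (h5 : (Y * Y * X) ^ 3 = 1) :
    (Z - 1) * (Z - 1) = 0 ∧ (Z - 1).rank ≤ 1 := by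
  obtain ⟨a, b, c, d, e1, f, rfl⟩ := ut_eq hX
  obtain ⟨a', b', c', d', e', f', rfl⟩ := ut_eq hY
  obtain ⟨p, q, r, s, t, u, rfl⟩ := ut_eq hZ
  have cube : ∀ a b c d e f : F, (!![1, a, d, f; 0, 1, b, e; 0, 0, 1, c; 0, 0, 0, 1] : M4 F) ^ 3 = 1 →
      a * b * c = 0 := fun a b c d e f h => by
    have := congrFun (congrFun h 0) 3
    simp [pow_three, Matrix.mul_apply, Fin.sum_univ_four] at this
    linear_combination this - (f + a * e + d * c) * h3
  have mul : ∀ a b c d e f a' b' c' d' e' f' : F,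
      (!![1, a, d, f; 0, 1, b, e; 0, 0, 1, c; 0, 0, 0, 1] : M4 F) *
        !![1, a', d', f'; 0, 1, b', e'; 0, 0, 1, c'; 0, 0, 0, 1] =
      !![1, a + a', d + a * b' + d', f + a * e' + d * c' + f'; 0, 1, b + b', e + b * c' + e';
        0, 0, 1, c + c'; 0, 0, 0, 1] := fun _ _ _ _ _ _ _ _ _ _ _ _ => by
    ext i j
    fin_cases i <;> fin_cases j <;> simp [Matrix.mul_apply, Fin.sum_univ_four] <;> ring
  simp only [mul] at e h4 h5
  have k1 := cube _ _ _ _ _ _ h1
  have k2 := cube _ _ _ _ _ _ h2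
  have k4 := cube _ _ _ _ _ _ h4
  have k5 := cube _ _ _ _ _ _ h5
  have e01 := congrFun (congrFun e 0) 1
  have e12 := congrFun (congrFun e 1) 2
  have e23 := congrFun (congrFun e 2) 3
  have e02 := congrFun (congrFun e 0) 2
  have e13 := congrFun (congrFun e 1) 3
  simp only [of_apply, cons_val', cons_val_zero, cons_val_one, cons_val_fin_one, cons_val] at e01 e12 e23 e02 e13
  obtain rfl : p = 0 := by linear_combination -e01
  obtain rfl : q = 0 := by linear_combination -e12
  obtain rfl : r = 0 := by linear_combination -e23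
  have hs : s = a * b' - a' * b := by linear_combination -e02
  have ht : t = b * c' - b' * c := by linear_combination -e13
  have hst : s = 0 ∨ t = 0 := by
    simp only [mul_eq_zero] at k1 k2 k4 k5
    grind
  constructor
  · ext i j
    fin_cases i <;> fin_cases j <;> simp [Matrix.mul_apply, Fin.sum_univ_four, one_apply]
  · rcases hst with rfl | rfl
    · refine le_of_eq_of_le (congrArg _ ?_) (rank_vecMulVec_le ![u, t, 0, 0] ![0, 0, 0, 1])
      ext i j
      fin_cases i <;> fin_cases j <;> simp [vecMulVec_apply, one_apply]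
    · refine le_of_eq_of_le (congrArg _ ?_) (rank_vecMulVec_le ![1, 0, 0, 0] ![0, 0, s, u])
      ext i j
      fin_cases i <;> fin_cases j <;> simp [vecMulVec_apply, one_apply]

/-- The extraspecial group of order 27 and exponent 3 in characteristic three. -/
theorem PC.not_heis_three (h : PC P π) (hP : NoTv (P ⊔ scalars (Fin 4) F)) (h3 : (3 : F) = 0)
    {x y z : G} (xl : x ^ 3 = 1) (yl : y ^ 3 = 1) (zl : orderOf z = 3) (e : x * y = y * x * z)
    (zx : Commute z x) (zy : Commute z y) : False := by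
  have := Fact.mk Nat.prime_three
  have : CharP F 3 := (CharP.charP_iff_prime_eq_zero Nat.prime_three).2 (by exact_mod_cast h3)
  set R := P ⊔ scalars (Fin 4) F
  let ι : P →* R := inclusion le_sup_left
  have lift : ∀ a : P, π a ^ 3 = 1 → ∃ s : R, (∀ r : R, Commute s r) ∧ (ι a * s) ^ 3 = 1 :=
    fun a ha => by
    obtain ⟨c, hc⟩ := (h.eq_one_iff (a ^ 3)).1 (by rw [map_pow, ha])
    have hc0 : c ≠ 0 := fun e => det_mat_ne (a ^ 3) (by simp [hc, e])
    obtain ⟨t, ht⟩ := (bijective_frobenius F 3).2 c⁻¹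
    rw [frobenius_def] at ht
    have t0 : t ≠ 0 := fun e => inv_ne_zero hc0 (by rw [← ht, e]; simp)
    have hm : sc (Fin 4) (Units.mk0 t t0) ∈ scalars (Fin 4) F := (mem_scalars_iff_sc _).2 ⟨_, rfl⟩
    have hcm : ∀ r : R, Commute (⟨_, mem_sup_right hm⟩ : R) r :=
      fun r => Subtype.ext (mul_comm_of_mem_scalars hm r)
    refine ⟨_, hcm, mat_inj ?_⟩
    rw [(hcm _).symm.mul_pow, ← map_pow, mat_mul, mat_pow]
    change mat (a ^ 3) * (sc (Fin 4) (Units.mk0 t t0)).val ^ 3 = 1
    rw [hc, coe_sc, smul_pow, Units.val_mk0, ht]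
    simp [smul_smul, hc0]
  obtain ⟨a, rfl⟩ := h.surj x
  obtain ⟨b, rfl⟩ := h.surj y
  obtain ⟨c, rfl, e', c1, c2, cl⟩ := heis_lift h (by decide) xl (zl ▸ pow_orderOf_eq_one z) e zx zy
    rfl rfl
  obtain ⟨s, hs, a3⟩ := lift a xl
  obtain ⟨t, ht, b3⟩ := lift b yl
  set X := ι a * s
  set Y := ι b * t
  set Z := ι c with hZ
  have k1 : Commute Z X := (c1.map ι).mul_right (hs _).symm
  have k2 : Commute Z Y := (c2.map ι).mul_right (ht _).symm
  have z3 : Z ^ 3 = 1 := by rw [hZ, ← map_pow, cl, map_one]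
  have k3 : X * Y = Y * X * Z := by
    have h1 := congrArg ι e'
    simp only [map_mul] at h1
    calc X * Y = ι a * ι b * (s * t) := (hs _).mul_mul_mul_comm _ _
      _ = ι b * ι a * (t * s) * Z := by
        rw [h1, (hs t).eq, mul_assoc _ (t * s), ((ht _).mul_left (hs _)).eq, mul_assoc _ _ (t * s)]
      _ = _ := by rw [← (ht _).mul_mul_mul_comm]
  have pg : ∀ {T : R}, T ^ 3 = 1 → IsPGroup 3 (zpowers T) := fun {T} hT ⟨_, n, rfl⟩ =>
    ⟨1, Subtype.ext (by
      change (T ^ n) ^ 3 ^ 1 = 1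
      rw [pow_one, ← zpow_natCast, ← _root_.zpow_mul, mul_comm, _root_.zpow_mul, zpow_natCast, hT,
        _root_.one_zpow])⟩
  have nm : ∀ {T : R} {K : Subgroup R}, K.map (MulAut.conj T).toMonoidHom ≤ K →
      zpowers T ≤ normalizer (K : Set R) := fun hK =>
    zpowers_le.2 (mem_normalizer_fintype fun n hn => hK ⟨n, hn, rfl⟩)
  have hU : IsPGroup 3 (zpowers Y⁻¹ ⊔ (zpowers X ⊔ zpowers Z) : Subgroup R) := by
    refine (pg (by rw [inv_pow, b3, inv_one])).to_sup_of_normal_right'
      ((pg a3).to_sup_of_normal_right' (pg z3) (nm ?_)) (nm ?_)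
    · rw [MonoidHom.map_zpowers, zpowers_le]
      change X * Z * X⁻¹ ∈ _
      rw [← k1.eq, mul_inv_cancel_right]
      exact mem_zpowers _
    · rw [Subgroup.map_sup, MonoidHom.map_zpowers, MonoidHom.map_zpowers]
      refine sup_le (zpowers_le.2 ?_) (zpowers_le.2 ?_)
      · change Y⁻¹ * X * Y⁻¹⁻¹ ∈ _
        rw [inv_inv, mul_assoc, k3, mul_assoc, inv_mul_cancel_left]
        exact mul_mem_sup (mem_zpowers _) (mem_zpowers _)
      · change Y⁻¹ * Z * Y⁻¹⁻¹ ∈ _
        rw [← k2.inv_right.eq, mul_inv_cancel_right]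
        exact mem_sup_right (mem_zpowers _)
  obtain ⟨Q, hQ⟩ := exists_ut 3 _ hU
  have cube : ∀ {T : R}, T ^ 3 = 1 → mat (cE Q R T) ^ 3 = 1 := fun hT => by
    rw [← mat_pow, ← map_pow, hT, map_one, mat_one]
  have k4 : X * (Y * Y) = Y * Y * X * (Z * Z) := by
    rw [← mul_assoc, k3, mul_assoc, k2.eq, ← mul_assoc, mul_assoc Y, k3]
    simp only [mul_assoc]
  obtain ⟨u1, u2⟩ := ut_three h3 (hQ X (mem_sup_right (mem_sup_left (mem_zpowers _))))
    (hQ Y (mem_sup_left (by simp))) (hQ Z (mem_sup_right (mem_sup_right (mem_zpowers _))))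
    (by simp only [← mat_mul, ← map_mul, k3]) (cube a3) (cube b3)
    (by simpa only [map_mul, mat_mul] using cube (heis_cube k3 k1 k2 a3 b3 z3))
    (by simpa only [map_mul, mat_mul] using (cube (heis_cube k4 (k1.mul_left k1)
      ((k2.mul_left k2).mul_right (k2.mul_left k2)) a3 (by rw [(Commute.refl Y).mul_pow, b3, one_mul])
      (by rw [(Commute.refl Z).mul_pow, z3, one_mul]))))
  have u3 := notTv_of_noTv (noTv_conj.2 hP) (by rw [add_sub_cancel]; exact mem_mat _) u1 u2
  have u4 : Z = 1 := (map_eq_one_iff _ (cE Q R).injective).1 (mat_inj (sub_eq_zero.1 u3))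
  rw [(map_eq_one_iff ι (inclusion_injective _)).1 u4, map_one, orderOf_one] at zl
  omega

set_option linter.unusedVariables false in
theorem noTv_sup (h : Cov P π) (hP : NoTv P) : NoTv (P ⊔ scalars (Fin 4) F) := by
  rintro v φ ⟨h0, g, hg, e⟩
  have := Fintype.ofFinite F
  obtain ⟨p, hp, s, hs, rfl⟩ := mem_sup_of_normal_right.1 hg
  obtain ⟨c, c0, hc⟩ := coe_eq_smul_of_mem_scalars hs
  have h1 : ∀ (n : ℕ) x, ((p * s : G4 F) : M4 F) ^ n *ᵥ x = x + ((n : F) * φ ⬝ᵥ x) • v :=
    fun n x => by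
    induction n with
    | zero => simp
    | succ n ih =>
      rw [pow_succ', ← mulVec_mulVec, ih, e, dotProduct_add, dotProduct_smul, h0]
      push_cast
      module
  have h2 := hP v (-φ) ⟨by simp [h0], p ^ (Fintype.card F - 1), pow_mem hp _, fun x => by
    have h3 := h1 (Fintype.card F - 1) x
    rw [Units.val_mul, hc, mul_smul_comm, mul_one, smul_pow,
      FiniteField.pow_card_sub_one_eq_one c c0, one_smul, Nat.cast_sub Fintype.card_pos,
      FiniteField.cast_card_eq_zero] at h3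
    rw [Units.val_pow_eq_pow_val, h3]
    simp⟩
  simpa using h2

theorem W.transfer_cen {H : Type*} [Group H] [Finite H] (hH : commutator H = ⊤) {S : Subgroup H}
    {A : Type*} [CommGroup A] (f : S →* A) {j : S} (hj : ∀ g : H, Commute (j : H) g) :
    f j ^ S.index = 1 := by
  have h1 : f.transfer j = 1 := Abelianization.commutator_subset_ker _ (hH ▸ mem_top _)
  rw [MonoidHom.transfer_eq_pow _ _ fun k g _ => by
    rw [mul_assoc, ((hj g).pow_left k).eq, inv_mul_cancel_left]] at h1
  rw [← map_pow]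
  exact h1

omit [Finite F] in
theorem W.perfect (h : Ctx P π) : commutator P = ⊤ := by
  have h2 : (commutator P).map P.subtype = P := by rw [map_subtype_commutator, h.qs.perfect]
  exact eq_top_iff.2 fun z _ => (mem_map_iff_mem P.subtype_injective).1 (h2.symm ▸ z.2)

/-- If `P` contains a scalar of order four, Sylow 2-subgroups are irreducible. -/
theorem Ctx.irr_sylow (h : Ctx P π) {ι : F} (hι : ι * ι = -1) (h2 : (2 : F) ≠ 0)
    (hm : Mem P (ι • (1 : M4 F))) {S : Subgroup G} (hS : ¬ 2 ∣ S.index)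
    (U : Submodule F (Fin 4 → F)) (hU : ∀ a : P, π a ∈ S → ∀ v ∈ U, mat a *ᵥ v ∈ U) :
    U = ⊥ ∨ U = ⊤ := by
  obtain ⟨j, hj⟩ := hm.exists
  have j1 : π j = 1 := (h.pc.eq_one_iff j).2 ⟨ι, hj⟩
  let f : S.comap π →* F :=
    { toFun := fun s => LinearMap.det ((mat s.1).mulVecLin.restrict (hU s s.2))
      map_one' := by
        rw [← LinearMap.det_id (M := U)]
        exact congrArg _ (LinearMap.ext fun v => Subtype.ext (by simp [mat]))
      map_mul' := fun s t => by
        rw [← LinearMap.det_comp]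
        exact congrArg _ (LinearMap.ext fun v =>
          Subtype.ext (mulVec_mulVec v.1 (mat s.1) (mat t.1)).symm) }
  have h1 := congrArg Units.val (transfer_cen (perfect h) f.toHomUnits
    (j := ⟨j, by simp [j1]⟩) fun g => (h.pc.cm_one _ g j rfl j1).symm)
  have h3 : f ⟨j, by simp [j1]⟩ = ι ^ Module.finrank F U := by
    rw [← mul_one (ι ^ _), ← LinearMap.det_id (M := U), ← LinearMap.det_smul]
    exact congrArg _ (LinearMap.ext fun v => Subtype.ext (by simp [hj]))
  rw [Units.val_pow_eq_pow_val, MonoidHom.coe_toHomUnits, h3, ← pow_mul, Units.val_one,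
    index_comap_of_surjective _ h.pc.surj] at h1
  have h4 : orderOf ι = 2 ^ (1 + 1) := orderOf_eq_prime_pow
    (by rw [pow_one, pow_two, hι]; exact fun e => h2 (by linear_combination -e))
    (by linear_combination (ι * ι - 1) * hι)
  have h5 : 2 ^ 2 ∣ Module.finrank F U :=
    ((Nat.prime_two.coprime_iff_not_dvd.2 hS).pow_left 2).dvd_of_dvd_mul_right
      (h4 ▸ orderOf_dvd_of_pow_eq_one h1)
  have h6 : Module.finrank F U ≤ 4 := by simpa using U.finrank_le
  by_cases h7 : Module.finrank F U = 0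
  · exact Or.inl (Submodule.finrank_eq_zero.1 h7)
  · exact Or.inr (Submodule.eq_top_of_finrank_eq (by simp; omega))

/-- If a subgroup of odd index is generated by a cyclic group and an inverting involution, the
scalars of `P` are `±1`. -/
theorem Ctx.pm_of_dihedral (h : Ctx P π) {c b : G} (hb : b * b = 1) (e : b * c * b⁻¹ = c⁻¹)
    (hS : ¬ 2 ∣ (closure {c, b}).index) {a : P} (ha : π a = 1) : mat a = 1 ∨ mat a = -1 := by
  have hn : ∀ x ∈ zpowers c, b * x * b ∈ zpowers c := by
    rintro _ ⟨n, rfl⟩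
    have := conj_zpow (i := n) (a := b) (b := c)
    rw [e, inv_eq_of_mul_eq_one_right hb] at this
    exact this ▸ zpow_mem (inv_mem (mem_zpowers c)) n
  have h1 : (zpowers c).relIndex (closure {c, b}) ∣ 2 :=
    relIndex_dvd_two_iff.2 ⟨b, subset_closure (by simp), fun s hs => by
      have hb' := inv_eq_of_mul_eq_one_right hb
      induction hs using closure_induction with
      | mem x hx =>
        rcases hx with rfl | rfl
        exacts [Or.inr (mem_zpowers _), Or.inl (hb ▸ one_mem _)]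
      | one => exact Or.inr (one_mem _)
      | mul x y _ _ hx hy =>
        rcases hx with hx | hx <;> rcases hy with hy | hy
        · refine Or.inr ?_
          have := mul_mem hx (hn _ hy)
          rwa [mul_assoc b, mul_assoc y, hb, mul_one, mul_assoc, ← mul_assoc b, hb, one_mul] at this
        · exact Or.inl (by
            have := mul_mem hx (hn _ hy)
            rwa [mul_assoc, ← mul_assoc b, ← mul_assoc b, hb, one_mul, ← mul_assoc] at this)
        · exact Or.inl (by rw [mul_assoc]; exact mul_mem hx hy)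
        · exact Or.inr (mul_mem hx hy)
      | inv x _ hx =>
        refine hx.imp (fun hx => ?_) inv_mem
        have := hn _ (inv_mem hx)
        rwa [_root_.mul_inv_rev, hb', ← mul_assoc, hb, one_mul] at this⟩
  let : CommGroup ((zpowers c).comap π) := { (inferInstance : Group _) with
    mul_comm := fun x y => Subtype.ext (cm_zpowers h.pc c _ x.2 _ y.2 x y rfl rfl) }
  have h2 : a ^ ((zpowers c).comap π).index = 1 := congrArg Subtype.val
    (transfer_cen (perfect h) (MonoidHom.id ((zpowers c).comap π)) (j := ⟨a, by simp [ha]⟩)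
      fun g => (h.pc.cm_one _ g a rfl ha).symm)
  rw [index_comap_of_surjective _ h.pc.surj, ← relIndex_mul_index
    (zpowers_le.2 (subset_closure (by simp)) : zpowers c ≤ closure {c, b})] at h2
  obtain ⟨t, t4, ht⟩ := (Cov.eq_iff4 h.cov a 1).1 (by rw [ha, map_one])
  have h3 : a ^ (2 * (closure {c, b}).index) = 1 :=
    orderOf_dvd_iff_pow_eq_one.1 ((orderOf_dvd_of_pow_eq_one h2).trans (mul_dvd_mul_right h1 _))
  have h4 : t ^ (2 * (closure {c, b}).index) = 1 := smul_one_inj (by
    have := congrArg mat h3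
    rw [mat_pow, ht, smul_pow] at this
    simpa [mat_one] using this)
  have h5 : (t ^ 2) ^ Nat.gcd 2 (closure {c, b}).index = 1 :=
    pow_gcd_eq_one.2 ⟨by rw [← pow_mul, t4], by rw [← pow_mul, h4]⟩
  rw [(Nat.prime_two.coprime_iff_not_dvd.2 hS).gcd_eq_one, pow_one, sq_eq_one_iff] at h5
  rw [ht, mat_one]
  exact h5.imp (fun e => by simp [e]) fun e => by simp [e]

/-- Transfer with a constant value on a class of involutions. -/
theorem transfer_const {H : Type*} [Group H] [Finite H] (hH : commutator H = ⊤) {S : Subgroup H}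
    (hS : ¬ 2 ∣ S.index) {A : Type*} [CommGroup A] (f : S →* A) {r : S} (hr : r * r = 1)
    (hf : ∀ x : S, IsConj (r : H) x → f x = f r) : f r = 1 := by
  classical
  have := Fintype.ofFinite (Quotient (MulAction.orbitRel (zpowers (r : H)) (H ⧸ S)))
  have h1 : f.transfer r = 1 := Abelianization.commutator_subset_ker _ (hH ▸ mem_top _)
  have h2 : f r ^ 2 = 1 := by rw [pow_two, ← map_mul, hr, map_one]
  have r2 : (r : H) ^ 2 = 1 := by rw [pow_two]; exact congrArg Subtype.val hr
  have h3 : f r ^ S.index = 1 := by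
    rw [← h1, MonoidHom.transfer_eq_prod_quotient_orbitRel_zpowers_quot,
      index_eq_sum_minimalPeriod S (r : H), ← Finset.prod_pow_eq_pow_sum]
    have key : ∀ (g : H) (m : ℕ) (hm : g⁻¹ * (r : H) ^ m * g ∈ S), m ∣ 2 →
        f r ^ m = f ⟨_, hm⟩ := fun g m hm h => by
      rcases (Nat.dvd_prime Nat.prime_two).1 h with rfl | rfl
      · rw [pow_one (f r)]
        exact (hf _ (isConj_iff.2 ⟨g⁻¹, by simp⟩)).symm
      · rw [h2, ← map_one f]
        exact congrArg f (Subtype.ext (by simp [r2]))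
    exact Finset.prod_congr rfl fun q _ => key _ _ _ (MulAction.pow_smul_eq_iff_minimalPeriod_dvd.1
      (show (r : H) ^ 2 • q.out = q.out by rw [r2, one_smul]))
  have := pow_gcd_eq_one.2 ⟨h2, h3⟩
  rwa [(Nat.prime_two.coprime_iff_not_dvd.2 hS).gcd_eq_one, pow_one] at this

end Cfsg.Agent.Cl.D4
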