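/-
`A₇` in dimension four: classes of `A₇` and a lemma on monomial matrices.
-/
import Mathlib
import Cfsg.Agent.Cl.D4W
import Cfsg.Agent.Cl.D3ModB
import Cfsg.Agent.Inv.Dihedral

set_option autoImplicit false

namespace Cfsg.Agent.Cl.D4.A7

open Matrix Subgroup Equiv Equiv.Perm

/-- The alternating group of degree seven. -/
abbrev A := alternatingGroup (Fin 7)

/-- An element of order four. -/
def x4 : A := ⟨c[0, 1, 2, 3] * c[4, 5], mem_alternatingGroup.2 (by decide +kernel)⟩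
/-- An involution inverting `x4`. -/
def s2 : A := ⟨c[0, 2] * c[4, 5], mem_alternatingGroup.2 (by decide +kernel)⟩
/-- A three-cycle commuting with the square of `x4`. -/
def y3 : A := ⟨c[4, 5, 6], mem_alternatingGroup.2 (by decide +kernel)⟩
/-- A three-cycle permuting the involutions on the first four points. -/
def r3 : A := ⟨c[1, 2, 3], mem_alternatingGroup.2 (by decide +kernel)⟩
/-- A five-cycle normalised by `x4`. -/
def c5 : A := ⟨c[6, 0, 1, 3, 2], mem_alternatingGroup.2 (by decide +kernel)⟩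
/-- A three-cycle inverted by the square of `x4`. -/
def a3 : A := ⟨c[0, 2, 4], mem_alternatingGroup.2 (by decide +kernel)⟩

theorem x4_pow : x4 ^ 4 = 1 := by decide +kernel
theorem s2_sq : s2 * s2 = 1 := by decide +kernel
theorem s2_x4 : s2 * x4 * s2⁻¹ = x4⁻¹ := by decide +kernel
theorem y3_pow : y3 ^ 3 = 1 := by decide +kernel
theorem y3_t : Commute y3 (x4 * x4) := by unfold Commute SemiconjBy; decide +kernel
theorem y3_b : Commute y3 (r3 * (r3 * (x4 * x4) * r3⁻¹) * r3⁻¹) := by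
  unfold Commute SemiconjBy; decide +kernel
theorem t_b : Commute (x4 * x4) (r3 * (r3 * (x4 * x4) * r3⁻¹) * r3⁻¹) := by
  unfold Commute SemiconjBy; decide +kernel
theorem t_mul_b : x4 * x4 * (r3 * (r3 * (x4 * x4) * r3⁻¹) * r3⁻¹) = r3 * (x4 * x4) * r3⁻¹ := by
  decide +kernel
theorem t_sq : x4 * x4 * (x4 * x4) = 1 := by decide +kernel
theorem s2_y3 : s2 * y3 * s2⁻¹ = y3 ^ 2 := by decide +kernel
theorem s2_ty : s2 * (y3 * (x4 * x4)) * s2⁻¹ = (y3 * (x4 * x4))⁻¹ := by decide +kernel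
theorem c5_facts : c5 ^ 5 = 1 ∧ c5 ≠ 1 ∧ c5 * (x4 * c5 * x4⁻¹) = x4 * c5 * x4⁻¹ * c5 ∧
    x4 * (x4 * c5 * x4⁻¹) * x4⁻¹ = c5⁻¹ := by decide +kernel
theorem a3_facts : a3 ^ 3 = 1 ∧ a3 ≠ 1 ∧ a3 * (x4 * a3 * x4⁻¹) = x4 * a3 * x4⁻¹ * a3 ∧
    x4 * (x4 * a3 * x4⁻¹) * x4⁻¹ = a3⁻¹ := by decide +kernel

theorem odd_index : ¬ 2 ∣ (closure {x4, s2}).index := fun h => by
  have h1 : s2 ∉ zpowers x4 := fun h1 => by
    obtain ⟨k, hk⟩ := h1
    have h2 : Commute s2 x4 := hk ▸ (Commute.refl x4).zpow_left k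
    exact absurd h2.eq (by decide +kernel)
  have h2 : orderOf x4 = 2 ^ (1 + 1) :=
    orderOf_eq_prime_pow (by decide +kernel) (by decide +kernel)
  have h3 := (closure {x4, s2}).index_mul_card
  rw [Inv.card_closure_inverts s2_sq s2_x4 h1, h2, nat_card_alternatingGroup] at h3
  simp only [Nat.card_eq_fintype_card, Fintype.card_fin, Nat.factorial] at h3
  omega

theorem isConj_of_odd {r g : A} {o : Perm (Fin 7)} (ho : sign o = -1) (hc : o * r = r * o)
    (e : (r : Perm (Fin 7)).cycleType = (g : Perm (Fin 7)).cycleType) : IsConj r g := by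
  obtain ⟨c, hc'⟩ := isConj_iff.1 (isConj_iff_cycleType_eq.2 e)
  rcases Int.units_eq_one_or (sign c) with h | h
  · exact isConj_iff.2 ⟨⟨c, mem_alternatingGroup.2 h⟩, Subtype.ext hc'⟩
  · refine isConj_iff.2 ⟨⟨c * o, mem_alternatingGroup.2 (by simp [h, ho])⟩, Subtype.ext ?_⟩
    change c * o * r * (c * o)⁻¹ = g
    rw [← hc', mul_assoc c, hc]
    group

/-- The property of the even permutations of odd order. -/
def Q (σ : Perm (Fin 7)) : Prop :=
  (σ ^ 3 = 1 ∨ σ ^ 5 = 1 ∨ σ ^ 7 = 1) ∧ ∃ h : Perm (Fin 7), sign h = 1 ∧ h * σ * h⁻¹ = σ ^ 2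

theorem Q.of_type {ρ σ : Perm (Fin 7)} (h : Q ρ) (e : ρ.cycleType = σ.cycleType) : Q σ := by
  obtain ⟨c, rfl⟩ := isConj_iff.1 (isConj_iff_cycleType_eq.2 e)
  simp only [Q, conj_pow, conj_eq_one_iff]
  obtain ⟨h1, h, h2, h3⟩ := h
  exact ⟨h1, c * h * c⁻¹, by rw [map_mul, map_mul, h2, mul_one, ← map_mul, mul_inv_cancel, map_one],
    by rw [← h3]; group⟩

theorem cases7 (g : A) : ((g ^ 3 = 1 ∨ g ^ 5 = 1 ∨ g ^ 7 = 1) ∧ IsConj g (g ^ 2)) ∨
    IsConj (x4 * x4) g ∨ IsConj (y3 * (x4 * x4)) g ∨ IsConj x4 g := by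
  have key : Q g → (g ^ 3 = 1 ∨ g ^ 5 = 1 ∨ g ^ 7 = 1) ∧ IsConj g (g ^ 2) := fun ⟨h1, h, h2, h3⟩ =>
    ⟨by simpa only [Subtype.ext_iff, Subgroup.coe_pow, OneMemClass.coe_one] using h1,
      isConj_iff.2 ⟨⟨h, mem_alternatingGroup.2 h2⟩, Subtype.ext h3⟩⟩
  have h := mem_alternatingGroup.1 g.2
  rw [sign_of_cycleType, neg_one_pow_eq_one_iff_even (by decide)] at h
  rcases D3.ModB.types7 _ (fun _ => two_le_of_mem_cycleType)
    (by simpa using (g : Perm (Fin 7)).sum_cycleType_le) h with h | h | h | h | h | h | h | h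
  · exact Or.inl (key (Q.of_type (ρ := 1) ⟨Or.inl (one_pow _), 1, by simp, by simp⟩
      (by rw [h, cycleType_one])))
  · exact Or.inl (key (Q.of_type (ρ := c[0, 1, 2]) ⟨by decide +kernel, swap 0 1 * swap 3 4,
      by simp, by decide +kernel⟩ (by rw [h]; decide +kernel)))
  · exact Or.inl (key (Q.of_type (ρ := c5) ⟨by decide +kernel, x4, by decide +kernel,
      by decide +kernel⟩ (by rw [h]; decide +kernel)))
  · exact Or.inl (key (Q.of_type (ρ := c[0, 1, 2, 3, 4, 5, 6]) ⟨by decide +kernel,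
      c[1, 2, 4] * c[3, 6, 5], by decide +kernel, by decide +kernel⟩ (by rw [h]; decide +kernel)))
  · exact Or.inr (Or.inl (isConj_of_odd (o := swap 4 5) (by simp) (by decide +kernel)
      (by rw [h]; decide +kernel)))
  · exact Or.inr (Or.inr (Or.inr (isConj_of_odd (o := swap 4 5) (by simp) (by decide +kernel)
      (by rw [h]; decide +kernel))))
  · exact Or.inl (key (Q.of_type (ρ := c[0, 1, 2] * c[3, 4, 5]) ⟨by decide +kernel,
      swap 0 1 * swap 3 4, by simp, by decide +kernel⟩ (by rw [h]; decide +kernel)))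
  · exact Or.inr (Or.inr (Or.inl (isConj_of_odd (o := swap 0 2) (by simp) (by decide +kernel)
      (by rw [h]; decide +kernel))))

/-- A matrix permuting four distinct weights cyclically. -/
theorem mono {K : Type*} [Field K] {X : M4 K} {α β : Fin 4 → K} (hX : X.det ≠ 0)
    (h1 : ∀ i j, X i j * α j = β i * X i j) (h2 : ∀ i j, α i * (X i j * β j) = X i j)
    {i : Fin 4} (h0 : α i * α i ≠ 1) : X.trace = 0 ∧ ∀ c : K, X ^ 4 = c • 1 → X.det = -c := by
  have rel : ∀ i j, X i j ≠ 0 → α j = β i ∧ α i * β j = 1 := fun i j h =>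
    ⟨mul_left_cancel₀ h ((h1 i j).trans (mul_comm _ _)),
      mul_left_cancel₀ h (by linear_combination h2 i j)⟩
  have h3 := hX
  rw [det_apply] at h3
  obtain ⟨σ, -, hσ⟩ := Finset.exists_ne_zero_of_sum_ne_zero h3
  have h4 : ∀ i, α i = β (σ i) ∧ α (σ i) * β i = 1 := fun i =>
    rel _ _ (Finset.prod_ne_zero_iff.1 (right_ne_zero_of_smul hσ) i (by simp))
  let e : Fin 4 → Fin 4 := ![i, σ i, σ (σ i), σ (σ (σ i))]
  obtain ⟨a1, b1⟩ := h4 i
  obtain ⟨a2, b2⟩ := h4 (σ i)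
  obtain ⟨a3, b3⟩ := h4 (σ (σ i))
  have key : ∀ k l, (α (e l) = β (e k) ∧ α (e k) * β (e l) = 1) → k = l + 1 := fun k l => by
    fin_cases k <;> fin_cases l <;> simp [e] <;> grind
  have inj : Function.Injective e := fun k l hkl => by
    obtain ⟨a, b⟩ := h4 (e l)
    fin_cases k <;> fin_cases l <;> simp [e] at hkl a b ⊢ <;> grind
  let τ : Perm (Fin 4) := Equiv.ofBijective e (Finite.injective_iff_bijective.1 inj)
  obtain ⟨a, b, c, d, hY⟩ : ∃ a b c d : K,
      X.submatrix τ τ = !![0, 0, 0, d; a, 0, 0, 0; 0, b, 0, 0; 0, 0, c, 0] := by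
    refine ⟨X (e 1) (e 0), X (e 2) (e 1), X (e 3) (e 2), X (e 0) (e 3), ?_⟩
    have h5 : ∀ k l, k ≠ l + 1 → X (e k) (e l) = 0 := fun k l h =>
      by_contra fun h6 => h (key k l (rel _ _ h6))
    ext k l
    change X (e k) (e l) = _
    by_cases h : k = l + 1
    · subst h
      fin_cases l <;> rfl
    · rw [h5 k l h]
      fin_cases k <;> fin_cases l <;> first | rfl | exact absurd (by decide) h
  refine ⟨?_, fun c' hc => ?_⟩
  · have h5 : X.trace = (X.submatrix τ τ).trace := (Equiv.sum_comp τ fun i => X i i).symm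
    rw [h5, hY]
    simp [trace, Fin.sum_univ_four]
  · have h5 : X.submatrix τ τ ^ 4 = c' • 1 := by
      have := congrArg (reindexAlgEquiv K K τ.symm) hc
      rw [map_pow] at this
      simpa using this
    have h6 := congrFun (congrFun h5 0) 0
    rw [← det_submatrix_equiv_self τ, hY]
    rw [hY] at h6
    simp [pow_succ, Matrix.mul_apply, Fin.sum_univ_four] at h6
    simp [det_succ_row_zero, Fin.sum_univ_succ, Fin.succAbove]
    linear_combination -h6

end Cfsg.Agent.Cl.D4.A7
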