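/-
`A₇` in dimension four.
-/
import Mathlib
import Cfsg.Agent.Cl.D4W
import Cfsg.Agent.Cl.D4A7a

set_option autoImplicit false

namespace Cfsg.Agent.Cl.D4

open Matrix Cfsg.Geo Cfsg.Agent.Cl.Max Cfsg.Agent.Cl.Mx Subgroup
open Cfsg.Agent.Cl.D5 (MT Root TrGen Cov NoTv)
open scoped MatrixGroups commutatorElement

variable {F : Type*} [Field F] [Fintype F] {G : Type*} [Group G] {P : Subgroup (G4 F)}
  {π : P →* G}

namespace A7

open W

omit [Fintype F] in
theorem det_one (h : Ctx P π) (Θ : M4 F →ₐ[F] M4 (AlgebraicClosure F)) (a : P) :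
    (Θ (mat a)).det = 1 :=
  comm_ker (T := P) (detMonoidHom.comp ((Θ : M4 F →* M4 (AlgebraicClosure F)).comp
    ((Units.coeHom _).comp P.subtype))) (h.qs.perfect.symm ▸ a.2) a.2

/-- An element of order four whose square inverts an element of odd order. -/
theorem cyc4 (h : Ctx P π) {n : ℕ} (hn : Odd n) (h0 : (n : F) ≠ 0) {a : G} {X : P}
    (ha : a ^ n = 1 ∧ a ≠ 1 ∧ a * (π X * a * (π X)⁻¹) = π X * a * (π X)⁻¹ * a ∧
      π X * (π X * a * (π X)⁻¹) * (π X)⁻¹ = a⁻¹) (h4 : π X ^ 4 = 1) :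
    (mat X).trace = 0 ∧ mat X ^ 4 = -1 := by
  obtain ⟨ha, a1, hc, hx⟩ := ha
  have hm : IsMulCommutative (closure {a, π X * a * (π X)⁻¹}) :=
    isMulCommutative_closure (by
      rintro _ (rfl | rfl) _ (rfl | rfl)
      exacts [rfl, hc, hc.symm, rfl])
  have hcm : ∀ u ∈ closure {a, π X * a * (π X)⁻¹}, ∀ v ∈ closure {a, π X * a * (π X)⁻¹},
      Commute u v := fun u hu v hv => congrArg Subtype.val (hm.is_comm.comm ⟨u, hu⟩ ⟨v, hv⟩)
  have hA : ∀ u ∈ closure {a, π X * a * (π X)⁻¹}, u ^ n = 1 := fun u hu => by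
    induction hu using closure_induction with
    | mem u hu => rcases hu with rfl | rfl <;> simp [conj_pow, ha]
    | one => exact one_pow _
    | mul u v hu hv e e' => rw [(hcm u hu v hv).mul_pow, e, e', one_mul]
    | inv u _ e => rw [inv_pow, e, inv_one]
  obtain ⟨Θ, e, hd⟩ := exists_dg h.pc (fun u hu v hv => h.pc.cm_of_odd hn (hA u hu) (hcm u hu v hv))
    h0 hA
  obtain ⟨a, rfl, ha'⟩ := exists_lift h.cov (Or.inl hn) ha
  have hb : X * (X * a * X⁻¹) * X⁻¹ = a⁻¹ := lift_unique h.cov (Or.inl hn) (by simpa using hx)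
    (by simp [conj_pow, ha']) (by rw [inv_pow, ha', inv_one])
  have m1 : π a ∈ closure {π a, π X * π a * (π X)⁻¹} := subset_closure (by simp)
  have d1 := hd a m1
  have d2 := hd (X * a * X⁻¹) (subset_closure (by simp))
  obtain ⟨i, hi⟩ : ∃ i, Θ (mat a) i i * Θ (mat a) i i ≠ 1 := by
    by_contra h1
    push Not at h1
    have h2 := e.eq_one h.pc (hd (a * a) (by rw [map_mul]; exact mul_mem m1 m1)) (c := 1)
      fun i => by rw [th_mul, dg_mul d1, h1]
    obtain ⟨k, rfl⟩ := hn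
    rw [pow_succ, pow_mul, pow_two, ← map_mul, h2, one_pow, one_mul] at ha
    exact a1 ha
  obtain ⟨h1, h2⟩ := mono (X := Θ (mat X)) (α := fun i => Θ (mat a) i i)
    (β := fun i => Θ (mat (X * a * X⁻¹)) i i) (th_det Θ X)
    (fun i j => by rw [← mul_dg d1, ← dg_mul d2, ← th_mul, ← th_mul, inv_mul_cancel_right])
    (fun i j => by
      rw [← mul_dg d2, ← dg_mul d1, ← th_mul, ← th_mul, eq_mul_of_mul_inv_eq hb,
        mul_inv_cancel_left]) hi
  rw [e.tr, _root_.map_eq_zero] at h1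
  obtain ⟨c, hc⟩ := (h.pc.eq_one_iff (X ^ 4)).1 (by rw [map_pow, h4])
  rw [mat_pow] at hc
  have h3 := h2 (algebraMap F _ c) (by rw [← map_pow, hc, map_smul, map_one, algebraMap_smul])
  rw [det_one h, ← map_neg, eq_comm, map_eq_one_iff _ (algebraMap F _).injective] at h3
  exact ⟨h1, by rw [hc, neg_eq_iff_eq_neg.1 h3, neg_one_smul]⟩

/-- The relations between the trace `u` of an element and the trace `v` of its inverse. -/
def Gd (p : ℕ) (u v : F) : Prop :=
  ((p % 7 = 1 ∨ p % 7 = 2 ∨ p % 7 = 4) → u ^ p = u) ∧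
    ((p % 7 = 3 ∨ p % 7 = 5 ∨ p % 7 = 6) → u ^ p = v) ∧ (p % 7 = 0 → u = v)

omit [Fintype F] in
theorem Gd.of_rat {p : ℕ} {u v : F} (h : u ^ p = u) (e : v = u) : Gd p u v :=
  ⟨fun _ => h, fun _ => h.trans e.symm, fun _ => e.symm⟩

variable (p : ℕ) [Fact p.Prime] [CharP F p]

omit [Fintype F] in
theorem Gd.neg {u v : F} (h : Gd p u v) : Gd p (-u) (-v) := by
  have e : (-u) ^ p = -u ^ p := map_neg (frobenius F p) u
  exact ⟨fun k => by rw [e, h.1 k], fun k => by rw [e, h.2.1 k], fun k => by rw [h.2.2 k]⟩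

omit [Fintype F] in
theorem four_pow : (4 : F) ^ p = 4 := map_ofNat (frobenius F p) 4

variable {ρ : P →* A}

/-- All lifts of `g` satisfy the relations. -/
def GG (ρ : P →* A) (g : A) : Prop := ∀ a, ρ a = g → Gd p (mat a).trace (mat a⁻¹).trace

theorem pm (h : Ctx P ρ) {a b : P} (e : ρ a = ρ b) : mat a = mat b ∨ mat a = -mat b := by
  have := h.pm_of_dihedral s2_sq s2_x4 odd_index (a := a * b⁻¹)
    (by rw [map_mul, map_inv, e, mul_inv_cancel])
  have h4 : mat a = mat (a * b⁻¹) * mat b := by rw [← mat_mul, inv_mul_cancel_right]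
  rw [h4]
  rcases this with h5 | h5 <;> simp [h5]

theorem GG.of_lift (h : Ctx P ρ) {a : P} (e : Gd p (mat a).trace (mat a⁻¹).trace) :
    GG p ρ (ρ a) := fun b hb => by
  rcases pm h hb with h1 | h1
  · rwa [mat_inj h1]
  · have h2 := mat_inv_of_smul (c := -1) (h1.trans (neg_one_smul F _).symm)
    rw [h1, h2, inv_neg_one, neg_one_smul, trace_neg, trace_neg]
    exact e.neg p

omit [Fintype F] [Fact p.Prime] [CharP F p] in
theorem GG.conj (h : Ctx P ρ) {g g' : A} (e : GG p ρ g) (c : IsConj g g') : GG p ρ g' := by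
  obtain ⟨k, rfl⟩ := isConj_iff.1 c
  obtain ⟨k, rfl⟩ := h.cov.surj k
  intro b hb
  have := e (k⁻¹ * b * k⁻¹⁻¹) (by simp [hb, mul_assoc])
  rwa [conj_inv, trace_conj, trace_conj] at this

omit [Fintype F] in
theorem gd_odd (h : Ctx P ρ) {a : P} (hl : a ^ 3 = 1 ∨ a ^ 5 = 1 ∨ a ^ 7 = 1)
    (c : IsConj (ρ a) (ρ a ^ 2)) : Gd p (mat a).trace (mat a⁻¹).trace := by
  have hp : p.Prime := Fact.out
  have key : ∀ l, l.Prime → Odd l → a ^ l = 1 → ∃ T : ℕ → F, T 1 = (mat a).trace ∧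
      T (l - 1) = (mat a⁻¹).trace ∧ T (p % l) = T 1 ^ p ∧ (∀ k, T (2 * k % l) = T k) ∧
      (p % l = 0 → T 1 = 4 ∧ T (l - 1) = 4) := fun l h1 h2 h3 => by
    have h4 : IsConj a (a ^ 2) := isConj_lift h.cov (Or.inl h2) h3
      (by rw [← pow_mul, mul_comm, pow_mul, h3, one_pow]) (by rwa [map_pow])
    refine ⟨fun k => (mat (a ^ k)).trace, by simp only [pow_one], ?_, ?_, fun k => ?_, fun e => ?_⟩
    · rw [inv_eq_of_mul_eq_one_right (b := a ^ (l - 1)) (by
        rw [← pow_succ', Nat.sub_add_cancel h1.one_le, h3])]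
    · simp only [pow_one]
      rw [← pow_eq_pow_mod p h3, trace_pow_char]
    · simp only []
      rw [← pow_eq_pow_mod _ h3, pow_mul]
      exact (trace_eq_of_isConj (h4.pow k)).symm
    · obtain rfl := (Nat.prime_dvd_prime_iff_eq h1 hp).1 (Nat.dvd_of_mod_eq_zero e)
      have h5 : ∀ k, (mat (a ^ k)).trace = 4 := fun k => trace_uni (k := 1) h1
        (CharP.cast_eq_zero F l) (by rw [pow_one, ← pow_mul, mul_comm, pow_mul, h3, one_pow])
      exact ⟨h5 _, h5 _⟩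
  rcases hl with hl | hl | hl
  · obtain ⟨T, h1, h2, h3, h4, h5⟩ := key 3 (by decide) (by decide) hl
    have t2 : T 2 = T 1 := h4 1
    rw [← h1, ← h2]
    refine Gd.of_rat ?_ t2
    have : p % 3 < 3 := Nat.mod_lt _ (by norm_num)
    interval_cases p % 3
    · rw [(h5 rfl).1, four_pow]
    all_goals simp only [← h3, t2]
  · obtain ⟨T, h1, h2, h3, h4, h5⟩ := key 5 (by decide) (by decide) hl
    have t2 : T 2 = T 1 := h4 1
    have t4 : T 4 = T 1 := (h4 2).trans t2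
    have t3 : T 3 = T 1 := (h4 4).trans t4
    rw [← h1, ← h2]
    refine Gd.of_rat ?_ t4
    have : p % 5 < 5 := Nat.mod_lt _ (by norm_num)
    interval_cases p % 5
    · rw [(h5 rfl).1, four_pow]
    all_goals simp only [← h3, t2, t3, t4]
  · obtain ⟨T, h1, h2, h3, h4, h5⟩ := key 7 (by decide) (by decide) hl
    have t2 : T 2 = T 1 := h4 1
    have t4 : T 4 = T 1 := (h4 2).trans t2
    have t5 : T 5 = T 6 := h4 6
    have t3 : T 3 = T 6 := (h4 5).trans t5
    rw [← h1, ← h2]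
    refine ⟨?_, ?_, fun e => (h5 e).1.trans (h5 e).2.symm⟩ <;> rintro (e | e | e) <;>
      simp only [← h3, e, t2, t3, t4, t5]

theorem gg_odd (h : Ctx P ρ) {g : A} (hl : g ^ 3 = 1 ∨ g ^ 5 = 1 ∨ g ^ 7 = 1)
    (c : IsConj g (g ^ 2)) : GG p ρ g := by
  rcases hl with hl | hl | hl <;> obtain ⟨a, rfl, ha⟩ := exists_lift h.cov (Or.inl (by decide)) hl <;>
    exact GG.of_lift p h (gd_odd p h (by simp [ha]) c)

omit [Fintype F] in
theorem gg_four (h : Ctx P ρ) (h2 : p = 2) {g : A} (hg : g ^ 4 = 1) : GG p ρ g := by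
  rintro a rfl
  subst h2
  have h0 := CharP.cast_eq_zero F 2
  have h1 : a ^ 2 ^ 2 = 1 := injective_of_two h.cov (by simpa using h0) (by simpa using hg)
  rw [trace_uni Nat.prime_two h0 h1, trace_uni (k := 2) Nat.prime_two h0 (by rw [inv_pow, h1, inv_one])]
  exact Gd.of_rat (four_pow 2) rfl

omit [Fintype F] in
theorem gg_six (h : Ctx P ρ) (h2 : p = 2) : GG p ρ (y3 * (x4 * x4)) := by
  intro a ha
  subst h2
  have h0 := CharP.cast_eq_zero F 2
  have inj := injective_of_two h.cov (by simpa using h0)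
  obtain ⟨y, hy⟩ := h.cov.surj y3
  obtain ⟨t, ht⟩ := h.cov.surj (x4 * x4)
  obtain rfl : a = y * t := inj (by rw [ha, map_mul, hy, ht])
  have h1 : t ^ 2 ^ 1 = 1 := inj (by rw [map_pow, ht, map_one]; decide +kernel)
  have h3 : Commute y t := inj (by rw [map_mul, map_mul, hy, ht]; exact y3_t)
  rw [h3.mul_inv, trace_mul_uni Nat.prime_two h0 h1 h3, trace_mul_uni (k := 1) Nat.prime_two h0
    (by rw [inv_pow, h1, inv_one]) h3.inv_inv]
  exact gd_odd 2 h (Or.inl (inj (by rw [map_pow, hy, map_one, y3_pow])))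
    (hy ▸ isConj_iff.2 ⟨s2, s2_y3⟩)

theorem lift_x4 (h : Ctx P ρ) {X : P} (hX : ρ X = x4) : (mat X).trace = 0 ∧ mat X ^ 4 = -1 := by
  by_cases h5 : ((5 : ℕ) : F) = 0
  · refine cyc4 h (n := 3) (by decide) (fun h3 => ?_) (hX ▸ a3_facts) (hX ▸ x4_pow)
    push_cast at h3 h5
    exact one_ne_zero (α := F) (by linear_combination 2 * h3 - h5)
  · exact cyc4 h (n := 5) (by decide) h5 (hX ▸ c5_facts) (hX ▸ x4_pow)

theorem an_t (h : Ctx P ρ) (h2 : (2 : F) ≠ 0) :
    An ρ (x4 * x4) (r3 * (r3 * (x4 * x4) * r3⁻¹) * r3⁻¹) := by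
  refine (h.pc.cm_or_an t_sq t_b).resolve_left fun hc => ?_
  obtain ⟨X, hX⟩ := h.cov.surj x4
  obtain ⟨R, hR⟩ := h.cov.surj r3
  have key : ∀ T : P, mat (T * T) = -1 → mat (R * T * R⁻¹ * (R * T * R⁻¹)) = -1 := fun T e => by
    rw [conj_mul, mat_mul, mat_mul R, e]
    simp [mat_mul_inv]
  have h1 : mat (X * X * (X * X)) = -1 := by
    rw [← (lift_x4 h hX).2, ← mat_pow]
    simp only [pow_succ, pow_zero, one_mul, mul_assoc]
  have h3 := key _ h1
  have h4 := key _ h3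
  have h5 := hc (X * X) (R * (R * (X * X) * R⁻¹) * R⁻¹) (by simp [hX]) (by simp [hX, hR])
  have h6 := pm h (a := R * (X * X) * R⁻¹) (b := X * X * (R * (R * (X * X) * R⁻¹) * R⁻¹))
    (by simpa [hX, hR] using t_mul_b.symm)
  generalize R * (R * (X * X) * R⁻¹) * R⁻¹ = W at h4 h5 h6
  generalize R * (X * X) * R⁻¹ = U at h3 h6
  generalize X * X = T at h1 h5 h6
  have h7 : mat (T * W * (T * W)) = 1 := by
    rw [(show Commute W T from h5.symm).mul_mul_mul_comm, mat_mul, h1, h4]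
    simp
  have h8 : (1 : M4 F) = -1 := by
    rw [← h3, ← h7, mat_mul U, mat_mul (T * W)]
    rcases h6 with h6 | h6 <;> simp [h6]
  have h9 := congrFun (congrFun h8 0) 0
  simp only [one_apply_eq, Matrix.neg_apply] at h9
  exact h2 (by linear_combination h9)

omit [Fintype F] [CharP F p] in
theorem gg_zero (h : Ctx P ρ) {g : A} (c : IsConj g g⁻¹) (e : ∀ a, ρ a = g → (mat a).trace = 0) :
    GG p ρ g := fun a ha => by
  obtain ⟨k, hk⟩ := isConj_iff.1 c.symm
  obtain ⟨k, rfl⟩ := h.cov.surj k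
  have := e (k * a⁻¹ * k⁻¹) (by simp [ha, hk])
  rw [trace_conj] at this
  rw [this, e a ha]
  exact Gd.of_rat (zero_pow (Fact.out : p.Prime).ne_zero) rfl

theorem gg_all (h : Ctx P ρ) (g : A) : GG p ρ g := by
  by_cases h2 : p = 2
  · rcases cases7 g with ⟨h1, c⟩ | c | c | c
    · exact gg_odd p h h1 c
    · exact (gg_four p h h2 (by decide +kernel)).conj p h c
    · exact (gg_six p h h2).conj p h c
    · exact (gg_four p h h2 x4_pow).conj p h c
  have h3 : (2 : F) ≠ 0 := fun e => h2 ((Nat.prime_dvd_prime_iff_eq Fact.out Nat.prime_two).1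
    ((CharP.cast_eq_zero_iff F p 2).1 (by simpa using e)))
  have h4 := an_t h h3
  rcases cases7 g with ⟨h1, c⟩ | c | c | c
  · exact gg_odd p h h1 c
  · refine (gg_zero p h (isConj_iff.2 ⟨1, by decide +kernel⟩) fun a ha => ?_).conj p h c
    exact An.trace h.pc h3 (by rw [ha]; exact h4)
  · refine (gg_zero p h (isConj_iff.2 ⟨s2, s2_ty⟩) fun a ha => ?_).conj p h c
    have h5 := ((h.pc.cm_of_odd (by decide) y3_pow y3_b).symm.mul_an h.pc h4.symm).symm
    exact An.trace h.pc h3 (by rw [ha]; exact h5)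
  · exact (gg_zero p h (isConj_iff.2 ⟨s2, s2_x4⟩) fun a ha => (lift_x4 h ha).1).conj p h c

end A7

theorem Ctx.a7 (p : ℕ) [Fact p.Prime] [CharP F p] (h : Ctx P π) (ht : TrGen P) (e : IsoA G 7) :
    Real P ∨ C7 P p := by
  obtain ⟨e⟩ := e
  have key := fun a => A7.gg_all p (h.comp e) _ a rfl
  by_cases h1 : p % 7 = 1 ∨ p % 7 = 2 ∨ p % 7 = 4
  · exact Or.inr (Or.inl ⟨card_eq_of_fix p ht fun a => (key a).1 h1, Or.inr h1⟩)
  by_cases h2 : p % 7 = 3 ∨ p % 7 = 5 ∨ p % 7 = 6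
  · exact (real_or_herm p h.qs ht fun a => (key a).2.1 h2).imp_right fun h3 => Or.inr ⟨h2, h3⟩
  · exact Or.inl (real_iff.2 fun a => (key a).2.2 (by omega))

end Cfsg.Agent.Cl.D4
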