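/-
Groups of unitriangular matrices of size four in characteristic two, in coordinates.
-/
import Mathlib

set_option autoImplicit false

namespace Cfsg.Agent.Cl.D4.C2

open Subgroup
open scoped commutatorElement

/-- Coordinates `(12, 23, 34; 13, 24; 14)` on a group of unitriangular matrices whose corner group
has at most two elements. -/
structure Co (T F : Type*) [Group T] [Field F] where
  /-- The entry `12`. -/
  a : T → F
  /-- The entry `23`. -/
  b : T → F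
  /-- The entry `34`. -/
  c : T → F
  /-- The entry `13`. -/
  d : T → F
  /-- The entry `24`. -/
  e : T → F
  /-- The entry `14`. -/
  f : T → F
  two : (2 : F) = 0
  ma : ∀ x y, a (x * y) = a x + a y
  mb : ∀ x y, b (x * y) = b x + b y
  mc : ∀ x y, c (x * y) = c x + c y
  md : ∀ x y, d (x * y) = d x + d y + a x * b y
  me : ∀ x y, e (x * y) = e x + e y + b x * c y
  mf : ∀ x y, f (x * y) = f x + f y + a x * e y + d x * c y
  inj : ∀ x y, a x = a y → b x = b y → c x = c y → d x = d y → e x = e y → f x = f y → x = y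
  root : ∀ x y, a x = 0 → b x = 0 → c x = 0 → d x = 0 → e x = 0 → a y = 0 → b y = 0 → c y = 0 →
    d y = 0 → e y = 0 → f x ≠ 0 → f y ≠ 0 → f x = f y

namespace Co

variable {T F : Type*} [Group T] [Field F] (K : Co T F)

theorem a1 : K.a 1 = 0 := by have := K.ma 1 1; rw [mul_one] at this; grind
theorem b1 : K.b 1 = 0 := by have := K.mb 1 1; rw [mul_one] at this; grind
theorem c1 : K.c 1 = 0 := by have := K.mc 1 1; rw [mul_one] at this; grind
theorem d1 : K.d 1 = 0 := by have := K.md 1 1; rw [mul_one, K.a1] at this; grind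
theorem e1 : K.e 1 = 0 := by have := K.me 1 1; rw [mul_one, K.b1] at this; grind
theorem f1 : K.f 1 = 0 := by have := K.mf 1 1; rw [mul_one, K.a1, K.d1] at this; grind

theorem ia (x : T) : K.a x⁻¹ = K.a x := by
  have := K.ma x x⁻¹; rw [mul_inv_cancel, K.a1] at this; have := K.two; grind
theorem ib (x : T) : K.b x⁻¹ = K.b x := by
  have := K.mb x x⁻¹; rw [mul_inv_cancel, K.b1] at this; have := K.two; grind
theorem ic (x : T) : K.c x⁻¹ = K.c x := by
  have := K.mc x x⁻¹; rw [mul_inv_cancel, K.c1] at this; have := K.two; grind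
theorem id' (x : T) : K.d x⁻¹ = K.d x + K.a x * K.b x := by
  have := K.md x x⁻¹; rw [mul_inv_cancel, K.d1, K.ib] at this; have := K.two; grind
theorem ie (x : T) : K.e x⁻¹ = K.e x + K.b x * K.c x := by
  have := K.me x x⁻¹; rw [mul_inv_cancel, K.e1, K.ic] at this; have := K.two; grind
theorem if' (x : T) :
    K.f x⁻¹ = K.f x + K.a x * K.e x + K.d x * K.c x + K.a x * K.b x * K.c x := by
  have := K.mf x x⁻¹; rw [mul_inv_cancel, K.f1, K.ie, K.ic] at this; have := K.two; grind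

/-- The elements with trivial superdiagonal. -/
def T2 (s : T) : Prop := K.a s = 0 ∧ K.b s = 0 ∧ K.c s = 0

/-- The corner elements. -/
def T3 (s : T) : Prop := K.a s = 0 ∧ K.b s = 0 ∧ K.c s = 0 ∧ K.d s = 0 ∧ K.e s = 0

/-- The alternating form on the outer superdiagonal entries. -/
def om (x y : T) : F := K.a x * K.c y + K.a y * K.c x

/-- The pairing of `x` with the second diagonal of `s`. -/
def pr (x s : T) : F := K.a x * K.e s + K.d s * K.c x

variable {K}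

theorem T3.comm {t : T} (ht : K.T3 t) (x : T) : t * x = x * t := by
  obtain ⟨h1, h2, h3, h4, h5⟩ := ht
  apply K.inj <;> simp only [K.ma, K.mb, K.mc, K.md, K.me, K.mf, h1, h2, h3, h4, h5] <;> ring

theorem T3.eq {t u : T} (ht : K.T3 t) (h0 : K.f t ≠ 0) (hu : K.T3 u) : u = 1 ∨ u = t := by
  obtain ⟨h1, h2, h3, h4, h5⟩ := ht
  obtain ⟨k1, k2, k3, k4, k5⟩ := hu
  by_cases h : K.f u = 0
  · left
    apply K.inj <;> simp only [K.a1, K.b1, K.c1, K.d1, K.e1, K.f1, *]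
  · right
    have := K.root u t k1 k2 k3 k4 k5 h1 h2 h3 h4 h5 h h0
    apply K.inj <;> simp only [*]

theorem T3.val {t u : T} (ht : K.T3 t) (h0 : K.f t ≠ 0) (hu : K.T3 u) :
    K.f u = 0 ∨ K.f u = K.f t := by
  rcases ht.eq h0 hu with rfl | rfl
  · exact Or.inl K.f1
  · exact Or.inr rfl

variable (K)

theorem cm2 (x y : T) : K.T2 ⁅x, y⁆ ∧ K.d ⁅x, y⁆ = K.b y * K.a x + K.b x * K.a y ∧
    K.e ⁅x, y⁆ = K.b y * K.c x + K.b x * K.c y := by
  have := K.two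
  simp only [T2, commutatorElement_def, K.ma, K.mb, K.mc, K.md, K.me, K.ia, K.ib, K.ic, K.id',
    K.ie]
  grind

theorem cm3 {s : T} (hs : K.T2 s) (x : T) : K.T3 ⁅s, x⁆ ∧ K.f ⁅s, x⁆ = K.pr x s := by
  have := K.two
  obtain ⟨h1, h2, h3⟩ := hs
  simp only [T3, pr, commutatorElement_def, K.ma, K.mb, K.mc, K.md, K.me, K.mf, K.ia, K.ib, K.ic,
    K.id', K.ie, K.if', h1, h2, h3]
  grind

theorem sq2 (x : T) : K.T2 (x * x) ∧ K.d (x * x) = K.b x * K.a x ∧ K.e (x * x) = K.b x * K.c x ∧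
    K.f (x * x) = K.pr x x := by
  have := K.two
  simp only [T2, pr, K.ma, K.mb, K.mc, K.md, K.me, K.mf]
  grind

theorem comm_of {x y : T} (h1 : K.a x = 0) (h2 : K.c x = 0) (h3 : K.a y = 0) (h4 : K.c y = 0) :
    x * y = y * x := by
  apply K.inj <;> simp only [K.ma, K.mb, K.mc, K.md, K.me, K.mf, h1, h2, h3, h4] <;> ring

theorem sq_of {x : T} (h1 : K.a x = 0) (h2 : K.c x = 0) : x * x = 1 := by
  have := K.two
  apply K.inj <;> simp only [K.ma, K.mb, K.mc, K.md, K.me, K.mf, h1, h2, K.a1, K.b1, K.c1, K.d1,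
    K.e1, K.f1] <;> grind

theorem sq_of' {x : T} (h1 : K.b x = 0) (h2 : K.pr x x = 0) : x * x = 1 := by
  obtain ⟨⟨k1, k2, k3⟩, k4, k5, k6⟩ := K.sq2 x
  apply K.inj <;> simp only [K.a1, K.b1, K.c1, K.d1, K.e1, K.f1, *, zero_mul]

theorem comm_of' {x y : T} (h1 : K.b x = 0) (h2 : K.b y = 0) (h : K.pr x y = K.pr y x) :
    x * y = y * x := by
  have := K.two
  simp only [pr] at h
  apply K.inj <;> simp only [K.ma, K.mb, K.mc, K.md, K.me, K.mf, h1, h2] <;> grind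

/-- The basic configuration in class three. -/
structure B3 (t : T) (b0 : F) : Prop where
  t3 : K.T3 t
  f0 : K.f t ≠ 0
  ne : b0 ≠ 0
  bv : ∀ x, K.b x = 0 ∨ K.b x = b0
  exb : ∃ x, K.b x = b0
  exy : ∃ y, K.b y = 0 ∧ ¬ (K.a y = 0 ∧ K.c y = 0)
  exo : ∃ x y, K.om x y ≠ 0

variable {K}

theorem pr_val {t : T} (ht : K.T3 t) (h0 : K.f t ≠ 0) {s : T} (hs : K.T2 s) (x : T) :
    K.pr x s = 0 ∨ K.pr x s = K.f t := by
  obtain ⟨h1, h2⟩ := K.cm3 hs x
  rw [← h2]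
  exact ht.val h0 h1

theorem exists_om {x1 x2 : T} (h : K.om x1 x2 ≠ 0) {y : T} (hy : ¬ (K.a y = 0 ∧ K.c y = 0)) :
    ∃ w, K.om w y ≠ 0 := by
  by_contra hn
  push Not at hn
  have h1 := hn x1
  have h2 := hn x2
  have := K.two
  simp only [om] at h h1 h2
  apply hy
  constructor
  · apply mul_left_cancel₀ h; grind
  · apply mul_left_cancel₀ h; grind

variable (K)

theorem exists_b3 {x y z : T} (h : ¬ Commute ⁅x, y⁆ z) : ∃ t b0, K.B3 t b0 := by
  have two := K.two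
  obtain ⟨h2, hd, he⟩ := K.cm2 x y
  obtain ⟨h3, hf⟩ := K.cm3 h2 z
  set t := ⁅⁅x, y⁆, z⁆ with ht
  have f0 : K.f t ≠ 0 := fun h0 => h <| by
    rw [← commutatorElement_eq_one_iff_commute, ← ht]
    obtain ⟨k1, k2, k3, k4, k5⟩ := h3
    apply K.inj <;> simp only [K.a1, K.b1, K.c1, K.d1, K.e1, K.f1, k1, k2, k3, k4, k5, h0]
  have hf' : K.f t = K.b y * K.om z x + K.b x * K.om z y := by
    rw [hf, pr, hd, he, om, om]; ring
  have exo : ∃ x y, K.om x y ≠ 0 := by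
    by_contra hn
    push Not at hn
    exact f0 (by rw [hf', hn, hn]; ring)
  have exb : ∃ x, K.b x ≠ 0 := by
    by_contra hn
    push Not at hn
    exact f0 (by rw [hf', hn, hn]; ring)
  obtain ⟨x1, x2, h12⟩ := exo
  have exy : ∃ y, K.b y = 0 ∧ ¬ (K.a y = 0 ∧ K.c y = 0) := by
    by_contra hn
    push Not at hn
    have k1 : K.b x1 ≠ 0 := fun h0 => h12 (by rw [om, (hn _ h0).1, (hn _ h0).2]; ring)
    have k2 : K.b x2 ≠ 0 := fun h0 => h12 (by rw [om, (hn _ h0).1, (hn _ h0).2]; ring)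
    obtain ⟨s1, s2, s3, -⟩ := K.sq2 x1
    obtain ⟨r1, r2, r3, -⟩ := K.sq2 x2
    have p1 := pr_val h3 f0 s1 x2
    have p2 := pr_val h3 f0 r1 x1
    have q1 : K.pr x2 (x1 * x1) = K.b x1 * K.om x1 x2 := by rw [pr, s2, s3, om]; ring
    have q2 : K.pr x1 (x2 * x2) = K.b x2 * K.om x1 x2 := by rw [pr, r2, r3, om]; ring
    rw [q1] at p1
    rw [q2] at p2
    have e1 := p1.resolve_left (mul_ne_zero k1 h12)
    have e2 := p2.resolve_left (mul_ne_zero k2 h12)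
    have e3 : K.b x1 = K.b x2 := mul_right_cancel₀ h12 (e1.trans e2.symm)
    have := hn (x1 * x2) (by rw [K.mb, e3]; grind)
    rw [K.ma, K.mc] at this
    apply h12
    rw [om]
    grind
  obtain ⟨y0, hy0, hy1⟩ := exy
  obtain ⟨w, hw⟩ := exists_om h12 hy1
  have key : ∀ x, K.b x = 0 ∨ K.b x = K.f t / K.om w y0 := fun x => by
    obtain ⟨k2, kd, ke⟩ := K.cm2 x y0
    have p := pr_val h3 f0 k2 w
    have q : K.pr w ⁅x, y0⁆ = K.b x * K.om w y0 := by rw [pr, kd, ke, hy0, om]; ring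
    rw [q] at p
    rcases p with p | p
    · exact Or.inl ((mul_eq_zero.1 p).resolve_right hw)
    · exact Or.inr (by rw [← p, mul_div_cancel_right₀ _ hw])
  obtain ⟨β, hβ⟩ := exb
  exact ⟨t, _, h3, f0, div_ne_zero f0 hw, key, ⟨β, (key β).resolve_left hβ⟩, ⟨y0, hy0, hy1⟩,
    x1, x2, h12⟩

variable {K} {t : T} {b0 : F}

/-- Every `b0 x̄` is the second diagonal of an element with trivial superdiagonal. -/
theorem B3.exists_s (h : K.B3 t b0) (x : T) :
    ∃ s, K.T2 s ∧ K.d s = b0 * K.a x ∧ K.e s = b0 * K.c x := by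
  rcases h.bv x with hx | hx
  · obtain ⟨β, hβ⟩ := h.exb
    obtain ⟨k1, k2, k3⟩ := K.cm2 β x
    exact ⟨_, k1, by rw [k2, hx, hβ]; ring, by rw [k3, hx, hβ]; ring⟩
  · obtain ⟨k1, k2, k3, -⟩ := K.sq2 x
    exact ⟨_, k1, by rw [k2, hx], by rw [k3, hx]⟩

theorem B3.om_val (h : K.B3 t b0) (x y : T) : K.om x y = 0 ∨ b0 * K.om x y = K.f t := by
  obtain ⟨s, k1, k2, k3⟩ := h.exists_s y
  have p := pr_val h.t3 h.f0 k1 x
  have q : K.pr x s = b0 * K.om x y := by rw [pr, k2, k3, om]; ring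
  rw [q] at p
  exact p.imp_left fun p => (mul_eq_zero.1 p).resolve_left h.ne

theorem B3.sq_val (h : K.B3 t b0) {x : T} (hx : K.b x = 0) :
    K.pr x x = 0 ∨ K.pr x x = K.f t := by
  obtain ⟨⟨k1, k2, k3⟩, k4, k5, k6⟩ := K.sq2 x
  rw [← k6]
  exact h.t3.val h.f0 ⟨k1, k2, k3, by rw [k4, hx, zero_mul], by rw [k5, hx, zero_mul]⟩

/-- Adjusting an element with `b = 0` to an involution. -/
theorem B3.exists_inv (h : K.B3 t b0) {x y : T} (hx : K.b x = 0) (ho : K.om x y ≠ 0) :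
    ∃ x', K.a x' = K.a x ∧ K.c x' = K.c x ∧ K.b x' = 0 ∧ K.pr x' x' = 0 := by
  rcases h.sq_val hx with p | p
  · exact ⟨x, rfl, rfl, hx, p⟩
  obtain ⟨s, ⟨k1, k2, k3⟩, k4, k5⟩ := h.exists_s y
  have q := (h.om_val x y).resolve_left ho
  have := K.two
  refine ⟨x * s, ?_, ?_, ?_, ?_⟩ <;>
    simp only [pr, om, K.ma, K.mb, K.mc, K.md, K.me, k1, k2, k3, k4, k5, hx] at p q ⊢ <;> grind

theorem B3.cm_val (h : K.B3 t b0) {x y : T} (hx : K.b x = 0) (hy : K.b y = 0) :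
    K.pr x y = K.pr y x ∨ K.pr x y + K.pr y x = K.f t := by
  have := K.two
  obtain ⟨⟨k1, k2, k3⟩, k4, k5⟩ := K.cm2 x y
  have p := h.t3.val h.f0 ⟨k1, k2, k3, by rw [k4, hx, hy]; ring, by rw [k5, hx, hy]; ring⟩
  have q : K.f ⁅x, y⁆ = K.pr x y + K.pr y x := by
    simp only [pr, commutatorElement_def, K.ma, K.mb, K.mc, K.md, K.me, K.mf, K.ia, K.ib, K.ic,
      K.id', K.ie, K.if', hx, hy]
    grind
  rw [q] at p
  exact p.imp_left fun p => by grind

/-- Coordinates with respect to a basis have coefficients `0, 1`. -/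
theorem coef {κ a1 c1 a2 c2 u v : F} (two : (2 : F) = 0) (h : a1 * c2 + a2 * c1 = κ) (h0 : κ ≠ 0)
    (h1 : a1 * v + u * c1 = 0 ∨ a1 * v + u * c1 = κ)
    (h2 : a2 * v + u * c2 = 0 ∨ a2 * v + u * c2 = κ) :
    (u = 0 ∧ v = 0) ∨ (u = a1 ∧ v = c1) ∨ (u = a2 ∧ v = c2) ∨ (u = a1 + a2 ∧ v = c1 + c2) := by
  rcases h1 with h1 | h1 <;> rcases h2 with h2 | h2
  · left; constructor <;> apply mul_left_cancel₀ h0 <;> grind
  · right; left; constructor <;> apply mul_left_cancel₀ h0 <;> grind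
  · right; right; left; constructor <;> apply mul_left_cancel₀ h0 <;> grind
  · right; right; right; constructor <;> apply mul_left_cancel₀ h0 <;> grind

theorem B3.bar (h : K.B3 t b0) {x y : T} (ho : K.om x y ≠ 0) (g : T) :
    (K.a g = 0 ∧ K.c g = 0) ∨ (K.a g = K.a x ∧ K.c g = K.c x) ∨ (K.a g = K.a y ∧ K.c g = K.c y) ∨
      (K.a g = K.a x + K.a y ∧ K.c g = K.c x + K.c y) := by
  have q := (h.om_val x y).resolve_left ho
  have k : ∀ w, K.om w g = 0 ∨ K.om w g = K.om x y := fun w =>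
    (h.om_val w g).imp_right fun p => mul_left_cancel₀ h.ne (p.trans q.symm)
  exact coef K.two rfl ho (k x) (k y)

theorem B3.del (h : K.B3 t b0) {x y : T} (ho : K.om x y ≠ 0) {s : T} (hs : K.T2 s) :
    (K.d s = 0 ∧ K.e s = 0) ∨ (K.d s = b0 * K.a x ∧ K.e s = b0 * K.c x) ∨
      (K.d s = b0 * K.a y ∧ K.e s = b0 * K.c y) ∨
      (K.d s = b0 * K.a x + b0 * K.a y ∧ K.e s = b0 * K.c x + b0 * K.c y) := by
  have q := (h.om_val x y).resolve_left ho
  have k : ∀ w, b0 * K.a w * K.e s + K.d s * (b0 * K.c w) = 0 ∨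
      b0 * K.a w * K.e s + K.d s * (b0 * K.c w) = b0 * K.f t := fun w => by
    rcases pr_val h.t3 h.f0 hs w with p | p <;> rw [pr] at p
    · left; linear_combination b0 * p
    · right; linear_combination b0 * p
  refine coef K.two ?_ (mul_ne_zero h.ne h.f0) (k x) (k y)
  rw [om] at q
  linear_combination b0 * q

/-- Case A: the group is `Z₂ ≀ V₄`. -/
theorem B3.caseA (h : K.B3 t b0) {β : T} (h1 : K.a β = 0) (h2 : K.c β = 0) (h3 : K.b β = b0) :
    ∃ x y : T, x * x = 1 ∧ y * y = 1 ∧ β * β = 1 ∧ Commute x y ∧ Commute β (x * β * x) ∧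
      Commute β (y * β * y) ∧ Commute β (x * y * β * y * x) ∧
      t = β * (x * β * x) * (y * β * y) * (x * y * β * y * x) ∧ closure {x, y, β} = ⊤ := by
  have two := K.two
  have hb : ∀ g, ∃ g', K.a g' = K.a g ∧ K.c g' = K.c g ∧ K.b g' = 0 := fun g => by
    rcases h.bv g with p | p
    · exact ⟨g, rfl, rfl, p⟩
    · exact ⟨g * β, by rw [K.ma, h1, add_zero], by rw [K.mc, h2, add_zero],
        by rw [K.mb, p, h3]; grind⟩
  obtain ⟨x0, y0, h0⟩ := h.exo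
  obtain ⟨x1, p1, p2, p3⟩ := hb x0
  obtain ⟨y1, q1, q2, q3⟩ := hb y0
  obtain ⟨x2, r1, r2, r3, r4⟩ := h.exists_inv (y := y0) p3 (by rwa [om, p1, p2])
  obtain ⟨y, s1, s2, s3, s4⟩ := h.exists_inv (y := x0) q3 (by rwa [om, q1, q2, add_comm])
  have o2 : K.om x2 y ≠ 0 := by rwa [om, r1, r2, s1, s2, p1, p2, q1, q2]
  obtain ⟨x, hx, px, ox, cx⟩ : ∃ x, K.b x = 0 ∧ K.pr x x = 0 ∧ K.om x y ≠ 0 ∧
      K.pr x y = K.pr y x := by
    rcases h.cm_val r3 s3 with p | p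
    · exact ⟨x2, r3, r4, o2, p⟩
    obtain ⟨s, ⟨k1, k2, k3⟩, k4, k5⟩ := h.exists_s x2
    have q := (h.om_val x2 y).resolve_left o2
    refine ⟨x2 * s, ?_, ?_, ?_, ?_⟩ <;>
      simp only [pr, om, K.ma, K.mb, K.mc, K.md, K.me, k1, k2, k3, k4, k5, r3] at p q r4 o2 ⊢ <;>
      grind
  have q := (h.om_val x y).resolve_left ox
  have ht : t = β * (x * β * x) * (y * β * y) * (x * y * β * y * x) := by
    obtain ⟨t1, t2, t3, t4, t5⟩ := h.t3
    simp only [pr, om] at px s4 cx q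
    apply K.inj <;> simp only [K.ma, K.mb, K.mc, K.md, K.me, K.mf, h1, h2, h3, hx, s3, t1, t2, t3,
      t4, t5] <;> grind
  refine ⟨x, y, K.sq_of' hx px, K.sq_of' s3 s4, K.sq_of h1 h2, K.comm_of' hx s3 cx,
    K.comm_of h1 h2 ?_ ?_, K.comm_of h1 h2 ?_ ?_, K.comm_of h1 h2 ?_ ?_, ht, ?_⟩
  · simp only [K.ma, h1]; grind
  · simp only [K.mc, h2]; grind
  · simp only [K.ma, h1]; grind
  · simp only [K.mc, h2]; grind
  · simp only [K.ma, h1]; grind
  · simp only [K.mc, h2]; grind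
  set C := closure ({x, y, β} : Set T)
  have cx' : x ∈ C := subset_closure (by simp)
  have cy : y ∈ C := subset_closure (by simp)
  have cb : β ∈ C := subset_closure (by simp)
  have ct : t ∈ C := by rw [ht]; repeat (first | assumption | apply C.mul_mem)
  have c3 : ∀ g, K.T3 g → g ∈ C := fun g hg => by
    rcases h.t3.eq h.f0 hg with rfl | rfl
    exacts [C.one_mem, ct]
  have cm : ∀ g ∈ C, ⁅β, g⁆ ∈ C := fun g hg => by
    rw [commutatorElement_def]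
    exact C.mul_mem (C.mul_mem (C.mul_mem cb hg) (C.inv_mem cb)) (C.inv_mem hg)
  have c2' : ∀ g, K.T2 g → ∀ u ∈ C, K.b u = 0 → K.d g = b0 * K.a u → K.e g = b0 * K.c u → g ∈ C :=
    fun g ⟨g1, g2, g3⟩ u hu hb g4 g5 => by
      obtain ⟨⟨k1, k2, k3⟩, k4, k5⟩ := K.cm2 β u
      refine (C.mul_mem_cancel_right (cm u hu)).1 (c3 _ ?_)
      simp only [T3, K.ma, K.mb, K.mc, K.md, K.me, g1, g2, g3, g4, g5, k1, k2, k3, k4, k5, hb, h3]
      grind
  have c2 : ∀ g, K.T2 g → g ∈ C := fun g hg => by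
    rcases h.del ox hg with ⟨p, q⟩ | ⟨p, q⟩ | ⟨p, q⟩ | ⟨p, q⟩
    · exact c3 g ⟨hg.1, hg.2.1, hg.2.2, p, q⟩
    · exact c2' g hg x cx' hx p q
    · exact c2' g hg y cy s3 p q
    · exact c2' g hg (x * y) (C.mul_mem cx' cy) (by rw [K.mb, hx, s3, add_zero])
        (by rw [p, K.ma]; ring) (by rw [q, K.mc]; ring)
  have c1 : ∀ g, K.a g = 0 → K.c g = 0 → g ∈ C := fun g g1 g2 => by
    rcases h.bv g with p | p
    · exact c2 g ⟨g1, p, g2⟩
    · refine (C.mul_mem_cancel_right cb).1 (c2 _ ?_)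
      simp only [T2, K.ma, K.mb, K.mc, g1, g2, h1, h2, h3, p]
      grind
  have c0 : ∀ g, ∀ u ∈ C, K.a g = K.a u → K.c g = K.c u → g ∈ C := fun g u hu g1 g2 =>
    (C.mul_mem_cancel_right hu).1 (c1 _ (by rw [K.ma, g1]; grind) (by rw [K.mc, g2]; grind))
  rw [eq_top_iff]
  intro g _
  rcases h.bar ox g with ⟨p, q⟩ | ⟨p, q⟩ | ⟨p, q⟩ | ⟨p, q⟩
  · exact c1 g p q
  · exact c0 g x cx' p q
  · exact c0 g y cy p q
  · exact c0 g (x * y) (C.mul_mem cx' cy) (by rw [p, K.ma]) (by rw [q, K.mc])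

variable (K) in
/-- The elements with `b = 0`. -/
def kb : Subgroup T where
  carrier := {x | K.b x = 0}
  one_mem' := K.b1
  mul_mem' := fun {x y} hx hy => by
    simp only [Set.mem_ofPred_eq] at hx hy ⊢
    rw [K.mb, hx, hy, add_zero]
  inv_mem' := fun {x} hx => by
    simp only [Set.mem_ofPred_eq] at hx ⊢
    rw [K.ib, hx]

theorem mem_kb {x : T} : x ∈ K.kb ↔ K.b x = 0 := Iff.rfl

theorem B3.index_kb (h : K.B3 t b0) : K.kb.index = 2 := by
  obtain ⟨β, hβ⟩ := h.exb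
  refine index_eq_two_iff.2 ⟨β, fun g => ?_⟩
  have := K.two
  have := h.ne
  rw [mem_kb, mem_kb, K.mb, hβ]
  rcases h.bv g with p | p <;> rw [p] <;> unfold Xor <;> grind

theorem pow_four (K : Co T F) (x : T) : x * x * (x * x) = 1 := K.sq_of (K.sq2 x).1.1 (K.sq2 x).1.2.2

theorem B3.sq_kb (h : K.B3 t b0) {x : T} (hx : x ∈ K.kb) : x * x = 1 ∨ x * x = t := by
  obtain ⟨⟨k1, k2, k3⟩, k4, k5, k6⟩ := K.sq2 x
  rw [mem_kb] at hx
  exact h.t3.eq h.f0 ⟨k1, k2, k3, by rw [k4, hx, zero_mul], by rw [k5, hx, zero_mul]⟩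

/-- Case B: squares of elements outside `kb` are not corner elements. -/
theorem not_t3 (hB : ∀ β, K.a β = 0 → K.c β = 0 → K.b β = 0) {x : T} (hx : x ∉ K.kb) :
    ¬ K.T3 (x * x) := fun ⟨_, _, _, p, q⟩ => by
  obtain ⟨-, k4, k5, -⟩ := K.sq2 x
  rw [k4] at p
  rw [k5] at q
  exact hx (hB x ((mul_eq_zero.1 p).resolve_left hx) ((mul_eq_zero.1 q).resolve_left hx))

theorem t3_one : K.T3 1 := ⟨K.a1, K.b1, K.c1, K.d1, K.e1⟩

theorem B3.caseB (h : K.B3 t b0) (hB : ∀ β, K.a β = 0 → K.c β = 0 → K.b β = 0) :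
    ∃ x s : T, x ∉ K.kb ∧ s * s = 1 ∧ s * (x * x) = x * x * s ∧ x * s * (x * s) = x * x * t := by
  have two := K.two
  obtain ⟨x, hx⟩ := h.exb
  have h0 : K.b x ≠ 0 := hx ▸ h.ne
  obtain ⟨x0, y0, ho⟩ := h.exo
  obtain ⟨w, hw⟩ := exists_om ho (y := x) fun ⟨p, q⟩ => h0 (hB x p q)
  obtain ⟨s, ⟨k1, k2, k3⟩, k4, k5⟩ := h.exists_s w
  have q := (h.om_val w x).resolve_left hw
  refine ⟨x, s, h0, K.sq_of k1 k3, K.comm_of k1 k3 (K.sq2 x).1.1 (K.sq2 x).1.2.2, ?_⟩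
  obtain ⟨t1, t2, t3, t4, t5⟩ := h.t3
  rw [om] at q
  apply K.inj <;> simp only [K.ma, K.mb, K.mc, K.md, K.me, K.mf, k1, k2, k3, k4, k5, t1, t2, t3,
      t4, t5] <;> grind

end Co

end Cfsg.Agent.Cl.D4.C2
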