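/-
Subgroups of `SL₄(F)`: two applications of Dickson's theorem.
-/
import Mathlib
import Cfsg.Agent.Cl.D4B
import Cfsg.Agent.Cl.PSL2Dickson
import Cfsg.Agent.Cl.LinearIso

set_option autoImplicit false
set_option linter.unusedSectionVars false

namespace Cfsg.Agent.Cl.D4

open Matrix Cfsg.Geo Cfsg.Agent.Cl.Max Cfsg.Agent.Cl.Mx Subgroup
open Cfsg.Agent.Cl.D5 (MT Root TrGen Cov NoTv)
open scoped MatrixGroups commutatorElement

namespace PP

open L2

variable {F : Type*} [Field F]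

/-- The quaternion algebra of two anticommuting involutions. -/
theorem exists_hom (h2 : (2 : F) ≠ 0) {X Y : M4 F} (hX : X * X = 1) (hY : Y * Y = 1)
    (h : X * Y = -(Y * X)) : ∃ ψ : M2 F →ₐ[F] M4 F, ψ !![1, 0; 0, -1] = X ∧ ψ !![0, 1; 1, 0] = Y := by
  obtain ⟨Z, hZ⟩ : ∃ Z, X * Y = Z := ⟨_, rfl⟩
  have e1 : Y * X = -Z := by rw [← hZ, h, neg_neg]
  have e2 : X * Z = Y := by rw [← hZ, ← Matrix.mul_assoc, hX, Matrix.one_mul]
  have e3 : Z * Y = X := by rw [← hZ, Matrix.mul_assoc, hY, Matrix.mul_one]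
  have e4 : Y * Z = -X := by rw [← hZ, ← Matrix.mul_assoc, e1, Matrix.neg_mul, e3]
  have e5 : Z * X = -Y := by rw [← hZ, Matrix.mul_assoc, e1, Matrix.mul_neg, e2]
  have e6 : Z * Z = -1 := by
    nth_rw 1 [← hZ]; rw [Matrix.mul_assoc, e4, Matrix.mul_neg, hX]
  let l : M2 F →ₗ[F] M4 F :=
    { toFun := fun m => ((m 0 0 + m 1 1) / 2) • (1 : M4 F) + ((m 0 0 - m 1 1) / 2) • X +
        ((m 0 1 + m 1 0) / 2) • Y + ((m 0 1 - m 1 0) / 2) • Z
      map_add' := fun a b => by simp only [Matrix.add_apply]; module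
      map_smul' := fun c a => by
        simp only [Matrix.smul_apply, smul_eq_mul, RingHom.id_apply]; module }
  have hl : ∀ m, l m = ((m 0 0 + m 1 1) / 2) • (1 : M4 F) + ((m 0 0 - m 1 1) / 2) • X +
      ((m 0 1 + m 1 0) / 2) • Y + ((m 0 1 - m 1 0) / 2) • Z := fun _ => rfl
  refine ⟨AlgHom.ofLinearMap l ?_ fun a b => ?_, ?_, ?_⟩
  · rw [hl]; simp; match_scalars; field_simp; norm_num
  · simp only [hl, add_mul, mul_add, smul_mul_assoc, mul_smul_comm, Matrix.one_mul, Matrix.mul_one,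
      hX, hY, hZ, e1, e2, e3, e4, e5, e6, mul_apply, Fin.sum_univ_two]
    match_scalars <;> field_simp <;> ring
  · rw [AlgHom.ofLinearMap_apply, hl]; simp; match_scalars; field_simp; norm_num
  · rw [AlgHom.ofLinearMap_apply, hl]; simp; match_scalars; field_simp; norm_num

theorem exists_nil (h2 : (2 : F) ≠ 0) {g : PGL(2, F)} (h : tau g = 4) :
    ∃ N : M2 F, N * N = 0 ∧ (1 + N).det ≠ 0 ∧ L2.pm (1 + N) = g := by
  obtain ⟨A, hA, rfl⟩ := exists_pm g
  rw [tau_pm_eq_iff hA] at h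
  have h4 := four_ne_zero_of_two h2
  have t0 : A.trace ≠ 0 := fun e => hA (by rw [e] at h; grind)
  have c0 : 2 / A.trace ≠ 0 := div_ne_zero h2 t0
  refine ⟨(2 / A.trace) • A - 1, ?_, ?_, ?_⟩
  · simp only [sub_mul, mul_sub, smul_mul_assoc, mul_smul_comm, Matrix.one_mul, Matrix.mul_one,
      mul_self_two A]
    match_scalars
    · field_simp; ring
    · field_simp; linear_combination h
  · rw [add_sub_cancel, det_smul_two]; exact mul_ne_zero (pow_ne_zero _ c0) hA
  · rw [add_sub_cancel, pm_smul c0]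

theorem S4_prod : ∀ x : Equiv.Perm (Fin 4), x * x * x = 1 → ∀ y : Equiv.Perm (Fin 4),
    y * y * y = 1 → x * y * (x * y) = 1 ∨ x * y * (x * y) * (x * y) = 1 := by decide +kernel

theorem A5_pow : ∀ x : Equiv.Perm (Fin 5), Equiv.Perm.sign x = 1 →
    x * x = 1 ∨ x * x * x = 1 ∨ x * x * x * x * x = 1 := by decide +kernel

theorem small_prod {H : Type*} [Group H] (h : Nonempty (H ≃* alternatingGroup (Fin 4)) ∨
    Nonempty (H ≃* Equiv.Perm (Fin 4)) ∨ Nonempty (H ≃* alternatingGroup (Fin 5))) {x y : H}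
    (hx : x ^ 3 = 1) (hy : y ^ 3 = 1) : (x * y) ^ 2 = 1 ∨ (x * y) ^ 3 = 1 ∨ (x * y) ^ 5 = 1 := by
  have key : ∀ φ : H →* Equiv.Perm (Fin 4), Function.Injective φ →
      (x * y) ^ 2 = 1 ∨ (x * y) ^ 3 = 1 := fun φ hφ => by
    have := S4_prod (φ x) (by rw [← pow_three', ← map_pow, hx, map_one]) (φ y)
      (by rw [← pow_three', ← map_pow, hy, map_one])
    rwa [← pow_three', ← sq, ← map_mul, ← map_pow, ← map_pow, map_eq_one_iff _ hφ,
      map_eq_one_iff _ hφ] at this
  rcases h with ⟨⟨e⟩⟩ | ⟨⟨e⟩⟩ | ⟨⟨e⟩⟩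
  · exact (key ((alternatingGroup _).subtype.comp e.toMonoidHom)
      (Subtype.val_injective.comp e.injective)).imp_right Or.inl
  · exact (key e.toMonoidHom e.injective).imp_right Or.inl
  · have := A5_pow (e (x * y)).1 (e (x * y)).2
    have k : ∀ n, (e (x * y)).1 ^ n = 1 → (x * y) ^ n = 1 := fun n h =>
      e.injective (by rw [map_pow, map_one]; exact Subtype.ext h)
    exact this.imp (fun h => k 2 (by rw [sq, h])) (Or.imp (fun h => k 3 (by rw [pow_three', h]))
      fun h => k 5 (by simpa only [pow_succ, pow_zero, one_mul] using h))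

/-- The group generated by the two elements of order three contains a unipotent element. -/
theorem exists_unip [Finite F] (h2 : (2 : F) ≠ 0) (h3 : (3 : F) ≠ 0) {s : F} (hs : s * s = -3)
    {H : Subgroup PGL(2, F)} (a : L2.pm !![s - 1, 0; 0, -s - 1] ∈ H) (b : L2.pm !![-1, s; s, -1] ∈ H) :
    ∃ h ∈ H, h ≠ 1 ∧ tau h = 4 := by
  by_contra hreg
  push Not at hreg
  have h4 := four_ne_zero_of_two h2
  have s0 : s ≠ 0 := fun e => h3 (by rw [e] at hs; linear_combination hs)
  have d1 : (!![s - 1, 0; 0, -s - 1] : M2 F).det = 4 := by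
    rw [det_fin_two_of]; linear_combination -hs
  have d2 : (!![-1, s; s, -1] : M2 F).det = 4 := by rw [det_fin_two_of]; linear_combination -hs
  have n1 := d1 ▸ h4
  have n2 := d2 ▸ h4
  have t1 : tau (L2.pm !![s - 1, 0; 0, -s - 1]) = 1 := by
    rw [tau_pm_eq_iff n1, d1, trace_fin_two_of]; ring
  have t2 : tau (L2.pm !![-1, s; s, -1]) = 1 := by rw [tau_pm_eq_iff n2, d2, trace_fin_two_of]; ring
  have : Finite PGL(2, F) := Finite.of_surjective _ (ProjGenLinGroup.mk_surjective (n := Fin 2))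
  rcases dickson_regular H hreg with ⟨x, h⟩ | ⟨g, -, ht, h⟩ | h
  · have h5 := h _ a
    have h6 := h _ b
    rcases eq_inf_or_pt x with rfl | ⟨c, rfl⟩
    · exact s0 (by simpa using (pm_smul_inf_eq_inf n2).1 h6)
    · rw [pm_smul_pt_eq_pt n1] at h5
      rw [pm_smul_pt_eq_pt n2] at h6
      simp at h5 h6
      grind
  · have k : ∀ {x}, x ∈ H → tau x = 1 → x ∈ tor g := fun hx e => by_contra fun hn =>
      one_ne_zero (e.symm.trans (tau_eq_zero_of_mem_ntor ht (h hx) hn))
    have := (pm_mem_tor n1 n2).1 (mem_tor_of_mem_tor (ne_one_of_tau ht) (k a t1) (k b t2))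
    have := congrFun (congrFun this 0) 1
    simp at this
    exact mul_ne_zero h2 (mul_ne_zero s0 s0) (by linear_combination this)
  · have h5 := small_prod h (x := ⟨_, a⟩) (y := ⟨_, b⟩) (Subtype.ext (pow_three_of_tau t1))
      (Subtype.ext (pow_three_of_tau t2))
    have h6 := H.mul_mem a b
    simp only [Subtype.ext_iff, Subgroup.coe_pow, Subgroup.coe_mul, Subgroup.coe_one] at h5
    rw [← pm_mul n1 n2] at h5 h6
    have n3 : (!![s - 1, 0; 0, -s - 1] * !![-1, s; s, -1] : M2 F).det ≠ 0 := by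
      rw [det_mul]; exact mul_ne_zero n1 n2
    have t3 : tau (L2.pm (!![s - 1, 0; 0, -s - 1] * !![-1, s; s, -1])) = 4⁻¹ := by
      rw [tau_pm_eq_iff n3, det_mul, d1, d2]
      simp [trace_fin_two]
      field_simp; ring
    have w1 : L2.pm (!![s - 1, 0; 0, -s - 1] * !![-1, s; s, -1]) ≠ 1 := fun e => by
      have := ((pm_eq_one_iff n3).1 e).2.2
      simp at this
      have := ((pm_eq_one_iff n3).1 e).1
      simp at this
      grind
    have h7 := hreg _ h6 w1
    rw [sq, mul_self_eq_one_iff_tau w1, pow_three_eq_one_iff w1, pow_five_eq_one_iff w1, t3] at h5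
    rw [t3] at h7
    grind

/-! ### Block diagonal matrices -/

/-- A diagonal block. -/
abbrev blk (ε : Fin 2) (X : M4 F) : M2 F :=
  X.submatrix (fun i : Fin 2 => finProdFinEquiv (ε, i)) fun i : Fin 2 => finProdFinEquiv (ε, i)

/-- The block diagonal matrix. -/
def bd (a b : M2 F) : M4 F :=
  !![a 0 0, a 0 1, 0, 0; a 1 0, a 1 1, 0, 0; 0, 0, b 0 0, b 0 1; 0, 0, b 1 0, b 1 1]

theorem blk_bd (ε : Fin 2) (a b : M2 F) : blk ε (bd a b) = ![a, b] ε := by
  ext i j; fin_cases ε <;> fin_cases i <;> fin_cases j <;> rfl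

theorem bd_mul (a b c d : M2 F) : bd a b * bd c d = bd (a * c) (b * d) := by
  ext i j; fin_cases i <;> fin_cases j <;> simp [bd, mul_apply, Fin.sum_univ_succ]

theorem bd_zero : bd (0 : M2 F) 0 = 0 := by
  ext i j; fin_cases i <;> fin_cases j <;> simp [bd]

theorem eq_bd (h2 : (2 : F) ≠ 0) {X : M4 F}
    (h : diagonal ![1, 1, -1, -1] * X = X * diagonal ![1, 1, -1, -1]) :
    X = bd (blk 0 X) (blk 1 X) := by
  ext i j
  have := congrFun (congrFun h i) j
  rw [diagonal_mul, mul_diagonal] at this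
  fin_cases i <;> fin_cases j <;> first | rfl | (simp [bd] at this ⊢; grind)

theorem blk_mul {X Y : M4 F} (hX : X = bd (blk 0 X) (blk 1 X)) (hY : Y = bd (blk 0 Y) (blk 1 Y))
    (ε : Fin 2) : blk ε (X * Y) = blk ε X * blk ε Y := by
  conv_lhs => rw [hX, hY, bd_mul, blk_bd]
  fin_cases ε <;> rfl

theorem blk_one (ε : Fin 2) : blk ε (1 : M4 F) = 1 :=
  submatrix_one _ fun _ _ h => (Prod.ext_iff.1 (finProdFinEquiv.injective h)).2

theorem nil_two {n : M2 F} (h : IsNilpotent n) : n.trace = 0 ∧ n.det = 0 := by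
  refine ⟨(isNilpotent_trace_of_isNilpotent h).eq_zero, ?_⟩
  obtain ⟨k, hk⟩ := h
  have := congrArg det hk
  rw [det_pow, det_zero] at this
  exact eq_zero_of_pow_eq_zero this

theorem mul_two_zero {n m : M2 F} (hn : IsNilpotent n) (hm : IsNilpotent m)
    (h : IsNilpotent ((1 + n) * (1 + m) - 1)) : n * m = 0 := by
  obtain ⟨a1, a2⟩ := nil_two hn
  obtain ⟨b1, b2⟩ := nil_two hm
  have c := (nil_two h).1
  rw [show (1 + n) * (1 + m) - 1 = n + m + n * m by noncomm_ring, trace_add, trace_add, a1, b1] at c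
  simp only [trace_fin_two, det_fin_two, mul_apply, Fin.sum_univ_two] at *
  have e1 : n 1 1 = -n 0 0 := by linear_combination a1
  have e2 : m 1 1 = -m 0 0 := by linear_combination b1
  rw [e1] at a2 c
  rw [e2] at b2 c
  ext i j
  refine pow_eq_zero_iff (two_ne_zero) |>.1 ?_
  fin_cases i <;> fin_cases j <;> simp [mul_apply, e1, e2] <;> grind

variable [Finite F] {G : Type*} [Group G] {P : Subgroup (G4 F)} {π : P →* G}

theorem card_le_three (h : Od P π) (p : ℕ) [Fact p.Prime] [CharP F p] {S : Subgroup P} {n : ℕ}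
    (hS : Nat.card S = p ^ n) (hb : ∀ a ∈ S, mat a = bd (blk 0 (mat a)) (blk 1 (mat a))) :
    p ^ n ≤ 3 := by
  have nil : ∀ a ∈ S, ∀ ε, IsNilpotent (blk ε (mat a) - 1) := fun a ha ε => by
    have h1 : ∀ k, blk ε (mat (a ^ k)) = blk ε (mat a) ^ k := fun k => by
      induction k with
      | zero => rw [pow_zero, pow_zero]; exact blk_one ε
      | succ k ih => rw [pow_succ, mat_mul, blk_mul (hb _ (S.pow_mem ha k)) (hb a ha), ih, pow_succ]
    have h2 : a ^ p ^ n = 1 := by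
      rw [← hS]; exact congrArg Subtype.val (pow_card_eq_one' (x := (⟨a, ha⟩ : S)))
    refine ⟨p ^ n, ?_⟩
    rw [sub_pow_char_pow_of_commute p n (Commute.one_right _), ← h1, h2, one_pow]
    exact sub_eq_zero.2 (blk_one ε)
  have sb : ∀ a ∈ S, mat a - 1 = bd (blk 0 (mat a) - 1) (blk 1 (mat a) - 1) := fun a ha => by
    conv_lhs => rw [hb a ha]
    ext i j; fin_cases i <;> fin_cases j <;> simp [bd]
  have mz : ∀ a ∈ S, ∀ b ∈ S, (mat a - 1) * (mat b - 1) = 0 := fun a ha b hb' => by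
    have k := fun ε => mul_two_zero (nil a ha ε) (nil b hb' ε) (by
      rw [add_sub_cancel, add_sub_cancel, ← blk_mul (hb a ha) (hb b hb')]
      exact nil _ (S.mul_mem ha hb') ε)
    rw [sb a ha, sb b hb', bd_mul, k, k, bd_zero]
  rw [← hS]
  by_cases h1 : ∀ a ∈ S, a = 1
  · rw [(eq_bot_iff_forall S).2 h1, card_bot]; norm_num
  push Not at h1
  obtain ⟨a, ha, a1⟩ := h1
  have a0 : mat a - 1 ≠ 0 := fun e => a1 (mat_inj (sub_eq_zero.1 e))
  have h3 : (S : Set P) ⊆ {1, a, a⁻¹} := fun b hb' => by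
    rcases h.small _ _ (by simpa using mem_mat a) (by simpa using mem_mat b) a0 (mz a ha a ha)
      (mz b hb' b hb') (mz a ha b hb') (mz b hb' a ha) with e | e | e
    · exact Or.inl (mat_inj (sub_eq_zero.1 e))
    · exact Or.inr (Or.inl (mat_inj (sub_left_injective e)))
    · refine Or.inr (Or.inr (eq_inv_of_mul_eq_one_left (mat_inj ?_)))
      rw [mat_mul, mat_one]
      linear_combination (norm := noncomm_ring) mz b hb' a ha + e
  classical
  calc Nat.card S = (S : Set P).ncard := (Nat.card_coe_set_eq _)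
    _ ≤ ({1, a, a⁻¹} : Set P).ncard := Set.ncard_le_ncard h3
    _ ≤ 3 := by
      rw [← Finset.coe_singleton, ← Finset.coe_insert, ← Finset.coe_insert, Set.ncard_coe_finset]
      exact Finset.card_le_three

theorem sub_three (h2 : (2 : F) ≠ 0) {k : Subfield F} (hk : Nat.card k = 3) {c : PGL(2, F)}
    {H : Subgroup PGL(2, F)} (h : H = L2.cj c (subPSL k) ∨ H = L2.cj c (subPGL k)) :
    Nonempty (H ≃* alternatingGroup (Fin 4)) ∨ Nonempty (H ≃* Equiv.Perm (Fin 4)) := by
  rcases h with rfl | rfl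
  · obtain ⟨e⟩ := psl2_three_equiv_alt hk
    have e1 := subPSLEquiv k.subtype
    rw [Subfield.fieldRange_subtype] at e1
    exact Or.inl ⟨(cjEquiv c _).symm.trans (e1.symm.trans e)⟩
  · obtain ⟨p, hp⟩ := CharP.exists k
    have : Fact p.Prime := ⟨CharP.char_is_prime k p⟩
    obtain ⟨φ, hφ⟩ := exists_S4_hom_char (F := k) p fun e => h2 (congrArg Subtype.val e)
    have e1 := subPGLEquiv k.subtype
    rw [Subfield.fieldRange_subtype] at e1
    have h4 : Nat.card PGL(2, k) = 24 := by rw [Nat.card_congr e1.toEquiv, card_subPGL, hk]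
    have : Finite PGL(2, k) := Nat.finite_of_card_ne_zero (by omega)
    exact Or.inr ⟨(cjEquiv c _).symm.trans (e1.symm.trans (MulEquiv.ofBijective φ
      (hφ.bijective_of_nat_card_le (by rw [h4, card_S4]))).symm)⟩

end PP

variable {F : Type*} [Field F] [Finite F] {G : Type*} [Group G] {P : Subgroup (G4 F)}
  {π : P →* G}

open PP L2 in
theorem Od.pp (h : Od P π) (h3 : (3 : F) ≠ 0) {A B : M4 F} (hA : A * A = (-3 : F) • (1 : M4 F))
    (hB : B * B = (-3 : F) • (1 : M4 F)) (hAB : A * B = -(B * A)) (a : Mem P (A - 1))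
    (b : Mem P (B - 1)) : False := by
  obtain ⟨s, hs⟩ : ∃ s : F, s * s = -3 := by
    obtain ⟨g, hg, e⟩ := a
    obtain ⟨c, hc⟩ := (h.split g hg).exists_eval_eq_zero (by
      rw [charpoly_degree_eq_dim]; simp)
    obtain ⟨v, v0, hv⟩ := exists_eigen hc
    rw [e, sub_mulVec, one_mulVec, sub_eq_iff_eq_add] at hv
    have h1 := congrArg (· *ᵥ v) hA
    simp only [← mulVec_mulVec, hv, mulVec_add, mulVec_smul, smul_mulVec, one_mulVec] at h1
    exact ⟨c + 1, smul_left_injective F v0 (by linear_combination (norm := module) h1)⟩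
  have s0 : s ≠ 0 := fun e => h3 (by rw [e] at hs; linear_combination hs)
  have sq : ∀ X : M4 F, X * X = (-3 : F) • (1 : M4 F) → s⁻¹ • X * s⁻¹ • X = 1 := fun X hX => by
    rw [smul_mul_smul_comm, hX, smul_smul, ← hs, show s⁻¹ * s⁻¹ * (s * s) = 1 by field_simp,
      one_smul]
  obtain ⟨ψ, e1, e2⟩ := exists_hom h.two (sq A hA) (sq B hB)
    (by rw [smul_mul_smul_comm, smul_mul_smul_comm, hAB, smul_neg])
  let L := P.comap (Units.map (ψ : M2 F →* M4 F))
  have key : ∀ X : M2 F, X.det ≠ 0 → Mem P (ψ X) → L2.pm X ∈ L.map ProjGenLinGroup.mk :=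
    fun X hX ⟨g, hg, e⟩ => ⟨GeneralLinearGroup.mkOfDetNeZero X hX,
      show _ ∈ P by convert hg using 1; exact Units.ext e.symm, (pm_of_ne hX).symm⟩
  have h4 := four_ne_zero_of_two h.two
  obtain ⟨x, hx, x1, xt⟩ := exists_unip h.two h3 hs (H := L.map ProjGenLinGroup.mk)
    (key _ (by rw [det_fin_two_of]; grind) (by
      rw [show (!![s - 1, 0; 0, -s - 1] : M2 F) = s • !![1, 0; 0, -1] - 1 by
        ext i j; fin_cases i <;> fin_cases j <;> simp, map_sub, map_smul, e1, map_one,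
        smul_inv_smul₀ s0]; exact a))
    (key _ (by rw [det_fin_two_of]; grind) (by
      rw [show (!![-1, s; s, -1] : M2 F) = s • !![0, 1; 1, 0] - 1 by
        ext i j; fin_cases i <;> fin_cases j <;> simp, map_sub, map_smul, e2, map_one,
        smul_inv_smul₀ s0]; exact b))
  obtain ⟨N, n1, n2, rfl⟩ := exists_nil h.two xt
  obtain ⟨g, hg, e⟩ := (D3.dl_lift n1 n2).1 hx
  have n3 : ψ N = 0 := h.quad h3 ⟨_, hg, by simp [e]⟩ (by rw [← map_mul, n1, map_zero])
  rw [map_eq_zero_iff ψ (ψ : M2 F →+* M4 F).injective] at n3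
  exact x1 (by rw [n3, add_zero, pm_one])

open PP L2 in
/-- The image in `PGL₂` of the elements commuting with `diag(1,1,-1,-1)`, on the first (`ε = 0`) or
second (`ε = 1`) eigenspace, has no subgroup `PSL₂(k)` with `|k| > 3`. -/
theorem Od.block (h : Od P π) {g : P} (hg : mat g = diagonal ![1, 1, -1, -1]) (ε : Fin 2) :
    ∃ ρ : C0 π h.pc (π g) →* PGL(2, F),
      (∀ (k : P) (hk : π k ∈ C0 π h.pc (π g)), ρ ⟨π k, hk⟩ =
        L2.pm ((mat k).submatrix (fun i : Fin 2 => finProdFinEquiv (ε, i))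
          fun i : Fin 2 => finProdFinEquiv (ε, i))) ∧
      ((∃ x : L2.P1 F, ∀ y ∈ ρ.range, y • x = x) ∨
        (∃ y ∈ ρ.range, L2.tau y ≠ 4 ∧ ρ.range ≤ L2.ntor y) ∨
        Nonempty (ρ.range ≃* alternatingGroup (Fin 4)) ∨
        Nonempty (ρ.range ≃* Equiv.Perm (Fin 4)) ∨
        Nonempty (ρ.range ≃* alternatingGroup (Fin 5))) := by
  have hb : ∀ k : P, π k ∈ C0 π h.pc (π g) → mat k = bd (blk 0 (mat k)) (blk 1 (mat k)) :=
    fun k hk => eq_bd h.two (by rw [← hg, ← mat_mul, ← mat_mul, hk g k rfl rfl])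
  have hd : ∀ k : P, π k ∈ C0 π h.pc (π g) → (blk ε (mat k)).det ≠ 0 := fun k hk e => by
    have := blk_mul (hb k hk) (hb k⁻¹ (by rw [map_inv]; exact inv_mem hk)) ε
    rw [mat_mul_inv, blk_one] at this
    simpa [e] using congrArg det this
  have wd : ∀ k k' : P, π k = π k' → L2.pm (blk ε (mat k)) = L2.pm (blk ε (mat k')) := fun k k' e => by
    obtain ⟨c, hc⟩ := (h.pc.eq_iff k k').1 e
    rw [hc]
    exact pm_smul (fun e => det_mat_ne k (by simp [hc, e])) _
  choose l hl using h.pc.surj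
  let ρ : C0 π h.pc (π g) →* PGL(2, F) := MonoidHom.mk' (fun x => L2.pm (blk ε (mat (l x))))
    fun x y => by
      have hx : π (l x) ∈ C0 π h.pc (π g) := by rw [hl]; exact x.2
      have hy : π (l y) ∈ C0 π h.pc (π g) := by rw [hl]; exact y.2
      rw [← pm_mul (hd _ hx) (hd _ hy), ← blk_mul (hb _ hx) (hb _ hy), ← mat_mul]
      exact wd _ _ (by rw [map_mul, hl, hl, hl]; rfl)
  refine ⟨ρ, fun k hk => wd _ _ (hl _), ?_⟩
  obtain ⟨p, hp⟩ := CharP.exists F
  have : Fact p.Prime := ⟨CharP.char_is_prime F p⟩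
  have : Finite PGL(2, F) := Finite.of_surjective _ (ProjGenLinGroup.mk_surjective (n := Fin 2))
  rcases dickson_pgl p ρ.range with e | e | ⟨-, e⟩ | ⟨-, e⟩ | ⟨k, c, -, e⟩
  · exact Or.inl e
  · exact Or.inr (Or.inl e)
  · exact Or.inr (Or.inr e)
  · exact Or.inr (Or.inr (Or.inr (Or.inr e)))
  refine Or.inr (Or.inr ((sub_three h.two ?_ e).imp_right Or.inl))
  have := Fintype.ofFinite k
  obtain ⟨n, -, hn⟩ := FiniteField.card k p
  rw [← Nat.card_eq_fintype_card] at hn
  have p2 : p ≠ 2 := by rintro rfl; exact h.two (CharP.cast_eq_zero F 2)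
  have hodd : Odd (p ^ (n : ℕ)) := ((Fact.out : p.Prime).odd_of_ne_two p2).pow
  have d1 : p ^ (n : ℕ) ∣ Nat.card (subPSL k) := by
    refine Nat.Coprime.dvd_of_dvd_mul_right
      (Nat.Coprime.coprime_dvd_right (Nat.gcd_dvd_left 2 (Nat.card k - 1))
        (Nat.coprime_two_right.2 hodd)) ?_
    rw [card_subPSL_mul, hn, mul_assoc]
    exact dvd_mul_right _ _
  have d2 : Nat.card (subPSL k) ∣ Nat.card ρ.range := by
    rw [← card_cj c]
    exact card_dvd_of_le (e.elim Eq.ge fun e => e ▸ cj_mono c (subPSL_le_subPGL k))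
  have d3 : Nat.card ρ.range ∣ Nat.card ((C0 π h.pc (π g)).comap π) :=
    (card_range_dvd ρ).trans (card_dvd_of_surjective (π.subgroupComap _)
      (π.subgroupComap_surjective_of_surjective _ h.pc.surj))
  obtain ⟨S, hS⟩ := Sylow.exists_subgroup_card_pow_prime p (d1.trans (d2.trans d3))
  have h3 := card_le_three h p (S := S.map (Subgroup.subtype _))
    (by rw [card_map_of_injective (subtype_injective _), hS]) fun a ⟨b, _, e⟩ => e ▸ hb _ b.2
  have h4 : 1 < Nat.card k := Finite.one_lt_card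
  obtain ⟨m, hm⟩ := hodd
  omega

end Cfsg.Agent.Cl.D4
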