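/-
Subgroups of `SL₄(F)`: block diagonal matrices.
-/
import Mathlib
import Cfsg.Agent.Cl.D4PP
import Cfsg.Agent.Cl.PSL2Solv

set_option autoImplicit false

namespace Cfsg.Agent.Cl.D4.I0a

open Matrix Cfsg.Geo Cfsg.Agent.Cl.Max Cfsg.Agent.Cl.Mx Subgroup
open Cfsg.Agent.Cl.L2 (M2)
open scoped MatrixGroups commutatorElement

variable {F : Type*} [Field F]

/-- The position of an index in the two blocks. -/
def ix : Fin 4 ≃ Fin 2 × Fin 2 := (finProdFinEquiv (m := 2) (n := 2)).symm.trans (Equiv.prodComm _ _)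

/-- Block diagonal matrices. -/
def bd (A : Fin 2 → M2 F) : M4 F := (blockDiagonal A).submatrix ix ix

/-- A diagonal block. -/
def blk (ε : Fin 2) (X : M4 F) : M2 F :=
  X.submatrix (fun i : Fin 2 => finProdFinEquiv (ε, i)) fun i : Fin 2 => finProdFinEquiv (ε, i)

variable {A B : Fin 2 → M2 F} {ε δ : Fin 2} {X Y : M2 F}

theorem blk_bd (ε : Fin 2) (A : Fin 2 → M2 F) : blk ε (bd A) = A ε := by
  ext i j
  simp [blk, bd, ix, blockDiagonal_apply]

theorem bd_inj (h : bd A = bd B) : A = B := funext fun ε => by rw [← blk_bd ε A, h, blk_bd]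

theorem bd_mul (A B : Fin 2 → M2 F) : bd A * bd B = bd (A * B) := by
  rw [bd, bd, bd, submatrix_mul_equiv, ← blockDiagonal_mul]; rfl

theorem bd_add (A B : Fin 2 → M2 F) : bd A + bd B = bd (A + B) := by
  rw [bd, bd, bd, blockDiagonal_add]; rfl

theorem bd_sub (A B : Fin 2 → M2 F) : bd A - bd B = bd (A - B) := by
  rw [bd, bd, bd, blockDiagonal_sub]; rfl

theorem bd_smul (c : F) (A : Fin 2 → M2 F) : c • bd A = bd (c • A) := by
  rw [bd, bd, blockDiagonal_smul]; rfl

theorem bd_one : bd (1 : Fin 2 → M2 F) = 1 := by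
  rw [bd, blockDiagonal_one, submatrix_one_equiv]

theorem bd_zero : bd (0 : Fin 2 → M2 F) = 0 := by
  rw [bd, blockDiagonal_zero]; rfl

theorem det_bd (A : Fin 2 → M2 F) : (bd A).det = ∏ ε, (A ε).det := by
  rw [bd, det_submatrix_equiv_self, det_blockDiagonal]

theorem trace_bd (A : Fin 2 → M2 F) : (bd A).trace = ∑ ε, (A ε).trace := by
  rw [← trace_blockDiagonal, trace, trace, ← ix.sum_comp]; rfl

theorem bd_diag : (diagonal ![1, 1, -1, -1] : M4 F) = bd ![1, -1] := by
  ext i j
  fin_cases i <;> fin_cases j <;> simp [bd, ix, blockDiagonal_apply, finProdFinEquiv, Fin.divNat,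
    Fin.modNat]

theorem eq_bd (h2 : (2 : F) ≠ 0) {Z : M4 F}
    (h : Z * diagonal ![1, 1, -1, -1] = diagonal ![1, 1, -1, -1] * Z) :
    Z = bd fun ε => blk ε Z := by
  have k : ∀ i j : Fin 4, (![1, 1, -1, -1] : Fin 4 → F) j = - ![1, 1, -1, -1] i →
      (![1, 1, -1, -1] : Fin 4 → F) i ≠ 0 → Z i j = 0 := fun i j e n => by
    have := congrFun (congrFun h i) j
    rw [mul_diagonal, diagonal_mul, e] at this
    exact mul_left_cancel₀ (mul_ne_zero h2 n) (by linear_combination -this)
  ext i j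
  fin_cases i <;> fin_cases j <;> simp [bd, blk, ix, blockDiagonal_apply, finProdFinEquiv,
    Fin.divNat, Fin.modNat] <;> exact k _ _ (by simp) (by simp)

/-- The matrix with `X` in block `ε` and `Y` in the other block. -/
def two (ε : Fin 2) (X Y : M2 F) : Fin 2 → M2 F := fun δ => if δ = ε then X else Y

@[simp] theorem two_self (ε : Fin 2) (X Y : M2 F) : two ε X Y ε = X := if_pos rfl

theorem two_ne (h : δ ≠ ε) (X Y : M2 F) : two ε X Y δ = Y := if_neg h

theorem two_mul (X Y X' Y' : M2 F) : two ε X Y * two ε X' Y' = two ε (X * X') (Y * Y') :=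
  funext fun δ => by simp only [two, Pi.mul_apply]; split_ifs <;> rfl

theorem two_same (ε : Fin 2) (X : M2 F) : two ε X X = fun _ => X := funext fun _ => ite_self _

theorem eq_two (ε : Fin 2) (A : Fin 2 → M2 F) : A = two ε (A ε) (A (ε + 1)) := by
  funext δ
  fin_cases ε <;> fin_cases δ <;> simp [two]

theorem sum_two (ε : Fin 2) (X Y : M2 F) : (bd (two ε X Y)).trace = X.trace + Y.trace := by
  rw [trace_bd]
  fin_cases ε <;> simp [two, add_comm]

theorem det_two (ε : Fin 2) (X Y : M2 F) : (bd (two ε X Y)).det = X.det * Y.det := by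
  rw [det_bd]
  fin_cases ε <;> simp [two, mul_comm]

theorem sign_two (ε : Fin 2) : ∃ c : F, c * c = 1 ∧
    bd (two ε 1 (-1)) = c • (diagonal ![1, 1, -1, -1] : M4 F) := by
  rw [bd_diag]
  fin_cases ε
  · refine ⟨1, by simp, ?_⟩
    rw [one_smul]; congr 1; funext δ; fin_cases δ <;> simp [two]
  · refine ⟨-1, by simp, ?_⟩
    rw [bd_smul]; congr 1; funext δ; fin_cases δ <;> simp [two]

theorem rank_two_le (ε : Fin 2) (h : X * X = 0) : (bd (two ε X 0)).rank ≤ 1 := by
  have h1 := rank_add_rank_le_card_of_mul_eq_zero h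
  let J : Matrix (Fin 4) (Fin 2) F := of fun i j => if ix i = (j, ε) then 1 else 0
  have e : bd (two ε X 0) = J * X * Jᵀ := by
    ext i j
    fin_cases ε <;> fin_cases i <;> fin_cases j <;>
      simp [bd, two, J, ix, blockDiagonal_apply, finProdFinEquiv, Fin.divNat, Fin.modNat,
        Matrix.mul_apply, Fin.sum_univ_two]
  have := (rank_mul_le_left (J * X) Jᵀ).trans (rank_mul_le_right J X)
  rw [e]
  simp only [Fintype.card_fin] at h1
  omega

theorem ch (X : M2 F) : X * X = X.trace • X - X.det • (1 : M2 F) := by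
  ext i j
  fin_cases i <;> fin_cases j <;> simp [mul_apply, det_fin_two, trace_fin_two] <;> ring

theorem smul_one_inj₂ {a b : F} (h : a • (1 : M2 F) = b • 1) : a = b := by
  simpa using congrFun (congrFun h 0) 0

/-- A non-scalar matrix satisfies only one quadratic equation. -/
theorem quad_unique (hX : ∀ c : F, X ≠ c • (1 : M2 F)) {t d : F}
    (h : X * X = t • X - d • (1 : M2 F)) : X.trace = t ∧ X.det = d := by
  have e : (X.trace - t) • X = (X.det - d) • (1 : M2 F) := by
    linear_combination (norm := module) h - ch X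
  by_cases k : X.trace - t = 0
  · rw [k, zero_smul, ← zero_smul F (1 : M2 F)] at e
    exact ⟨sub_eq_zero.1 k, sub_eq_zero.1 (smul_one_inj₂ e).symm⟩
  · exact (hX ((X.trace - t)⁻¹ * (X.det - d))
      (by rw [mul_smul, ← e, smul_smul, inv_mul_cancel₀ k, one_smul])).elim

theorem not_scalar (hd : X.det ≠ 0) (h : L2.pm X ≠ 1) (c : F) : X ≠ c • (1 : M2 F) :=
  fun e => h ((L2.pm_eq_one_iff' hd).2 ⟨c, e⟩)

theorem sq_eq_neg (hd : X.det = 1) (h1 : L2.pm X ≠ 1) (h2 : L2.pm X * L2.pm X = 1) : X * X = -1 := by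
  have hd' : X.det ≠ 0 := hd ▸ one_ne_zero
  rw [← L2.pm_mul hd' hd', L2.pm_eq_one_iff' (by rw [det_mul]; exact mul_ne_zero hd' hd')] at h2
  obtain ⟨c, e⟩ := h2
  have := (quad_unique (not_scalar hd' h1) (t := 0) (d := -c) (by rw [e]; module)).2
  rw [e, show c = -1 by rw [hd] at this; linear_combination this]
  module

/-- An element of order three. -/
theorem cube_eq (hd : X.det = 1) (h1 : L2.pm X ≠ 1) (h3 : L2.pm X ^ 3 = 1) :
    L2.pm (X * X) ≠ 1 ∧ X * X * (X * X) + X * X + 1 = 0 := by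
  have hd' : X.det ≠ 0 := hd ▸ one_ne_zero
  have n1 : L2.pm (X * X) ≠ 1 := fun e => h1 (by
    rw [L2.pm_mul hd' hd'] at e
    rw [pow_three, e, mul_one] at h3
    exact h3)
  refine ⟨n1, ?_⟩
  rw [← L2.pm_pow hd', L2.pm_eq_one_iff' (by rw [det_pow]; exact pow_ne_zero _ hd')] at h3
  obtain ⟨c, e⟩ := h3
  have k := ch X
  rw [hd] at k
  have e1 : (X.trace ^ 2 - 1) • X = (X.trace + c) • (1 : M2 F) := by
    rw [pow_three, k, mul_sub, mul_smul_comm, k] at e
    linear_combination (norm := (simp only [mul_smul_comm, mul_one]; module)) e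
  have e2 : X.trace ^ 2 - 1 = 0 := by
    by_contra n
    exact not_scalar hd' h1 ((X.trace ^ 2 - 1)⁻¹ * (X.trace + c))
      (by rw [mul_smul, ← e1, smul_smul, inv_mul_cancel₀ n, one_smul])
  rw [k]
  simp only [mul_sub, sub_mul, mul_smul_comm, smul_mul_assoc, mul_one, one_mul, k]
  linear_combination (norm := module) (X.trace * e2) • X - e2 • (1 : M2 F)

/-- An involution of trace zero which commutes with the sign matrix and is not scalar on the
blocks. -/
theorem det_neg (h2 : (2 : F) ≠ 0) (hX : X * X = 1) (hY : Y * Y = 1) (ht : X.trace + Y.trace = 0)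
    (hn : ∀ c : F, ¬ (X = c • (1 : M2 F) ∧ Y = c • (-1 : M2 F))) :
    (∀ c : F, X ≠ c • (1 : M2 F)) ∧ X.det = -1 := by
  have k : ∀ c : F, X ≠ c • (1 : M2 F) := fun c e => hn c ⟨e, by
    have c2 : c * c = 1 := smul_one_inj₂ (by
      rw [e] at hX; rw [one_smul]; simpa [smul_smul] using hX)
    have c0 : c ≠ 0 := fun k => by simp [k] at c2
    have t : Y.trace = -(2 * c) := by
      rw [e] at ht
      simp only [trace_smul, trace_one, Fintype.card_fin, smul_eq_mul] at ht
      linear_combination ht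
    by_cases k : ∀ d : F, Y ≠ d • (1 : M2 F)
    · have := (quad_unique k (t := 0) (d := -1) (by rw [hY]; module)).1
      rw [t, neg_eq_zero] at this
      exact (mul_ne_zero h2 c0 this).elim
    · push Not at k
      obtain ⟨d, rfl⟩ := k
      simp only [trace_smul, trace_one, Fintype.card_fin, smul_eq_mul] at t
      rw [show d = -c from mul_left_cancel₀ h2 (by linear_combination t)]
      module⟩
  exact ⟨k, (quad_unique k (t := 0) (d := -1) (by rw [hX]; module)).2⟩

end Cfsg.Agent.Cl.D4.I0a
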