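/-
Subgroups of `SL₄(F)`: no subgroup `SL₂(5)` acting on one eigenspace of an involution only.
-/
import Mathlib
import Cfsg.Agent.Cl.D4I0aa
import Cfsg.Agent.Inv.ZStarSimple

set_option autoImplicit false

namespace Cfsg.Agent.Cl.D4.I0a

open Matrix Cfsg.Geo Cfsg.Agent.Cl.Max Cfsg.Agent.Cl.Mx Subgroup
open Cfsg.Agent.Cl.L2 (M2)
open scoped MatrixGroups commutatorElement

variable {F : Type*} [Field F] {A B : Fin 2 → M2 F} {ε δ : Fin 2} {X Y X' Y' : M2 F}

/-- The block matrix with `X` in block `ε` and `Y` in the other block. -/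
def bt (ε : Fin 2) (X Y : M2 F) : M4 F := bd (two ε X Y)

theorem bt_mul : bt ε X Y * bt ε X' Y' = bt ε (X * X') (Y * Y') := by
  rw [bt, bt, bd_mul, two_mul, bt]

theorem bt_add : bt ε X Y + bt ε X' Y' = bt ε (X + X') (Y + Y') := by
  rw [bt, bt, bd_add, bt]
  exact congrArg bd (funext fun δ => by simp only [two, Pi.add_apply]; split_ifs <;> rfl)

theorem bt_sub : bt ε X Y - bt ε X' Y' = bt ε (X - X') (Y - Y') := by
  rw [bt, bt, bd_sub, bt]
  exact congrArg bd (funext fun δ => by simp only [two, Pi.sub_apply]; split_ifs <;> rfl)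

theorem bt_smul (c : F) : c • bt ε X Y = bt ε (c • X) (c • Y) := by
  rw [bt, bd_smul, bt]
  exact congrArg bd (funext fun δ => by simp only [two, Pi.smul_apply]; split_ifs <;> rfl)

theorem bt_one (ε : Fin 2) : (1 : M4 F) = bt ε 1 1 := by rw [bt, two_same]; exact bd_one.symm

theorem bt_zero (ε : Fin 2) : (0 : M4 F) = bt ε 0 0 := by rw [bt, two_same]; exact bd_zero.symm

theorem bt_neg : -bt ε X Y = bt ε (-X) (-Y) := by
  rw [← neg_one_smul F, bt_smul, neg_one_smul, neg_one_smul]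

theorem bt_inj (h : bt ε X Y = bt ε X' Y') : X = X' ∧ Y = Y' := by
  have k := bd_inj h
  have n : ε + 1 ≠ ε := by fin_cases ε <;> decide
  exact ⟨by simpa using congrFun k ε, by simpa [two_ne n] using congrFun k (ε + 1)⟩

theorem bd_eq_bt (ε : Fin 2) (A : Fin 2 → M2 F) : bd A = bt ε (A ε) (A (ε + 1)) :=
  congrArg bd (eq_two ε A)

theorem exists_bt (h2 : (2 : F) ≠ 0) {Z : M4 F} (h : Z * bt ε 1 (-1) = bt ε 1 (-1) * Z) :
    ∃ X Y, Z = bt ε X Y := by
  obtain ⟨c, hc, e⟩ := sign_two (F := F) ε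
  have c0 : c ≠ 0 := fun k => by simp [k] at hc
  rw [bt, e, mul_smul_comm, smul_mul_assoc] at h
  exact ⟨_, _, (eq_bd h2 (smul_right_injective _ c0 h)).trans (bd_eq_bt ε _)⟩

theorem det_one (h2 : (2 : F) ≠ 0) {W : M4 F} (hW : W * W = 1)
    (ha : W * bt ε 1 (-1) = -(bt ε 1 (-1) * W)) (hc : W * bt ε X Y = bt ε X Y * W)
    (hX : X * X + X + 1 = 0) (hn : ∀ c : F, bt ε X Y ≠ c • (1 : M4 F)) : X.det = 1 := by
  refine (quad_unique (fun c e => hn c ?_) (t := -1) (d := 1)
    (by linear_combination (norm := module) hX)).2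
  have e1 : (bt ε X Y - c • 1) * (1 + bt ε 1 (-1)) = 0 := by
    rw [bt_one ε, bt_smul, bt_sub, bt_add, bt_mul, e, bt_zero ε]; simp
  generalize bt ε X Y = D at *
  generalize bt ε (1 : M2 F) (-1) = S at *
  have e2 : (D - c • 1) * (1 - S) = 0 := by
    have : W * ((D - c • 1) * (1 + S)) * W = (D - c • 1) * (1 - S) := by
      have k : W * (D - c • 1) = (D - c • 1) * W := by
        rw [mul_sub, sub_mul, hc, mul_smul_comm, smul_mul_assoc, mul_one, one_mul]
      rw [← mul_assoc, k, mul_assoc, mul_assoc]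
      congr 1
      rw [← mul_assoc, mul_add, ha, mul_one, add_mul, hW, neg_mul, mul_assoc, hW, mul_one,
        sub_eq_add_neg]
    rw [← this, e1, mul_zero, zero_mul]
  refine sub_eq_zero.1 (smul_right_injective _ h2 ?_)
  change (2 : F) • (D - c • 1) = (2 : F) • (0 : M4 F)
  rw [smul_zero, two_smul]
  linear_combination (norm := noncomm_ring) e1 + e2

variable [Finite F] {G : Type*} [Group G] {P : Subgroup (G4 F)} {π : P →* G}

/-- The block `ε` of an element can be split off, and the image on this block is like `A₅`. -/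
structure Sp (P : Subgroup (G4 F)) (ε : Fin 2) : Prop where
  ex : ∀ X Y, Mem P (bt ε X Y) → ∃ X', X'.det = 1 ∧ Mem P (bt ε X' 1) ∧ L2.pm X' = L2.pm X
  two : ∃ X Y, Mem P (bt ε X Y) ∧ L2.pm X ≠ 1 ∧ L2.pm X * L2.pm X = 1
  three : ∃ X Y, Mem P (bt ε X Y) ∧ L2.pm X ≠ 1 ∧ L2.pm X ^ 3 = 1
  four : ∀ X Y, Mem P (bt ε X Y) → L2.pm X ^ 4 = 1 → L2.pm X * L2.pm X = 1

omit [Finite F] in
theorem det_ne (h : Mem P (bt ε X Y)) : X.det ≠ 0 ∧ Y.det ≠ 0 := by
  obtain ⟨a, e⟩ := h.exists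
  have := det_mat_ne a
  rw [e, bt, det_two] at this
  exact mul_ne_zero_iff.1 this

omit [Finite F] in
theorem Sp.star (s : Sp P ε) (h : Mem P (bt ε X Y)) (hd : X.det = 1) : Mem P (bt ε X 1) := by
  obtain ⟨X0, Y0, m0, n0, e0⟩ := s.two
  obtain ⟨X1, d1, m1, e1⟩ := s.ex _ _ m0
  have m2 := m1.mul m1
  rw [bt_mul, sq_eq_neg d1 (e1 ▸ n0) (e1 ▸ e0), mul_one] at m2
  obtain ⟨X2, d2, m3, e2⟩ := s.ex _ _ h
  obtain ⟨c, -, rfl⟩ := (L2.pm_eq_iff (d2 ▸ one_ne_zero) (hd ▸ one_ne_zero)).1 e2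
  rw [L2.det_smul_two, d2, mul_one, sq, mul_self_eq_one_iff] at hd
  rcases hd with rfl | rfl
  · rwa [one_smul]
  · simpa [bt_mul] using m2.mul m3

omit [Finite F] in
theorem Sp.half (h : Od P π) (s : Sp P ε) (m : Mem P (bt ε X Y)) (hd : X.det = 1)
    (hX : X * X + X + 1 = 0) (hY : Y * Y + Y + 1 = 0) :
    Mem P (bt ε 1 (-1) * ((2 : F) • bt ε X Y + 1) - 1) := by
  have u := s.star m hd
  convert h.mem_smul ((u.mul u).mul (m.mul m)) h.two using 1
  rw [bt_one ε]
  simp only [bt_smul, bt_add, bt_mul, bt_sub, two_smul]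
  congr 1
  · linear_combination (norm := noncomm_ring) -(2 * (X * X - X) * hX)
  · linear_combination (norm := noncomm_ring) -(2 * hY)

omit [Finite F] in
theorem mat_cj (x a : P) : mat (x * a * x⁻¹) = mat x * mat a * mat x⁻¹ := rfl

omit [Finite F] in
theorem mem_cj {Z : M4 F} (h : Mem P Z) (x : P) : Mem P (mat x * Z * mat x⁻¹) :=
  ((mem_mat x).mul h).mul (mem_mat _)

omit [Finite F] in
theorem blk_conj (h : Od P π) {g w : P} (hg : mat g = bt ε 1 (-1)) (hw : IsConj g w)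
    (hn : π w ≠ π g) (e : mat w = bt ε X Y) : (∀ c : F, X ≠ c • (1 : M2 F)) ∧ X.det = -1 := by
  obtain ⟨x, rfl⟩ := isConj_iff.1 hw
  have g2 : g * g = 1 := mat_inj (by rw [mat_mul, hg, bt_mul, mat_one, bt_one ε]; simp)
  have w2 : bt ε X Y * bt ε X Y = 1 := by
    rw [← e, ← mat_mul, show x * g * x⁻¹ * (x * g * x⁻¹) = x * (g * g) * x⁻¹ by group, g2]
    simp [mat_one]
  rw [bt_mul, bt_one ε] at w2
  have t := trace_conj x g
  rw [e, hg, bt, bt, sum_two, sum_two, trace_neg, add_neg_cancel] at t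
  exact det_neg h.two (bt_inj w2).1 (bt_inj w2).2 t fun c k =>
    hn ((h.pc.eq_iff _ _).2 ⟨c, by rw [e, hg, bt_smul, k.1, k.2]⟩)

omit [Finite F] in
theorem Sp.not_cm (h : Od P π) (s : Sp P ε) {g x : P} (hg : mat g = bt ε 1 (-1))
    (hn : π (x * g * x⁻¹) ≠ π g) (hc : g * (x * g * x⁻¹) = x * g * x⁻¹ * g) : False := by
  have g2 : g * g = 1 := mat_inj (by rw [mat_mul, hg, bt_mul, mat_one, bt_one ε]; simp)
  obtain ⟨ι, hι⟩ := h.exists_i
  have hι0 : ι ≠ 0 := fun k => by simp [k] at hι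
  have hc' : x⁻¹ * g * x * g = g * (x⁻¹ * g * x) := by
    rw [show x⁻¹ * g * x * g = x⁻¹ * (g * (x * g * x⁻¹)) * x by group, hc]; group
  obtain ⟨X, Y, e⟩ := exists_bt (ε := ε) h.two (Z := mat (x * g * x⁻¹))
    (by rw [← hg, ← mat_mul, ← hc, mat_mul])
  obtain ⟨X', Y', e'⟩ := exists_bt (ε := ε) h.two (Z := mat (x⁻¹ * g * x))
    (by rw [← hg, ← mat_mul, hc', mat_mul])
  have k := (blk_conj h hg (isConj_iff.2 ⟨x, rfl⟩) hn e).1
  have k' := (blk_conj h hg (isConj_iff.2 ⟨x⁻¹, by rw [inv_inv]⟩) (fun c => hn (by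
    simp only [map_mul, map_inv] at c ⊢
    rw [mul_inv_eq_iff_eq_mul]
    rw [mul_assoc, inv_mul_eq_iff_eq_mul] at c
    exact c.symm)) e').2
  have w2 : bt ε X' Y' * bt ε X' Y' = 1 := by
    rw [← e', ← mat_mul, show x⁻¹ * g * x * (x⁻¹ * g * x) = x⁻¹ * (g * g) * x by group, g2]
    simp [mat_one]
  rw [bt_mul, bt_one ε] at w2
  have m := h.mem_smul (mem_mat (x⁻¹ * g * x)) hι0
  rw [e', bt_smul] at m
  obtain ⟨u, hu⟩ := (s.star m (by rw [L2.det_smul_two, k']; linear_combination -hι)).exists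
  have u1 : u * (x⁻¹ * g * x) = x⁻¹ * g * x * u := mat_inj (by
    rw [mat_mul u, mat_mul _ u, hu, e', bt_mul, bt_mul]; simp)
  have u2 : mat (u * u) = -mat g := by
    rw [mat_mul, hu, hg, bt_mul, bt_neg, smul_mul_smul_comm, hι, (bt_inj w2).1]; simp
  obtain ⟨U, U', eu⟩ := exists_bt (ε := ε) h.two (Z := mat (x * u * x⁻¹)) (by
    rw [← hg, ← mat_mul, ← mat_mul, show x * u * x⁻¹ * g = x * (u * (x⁻¹ * g * x)) * x⁻¹ by group,
      u1]
    congr 1; group)
  have u3 : bt ε U U' * bt ε U U' = -bt ε X Y := by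
    rw [← eu, ← e, ← mat_mul, show x * u * x⁻¹ * (x * u * x⁻¹) = x * (u * u) * x⁻¹ by group,
      mat_cj, u2, mat_cj]
    simp
  have w3 : bt ε X Y * bt ε X Y = 1 := by
    rw [← e, ← mat_mul, show x * g * x⁻¹ * (x * g * x⁻¹) = x * (g * g) * x⁻¹ by group, g2]
    simp [mat_one]
  rw [bt_mul, bt_neg] at u3
  rw [bt_mul, bt_one ε] at w3
  have mu : Mem P (bt ε U U') := eu ▸ mem_mat _
  have du := (det_ne mu).1
  have := s.four _ _ mu (by
    rw [← L2.pm_pow du, show U ^ 4 = U * U * (U * U) by noncomm_ring, (bt_inj u3).1,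
      neg_mul_neg, (bt_inj w3).1, L2.pm_one])
  rw [← L2.pm_mul du du, (bt_inj u3).1, L2.pm_neg] at this
  obtain ⟨c, hc⟩ := (L2.pm_eq_one_iff' (det_ne (e ▸ mem_mat _)).1).1 this
  exact k c hc

theorem Sp.not_an (h : Od P π) (s : Sp P ε) {g x : P} (hg : mat g = bt ε 1 (-1))
    (hc : mat g * mat (x * g * x⁻¹) = -(mat (x * g * x⁻¹) * mat g)) : False := by
  have h2 := h.two
  have g2 : g * g = 1 := mat_inj (by rw [mat_mul, hg, bt_mul, mat_one, bt_one ε]; simp)
  obtain ⟨X0, Y0, m0, n0, e0⟩ := s.three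
  obtain ⟨X1, d1, m1, e1⟩ := s.ex _ _ m0
  obtain ⟨n2, e2⟩ := cube_eq d1 (e1 ▸ n0) (e1 ▸ e0)
  have m2 := m1.mul m1
  rw [bt_mul, mul_one] at m2
  have k2 := not_scalar (det_ne m2).1 n2
  generalize X1 * X1 = X at m2 e2 k2
  have e3 : bt ε X 1 = 1 + bt ε (X - 1) 0 := by rw [bt_one ε, bt_add]; simp
  by_cases h3 : (3 : F) = 0
  · have q : (X - 1) * (X - 1) = 0 := by
      have : (3 : F) • X = X + X + X := by module
      rw [h3, zero_smul] at this
      linear_combination (norm := noncomm_ring) e2 + this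
    have := notTv_of_noTv (N := bt ε (X - 1) 0) h.noTv (e3 ▸ m2) (by rw [bt_mul, q, bt_zero ε]; simp) (rank_two_le ε q)
    rw [bt_zero ε] at this
    exact k2 1 (by rw [one_smul]; exact sub_eq_zero.1 (bt_inj this).1)
  obtain ⟨u, hu⟩ := m2.exists
  set w := x * g * x⁻¹ with hw
  have w2 : w * w = 1 := by
    rw [hw, show x * g * x⁻¹ * (x * g * x⁻¹) = x * (g * g) * x⁻¹ by group, g2]; simp
  have W2 : mat w * mat w = 1 := by rw [← mat_mul, w2, mat_one]
  have S2 : mat g * mat g = 1 := by rw [← mat_mul, g2, mat_one]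
  have a1 : mat g * bt ε (X - 1) 0 = bt ε (X - 1) 0 := by rw [hg, bt_mul]; simp
  have a2 : bt ε (X - 1) 0 * mat g = bt ε (X - 1) 0 := by rw [hg, bt_mul]; simp
  have a3 : 2 * (bt ε (X - 1) 0 * bt ε (X - 1) 0) + 6 * bt ε (X - 1) 0 + 3 * (1 + mat g) = 0 := by
    have k : ∀ a b : M4 F, 2 * (a * a) + 6 * a + 3 * b =
        a * a + a * a + (a + a + a + a + a + a) + (b + b + b) := fun a b => by noncomm_ring
    rw [k, hg, bt_one ε, bt_zero ε]
    simp only [bt_mul, bt_add]
    congr 1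
    · linear_combination (norm := noncomm_ring) 2 * e2
    · simp
  have a4 : ∀ c : F, (2 : F) • bt ε (X - 1) 0 ≠ c • (1 + mat g) := fun c e => k2 (c + 1) (by
    rw [hg, bt_one ε, bt_add, bt_smul, bt_smul] at e
    refine smul_right_injective _ h2 ?_
    change (2 : F) • X = (2 : F) • ((c + 1) • (1 : M2 F))
    linear_combination (norm := module) (bt_inj e).1)
  rw [e3] at hu
  generalize bt ε (X - 1) 0 = n at a1 a2 a3 a4 hu
  have two : ∀ {Z : M4 F}, Z + Z = 0 → Z = 0 := fun {Z} k =>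
    smul_right_injective _ h2 (show (2 : F) • Z = (2 : F) • (0 : M4 F) by
      rw [two_smul, k, smul_zero])
  obtain ⟨n', hn'⟩ : ∃ n', n' = mat w * n * mat w := ⟨_, rfl⟩
  have b1 : mat g * n' = -n' := by
    rw [hn', ← mul_assoc, ← mul_assoc, hc, neg_mul, neg_mul, mul_assoc (mat w) (mat g), a1]
  have b2 : n' * mat g = -n' := by
    rw [hn', mul_assoc, ← neg_neg (mat w * mat g), ← hc, mul_neg, ← mul_assoc,
      mul_assoc (mat w) n, a2]
  have b3 : 2 * (n' * n') + 6 * n' + 3 * (1 - mat g) = 0 := by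
    have k : mat w * mat g * mat w = -mat g := by
      rw [mul_assoc, hc, mul_neg, ← mul_assoc, W2, one_mul]
    have k' : n' * n' = mat w * (n * n) * mat w := by
      rw [hn', show mat w * n * mat w * (mat w * n * mat w) =
        mat w * n * (mat w * mat w) * n * mat w by noncomm_ring, W2]; noncomm_ring
    rw [k', hn']
    linear_combination (norm := noncomm_ring) mat w * a3 * mat w - 3 * W2 - 3 * k
  have c1 : n * n' = 0 := two (by
    linear_combination (norm := noncomm_ring) n * b1 - a2 * n')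
  have c2 : n' * n = 0 := two (by
    linear_combination (norm := noncomm_ring) b2 * n - n' * a1)
  have hd : mat (u * (w * u * w)) = 1 + n + n' := by
    rw [mat_mul, mat_mul, mat_mul, hu]
    linear_combination (norm := noncomm_ring) (1 + n) * W2 + c1 - (1 + n) * hn'
  generalize u * (w * u * w) = d at hd
  have d2 : mat d * mat d + mat d + 1 = 0 := two (by
    rw [hd]; linear_combination (norm := noncomm_ring) a3 + b3 + 2 * c1 + 2 * c2)
  have d3 : mat d * mat g = mat g * mat d := by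
    rw [hd]; linear_combination (norm := noncomm_ring) a2 + b2 - a1 - b1
  have d4 : mat w * mat d = mat d * mat w := by
    rw [hd, hn']
    linear_combination (norm := noncomm_ring) W2 * (n * mat w) - mat w * n * W2
  have d5 : ∀ c : F, mat d ≠ c • (1 : M4 F) := fun c e => a4 (c - 1) (by
    rw [hd] at e
    have e' := congrArg (mat g * ·) e
    simp only [mul_add, a1, b1, mul_smul_comm, mul_one] at e'
    linear_combination (norm := module) e + e')
  have key : ∀ {d w : P}, mat w * mat w = 1 → mat g * mat w = -(mat w * mat g) →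
      mat d * mat d + mat d + 1 = 0 → mat d * mat g = mat g * mat d →
      mat w * mat d = mat d * mat w → (∀ c : F, mat d ≠ c • (1 : M4 F)) →
      Mem P (mat g * ((2 : F) • mat d + 1) - 1) := fun {d w} W2 hc d2 d3 d4 d5 => by
    rw [hg] at hc d3
    obtain ⟨D, D', e⟩ := exists_bt h2 d3
    have m : Mem P (bt ε D D') := e ▸ mem_mat d
    rw [e] at d2 d4 d5
    rw [bt_one ε, bt_zero ε, bt_mul, bt_add, bt_add] at d2
    rw [hg, e]
    exact s.half h m (det_one h2 W2 (by rw [hc, neg_neg]) d4 (bt_inj d2).1 d5) (bt_inj d2).1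
      (bt_inj d2).2
  have mA := key W2 hc d2 d3 d4 d5
  have x1 := mat_mul_inv x
  have x2 := mat_inv_mul x
  have ew : mat g = mat x⁻¹ * mat w * mat x := by
    rw [← mat_mul, ← mat_mul, hw]; congr 1; group
  have cjm : ∀ a b : M4 F, mat x⁻¹ * a * mat x * (mat x⁻¹ * b * mat x) =
      mat x⁻¹ * (a * b) * mat x := fun a b => by
    linear_combination (norm := noncomm_ring) mat x⁻¹ * a * x1 * (b * mat x)
  have mB := mem_cj (key (d := x⁻¹ * d * x) (w := x⁻¹ * g * x)
    (by rw [mat_mul, mat_mul, cjm, S2, mul_one, x2])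
    (by rw [mat_mul, mat_mul]
        nth_rw 1 [ew]
        nth_rw 3 [ew]
        rw [cjm, cjm, hc]; simp)
    (by rw [mat_mul, mat_mul, cjm]
        linear_combination (norm := noncomm_ring) mat x⁻¹ * d2 * mat x - x2)
    (by rw [mat_mul, mat_mul, ew, cjm, cjm, d4])
    (by rw [mat_mul, mat_mul, mat_mul, mat_mul, cjm, cjm, d3])
    (fun c e => d5 c (by
      have : mat d = mat x * mat (x⁻¹ * d * x) * mat x⁻¹ := by
        rw [← mat_mul, ← mat_mul]; congr 1; group
      rw [this, e, mul_smul_comm, smul_mul_assoc, mul_one, x1]))) x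
  have eB : mat x * (mat g * ((2 : F) • mat (x⁻¹ * d * x) + 1) - 1) * mat x⁻¹ =
      mat w * ((2 : F) • mat d + 1) - 1 := by
    rw [hw, mat_cj, mat_mul, mat_mul, two_smul, two_smul]
    linear_combination (norm := noncomm_ring)
      2 * (mat x * mat g * mat x⁻¹ * mat d) * x1 - x1
  rw [eB] at mB
  have a2 : ((2 : F) • mat d + 1) * ((2 : F) • mat d + 1) = (-3 : F) • (1 : M4 F) := by
    rw [two_smul, show (-3 : F) • (1 : M4 F) = -(1 + 1 + 1) by module]
    linear_combination (norm := noncomm_ring) 4 * d2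
  have a3 : ((2 : F) • mat d + 1) * mat g = mat g * ((2 : F) • mat d + 1) := by
    rw [two_smul]; linear_combination (norm := noncomm_ring) 2 * d3
  have a4 : ((2 : F) • mat d + 1) * mat w = mat w * ((2 : F) • mat d + 1) := by
    rw [two_smul]; linear_combination (norm := noncomm_ring) -(2 * d4)
  generalize (2 : F) • mat d + 1 = a at *
  refine h.pp h3 ?_ ?_ ?_ mA mB
  · rw [← a2]
    linear_combination (norm := noncomm_ring) mat g * a3 * a + S2 * (a * a)
  · rw [← a2]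
    linear_combination (norm := noncomm_ring) mat w * a4 * a + W2 * (a * a)
  · linear_combination (norm := noncomm_ring) mat g * a4 * a + mat w * a3 * a + hc * (a * a)

theorem Sp.false (h : Od P π) (s : Sp P ε) {g : P} (hg : mat g = bt ε 1 (-1))
    (hz : orderOf (π g) = 2) : False := by
  have := h.pc.finite
  have := h.simple
  obtain ⟨y, h1, h2⟩ := Inv.ZS.exists_conj_commute_ne (Inv.ZS.card_ne_two_of_not_comm h.nonab) hz
  obtain ⟨x, rfl⟩ := h.surj y
  have e : π (x * g * x⁻¹) = π x * π g * (π x)⁻¹ := by simp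
  rcases h.pc.cm_or_an (by rw [← sq, ← hz, pow_orderOf_eq_one]) h1 with k | k
  · exact s.not_cm h hg (e ▸ h2) (k _ _ rfl e)
  · exact s.not_an h hg (k _ _ rfl e)

end Cfsg.Agent.Cl.D4.I0a
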