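/-
Subgroups of `SL₄(F)`: an involution with non-solvable centraliser has a component `A₅`.
-/
import Mathlib
import Cfsg.Agent.Cl.D4I0ab
import Cfsg.Agent.GT.TransferEval

set_option autoImplicit false

namespace Cfsg.Agent.Cl.D4

open Matrix Cfsg.Geo Cfsg.Agent.Cl.Max Cfsg.Agent.Cl.Mx Subgroup
open Cfsg.Agent.Cl.D5 (MT Root TrGen Cov NoTv)
open Cfsg.Agent.Cl.L2 (M2)
open scoped MatrixGroups commutatorElement

namespace I0a

theorem a5_two (y : L2.A5) {n : ℕ} (h : y ^ 2 ^ n = 1) : y * y = 1 := by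
  have k : ∀ m, m.Coprime 2 → y ^ m = 1 → y * y = 1 := fun m hm e => by
    have := Nat.dvd_gcd (orderOf_dvd_of_pow_eq_one e) (orderOf_dvd_of_pow_eq_one h)
    rw [hm.pow_right n, Nat.dvd_one, orderOf_eq_one_iff] at this
    rw [this, mul_one]
  rcases PP.A5_pow y.1 (Equiv.Perm.mem_alternatingGroup.1 y.2) with e | e | e
  · exact Subtype.ext e
  · exact k 3 (by norm_num) (Subtype.ext (by simpa [pow_succ] using e))
  · exact k 5 (by norm_num) (Subtype.ext (by simpa [pow_succ] using e))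

theorem a5_ex : (∃ y : L2.A5, y ≠ 1 ∧ y * y = 1) ∧ ∃ y : L2.A5, y ≠ 1 ∧ y ^ 3 = 1 :=
  ⟨⟨⟨Equiv.swap 0 1 * Equiv.swap 2 3, Equiv.Perm.mem_alternatingGroup.2 (by decide)⟩, by decide,
    by decide⟩, ⟨⟨Equiv.swap 0 1 * Equiv.swap 1 2, Equiv.Perm.mem_alternatingGroup.2 (by decide)⟩,
    by decide, by decide⟩⟩

theorem a5_perfect : commutator L2.A5 = ⊤ := commutator_alternatingGroup_eq_top (by simp)

/-- A perfect central extension of `A₅` with Sylow 2-subgroups of exponent two is trivial. -/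
theorem inj_a5 {K : Type*} [Group K] [Finite K] (σ : K →* L2.A5) (hp : commutator K = ⊤)
    (hc : ∀ x, σ x = 1 → x ∈ center K) (h2 : ∀ x, σ x * σ x = 1 → x * x = 1) :
    Function.Injective σ := by
  refine (injective_iff_map_eq_one σ).2 fun x hx => ?_
  have : Fact (Nat.Prime 2) := ⟨Nat.prime_two⟩
  by_contra k
  obtain ⟨S, hS⟩ := (IsPGroup.of_card (p := 2) (G := zpowers x) (n := 1) (by
    rw [Nat.card_zpowers, pow_one]
    exact orderOf_eq_prime (by rw [sq, h2 x (by simp [hx])]) k)).exists_le_sylow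
  apply k
  have sq : ∀ y ∈ (S : Subgroup K), y * y = 1 := fun y hy => by
    obtain ⟨n, e⟩ := S.2 ⟨y, hy⟩
    exact h2 y (a5_two (n := n) _ (by rw [← map_pow, show y ^ 2 ^ n = 1 from congrArg Subtype.val e,
      map_one]))
  have := GT.Tr.sylow_inf_commutator_inf_center_le S
    (show x ∈ _ from ⟨⟨hS (mem_zpowers x), hp ▸ mem_top x⟩, hc x hx⟩)
  rwa [commutator_eq_bot_iff_le_centralizer.2 fun a ha => mem_centralizer_iff.2 fun b hb => ?_,
    mem_bot] at this
  rw [← inv_eq_of_mul_eq_one_right (sq _ (mul_mem hb ha)), _root_.mul_inv_rev,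
    inv_eq_of_mul_eq_one_right (sq _ ha), inv_eq_of_mul_eq_one_right (sq _ hb)]

variable {F : Type*} [Field F] {G : Type*} [Group G] {P : Subgroup (G4 F)} {π : P →* G} {g : P}

/-- The setting: `g` is a diagonal involution with two-dimensional eigenspaces. -/
structure St (π : P →* G) (g : P) : Prop where
  od : Od P π
  hg : mat g = diagonal ![1, 1, -1, -1]

/-- The centraliser. -/
abbrev Ce (g : P) : Subgroup P := centralizer ({g} : Set P)

theorem St.eq (s : St π g) (k : Ce g) : mat k.1 = bd fun ε => blk ε (mat k.1) :=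
  eq_bd s.od.two (by rw [← s.hg, ← mat_mul, ← mat_mul, mem_centralizer_singleton_iff.1 k.2])

/-- The blocks. -/
def St.be (s : St π g) (ε : Fin 2) : Ce g →* M2 F where
  toFun k := blk ε (mat k.1)
  map_one' := by rw [coe_one, mat_one, ← bd_one, blk_bd]; rfl
  map_mul' a b := by
    rw [coe_mul, mat_mul]
    conv_lhs => rw [s.eq a, s.eq b, bd_mul, blk_bd]
    rfl

theorem St.eq' (s : St π g) (ε : Fin 2) (k : Ce g) :
    mat k.1 = bt ε (s.be ε k) (s.be (ε + 1) k) := (s.eq k).trans (bd_eq_bt ε _)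

theorem St.det (s : St π g) (ε : Fin 2) (k : Ce g) : (s.be ε k).det ≠ 0 :=
  (det_ne (P := P) (s.eq' ε k ▸ mem_mat _)).1

/-- The projective blocks. -/
noncomputable def St.th (s : St π g) (ε : Fin 2) : Ce g →* PGL(2, F) :=
  MonoidHom.mk' (fun k => L2.pm (s.be ε k)) fun a b => by
    rw [map_mul, L2.pm_mul (s.det ε a) (s.det ε b)]

theorem St.th_apply (s : St π g) (ε : Fin 2) (k : Ce g) : s.th ε k = L2.pm (s.be ε k) := rfl

theorem St.exists (s : St π g) {ε : Fin 2} {X Y : M2 F} (m : Mem P (bt ε X Y)) :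
    ∃ k : Ce g, s.be ε k = X ∧ s.be (ε + 1) k = Y := by
  obtain ⟨a, e⟩ := m.exists
  refine ⟨⟨a, mem_centralizer_singleton_iff.2 (mat_inj ?_)⟩, ?_⟩
  · rw [mat_mul, mat_mul, e, s.hg, bd_diag, bt, bd_mul, bd_mul]
    exact congrArg bd (funext fun δ => by fin_cases δ <;> simp)
  · exact bt_inj ((s.eq' ε _).symm.trans e)

theorem St.mem_iff (s : St π g) (k : P) : Cm π (π g) (π k) ↔ k ∈ Ce g :=
  ⟨fun h => mem_centralizer_singleton_iff.2 (h _ _ rfl rfl).symm,
    fun h => s.od.pc.cm_of (mem_centralizer_singleton_iff.1 h).symm⟩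

theorem St.bi (s : St π g) {k : Ce g} (h : ∀ ε, s.th ε k = 1) : Bi π (π g) (π k) := by
  obtain ⟨a, ha⟩ := (L2.pm_eq_one_iff' (s.det 0 k)).1 (h 0)
  obtain ⟨b, hb⟩ := (L2.pm_eq_one_iff' (s.det (0 + 1) k)).1 (h _)
  refine s.od.pc.bi_of (a := (a + b) / 2) (b := (a - b) / 2) ?_
  have := s.od.two
  rw [s.eq' 0, ha, hb, s.hg, bd_diag, bd_eq_bt 0, bt_one 0, bt_smul, bt_smul, bt_add]
  congr 1
  · change _ = _ + _ • (1 : M2 F)
    rw [← add_smul]; congr 1; field_simp; ring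
  · change _ = _ + _ • (-1 : M2 F)
    rw [smul_neg, ← sub_eq_add_neg, ← sub_smul]; congr 1; field_simp; ring

theorem St.center (s : St π g) {k : Ce g} (h : ∀ ε, s.th ε k = 1) : k ∈ center (Ce g) :=
  mem_center_iff.2 fun a => Subtype.ext
    ((s.bi h).cm s.od.pc ((s.mem_iff a).2 a.2) _ _ rfl rfl).symm

theorem St.solv (s : St π g) {R : Type*} [Group R] [Group.IsSolvable R] (f : Ce g →* R)
    (hf : ∀ k, f k = 1 → ∀ ε, s.th ε k = 1) : Group.IsSolvable (centralizer ({π g} : Set G)) := by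
  have : Group.IsSolvable (Subgroup.center (Ce g)) := Group.isSolvable_of_comm fun a b =>
    Subtype.ext (mem_center_iff.1 b.2 _)
  have : Group.IsSolvable (Ce g) := Group.isSolvable_of_ker_le_range (Subgroup.center _).subtype f
    fun k hk => ⟨⟨k, s.center (hf k hk)⟩, rfl⟩
  have p := s.od.pc
  have z2 : π g * π g = 1 := by
    rw [← map_mul, show g * g = 1 from mat_inj (by
      rw [mat_mul, s.hg, mat_one, bd_diag, bd_mul, ← bd_one]
      exact congrArg bd (funext fun δ => by fin_cases δ <;> simp)), map_one]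
  refine L2.isSolvable_of_commutator_mem (N := (π.comp (Ce g).subtype).range)
    (Group.isSolvable_of_surjective (MonoidHom.rangeRestrict_surjective _)) fun a ha b hb => ?_
  obtain ⟨k, e⟩ := p.surj (a * b * a⁻¹ * b⁻¹)
  refine ⟨⟨k, (s.mem_iff k).1 (e ▸ ?_)⟩, e⟩
  rcases p.cm_or_an z2 (mem_centralizer_singleton_iff.1 ha).symm with h1 | h1 <;>
    rcases p.cm_or_an z2 (mem_centralizer_singleton_iff.1 hb).symm with h2 | h2
  · exact ((h1.mul p h2).mul p h1.inv).mul p h2.inv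
  · exact ((h1.mul_an p h2).mul_cm p h1.inv).mul_an p h2.inv
  · exact ((h1.mul_cm p h2).mul_an p h1.inv).mul p h2.inv
  · exact ((h1.mul_an p h2).mul_an p h1.inv).mul_an p h2.inv

theorem St.det_one (s : St π g) (ε : Fin 2) {k : Ce g} (hk : k ∈ commutator (Ce g)) :
    (s.be ε k).det = 1 := by
  refine (show commutator (Ce g) ≤ (detMonoidHom.comp (s.be ε)).ker from
    commutator_le.2 fun a _ b _ => ?_) hk
  generalize detMonoidHom.comp (s.be ε) = f
  rw [MonoidHom.mem_ker, commutatorElement_def, map_mul, map_mul, map_mul,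
    mul_right_comm _ _ (f a⁻¹), ← map_mul, mul_inv_cancel, map_one, one_mul, ← map_mul,
    mul_inv_cancel, map_one]

variable [Finite F]

theorem St.alt (s : St π g) (ε : Fin 2) : Group.IsSolvable (s.th ε).range ∨
    ∃ σ : Ce g →* L2.A5, Function.Surjective σ ∧ ∀ k, σ k = 1 ↔ s.th ε k = 1 := by
  obtain ⟨ρ, h1, h2⟩ := s.od.block s.hg ε
  have e : ρ.range = (s.th ε).range := by
    refine le_antisymm ?_ ?_
    · rintro _ ⟨⟨x, hx⟩, rfl⟩
      obtain ⟨k, rfl⟩ := s.od.surj x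
      exact ⟨⟨k, (s.mem_iff k).1 hx⟩, (h1 k hx).symm⟩
    · rintro _ ⟨k, rfl⟩
      exact ⟨_, h1 k ((s.mem_iff k).2 k.2)⟩
  rw [e] at h2
  rcases h2 with ⟨x, h⟩ | ⟨y, -, h, h'⟩ | ⟨⟨f⟩⟩ | ⟨⟨f⟩⟩ | ⟨⟨f⟩⟩
  · exact .inl (L2.isSolvable_of_le h (L2.isSolvable_stabilizer x))
  · exact .inl (L2.isSolvable_of_le h' (L2.isSolvable_ntor h))
  · exact .inl (L2.isSolvable_of_equiv f L2.isSolvable_A4)
  · exact .inl (L2.isSolvable_of_equiv f L2.isSolvable_S4)
  · refine .inr ⟨f.toMonoidHom.comp (s.th ε).rangeRestrict,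
      f.surjective.comp (MonoidHom.rangeRestrict_surjective _), fun k => ?_⟩
    simp [Subtype.ext_iff]

theorem St.le (s : St π g) {ε : Fin 2} {σ : Ce g →* L2.A5} (hs : Function.Surjective σ)
    (hk : ∀ k, σ k = 1 ↔ s.th ε k = 1) (hz : orderOf (π g) = 2) (k : Ce g)
    (h : s.th (ε + 1) k = 1) : s.th ε k = 1 := by
  rcases (Normal.map (s.th (ε + 1)).normal_ker σ hs).eq_bot_or_eq_top with e | e
  · exact (hk k).1 (mem_bot.1 (e ▸ mem_map_of_mem σ h))
  have m : ∀ k : Ce g, Mem P (bt ε (s.be ε k) (s.be (ε + 1) k)) := fun k => s.eq' ε k ▸ mem_mat _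
  obtain ⟨c, hc, e'⟩ := sign_two (F := F) ε
  obtain ⟨g', h1, h2⟩ := s.od.exists_smul g (c := c) fun k => by simp [k] at hc
  refine (Sp.false s.od (ε := ε) ⟨fun X Y mX => ?_, ?_, ?_, fun X Y mX e4 => ?_⟩
    (g := g') (by rw [h1, s.hg, ← e', bt]) (h2 ▸ hz)).elim
  · obtain ⟨k, rfl, rfl⟩ := s.exists mX
    have : σ k ∈ ⁅(s.th (ε + 1)).ker, (s.th (ε + 1)).ker⁆.map σ := by
      rw [map_commutator, e, ← commutator_def, a5_perfect]; trivial
    obtain ⟨l, hl, el⟩ := this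
    have b1 : s.be (ε + 1) l = 1 := (show _ ≤ (s.be (ε + 1)).ker from
      commutator_le.2 fun a ha b _ => by
        obtain ⟨c, hc⟩ := (L2.pm_eq_one_iff' (s.det _ a)).1 ha
        rw [MonoidHom.mem_ker, commutatorElement_def, map_mul, map_mul, map_mul,
          show s.be (ε + 1) a * s.be (ε + 1) b = s.be (ε + 1) b * s.be (ε + 1) a by
            rw [hc]; simp, mul_assoc (s.be _ b),
          ← map_mul, mul_inv_cancel, map_one, mul_one, ← map_mul, mul_inv_cancel, map_one]) hl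
    refine ⟨s.be ε l, s.det_one ε (commutator_mono le_top le_top hl), b1 ▸ m l, ?_⟩
    have := (hk (l⁻¹ * k)).1 (by rw [map_mul, map_inv, el, inv_mul_cancel])
    rwa [map_mul, map_inv, inv_mul_eq_one] at this
  · obtain ⟨y, n, e⟩ := a5_ex.1
    obtain ⟨k, rfl⟩ := hs y
    exact ⟨_, _, m k, fun c => n ((hk k).2 c), (map_mul (s.th ε) k k).symm.trans
      ((hk _).1 (by rw [map_mul, e]))⟩
  · obtain ⟨y, n, e⟩ := a5_ex.2
    obtain ⟨k, rfl⟩ := hs y
    exact ⟨_, _, m k, fun c => n ((hk k).2 c), (map_pow (s.th ε) k 3).symm.trans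
      ((hk _).1 (by rw [map_pow, e]))⟩
  · obtain ⟨k, rfl, rfl⟩ := s.exists mX
    refine (map_mul (s.th ε) k k).symm.trans ((hk _).1 ?_)
    rw [map_mul]
    exact a5_two (n := 2) _ ((map_pow σ k 4).symm.trans ((hk _).2 ((map_pow _ k 4).trans e4)))

theorem St.ker (s : St π g) (hz : orderOf (π g) = 2)
    (hn : ¬ Group.IsSolvable (centralizer ({π g} : Set G))) :
    ∃ σ : Ce g →* L2.A5, Function.Surjective σ ∧ ∀ k ε, σ k = 1 ↔ s.th ε k = 1 := by
  have a : ∀ ε δ : Fin 2, δ = ε ∨ δ = ε + 1 := by decide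
  have key : ∀ (ε : Fin 2) (σ : Ce g →* L2.A5), Function.Surjective σ →
      (∀ k, σ k = 1 ↔ s.th ε k = 1) → ∀ k δ, σ k = 1 ↔ s.th δ k = 1 := fun ε σ h1 h2 k δ => by
    have l := s.le h1 h2 hz
    rcases a ε δ with rfl | rfl
    · exact h2 k
    refine (h2 k).trans ⟨fun e => ?_, l k⟩
    rcases s.alt (ε + 1) with b | ⟨τ, h3, h4⟩
    · refine (hn (s.solv (s.th (ε + 1)).rangeRestrict fun k e δ => ?_)).elim
      replace e : s.th (ε + 1) k = 1 := congrArg Subtype.val e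
      rcases a ε δ with rfl | rfl
      exacts [l k e, e]
    · exact s.le h3 h4 hz k (by rwa [show ε + 1 + 1 = ε by fin_cases ε <;> rfl])
  rcases s.alt 0 with b | ⟨τ, h3, h4⟩
  · rcases s.alt 1 with b' | ⟨τ, h3, h4⟩
    · refine (hn (s.solv ((s.th 0).rangeRestrict.prod (s.th 1).rangeRestrict) fun k e δ => ?_)).elim
      fin_cases δ
      exacts [congrArg (·.1.1) e, congrArg (·.2.1) e]
    · exact ⟨τ, h3, key _ _ h3 h4⟩
  · exact ⟨τ, h3, key _ _ h3 h4⟩

theorem St.five (s : St π g) (hz : ZT π (π g))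
    (hn : ¬ Group.IsSolvable (centralizer ({π g} : Set G))) : ∃ K, I0 π (π g) K := by
  obtain ⟨σ, h1, h2⟩ := s.ker (hz.orderOf s.od) hn
  have p := s.od.pc
  have := p.finite
  have dec : ∀ k : Ce g, ∃ l ∈ commutator (Ce g), σ l = σ k := fun k => by
    have : σ k ∈ (commutator (Ce g)).map σ := by
      rw [commutator_def, map_commutator, map_top_of_surjective σ h1, ← commutator_def, a5_perfect]
      trivial
    exact this
  have sq : ∀ k ∈ commutator (Ce g), σ k ≠ 1 → σ k * σ k = 1 → mat k.1 * mat k.1 = -1 :=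
    fun k hk n e => by
    have t := fun ε => sq_eq_neg (s.det_one ε hk) (fun c => n ((h2 k ε).2 c))
      ((map_mul (s.th ε) k k).symm.trans ((h2 _ ε).1 (by rw [map_mul, e])))
    rw [s.eq' 0, bt_mul, t, t, bt_one 0, bt_neg]
  have sq' : ∀ k ∈ commutator (Ce g), σ k = 1 → mat k.1 * mat k.1 = 1 := fun k hk e => by
    have t : ∀ ε, s.be ε k * s.be ε k = 1 := fun ε => by
      obtain ⟨c, hc⟩ := (L2.pm_eq_one_iff' (s.det ε k)).1 ((h2 k ε).1 e)
      have := s.det_one ε hk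
      rw [hc, L2.det_smul_two, Matrix.det_one, mul_one] at this
      rw [hc, smul_mul_smul_comm, ← pow_two, this, one_smul, mul_one]
    rw [s.eq' 0, bt_mul, t, t, bt_one 0]
  let φ : commutator (Ce g) →* G := (π.comp (Ce g).subtype).comp (commutator (Ce g)).subtype
  let ψ : commutator (Ce g) →* L2.A5 := σ.comp (commutator (Ce g)).subtype
  have hker : φ.rangeRestrict.ker ≤ ψ.ker := fun k hk => by
    obtain ⟨c, hc⟩ := (p.eq_one_iff _).1 (congrArg Subtype.val hk)
    replace hc := (s.eq' 0 k.1).symm.trans hc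
    rw [bt_one 0, bt_smul] at hc
    exact (h2 _ 0).2 ((L2.pm_eq_one_iff' (s.det 0 _)).2 ⟨c, (bt_inj hc).1⟩)
  let τ : φ.range →* L2.A5 := φ.rangeRestrict.liftOfSurjective φ.rangeRestrict_surjective ⟨ψ, hker⟩
  have hτ : ∀ k, τ (φ.rangeRestrict k) = σ k := fun k =>
    MonoidHom.liftOfRightInverse_comp_apply ..
  have perf : commutator (commutator (Ce g)) = ⊤ := by
    refine map_injective (commutator (Ce g)).subtype_injective ?_
    rw [_root_.commutator_def (commutator (Ce g)), map_commutator, ← MonoidHom.range_eq_map,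
      range_subtype]
    refine le_antisymm (commutator_le_self _) (commutator_le.2 fun a _ b _ => ?_)
    obtain ⟨a', ha, ea⟩ := dec a
    obtain ⟨b', hb, eb⟩ := dec b
    have c : ∀ {a a' : Ce g}, σ a' = σ a → a'⁻¹ * a ∈ Subgroup.center (Ce g) := fun e =>
      s.center fun ε => (h2 _ ε).1 (by rw [map_mul, map_inv, e, inv_mul_cancel])
    have ca := mem_center_iff.1 (c ea)
    have cb := mem_center_iff.1 (c eb)
    convert commutator_mem_commutator ha hb using 1
    rw [← mul_inv_cancel_left a' a, ← mul_inv_cancel_left b' b]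
    generalize a'⁻¹ * a = u at ca
    generalize b'⁻¹ * b = v at cb
    rw [commutatorElement_def, commutatorElement_def, _root_.mul_inv_rev, _root_.mul_inv_rev,
      show a' * u * (b' * v) * (u⁻¹ * a'⁻¹) = a' * (u * (b' * v)) * u⁻¹ * a'⁻¹ by group, ← ca,
      show a' * (b' * v * u) * u⁻¹ * a'⁻¹ * (v⁻¹ * b'⁻¹) = a' * b' * (v * a'⁻¹) * v⁻¹ * b'⁻¹ by group,
      ← cb]
    group
  have inj : Function.Injective τ := by
    refine inj_a5 τ ?_ (fun x hx => ?_) fun x hx => ?_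
    · rw [← map_top_of_surjective _ φ.rangeRestrict_surjective, ← perf,
        _root_.commutator_def (commutator (Ce g)), map_commutator,
        map_top_of_surjective _ φ.rangeRestrict_surjective, _root_.commutator_def φ.range]
    · obtain ⟨k, rfl⟩ := φ.rangeRestrict_surjective x
      refine mem_center_iff.2 fun y => ?_
      obtain ⟨l, rfl⟩ := φ.rangeRestrict_surjective y
      rw [← map_mul, ← map_mul]
      exact congrArg _ (Subtype.ext
        (mem_center_iff.1 (s.center fun ε => (h2 _ ε).1 ((hτ k).symm.trans hx)) _))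
    · obtain ⟨k, rfl⟩ := φ.rangeRestrict_surjective x
      rw [hτ] at hx
      refine Subtype.ext ((map_mul π _ _).symm.trans ((p.eq_one_iff _).2 ?_))
      by_cases e : σ k = 1
      · exact ⟨1, by rw [mat_mul, one_smul]; exact sq' _ k.2 e⟩
      · exact ⟨-1, by rw [mat_mul, neg_one_smul]; exact sq _ k.2 e hx⟩
  have one : ∀ k : commutator (Ce g), σ k = 1 ↔ φ k = 1 := fun k =>
    ⟨fun e => congrArg Subtype.val ((injective_iff_map_eq_one τ).1 inj _ ((hτ k).trans e)),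
      fun e => hker (Subtype.ext e)⟩
  refine ⟨φ.range, hz, ⟨MulEquiv.ofBijective τ ⟨inj, fun y => ?_⟩⟩, ?_, fun x hx => ?_, ?_⟩
  · obtain ⟨k, rfl⟩ := h1 y
    obtain ⟨l, hl, e⟩ := dec k
    exact ⟨_, (hτ ⟨l, hl⟩).trans e⟩
  · rintro _ ⟨k, rfl⟩
    exact (s.mem_iff _).2 k.1.2
  · obtain ⟨k, rfl⟩ := p.surj x
    obtain ⟨l, hl, e⟩ := dec ⟨k, (s.mem_iff k).1 hx⟩
    refine ⟨_, ⟨⟨l, hl⟩, rfl⟩, ?_⟩
    simpa [φ] using s.bi (k := l⁻¹ * ⟨k, (s.mem_iff k).1 hx⟩) fun ε => (h2 _ ε).1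
      (by rw [map_mul, map_inv, e, inv_mul_cancel])
  · rintro _ ⟨a, rfl⟩ _ ⟨b, rfl⟩ a2 b2 a1 b1 ab c
    have t : ∀ k : commutator (Ce g), φ k ≠ 1 → φ k * φ k = 1 → mat k.1.1 * mat k.1.1 = -1 :=
      fun k n e => sq _ k.2 (fun c => n ((one k).1 c))
        ((map_mul σ _ _).symm.trans ((one (k * k)).2 (by rw [map_mul, e])))
    have t1 := t a a1 a2
    have t2 := t b b1 b2
    have t3 := t (a * b) (fun e => ab (by
      rw [map_mul] at e
      rw [eq_inv_of_mul_eq_one_left e, inv_eq_of_mul_eq_one_right b2])) (by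
      rw [map_mul, mul_assoc, ← mul_assoc (φ b), ← c, mul_assoc, b2, mul_one, a2])
    refine p.an_of (a := a.1.1) (b := b.1.1) ?_
    rw [coe_mul, coe_mul, mat_mul] at t3
    linear_combination (norm := noncomm_ring) mat a.1.1 * t3 * mat b.1.1 -
      t1 * (mat b.1.1 * mat a.1.1 * mat b.1.1 * mat b.1.1) + mat b.1.1 * mat a.1.1 * t2

end I0a

variable {F : Type*} [Field F] [Finite F] {G : Type*} [Group G] {P : Subgroup (G4 F)}
  {π : P →* G}

theorem Od.five (h : Od P π) {z : G} (hz : ZT π z)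
    (hn : ¬ Group.IsSolvable (centralizer ({z} : Set G))) : ∃ K, I0 π z K := by
  obtain ⟨Q, g, rfl, e⟩ := hz.exists_diag h
  obtain ⟨K, hK⟩ := I0a.St.five ⟨h.conj Q, e⟩ (by rw [cπ_cE]; exact zt_conj.2 hz)
    (by rwa [cπ_cE])
  exact ⟨K, i0_conj.1 (cπ_cE Q π g ▸ hK)⟩

end Cfsg.Agent.Cl.D4
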