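/-
Subgroups of `GL₄(F)` in odd characteristic: relations between lifts of a dihedral group of order
eight.
-/
import Mathlib
import Cfsg.Agent.Cl.D4B

set_option autoImplicit false

namespace Cfsg.Agent.Cl.D4.I0c

open Matrix Cfsg.Geo Cfsg.Agent.Cl.Max Cfsg.Agent.Cl.Mx Subgroup
open scoped MatrixGroups commutatorElement

variable {F : Type*} [Field F] {G : Type*} [Group G] {P : Subgroup (G4 F)} {π : P →* G}

section Alg

variable {V W S Z : M4 F} {c : F}

theorem cancel {X Y : M4 F} (e : X * Y = 1) {a b : F} (h : a • X = b • X) : a = b :=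
  smul_one_inj (by rw [← e, ← smul_mul_assoc, h, smul_mul_assoc])

theorem sq_vw (hV : V * V = 1) (hW : W * W = 1) (hwv : W * V = -(V * W)) :
    V * W * (V * W) = -1 := by
  calc V * W * (V * W) = V * (W * V) * W := by noncomm_ring
    _ = -(V * V * (W * W)) := by rw [hwv]; noncomm_ring
    _ = -1 := by rw [hV, hW, mul_one]

theorem sq_c (hV : V * V = 1) (hW : W * W = 1) (hS : S * S = 1) (hwv : W * V = -(V * W))
    (e : S * W * S = c • (V * W)) : c * c = -1 := by
  have h1 : S * W * S * (S * W * S) = 1 := by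
    calc _ = S * (W * (S * S) * W) * S := by noncomm_ring
      _ = 1 := by rw [hS, mul_one, hW, mul_one, hS]
  rw [e, smul_mul_smul_comm, sq_vw hV hW hwv] at h1
  exact smul_one_inj (by rw [neg_one_smul, ← neg_eq_iff_eq_neg, ← smul_neg, h1])

theorem not_comm (h2 : (2 : F) ≠ 0) (hV : V * V = 1) (hW : W * W = 1) (hS : S * S = 1)
    (hwv : W * V = -(V * W)) (e : S * W * S = c • (V * W)) (hsv : S * V = V * S) : False := by
  have h1 : (1 : F) • W = (c * c) • W := by
    calc (1 : F) • W = (S * S) * W * (S * S) := by rw [hS, one_mul, mul_one, one_smul]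
      _ = S * (S * W * S) * S := by noncomm_ring
      _ = c • (S * V * W * S) := by rw [e]; simp only [mul_smul_comm, smul_mul_assoc, mul_assoc]
      _ = c • (V * (S * W * S)) := by rw [hsv]; simp only [mul_assoc]
      _ = (c * c) • W := by rw [e, mul_smul_comm, ← mul_assoc, hV, one_mul, smul_smul]
  have h3 := cancel hW h1
  rw [sq_c hV hW hS hwv e] at h3
  exact h2 (by linear_combination h3)

theorem wsw (hW : W * W = 1) (hS : S * S = 1) (e : S * W * S = c • (V * W))
    (hsv : S * V = -(V * S)) : W * S * W = -c • (V * S) := by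
  calc W * S * W = (S * S) * W * S * W := by rw [hS, one_mul]
    _ = S * (S * W * S) * W := by noncomm_ring
    _ = c • (S * V * (W * W)) := by rw [e]; simp only [mul_smul_comm, smul_mul_assoc, mul_assoc]
    _ = -c • (V * S) := by rw [hW, mul_one, hsv, smul_neg, neg_smul]

theorem no_swap_alg (h2 : (2 : F) ≠ 0) (φ : M4 F ≃ₐ[F] M4 F) {δ ε β : F} (hV : V * V = 1)
    (hW : W * W = 1) (hZ : Z * Z = 1) (hwv : W * V = -(V * W)) (hzv : Z * V = V * Z)
    (eW : φ W = S) (e : S * W * S = c • (V * W)) (hsv : S * V = -(V * S)) (eV : φ V = δ • V)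
    (eZ : φ Z = ε • (V * Z))
    (eS : (φ S = β • W ∧ φ (φ Z) = Z) ∨ (φ S = β • (V * W) ∧ φ (φ Z) = -Z)) : False := by
  have hS : S * S = 1 := by rw [← eW, ← map_mul, hW, map_one]
  have hS' : φ S * φ S = 1 := by rw [← map_mul, hS, map_one]
  have hc := sq_c hV hW hS hwv e
  have hε : ε * ε = 1 := by
    have h1 : φ Z * φ Z = 1 := by rw [← map_mul, hZ, map_one]
    rw [eZ, smul_mul_smul_comm, show V * Z * (V * Z) = V * (Z * V) * Z by noncomm_ring, hzv,
      ← mul_assoc, hV, one_mul, hZ] at h1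
    exact smul_one_inj (by rw [h1, one_smul])
  have hzz : φ (φ Z) = δ • Z := by
    rw [eZ, map_smul, map_mul, eV, eZ, smul_mul_smul_comm, ← mul_assoc, hV, one_mul, smul_smul,
      show ε * (δ * ε) = δ by linear_combination δ * hε]
  have hvs : V * S * (S * V) = 1 := by
    rw [show V * S * (S * V) = V * (S * S) * V by noncomm_ring, hS, mul_one, hV]
  have k : φ S * S * φ S = (c * δ) • (V * S) := by
    have := congrArg φ e
    rwa [map_mul, map_mul, map_smul, map_mul, eW, eV, smul_mul_assoc, smul_smul] at this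
  have hw := wsw hW hS e hsv
  rcases eS with ⟨eS, h⟩ | ⟨eS, h⟩
  · have hβ : β * β = 1 := by
      rw [eS, smul_mul_smul_comm, hW] at hS'
      exact smul_one_inj (by rw [hS', one_smul])
    have h1 : δ = 1 := cancel hZ (by rw [← hzz, h, one_smul])
    rw [eS, smul_mul_assoc, smul_mul_smul_comm, hβ, one_smul, hw] at k
    have h3 := cancel hvs k
    exact h2 (by rw [h1] at h3; linear_combination c * h3 + 2 * hc)
  · have hβ : β * β = -1 := by
      rw [eS, smul_mul_smul_comm, sq_vw hV hW hwv] at hS'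
      exact smul_one_inj (by rw [neg_one_smul, ← neg_eq_iff_eq_neg, ← smul_neg, hS'])
    have h1 : δ = -1 := cancel hZ (by rw [← hzz, h, neg_one_smul])
    have h4 : V * W * S * (V * W) = W * S * W := by
      calc V * W * S * (V * W) = V * W * (S * V) * W := by noncomm_ring
        _ = -(V * (W * V) * S * W) := by rw [hsv]; noncomm_ring
        _ = V * V * (W * S * W) := by rw [hwv]; noncomm_ring
        _ = W * S * W := by rw [hV, one_mul]
    rw [eS, smul_mul_assoc, smul_mul_smul_comm, hβ, h4, hw, smul_smul] at k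
    have h3 := cancel hvs k
    exact h2 (by rw [h1] at h3; linear_combination (-c) * h3 + 2 * hc)

end Alg

theorem lift2 (h : Od P π) {x : G} (hx : x * x = 1) : ∃ a : P, π a = x ∧ a * a = 1 := by
  obtain ⟨a, ha, h1⟩ := h.exists_lift (n := 2) (x := x) (by rw [pow_two, hx])
  exact ⟨a, ha, by rwa [pow_two] at h1⟩

theorem mat_sq {a : P} (h : a * a = 1) : mat a * mat a = 1 := congrArg mat h

theorem mat_conj (k a : P) : mat (k * a * k⁻¹) = cj (k : G4 F) (mat a) := rfl

/-- In a dihedral group `⟨w, s⟩` of order eight with centre `v`, `s` anticommutes with `v`. -/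
theorem an_vs (h : Od P π) {v w s : G} (hv : v * v = 1) (hw : w * w = 1) (hs : s * s = 1)
    (vw : An π v w) (e : s * w * s⁻¹ = v * w) (hc : Commute v s) : An π v s := by
  refine (h.pc.cm_or_an hv hc).resolve_left fun h1 => ?_
  obtain ⟨V, rfl, hV⟩ := lift2 h hv
  obtain ⟨W, rfl, hW⟩ := lift2 h hw
  obtain ⟨S, rfl, hS⟩ := lift2 h hs
  rw [inv_eq_of_mul_eq_one_right hs, ← map_mul, ← map_mul, ← map_mul, h.pc.eq_iff] at e
  obtain ⟨c, e⟩ := e
  exact not_comm h.two (mat_sq hV) (mat_sq hW) (mat_sq hS) (vw.symm W V rfl rfl) e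
    (congrArg mat (h1 V S rfl rfl)).symm

theorem no_swap (h : Od P π) {z v w g : G} (hz : z * z = 1) (hv : v * v = 1) (hw : w * w = 1)
    (zv : Cm π z v) (vw : An π v w) (gv : g * v * g⁻¹ = v) (gz : g * z * g⁻¹ = v * z)
    (e : g * w * g⁻¹ * w * (g * w * g⁻¹)⁻¹ = v * w) (hc : Commute v (g * w * g⁻¹))
    (hτ : (g * g * w * (g * g)⁻¹ = w ∧ Cm π z (g * g)) ∨
      (g * g * w * (g * g)⁻¹ = v * w ∧ An π z (g * g))) : False := by
  have hs : g * w * g⁻¹ * (g * w * g⁻¹) = 1 := by rw [conj_mul, hw]; group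
  have vs := an_vs h hv hw hs vw e hc
  obtain ⟨V, rfl, hV⟩ := lift2 h hv
  obtain ⟨W, rfl, hW⟩ := lift2 h hw
  obtain ⟨Z, rfl, hZ⟩ := lift2 h hz
  obtain ⟨X, rfl⟩ := h.surj g
  rw [inv_eq_of_mul_eq_one_right hs] at e
  simp only [← map_mul, ← map_inv] at e gv gz hτ vs
  obtain ⟨c, e⟩ := (h.pc.eq_iff _ _).1 e
  obtain ⟨δ, eV⟩ := (h.pc.eq_iff _ _).1 gv
  obtain ⟨ε, eZ⟩ := (h.pc.eq_iff _ _).1 gz
  have k : ∀ a : P, mat (X * X * a * (X * X)⁻¹) = cj (X : G4 F) (cj (X : G4 F) (mat a)) :=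
    fun a => by rw [← mat_conj, ← mat_conj]; congr 1; group
  have : ∃ β : F, (cj (X : G4 F) (mat (X * W * X⁻¹)) = β • mat W ∧
      cj (X : G4 F) (cj (X : G4 F) (mat Z)) = mat Z) ∨
      (cj (X : G4 F) (mat (X * W * X⁻¹)) = β • (mat V * mat W) ∧
      cj (X : G4 F) (cj (X : G4 F) (mat Z)) = -mat Z) := by
    rcases hτ with ⟨h1, h3⟩ | ⟨h1, h3⟩
    · obtain ⟨β, h1⟩ := (h.pc.eq_iff _ _).1 h1
      refine ⟨β, Or.inl ⟨(k W).symm.trans h1, ?_⟩⟩
      rw [← k, ← h3 Z (X * X) rfl rfl, mul_inv_cancel_right]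
    · obtain ⟨β, h1⟩ := (h.pc.eq_iff _ _).1 h1
      refine ⟨β, Or.inr ⟨(k W).symm.trans h1, ?_⟩⟩
      rw [← k, mat_mul, mat_mul, h3.symm (X * X) Z rfl rfl, neg_mul, mul_assoc, mat_mul_inv,
        mul_one]
  obtain ⟨β, eS⟩ := this
  exact no_swap_alg h.two (cj (X : G4 F)) (mat_sq hV) (mat_sq hW) (mat_sq hZ)
    (vw.symm W V rfl rfl) (congrArg mat (zv Z V rfl rfl)) (mat_conj X W).symm e
    (vs.symm _ V rfl rfl) eV eZ eS

end Cfsg.Agent.Cl.D4.I0c
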