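/-
Subgroups of `GL₄(F)`: homologies of order four.
-/
import Mathlib
import Cfsg.Agent.Cl.D4PP

set_option autoImplicit false
set_option linter.unusedSectionVars false

namespace Cfsg.Agent.Cl.D4

open Matrix Cfsg.Geo Cfsg.Agent.Cl.Max Cfsg.Agent.Cl.Mx Subgroup
open Cfsg.Agent.Cl.D5 (MT Root TrGen Cov NoTv)
open scoped MatrixGroups commutatorElement

namespace IR3

open L2

variable {F : Type*} [Field F]

set_option synthInstance.maxSize 1024 in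
theorem S4_four : ∀ x : Equiv.Perm (Fin 4), x * x ≠ 1 → x * x * x ≠ 1 → ∀ y : Equiv.Perm (Fin 4),
    y * y ≠ 1 → y * y * y ≠ 1 → x * y * (x * y) = 1 ∨ x * y * (x * y) * (x * y) = 1 := by
  decide +kernel

theorem small_four {H : Type*} [Group H] (h : Nonempty (H ≃* alternatingGroup (Fin 4)) ∨
    Nonempty (H ≃* Equiv.Perm (Fin 4)) ∨ Nonempty (H ≃* alternatingGroup (Fin 5))) {x y : H}
    (x2 : x ^ 2 ≠ 1) (x3 : x ^ 3 ≠ 1) (x5 : x ^ 5 ≠ 1) (y2 : y ^ 2 ≠ 1) (y3 : y ^ 3 ≠ 1) :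
    (x * y) ^ 2 = 1 ∨ (x * y) ^ 3 = 1 := by
  have key : ∀ φ : H →* Equiv.Perm (Fin 4), Function.Injective φ →
      (x * y) ^ 2 = 1 ∨ (x * y) ^ 3 = 1 := fun φ hφ => by
    have k : ∀ (z : H) n, z ^ n ≠ 1 → φ z ^ n ≠ 1 := fun z n h => by
      rwa [← map_pow, Ne, map_eq_one_iff _ hφ]
    have := S4_four (φ x) (by rw [← sq]; exact k _ _ x2) (by rw [← pow_three']; exact k _ _ x3)
      (φ y) (by rw [← sq]; exact k _ _ y2) (by rw [← pow_three']; exact k _ _ y3)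
    rwa [← pow_three', ← sq, ← map_mul, ← map_pow, ← map_pow, map_eq_one_iff _ hφ,
      map_eq_one_iff _ hφ] at this
  rcases h with ⟨⟨e⟩⟩ | ⟨⟨e⟩⟩ | ⟨⟨e⟩⟩
  · exact key ((alternatingGroup _).subtype.comp e.toMonoidHom)
      (Subtype.val_injective.comp e.injective)
  · exact key e.toMonoidHom e.injective
  · have k : ∀ n, (e x).1 ^ n = 1 → x ^ n = 1 := fun n h =>
      e.injective (by rw [map_pow, map_one]; exact Subtype.ext h)
    rcases PP.A5_pow (e x).1 (e x).2 with h | h | h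
    · exact absurd (k 2 (by rw [sq, h])) x2
    · exact absurd (k 3 (by rw [pow_three', h])) x3
    · exact absurd (k 5 (by simpa only [pow_succ, pow_zero, one_mul] using h)) x5

/-- Two homologies of order four in dimension two. -/
theorem two_dim [Finite F] (h2 : (2 : F) ≠ 0) {ι x y : F} (hι : ι * ι = -1) (h1 : x * y ≠ 1)
    {H : Subgroup PGL(2, F)} (hreg : ∀ h ∈ H, h ≠ 1 → tau h ≠ 4)
    (a : L2.pm !![ι, (ι - 1) * x; 0, 1] ∈ H) (b : L2.pm !![1, 0; (ι - 1) * y, ι] ∈ H) :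
    (x = 0 ∧ y = 0) ∨ 2 * (x * y) = 1 := by
  have i0 : ι ≠ 0 := fun e => by simp [e] at hι
  have i1 : ι - 1 ≠ 0 := fun e => h2 (by grind)
  have d1 : (!![ι, (ι - 1) * x; 0, 1] : M2 F).det = ι := by simp
  have d2 : (!![1, 0; (ι - 1) * y, ι] : M2 F).det = ι := by simp
  have d3 : (!![ι, 0; -((ι - 1) * y), 1] : M2 F).det = ι := by simp
  have n1 := d1 ▸ i0
  have n2 := d2 ▸ i0
  have n3 := d3 ▸ i0
  have b' : L2.pm !![ι, 0; -((ι - 1) * y), 1] ∈ H := by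
    have := H.inv_mem b
    rw [← pm_adjugate n2, adjugate_fin_two_of, neg_zero] at this
    exact this
  have t1 : tau (L2.pm !![ι, (ι - 1) * x; 0, 1]) = 2 := by
    rw [tau_pm_eq_iff n1, d1, trace_fin_two_of]; linear_combination hι
  have t2 : tau (L2.pm !![1, 0; (ι - 1) * y, ι]) = 2 := by
    rw [tau_pm_eq_iff n2, d2, trace_fin_two_of]; linear_combination hι
  have t3 : tau (L2.pm !![ι, 0; -((ι - 1) * y), 1]) = 2 := by
    rw [tau_pm_eq_iff n3, d3, trace_fin_two_of]; linear_combination hι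
  have m1 : (!![ι, (ι - 1) * x; 0, 1] * !![1, 0; (ι - 1) * y, ι] : M2 F).det ≠ 0 := by
    rw [det_mul]; exact mul_ne_zero n1 n2
  have m2 : (!![ι, (ι - 1) * x; 0, 1] * !![ι, 0; -((ι - 1) * y), 1] : M2 F).det ≠ 0 := by
    rw [det_mul]; exact mul_ne_zero n1 n3
  have s1 : tau (L2.pm (!![ι, (ι - 1) * x; 0, 1] * !![1, 0; (ι - 1) * y, ι])) =
      4 * (1 - x * y) ^ 2 := by
    rw [tau_pm_eq_iff m1, det_mul, d1, d2]
    simp [trace_fin_two]
    grind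
  have s2 : tau (L2.pm (!![ι, (ι - 1) * x; 0, 1] * !![ι, 0; -((ι - 1) * y), 1])) =
      4 * (x * y) ^ 2 := by
    rw [tau_pm_eq_iff m2, det_mul, d1, d3]
    simp [trace_fin_two]
    grind
  by_contra hc
  rw [not_or] at hc
  have w1 : L2.pm (!![ι, (ι - 1) * x; 0, 1] * !![1, 0; (ι - 1) * y, ι]) ≠ 1 := fun e => hc.1 (by
    simpa [i0, i1] using (and_assoc.2 ((pm_eq_one_iff m1).1 e)).1)
  have w2 : L2.pm (!![ι, (ι - 1) * x; 0, 1] * !![ι, 0; -((ι - 1) * y), 1]) ≠ 1 := fun e => hc.1 (by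
    simpa [i0, i1] using (and_assoc.2 ((pm_eq_one_iff m2).1 e)).1)
  have l0 : x * y ≠ 0 := fun e => hreg _ (by rw [pm_mul n1 n2]; exact H.mul_mem a b) w1 (by
    rw [s1, e]; ring)
  have : Finite PGL(2, F) := Finite.of_surjective _ (ProjGenLinGroup.mk_surjective (n := Fin 2))
  rcases dickson_regular H hreg with ⟨z, h⟩ | ⟨g, -, ht, h⟩ | h
  · have h5 := h _ a
    have h6 := h _ b
    rcases eq_inf_or_pt z with rfl | ⟨c, rfl⟩
    · have := (pm_smul_inf_eq_inf n2).1 h6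
      simp [i1] at this
      exact l0 (by rw [this, mul_zero])
    · rw [pm_smul_pt_eq_pt n1] at h5
      rw [pm_smul_pt_eq_pt n2] at h6
      simp at h5 h6
      have e1 : c = -x := mul_left_cancel₀ i1 (by linear_combination h5)
      subst e1
      have : (ι - 1) * x * (1 - x * y) = 0 := by linear_combination h6
      simp only [mul_eq_zero, i1, false_or, sub_eq_zero] at this
      exact this.elim (fun e => l0 (by rw [e, zero_mul])) fun e => h1 e.symm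
  · have k : ∀ {x}, x ∈ H → tau x = 2 → x ∈ tor g := fun hx e => by_contra fun hn =>
      h2 (e.symm.trans (tau_eq_zero_of_mem_ntor ht (h hx) hn))
    have := (pm_mem_tor n1 n2).1 (mem_tor_of_mem_tor (ne_one_of_tau ht) (k a t1) (k b t2))
    have := congrFun (congrFun this 0) 0
    simp [i1] at this
    exact l0 (mul_eq_zero.2 this)
  · have k : ∀ {u : PGL(2, F)}, tau u = 2 → u ^ 2 ≠ 1 ∧ u ^ 3 ≠ 1 ∧ u ^ 5 ≠ 1 := fun {u} e => by
      have u1 : u ≠ 1 := ne_one_of_tau (by rw [e]; grind)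
      rw [Ne, Ne, Ne, sq, mul_self_eq_one_iff_tau u1, pow_three_eq_one_iff u1,
        pow_five_eq_one_iff u1, e]
      grind
    have k' : ∀ {u : PGL(2, F)} (hu : u ∈ H) (n : ℕ), u ^ n ≠ 1 → (⟨u, hu⟩ : H) ^ n ≠ 1 :=
      fun hu n h e => h (congrArg Subtype.val e)
    have h5 := small_four h (k' a _ (k t1).1) (k' a _ (k t1).2.1) (k' a _ (k t1).2.2)
      (k' b _ (k t2).1) (k' b _ (k t2).2.1)
    have h6 := small_four h (k' a _ (k t1).1) (k' a _ (k t1).2.1) (k' a _ (k t1).2.2)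
      (k' b' _ (k t3).1) (k' b' _ (k t3).2.1)
    simp only [Subtype.ext_iff, Subgroup.coe_pow, Subgroup.coe_mul, Subgroup.coe_one] at h5 h6
    rw [← pm_mul n1 n2, sq, mul_self_eq_one_iff_tau w1, pow_three_eq_one_iff w1, s1] at h5
    rw [← pm_mul n1 n3, sq, mul_self_eq_one_iff_tau w2, pow_three_eq_one_iff w2, s2] at h6
    have h4 := four_ne_zero_of_two h2
    simp only [mul_eq_zero (a := (4 : F)), h4, false_or, pow_eq_zero_iff two_ne_zero, l0,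
      sub_eq_zero, h1.symm] at h5 h6
    exact hc.2 (mul_left_cancel₀ h4 (by linear_combination h6 - h5))

/-- The homology with centre `v`, axis `φ` and ratio `1 + c`. -/
def hm (c : F) (v φ : Fin 4 → F) : M4 F := 1 + c • vecMulVec v φ

theorem hm_mulVec (c : F) (v φ u : Fin 4 → F) : hm c v φ *ᵥ u = u + (c * (φ ⬝ᵥ u)) • v := by
  rw [hm, add_mulVec, one_mulVec, smul_mulVec, vecMulVec_mulVec, op_smul_eq_smul, smul_smul]

theorem vecMul_hm (c : F) (v φ u : Fin 4 → F) : u ᵥ* hm c v φ = u + (c * (u ⬝ᵥ v)) • φ := by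
  rw [hm, vecMul_add, vecMul_one, vecMul_smul, vecMul_vecMulVec, smul_smul]

/-- A class of homologies of order four in a group without transvections, all centres lying in
the hyperplane `x m = 0`. -/
structure Hm (H : Subgroup (G4 F)) (ι : F) (m : Fin 4) (D : (Fin 4 → F) → (Fin 4 → F) → Prop) :
    Prop where
  two : (2 : F) ≠ 0
  ii : ι * ι = -1
  noTv : NoTv H
  one : ∀ {v φ}, D v φ → φ ⬝ᵥ v = 1
  zero : ∀ {v φ}, D v φ → v m = 0
  mem : ∀ {v φ}, D v φ → Mem H (hm (ι - 1) v φ)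
  mem' : ∀ {v φ}, D v φ → Mem H (hm (-ι - 1) v φ)
  step : ∀ {v φ w ψ}, D v φ → D w ψ → D (hm (ι - 1) v φ *ᵥ w) (ψ ᵥ* hm (-ι - 1) v φ)

variable {H : Subgroup (G4 F)} {ι : F} {m : Fin 4} {D : (Fin 4 → F) → (Fin 4 → F) → Prop}
  {v φ w ψ u χ : Fin 4 → F}

theorem tv (h : NoTv H) {X : M4 F} (hX : Mem H X) (h0 : φ ⬝ᵥ v = 0)
    (e : ∀ u, X *ᵥ u = u + (φ ⬝ᵥ u) • v) : v = 0 ∨ φ = 0 := by
  obtain ⟨g, hg, rfl⟩ := hX
  exact h v φ ⟨h0, g, hg, e⟩

theorem Hm.pair_one (h : Hm H ι m D) (a : D v φ) (b : D w ψ) (e : φ ⬝ᵥ w * ψ ⬝ᵥ v = 1) :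
    v = (ψ ⬝ᵥ v) • w ∧ φ = (φ ⬝ᵥ w) • ψ := by
  have a1 := h.one a
  have b1 := h.one b
  have hι := h.ii
  have i0 : ι ≠ 0 := fun e => by simp [e] at hι
  have i1 : ι - 1 ≠ 0 := fun e => h.two (by grind)
  have i2 : -ι - 1 ≠ 0 := fun e => h.two (by grind)
  have v0 : v ≠ 0 := fun e => by simp [e] at a1
  have p0 : ψ ≠ 0 := fun e => by simp [e] at b1
  obtain ⟨x, hx⟩ : ∃ x, φ ⬝ᵥ w = x := ⟨_, rfl⟩
  obtain ⟨y, hy⟩ : ∃ y, ψ ⬝ᵥ v = y := ⟨_, rfl⟩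
  rw [hx, hy] at e ⊢
  rcases tv h.noTv (v := (2 * ι) • (v - y • w)) (φ := φ - x • ψ)
    ((((h.mem a).mul (h.mem b)).mul (h.mem a)).mul (h.mem b))
    (by simp only [dotProduct_smul, dotProduct_sub, sub_dotProduct, smul_dotProduct, a1, b1, hx, hy,
      smul_eq_mul]; grind) (fun u => by
      simp only [← mulVec_mulVec, hm_mulVec, dotProduct_add, dotProduct_smul, sub_dotProduct,
        smul_dotProduct, a1, b1, hx, hy, smul_eq_mul]
      match_scalars <;> grind) with h1 | h1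
  · have h2 : v = y • w := by simpa [h.two, i0, sub_eq_zero] using h1
    have h3 : w = x • v := by rw [h2, smul_smul, e, one_smul]
    refine ⟨h2, sub_eq_zero.1 ((tv h.noTv (v := (ι - 1) • v) (φ := φ - x • ψ)
      ((h.mem a).mul (h.mem' b)) ?_ fun u => ?_).resolve_left (smul_ne_zero i1 v0))⟩
    · simp only [dotProduct_smul, sub_dotProduct, smul_dotProduct, a1, hy, smul_eq_mul]; grind
    · simp only [← mulVec_mulVec, hm_mulVec, dotProduct_add, dotProduct_smul, sub_dotProduct,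
        smul_dotProduct, hx, smul_eq_mul]
      rw [h3]
      match_scalars <;> grind
  · have h2 : φ = x • ψ := sub_eq_zero.1 h1
    have h3 := (tv h.noTv (v := (-ι - 1) • (w - x • v)) (φ := ψ)
      ((h.mem a).mul (h.mem' b)) ?_ fun u => ?_).resolve_right p0
    · refine ⟨?_, h2⟩
      rw [smul_eq_zero_iff_right i2, sub_eq_zero] at h3
      rw [h3, smul_smul, mul_comm, e, one_smul]
    · simp only [dotProduct_smul, dotProduct_sub, b1, hy, smul_eq_mul]; grind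
    · simp only [← mulVec_mulVec, hm_mulVec, dotProduct_add, dotProduct_smul, hx, smul_eq_mul]
      rw [h2, smul_dotProduct, smul_eq_mul]
      match_scalars <;> grind

theorem Hm.pair_ne [Finite F] (h : Hm H ι m D) (a : D v φ) (b : D w ψ)
    (e : φ ⬝ᵥ w * ψ ⬝ᵥ v ≠ 1) : (φ ⬝ᵥ w = 0 ∧ ψ ⬝ᵥ v = 0) ∨ 2 * (φ ⬝ᵥ w * ψ ⬝ᵥ v) = 1 := by
  have i0 : ι ≠ 0 := fun e => by simpa [e] using h.ii
  let V : Matrix (Fin 4) (Fin 2) F := (of ![v, w])ᵀ
  let Φ : Matrix (Fin 2) (Fin 4) F := of ![φ, ψ]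
  have hG : Φ * V = !![1, φ ⬝ᵥ w; ψ ⬝ᵥ v, 1] := by
    ext i j; fin_cases i <;> fin_cases j
    exacts [h.one a, rfl, rfl, h.one b]
  have hd : IsUnit (Φ * V).det := by
    rw [hG, det_fin_two_of, one_mul]; exact (sub_ne_zero.2 e.symm).isUnit
  obtain ⟨Ψ, hΨ⟩ : ∃ Ψ, Ψ = (Φ * V)⁻¹ * Φ := ⟨_, rfl⟩
  have h1 : Ψ * V = 1 := by rw [hΨ, Matrix.mul_assoc, nonsing_inv_mul _ hd]
  have h2 : Φ * V * Ψ = Φ := by rw [hΨ, mul_nonsing_inv_cancel_left _ _ hd]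
  have h3 : ∀ X Y : M2 F, V * X * Ψ * (V * Y * Ψ) = V * (X * Y) * Ψ := fun X Y => by
    simp only [Matrix.mul_assoc]; rw [← Matrix.mul_assoc Ψ, h1, Matrix.one_mul]
  let Θ : M2 F →* M4 F :=
    { toFun := fun X => 1 + V * (X - 1) * Ψ
      map_one' := by simp
      map_mul' := fun X Y => by
        rw [add_mul, mul_add, mul_add, h3, show X * Y - 1 = (Y - 1) + ((X - 1) + (X - 1) * (Y - 1))
          by noncomm_ring, Matrix.mul_add, Matrix.mul_add, Matrix.add_mul, Matrix.add_mul]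
        simp only [Matrix.one_mul, Matrix.mul_one, add_assoc] }
  let L := H.comap (Units.map Θ)
  have key : ∀ X : M2 F, X.det ≠ 0 → Mem H (Θ X) → L2.pm X ∈ L.map ProjGenLinGroup.mk :=
    fun X hX ⟨g, hg, e⟩ => ⟨GeneralLinearGroup.mkOfDetNeZero X hX,
      show _ ∈ H by convert hg using 1; exact Units.ext e.symm, (pm_of_ne hX).symm⟩
  have k : ∀ (X E : M2 F), X - 1 = (ι - 1) • (E * (Φ * V)) → Θ X = 1 + (ι - 1) • (V * E * Φ) :=
    fun X E e => by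
      change 1 + V * (X - 1) * Ψ = _
      rw [e, Matrix.mul_smul, Matrix.smul_mul, Matrix.mul_assoc, Matrix.mul_assoc, h2,
        Matrix.mul_assoc]
  refine two_dim h.two h.ii e (H := L.map ProjGenLinGroup.mk) (fun x hx x1 xt => ?_)
    (key _ (by simpa using i0) ?_) (key _ (by simpa using i0) ?_)
  · obtain ⟨N, n1, n2, rfl⟩ := PP.exists_nil h.two xt
    obtain ⟨g, hg, e⟩ := (D3.dl_lift n1 n2).1 hx
    have n3 : V * N * Ψ = 0 := notTv_of_noTv h.noTv ⟨_, hg, by simp [e, Θ]⟩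
      (by rw [h3, n1, Matrix.mul_zero, Matrix.zero_mul]) (by
        have := rank_add_rank_le_card_of_mul_eq_zero n1
        have := (rank_mul_le_left (V * N) Ψ).trans (rank_mul_le_right V N)
        simp only [Fintype.card_fin] at *
        omega)
    have n4 := congrArg (fun X => Ψ * X * V) n3
    simp only [Matrix.mul_assoc, h1, Matrix.mul_one, Matrix.mul_zero, Matrix.zero_mul] at n4
    rw [← Matrix.mul_assoc, h1, Matrix.one_mul] at n4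
    exact x1 (by rw [n4, add_zero, pm_one])
  · rw [k _ !![1, 0; 0, 0] (by rw [hG]; ext i j; fin_cases i <;> fin_cases j <;> simp)]
    convert h.mem a using 1
    ext i j; simp [V, Φ, mul_apply, vecMulVec_apply, hm]
  · rw [k _ !![0, 0; 0, 1] (by rw [hG]; ext i j; fin_cases i <;> fin_cases j <;> simp)]
    convert h.mem b using 1
    ext i j; simp [V, Φ, mul_apply, vecMulVec_apply, hm]

theorem Hm.pair [Finite F] (h : Hm H ι m D) (a : D v φ) (b : D w ψ) :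
    (v = (ψ ⬝ᵥ v) • w ∧ φ = (φ ⬝ᵥ w) • ψ) ∨ (φ ⬝ᵥ w = 0 ∧ ψ ⬝ᵥ v = 0) ∨
      2 * (φ ⬝ᵥ w * ψ ⬝ᵥ v) = 1 :=
  (em _).imp (h.pair_one a b) (h.pair_ne a b)

theorem num (h2 : (2 : F) ≠ 0) {a b c d : F} (ha : a = 0 ∨ a = 1) (hb : b = 0 ∨ b = 1)
    (hc : c = 0 ∨ c = 1) (hd : d = 0 ∨ d = 1) (e1 : a + c = b + d)
    (e2 : (a - c + 2) ^ 2 + (b - d) ^ 2 = 8 * a) : False := by
  have h4 := four_ne_zero_of_two h2
  rcases ha with rfl | rfl <;> rcases hb with rfl | rfl <;> rcases hc with rfl | rfl <;>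
    rcases hd with rfl | rfl <;> grind

/-- The homology `(u, χ)` acts in the plane of `(v, φ)` and `(w, ψ)`. -/
def Pl (v φ w ψ u χ : Fin 4 → F) : Prop :=
  (∃ s t : F, u = s • v + t • w) ∧ ∃ s t : F, χ = s • φ + t • ψ

theorem Pl.swap (h : Pl v φ w ψ u χ) : Pl w ψ v φ u χ :=
  let ⟨⟨s, t, e⟩, s', t', e'⟩ := h
  ⟨⟨t, s, e.trans (add_comm _ _)⟩, t', s', e'.trans (add_comm _ _)⟩

theorem Hm.triple [Finite F] (h : Hm H ι m D) (a : D v φ) (b : D w ψ) (c : D u χ)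
    (e1 : 2 * (φ ⬝ᵥ w * ψ ⬝ᵥ v) = 1) (e2 : 2 * (χ ⬝ᵥ w * ψ ⬝ᵥ u) = 1) : Pl v φ w ψ u χ := by
  by_contra hc
  have key : ∀ {s t : F}, D (u + s • w) (χ + t • ψ) →
      2 * ((χ ⬝ᵥ v + t * ψ ⬝ᵥ v) * (φ ⬝ᵥ u + s * φ ⬝ᵥ w)) = 0 ∨
        2 * ((χ ⬝ᵥ v + t * ψ ⬝ᵥ v) * (φ ⬝ᵥ u + s * φ ⬝ᵥ w)) = 1 := fun {s t} d => by
    rcases h.pair d a with ⟨k1, k2⟩ | k | k
    · exact (hc ⟨⟨_, -s, (eq_add_neg_of_add_eq k1).trans (by rw [neg_smul s w])⟩, _, -t,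
        (eq_add_neg_of_add_eq k2).trans (by rw [neg_smul t ψ])⟩).elim
    · left; rw [add_dotProduct, smul_dotProduct, smul_eq_mul] at k; rw [k.1]; ring
    · right; rwa [add_dotProduct, smul_dotProduct, dotProduct_add, dotProduct_smul] at k
  have st : ∀ {s t : F}, D (u + s • w) (χ + t • ψ) →
      D (u + (s + (ι - 1) * (ψ ⬝ᵥ u + s)) • w) (χ + (t + (-ι - 1) * (χ ⬝ᵥ w + t)) • ψ) :=
    fun {s t} d => by
      have := h.step b d
      rwa [hm_mulVec, vecMul_hm, add_dotProduct, smul_dotProduct, dotProduct_add, dotProduct_smul,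
        h.one b, smul_eq_mul, smul_eq_mul, mul_one, mul_one, add_assoc, add_assoc, ← add_smul,
        ← add_smul] at this
  have c0 : D (u + (0 : F) • w) (χ + (0 : F) • ψ) := by simpa using c
  have hι := h.ii
  refine num h.two (key c0) (key (st c0)) (key (st (st c0))) (key (st (st (st c0)))) ?_ ?_ <;>
    generalize φ ⬝ᵥ w = p at * <;> generalize ψ ⬝ᵥ v = q at * <;> generalize χ ⬝ᵥ w = r at * <;>
    generalize ψ ⬝ᵥ u = s at * <;> generalize φ ⬝ᵥ u = t at * <;> generalize χ ⬝ᵥ v = z at * <;>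
    clear key st c0 hc <;> grind

theorem Hm.plane [Finite F] (h : Hm H ι m D) (a : D v φ) (b : D w ψ) (c : D u χ)
    (e : 2 * (φ ⬝ᵥ w * ψ ⬝ᵥ v) = 1) :
    Pl v φ w ψ u χ ∨ (χ ⬝ᵥ v = 0 ∧ φ ⬝ᵥ u = 0) ∧ χ ⬝ᵥ w = 0 ∧ ψ ⬝ᵥ u = 0 := by
  rcases h.pair c b with ⟨k1, k2⟩ | k | k
  · exact Or.inl ⟨⟨0, _, by rw [zero_smul, zero_add]; exact k1⟩, 0, _, by
      rw [zero_smul, zero_add]; exact k2⟩
  · rcases h.pair c a with ⟨k1, k2⟩ | k' | k'
    · exact Or.inl ⟨⟨_, 0, k1.trans (by rw [zero_smul F w, add_zero])⟩, _, 0,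
        k2.trans (by rw [zero_smul F ψ, add_zero])⟩
    · exact Or.inr ⟨k', k⟩
    · exact Or.inl (h.triple b a c (by rw [← e]; ring) k').swap
  · exact Or.inl (h.triple a b c e k)

theorem gram {V Φ : Fin 4 → Fin 4 → F} (hV : ∀ i, V i m = 0) :
    (of fun i j => Φ i ⬝ᵥ V j).det = 0 := by
  have : (of fun i j => Φ i ⬝ᵥ V j) = of Φ * (of V)ᵀ := rfl
  rw [this, det_mul, det_eq_zero_of_row_eq_zero (A := (of V)ᵀ) m hV, mul_zero]

variable {v' φ' w' ψ' : Fin 4 → F}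

theorem Hm.pl_left [Finite F] (h : Hm H ι m D) (a : D v φ) (b : D w ψ) (a' : D v' φ')
    (b' : D w' ψ') (e : 2 * (φ ⬝ᵥ w * ψ ⬝ᵥ v) = 1) (e' : 2 * (φ' ⬝ᵥ w' * ψ' ⬝ᵥ v') = 1) :
    Pl v φ w ψ v' φ' := by
  refine (h.plane a b a' e).resolve_right fun ⟨⟨k1, k2⟩, k3, k4⟩ => ?_
  rcases h.plane a b b' e with ⟨⟨s, t, rfl⟩, -⟩ | ⟨⟨k5, k6⟩, k7, k8⟩
  · simp [k1, k3] at e'
  · have := gram (m := m) (V := ![v, w, v', w']) (Φ := ![φ, ψ, φ', ψ']) fun i => by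
      fin_cases i
      exacts [h.zero a, h.zero b, h.zero a', h.zero b']
    rw [show (of fun i j => ![φ, ψ, φ', ψ'] i ⬝ᵥ ![v, w, v', w'] j) = !![1, φ ⬝ᵥ w, 0, 0;
      ψ ⬝ᵥ v, 1, 0, 0; 0, 0, 1, φ' ⬝ᵥ w'; 0, 0, ψ' ⬝ᵥ v', 1] by
        ext i j; fin_cases i <;> fin_cases j <;>
          simp [k1, k2, k3, k4, k5, k6, k7, k8, h.one a, h.one b, h.one a', h.one b']] at this
    simp [det_succ_row_zero, Fin.sum_univ_succ, Fin.succAbove] at this
    grind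

/-- The projection to the plane of two homologies. -/
def ep (v φ w ψ : Fin 4 → F) : M4 F := (2 : F) • (vecMulVec v φ + vecMulVec w ψ -
  (φ ⬝ᵥ w) • vecMulVec v ψ - (ψ ⬝ᵥ v) • vecMulVec w φ)

theorem ep_mulVec (v φ w ψ u : Fin 4 → F) : ep v φ w ψ *ᵥ u =
    (2 * (φ ⬝ᵥ u - φ ⬝ᵥ w * ψ ⬝ᵥ u)) • v + (2 * (ψ ⬝ᵥ u - ψ ⬝ᵥ v * φ ⬝ᵥ u)) • w := by
  simp only [ep, smul_mulVec, sub_mulVec, add_mulVec, vecMulVec_mulVec, op_smul_eq_smul]
  module

theorem Hm.ep_eq [Finite F] (h : Hm H ι m D) (a : D v φ) (b : D w ψ) (a' : D v' φ')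
    (b' : D w' ψ') (e : 2 * (φ ⬝ᵥ w * ψ ⬝ᵥ v) = 1) (e' : 2 * (φ' ⬝ᵥ w' * ψ' ⬝ᵥ v') = 1) :
    ep v φ w ψ = ep v' φ' w' ψ' := by
  obtain ⟨⟨s1, t1, k1⟩, -⟩ := h.pl_left a b a' b' e e'
  obtain ⟨⟨s2, t2, k2⟩, -⟩ := h.pl_left a b b' a' e (by rw [← e']; ring)
  obtain ⟨-, s3, t3, k3⟩ := h.pl_left a' b' a b e' e
  obtain ⟨-, s4, t4, k4⟩ := h.pl_left a' b' b a e' (by rw [← e]; ring)
  have f1 : ∀ s t : F, ep v φ w ψ *ᵥ (s • v + t • w) = s • v + t • w := fun s t => by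
    simp only [ep_mulVec, dotProduct_add, dotProduct_smul, h.one a, h.one b, smul_eq_mul]
    match_scalars <;> grind
  have f2 : ∀ (s t : F) (x), (s • φ' + t • ψ') ⬝ᵥ ep v' φ' w' ψ' *ᵥ x = (s • φ' + t • ψ') ⬝ᵥ x :=
    fun s t x => by
      simp only [ep_mulVec, dotProduct_add, dotProduct_smul, add_dotProduct, smul_dotProduct,
        h.one a', h.one b', smul_eq_mul]
      grind
  refine ext_iff_mulVec.2 fun x => ?_
  have g1 : ep v φ w ψ *ᵥ ep v' φ' w' ψ' *ᵥ x = ep v' φ' w' ψ' *ᵥ x := by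
    rw [ep_mulVec v', mulVec_add, mulVec_smul, mulVec_smul, k1, k2, f1, f1]
  rw [← g1, ep_mulVec v, ep_mulVec v, k3, k4, f2, f2]

theorem sq_eq_ep (a : φ ⬝ᵥ v = 1) (b : ψ ⬝ᵥ w = 1) (e : 2 * (φ ⬝ᵥ w * ψ ⬝ᵥ v) = 1) :
    hm (-2) v φ * hm (-2) w ψ * (hm (-2) v φ * hm (-2) w ψ) = 1 - (2 : F) • ep v φ w ψ := by
  refine ext_iff_mulVec.2 fun x => ?_
  simp only [← mulVec_mulVec, hm_mulVec, dotProduct_add, dotProduct_smul, a, b, smul_eq_mul,
    sub_mulVec, one_mulVec, smul_mulVec, ep_mulVec]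
  match_scalars <;> grind

theorem ep_sq (a : φ ⬝ᵥ v = 1) (b : ψ ⬝ᵥ w = 1) (e : 2 * (φ ⬝ᵥ w * ψ ⬝ᵥ v) = 1) :
    (1 - (2 : F) • ep v φ w ψ) * (1 - (2 : F) • ep v φ w ψ) = 1 := by
  refine ext_iff_mulVec.2 fun x => ?_
  simp only [← mulVec_mulVec, dotProduct_add, dotProduct_sub, dotProduct_smul, a, b, smul_eq_mul,
    sub_mulVec, one_mulVec, smul_mulVec, ep_mulVec]
  match_scalars <;> grind

theorem ep_trace (a : φ ⬝ᵥ v = 1) (b : ψ ⬝ᵥ w = 1) (e : 2 * (φ ⬝ᵥ w * ψ ⬝ᵥ v) = 1) :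
    (1 - (2 : F) • ep v φ w ψ).trace = 0 := by
  simp only [ep, trace_sub, trace_add, trace_smul, trace_vecMulVec, trace_one, dotProduct_comm v,
    dotProduct_comm w, a, b, smul_eq_mul, Fintype.card_fin]
  grind

end IR3

end Cfsg.Agent.Cl.D4
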