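/-
Subgroups of `GL₄(F)`: diagonal 2-elements when the reflections have non-solvable centralisers.
-/
import Mathlib
import Cfsg.Agent.Cl.D4B
import Cfsg.Agent.Cl.D4IR3a
import Cfsg.Agent.Sym.Orbits

set_option autoImplicit false
set_option linter.unusedSectionVars false

namespace Cfsg.Agent.Cl.D4

open Matrix Cfsg.Geo Cfsg.Agent.Cl.Max Cfsg.Agent.Cl.Mx Subgroup
open Cfsg.Agent.Cl.D5 (MT Root TrGen Cov NoTv)
open scoped MatrixGroups commutatorElement

namespace IR3

variable {F : Type*} [Field F]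

/-- The diagonal homology. -/
def dg (i : Fin 4) (x : F) : M4 F := diagonal fun j => if j = i then x else 1

theorem dg_eq (i : Fin 4) (x : F) : dg i x = hm (x - 1) (Pi.single i 1) (Pi.single i 1) := by
  ext a b
  simp only [dg, hm, diagonal_apply, Matrix.add_apply, one_apply, Matrix.smul_apply,
    vecMulVec_apply, Pi.single_apply, smul_eq_mul]
  grind

theorem dg_mul (i : Fin 4) (x y : F) : dg i x * dg i y = dg i (x * y) := by
  rw [dg, dg, dg, diagonal_mul_diagonal]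
  congr 1; funext j; split_ifs <;> simp

theorem dg_one (i : Fin 4) : dg i (1 : F) = 1 := by simp [dg]

theorem dg_trace (i : Fin 4) (x : F) : (dg i x).trace = x + 3 := by
  rw [dg_eq, hm, trace_add, trace_smul, trace_vecMulVec, trace_one]
  simp; ring

theorem dg_comm (i j : Fin 4) (x y : F) : Commute (dg i x) (dg j y) := commute_diagonal _ _

theorem comm_dg (h2 : (2 : F) ≠ 0) {m : Fin 4} {X : M4 F} (h : Commute X (dg m (-1))) (x : F) :
    Commute X (dg m x) := by
  have : dg m x = ((1 + x) / 2) • (1 : M4 F) + ((1 - x) / 2) • dg m (-1) := by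
    rw [dg_eq, dg_eq, hm, hm]; match_scalars <;> field_simp <;> ring
  rw [this]
  exact ((Commute.one_right X).smul_right _).add_right (h.smul_right _)

theorem zero_of_comm (h2 : (2 : F) ≠ 0) {m l : Fin 4} (hl : l ≠ m) {X : M4 F}
    (h : Commute X (dg m (-1))) : X m l = 0 := by
  have := congrFun (congrFun h.eq m) l
  simp only [dg, mul_diagonal, diagonal_mul, hl, if_true, if_false] at this
  exact (mul_eq_zero.1 (show 2 * X m l = 0 by linear_combination this)).resolve_left h2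

theorem conj_hm (g : G4 F) (c : F) (v φ : Fin 4 → F) : (g : M4 F) * hm c v φ * (g⁻¹ : G4 F) =
    hm c ((g : M4 F) *ᵥ v) (φ ᵥ* ((g⁻¹ : G4 F) : M4 F)) := by
  rw [hm, hm, mul_add, add_mul, mul_one, Units.mul_inv, mul_smul_comm, smul_mul_assoc,
    mul_vecMulVec, vecMulVec_mul]

/-- The conjugates of the diagonal homology. -/
def DD (H : Subgroup (G4 F)) (l : Fin 4) (v φ : Fin 4 → F) : Prop :=
  ∃ g ∈ H, v = (g : M4 F) *ᵥ Pi.single l 1 ∧ φ = Pi.single l 1 ᵥ* ((g⁻¹ : G4 F) : M4 F)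

theorem exists_hm {H : Subgroup (G4 F)} {ι : F} {m l : Fin 4} (h2 : (2 : F) ≠ 0)
    (hι : ι * ι = -1) (hT : NoTv H) (hη : Mem H (dg l ι)) (h0 : ∀ g ∈ H, (g : M4 F) m l = 0) :
    Hm H ι m (DD H l) := by
  obtain ⟨η, hη, e⟩ := hη
  have e' : ((η⁻¹ : G4 F) : M4 F) = dg l (-ι) := Units.inv_eq_of_mul_eq_one_right (by
    rw [e, dg_mul, mul_neg, hι, neg_neg, dg_one])
  rw [dg_eq] at e e'
  refine ⟨h2, hι, hT, ?_, ?_, ?_, ?_, ?_⟩
  · rintro _ _ ⟨g, -, rfl, rfl⟩
    rw [← dotProduct_mulVec, mulVec_mulVec, Units.inv_mul]; simp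
  · rintro _ _ ⟨g, hg, rfl, -⟩
    simpa using h0 g hg
  · rintro _ _ ⟨g, hg, rfl, rfl⟩
    exact ⟨g * η * g⁻¹, H.mul_mem (H.mul_mem hg hη) (H.inv_mem hg), by
      rw [← conj_hm, ← e]; rfl⟩
  · rintro _ _ ⟨g, hg, rfl, rfl⟩
    exact ⟨g * η⁻¹ * g⁻¹, H.mul_mem (H.mul_mem hg (H.inv_mem hη)) (H.inv_mem hg), by
      rw [← conj_hm, ← e']; rfl⟩
  · rintro _ _ _ _ ⟨g, hg, rfl, rfl⟩ ⟨k, hk, rfl, rfl⟩
    refine ⟨g * η * g⁻¹ * k, H.mul_mem (H.mul_mem (H.mul_mem hg hη) (H.inv_mem hg)) hk, ?_, ?_⟩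
    · rw [← conj_hm, ← e, mulVec_mulVec]; rfl
    · rw [← conj_hm, ← e', vecMul_vecMul, _root_.mul_inv_rev, conj_inv]; rfl

/-- The centraliser of a reflection, enlarged by a homology. -/
def HH (h2 : (2 : F) ≠ 0) (P : Subgroup (G4 F)) (m : Fin 4) : Subgroup (G4 F) where
  carrier := {g | Commute (g : M4 F) (dg m (-1)) ∧ ∃ x : F, x ^ 4 = 1 ∧ Mem P (g * dg m x)}
  one_mem' := ⟨Commute.one_left _, 1, one_pow _, 1, P.one_mem, by rw [dg_one, mul_one]⟩
  mul_mem' := fun {a b} ⟨h1, x, hx, ha⟩ ⟨h3, y, hy, hb⟩ => ⟨h1.mul_left h3, x * y,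
    by rw [mul_pow, hx, hy, mul_one], by
      rw [← dg_mul, Units.val_mul, ← (comm_dg h2 h3 x).symm.mul_mul_mul_comm]; exact ha.mul hb⟩
  inv_mem' := fun {a} ⟨h1, x, hx, k, hk, e⟩ => ⟨h1.units_inv_left, x ^ 3,
    by rw [← pow_mul, mul_comm, pow_mul, hx, one_pow], k⁻¹, P.inv_mem hk,
    Units.inv_eq_of_mul_eq_one_right (by
      rw [e, (comm_dg h2 h1.units_inv_left x).symm.mul_mul_mul_comm, dg_mul, ← pow_succ', hx,
        dg_one, mul_one, Units.mul_inv])⟩

theorem noTv_HH (h2 : (2 : F) ≠ 0) {P : Subgroup (G4 F)} (h : NoTv P) (m : Fin 4) :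
    NoTv (HH h2 P m) := by
  rintro v φ ⟨h0, g, ⟨h1, x, hx, ha⟩, e⟩
  have h3 := (ha.mul ha).mul (ha.mul ha)
  have c := (comm_dg h2 h1 x).symm
  rw [c.mul_mul_mul_comm, dg_mul, ((comm_dg h2 (h1.mul_left h1) _).symm).mul_mul_mul_comm, dg_mul,
    show x * x * (x * x) = 1 by rw [← hx]; ring, dg_one, mul_one] at h3
  refine (tv h (v := (4 : F) • v) h3 (by simp [h0]) fun u => ?_).imp_left fun e =>
    (smul_eq_zero_iff_right (L2.four_ne_zero_of_two h2)).1 e
  simp only [← mulVec_mulVec, e, dotProduct_add, dotProduct_smul, h0]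
  module

variable [Finite F] {G : Type*} [Group G] {P : Subgroup (G4 F)} {π : P →* G}

theorem orderOf_two (h : Od P π) {g : P} (h1 : mat g * mat g = 1)
    (h2 : (mat g).trace * (mat g).trace ≠ 16) : orderOf (π g) = 2 := by
  have := Fact.mk Nat.prime_two
  refine orderOf_eq_prime (by rw [pow_two, ← map_mul, show g * g = 1 from mat_inj h1, map_one])
    fun e => h2 ?_
  obtain ⟨c, hc⟩ := (h.pc.eq_one_iff g).1 e
  rw [hc, smul_mul_smul_comm, mul_one] at h1
  have := smul_one_inj (h1.trans (one_smul F _).symm)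
  rw [hc, trace_smul, trace_one]
  simp
  linear_combination 16 * this

theorem zt_of (h : Od P π) {g : P} (h1 : mat g * mat g = 1) (h2 : (mat g).trace = 0) :
    ZT π (π g) := h.zt_of_trace (orderOf_two h h1 (by
  rw [h2, mul_zero, show (16 : F) = 2 ^ 4 by norm_num]; exact (pow_ne_zero _ h.two).symm)) h2

theorem sub {z : G} (hz : Group.IsSolvable (centralizer ({z} : Set G))) {K : Type*} [Group K]
    (f : K →* G) (hf : Function.Injective f) (h : ∀ x, Commute (f x) z) : Group.IsSolvable K :=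
  Group.isSolvable_of_isSolvable_injective (f := f.codRestrict _ fun x =>
    mem_centralizer_singleton_iff.2 (h x)) fun _ _ e => hf (congrArg Subtype.val e)

theorem solv (h : Od P π) (hZ : ∀ t, ZT π t → Group.IsSolvable (centralizer ({t} : Set G)))
    {m l : Fin 4} (hl : l ≠ m) {r s : P} (hr : mat r = dg m (-1)) (hs : mat s = dg l (-1))
    {ι a : F} (hι : ι * ι = -1) (ha : a ^ 4 = 1) (hη : Mem P (dg l ι * dg m a)) :
    Group.IsSolvable (centralizer ({π r} : Set G)) := by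
  classical
  have i0 : ι ≠ 0 := fun e => by simp [e] at hι
  have H := exists_hm (H := HH h.two P m) (l := l) h.two hι (noTv_HH _ h.noTv m)
    ⟨⟨dg l ι, dg l ι⁻¹, by rw [dg_mul, mul_inv_cancel₀ i0, dg_one],
      by rw [dg_mul, inv_mul_cancel₀ i0, dg_one]⟩, ⟨dg_comm _ _ _ _, a, ha, hη⟩, rfl⟩
    fun g hg => zero_of_comm h.two hl hg.1
  have rt : RT π (π r) := ⟨r, rfl, mat_inj (by rw [mat_mul, hr, dg_mul]; simp [dg_one, mat_one]), by
    rw [hr, dg, ← diagonal_one, diagonal_sub, rank_diagonal]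
    have : (-1 - 1 : F) ≠ 0 := fun e => h.two (by linear_combination -e)
    rw [Fintype.card_eq_one_iff]
    exact ⟨⟨m, by simpa using this⟩, fun ⟨j, hj⟩ => Subtype.ext (by_contra fun e => by
      simp only at e; simp [e] at hj)⟩⟩
  set M := centralizer ({π r} : Set G)
  let v : P → Fin 4 → F := fun k => mat k *ᵥ Pi.single l 1
  let φ : P → Fin 4 → F := fun k => Pi.single l 1 ᵥ* mat k⁻¹
  have hD : ∀ k : P, π k ∈ M → DD (HH h.two P m) l (v k) (φ k) := fun k hk =>
    ⟨k, ⟨by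
      rw [← hr]
      exact congrArg mat (rt.cm h (mem_centralizer_singleton_iff.1 hk).symm r k rfl rfl).symm,
      1, one_pow _, k, k.2, by rw [dg_one, mul_one]⟩, rfl, rfl⟩
  have hc : ∀ k : P, mat (k * s * k⁻¹) = hm (-2) (v k) (φ k) := fun k => by
    rw [mat_mul, mat_mul, hs, dg_eq, show (-1 - 1 : F) = -2 by norm_num]
    exact conj_hm (k : G4 F) _ _ _
  by_cases hab : ∃ a b : P, π a ∈ M ∧ π b ∈ M ∧ 2 * (φ a ⬝ᵥ v b * φ b ⬝ᵥ v a) = 1
  · obtain ⟨a, b, ha, hb, e⟩ := hab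
    have z : ∀ a b : P, π a ∈ M → π b ∈ M → 2 * (φ a ⬝ᵥ v b * φ b ⬝ᵥ v a) = 1 →
        mat (a * s * a⁻¹ * (b * s * b⁻¹) * (a * s * a⁻¹ * (b * s * b⁻¹))) =
          1 - (2 : F) • ep (v a) (φ a) (v b) (φ b) := fun a b ha hb e => by
      rw [mat_mul, mat_mul, hc, hc, sq_eq_ep (H.one (hD a ha)) (H.one (hD b hb)) e]
    refine sub (hZ _ (zt_of h (g := a * s * a⁻¹ * (b * s * b⁻¹) * (a * s * a⁻¹ * (b * s * b⁻¹)))
      (by rw [z a b ha hb e, ep_sq (H.one (hD a ha)) (H.one (hD b hb)) e])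
      (by rw [z a b ha hb e, ep_trace (H.one (hD a ha)) (H.one (hD b hb)) e]))) M.subtype
      M.subtype_injective fun ⟨x, hk⟩ => ?_
    obtain ⟨k, rfl⟩ := h.surj x
    refine Commute.map (x := k) ?_ π
    have inv : ∀ a b : P, φ (k * a) ⬝ᵥ v (k * b) = φ a ⬝ᵥ v b := fun a b => by
      simp only [v, φ, ← dotProduct_mulVec, mulVec_mulVec, ← mat_mul]
      congr 3; group
    have ka : π (k * a) ∈ M := by rw [map_mul]; exact M.mul_mem hk ha
    have kb : π (k * b) ∈ M := by rw [map_mul]; exact M.mul_mem hk hb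
    have e' : 2 * (φ (k * a) ⬝ᵥ v (k * b) * φ (k * b) ⬝ᵥ v (k * a)) = 1 := by rw [inv, inv, e]
    have := z _ _ ka kb e'
    rw [← H.ep_eq (hD a ha) (hD b hb) (hD _ ka) (hD _ kb) e e', ← z a b ha hb e] at this
    exact mul_inv_eq_iff_eq_mul.1 (Eq.trans (by group) (mat_inj this))
  · have : Finite G := h.pc.finite
    let S := (centralizer ({π s} : Set G)).subgroupOf M
    have : Group.IsSolvable S := sub (hZ _ (zt_of h (g := r * s) (by
      rw [mat_mul, hr, hs, (dg_comm _ _ _ _).mul_mul_mul_comm, dg_mul, dg_mul]; simp [dg_one])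
      (by
        rw [mat_mul, hr, hs, dg, dg, diagonal_mul_diagonal, trace_diagonal]
        fin_cases m <;> fin_cases l <;> simp [Fin.sum_univ_four] at hl ⊢)))
      (M.subtype.comp S.subtype) (M.subtype_injective.comp S.subtype_injective) fun x => by
        rw [map_mul]
        exact Commute.mul_right (mem_centralizer_singleton_iff.1 x.1.2)
          (mem_centralizer_singleton_iff.1 x.2)
    have : Group.IsSolvable (Equiv.Perm (M ⧸ S)) := Sym.isSolvable_perm_of_card_le_four (by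
      by_contra h4
      have := Fintype.ofFinite (M ⧸ S)
      obtain ⟨f⟩ := Function.Embedding.nonempty_of_card_le (α := Fin 4) (β := M ⧸ S) (by
        rw [Fintype.card_fin, ← Nat.card_eq_fintype_card]; omega)
      choose k hk using fun i => h.surj ((f i).out : M)
      have hM : ∀ i, π (k i) ∈ M := fun i => hk i ▸ (f i).out.2
      have := gram (Φ := fun i => φ (k i)) fun i => H.zero (hD _ (hM i))
      rw [show (of fun i j => φ (k i) ⬝ᵥ v (k j)) = 1 from ?_] at this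
      · simp at this
      ext i j
      by_cases e : i = j
      · subst e; simpa using H.one (hD _ (hM i))
      rw [one_apply_ne e]
      rcases H.pair (hD _ (hM i)) (hD _ (hM j)) with ⟨k1, k2⟩ | k1 | k1
      · refine (e (f.injective ?_)).elim
        have k3 : k i * s * (k i)⁻¹ = k j * s * (k j)⁻¹ := mat_inj (by
          have := H.one (hD _ (hM i))
          rw [k1, k2, smul_dotProduct, dotProduct_smul, H.one (hD _ (hM j))] at this
          rw [hc, hc, k1, k2, hm, hm, smul_vecMulVec, vecMulVec_smul, smul_smul (_ ⬝ᵥ _), mul_comm,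
            show _ * _ = (1 : F) by simpa using this, one_smul])
        rw [← (f i).out_eq, ← (f j).out_eq]
        refine QuotientGroup.eq.2 (mem_centralizer_singleton_iff.2 ?_)
        change (((f i).out : G)⁻¹ * (f j).out) * _ = _ * (((f i).out : G)⁻¹ * (f j).out)
        rw [← hk, ← hk, ← map_inv, ← map_mul, ← map_mul, ← map_mul]
        congr 1
        calc _ = (k i)⁻¹ * (k j * s * (k j)⁻¹) * k j := by group
          _ = _ := by rw [← k3]; group
      · exact k1.1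
      · exact (hab ⟨_, _, hM i, hM j, k1⟩).elim)
    exact Group.isSolvable_of_ker_le_range S.subtype (MulAction.toPermHom M (M ⧸ S)) (by
      rw [← normalCore_eq_ker, range_subtype]; exact normalCore_le S)

theorem pattern : ∀ b : Fin 4 → Bool, (∀ i j, b i = b j) ∨ ∃ m l s t : Fin 4, l ≠ m ∧ s ≠ m ∧
    t ≠ m ∧ s ≠ l ∧ t ≠ l ∧ s ≠ t ∧ b s = b t ∧ b l ≠ b s := by decide

theorem cover : ∀ m l s t : Fin 4, l ≠ m → s ≠ m → t ≠ m → s ≠ l → t ≠ l → s ≠ t →
    ∀ j, j = m ∨ j = l ∨ j = s ∨ j = t := by decide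

theorem sq_eq (h : Od P π) (hZ : ∀ t, ZT π t → Group.IsSolvable (centralizer ({t} : Set G)))
    (ρ : Fin 4 → P) (hρ : ∀ i, mat (ρ i) = dg i (-1))
    (hn : ∀ i, ¬ Group.IsSolvable (centralizer ({π (ρ i)} : Set G))) {k : P} {d : Fin 4 → F}
    (hk : mat k = diagonal d) (h4 : ∀ i j, d i ^ 4 = d j ^ 4) (i j : Fin 4) :
    d i ^ 2 = d j ^ 2 := by
  classical
  have d0 : ∀ i, d i ≠ 0 := fun i e => det_mat_ne k (by
    rw [hk, det_diagonal]; exact Finset.prod_eq_zero (Finset.mem_univ i) e)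
  have h1 : ∀ i j, d i ^ 2 = d j ^ 2 ∨ d i ^ 2 = -d j ^ 2 := fun i j =>
    sq_eq_sq_iff_eq_or_eq_neg.1 (by rw [← pow_mul, ← pow_mul]; exact h4 i j)
  have h2 : ∀ i j, decide (d i ^ 2 = d 0 ^ 2) = decide (d j ^ 2 = d 0 ^ 2) → d i ^ 2 = d j ^ 2 :=
    fun i j e => by
      rw [decide_eq_decide] at e
      by_cases c : d i ^ 2 = d 0 ^ 2
      · exact c.trans (e.1 c).symm
      · exact ((h1 i 0).resolve_left c).trans ((h1 j 0).resolve_left fun c' => c (e.2 c')).symm
  rcases pattern fun i => decide (d i ^ 2 = d 0 ^ 2) with e | ⟨m, l, s, t, n1, n2, n3, n4, n5, n6,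
    e1, e2⟩
  · exact h2 _ _ (e i j)
  have e3 := h2 _ _ e1
  have e4 : d l ^ 2 = -d s ^ 2 := (h1 l s).resolve_left fun e => e2 (by simp only [e])
  have s0 := d0 s
  refine (hn m (solv h hZ n1 (hρ m) (hρ l) (ι := d l / d s) (a := d m / d s) (by
    field_simp; exact e4) (by rw [div_pow, h4 m s, div_self (pow_ne_zero _ s0)]) ?_)).elim
  have h5 : Mem P (dg t (d t / d s)) := by
    rcases sq_eq_sq_iff_eq_or_eq_neg.1 e3.symm with e | e
    · rw [e, div_self s0, dg_one]; exact mem_mat 1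
    · rw [e, neg_div, div_self s0, ← hρ]; exact mem_mat _
  have := h.mem_smul ((mem_mat k).mul h5) (inv_ne_zero s0)
  rw [hk, dg, diagonal_mul_diagonal, ← diagonal_smul] at this
  rw [dg, dg, diagonal_mul_diagonal]
  convert this using 2
  funext j
  rcases cover m l s t n1 n2 n3 n4 n5 n6 j with rfl | rfl | rfl | rfl <;>
    simp [n1, n2, n3, n4, n5, n6, n1.symm, n3.symm, n5.symm, s0] <;> field_simp
  exact e3

end IR3

variable {F : Type*} [Field F] [Finite F] {G : Type*} [Group G] {P : Subgroup (G4 F)}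
  {π : P →* G}

/-- Diagonal 2-elements are sign changes. -/
theorem Od.claimA (h : Od P π)
    (hZ : ∀ t, ZT π t → Group.IsSolvable (centralizer ({t} : Set G))) (ρ : Fin 4 → P)
    (hρ : ∀ i, mat (ρ i) = diagonal fun j => if j = i then -1 else 1)
    (hn : ∀ i, ¬ Group.IsSolvable (centralizer ({π (ρ i)} : Set G))) {k : P} {d : Fin 4 → F}
    (hk : mat k = diagonal d) {n : ℕ} (h2 : π k ^ 2 ^ n = 1) (i j : Fin 4) :
    d i = d j ∨ d i = -d j := by
  obtain ⟨c, hc⟩ := (h.pc.eq_one_iff (k ^ 2 ^ n)).1 (by rw [map_pow, h2])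
  rw [mat_pow, hk, diagonal_pow] at hc
  have h3 : ∀ i j, d i ^ 2 ^ n = d j ^ 2 ^ n := fun i j => by
    have k : ∀ i, d i ^ 2 ^ n = c := fun i => by simpa using congrFun₂ hc i i
    rw [k, k]
  clear hc h2
  refine sq_eq_sq_iff_eq_or_eq_neg.1 ?_
  induction n generalizing k d i j with
  | zero => rw [show d i = d j by simpa using h3 i j]
  | succ n ih =>
    refine IR3.sq_eq h hZ ρ hρ hn hk (fun i j => ?_) i j
    have := ih (k := k ^ 2) (d := d ^ 2) (by rw [mat_pow, hk, diagonal_pow]) i j fun i j => by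
      simpa only [Pi.pow_apply, ← pow_mul, ← pow_succ'] using h3 i j
    simpa only [Pi.pow_apply, ← pow_mul] using this

end Cfsg.Agent.Cl.D4
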