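/-
Subgroups of `SL₄(F)`: tools for centralisers of reflections.
-/
import Mathlib
import Cfsg.Agent.Cl.D4IR3
import Cfsg.Agent.Cl.D4W

set_option autoImplicit false

namespace Cfsg.Agent.Cl.D4

open Matrix Cfsg.Geo Cfsg.Agent.Cl.Max Cfsg.Agent.Cl.Mx Subgroup
open Cfsg.Agent.Cl.D5 (MT Root TrGen Cov NoTv)
open scoped MatrixGroups commutatorElement

variable {F : Type*} [Field F] {G : Type*} [Group G] {P : Subgroup (G4 F)} {π : P →* G}

namespace IR

theorem solv_conj {r y : G} (h : Group.IsSolvable (centralizer ({y * r * y⁻¹} : Set G))) :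
    Group.IsSolvable (centralizer ({r} : Set G)) :=
  Group.isSolvable_of_isSolvable_injective
    (f := ((MulAut.conj y).toMonoidHom.comp (centralizer ({r} : Set G)).subtype).codRestrict
      (centralizer ({y * r * y⁻¹} : Set G)) fun x =>
      mem_centralizer_singleton_iff.2 (by
        have := mem_centralizer_singleton_iff.1 x.2
        change y * x * y⁻¹ * _ = _ * (y * x * y⁻¹)
        simp only [mul_assoc, inv_mul_cancel_left]
        rw [← mul_assoc (x : G), this, mul_assoc]))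
    fun a b e => Subtype.ext ((MulAut.conj y).injective (congrArg Subtype.val e))

theorem diag_of_refl {g : P} (hg : g * g = 1) (h1 : (mat g - 1).rank = 1) (hd : (mat g).IsDiag) :
    ∃ i, mat g = diagonal fun j => if j = i then -1 else 1 := by
  classical
  have e := hd.diagonal_diag.symm
  generalize (mat g).diag = d at e
  have h3 : ∀ i, d i = 1 ∨ d i = -1 := fun i => by
    have h4 := congrArg (fun X => mat X i i) hg
    simpa only [mat_mul, e, mat_one, diagonal_mul_diagonal, diagonal_apply_eq, one_apply_eq,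
      mul_self_eq_one_iff] using h4
  rw [e, ← diagonal_one, diagonal_sub, rank_diagonal, Fintype.card_eq_one_iff] at h1
  obtain ⟨⟨i, hi⟩, h2⟩ := h1
  refine ⟨i, e.trans (congrArg diagonal (funext fun j => ?_))⟩
  split_ifs with hj
  · rw [hj]; exact (h3 i).resolve_left fun e => hi (by simp [e])
  · by_contra h4
    exact hj (congrArg Subtype.val (h2 ⟨j, sub_ne_zero.2 h4⟩))

/-- A 2-element commuting with four commuting reflections has a scalar square. -/
theorem sq_one [Finite F] (h : Od P π)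
    (hZ : ∀ t, ZT π t → Group.IsSolvable (centralizer ({t} : Set G))) (ρ : Fin 4 → P)
    (h2 : ∀ i, ρ i * ρ i = 1) (h1 : ∀ i, (mat (ρ i) - 1).rank = 1) (hi : Function.Injective ρ)
    (hc : ∀ i j, Commute (ρ i) (ρ j))
    (hn : ∀ i, ¬ Group.IsSolvable (centralizer ({π (ρ i)} : Set G))) {k : P}
    (hk : ∀ i, Commute k (ρ i)) {n : ℕ} (hk2 : π k ^ 2 ^ n = 1) : π (k * k) = 1 := by
  have hB : ∀ a ∈ closure (insert k (Set.range ρ)), ∀ b ∈ closure (insert k (Set.range ρ)),
      Commute a b := fun a ha b hb => by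
    refine closure_induction₂ (p := fun a b _ _ => Commute a b) ?_ (fun _ _ => .one_left _)
      (fun _ _ => .one_right _) (fun _ _ _ _ _ _ => .mul_left) (fun _ _ _ _ _ _ => .mul_right)
      (fun _ _ _ _ => .inv_left) (fun _ _ _ _ => .inv_right) ha hb
    rintro _ _ (rfl | ⟨i, rfl⟩) (rfl | ⟨j, rfl⟩)
    exacts [.refl _, hk j, (hk i).symm, hc i j]
  obtain ⟨Q, hQ⟩ := h.exists_diag (A := (closure (insert k (Set.range ρ))).map π)
    (by rintro _ ⟨a, ha, rfl⟩ _ ⟨b, hb, rfl⟩; exact h.pc.cm_of (hB a ha b hb))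
    (n := 2 ^ (n + 1)) (by simpa using h.two) (by
      rintro _ ⟨a, ha, rfl⟩
      induction ha using closure_induction with
      | mem x hx =>
        rcases hx with rfl | ⟨i, rfl⟩
        · rw [pow_succ, pow_mul, hk2, one_pow]
        · rw [pow_succ', pow_mul, pow_two, ← map_mul, h2, map_one, one_pow]
      | one => simp
      | mul x y hx hy h1 h2 => rw [map_mul, ((hB x hx y hy).map π).mul_pow, h1, h2, one_mul]
      | inv x _ h1 => rw [map_inv, inv_pow, h1, inv_one])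
  choose τ hτ using fun i => diag_of_refl (g := cE Q P (ρ i)) (by rw [← map_mul, h2, map_one])
    (by rw [mat_cE', rank_cj_sub, h1])
    (hQ _ (mem_map_of_mem π (subset_closure (.inr ⟨i, rfl⟩))))
  have hb : Function.Bijective τ := Finite.injective_iff_bijective.1 fun i j e =>
    hi ((cE Q P).injective (mat_inj (by rw [hτ, hτ, e])))
  have hd := (hQ k (mem_map_of_mem π (subset_closure (.inl rfl)))).diagonal_diag.symm
  generalize (mat (cE Q P k)).diag = d at hd
  have key := (h.conj Q).claimA (fun t ht => hZ t (zt_conj.1 ht))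
    (fun j => cE Q P (ρ (Function.surjInv hb.2 j)))
    (fun j => by rw [hτ, Function.surjInv_eq hb.2]) (fun j => by rw [cπ_cE]; exact hn _) hd
    (n := n) (by rw [cπ_cE, hk2])
  rw [← cπ_cE Q, (h.conj Q).pc.eq_one_iff]
  refine ⟨d 0 * d 0, ?_⟩
  rw [map_mul, mat_mul, hd, diagonal_mul_diagonal, smul_one_eq_diagonal]
  exact congrArg diagonal (funext fun i => by rcases key i 0 with e | e <;> simp [e])

/-- Irreducibility of a Sylow 2-subgroup. -/
theorem irr [Finite F] (h : Od P π) {r : G} (hr : RT π r) {S : Subgroup G} (hS : ¬ 2 ∣ S.index)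
    {x : G} (hx : x * x = 1) (hc : ∀ y ∈ S, Cm π x y) : x = 1 := by
  obtain ⟨Q, g, e, g2, hg⟩ := hr.exists_diag' h
  obtain ⟨a, ha, ha1, ha2⟩ := h.exists_det r
  obtain ⟨c, hc'⟩ := (h.pc.eq_iff a g).1 (ha.trans e.symm)
  have d1 : (mat g).det = -1 := by
    have := congrArg det hg
    rw [cj_apply, det_units_conj, det_diagonal, Fin.prod_univ_four] at this
    simpa using this
  rw [hc', det_smul, d1, Fintype.card_fin] at ha2
  obtain ⟨u, rfl, u2⟩ := h.exists_lift (n := 2) (x := x) (by rw [pow_two, hx])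
  have u3 : mat u * mat u = 1 := by rw [← mat_mul, ← pow_two, u2, mat_one]
  rw [h.pc.eq_one_iff]
  rcases h.ctx.irr_sylow (ι := c * c) (by linear_combination -ha2) h.two
    ⟨a * a, mul_mem ha1 ha1, by
      change mat a * mat a = _
      rw [hc', smul_mul_smul_comm, ← mat_mul, g2, mat_one]⟩ hS
    (LinearMap.range (toLin' (mat u - 1))) (by
      rintro b hb _ ⟨v, rfl⟩
      have := congrArg mat (hc _ hb u (inclusion (commutator_le_self P) b) rfl rfl)
      refine ⟨mat b *ᵥ v, ?_⟩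
      simp only [toLin'_apply, mulVec_mulVec, sub_mul, mul_sub, one_mul, mul_one]
      exact congrArg (fun X => (X - mat b) *ᵥ v) this) with h0 | h0
  · rw [LinearMap.range_eq_bot, map_eq_zero_iff _ toLin'.injective, sub_eq_zero] at h0
    exact ⟨1, by rw [h0, one_smul]⟩
  · refine ⟨-1, ext_of_mulVec_single fun i => ?_⟩
    obtain ⟨v, hv⟩ := LinearMap.range_eq_top.1 h0 (Pi.single i 1)
    rw [← hv, toLin'_apply, mulVec_mulVec, mulVec_mulVec, mul_sub, u3]
    simp

/-- Transfer against an invariant character of the subgroup of index two. -/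
theorem transfer [Finite F] (h : Od P π) {S : Subgroup G} (hS : ¬ 2 ∣ S.index) {r : G}
    (hr : RT π r) (rS : r ∈ S) {T : Subgroup P} {s : P}
    (hs' : ∀ a, π a ∈ S → a ∈ T ∨ s⁻¹ * a ∈ T) (hn : ∀ a ∈ T, s⁻¹ * a * s ∈ T) (ψ : P → F)
    (h0 : ∀ a ∈ T, ψ a ≠ 0) (hm : ∀ a ∈ T, ∀ b ∈ T, ψ (a * b) = ψ a * ψ b)
    (h1 : ∀ a, π a = 1 → ψ a = 1) (hc : ∀ a ∈ T, ψ (s⁻¹ * a * s) = ψ a)
    (hX : ∀ g : P, π g ∈ S → IsConj r (π g) → g * g = 1 → (mat g - 1).rank = 1 →
      g ∈ T ∧ ψ g = -1) : False := by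
  have := h.pc.finite
  have hi : ∀ a ∈ T, ψ a⁻¹ = (ψ a)⁻¹ := fun a ha => eq_inv_of_mul_eq_one_left (by
    rw [← hm _ (inv_mem ha) _ ha, inv_mul_cancel, h1 _ (map_one π)])
  have hy : ∀ y, π y ∈ S → ∀ a ∈ T, y⁻¹ * a * y ∈ T ∧ ψ (y⁻¹ * a * y) = ψ a := by
    have k1 : ∀ y ∈ T, ∀ a ∈ T, y⁻¹ * a * y ∈ T ∧ ψ (y⁻¹ * a * y) = ψ a := fun y hy a ha =>
      ⟨mul_mem (mul_mem (inv_mem hy) ha) hy, by
        rw [hm _ (mul_mem (inv_mem hy) ha) _ hy, hm _ (inv_mem hy) _ ha, hi _ hy]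
        field_simp [h0 y hy]⟩
    intro y hy a ha
    rcases hs' y hy with h3 | h3
    · exact k1 y h3 a ha
    · have := k1 _ h3 _ (hn a ha)
      rwa [hc a ha, show (s⁻¹ * y)⁻¹ * (s⁻¹ * a * s) * (s⁻¹ * y) =
        (y⁻¹ * s * s⁻¹) * a * (s * s⁻¹ * y) by group, mul_inv_cancel_right, mul_inv_cancel,
        one_mul] at this
  let N : Subgroup S :=
    { carrier := {x | ∃ a ∈ T, π a = x ∧ ψ a = 1}
      one_mem' := ⟨1, one_mem _, map_one π, h1 _ (map_one π)⟩
      mul_mem' := by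
        rintro x y ⟨a, ha, e, e'⟩ ⟨b, hb, f, f'⟩
        exact ⟨a * b, mul_mem ha hb, by rw [map_mul, e, f]; rfl, by rw [hm a ha b hb, e', f', one_mul]⟩
      inv_mem' := by
        rintro x ⟨a, ha, e, e'⟩
        exact ⟨a⁻¹, inv_mem ha, by rw [map_inv, e]; rfl, by rw [hi a ha, e', inv_one]⟩ }
  have hN : N.Normal := ⟨by
    rintro x ⟨a, ha, e, e'⟩ y
    obtain ⟨b, hb⟩ := h.surj y⁻¹
    have := hy b (by rw [hb]; exact inv_mem y.2) a ha
    exact ⟨_, this.1, by simp [hb, e], this.2.trans e'⟩⟩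
  have hcm : IsMulCommutative (S ⧸ N) := Normal.quotient_commutative_iff_commutator_le.2 (by
    rw [commutator_def, Subgroup.commutator_le]
    have k1 : ∀ a ∈ T, ∀ y, π y ∈ S → ∀ u v : S, π a = u → π y = v → ⁅u, v⁆ ∈ N :=
      fun a ha y hy' u v e f => by
        have := hy y⁻¹ (by rw [map_inv]; exact inv_mem hy') _ (inv_mem ha)
        refine ⟨_, mul_mem ha this.1, by simp [e, f, commutatorElement_def, mul_assoc], ?_⟩
        rw [hm _ ha _ this.1, this.2, hi a ha, mul_inv_cancel₀ (h0 a ha)]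
    rintro u - v -
    obtain ⟨a, ha⟩ := h.surj u
    obtain ⟨b, hb⟩ := h.surj v
    have ha' : π a ∈ S := ha ▸ u.2
    have hb' : π b ∈ S := hb ▸ v.2
    rcases hs' a ha' with h3 | h3
    · exact k1 a h3 b hb' u v ha hb
    rcases hs' b hb' with h4 | h4
    · rw [← commutatorElement_inv]
      exact inv_mem (k1 b h4 a ha' v u hb ha)
    · have h5 : a⁻¹ * b ∈ T := by simpa [mul_assoc] using mul_mem (inv_mem h3) h4
      have := hN.conj_mem _ (inv_mem (k1 _ h5 a ha' (u⁻¹ * v) u (by simp [ha, hb]) ha)) u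
      rwa [show u * ⁅u⁻¹ * v, u⁆⁻¹ * u⁻¹ = ⁅u, v⁆ by simp only [commutatorElement_def]; group]
        at this)
  have r2 : r * r = 1 := by rw [← pow_two, ← hr.orderOf h, pow_orderOf_eq_one]
  have kx : ∀ x ∈ S, IsConj r x → ∃ g ∈ T, π g = x ∧ ψ g = -1 := fun x hx e => by
    obtain ⟨y, rfl⟩ := isConj_iff.1 e
    obtain ⟨g, e1, e2, e3⟩ := hr.conj h.pc y
    have := hX g (e1 ▸ hx) (e1 ▸ e) e2 e3
    exact ⟨g, this.1, e1, this.2⟩
  obtain ⟨g, hg, e1, e2⟩ := kx r rS (IsConj.refl r)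
  let _ : CommGroup (S ⧸ N) := { (inferInstance : Group (S ⧸ N)) with mul_comm := hcm.1.1 }
  have := transfer_const (commutator_top_of_simple h.simple h.nonab) hS (QuotientGroup.mk' N)
    (r := ⟨r, rS⟩) (Subtype.ext r2) fun x hx => by
      obtain ⟨k, hk, f1, f2⟩ := kx x x.2 hx
      exact QuotientGroup.eq.2 ⟨k⁻¹ * g, mul_mem (inv_mem hk) hg, by simp [f1, e1], by
        rw [hm _ (inv_mem hk) _ hg, hi k hk, f2, e2]; simp⟩
  obtain ⟨a, ha, f1, f2⟩ := (QuotientGroup.eq_one_iff _).1 this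
  have f3 := h1 (a⁻¹ * g) (by simp [f1, e1])
  rw [hm _ (inv_mem ha) _ hg, hi a ha, f2, e2] at f3
  rw [inv_one] at f3
  exact h.two (by linear_combination -f3)

/-! ### Blocks -/

/-- The upper left block. -/
def b1 (X : M4 F) : Matrix (Fin 2) (Fin 2) F := !![X 0 0, X 0 1; X 1 0, X 1 1]
/-- The upper right block. -/
def c1 (X : M4 F) : Matrix (Fin 2) (Fin 2) F := !![X 0 2, X 0 3; X 1 2, X 1 3]
/-- The lower left block. -/
def c2 (X : M4 F) : Matrix (Fin 2) (Fin 2) F := !![X 2 0, X 2 1; X 3 0, X 3 1]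
/-- The lower right block. -/
def b2 (X : M4 F) : Matrix (Fin 2) (Fin 2) F := !![X 2 2, X 2 3; X 3 2, X 3 3]

theorem b1_mul (X Y : M4 F) : b1 (X * Y) = b1 X * b1 Y + c1 X * c2 Y := by
  simp [b1, c1, c2, mul_apply, Fin.sum_univ_four, add_assoc]

theorem c1_mul (X Y : M4 F) : c1 (X * Y) = b1 X * c1 Y + c1 X * b2 Y := by
  simp [b1, c1, b2, mul_apply, Fin.sum_univ_four, add_assoc]

theorem c2_mul (X Y : M4 F) : c2 (X * Y) = c2 X * b1 Y + b2 X * c2 Y := by
  simp [b1, c2, b2, mul_apply, Fin.sum_univ_four, add_assoc]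

theorem b2_mul (X Y : M4 F) : b2 (X * Y) = c2 X * c1 Y + b2 X * b2 Y := by
  simp [c1, c2, b2, mul_apply, Fin.sum_univ_four, add_assoc]

omit [Field F] in
theorem blk_ext {X Y : M4 F} (h1 : b1 X = b1 Y) (h2 : c1 X = c1 Y) (h3 : c2 X = c2 Y)
    (h4 : b2 X = b2 Y) : X = Y := by
  simp only [b1, c1, c2, b2, EmbeddingLike.apply_eq_iff_eq, vecCons_inj, and_true] at h1 h2 h3 h4
  ext i j
  fin_cases i <;> fin_cases j <;> simp [h1, h2, h3, h4]

theorem b1_smul_one (c : F) : b1 (c • (1 : M4 F)) = c • 1 := by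
  ext i j; fin_cases i <;> fin_cases j <;> simp [b1]

theorem b2_one : b2 (1 : M4 F) = 1 := by
  ext i j; fin_cases i <;> fin_cases j <;> simp [b2]

theorem bd_iff (h2 : (2 : F) ≠ 0) {X : M4 F} :
    diagonal ![1, 1, -1, -1] * X = X * diagonal ![1, 1, -1, -1] ↔ c1 X = 0 ∧ c2 X = 0 := by
  have k : ∀ x : F, x = -x ↔ x = 0 := fun x => by grind
  have k' : ∀ x : F, -x = x ↔ x = 0 := fun x => by grind
  simp [← ext_iff, Fin.forall_fin_succ, diagonal_mul, mul_diagonal, c1, c2, k, k']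
  tauto

theorem ad_of (h2 : (2 : F) ≠ 0) {X : M4 F}
    (h : diagonal ![1, 1, -1, -1] * X = -(X * diagonal ![1, 1, -1, -1])) : b1 X = 0 ∧ b2 X = 0 := by
  have k : ∀ x : F, x = -x ↔ x = 0 := fun x => by grind
  have k' : ∀ x : F, -x = x ↔ x = 0 := fun x => by grind
  simp [← ext_iff, Fin.forall_fin_succ, diagonal_mul, mul_diagonal, b1, b2, k, k'] at h ⊢
  tauto

theorem refl_blk {X : M4 F} (h2 : X * X = 1) (h1 : (X - 1).rank = 1) (e1 : c1 X = 0)
    (e2 : c2 X = 0) : (b2 X = 1 ∧ (b1 X).trace = 0 ∧ (b1 X).det = -1) ∨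
      (b1 X = 1 ∧ (b2 X).trace = 0 ∧ (b2 X).det = -1) := by
  obtain ⟨v, φ, e⟩ := exists_vec_of_rank h1.le
  have e3 : ∀ i j, X i j = (1 : M4 F) i j + φ j * v i := fun i j => by
    have := congrFun (e (Pi.single j 1)) i
    simp only [mulVec_single_one, col_apply, Matrix.sub_apply, dotProduct_single, mul_one,
      Pi.smul_apply, smul_eq_mul] at this
    linear_combination this
  have e4 : φ ⬝ᵥ v = -2 := by
    by_contra h0
    have : X - 1 = 0 := ext_of_mulVec_single fun i => by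
      have h3 : (X - 1) *ᵥ ((X - 1) *ᵥ Pi.single i 1) = (-2 : F) • ((X - 1) *ᵥ Pi.single i 1) := by
        rw [mulVec_mulVec, ← smul_mulVec, show (X - 1) * (X - 1) = (-2 : F) • (X - 1) by
          rw [sub_mul, mul_sub, mul_sub, h2, mul_one, one_mul, one_mul]; module]
      rw [e, e, dotProduct_smul, smul_eq_mul, mul_comm, mul_smul] at h3
      rw [zero_mulVec, e]
      by_contra h4
      exact h0 (smul_left_injective F h4 h3)
    rw [this, rank_zero] at h1
    exact zero_ne_one h1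
  simp only [dotProduct, Fin.sum_univ_four] at e4
  simp [← ext_iff, Fin.forall_fin_succ, c1, c2, b1, b2, e3, det_fin_two] at e1 e2 ⊢
  by_cases h0 : v 0 = 0 ∧ v 1 = 0
  · right; grind
  · have h3 : φ 2 = 0 ∧ φ 3 = 0 := by tauto
    left; grind

theorem ch2 (A : Matrix (Fin 2) (Fin 2) F) : A * A = A.trace • A - A.det • 1 := by
  ext i j
  fin_cases i <;> fin_cases j <;> simp [mul_apply, det_fin_two, trace_fin_two] <;> ring

theorem anti2 {A B : Matrix (Fin 2) (Fin 2) F} (hA : A.trace = 0) (hB : B.trace = 0) :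
    A * B + B * A = (A * B).trace • 1 := by
  rw [trace_fin_two] at hA hB
  ext i j
  fin_cases i <;> fin_cases j <;> simp [mul_apply, trace_fin_two] <;> grind

end IR

end Cfsg.Agent.Cl.D4
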