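/-
Subgroups of `SL₄(F)`: the groups `A₈`, `A₉`, `M₁₁`, `M₂₂`, `M₂₃`.
-/
import Mathlib
import Cfsg.Agent.Cl.D4W
import Cfsg.Agent.Cl.D5LBa
import Cfsg.Agent.Cl.LinearIsoA8

set_option autoImplicit false

namespace Cfsg.Agent.Cl.D4

open Matrix Cfsg.Geo Cfsg.Agent.Cl.Max Cfsg.Agent.Cl.Mx Subgroup
open Cfsg.Agent.Cl.D5 (MT Root TrGen Cov NoTv)
open scoped MatrixGroups commutatorElement

variable {F : Type*} [Field F] [Finite F] {G : Type*} [Group G] {P : Subgroup (G4 F)}
  {π : P →* G}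

namespace KA

/-- `a` and `y` generate a Frobenius group of order `56`. -/
def T7 {H : Type*} [Group H] (a y : H) : Prop :=
  a * a = 1 ∧ a ≠ 1 ∧ y ^ 7 = 1 ∧
    ∀ k < 7, k ≠ 0 → ∃ m < 7, a * (y ^ k * a * y ^ (7 - k)) = y ^ m * a * y ^ (7 - m)

theorem not_t7 (h : PC P π) (h2 : (2 : F) ≠ 0) {a y : G} : ¬ T7 a y := by
  rintro ⟨a2, a1, y7, hc⟩
  have := h.finite
  let c : ℕ → G := fun n => y ^ n * a * (y ^ n)⁻¹
  have c1 : ∀ n, c n ≠ 1 := fun n e => a1 (by simpa [c] using e)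
  have cadd : ∀ m n, y ^ m * c n * (y ^ m)⁻¹ = c (m + n) := fun m n => by
    simp only [c, pow_add]; group
  have cmod : ∀ n, c (n % 7) = c n := fun n => by simp only [c, ← pow_eq_pow_mod n y7]
  have ck : ∀ k < 7, y ^ k * a * y ^ (7 - k) = c k := fun k hk => by
    rw [eq_inv_of_mul_eq_one_right (show y ^ k * y ^ (7 - k) = 1 by
      rw [← pow_add, Nat.add_sub_cancel' hk.le, y7])]
  have cc : ∀ m n, c m * c n = y ^ m * (a * c ((n + 6 * m) % 7)) * (y ^ m)⁻¹ := fun m n => by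
    rw [← cmod n, show n % 7 = (m + (n + 6 * m) % 7) % 7 by omega, cmod, ← cadd]
    simp only [c]; group
  have c0 : c 0 = a := by simp [c]
  have csq : ∀ n, c n * c n = 1 := fun n => by
    rw [cc, show (n + 6 * n) % 7 = 0 by omega, c0, a2]; simp
  have cne : ∀ m n, (n + 6 * m) % 7 ≠ 0 → ∃ k, c m * c n = c k := fun m n e => by
    obtain ⟨k, hk, e'⟩ := hc _ (Nat.mod_lt _ (by norm_num)) e
    rw [ck _ (Nat.mod_lt _ (by norm_num)), ck k hk] at e'
    exact ⟨m + k, by rw [cc, e', cadd]⟩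
  let E : Subgroup G :=
    { carrier := {x | x = 1 ∨ ∃ n, x = c n}
      one_mem' := .inl rfl
      mul_mem' := by
        rintro _ _ (rfl | ⟨m, rfl⟩) (rfl | ⟨n, rfl⟩)
        · exact .inl (one_mul 1)
        · exact .inr ⟨n, one_mul _⟩
        · exact .inr ⟨m, mul_one _⟩
        · by_cases e : (n + 6 * m) % 7 = 0
          · exact .inl (by rw [cc, e, c0, a2]; simp)
          · exact .inr (cne m n e)
      inv_mem' := by
        rintro _ (rfl | ⟨n, rfl⟩)
        · exact .inl inv_one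
        · exact .inr ⟨n, inv_eq_of_mul_eq_one_right (csq n)⟩ }
  refine h.not_regular h2 (E := E) (y := y) ?_ ?_ ?_ ?_
  · rintro _ (rfl | ⟨n, rfl⟩)
    exacts [one_mul 1, csq n]
  · let f : Option (Fin 7) → E := fun o => o.elim 1 fun n => ⟨c n, .inr ⟨n, rfl⟩⟩
    have hf : Function.Injective f := by
      rintro (_ | m) (_ | n) e
      · rfl
      · exact (c1 n (congrArg Subtype.val e).symm).elim
      · exact (c1 m (congrArg Subtype.val e)).elim
      · by_contra hne
        obtain ⟨k, hk⟩ := cne m n fun e' => hne (congrArg some (Fin.ext (by omega)))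
        rw [show c m = c n from congrArg Subtype.val e, csq] at hk
        exact c1 k hk.symm
    simpa using Nat.card_le_card_of_injective f hf
  · refine mem_normalizer_fintype ?_
    rintro _ (rfl | ⟨n, rfl⟩)
    · exact .inl (by simp)
    · exact .inr ⟨1 + n, by rw [← cadd, pow_one]⟩
  · rintro _ (rfl | ⟨m, rfl⟩) _ (rfl | ⟨n, rfl⟩) h1 h1'
    · exact (h1 rfl).elim
    · exact (h1 rfl).elim
    · exact (h1' rfl).elim
    · exact ⟨n + 6 * m, by rw [cadd, ← cmod, ← cmod n]; congr 1; omega⟩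

theorem not_t7' (h : PC P π) (h2 : (2 : F) ≠ 0) {H : Type*} [Group H] {S : Subgroup H}
    (e : G ≃* S) {a y : H} (ha : a ∈ S) (hy : y ∈ S) : ¬ T7 a y := by
  rintro ⟨a2, a1, y7, hc⟩
  refine not_t7 (h.comp e) h2 (a := ⟨a, ha⟩) (y := ⟨y, hy⟩) ⟨Subtype.ext a2,
    fun e => a1 (congrArg Subtype.val e), Subtype.ext y7, fun k hk h0 => ?_⟩
  obtain ⟨m, hm, e⟩ := hc k hk h0
  exact ⟨m, hm, Subtype.ext e⟩

open Cfsg.Agent.Spor Cfsg.Spor in
theorem exists_t7 : ∃ a ∈ M22, ∃ y ∈ M22, T7 a y := by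
  have mem : ∀ {c : ℕ}, MB.inM24 c = true ∧ MB.ap c (MB.ix none) = MB.ix none ∧
      MB.ap c (MB.ix (some 0)) = MB.ix (some 0) → MB.toPerm c ∈ M22 := fun h =>
    ⟨⟨MB.toPerm_mem h.1, MB.ix_injective (by
      rw [Equiv.Perm.smul_def, ← MB.ap_code_ix, MB.code_toPerm' h.1]; exact h.2.1)⟩,
      MB.ix_injective (by
        rw [Equiv.Perm.smul_def, ← MB.ap_code_ix, MB.code_toPerm' h.1]; exact h.2.2)⟩
  have ea := MB.code_toPerm (c := 972486218560885713323351588958472320) (by decide +kernel)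
  have ey := MB.code_toPerm (c := 976910108503689066739951958509405536) (by decide +kernel)
  refine ⟨_, mem (c := 972486218560885713323351588958472320) (by decide +kernel), _,
    mem (c := 976910108503689066739951958509405536) (by decide +kernel), ?_⟩
  simp only [T7, Ne, ← MB.code_injective.eq_iff, MB.code_mul, MB.code_pow, MB.code_one, ea, ey]
  decide +kernel

open Equiv Equiv.Perm

theorem types8 (m : Multiset ℕ) (h2 : ∀ x ∈ m, 2 ≤ x ∧ x % 2 = 1) (hs : m.sum ≤ 8) :
    m = 0 ∨ m = {3} ∨ m = {5} ∨ m = {7} ∨ m = {3, 3} ∨ m = {3, 5} := by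
  have hc : m.card • 3 ≤ m.sum := Multiset.card_nsmul_le_sum fun x hx => by
    have := h2 x hx; omega
  rw [smul_eq_mul] at hc
  have : m.card = 0 ∨ m.card = 1 ∨ m.card = 2 := by omega
  rcases this with h | h | h
  · exact Or.inl (Multiset.card_eq_zero.1 h)
  · obtain ⟨a, rfl⟩ := Multiset.card_eq_one.1 h
    obtain ⟨ha, ha'⟩ := h2 a (by simp)
    simp only [Multiset.sum_singleton] at hs
    revert ha'
    interval_cases a <;> decide
  · obtain ⟨a, b, rfl⟩ := Multiset.card_eq_two.1 h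
    obtain ⟨ha, ha'⟩ := h2 a (by simp)
    obtain ⟨hb, hb'⟩ := h2 b (by simp)
    have hs' : a + b ≤ 8 := by simpa using hs
    have : a ≤ 6 := by omega
    have : b ≤ 6 := by omega
    revert ha' hb' hs'
    interval_cases a <;> interval_cases b <;> decide

/-- The permutation is conjugate to its square by an even permutation. -/
def Q8 (σ : Perm (Fin 8)) : Prop := ∃ h : Perm (Fin 8), sign h = 1 ∧ h * σ * h⁻¹ = σ ^ 2

theorem Q8.of_type {ρ σ : Perm (Fin 8)} (h : Q8 ρ) (e : ρ.cycleType = σ.cycleType) : Q8 σ := by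
  obtain ⟨c, rfl⟩ := isConj_iff.1 (isConj_iff_cycleType_eq.2 e)
  obtain ⟨h, h2, h3⟩ := h
  exact ⟨c * h * c⁻¹, by rw [map_mul, map_mul, h2, mul_one, ← map_mul, mul_inv_cancel, map_one],
    by rw [conj_pow, ← h3]; group⟩

theorem q8 {σ : Perm (Fin 8)} (h : Odd (orderOf σ)) : Q8 σ := by
  rcases types8 _ (fun _ hx => ⟨two_le_of_mem_cycleType hx,
    Nat.odd_iff.1 (h.of_dvd_nat (dvd_of_mem_cycleType hx))⟩)
    (by simpa using σ.sum_cycleType_le) with h | h | h | h | h | h
  · exact Q8.of_type (ρ := 1) ⟨1, by simp, by simp⟩ (by rw [h, cycleType_one])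
  · exact Q8.of_type (ρ := c[0, 1, 2]) ⟨swap 1 2 * swap 6 7, by simp, by decide +kernel⟩
      (by rw [h]; decide +kernel)
  · exact Q8.of_type (ρ := c[0, 1, 2, 3, 4]) ⟨c[1, 2, 4, 3] * swap 6 7, by decide +kernel,
      by decide +kernel⟩ (by rw [h]; decide +kernel)
  · exact Q8.of_type (ρ := c[0, 1, 2, 3, 4, 5, 6]) ⟨c[1, 2, 4] * c[3, 6, 5], by decide +kernel,
      by decide +kernel⟩ (by rw [h]; decide +kernel)
  · exact Q8.of_type (ρ := c[0, 1, 2] * c[3, 4, 5]) ⟨swap 1 2 * swap 4 5, by simp,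
      by decide +kernel⟩ (by rw [h]; decide +kernel)
  · exact Q8.of_type (ρ := c[0, 1, 2] * c[3, 4, 5, 6, 7]) ⟨swap 1 2 * c[4, 5, 7, 6],
      by decide +kernel, by decide +kernel⟩ (by rw [h]; decide +kernel)

end KA

open KA Equiv Equiv.Perm

theorem Od.a8 (h : Od P π) : ¬ IsoA G 8 := fun ⟨e⟩ =>
  not_t7' h.pc h.two e (a := swap 0 1 * swap 2 3 * (swap 4 5 * swap 6 7))
    (y := c[1, 2, 4, 3, 6, 7, 5]) (mem_alternatingGroup.2 (by decide +kernel))
    (mem_alternatingGroup.2 (by decide +kernel)) (by unfold T7; decide +kernel)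

theorem Ev.a8 (h : Ev P π) (ht : TrGen P) (e : IsoA G 8) : P = specialLinear (Fin 4) F := by
  obtain ⟨e⟩ := e
  have h' := h.comp e
  have := Fintype.ofFinite F
  have := CharTwo.of_one_ne_zero_of_two_eq_zero (R := F) one_ne_zero h.two
  have hi := injective_of_two h'.cov h.two
  have hF : Nat.card F = 2 := card_eq_of_fix 2 ht fun a => by
    obtain ⟨k, hk⟩ := GT.Tr.exists_pow_coprime_orderOf (p := 2) a
    set b := a ^ 2 ^ k with hb
    have ho : Odd (orderOf b) := Nat.coprime_two_right.1 hk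
    obtain ⟨s, h1, h2⟩ := q8 (σ := ((e : G →* alternatingGroup (Fin 8)).comp π b).1) (by
      rwa [orderOf_coe, orderOf_injective _ hi])
    have h3 := trace_eq_of_isConj (isConj_lift h'.cov (n := orderOf b) (.inl ho) (a := b)
      (b := b ^ 2) (pow_orderOf_eq_one b) (by rw [← pow_mul, mul_comm, pow_mul]; simp)
      (isConj_iff.2 ⟨⟨s, mem_alternatingGroup.2 h1⟩, Subtype.ext (by rw [map_pow _ b 2]; exact h2)⟩))
    rw [← trace_pow_char 2, hb, ← trace_pow_char_pow, ← pow_mul, mul_comm, pow_mul] at h3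
    exact (iterateFrobenius F 2 k).injective h3.symm
  obtain ⟨e'⟩ := sl4_two_equiv_alt hF
  refine eq_of_le_of_card_ge h.cov.sl (le_of_eq ?_)
  rw [Nat.card_congr (Equiv.ofBijective _ ⟨hi, h'.cov.surj⟩), ← Nat.card_congr e'.toEquiv]
  exact Nat.card_congr (slEquivKer (Fin 4) F).toEquiv.symm

theorem PC.a9 (h : PC P π) : ¬ IsoA G 9 := fun ⟨e⟩ => by
  by_cases h2 : (2 : F) = 0
  · have := (h.comp e).pow_comm (n := 9) (k := 2)
      (x := ⟨c[0, 1, 2, 3, 4, 5, 6, 7, 8], mem_alternatingGroup.2 (by decide +kernel)⟩)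
      (y := ⟨c[1, 2, 4, 8, 7, 5] * swap 3 6, mem_alternatingGroup.2 (by decide +kernel)⟩)
      (fun e => one_ne_zero (α := F) (by push_cast at e; linear_combination e - 4 * h2))
      (Subtype.ext (by decide +kernel)) (Subtype.ext (by decide +kernel))
    simp only [Commute, SemiconjBy, Subtype.ext_iff] at this
    exact absurd this (by decide +kernel)
  · exact not_t7' h h2 e (a := swap 0 1 * swap 2 3 * (swap 4 5 * swap 6 7))
      (y := c[1, 2, 4, 3, 6, 7, 5]) (mem_alternatingGroup.2 (by decide +kernel))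
      (mem_alternatingGroup.2 (by decide +kernel)) (by unfold T7; decide +kernel)

theorem Od.m11 (h : Od P π) : ¬ IsM11 G := fun hM => by
  have := h.pc.finite
  by_cases h3 : (3 : F) = 0
  · obtain ⟨⟨x, hx⟩, -⟩ := D3.m11_four hM
    obtain ⟨y, hy⟩ := isConj_iff.1 (D5.LB.cube_of_four (.inr rfl) hx)
    have hn : ∀ n, y ^ n * x * (y ^ n)⁻¹ = x ^ 3 ^ n := fun n => by
      induction n with
      | zero => simp
      | succ n ih => rw [pow_succ' y, pow_succ' 3, pow_mul, ← hy, conj_pow, ← ih]; group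
    have key : ∀ n, Commute (y ^ n) x → 1 ≡ 3 ^ n [MOD 11] := fun n e => by
      rw [← hx.1, ← pow_eq_pow_iff_modEq, ← hn, e.eq, mul_inv_cancel_right, pow_one]
    rcases h.pc.pow_comm (n := 11) (fun e => one_ne_zero (α := F) (by
      push_cast at e; linear_combination 4 * h3 - e)) (hx.1 ▸ pow_orderOf_eq_one x) hy with e | e
    · exact absurd (key _ e) (by decide)
    · exact absurd (key _ e) (by decide)
  · obtain ⟨a, b, g, a3, b3, ab, ga, gb, a1⟩ := D5.LB.m11_nine hM
    have hc : ∀ x ∈ closure {a, b}, ∀ y ∈ closure {a, b}, Commute x y := fun x hx y hy =>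
      congrArg Subtype.val ((isMulCommutative_closure (k := {a, b}) (by
        rintro _ (rfl | rfl) _ (rfl | rfl) <;> simp [ab])).is_comm.comm ⟨x, hx⟩ ⟨y, hy⟩)
    have ha : a ∈ closure {a, b} := subset_closure (by simp)
    have hb : b ∈ closure {a, b} := subset_closure (by simp)
    have h1 : ∀ x ∈ closure {a, b}, x ^ 3 = 1 := fun x hx => by
      induction hx using closure_induction with
      | mem x hx => rcases hx with rfl | rfl <;> assumption
      | one => simp
      | mul x y hx hy ex ey => rw [(hc x hx y hy).mul_pow, ex, ey, one_mul]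
      | inv x _ ex => rw [inv_pow, ex, inv_one]
    have hg : g ∈ normalizer (closure {a, b} : Set G) := mem_normalizer_fintype fun x hx => by
      induction hx using closure_induction with
      | mem x hx =>
        rcases hx with rfl | rfl
        exacts [ga ▸ hb, gb ▸ mul_mem ha hb]
      | one => simp
      | mul x y _ _ ex ey => simpa [mul_assoc] using mul_mem ex ey
      | inv x _ ex => simpa [mul_assoc] using inv_mem ex
    have b1 : b ≠ 1 := fun e => a1 (by simpa [e] using ga)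
    have e3 : g ^ 3 * a * (g ^ 3)⁻¹ = b * (a * b) := by
      calc _ = g * (g * (g * a * g⁻¹) * g⁻¹) * g⁻¹ := by simp only [pow_three, _root_.mul_inv_rev, mul_assoc]
        _ = g * (a * b) * g⁻¹ := by rw [ga, gb]
        _ = g * a * g⁻¹ * (g * b * g⁻¹) := by group
        _ = _ := by rw [ga, gb]
    have e4 : g ^ 4 * a * (g ^ 4)⁻¹ = a * b * (b * (a * b)) := by
      calc _ = g * (g ^ 3 * a * (g ^ 3)⁻¹) * g⁻¹ := by rw [pow_succ' g 3]; group
        _ = g * b * g⁻¹ * (g * a * g⁻¹ * (g * b * g⁻¹)) := by rw [e3]; group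
        _ = _ := by rw [ga, gb]
    rcases W.pow_cm h.pc (fun x hx y hy => h.pc.cm_of_odd (n := 3) (by decide) (h1 x hx)
      (hc x hx y hy)) (n := 3) (by exact_mod_cast h3) h1 hg with e | e
    · rw [(e a ha).eq, mul_inv_cancel_right, ← mul_assoc, ← ab, mul_assoc, left_eq_mul] at e3
      exact b1 (by rw [← b3, pow_three, e3, mul_one])
    · rw [(e a ha).eq, mul_inv_cancel_right, mul_assoc a, left_eq_mul, ab, ← mul_assoc, ← mul_assoc,
        ← pow_three', b3, one_mul] at e4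
      exact a1 e4

theorem Od.m22 (h : Od P π) : ¬ Spor.IsoM22 G := fun ⟨e⟩ =>
  let ⟨_, ha, _, hy, t⟩ := exists_t7
  not_t7' h.pc h.two e ha hy t

theorem Od.m23 (h : Od P π) : ¬ Spor.IsoM23 G := fun ⟨e⟩ =>
  let ⟨_, ha, _, hy, t⟩ := exists_t7
  not_t7' h.pc h.two e ha.1 hy.1 t

end Cfsg.Agent.Cl.D4
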