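/-
Subgroups of `SL₄(F)`: Suzuki groups, groups of rank two in characteristic two, `L₃(3)`, `U₃(3)`.
-/
import Mathlib
import Cfsg.Agent.Cl.D4W
import Cfsg.Agent.Cl.D3ModB
import Cfsg.Agent.Cl.D3ModA
import Cfsg.Agent.Chev.SzLie
import Cfsg.Agent.Chev.SzSol

set_option autoImplicit false

namespace Cfsg.Agent.Cl.D4

open Matrix Cfsg.Geo Cfsg.Agent.Cl.Max Cfsg.Agent.Cl.Mx Subgroup
open Cfsg.Agent.Cl.D5 (MT Root TrGen Cov NoTv)
open scoped MatrixGroups commutatorElement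

variable {F : Type*} [Field F] [Finite F] {G : Type*} [Group G] {P : Subgroup (G4 F)}
  {π : P →* G}

namespace KB

open Chev.Sz in
theorem sz_real {K : Type*} [Field K] {m : ℕ} [SzF K m] (x : Cfsg.Sz K m) :
    (∃ k, x ^ 2 ^ k = 1) ∨ IsConj x x⁻¹ := by
  rcases odd_or_mem_sylAt x with h | ⟨p, h⟩
  · obtain ⟨T, hT, hx⟩ := exists_isTorus_of_odd h
    obtain ⟨t, ht, h1⟩ := Inv.exists_involution_mem_of_even
      (H := Subgroup.normalizer (T : Set (Cfsg.Sz K m))) (by
        rcases hT with ⟨a, b, hab, rfl⟩ | ⟨s, hs, rfl⟩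
        · rw [card_normalizer_torAt hab]
          exact even_two_mul _
        · rw [hs.card_normalizer]
          exact Even.mul_right (by decide) _)
    have h3 := Inv.mul_self_of_two h1
    exact Or.inr (isConj_iff.2 ⟨t, by
      rw [inv_eq_of_mul_eq_one_right h3, hT.inverts ht (Inv.ne_one_of_two h1) h3 hx]⟩)
  · exact Or.inl ((isPGroup_sylAt p ⟨x, h⟩).imp fun k e => congrArg Subtype.val e)

theorem card_le (h : Od P π) {A : Type*} [AddGroup A] (u : A → G)
    (hu : ∀ a b, u a * u b = u (a + b)) (h0 : ∀ a, u a = 1 → a = 0) (ha : ∀ a : A, a + a = 0) :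
    Nat.card A ≤ 16 := by
  let f : Multiplicative A →* G := MonoidHom.mk' (fun a => u a.toAdd) fun a b => (hu _ _).symm
  have h1 := h.pc.card_le_sixteen h.two (E := f.range) (by
    rintro _ ⟨a, rfl⟩
    rw [← map_mul, show a * a = 1 from ha a.toAdd, map_one])
  rwa [← Nat.card_congr (MonoidHom.ofInjective
    ((injective_iff_map_eq_one f).2 fun a e => h0 _ e)).toEquiv,
    Nat.card_congr Multiplicative.toAdd] at h1

theorem not_heis3 (h : Od P π) {x y z : G} (xl : x ^ 3 = 1) (yl : y ^ 3 = 1) (zl : orderOf z = 3)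
    (e : x * y = y * x * z) (zx : Commute z x) (zy : Commute z y) : ¬ IsConj z z⁻¹ := fun hz => by
  by_cases h3 : (3 : F) = 0
  · exact h.pc.not_heis_three (by rw [sup_eq_left.2 h.sc]; exact h.noTv) h3 xl yl zl e zx zy
  · exact h.pc.not_heis Nat.prime_three (by norm_num) (by simpa using h3) xl yl zl e zx zy hz

/-- The symmetric matrices of degree two. -/
def sym {K : Type*} (a : K × K × K) : Matrix (Fin 2) (Fin 2) K := !![a.1, a.2.1; a.2.1, a.2.2]

/-- The unipotent radical of the stabiliser of a Lagrangian. -/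
def su {K : Type*} [Field K] (a : K × K × K) : symplecticGroup (Fin 2) K :=
  ⟨fromBlocks 1 (sym a) 0 1, by
    have : (sym a)ᵀ = sym a := by ext i j; fin_cases i <;> fin_cases j <;> rfl
    simp [SymplecticGroup.fromBlocks_mem_iff, this]⟩

theorem su_mul {K : Type*} [Field K] (a b : K × K × K) : su a * su b = su (a + b) :=
  Subtype.ext (by
    have : sym (a + b) = sym b + sym a := by
      ext i j; fin_cases i <;> fin_cases j <;> simp [sym, add_comm]
    simp [su, fromBlocks_multiply, this])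

theorem su_center {K : Type*} [Field K] {a : K × K × K}
    (h : su a ∈ center (symplecticGroup (Fin 2) K)) : a = 0 := by
  have h1 := congrArg Subtype.val (mem_center_iff.1 h ⟨J _ K, SymplecticGroup.J_mem _ K⟩)
  simp only [su, J, Submonoid.mk_mul_mk, MulMemClass.coe_mul, fromBlocks_multiply,
    fromBlocks_inj] at h1
  have h2 : sym a = 0 := by simpa using h1.1.symm
  exact Prod.ext (congrFun (congrFun h2 0) 0)
    (Prod.ext (congrFun (congrFun h2 0) 1) (congrFun (congrFun h2 1) 1))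

end KB

open KB D3.ModA

theorem Ev.sz (h : Ev P π) (e : Lie.IsoSuzuki G) : Real P := by
  obtain ⟨K, _, m, _, ⟨e⟩⟩ := Chev.Sz.exists_of_isoSuzuki e
  have h' := (h.comp e).cov
  refine real_iff.2 fun a => ?_
  rcases sz_real (((e : G →* Cfsg.Sz K m).comp π) a) with ⟨k, h1⟩ | h1
  · have h2 : a ^ 2 ^ k = 1 := injective_of_two h' h.two (by rw [map_pow, h1, map_one])
    rw [trace_uni Nat.prime_two h.two h2,
      trace_uni Nat.prime_two h.two (k := k) (by rw [inv_pow, h2, inv_one])]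
  · exact trace_eq_of_isConj (isConj_lift h' (n := orderOf a) (.inr h.two) (pow_orderOf_eq_one a)
      (by rw [inv_pow, pow_orderOf_eq_one, inv_one]) (by rwa [map_inv]))

open Chev.Sz in
theorem Od.sz (h : Od P π) : ¬ Lie.IsoSuzuki G := fun e => by
  obtain ⟨K, _, m, _, ⟨e⟩⟩ := Chev.Sz.exists_of_isoSuzuki e
  obtain ⟨k, hk⟩ := IsCyclic.exists_monoid_generator (α := Kˣ)
  have hb : ∀ l : Kˣ, he l ∈ borel K m := fun l => torH_le_borel (he_mem_torH l)
  refine (h.comp e).pc.not_regular h.two (E := cenZ K m) (y := he k) (fun x hx => ?_)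
    (by rw [card_cenZ]; exact eight_le_card K)
    (mem_normalizer_fintype fun x hx => conj_mem_cenZ (hb k) hx) fun a ha b hb a1 b1 => ?_
  · obtain ⟨b, rfl⟩ := mem_cenZ.1 hx
    exact ue_zero_mul_self b
  · obtain ⟨a, rfl⟩ := mem_cenZ.1 ha
    obtain ⟨b, rfl⟩ := mem_cenZ.1 hb
    have a0 : a ≠ 0 := fun e => a1 (by simp [e])
    have b0 : b ≠ 0 := fun e => b1 (by simp [e])
    obtain ⟨l, hl⟩ := mul_th_surjective (b / a)
    have l0 : l ≠ 0 := fun e => div_ne_zero b0 a0 (by rw [← hl, e, zero_mul])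
    obtain ⟨n, hn⟩ := hk (Units.mk0 l l0)
    refine ⟨n, ?_⟩
    rw [← he_pow, show k ^ n = _ from hn, he_conj_ue, Units.val_mk0, hl, mul_zero,
      div_mul_cancel₀ _ a0]

theorem Od.u3 (h : Od P π) {n : ℕ} (hn : 2 ≤ n) : ¬ IsoU3 G (2 ^ n) := by
  rintro ⟨K, _, _, hK, ⟨e⟩⟩
  obtain ⟨σ, hσ⟩ := exists_uField hK
  have : CharP K 2 := hσ.charP rfl
  obtain ⟨D, -, -⟩ := hσ.exists_u3Data_PSU
  have h4 : 4 ≤ 2 ^ n := Nat.pow_le_pow_right (n := 2) (by norm_num) hn
  have h' := (h.comp e).pc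
  set ρ := (e : G →* PSU 3 K (2 ^ n)).comp π
  obtain ⟨a, ha, a3⟩ : ∃ a ∈ uNormOne σ, a ^ 3 ≠ 1 := by
    by_contra h1
    push Not at h1
    have h2 := Nat.le_of_dvd (by norm_num) ((Monoid.exponent_dvd_iff_forall_pow_eq_one
      (G := uNormOne σ)).2 fun x => Subtype.ext (h1 x x.2))
    rw [IsCyclic.exponent_eq_card, hσ.card_uNormOne] at h2
    omega
  have l1 : (uLam σ a : K) - 1 ≠ 0 := fun e => a3
    (hσ.invol.uLam_eq_one_iff.1 (Units.ext (sub_eq_zero.1 e))).2
  have key : ∀ z : UHeis hσ.invol, z.b = 0 → D.u z ∈ ⁅D.u.range, D.u.range⁆ ∧ D.u z * D.u z = 1 ∧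
      ∀ s ∈ D.u.range, Cm ρ (D.u z) s := fun z hz => by
    have z2 : D.u z * D.u z = 1 := by rw [← map_mul, UHeis.mul_self_eq_one_iff.2 hz, map_one]
    have ca : ∀ x, Cm ρ (D.u z) (D.u x) ∨ An ρ (D.u z) (D.u x) := fun x =>
      h'.cm_or_an z2 (Commute.map (UHeis.commute_iff.2 (by simp [hz])) _)
    have sq : ∀ x, Cm ρ (D.u z) (D.u (x * x)) := fun x => by
      rw [map_mul]; exact (ca x).elim (fun e => e.mul h' e) fun e => e.mul_an h' e
    have fix : D.h a * D.u z * (D.h a)⁻¹ = D.u z := by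
      rw [D.h_conj]
      exact congrArg _ (UHeis.ext (by simp [hz]) (by
        rw [UHeis.torus_c, hσ.invol.norm_uLam, mem_uNormOne.1 ha, one_mul]))
    refine ⟨?_, z2, ?_⟩
    · obtain ⟨x, y, rfl⟩ := UHeis.exists_commutator_eq hz
      rw [map_commutatorElement]
      exact commutator_mem_commutator ⟨x, rfl⟩ ⟨y, rfl⟩
    rintro _ ⟨x, rfl⟩
    obtain ⟨y, hy⟩ := UHeis.exists_b hσ.invol (x.b / ((uLam σ a : K) - 1))
    have h1 : Cm ρ (D.u z) (D.u (y⁻¹ * UHeis.torus _ (uLam σ a) y)) := by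
      rw [map_mul, map_inv, ← D.h_conj]
      rcases ca y with e | e
      · exact e.inv.mul h' (by have := e.conj h' (D.h a); rwa [fix] at this)
      · exact e.inv.mul_an h' (by have := e.conj h' (D.h a); rwa [fix] at this)
    set w := y⁻¹ * UHeis.torus _ (uLam σ a) y with hw
    have h2 : (w⁻¹ * x).b = 0 := by
      simp only [hw, UHeis.mul_b, UHeis.inv_b, UHeis.torus_b, hy]; field_simp; ring
    obtain ⟨t, ht⟩ := hσ.exists_norm_eq (a := (w⁻¹ * x).c) (by
      have := UHeis.trace_c_of_b h2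
      rw [eq_neg_of_add_eq_zero_right this, CharTwo.neg_eq])
    obtain ⟨v, rfl⟩ := UHeis.exists_b hσ.invol t
    have h3 : v * v = w⁻¹ * x :=
      UHeis.ext (by rw [h2, UHeis.mul_b, CharTwo.add_self_eq_zero]) (by rw [UHeis.sq_c, ht])
    have h5 := h1.mul h' (sq v)
    rwa [h3, ← map_mul, mul_inv_cancel_left] at h5
  obtain ⟨c, hc, c0, c1⟩ := hσ.exists_fixed_ne (by omega)
  have t1 : (1 : K) + σ 1 = 0 := by rw [map_one, CharTwo.add_self_eq_zero]
  have tc : c + σ c = 0 := by rw [hc, CharTwo.add_self_eq_zero]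
  obtain ⟨p1, p2, p3⟩ := key (UHeis.cen _ 1 t1) rfl
  obtain ⟨q1, q2, q3⟩ := key (UHeis.cen _ c tc) rfl
  refine h'.not_four_le h.two ?_ p1 q1 p2 q2 (fun e => ?_) (fun e => ?_) (fun e => ?_) p3 q3
  · exact (UHeis.isPGroup _ 2).of_surjective _ D.u.rangeRestrict_surjective
  · exact one_ne_zero (UHeis.eq_one_iff.1 ((map_eq_one_iff _ D.u_injective).1 e))
  · exact c0 (UHeis.eq_one_iff.1 ((map_eq_one_iff _ D.u_injective).1 e))
  · exact c1 (congrArg UHeis.c (D.u_injective e)).symm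

theorem Od.l3 (h : Od P π) {n : ℕ} (hn : 3 ≤ n) : ¬ IsoL3 G (2 ^ n) := by
  rintro ⟨K, _, _, hK, ⟨e⟩⟩
  have : CharP K 2 := D3.ModB.charP_of_card Nat.prime_two hK
  have h1 := card_le (h.comp e) (fun a : K × K => pu a.1 0 a.2)
    (fun a b => by simp [pu_mul]) (fun a e => ?_) fun a => by
      ext <;> exact CharTwo.add_self_eq_zero _
  · rw [Nat.card_prod, Nat.card_eq_fintype_card, hK] at h1
    have h8 : 8 ≤ 2 ^ n := Nat.pow_le_pow_right (n := 2) (by norm_num) hn
    nlinarith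
  · rw [pu, QuotientGroup.eq_one_iff, Matrix.SpecialLinearGroup.mem_center_iff] at e
    obtain ⟨r, -, e⟩ := e
    exact Prod.ext (by simpa [ut] using (congrFun (congrFun e 0) 1).symm)
      (by simpa [ut] using (congrFun (congrFun e 0) 2).symm)

theorem Od.s4 (h : Od P π) {n : ℕ} (hn : 2 ≤ n) : ¬ IsoS4 G (2 ^ n) := by
  rintro ⟨K, _, _, hK, ⟨e⟩⟩
  have : CharP K 2 := D3.ModB.charP_of_card Nat.prime_two hK
  have h1 := card_le (h.comp e) (fun a : K × K × K => (QuotientGroup.mk (su a) : PSp 2 K))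
    (fun a b => by rw [← QuotientGroup.mk_mul, su_mul])
    (fun a e => su_center ((QuotientGroup.eq_one_iff _).1 e)) fun a => by
      ext <;> exact CharTwo.add_self_eq_zero _
  rw [Nat.card_prod, Nat.card_prod, Nat.card_eq_fintype_card, hK] at h1
  have h4 : 4 ≤ 2 ^ n := Nat.pow_le_pow_right (n := 2) (by norm_num) hn
  have := Nat.mul_le_mul h4 (Nat.mul_le_mul h4 h4)
  omega

theorem Od.l33 (h : Od P π) : ¬ IsoL3 G 3 := by
  rintro ⟨K, _, _, hK, ⟨e⟩⟩
  have : CharP K 3 := D3.ModB.charP_of_card (n := 1) Nat.prime_three hK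
  have := Fact.mk Nat.prime_three
  have h3 : ((3 : ℕ) : K) = 0 := CharP.cast_eq_zero K 3
  refine not_heis3 (h.comp e) (x := pu 1 0 0) (y := pu 0 1 0) (z := pu 0 0 1)
    (by rw [pu_pow _ (by simp), h3]; simp [pu_zero])
    (by rw [pu_pow _ (by simp), h3]; simp [pu_zero])
    (orderOf_eq_prime (by rw [pu_pow _ (by simp), h3]; simp [pu_zero])
      fun e => one_ne_zero (pu_eq_one e))
    (by simp [pu_mul]) (pu_comm _ _ _ _) (pu_comm _ _ _ _)
    (isConj_iff.2 ⟨QuotientGroup.mk (dg 1 (-1) one_ne_zero (neg_ne_zero.2 one_ne_zero)), ?_⟩)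
  rw [dg_pu, eq_inv_iff_mul_eq_one, pu_mul]
  simp [pu_zero]

theorem Od.u33 (h : Od P π) : ¬ IsoU3 G 3 := by
  rintro ⟨K, _, _, hK, ⟨e⟩⟩
  obtain ⟨σ, hσ⟩ := exists_uField hK
  have := Fact.mk Nat.prime_three
  have : CharP K 3 := hσ.charP (k := 1) rfl
  obtain ⟨D, -, -⟩ := hσ.exists_u3Data_PSU
  obtain ⟨x, y, hxy⟩ := UHeis.exists_not_commute hσ.invol
  set z := ⁅x⁻¹, y⁻¹⁆ with hz
  have zb : z.b = 0 := UHeis.commutator_b _ _
  have ez : x * y = y * x * z := by rw [hz, commutatorElement_def]; group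
  have p3 : ∀ w, D.u w ^ 3 = 1 := fun w => by
    rw [← map_pow, UHeis.pow_char_eq_one (by decide), map_one]
  have zc : ∀ w, Commute (D.u z) (D.u w) := fun w =>
    Commute.map (UHeis.commute_iff.2 (by simp [zb])) _
  obtain ⟨a, ha⟩ := hσ.exists_norm_eq (a := -1) (by simp)
  have a0 : a ≠ 0 := fun e => by simp [e] at ha
  refine not_heis3 (h.comp e) (p3 x) (p3 y) (orderOf_eq_prime (p3 z) fun e => hxy ?_)
    (by rw [← map_mul, ez, map_mul, map_mul]) (zc x) (zc y)
    (isConj_iff.2 ⟨D.h (Units.mk0 a a0), ?_⟩)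
  · rw [ez, (map_eq_one_iff _ D.u_injective).1 e, mul_one]
  · rw [D.h_conj, ← map_inv]
    refine congrArg _ (UHeis.ext (by simp [zb]) ?_)
    rw [UHeis.torus_c, hσ.invol.norm_uLam, Units.val_mk0, ha, UHeis.inv_c]
    linear_combination -UHeis.trace_c_of_b zb

end Cfsg.Agent.Cl.D4
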