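/-
Subgroups of `SL₄(F)` in characteristic two: elements of odd order centralising a four-group.
-/
import Mathlib
import Cfsg.Agent.Cl.D4Bb

set_option autoImplicit false

namespace Cfsg.Agent.Cl.D4.KH

open Matrix Cfsg.Geo Cfsg.Agent.Cl.Max Cfsg.Agent.Cl.Mx Subgroup
open Cfsg.Agent.Cl.D5 (MT Root TrGen Cov NoTv)

section Comb

variable {K : Type*} [Field K]

/-- Three of the four values agree. -/
def T31 (a : Fin 4 → K) : Prop := ∃ m x, ∀ k, k ≠ m → a k = x

/-- The values are `x` and its inverse. -/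
def T22 (a : Fin 4 → K) : Prop := ∃ x y, x * y = 1 ∧ ∀ k, a k = x ∨ a k = y

theorem eq_of_sq (h2 : (2 : K) = 0) {x y : K} (h : x * x = y * y) : x = y := by
  have : (x - y) ^ 2 = 0 := by linear_combination h + (y * y - x * y) * h2
  exact sub_eq_zero.1 (pow_eq_zero_iff two_ne_zero |>.1 this)

theorem prod_T31 {a : Fin 4 → K} {m : Fin 4} {x : K} (h : ∀ k, k ≠ m → a k = x) : ∏ i, a i = a m * x ^ 3 := by
  rw [← Finset.mul_prod_erase _ _ (Finset.mem_univ m),
    Finset.prod_congr rfl fun k hk => h k (Finset.ne_of_mem_erase hk)]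
  simp

theorem t31_or_t22 (h2 : (2 : K) = 0) {a : Fin 4 → K} (hp : ∏ i, a i = 1) {i j k l : Fin 4} (ij : i ≠ j)
    (kl : k ≠ l) (ki : k ≠ i) (kj : k ≠ j) (e1 : a i = a j) (e2 : a k = a l) : T31 a ∨ T22 a := by
  by_cases h : l = i ∨ l = j
  · obtain ⟨m, hm⟩ := (by decide : ∀ i j k : Fin 4, i ≠ j → k ≠ i → k ≠ j →
      ∃ m, ∀ s, s ≠ m → s = i ∨ s = j ∨ s = k) i j k ij ki kj
    refine Or.inl ⟨m, a i, fun s hs => ?_⟩
    rcases hm s hs with rfl | rfl | rfl
    exacts [rfl, e1.symm, h.elim (fun e => e ▸ e2) fun e => e2.trans (e ▸ e1.symm)]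
  · have h3 := (by decide : ∀ i j k l : Fin 4, i ≠ j → k ≠ l → k ≠ i → k ≠ j → ¬ (l = i ∨ l = j) →
      Finset.univ = {i, j, k, l}) i j k l ij kl ki kj h
    push Not at h
    refine Or.inr ⟨a i, a k, eq_of_sq h2 ?_, fun s => ?_⟩
    · rw [h3, Finset.prod_insert (by simp [ij, ki.symm, h.1.symm]), Finset.prod_insert (by simp [kj.symm, h.2.symm]),
        Finset.prod_pair kl, ← e1, ← e2] at hp
      linear_combination hp
    · have h4 := h3 ▸ Finset.mem_univ s
      simp only [Finset.mem_insert, Finset.mem_singleton] at h4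
      rcases h4 with rfl | rfl | rfl | rfl
      exacts [Or.inl rfl, Or.inl e1.symm, Or.inr rfl, Or.inr e2.symm]

theorem comb3 (h2 : (2 : K) = 0) {a b c : Fin 4 → K} (hp : ∏ i, a i = 1) (h : T31 a ∨ T22 a)
    {σ τ : Equiv.Perm (Fin 4)} (hb : ∀ i, b i = a (σ i)) (hc : ∀ i, c i = a (τ i))
    (e : ∀ i, a i * b i * c i = 1) : a = b := by
  funext i
  rcases h with ⟨m, x, h⟩ | ⟨x, y, xy, h⟩
  · obtain ⟨j, j1, j2, j3⟩ := (by decide : ∀ p q r : Fin 4, ∃ j, j ≠ p ∧ j ≠ q ∧ j ≠ r) m (σ.symm m) (τ.symm m)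
    have h1 := e j
    rw [hb, hc, h j j1, h _ fun e => j2 (by simp [← e]), h _ fun e => j3 (by simp [← e])] at h1
    have h3 : a m = 1 := by rw [prod_T31 h] at hp; linear_combination hp - a m * h1
    have h4 : ∀ k, a k = x ∨ a k = 1 := fun k => (eq_or_ne k m).elim (fun e => Or.inr (e ▸ h3)) fun e => Or.inl (h k e)
    have h5 : x * x * 1 = 1 → x = 1 := fun e => eq_of_sq h2 (by linear_combination e)
    have h6 := e i
    rw [hb, hc] at h6
    rw [hb]
    rcases h4 i with e1 | e1 <;> rcases h4 (σ i) with e2 | e2 <;> rcases h4 (τ i) with e3 | e3 <;>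
      rw [e1, e2, e3] at h6 <;> rw [e1, e2]
    exacts [h5 (by linear_combination h6), by linear_combination h6, (h5 (by linear_combination h6)).symm,
      by linear_combination -h6]
  · have h6 := e i
    rw [hb, hc] at h6
    rw [hb]
    rcases h i with e1 | e1 <;> rcases h (σ i) with e2 | e2 <;> rcases h (τ i) with e3 | e3 <;>
      rw [e1, e2, e3] at h6 <;> rw [e1, e2] <;> grind

theorem comb2 (h2 : (2 : K) = 0) {a b : Fin 4 → K} (hp : ∏ i, a i = 1) (h : T31 a ∨ T22 a)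
    {σ ρ : Equiv.Perm (Fin 4)} (hb : ∀ i, b i = a (σ i)) (hρ : ∀ i, a i * a (ρ i) = 1)
    (h' : T31 (a * b) ∨ T22 (a * b)) : a = b ∨ a * b = 1 := by
  have k1 : T31 a → a = b := by
    rintro ⟨m, x, h⟩
    obtain ⟨j, j1, j2⟩ := (by decide : ∀ p q : Fin 4, ∃ j, j ≠ p ∧ j ≠ q) m (ρ.symm m)
    have h1 := hρ j
    rw [h j j1, h _ fun e => j2 (by simp [← e])] at h1
    obtain rfl : x = 1 := eq_of_sq h2 (by linear_combination h1)
    have h3 : a m = 1 := by simpa [prod_T31 h] using hp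
    have h4 : ∀ k, a k = 1 := fun k => (eq_or_ne k m).elim (fun e => e ▸ h3) (h k)
    exact funext fun i => by rw [hb, h4, h4]
  rcases h with h | ⟨x, y, xy, h⟩
  · exact Or.inl (k1 h)
  have k2 : ∀ i, a i = b i ∨ a i * b i = 1 := fun i => by
    rw [hb]
    rcases h i with e1 | e1 <;> rcases h (σ i) with e2 | e2 <;> rw [e1, e2] <;> simp [xy, mul_comm y x]
  by_cases e : a = b
  · exact Or.inl e
  obtain ⟨j, hj⟩ := Function.ne_iff.1 e
  have k3 : (a * b) j = 1 := (k2 j).resolve_left hj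
  have hp' : ∏ i, (a * b) i = 1 := by
    simp only [Pi.mul_apply, Finset.prod_mul_distrib, hb, Equiv.prod_comp σ a, hp, mul_one]
  rcases h' with ⟨m, u, h'⟩ | ⟨u, v, uv, h'⟩
  · by_cases e1 : u = 1
    · subst e1
      have h3 : (a * b) m = 1 := by rw [prod_T31 h'] at hp'; simpa using hp'
      exact Or.inr (funext fun k => (eq_or_ne k m).elim (fun e => e ▸ h3) (h' k))
    · obtain ⟨i, hi⟩ := exists_ne m
      have h3 : ∀ k, k ≠ m → a k * a k = u := fun k hk => by
        have h4 := h' k hk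
        rcases k2 k with e2 | e2
        · rwa [Pi.mul_apply, ← e2] at h4
        · exact absurd (h4.symm.trans e2) e1
      exact Or.inl (k1 ⟨m, a i, fun k hk => eq_of_sq h2 ((h3 k hk).trans (h3 i hi).symm)⟩)
  · have h3 : u = 1 ∧ v = 1 := by
      rcases h' j with e1 | e1 <;> rw [k3] at e1 <;> subst e1 <;> simpa using uv
    exact Or.inr (funext fun k => by rcases h' k with e1 | e1 <;> simp [e1, h3.1, h3.2])

/-- Two commuting matrices of square zero supported on two coordinates. -/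
theorem block (h2 : (2 : K) = 0) {N M : M4 K} {i j : Fin 4} (ij : i ≠ j)
    (hN : ∀ k l, N k l ≠ 0 → (k = i ∨ k = j) ∧ (l = i ∨ l = j))
    (hM : ∀ k l, M k l ≠ 0 → (k = i ∨ k = j) ∧ (l = i ∨ l = j))
    (NN : N * N = 0) (MM : M * M = 0) (NM : N * M = M * N) (h0 : N i j ≠ 0) :
    N.rank ≤ 1 ∧ ∃ c : K, M = c • N := by
  have key : ∀ {A B : M4 K}, (∀ k l, A k l ≠ 0 → (k = i ∨ k = j) ∧ (l = i ∨ l = j)) → ∀ k l,
      (A * B) k l = A k i * B i l + A k j * B j l := fun {A B} hA k l => by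
    rw [mul_apply]
    refine Fintype.sum_eq_add i j ij fun s hs => ?_
    rw [not_not.1 fun e => (hA k s e).2.elim hs.1 hs.2, zero_mul]
  have sq : ∀ {A : M4 K}, (∀ k l, A k l ≠ 0 → (k = i ∨ k = j) ∧ (l = i ∨ l = j)) → A * A = 0 →
      A j j = A i i ∧ A i i * A i i = A i j * A j i := fun {A} hA e => by
    have e1 := key (B := A) hA i i
    have e2 := key (B := A) hA j j
    rw [e, Matrix.zero_apply] at e1 e2
    exact ⟨eq_of_sq h2 (by linear_combination e1 - e2), by linear_combination -e1 - A i j * A j i * h2⟩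
  obtain ⟨n1, n2⟩ := sq hN NN
  obtain ⟨m1, m2⟩ := sq hM MM
  have c1 : N i j * M j i = M i j * N j i := by
    have := congrFun (congrFun NM i) i
    rw [key hN, key hM] at this
    linear_combination this
  have ext' : ∀ {A B : M4 K}, (∀ k l, A k l ≠ 0 → (k = i ∨ k = j) ∧ (l = i ∨ l = j)) →
      (∀ k l, B k l ≠ 0 → (k = i ∨ k = j) ∧ (l = i ∨ l = j)) → A i i = B i i → A i j = B i j → A j i = B j i →
      A j j = B j j → A = B := fun {A B} hA hB e1 e2 e3 e4 => by
    ext k l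
    by_cases e : (k = i ∨ k = j) ∧ (l = i ∨ l = j)
    · rcases e with ⟨rfl | rfl, rfl | rfl⟩ <;> assumption
    · rw [not_not.1 (mt (hA k l) e), not_not.1 (mt (hB k l) e)]
  constructor
  · refine (ext' (B := vecMulVec (Pi.single i (N i j) + Pi.single j (N i i))
      (Pi.single i (N i i / N i j) + Pi.single j 1)) hN (fun k l e => ?_) ?_ ?_ ?_ ?_).symm ▸ rank_vecMulVec_le _ _
    · rw [vecMulVec_apply] at e
      exact ⟨by_contra fun e' => left_ne_zero_of_mul e (by push Not at e'; simp [e'.1, e'.2]),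
        by_contra fun e' => right_ne_zero_of_mul e (by push Not at e'; simp [e'.1, e'.2])⟩
    all_goals simp only [vecMulVec_apply, Pi.add_apply, Pi.single_eq_same, Pi.single_eq_of_ne ij,
      Pi.single_eq_of_ne ij.symm, add_zero, zero_add, mul_one, n1]
    · field_simp
    · field_simp; linear_combination -n2
  · have e3 : M j i = M i j / N i j * N j i := by field_simp; linear_combination c1
    have e1 : M i i = M i j / N i j * N i i := eq_of_sq h2 (by
      rw [m2, e3]; field_simp; linear_combination -(M i j) ^ 2 * n2)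
    refine ⟨M i j / N i j, ext' hM (fun k l e => hN k l (right_ne_zero_of_mul e)) e1 ?_ e3 ?_⟩
    · simp [h0]
    · rw [m1, Matrix.smul_apply, n1]; exact e1

end Comb

variable {F : Type*} [Field F] {G : Type*} [Group G] {P : Subgroup (G4 F)} {π : P →* G}

/-- The matrices over the algebraic closure, in another basis. -/
noncomputable def ext (P : Subgroup (G4 F)) (Q : G4 (AlgebraicClosure F)) : P →* M4 (AlgebraicClosure F) where
  toFun g := (Q⁻¹).val * (mat g).map (algebraMap F _) * Q.val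
  map_one' := by simp [mat]
  map_mul' g h := by simp [mat, Matrix.map_mul, mul_assoc]

theorem ext_apply (Q : G4 (AlgebraicClosure F)) (g : P) :
    ext P Q g = (Q⁻¹).val * (mat g).map (algebraMap F _) * Q.val := rfl

theorem conj_map_inj (Q : G4 (AlgebraicClosure F)) {A B : M4 F}
    (h : (Q⁻¹).val * A.map (algebraMap F _) * Q.val = (Q⁻¹).val * B.map (algebraMap F _) * Q.val) : A = B :=
  Matrix.map_injective (algebraMap F (AlgebraicClosure F)).injective
    ((Units.mul_right_inj Q⁻¹).1 ((Units.mul_left_inj Q).1 h))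

theorem ext_inj (Q : G4 (AlgebraicClosure F)) : Function.Injective (ext P Q) := fun _ _ h =>
  D5.sub_ext (conj_map_inj Q h)

theorem ext_sub (Q : G4 (AlgebraicClosure F)) (g : P) :
    ext P Q g - 1 = (Q⁻¹).val * (mat g - 1).map (algebraMap F _) * Q.val := by
  rw [ext_apply, Matrix.map_sub _ (map_sub _), Matrix.map_one _ (map_zero _) (map_one _), mul_sub, sub_mul, mul_one,
    Units.inv_mul]

theorem prod_eq (hP : P ≤ specialLinear (Fin 4) F) {Q : G4 (AlgebraicClosure F)} {g : P}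
    {a : Fin 4 → AlgebraicClosure F} (h : ext P Q g = diagonal a) : ∏ i, a i = 1 := by
  have h1 := congrArg det h
  rw [ext_apply, det_units_conj', det_diagonal, ← RingHom.mapMatrix_apply, ← RingHom.map_det,
    (mem_specialLinear_iff _).1 (hP g.2), map_one] at h1
  exact h1.symm

theorem exists_perm {Q : G4 (AlgebraicClosure F)} {g g' : P} {a b : Fin 4 → AlgebraicClosure F}
    (h : ext P Q g = diagonal a) (h' : ext P Q g' = diagonal b) (e : IsConj g g') :
    ∃ σ : Equiv.Perm (Fin 4), ∀ i, b i = a (σ i) := by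
  obtain ⟨k, rfl⟩ := isConj_iff.1 e
  have h1 : (ext P Q k⁻¹).det ≠ 0 := ((isUnit_iff_isUnit_det _).1 ((Group.isUnit k⁻¹).map (ext P Q))).ne_zero
  have h2 : diagonal a * ext P Q k⁻¹ = ext P Q k⁻¹ * diagonal b := by
    rw [← h, ← h', ← map_mul, ← map_mul]; congr 1; group
  rw [det_apply] at h1
  obtain ⟨σ, -, hσ⟩ := Finset.exists_ne_zero_of_sum_ne_zero h1
  refine ⟨σ, fun i => ?_⟩
  have h3 := congrFun (congrFun h2 (σ i)) i
  rw [diagonal_mul, mul_diagonal, mul_comm] at h3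
  exact (mul_left_cancel₀ (Finset.prod_ne_zero_iff.1 (right_ne_zero_of_smul hσ) i (by simp)) h3).symm

theorem exists_diag {g g' : P} (hc : Commute g g') {r : ℕ} (hr : (r : F) ≠ 0) (hg : g ^ r = 1) (hg' : g' ^ r = 1) :
    ∃ Q a b, ext P Q g = diagonal a ∧ ext P Q g' = diagonal b := by
  let K := AlgebraicClosure F
  have : NeZero (r : K) := ⟨by rwa [← map_natCast (algebraMap F K), _root_.map_ne_zero]⟩
  have h0 : r ≠ 0 := fun h => hr (by simp [h])
  have : NeZero r := ⟨h0⟩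
  obtain ⟨ζ, hζ⟩ := HasEnoughRootsOfUnity.exists_primitiveRoot K r
  have h1 : ∀ x ∈ ({g, g'} : Set P), ∀ y ∈ ({g, g'} : Set P), x * y = y * x := by
    rintro x (rfl | rfl) y (rfl | rfl)
    exacts [rfl, hc.eq, hc.eq.symm, rfl]
  have h2 : ∀ x y : closure ({g, g'} : Set P), Commute x y := (isMulCommutative_closure h1).is_comm.comm
  obtain ⟨Q, d, hd⟩ := Cls.exists_hom_rootsOfUnity ((ext P 1).comp (closure {g, g'}).subtype) h2
    (Nat.pos_of_ne_zero h0) hζ fun ⟨x, hx⟩ => by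
      induction hx using closure_induction with
      | mem x hx => rcases hx with rfl | rfl <;> exact Subtype.ext ‹_›
      | one => exact one_pow r
      | mul x y hx hy e1 e2 =>
        exact ((h2 ⟨x, hx⟩ ⟨y, hy⟩).mul_pow r).trans (by rw [e1, e2, mul_one])
      | inv x hx e => exact (inv_pow (⟨x, hx⟩ : closure ({g, g'} : Set P)) r).trans (by rw [e, inv_one])
  refine ⟨Q, _, _, Eq.trans ?_ (hd ⟨g, subset_closure (by simp)⟩), Eq.trans ?_ (hd ⟨g', subset_closure (by simp)⟩)⟩ <;>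
    simp [ext_apply]

/-- `h` centralises a four-group. -/
def Fr (h : G) : Prop := ∃ z w : G, z * z = 1 ∧ w * w = 1 ∧ z ≠ 1 ∧ w ≠ 1 ∧ z ≠ w ∧ z * w = w * z ∧
  h * z = z * h ∧ h * w = w * h

theorem root_of (h2 : (2 : F) = 0) {z w : P} (z2 : z * z = 1) (z1 : z ≠ 1) (w1 : w ≠ 1) (zw : z ≠ w)
    (hr : (mat z - 1).rank ≤ 1) {c : F} (hc : mat w - 1 = c • (mat z - 1)) : Root P 4 := by
  classical
  obtain ⟨v, φ, e⟩ := exists_vec_of_rank hr
  have h0 : mat z - 1 ≠ 0 := fun e => z1 (D5.sub_ext (sub_eq_zero.1 e))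
  have hv : v ≠ 0 := fun hv => h0 (ext_iff_mulVec.2 fun x => by simp [e, hv])
  have hφ : φ ≠ 0 := fun hv => h0 (ext_iff_mulVec.2 fun x => by simp [e, hv])
  have NN : (mat z - 1) * (mat z - 1) = 0 := by
    have e1 : mat z * mat z = 1 := congrArg mat z2
    have e2 : (2 : F) • (1 - mat z) = 0 := by rw [h2, zero_smul]
    rw [← e2, sub_mul, mul_sub, e1, two_smul, mul_one, one_mul]; abel
  have h3 : φ ⬝ᵥ v = 0 := by
    obtain ⟨i, hi⟩ := Function.ne_iff.1 hφ
    have e1 := congrArg (· *ᵥ Pi.single i 1) NN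
    simp only [← mulVec_mulVec, e, zero_mulVec, dotProduct_smul, smul_eq_zero, hv, or_false, smul_eq_mul,
      dotProduct_single, mul_one, mul_eq_zero] at e1
    exact e1.resolve_left hi
  have c0 : c ≠ 0 := fun e => w1 (D5.sub_ext (sub_eq_zero.1 (hc.trans (by rw [e, zero_smul]))))
  have c1 : c ≠ 1 := fun e => zw (D5.sub_ext (sub_left_injective (hc.trans (by rw [e, one_smul])).symm))
  have key : ∀ (g : P) (a : F), mat g = 1 + a • (mat z - 1) → MT P v (a • φ) := fun g a hg =>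
    ⟨by simp [h3], g, g.2, fun x => by
      rw [show ((g : G4 F) : M4 F) = _ from hg, add_mulVec, one_mulVec, smul_mulVec, e, smul_dotProduct, smul_smul,
        smul_eq_mul]⟩
  refine ⟨v, φ, hv, hφ, {0, 1, c, 1 + c}, (Finset.card_eq_four.2 ⟨_, _, _, _, zero_ne_one, c0.symm,
    fun e => c1 (by linear_combination -e - h2), c1.symm,
    fun e => c0 (by linear_combination -e), fun e => one_ne_zero (by linear_combination -e), rfl⟩).ge, fun a ha => ?_⟩
  simp only [Finset.mem_insert, Finset.mem_singleton] at ha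
  rcases ha with rfl | rfl | rfl | rfl
  · exact key 1 0 (by simp [mat])
  · exact key z 1 (by simp)
  · exact key w _ (by rw [← hc]; simp)
  · refine key (z * w) _ ?_
    rw [show mat (z * w) = (1 + (mat z - 1)) * (1 + (mat w - 1)) by simp [mat], hc, add_mul, mul_add, mul_add,
      mul_smul_comm, mul_smul_comm, NN, add_smul]
    simp only [mul_one, one_mul, one_smul, smul_zero, add_zero]
    abel

theorem lemH (h2 : (2 : F) = 0) (hP : P ≤ specialLinear (Fin 4) F) (hR : ¬ Root P 4) {Q : G4 (AlgebraicClosure F)}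
    {g : P} {a : Fin 4 → AlgebraicClosure F} (h : ext P Q g = diagonal a) (hg : Fr g) : T31 a ∨ T22 a := by
  have k2 : (2 : AlgebraicClosure F) = 0 := by rw [← map_ofNat (algebraMap F _), h2, map_zero]
  by_contra hn
  obtain ⟨i, j, ij, hij⟩ : ∃ i j, i ≠ j ∧ ∀ k l, k ≠ l → a k = a l → k = i ∨ k = j := by
    by_cases e : ∃ i j, i ≠ j ∧ a i = a j
    · obtain ⟨i, j, ij, e⟩ := e
      exact ⟨i, j, ij, fun k l kl e' => by_contra fun e2 =>
        hn (t31_or_t22 k2 (prod_eq hP h) ij kl (fun e3 => e2 (Or.inl e3)) (fun e3 => e2 (Or.inr e3)) e e')⟩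
    · exact ⟨0, 1, by decide, fun k l kl e' => absurd ⟨k, l, kl, e'⟩ e⟩
  obtain ⟨z, w, z2, w2, z1, w1, zw, c1, c2, c3⟩ := hg
  have key : ∀ {z : P}, z * z = 1 → g * z = z * g → (ext P Q z - 1) * (ext P Q z - 1) = 0 ∧
      ∀ k l, (ext P Q z - 1) k l ≠ 0 → (k = i ∨ k = j) ∧ (l = i ∨ l = j) := fun {z} z2 c => by
    have NN : (ext P Q z - 1) * (ext P Q z - 1) = 0 := by
      have e2 : (2 : AlgebraicClosure F) • (1 - ext P Q z) = 0 := by rw [k2, zero_smul]
      rw [← e2, sub_mul, mul_sub, ← map_mul, z2, map_one, two_smul, mul_one, one_mul]; abel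
    have e1 : diagonal a * (ext P Q z - 1) = (ext P Q z - 1) * diagonal a := by
      rw [mul_sub, sub_mul, ← h, ← map_mul, ← map_mul, c, mul_one, one_mul]
    generalize ext P Q z - 1 = N at NN e1
    have e2 : ∀ k l, k ≠ l → N k l ≠ 0 → (k = i ∨ k = j) ∧ (l = i ∨ l = j) := fun k l kl e => by
      have e3 := congrFun (congrFun e1 k) l
      rw [diagonal_mul, mul_diagonal, mul_comm] at e3
      have e4 := mul_left_cancel₀ e e3
      exact ⟨hij k l kl e4, hij l k kl.symm e4.symm⟩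
    refine ⟨NN, fun k l e => (eq_or_ne k l).elim (fun kl => ?_) fun kl => e2 k l kl e⟩
    subst kl
    rw [and_self]
    by_contra e3
    have e4 := congrFun (congrFun NN k) k
    rw [mul_apply, Fintype.sum_eq_single k fun s hs => by
      rw [not_not.1 fun e5 => e3 (e2 k s hs.symm e5).1, zero_mul]] at e4
    exact e (mul_self_eq_zero.1 e4)
  obtain ⟨n1, n2⟩ := key z2 c2
  obtain ⟨m1, m2⟩ := key w2 c3
  have NM : (ext P Q z - 1) * (ext P Q w - 1) = (ext P Q w - 1) * (ext P Q z - 1) := by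
    simp only [sub_mul, mul_sub, ← map_mul, c1, mul_one, one_mul]; abel
  have h0 : ext P Q z - 1 ≠ 0 := fun e => z1 (ext_inj Q (by rw [map_one]; exact sub_eq_zero.1 e))
  obtain ⟨r, c, hc⟩ : (ext P Q z - 1).rank ≤ 1 ∧ ∃ c : AlgebraicClosure F, ext P Q w - 1 = c • (ext P Q z - 1) := by
    generalize ext P Q z - 1 = N at *
    by_cases e : N i j = 0
    · refine block k2 ij.symm (fun k l e => (n2 k l e).imp Or.symm Or.symm)
        (fun k l e => (m2 k l e).imp Or.symm Or.symm) n1 m1 NM fun e' => h0 ?_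
      have e3 : ∀ k l, k ≠ l → N k l = 0 := fun k l kl => by_contra fun e4 => by
        rcases n2 k l e4 with ⟨rfl | rfl, rfl | rfl⟩ <;> contradiction
      ext k l
      refine (eq_or_ne k l).elim (fun kl => ?_) (e3 k l)
      subst kl
      have e4 := congrFun (congrFun n1 k) k
      rw [mul_apply, Fintype.sum_eq_single k fun s hs => by rw [e3 k s hs.symm, zero_mul]] at e4
      exact mul_self_eq_zero.1 e4
    · exact block k2 ij n2 m2 n1 m1 NM e
  rw [ext_sub, rank_mul_eq_left_of_isUnit_det _ _ (Matrix.isUnits_det_units Q),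
    rank_mul_eq_right_of_isUnit_det _ _ (Matrix.isUnits_det_units Q⁻¹), Cls.rank_map] at r
  rw [ext_sub, ext_sub, ← smul_mul_assoc, ← mul_smul_comm] at hc
  replace hc := (Units.mul_right_inj Q⁻¹).1 ((Units.mul_left_inj Q).1 hc)
  have h1 : mat z - 1 ≠ 0 := fun e => z1 (D5.sub_ext (sub_eq_zero.1 e))
  obtain ⟨s, hs⟩ := Function.ne_iff.1 h1
  obtain ⟨t, ht⟩ := Function.ne_iff.1 hs
  have h3 := congrFun (congrFun hc s) t
  rw [Matrix.smul_apply, map_apply, map_apply, smul_eq_mul] at h3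
  refine hR (root_of h2 z2 z1 w1 zw r (c := (mat w - 1) s t / (mat z - 1) s t)
    (Matrix.map_injective (algebraMap F (AlgebraicClosure F)).injective ?_))
  have h4 : algebraMap F (AlgebraicClosure F) ((mat z - 1) s t) ≠ 0 := (_root_.map_ne_zero _).2 ht
  ext k l
  have h5 := congrFun (congrFun hc k) l
  simp only [Matrix.smul_apply, map_apply, smul_eq_mul, map_mul, map_div₀, h3, mul_div_cancel_right₀ _ h4] at h5 ⊢
  exact h5

theorem Fr.symm (e : P ≃* G) {g : P} (h : Fr (e g)) : Fr g := by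
  obtain ⟨z, w, h1, h2, h3, h4, h5, h6, h7, h8⟩ := h
  obtain ⟨z, rfl⟩ := e.surjective z
  obtain ⟨w, rfl⟩ := e.surjective w
  simp only [← map_mul, e.map_eq_one_iff, e.apply_eq_iff_eq, ne_eq] at *
  exact ⟨z, w, h1, h2, h3, h4, h5, h6, h7, h8⟩

theorem isConj_symm (e : P ≃* G) {g g' : P} (h : IsConj (e g) (e g')) : IsConj g g' := by
  simpa using e.symm.toMonoidHom.map_isConj h

theorem cast_ne (h2 : (2 : F) = 0) {r : ℕ} (hr : Odd r) : (r : F) ≠ 0 := by
  obtain ⟨k, rfl⟩ := hr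
  simp [h2]

theorem three (h : Ev P π) {x y z : G} {r : ℕ} (hr : Odd r) (hx : x ^ r = 1) (c : Commute x y)
    (e : x * y * z = 1) (xy : IsConj x y) (xz : IsConj x z) (hf : Fr x) : x = y := by
  let θ := MulEquiv.ofBijective π ⟨injective_of_two h.cov h.two, h.cov.surj⟩
  have k2 : (2 : AlgebraicClosure F) = 0 := by rw [← map_ofNat (algebraMap F _), h.two, map_zero]
  have hy : y ^ r = 1 := isConj_one_right.1 (hx ▸ xy.pow r)
  obtain ⟨x, rfl⟩ := θ.surjective x
  obtain ⟨y, rfl⟩ := θ.surjective y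
  obtain ⟨z, rfl⟩ := θ.surjective z
  simp only [← map_mul, ← map_pow, θ.map_eq_one_iff, commute_iff_eq, θ.apply_eq_iff_eq] at hx hy c e ⊢
  obtain ⟨Q, a, b, ha, hb⟩ := exists_diag c (cast_ne h.two hr) hx hy
  have h0 : ∀ i, a i * b i ≠ 0 := fun i =>
    mul_ne_zero (Finset.prod_ne_zero_iff.1 ((prod_eq h.cov.sl ha).trans_ne one_ne_zero) i (Finset.mem_univ i))
      (Finset.prod_ne_zero_iff.1 ((prod_eq h.cov.sl hb).trans_ne one_ne_zero) i (Finset.mem_univ i))
  have hc : ext P Q z = diagonal fun i => (a i * b i)⁻¹ := by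
    have e1 := congrArg (ext P Q) e
    rw [map_mul, map_mul, ha, hb, map_one, diagonal_mul_diagonal] at e1
    rw [← one_mul (ext P Q z), ← mul_one (diagonal fun i => (a i * b i)⁻¹), ← e1, ← mul_assoc, diagonal_mul_diagonal]
    simp only [inv_mul_cancel₀ (h0 _), diagonal_one, e1]
  obtain ⟨σ, hσ⟩ := exists_perm ha hb (isConj_symm θ xy)
  obtain ⟨τ, hτ⟩ := exists_perm ha hc (isConj_symm θ xz)
  exact ext_inj Q (by rw [ha, hb, comb3 k2 (prod_eq h.cov.sl ha) (lemH h.two h.cov.sl h.noRoot ha (hf.symm θ)) hσ hτ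
    fun i => mul_inv_cancel₀ (h0 i)])

theorem two (h : Ev P π) {x y : G} {r : ℕ} (hr : Odd r) (hx : x ^ r = 1) (c : Commute x y)
    (xy : IsConj x y) (xx : IsConj x x⁻¹) (hf : Fr x) (hf' : Fr (x * y)) : x = y ∨ x * y = 1 := by
  let θ := MulEquiv.ofBijective π ⟨injective_of_two h.cov h.two, h.cov.surj⟩
  have k2 : (2 : AlgebraicClosure F) = 0 := by rw [← map_ofNat (algebraMap F _), h.two, map_zero]
  have hy : y ^ r = 1 := isConj_one_right.1 (hx ▸ xy.pow r)
  obtain ⟨x, rfl⟩ := θ.surjective x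
  obtain ⟨y, rfl⟩ := θ.surjective y
  simp only [← map_mul, ← map_pow, ← map_inv, θ.map_eq_one_iff, commute_iff_eq, θ.apply_eq_iff_eq] at hx hy c xx hf' ⊢
  obtain ⟨Q, a, b, ha, hb⟩ := exists_diag c (cast_ne h.two hr) hx hy
  have h0 : ∀ i, a i ≠ 0 := fun i => Finset.prod_ne_zero_iff.1 ((prod_eq h.cov.sl ha).trans_ne one_ne_zero) i
    (Finset.mem_univ i)
  have hc : ext P Q x⁻¹ = diagonal fun i => (a i)⁻¹ := by
    have e1 : diagonal a * ext P Q x⁻¹ = 1 := by rw [← ha, ← map_mul, mul_inv_cancel, map_one]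
    rw [← one_mul (ext P Q x⁻¹), ← mul_one (diagonal fun i => (a i)⁻¹), ← e1, ← mul_assoc, diagonal_mul_diagonal]
    simp only [inv_mul_cancel₀ (h0 _), diagonal_one, e1]
  have hd : ext P Q (x * y) = diagonal (a * b) := by rw [map_mul, ha, hb, diagonal_mul_diagonal]; rfl
  obtain ⟨σ, hσ⟩ := exists_perm ha hb (isConj_symm θ xy)
  obtain ⟨ρ, hρ⟩ := exists_perm ha hc (isConj_symm θ xx)
  refine (comb2 k2 (prod_eq h.cov.sl ha) (lemH h.two h.cov.sl h.noRoot ha (hf.symm θ)) hσ
    (fun i => by rw [← hρ, mul_inv_cancel₀ (h0 i)]) (lemH h.two h.cov.sl h.noRoot hd (hf'.symm θ))).imp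
    (fun e => ext_inj Q (by rw [ha, hb, e])) fun e => ext_inj Q (by rw [hd, e, map_one]; exact diagonal_one)

end Cfsg.Agent.Cl.D4.KH
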