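/-
Subgroups of `SL₄(F)` in characteristic two: the groups `U₃(q)`, `L₃(q)`, `Sp₄(q)`.
-/
import Mathlib
import Cfsg.Agent.Cl.D4W
import Cfsg.Agent.Cl.D4KHa
import Cfsg.Agent.Cl.UMatrix

set_option autoImplicit false

namespace Cfsg.Agent.Cl.D4

open Matrix Cfsg.Geo Cfsg.Agent.Cl.Max Cfsg.Agent.Cl.Mx Subgroup
open Cfsg.Agent.Cl.D5 (MT Root TrGen Cov NoTv)
open scoped MatrixGroups commutatorElement

namespace KH

variable {F : Type*} [Field F] {G : Type*} [Group G] {P : Subgroup (G4 F)} {π : P →* G}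
  {K : Type*} [Field K] {S : Type*} [Group S]

theorem fr_map {μ : S →* G} (hμ : ∀ s, μ s = 1 → ∀ t, s * t = t * s) {h z w p : S} (z2 : z * z = 1)
    (w2 : w * w = 1) (zw : z * w = w * z) (hz : h * z = z * h) (hw : h * w = w * h) (z1 : z * p ≠ p * z)
    (w1 : w * p ≠ p * w) (zw1 : z * w * p ≠ p * (z * w)) : Fr (μ h) :=
  ⟨μ z, μ w, by rw [← map_mul, z2, map_one], by rw [← map_mul, w2, map_one], fun e => z1 (hμ z e p),
    fun e => w1 (hμ w e p), fun e => zw1 (hμ _ (by rw [map_mul, e, ← map_mul, w2, map_one]) p),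
    by rw [← map_mul, zw, map_mul], by rw [← map_mul, hz, map_mul], by rw [← map_mul, hw, map_mul]⟩

/-- Transvections in characteristic two. -/
def zt (t : K) : Matrix (Fin 3) (Fin 3) K := !![1 + t, t, 0; t, 1 + t, 0; 0, 0, 1]

theorem zt_mul (h2 : (2 : K) = 0) (t u : K) : zt t * zt u = zt (t + u) := by
  ext i j
  fin_cases i <;> fin_cases j <;> simp [zt, Matrix.mul_apply, Fin.sum_univ_three] <;> grind

theorem zt_zero : zt (0 : K) = 1 := by
  ext i j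
  fin_cases i <;> fin_cases j <;> simp [zt]

theorem kill3 (h : Ev P π) (h2 : (2 : K) = 0) {μ : S →* G} (hμ : ∀ s, μ s = 1 → ∀ t, s * t = t * s)
    {m : S →* Matrix (Fin 3) (Fin 3) K} (hm : Function.Injective m) {a b τ : K} {r : ℕ} (hr : Odd r)
    (ab : a * a * b = 1) (ne : a ≠ b) (ar : a ^ r = 1) (br : b ^ r = 1) (τ0 : τ ≠ 0) (τ1 : τ ≠ 1) {d p p' z w : S}
    (hd : m d = diagonal ![a, a, b]) (hp : m p = !![1, 0, 0; 0, 0, 1; 0, 1, 0])
    (hp' : m p' = !![0, 0, 1; 0, 1, 0; 1, 0, 0]) (hz : m z = zt 1) (hw : m w = zt τ) : False := by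
  have hd' : m d = !![a, 0, 0; 0, a, 0; 0, 0, b] := by
    rw [hd]; ext i j; fin_cases i <;> fin_cases j <;> simp
  have p2 : p⁻¹ = p := inv_eq_of_mul_eq_one_right (hm (by simp [hp, one_fin_three]))
  have p3 : p'⁻¹ = p' := inv_eq_of_mul_eq_one_right (hm (by simp [hp', one_fin_three]))
  have d2 : m (p * d * p⁻¹) = !![a, 0, 0; 0, b, 0; 0, 0, a] := by simp [p2, hp, hd']
  have d3 : m (p' * d * p'⁻¹) = !![b, 0, 0; 0, a, 0; 0, 0, a] := by simp [p3, hp', hd']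
  have zz : ∀ {x : S} {t : K}, m x = zt t → x * x = 1 ∧ d * x = x * d ∧ (t ≠ 0 → x * p ≠ p * x) := fun {x t} e =>
    ⟨hm (by rw [map_mul, e, zt_mul h2, ← two_mul, h2, zero_mul, zt_zero, map_one]),
      hm (by simp [e, hd', zt, mul_comm]), fun t0 e' => t0 (by
        simpa [e, hp, zt] using congrFun (congrFun (congrArg m e') 0) 2)⟩
  have e1 : m (z * w) = zt (1 + τ) := by rw [map_mul, hz, hw, zt_mul h2]
  have k1 : d ^ r = 1 := hm (by
    rw [map_pow, hd, diagonal_pow, map_one, ← diagonal_one]; congr 1; ext i; fin_cases i <;> simp [ar, br])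
  have k2 : d * (p * d * p⁻¹) * (p' * d * p'⁻¹) = 1 := hm (by
    rw [map_mul, map_mul, d2, d3, hd', map_one, one_fin_three]
    simp [ab, mul_right_comm a b a, mul_comm b a])
  have key := three h hr (x := μ d) (y := μ (p * d * p⁻¹)) (z := μ (p' * d * p'⁻¹))
    (by rw [← map_pow, k1, map_one])
    (Commute.map (hm (by rw [map_mul, map_mul m _ d, d2, hd']; simp [mul_comm])) μ)
    (by rw [← map_mul, ← map_mul, k2, map_one])
    (μ.map_isConj (isConj_iff.2 ⟨p, rfl⟩)) (μ.map_isConj (isConj_iff.2 ⟨p', rfl⟩))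
    (fr_map hμ (zz hz).1 (zz hw).1 (hm (by rw [e1, map_mul, hz, hw, zt_mul h2, add_comm])) (zz hz).2.1 (zz hw).2.1
      ((zz hz).2.2 one_ne_zero) ((zz hw).2.2 τ0) ((zz e1).2.2 fun e => τ1 (by linear_combination e - h2)))
  have e2 := hμ (d⁻¹ * (p * d * p⁻¹)) (by rw [map_mul, ← key, map_inv, inv_mul_cancel]) p'
  have e3 : p * d * p⁻¹ * p' = p' * (p * d * p⁻¹) := hm (by rw [map_mul, map_mul m p', d2, hp']; simp)
  rw [mul_assoc, e3, ← mul_assoc, ← mul_assoc p', mul_left_inj, inv_mul_eq_iff_eq_mul, ← mul_assoc,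
    eq_mul_inv_iff_mul_eq] at e2
  exact ne (by simpa [hp', hd'] using congrFun (congrFun (congrArg m e2) 2) 0)

theorem exists_cube_ne [Finite K] (H : Subgroup Kˣ) (h : 3 < Nat.card H) : ∃ a ∈ H, a ^ 3 ≠ 1 := by
  obtain ⟨a, ha⟩ := IsCyclic.exists_ofOrder_eq_natCard (α := H)
  exact ⟨a, a.2, fun e => absurd (Nat.le_of_dvd three_pos
    (orderOf_dvd_of_pow_eq_one (x := a) (Subtype.ext e))) (by omega)⟩

theorem exists_ne01 [Finite K] {p : K → Prop} (h : 2 < Nat.card {a // p a}) : ∃ τ, p τ ∧ τ ≠ 0 ∧ τ ≠ 1 := by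
  by_contra hc
  have h1 : {a | p a} ⊆ {0, 1} := fun a ha => by_contra fun e => hc ⟨a, ha, fun e' => e (Or.inl e'), fun e' => e (Or.inr e')⟩
  have h2 := (Set.ncard_le_ncard h1).trans (Set.ncard_pair (zero_ne_one (α := K))).le
  exact absurd h (not_lt.2 h2)

theorem two_eq_zero [Fintype K] {n : ℕ} (h : Fintype.card K = 2 ^ n) : (2 : K) = 0 := by
  have := charP_of_card_eq_prime_pow h
  exact CharTwo.two_eq_zero

theorem det_zt (t : K) (h2 : (2 : K) = 0) : (zt t).det = 1 := by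
  simp only [zt, det_fin_three, of_apply, cons_val', cons_val_zero, cons_val_one, cons_val_fin_one, cons_val]
  linear_combination t * h2

/-- A diagonal matrix. -/
def dS {a b : K} (h : a * a * b = 1) : SL(3, K) :=
  ⟨diagonal ![a, a, b], by rw [det_diagonal, Fin.prod_univ_three]; exact h⟩

/-- A permutation matrix. -/
def pS (h2 : (2 : K) = 0) : SL(3, K) :=
  ⟨!![1, 0, 0; 0, 0, 1; 0, 1, 0], by rw [det_fin_three]; simp [neg_eq_iff_add_eq_zero, one_add_one_eq_two, h2]⟩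

/-- Another permutation matrix. -/
def pS' (h2 : (2 : K) = 0) : SL(3, K) :=
  ⟨!![0, 0, 1; 0, 1, 0; 1, 0, 0], by rw [det_fin_three]; simp [neg_eq_iff_add_eq_zero, one_add_one_eq_two, h2]⟩

theorem ne_of_cube {a : Kˣ} (h : a ^ 3 ≠ 1) : (a : K) ≠ (a * a : K)⁻¹ := fun e =>
  h (Units.ext (by rw [Units.val_pow_eq_pow_val, pow_three']; exact (mul_eq_one_iff_eq_inv₀ (by simp)).2 e |>
    (mul_comm _ _).trans))

theorem tr2 (a b c d : K) : !![a, b; c, d]ᵀ = !![a, c; b, d] := by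
  ext i j; fin_cases i <;> fin_cases j <;> rfl

theorem zero2 : (0 : Matrix (Fin 2) (Fin 2) K) = !![0, 0; 0, 0] := by
  ext i j; fin_cases i <;> fin_cases j <;> rfl

/-- Elements of the symplectic group. -/
def sp (h2 : (2 : K) = 0) (A B C D : Matrix (Fin 2) (Fin 2) K) (h1 : A * Bᵀ = B * Aᵀ) (h3 : C * Dᵀ = D * Cᵀ)
    (h4 : A * Dᵀ + B * Cᵀ = 1) : symplecticGroup (Fin 2) K :=
  ⟨fromBlocks A B C D, by
    have e : ∀ X : Matrix (Fin 2) (Fin 2) K, -X = X := fun X => by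
      rw [neg_eq_iff_add_eq_zero, ← two_smul K, h2, zero_smul]
    have h5 := congrArg transpose h4
    rw [transpose_add, transpose_mul, transpose_mul, transpose_transpose, transpose_transpose, transpose_one] at h5
    rw [SymplecticGroup.mem_iff, J, fromBlocks_multiply, fromBlocks_transpose, fromBlocks_multiply]
    simp only [e, mul_zero, mul_one, zero_add, add_zero]
    rw [add_comm (B * Cᵀ), h4, h5, h1, h3, add_eq_zero_iff_eq_neg.2 (e _).symm, add_eq_zero_iff_eq_neg.2 (e _).symm]⟩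

theorem sp_mul (h2 : (2 : K) = 0) {A B C D A' B' C' D' A'' B'' C'' D'' : Matrix (Fin 2) (Fin 2) K} {h1 h3 h4 h1' h3' h4'}
    {h1'' h3'' h4''} : sp h2 A B C D h1 h3 h4 * sp h2 A' B' C' D' h1' h3' h4' = sp h2 A'' B'' C'' D'' h1'' h3'' h4'' ↔
      A * A' + B * C' = A'' ∧ A * B' + B * D' = B'' ∧ C * A' + D * C' = C'' ∧ C * B' + D * D' = D'' := by
  rw [← fromBlocks_inj, ← fromBlocks_multiply, Subtype.ext_iff]; rfl

/-- Diagonal matrices. -/
def dP (h2 : (2 : K) = 0) (a b : Kˣ) : symplecticGroup (Fin 2) K :=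
  sp h2 !![a, 0; 0, b] 0 0 !![↑a⁻¹, 0; 0, ↑b⁻¹] (by simp) (by simp) (by simp [tr2, one_fin_two])

theorem dP_mul (h2 : (2 : K) = 0) (a b a' b' : Kˣ) : dP h2 a b * dP h2 a' b' = dP h2 (a * a') (b * b') :=
  (sp_mul h2).2 (by simp [mul_comm])

theorem dP_one (h2 : (2 : K) = 0) : dP h2 1 1 = 1 :=
  Subtype.ext (by simp [dP, sp, ← one_fin_two])

theorem dP_pow (h2 : (2 : K) = 0) (a b : Kˣ) (n : ℕ) : dP h2 a b ^ n = dP h2 (a ^ n) (b ^ n) := by
  induction n with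
  | zero => simp [dP_one]
  | succ n ih => rw [pow_succ, ih, dP_mul, pow_succ, pow_succ]

/-- Long root elements. -/
def xP (h2 : (2 : K) = 0) (t : K) : symplecticGroup (Fin 2) K :=
  sp h2 1 !![0, 0; 0, t] 0 1 (by ext i j; fin_cases i <;> fin_cases j <;> simp) (by simp) (by simp)

/-- Short root elements. -/
def yP (h2 : (2 : K) = 0) (t : K) : symplecticGroup (Fin 2) K :=
  sp h2 !![1, t; 0, 1] 0 0 !![1, 0; t, 1] (by simp) (by simp) (by
    rw [tr2, mul_fin_two, Matrix.zero_mul, add_zero, one_fin_two]; simp [show t + t = 0 by linear_combination t * h2])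

/-- The Weyl element swapping the two planes. -/
def sP (h2 : (2 : K) = 0) : symplecticGroup (Fin 2) K :=
  sp h2 !![0, 1; 1, 0] 0 0 !![0, 1; 1, 0] (by simp) (by simp) (by simp [tr2, one_fin_two])

/-- The Weyl element of the first plane. -/
def rP (h2 : (2 : K) = 0) : symplecticGroup (Fin 2) K :=
  sp h2 !![0, 0; 0, 1] !![1, 0; 0, 0] !![1, 0; 0, 0] !![0, 0; 0, 1]
    (by simp only [tr2, mul_fin_two]; simp) (by simp only [tr2, mul_fin_two]; simp) (by simp [tr2, one_fin_two])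

theorem sp_comm (h2 : (2 : K) = 0) {A B C D A' B' C' D' A₁ B₁ C₁ D₁ A₂ B₂ C₂ D₂ : Matrix (Fin 2) (Fin 2) K}
    {h1 h3 h4 h1' h3' h4' k1 k3 k4 k1' k3' k4'} :
    sp h2 A B C D h1 h3 h4 * sp h2 A' B' C' D' h1' h3' h4' = sp h2 A₁ B₁ C₁ D₁ k1 k3 k4 * sp h2 A₂ B₂ C₂ D₂ k1' k3' k4' ↔
      A * A' + B * C' = A₁ * A₂ + B₁ * C₂ ∧ A * B' + B * D' = A₁ * B₂ + B₁ * D₂ ∧
        C * A' + D * C' = C₁ * A₂ + D₁ * C₂ ∧ C * B' + D * D' = C₁ * B₂ + D₁ * D₂ := by
  rw [← fromBlocks_inj, ← fromBlocks_multiply, ← fromBlocks_multiply, Subtype.ext_iff]; rfl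

section

variable (h2 : (2 : K) = 0)

theorem xx (t s : K) : xP h2 t * xP h2 s = xP h2 (t + s) := (sp_mul h2).2 (by simp [add_comm])

theorem yy (t s : K) : yP h2 t * yP h2 s = yP h2 (t + s) := (sp_mul h2).2 (by simp [add_comm])

theorem x0 : xP h2 0 = 1 := Subtype.ext (by simp [xP, sp, ← zero2])

theorem y0 : yP h2 0 = 1 := Subtype.ext (by simp [yP, sp, ← one_fin_two])

theorem xs {t : K} (ht : t ≠ 0) : xP h2 t * sP h2 ≠ sP h2 * xP h2 t := fun e => ht (by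
  simpa using congrFun (congrFun ((sp_comm h2).1 e).2.1 1) 0)

theorem ys {t : K} (ht : t ≠ 0) : yP h2 t * sP h2 ≠ sP h2 * yP h2 t := fun e => ht (by
  simpa using congrFun (congrFun ((sp_comm h2).1 e).1 0) 0)

theorem dx (u : Kˣ) (t : K) : dP h2 u 1 * xP h2 t = xP h2 t * dP h2 u 1 := (sp_comm h2).2 (by simp)

theorem dy (u : Kˣ) (t : K) : dP h2 u u * yP h2 t = yP h2 t * dP h2 u u := (sp_comm h2).2 (by simp [mul_comm])

theorem sd (u : Kˣ) : sP h2 * dP h2 u 1 = dP h2 1 u * sP h2 := (sp_comm h2).2 (by simp)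

theorem rd (b c : Kˣ) : rP h2 * dP h2 b c = dP h2 b⁻¹ c * rP h2 := (sp_comm h2).2 (by
  simp only [mul_fin_two, zero_mul, mul_zero, add_zero, zero_add]; simp)

theorem dr {b c : Kˣ} (e : dP h2 b c * rP h2 = rP h2 * dP h2 b c) : (b : K) = 1 := eq_of_sq h2 (by
  have e1 : (b : K) = (b : K)⁻¹ := by simpa using congrFun (congrFun ((sp_comm h2).1 e).2.1 0) 0
  nth_rw 2 [e1]
  simp)

end

theorem kill4 (h : Ev P π) (h2 : (2 : K) = 0) {μ : symplecticGroup (Fin 2) K →* G}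
    (hμ : ∀ s, μ s = 1 → ∀ t, s * t = t * s) {u : Kˣ} {r : ℕ} (hr : Odd r) (a1 : (u : K) ≠ 1) (ar : u ^ r = 1) :
    False := by
  have t2 : ∀ t : K, t + t = 0 := fun t => by rw [← two_mul, h2, zero_mul]
  have a2 : 1 + (u : K) ≠ 0 := fun e => a1 (by linear_combination e - h2)
  have i1 : (dP h2 u 1)⁻¹ = dP h2 u⁻¹ 1 := inv_eq_of_mul_eq_one_right (by rw [dP_mul, mul_inv_cancel, mul_one, dP_one])
  have m1 : dP h2 u 1 * dP h2 1 u = dP h2 u u := by rw [dP_mul, mul_one, one_mul]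
  have f1 : Fr (μ (dP h2 u 1)) := fr_map hμ (z := xP h2 1) (w := xP h2 u) (by rw [xx, t2, x0]) (by rw [xx, t2, x0])
    (by rw [xx, xx, add_comm]) (dx h2 _ _) (dx h2 _ _) (xs h2 one_ne_zero) (xs h2 u.ne_zero) (by rw [xx]; exact xs h2 a2)
  have f2 : Fr (μ (dP h2 u u)) := fr_map hμ (z := yP h2 1) (w := yP h2 u) (by rw [yy, t2, y0]) (by rw [yy, t2, y0])
    (by rw [yy, yy, add_comm]) (dy h2 _ _) (dy h2 _ _) (ys h2 one_ne_zero) (ys h2 u.ne_zero) (by rw [yy]; exact ys h2 a2)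
  rcases two h hr (x := μ (dP h2 u 1)) (y := μ (dP h2 1 u))
    (by rw [← map_pow, dP_pow, ar, one_pow, dP_one, map_one])
    (Commute.map (by rw [commute_iff_eq, dP_mul, dP_mul, mul_comm u 1]) μ)
    (μ.map_isConj (isConj_iff.2 ⟨sP h2, by rw [sd, mul_inv_cancel_right]⟩))
    (by rw [← map_inv]; exact μ.map_isConj (isConj_iff.2 ⟨rP h2, by rw [rd, mul_inv_cancel_right, i1]⟩)) f1
    (by rwa [← map_mul, m1]) with e | e
  · have e0 : dP h2 u⁻¹ u = (dP h2 u 1)⁻¹ * dP h2 1 u := by rw [i1, dP_mul, mul_one, one_mul]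
    have e1 := dr h2 (hμ (dP h2 u⁻¹ u) (by rw [e0, map_mul, map_inv, e, inv_mul_cancel]) (rP h2))
    exact a1 (by simpa using e1)
  · exact a1 (dr h2 (hμ (dP h2 u u) (by rw [← m1, map_mul, e]) _))

end KH

variable {F : Type*} [Field F] [Finite F] {G : Type*} [Group G] {P : Subgroup (G4 F)}
  {π : P →* G}

theorem Ev.u3 (h : Ev P π) {n : ℕ} (hn : 2 ≤ n) : ¬ IsoU3 G (2 ^ n) := by
  rintro ⟨K, _, _, hK, ⟨e⟩⟩
  obtain ⟨σ, hσ⟩ := exists_uField hK
  have h2 := KH.two_eq_zero (hK.trans (pow_mul 2 n 2).symm)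
  have h4 : 2 ^ 2 ≤ 2 ^ n := Nat.pow_le_pow_right two_pos hn
  obtain ⟨a, ha, a3⟩ := KH.exists_cube_ne (uNormOne σ) (by rw [hσ.card_uNormOne]; omega)
  obtain ⟨τ, t2, t0, t1⟩ := KH.exists_ne01 (p := fun a => σ a = a) (by rw [hσ.card_fixed]; omega)
  have ar : (a : K) ^ (2 ^ n + 1) = 1 := by rw [pow_succ', ← hσ.pow]; exact ha
  have a0 := a.ne_zero
  have σa : σ a = (a : K)⁻¹ := eq_inv_of_mul_eq_one_right ha
  have hz : ∀ t, σ t = t → (KH.zt t)ᵀ * (KH.zt t).map σ = 1 := fun t ht => by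
    rw [← KH.zt_zero, show (0 : K) = t + t by linear_combination -t * h2, ← KH.zt_mul h2]
    congr 1 <;> ext i j <;> fin_cases i <;> fin_cases j <;> simp [KH.zt, ht]
  refine KH.kill3 (h.comp e) h2 (μ := QuotientGroup.mk' _)
    (fun s hs t => ((mem_center_iff.1 ((QuotientGroup.eq_one_iff s).1 hs)) t).symm)
    (m := SpecialLinearGroup.coeMonoidHom.comp (SU 3 K (2 ^ n)).subtype)
    (fun _ _ e => Subtype.ext (Subtype.ext e)) (a := a) (b := (a * a : K)⁻¹) (r := 2 ^ n + 1)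
    ((Nat.even_pow.2 ⟨even_two, by omega⟩).add_one) (mul_inv_cancel₀ (mul_ne_zero a0 a0))
    (KH.ne_of_cube a3) ar (by rw [inv_pow, mul_pow, ar, mul_one, inv_one]) t0 t1
    (d := ⟨KH.dS (mul_inv_cancel₀ (mul_ne_zero a0 a0)), (hσ.mem_SU_iff _).2 ?_⟩)
    (p := ⟨KH.pS h2, (hσ.mem_SU_iff _).2 ?_⟩) (p' := ⟨KH.pS' h2, (hσ.mem_SU_iff _).2 ?_⟩)
    (z := ⟨⟨_, KH.det_zt 1 h2⟩, (hσ.mem_SU_iff _).2 (hz 1 (map_one σ))⟩)
    (w := ⟨⟨_, KH.det_zt τ h2⟩, (hσ.mem_SU_iff _).2 (hz τ t2)⟩) rfl rfl rfl rfl rfl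
  · ext i j
    fin_cases i <;> fin_cases j <;> simp [KH.dS, Matrix.mul_apply, Fin.sum_univ_three, σa, a0]
    field_simp
  · ext i j
    fin_cases i <;> fin_cases j <;> simp [KH.pS, Matrix.mul_apply, Fin.sum_univ_three]
  · ext i j
    fin_cases i <;> fin_cases j <;> simp [KH.pS', Matrix.mul_apply, Fin.sum_univ_three]

theorem Ev.l3 (h : Ev P π) {n : ℕ} (hn : 3 ≤ n) : ¬ IsoL3 G (2 ^ n) := by
  rintro ⟨K, _, _, hK, ⟨e⟩⟩
  have h2 := KH.two_eq_zero hK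
  have h4 : 2 ^ 3 ≤ 2 ^ n := Nat.pow_le_pow_right two_pos hn
  obtain ⟨a, -, a3⟩ := KH.exists_cube_ne (⊤ : Subgroup Kˣ) (by
    rw [card_top, Nat.card_units, Nat.card_eq_fintype_card, hK]; omega)
  obtain ⟨τ, -, t0, t1⟩ := KH.exists_ne01 (K := K) (p := fun _ => True) (by
    rw [Nat.card_subtype_true, Nat.card_eq_fintype_card, hK]; omega)
  have a0 := a.ne_zero
  have ar : (a : K) ^ (2 ^ n - 1) = 1 := hK ▸ FiniteField.pow_card_sub_one_eq_one _ a0
  exact KH.kill3 (h.comp e) h2 (μ := QuotientGroup.mk' _)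
    (fun s hs t => ((mem_center_iff.1 ((QuotientGroup.eq_one_iff s).1 hs)) t).symm)
    (m := SpecialLinearGroup.coeMonoidHom) (fun _ _ e => Subtype.ext e) (a := a) (b := (a * a : K)⁻¹)
    (r := 2 ^ n - 1) (Nat.Even.sub_odd (by omega) (Nat.even_pow.2 ⟨even_two, by omega⟩) odd_one)
    (mul_inv_cancel₀ (mul_ne_zero a0 a0)) (KH.ne_of_cube a3) ar (by rw [inv_pow, mul_pow, ar, mul_one, inv_one])
    t0 t1 (d := KH.dS (mul_inv_cancel₀ (mul_ne_zero a0 a0))) (p := KH.pS h2) (p' := KH.pS' h2)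
    (z := ⟨_, KH.det_zt 1 h2⟩) (w := ⟨_, KH.det_zt τ h2⟩) rfl rfl rfl rfl rfl

theorem Ev.s4 (h : Ev P π) {n : ℕ} (hn : 2 ≤ n) : ¬ IsoS4 G (2 ^ n) := by
  rintro ⟨K, _, _, hK, ⟨e⟩⟩
  have h2 := KH.two_eq_zero hK
  have h4 : 2 ^ 2 ≤ 2 ^ n := Nat.pow_le_pow_right two_pos hn
  obtain ⟨a, -, a0, a1⟩ := KH.exists_ne01 (K := K) (p := fun _ => True) (by
    rw [Nat.card_subtype_true, Nat.card_eq_fintype_card, hK]; omega)
  exact KH.kill4 (h.comp e) h2 (μ := QuotientGroup.mk' _)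
    (fun s hs t => ((mem_center_iff.1 ((QuotientGroup.eq_one_iff s).1 hs)) t).symm) (u := Units.mk0 a a0)
    (r := 2 ^ n - 1) (Nat.Even.sub_odd (by omega) (Nat.even_pow.2 ⟨even_two, by omega⟩) odd_one) a1
    (Units.ext (by simpa [← hK] using FiniteField.pow_card_sub_one_eq_one _ a0))

end Cfsg.Agent.Cl.D4
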