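/-
Subgroups of `L₃(4)`: the two groups of order sixteen and the group `3² : Q₈`.
-/
import Mathlib
import Cfsg.Agent.Cl.D4Defs
import Cfsg.Agent.Cl.GFSmall
import Cfsg.Agent.Cl.Transport
import Cfsg.Agent.Cl.LinearBasic

set_option autoImplicit false

namespace Cfsg.Agent.Cl.D4.L34

open Matrix Subgroup
open scoped MatrixGroups commutatorElement

/-- The special linear group. -/
abbrev S3 : Type := SL(3, GF4)

/-- A primitive element. -/
abbrev w : GF4 := TF.prim gf4

theorem mem_norm {G : Type*} [Group G] [Finite G] {A : Subgroup G} {g : G}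
    (h : ∀ x ∈ A, g * x * g⁻¹ ∈ A) : g ∈ normalizer (A : Set G) := mem_normalizer_fintype h

/-- First row. -/
def ro (a b : GF4) : S3 := ⟨!![1, a, b; 0, 1, 0; 0, 0, 1], by simp [det_fin_three]⟩

/-- Last column. -/
def co (a b : GF4) : S3 := ⟨!![1, 0, a; 0, 1, b; 0, 0, 1], by simp [det_fin_three]⟩

/-- A diagonal matrix. -/
def xx : S3 := ⟨!![1, 0, 0; 0, w, 0; 0, 0, w + 1], by rw [det_fin_three]; decide +kernel⟩

/-- A cyclic permutation matrix. -/
def yy : S3 := ⟨!![0, 1, 0; 0, 0, 1; 1, 0, 0], by rw [det_fin_three]; decide +kernel⟩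

/-- A central element. -/
def zz : S3 := ⟨!![w, 0, 0; 0, w, 0; 0, 0, w], by rw [det_fin_three]; decide +kernel⟩

/-- The Fourier matrix. -/
def ii : S3 := ⟨!![1, 1, 1; 1, w, w + 1; 1, w + 1, w], by rw [det_fin_three]; decide +kernel⟩

/-- A second element of order four. -/
def jj : S3 := ⟨!![w + 1, 1, 1; w, 1, w; w, w, 1], by rw [det_fin_three]; decide +kernel⟩

/-- A transvection. -/
abbrev tv (i j : Fin 3) (c : GF4) (h : i ≠ j := by decide) : S3 :=
  SpecialLinearGroup.transvection h c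

variable {G : Type*} [Group G] [Finite G] {f : S3 →* G}

theorem ea_aux (hf : ∀ g, f g = 1 ↔ g ∈ center S3) (r : GF4 → GF4 → S3)
    (h1 : ∀ a b c d, (r a b).1 * (r c d).1 = (r (a + c) (b + d)).1)
    (h2 : ∀ a b, (yy.1 * (r a b).1 = (r a b).1 * yy.1) → a = 0 ∧ b = 0) :
    ∃ A : Subgroup G, EA A 4 ∧ (∀ a b, f (r a b) ∈ A) ∧
      (∀ X : Subgroup G, (∀ a b, f (r a b) ∈ X) → A ≤ X) ∧
      ∀ g : S3, (∀ a b, ∃ c d, g.1 * (r a b).1 = (r c d).1 * g.1) → f g ∈ normalizer (A : Set G) := by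
  let φ : Multiplicative (GF4 × GF4) →* G := f.comp (MonoidHom.mk'
    (fun x => r x.toAdd.1 x.toAdd.2) fun x y => (Subtype.ext (h1 _ _ _ _)).symm)
  have hi : Function.Injective φ := (injective_iff_map_eq_one φ).2 fun x hx => by
    have := h2 _ _ (congrArg Subtype.val (mem_center_iff.1 ((hf _).1 hx) yy))
    exact Multiplicative.toAdd.injective (Prod.ext this.1 this.2)
  refine ⟨φ.range, ⟨?_, ?_⟩, fun a b => ⟨Multiplicative.ofAdd (a, b), rfl⟩, ?_, fun g hg =>
    mem_norm ?_⟩
  · rintro _ ⟨x, rfl⟩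
    rw [← map_mul, show x * x = 1 from by revert x; decide +kernel, map_one]
  · rw [← Nat.card_congr (MonoidHom.ofInjective hi).toEquiv, Nat.card_eq_fintype_card]
    rfl
  · rintro X hX _ ⟨x, rfl⟩
    exact hX _ _
  · rintro _ ⟨x, rfl⟩
    obtain ⟨c, d, e⟩ := hg x.toAdd.1 x.toAdd.2
    refine ⟨Multiplicative.ofAdd (c, d), eq_mul_inv_of_mul_eq ?_⟩
    exact (map_mul f _ _).symm.trans ((congrArg f (Subtype.ext e.symm)).trans (map_mul f _ _))

omit [Finite G] in
theorem comm_eq {u v t : S3} (h : u.1 * v.1 = t.1 * v.1 * u.1) : f t = ⁅f u, f v⁆ := by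
  rw [← map_commutatorElement, commutatorElement_def, show u * v = t * v * u from Subtype.ext h]
  congr 1
  group

theorem exists_AB (hf : ∀ g, f g = 1 ↔ g ∈ center S3) (hs : Function.Surjective f) :
    ∃ A B : Subgroup G, EA A 4 ∧ EA B 4 ∧ ∀ X : Subgroup G, A ≤ X →
      (∀ u ∈ normalizer (A : Set G), ∀ v ∈ normalizer (A : Set G), ⁅u, v⁆ ∈ X) → B ≤ X ∧
        ((∀ u ∈ normalizer (B : Set G), ∀ v ∈ normalizer (B : Set G), ⁅u, v⁆ ∈ X) → X = ⊤) := by
  obtain ⟨A, a1, a2, -, a4⟩ := ea_aux hf ro (by decide +kernel) (by decide +kernel)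
  obtain ⟨B, b1, -, b3, b4⟩ := ea_aux hf co (by decide +kernel) (by decide +kernel)
  refine ⟨A, B, a1, b1, fun X hA hN => ?_⟩
  have t01 : ∀ c, f (tv 0 1 c) ∈ X := fun c => by
    rw [show tv 0 1 c = ro c 0 from Subtype.ext (by revert c; decide +kernel)]
    exact hA (a2 _ _)
  have t02 : ∀ c, f (tv 0 2 c) ∈ X := fun c => by
    rw [show tv 0 2 c = ro 0 c from Subtype.ext (by revert c; decide +kernel)]
    exact hA (a2 _ _)
  have xA := a4 xx (by decide +kernel)
  have t12 : ∀ c, f (tv 1 2 c) ∈ X := fun c => by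
    rw [comm_eq (u := xx) (v := tv 1 2 ((w + 1) * c)) (by revert c; decide +kernel)]
    exact hN _ xA _ (a4 _ (by revert c; decide +kernel))
  have t21 : ∀ c, f (tv 2 1 c) ∈ X := fun c => by
    rw [comm_eq (u := xx) (v := tv 2 1 (w * c)) (by revert c; decide +kernel)]
    exact hN _ xA _ (a4 _ (by revert c; decide +kernel))
  refine ⟨b3 X fun a b => ?_, fun hN' => ?_⟩
  · rw [show co a b = tv 0 2 a * tv 1 2 b from Subtype.ext (by revert a b; decide +kernel), map_mul]
    exact mul_mem (t02 a) (t12 b)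
  have t10 : ∀ c, f (tv 1 0 c) ∈ X := fun c => by
    rw [comm_eq (u := xx) (v := tv 1 0 (w * c)) (by revert c; decide +kernel)]
    exact hN' _ (b4 xx (by decide +kernel)) _ (b4 _ (by revert c; decide +kernel))
  have t20 : ∀ c, f (tv 2 0 c) ∈ X := fun c => by
    rw [comm_eq (u := tv 2 1 1) (v := tv 1 0 c) (by revert c; decide +kernel),
      commutatorElement_def]
    exact mul_mem (mul_mem (mul_mem (t21 1) (t10 c)) (inv_mem (t21 1))) (inv_mem (t10 c))
  have top : X.comap f = ⊤ := by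
    rw [eq_top_iff, ← sl_closure_transvections, closure_le]
    rintro _ ⟨i, j, h, c, rfl⟩
    fin_cases i <;> fin_cases j
    exacts [absurd rfl h, t01 c, t02 c, t10 c, absurd rfl h, t12 c, t20 c, t21 c, absurd rfl h]
  rw [← map_comap_eq_self_of_surjective hs X, top, map_top_of_surjective f hs]

theorem perm_four : ∀ a b : Equiv.Perm (Fin 4), a * a = b * b → a * b * a = b → a * a = 1 := by
  decide +kernel

theorem exists_Q (hf : ∀ g, f g = 1 ↔ g ∈ center S3) :
    ∃ (A : Subgroup G) (i j : normalizer (A : Set G)), (∀ x ∈ A, x ^ 3 = 1) ∧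
      (∀ x ∈ A, ∀ y ∈ A, Commute x y) ∧ i * i = j * j ∧ i * j * i = j ∧
      ∃ x ∈ A, ¬ Commute ((i * i : normalizer (A : Set G)) : G) x := by
  have z : f zz = 1 := (hf _).2 (Matrix.SpecialLinearGroup.mem_center_iff.2
    ⟨w, by decide +kernel, by decide +kernel⟩)
  have e : ∀ {a b : S3}, a.1 = b.1 → f a = f b := fun h => congrArg f (Subtype.ext h)
  have xy : Commute (f xx) (f yy) := by
    have := e (a := xx * yy) (b := zz * zz * (yy * xx)) (by decide +kernel)
    simp only [map_mul, z, one_mul] at this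
    exact this
  have hx : f xx ∈ closure {f xx, f yy} := subset_closure (by simp)
  have hy : f yy ∈ closure {f xx, f yy} := subset_closure (by simp)
  have nm : ∀ g, g * f xx * g⁻¹ ∈ closure {f xx, f yy} → g * f yy * g⁻¹ ∈ closure {f xx, f yy} →
      g ∈ normalizer ((closure {f xx, f yy} : Subgroup G) : Set G) := fun g h1 h2 =>
    mem_norm fun x hx => (show closure {f xx, f yy} ≤
      (closure {f xx, f yy}).comap (MulAut.conj g).toMonoidHom from (closure_le _).2 (by
        rintro _ (rfl | rfl)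
        exacts [h1, h2])) hx
  have cm : ∀ x ∈ closure {f xx, f yy}, ∀ y ∈ closure {f xx, f yy}, Commute x y :=
    fun x hx y hy => closure_induction₂ (p := fun x y _ _ => Commute x y)
      (by rintro _ _ (rfl | rfl) (rfl | rfl); exacts [rfl, xy, xy.symm, rfl])
      (fun _ _ => Commute.one_left _) (fun _ _ => Commute.one_right _)
      (fun _ _ _ _ _ _ a b => a.mul_left b) (fun _ _ _ _ _ _ a b => a.mul_right b)
      (fun _ _ _ _ a => a.inv_left) (fun _ _ _ _ a => a.inv_right) hx hy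
  have i1 := e (a := ii * xx) (b := yy * ii) (by decide +kernel)
  have i2 := e (a := ii * yy) (b := xx * xx * ii) (by decide +kernel)
  have j1 := e (a := jj * xx) (b := xx * xx * yy * zz * jj) (by decide +kernel)
  have j2 := e (a := jj * yy) (b := xx * yy * zz * zz * jj) (by decide +kernel)
  have k1 := e (a := ii * ii) (b := zz * zz * (jj * jj)) (by decide +kernel)
  have k2 := e (a := ii * jj * ii) (b := jj) (by decide +kernel)
  have x3 := e (a := xx * xx * xx) (b := 1) (by decide +kernel)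
  have y3 := e (a := yy * yy * yy) (b := 1) (by decide +kernel)
  simp only [map_mul, z, one_mul, mul_one, map_one] at i1 i2 j1 j2 k1 k2 x3 y3
  refine ⟨closure {f xx, f yy}, ⟨f ii, nm _ ?_ ?_⟩, ⟨f jj, nm _ ?_ ?_⟩, fun x hx => ?_, cm,
    Subtype.ext k1, Subtype.ext k2, f xx, hx, fun c => ?_⟩
  · rwa [i1, mul_inv_cancel_right]
  · rw [i2, mul_inv_cancel_right]
    exact mul_mem hx hx
  · rw [j1, mul_inv_cancel_right]
    exact mul_mem (mul_mem hx hx) hy
  · rw [j2, mul_inv_cancel_right]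
    exact mul_mem hx hy
  · induction hx using closure_induction with
    | mem x h => rcases h with rfl | rfl <;> rwa [pow_succ, pow_two]
    | one => exact one_pow 3
    | mul x y h1 h2 a b => rw [(cm x h1 y h2).mul_pow, a, b, one_mul]
    | inv x _ a => rw [inv_pow, a, inv_one]
  · have c : f ii * f ii * f xx = f xx * (f ii * f ii) := c
    rw [mul_assoc, i1, ← mul_assoc, i2, mul_assoc, mul_left_inj, mul_eq_left] at c
    exact absurd (congrArg Subtype.val (mem_center_iff.1 ((hf _).1 c) yy)) (by decide +kernel)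

omit [Finite G] in
theorem exists_f (e : IsoL3 G 4) : ∃ f : S3 →* G, (∀ g, f g = 1 ↔ g ∈ center S3) ∧
    Function.Surjective f := by
  obtain ⟨K, _, _, hK, ⟨e⟩⟩ := e
  obtain ⟨φ⟩ := nonempty_ringEquiv_GF4 K hK
  let ψ : PSL(3, GF4) ≃* G := (e.trans (pslMapEquiv (Fin 3) φ)).symm
  exact ⟨ψ.toMonoidHom.comp (QuotientGroup.mk' _), fun g => (map_eq_one_iff ψ ψ.injective).trans
    (QuotientGroup.eq_one_iff g), ψ.surjective.comp (QuotientGroup.mk'_surjective _)⟩

end Cfsg.Agent.Cl.D4.L34
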