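/-
Four-dimensional representations of covers of `L₃(4)`.
-/
import Mathlib
import Cfsg.Agent.Cl.D4W
import Cfsg.Agent.Cl.D4L34a

set_option autoImplicit false

namespace Cfsg.Agent.Cl.D4

open Matrix Cfsg.Geo Cfsg.Agent.Cl.Max Cfsg.Agent.Cl.Mx Subgroup
open Cfsg.Agent.Cl.D5 (MT Root TrGen Cov NoTv)
open scoped MatrixGroups commutatorElement

namespace L34

variable {F : Type*} [Field F]

/-- A semilinear anti-automorphism of the matrix algebra. -/
structure Star (σ : F →+* F) (s : M4 F → M4 F) : Prop where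
  smul : ∀ (c : F) X, s (c • X) = σ c • s X
  mul : ∀ X Y, s (X * Y) = s Y * s X
  one : s 1 = 1
  tr : ∀ X, (s X).trace = σ X.trace

theorem exists_star {H : Subgroup (G4 F)} (hP : Spans H) (σ : F →+* F)
    (h : ∀ g ∈ H, σ (g : M4 F).trace = ((g⁻¹ : G4 F) : M4 F).trace) :
    ∃ s, Star σ s ∧ ∀ g ∈ H, s g = (g⁻¹ : G4 F) := by
  let R : M4 F → M4 F → Prop := fun X Y => ∀ k ∈ H,
    (Y * ((k⁻¹ : G4 F) : M4 F)).trace = σ ((k : M4 F) * X).trace
  have hu : ∀ X Y Y', R X Y → R X Y' → Y = Y' := fun X Y Y' h1 h2 =>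
    ext_iff_trace_mul_right.2 fun Z => spanAlg_induction
      (p := fun Z => (Y * Z).trace = (Y' * Z).trace)
      (fun k hk => by simpa using (h1 _ (H.inv_mem hk)).trans (h2 _ (H.inv_mem hk)).symm)
      (by simp) (fun a b ha hb => by rw [mul_add, mul_add, trace_add, trace_add, ha, hb])
      (fun c a ha => by rw [mul_smul_comm, mul_smul_comm, trace_smul, trace_smul, ha]) (hP Z)
  have rg : ∀ g ∈ H, R g (g⁻¹ : G4 F) := fun g hg k hk => by
    rw [← Units.val_mul, ← Units.val_mul, h _ (H.mul_mem hk hg), _root_.mul_inv_rev]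
  have radd : ∀ X Y X' Y', R X Y → R X' Y' → R (X + X') (Y + Y') := fun X Y X' Y' h1 h2 k hk => by
    rw [add_mul, mul_add, trace_add, trace_add, map_add, h1 k hk, h2 k hk]
  have rsmul : ∀ (c : F) X Y, R X Y → R (c • X) (σ c • Y) := fun c X Y h1 k hk => by
    rw [smul_mul_assoc, mul_smul_comm, trace_smul, trace_smul, smul_eq_mul, smul_eq_mul, map_mul,
      h1 k hk]
  have hex : ∀ X, ∃ Y, R X Y := fun X => spanAlg_induction (p := fun X => ∃ Y, R X Y)
    (fun g hg => ⟨_, rg g hg⟩) ⟨0, fun k _ => by simp⟩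
    (fun a b ⟨_, ha⟩ ⟨_, hb⟩ => ⟨_, radd _ _ _ _ ha hb⟩)
    (fun c a ⟨_, ha⟩ => ⟨_, rsmul c _ _ ha⟩) (hP X)
  choose s hs using hex
  have hadd : ∀ X Y, s (X + Y) = s X + s Y := fun X Y =>
    hu _ _ _ (hs _) (radd _ _ _ _ (hs X) (hs Y))
  have hsmul : ∀ (c : F) X, s (c • X) = σ c • s X := fun c X =>
    hu _ _ _ (hs _) (rsmul c _ _ (hs X))
  have h0 : s 0 = 0 := by simpa using hsmul 0 0
  have hN : ∀ g ∈ H, s g = (g⁻¹ : G4 F) := fun g hg => hu _ _ _ (hs _) (rg g hg)
  refine ⟨s, ⟨hsmul, fun X Y => ?_, by simpa using hN 1 H.one_mem,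
    fun X => by simpa using hs X 1 H.one_mem⟩, hN⟩
  refine spanAlg_induction (p := fun X => s (X * Y) = s Y * s X) (fun g hg => ?_)
    (by rw [zero_mul, h0, mul_zero]) (fun a b ha hb => by rw [add_mul, hadd, ha, hb, hadd,
      mul_add]) (fun c a ha => by rw [smul_mul_assoc, hsmul, ha, hsmul, mul_smul_comm]) (hP X)
  refine spanAlg_induction (p := fun Y => s ((g : M4 F) * Y) = s Y * s g) (fun k hk => ?_)
    (by rw [mul_zero, h0, zero_mul]) (fun a b ha hb => by rw [mul_add, hadd, ha, hb, hadd,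
      add_mul]) (fun c a ha => by rw [mul_smul_comm, hsmul, ha, hsmul, smul_mul_assoc]) (hP Y)
  rw [← Units.val_mul, hN _ (H.mul_mem hg hk), hN g hg, hN k hk, _root_.mul_inv_rev, Units.val_mul]

variable {G : Type*} [Group G] {P : Subgroup (G4 F)} {π : P →* G} {σ : F →+* F} {s : M4 F → M4 F}

theorem Star.inv (h : Star σ s) (a : P) : s (mat a) * s (mat a⁻¹) = 1 := by
  rw [← h.mul, mat_inv_mul, h.one]

/-- The elements inverted by `s`. -/
def Star.fix (h : Star σ s) (P : Subgroup (G4 F)) : Subgroup P where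
  carrier := {a | s (mat a) = mat a⁻¹}
  one_mem' := by simpa [mat_one] using h.one
  mul_mem' {a b} ha hb := by
    change s (mat a * mat b) = _
    rw [h.mul, ha, hb, _root_.mul_inv_rev, mat_mul]
  inv_mem' {a} ha := by
    have e := h.inv a
    rw [ha] at e
    change s (mat a⁻¹) = _
    rw [inv_inv, ← one_mul (s _), ← mat_mul_inv a, mul_assoc, e, mul_one]

theorem Star.scal (h : Star σ s) {A : Subgroup G} (hs : Spans ((A.comap π).map P.subtype))
    (hA : A.comap π ≤ h.fix P) {g : P} (hg : π g ∈ normalizer (A : Set G)) :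
    ∃ c : F, s (mat g) = c • mat g⁻¹ := by
  obtain ⟨c, e⟩ := hs.scalar_of_commute (y := s (mat g) * mat g) (by
    rintro _ ⟨a, ha, rfl⟩
    have m : g * a⁻¹ * g⁻¹ ∈ A.comap π := by
      rw [mem_comap, map_mul, map_mul, map_inv π g]
      exact (mem_normalizer_iff.1 hg _).1 (inv_mem ha : a⁻¹ ∈ A.comap π)
    have e : s (mat (g * a⁻¹ * g⁻¹)) = _ := hA m
    have e2 : s (mat a⁻¹) = _ := hA (inv_mem ha)
    rw [mat_mul, mat_mul, h.mul, h.mul, e2, inv_inv, show (g * a⁻¹ * g⁻¹)⁻¹ = g * a * g⁻¹ by group,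
      mat_mul, mat_mul] at e
    change _ * mat a = mat a * _
    calc _ = s (mat g) * (mat g * mat a * mat g⁻¹) * mat g := by
          simp only [mul_assoc, mat_inv_mul, mul_one]
      _ = _ := by rw [← e, ← mul_assoc (s _), h.inv, one_mul, mul_assoc])
  exact ⟨c, by rw [← mul_one (s _), ← mat_mul_inv g, ← mul_assoc, e, smul_mul_assoc, one_mul]⟩

theorem Star.comm (h : Star σ s) (hπ : PC P π) {A : Subgroup G}
    (hs : Spans ((A.comap π).map P.subtype)) (hA : A.comap π ≤ h.fix P) :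
    ∀ u ∈ normalizer (A : Set G), ∀ v ∈ normalizer (A : Set G), ⁅u, v⁆ ∈ (h.fix P).map π := by
  intro u hu v hv
  obtain ⟨a, rfl⟩ := hπ.surj u
  obtain ⟨b, rfl⟩ := hπ.surj v
  refine ⟨⁅a, b⁆, ?_, map_commutatorElement _ _ _⟩
  have k : ∀ g : P, π g ∈ normalizer (A : Set G) → ∃ c d : F, c * d = 1 ∧
      s (mat g) = c • mat g⁻¹ ∧ s (mat g⁻¹) = d • mat g := fun g hg => by
    obtain ⟨c, e⟩ := h.scal hs hA hg
    obtain ⟨d, e'⟩ := h.scal hs hA (g := g⁻¹) (by rw [map_inv]; exact inv_mem hg)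
    rw [inv_inv] at e'
    have := h.inv g
    rw [e, e', smul_mul_smul_comm, mat_inv_mul] at this
    exact ⟨c, d, smul_one_inj (this.trans (one_smul _ _).symm), e, e'⟩
  obtain ⟨c, d, h1, h2, h3⟩ := k a hu
  obtain ⟨c', d', h1', h2', h3'⟩ := k b hv
  change s (mat ⁅a, b⁆) = _
  rw [commutatorElement_inv, commutatorElement_def, commutatorElement_def]
  simp only [mat_mul, h.mul, h2, h3, h2', h3', smul_mul_assoc, mul_smul_comm, smul_smul, mul_assoc]
  exact (congrArg (· • _) (by linear_combination (c' * d') * h1 + h1')).trans (one_smul F _)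

end L34

variable {F : Type*} [Field F] [Fintype F] {G : Type*} [Group G] {P : Subgroup (G4 F)}
  {π : P →* G}

open L34 in
theorem Ctx.l34 (p : ℕ) [Fact p.Prime] [CharP F p] (h : Ctx P π) (ht : TrGen P) (e : IsoL3 G 4) :
    p = 3 ∧ (Real P ∨ Herm P 3) := by
  have := h.pc.finite
  obtain ⟨f, hf, hs⟩ := exists_f e
  obtain rfl : p = 3 := by
    by_contra p3
    have n3 : ((3 : ℕ) : F) ≠ 0 := fun e => p3 ((D5.cast_eq_zero_iff p Nat.prime_three).1 e)
    obtain ⟨A, i, j, h1, h2, h3, h4, x, hx, h5⟩ := exists_Q hf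
    obtain ⟨φ, hφ⟩ := h.pc.wperm (A := A)
      (fun x hx y hy => h.pc.cm_of_odd (by decide) (h1 x hx) (h2 x hx y hy)) n3 h1
    refine h5 ((hφ (i * i) ?_ x hx).commute h.pc)
    rw [map_mul]
    exact perm_four _ (φ j) (by simp only [← map_mul, h3]) (by simp only [← map_mul, h4])
  have h3 : (3 : F) = 0 := by simpa using CharP.cast_eq_zero F 3
  have h2 : (2 : F) ≠ 0 := fun e => one_ne_zero (α := F) (by linear_combination h3 - e)
  obtain ⟨A, B, hA, hB, hX⟩ := exists_AB hf hs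
  have sc : ∀ a : P, π a = 1 → ∃ c : F, mat a = c • (1 : M4 F) ∧ mat a⁻¹ = c ^ 3 • (1 : M4 F) :=
    fun a ha => by
      obtain ⟨c, c4, e⟩ := (Cov.eq_iff4 h.cov a 1).1 (ha.trans (map_one π).symm)
      rw [mat_one] at e
      refine ⟨c, e, ?_⟩
      have := mat_inv_mul a
      rw [e, mul_smul_comm, mul_one] at this
      rw [← this, smul_smul, ← pow_succ, c4, one_smul]
  obtain ⟨s, st, hst⟩ := exists_star (h.pc.span_ea h2 hA) (frobenius F 3) (by
    rintro _ ⟨a, ha, rfl⟩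
    change frobenius F 3 (mat a).trace = (mat a⁻¹).trace
    by_cases a1 : π a = 1
    · obtain ⟨c, e, e'⟩ := sc a a1
      rw [e, e', frobenius_def]
      simp only [trace_smul, trace_one, Fintype.card_fin, smul_eq_mul, Nat.cast_ofNat]
      linear_combination (20 * c ^ 3) * h3
    · obtain ⟨y, -, an⟩ := h.pc.nondeg h2 hA.1 hA.2.ge ha a1
      have an' : An π (π a⁻¹) y := by
        rw [map_inv]
        exact an.symm.inv.symm
      rw [an.trace h.pc h2, an'.trace h.pc h2, map_zero])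
  have ker : ∀ a : P, π a = 1 → a ∈ st.fix P := fun a ha => by
    obtain ⟨c, e, e'⟩ := sc a ha
    change s (mat a) = _
    rw [e, e', st.smul, st.one, frobenius_def]
  have cm : ((st.fix P).map π).comap π = st.fix P := comap_map_eq_self fun a ha => ker a ha
  have a1 : A.comap π ≤ st.fix P := fun a ha => hst a ⟨a, ha, rfl⟩
  obtain ⟨b1, b2⟩ := hX ((st.fix P).map π)
    ((map_comap_eq_self_of_surjective h.cov.surj A).ge.trans (map_mono a1))
    (st.comm h.pc (h.pc.span_ea h2 hA) a1)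
  have top := b2 (st.comm h.pc (h.pc.span_ea h2 hB) ((comap_mono b1).trans cm.le))
  rw [top, comap_top] at cm
  refine ⟨rfl, real_or_herm 3 h.qs ht fun a => ?_⟩
  have e : s (mat a) = _ := cm.le (mem_top a)
  rw [← e, st.tr, frobenius_def]

end Cfsg.Agent.Cl.D4
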