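/-
Subgroups of `SL₄(F)`: the matrices `Gs i j` and signed permutations.
-/
import Mathlib
import Cfsg.Agent.Cl.D4W

set_option autoImplicit false

namespace Cfsg.Agent.Cl.D4.P0

open Matrix Cfsg.Geo Cfsg.Agent.Cl.Max Cfsg.Agent.Cl.Mx Subgroup Equiv

variable {F : Type*} [Field F] {ι : F}

theorem sg_xor (a b : Bool) : sg F (xor a b) = sg F a * sg F b := by
  cases a <;> cases b <;> simp [sg]

theorem sg_sq (a : Bool) : sg F a * sg F a = 1 := by cases a <;> simp [sg]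

theorem sg_ne (a : Bool) : sg F a ≠ 0 := left_ne_zero_of_mul_eq_one (sg_sq a)

theorem sg_inj (h2 : (2 : F) ≠ 0) {a b : Bool} (h : sg F a = sg F b) : a = b := by
  cases a <;> cases b <;> simp only [sg] at h <;> first
    | rfl
    | exact absurd (by simp at h; linear_combination h) h2
    | exact absurd (by simp at h; linear_combination -h) h2

theorem sg_of_sq {c : F} (h : c * c = 1) : ∃ b, c = sg F b :=
  (mul_self_eq_one_iff.1 h).elim (fun e => ⟨false, e⟩) fun e => ⟨true, e⟩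

theorem act_mul {X Y : M4 F} {g h : SP} (a : Act ι X g) (b : Act ι Y h) :
    Act ι (X * Y) (g * h) := fun i j => by
  rw [mul_assoc, b, mul_smul_comm, ← mul_assoc, a, smul_mul_assoc, smul_smul, mul_assoc _ X]
  simp only [SP.mul_e, SP.mul_s, sg_xor, Perm.mul_apply]
  congr 1
  ring

theorem act_one : Act ι 1 1 := fun i j => by simp [sg]

theorem act_smul {X : M4 F} {g : SP} (a : Act ι X g) (c : F) : Act ι (c • X) g := fun i j => by
  rw [smul_mul_assoc, a, mul_smul_comm, smul_comm]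

theorem act_inv {X Y : M4 F} {g : SP} (a : Act ι X g) (e : X * Y = 1) : Act ι Y g⁻¹ := fun i j => by
  have e' := mul_eq_one_comm.1 e
  have h := congrArg (fun Z => Y * Z * Y) (a (g.s⁻¹ i) (g.s⁻¹ j))
  simp only [Perm.coe_inv, apply_symm_apply, mul_smul_comm, smul_mul_assoc] at h
  rw [← mul_assoc, e', one_mul, mul_assoc, mul_assoc, e, mul_one] at h
  simp only [SP.inv_e, SP.inv_s, Perm.coe_inv]
  rw [h, smul_smul, mul_mul_mul_comm, sg_sq, sg_sq, one_mul, one_smul]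

theorem act_neg {X : M4 F} {g : SP} (a : Act ι X g) : Act ι X (SP.neg * g) := fun i j => by
  rw [a]
  simp only [SP.neg, SP.mul_e, SP.mul_s, one_mul]
  cases g.e i <;> cases g.e j <;> simp [sg]

theorem Gs_inv (h : ι * ι = -1) (i j : Fin 6) : Gs ι i j * Gs ι j i = 1 := by
  rw [Gs_mul h, Gs_self h]

theorem Gs_sq (h : ι * ι = -1) {i j : Fin 6} (hij : i ≠ j) : Gs ι i j * Gs ι i j = -1 := by
  rw [← neg_neg (Gs ι i j * _), ← mul_neg, ← Gs_swap h hij, Gs_inv h]

theorem act_Gs0 (h : ι * ι = -1) (i j l : Fin 6) :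
    Gs ι i j * Gs ι i l = (sg F ((SP.dg i j).e i) * sg F ((SP.dg i j).e l)) •
      (Gs ι i l * Gs ι i j) := by
  by_cases h1 : i = j
  · subst h1
    simp [SP.dg, sg, Gs_self h]
  by_cases h2 : l = i
  · subst h2
    simp [sg_sq, Gs_self h]
  by_cases h3 : l = j
  · subst h3
    simp [SP.dg, sg, h1, h2]
  · rw [← neg_neg (Gs ι i j), ← Gs_swap h h1, ← neg_neg (Gs ι i l), ← Gs_swap h (Ne.symm h2)]
    conv_lhs => rw [Gs_swap h (Ne.symm h2), neg_neg, neg_mul, Gs_mul h]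
    conv_rhs => rw [Gs_swap h h1, neg_neg, neg_mul, Gs_mul h, Gs_swap h (Ne.symm h3)]
    simp [SP.dg, sg, h1, h2, h3]

theorem act_Gs (h : ι * ι = -1) (i j : Fin 6) : Act ι (Gs ι i j) (SP.dg i j) := fun k l => by
  have h1 : Gs ι i j * Gs ι k i = (sg F ((SP.dg i j).e k) * sg F ((SP.dg i j).e i)) •
      (Gs ι k i * Gs ι i j) := by
    by_cases e : k = i
    · subst e
      simp [sg_sq, Gs_self h]
    · rw [Gs_swap h (Ne.symm e), mul_neg, act_Gs0 h, neg_mul, smul_neg, mul_comm]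
  change _ = _ • (Gs ι k l * _)
  rw [← Gs_mul h k i l, ← mul_assoc, h1, smul_mul_assoc, mul_assoc, act_Gs0 h, mul_smul_comm,
    smul_smul, ← mul_assoc, mul_assoc (sg F _), sg_sq, mul_one, mul_assoc (Gs ι k i)]

theorem smul_cancel {X Y : M4 F} (e : X * Y = 1) {a b : F} (h : a • X = b • X) : a = b :=
  smul_one_inj (by rw [← e, ← smul_mul_assoc, h, smul_mul_assoc])

/-- Two sign changes induced by one matrix. -/
theorem e_eq (h : ι * ι = -1) (h2 : (2 : F) ≠ 0) {X Y : M4 F} (e : X * Y = 1) {g g' : SP}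
    (a : Act ι X g) (a' : Act ι X g') (hs : g.s = g'.s) : g = g' ∨ g = SP.neg * g' := by
  have h1 : ∀ i j, xor (g.e i) (g.e j) = xor (g'.e i) (g'.e j) := fun i j => by
    refine sg_inj h2 (smul_cancel (X := Gs ι (g.s i) (g.s j) * X) (Y := Y * Gs ι (g.s j) (g.s i))
      (by rw [mul_assoc, ← mul_assoc X, e, one_mul, Gs_inv h]) ?_)
    rw [sg_xor, sg_xor, ← a, a', hs]
  by_cases h3 : g.e 0 = g'.e 0
  · exact Or.inl (SP.ext (funext fun i => by simpa [h3] using h1 0 i) hs)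
  · refine Or.inr (SP.ext (funext fun i => ?_) (by simp [SP.neg, hs]))
    have := h1 0 i
    simp only [SP.neg, SP.mul_e]
    revert h3 this
    cases g.e 0 <;> cases g'.e 0 <;> cases g.e i <;> cases g'.e i <;> simp

theorem exm (i j k l : Fin 6) : ∃ m, m ≠ i ∧ m ≠ j ∧ m ≠ k ∧ m ≠ l := by
  by_contra h
  push Not at h
  have := h 0; have := h 1; have := h 2; have := h 3; have := h 4
  omega

theorem dg_eq {i j k l : Fin 6} (hij : i ≠ j)
    (h : SP.dg k l = SP.dg i j ∨ SP.dg k l = SP.neg * SP.dg i j) :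
    (k = i ∧ l = j) ∨ (k = j ∧ l = i) := by
  rcases h with h | h
  · have h1 := congrFun (congrArg SP.e h) i
    have h2 := congrFun (congrArg SP.e h) j
    simp only [SP.dg] at h1 h2
    grind
  · obtain ⟨m, hm⟩ := exm i j k l
    simpa [SP.dg, SP.neg, hm] using congrFun (congrArg SP.e h) m

theorem s_eq_one {s : Perm (Fin 6)} (h : ∀ i j, SP.dg (s i) (s j) = SP.dg i j ∨
    SP.dg (s i) (s j) = SP.neg * SP.dg i j) : s = 1 := Equiv.ext fun i => by
  obtain ⟨j, h1, -⟩ := exm i i i i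
  obtain ⟨k, h2, h3, -⟩ := exm i j i i
  rcases dg_eq h1.symm (h i j) with e | e
  · exact e.1
  · exact (dg_eq h2.symm (h i k)).elim (·.1) fun e' => absurd (e'.1.symm.trans e.1) h3

theorem dg_of_smul (h : ι * ι = -1) (h2 : (2 : F) ≠ 0) {i j k l : Fin 6} {c : F}
    (e : Gs ι k l = c • Gs ι i j) : SP.dg k l = SP.dg i j ∨ SP.dg k l = SP.neg * SP.dg i j :=
  e_eq h h2 (Gs_inv h k l) (act_Gs h k l) (e ▸ act_smul (act_Gs h i j) c) rfl

theorem act_one_iff (h : ι * ι = -1) (h2 : (2 : F) ≠ 0) {g : SP} :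
    Act ι 1 g ↔ g = 1 ∨ g = SP.neg := by
  constructor
  · intro a
    have hs : g.s = 1 := s_eq_one fun i j => dg_of_smul h h2
      (c := sg F (g.e i) * sg F (g.e j)) (by
        have := a i j
        rw [one_mul, mul_one] at this
        rw [this, smul_smul, mul_mul_mul_comm, sg_sq, sg_sq, one_mul, one_smul])
    simpa using e_eq h h2 (mul_one 1) a act_one hs
  · rintro (rfl | rfl)
    exacts [act_one, by simpa using act_neg (act_one (ι := ι))]

theorem neg_comm (g : SP) : g * SP.neg = SP.neg * g :=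
  SP.ext (funext fun i => by simp [SP.neg]) (by simp [SP.neg])

theorem neg_sq : SP.neg * SP.neg = 1 := by decide

theorem act_unique (h : ι * ι = -1) (h2 : (2 : F) ≠ 0) {X Y : M4 F} (e : X * Y = 1) {g g' : SP}
    (a : Act ι X g) (a' : Act ι X g') : g = g' ∨ g = SP.neg * g' := by
  have := act_mul a (act_inv a' e)
  rw [e, act_one_iff h h2] at this
  exact this.imp mul_inv_eq_one.1 mul_inv_eq_iff_eq_mul.1

theorem scalar (h : ι * ι = -1) (h2 : (2 : F) ≠ 0) {X : M4 F}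
    (e : ∀ i j, X * Gs ι i j = Gs ι i j * X) : ∃ c : F, X = c • (1 : M4 F) := by
  have h0 : ι ≠ 0 := fun e => by simp [e] at h
  have e0 : ∀ j, X * As ι j = As ι j * X := fun j => by
    by_cases hj : j = 0
    · simp [hj, As_zero]
    · simpa [Gs, hj, As_zero, smul_right_inj h0] using e 0 j
  have k := fun j a b => congrFun (congrFun (e0 j) a) b
  have k1 := k 1; have k2 := k 2; have k3 := k 3; have k4 := k 4; have k5 := k 5
  simp only [Fin.forall_fin_succ, As, mul_apply, Fin.sum_univ_four] at k1 k2 k3 k4 k5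
  simp at k1 k2 k3 k4 k5
  refine ⟨X 0 0, ?_⟩
  ext a b
  fin_cases a <;> fin_cases b <;> simp <;> grind

/-- A transposition with a sign. -/
def tp (a b : Fin 6) : SP := ⟨fun i => decide (i = a), swap a b⟩

theorem act_tp (h : ι * ι = -1) {a b : Fin 6} (hab : a ≠ b) : Act ι (1 + Gs ι a b) (tp a b) := by
  have h1 : ∀ j, (1 + Gs ι a b) * Gs ι a j =
      (sg F ((tp a b).e a) * sg F ((tp a b).e j)) • (Gs ι b (swap a b j) * (1 + Gs ι a b)) :=
    fun j => by
    by_cases e1 : j = a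
    · subst e1
      simp [sg_sq, Gs_self h]
    by_cases e2 : j = b
    · subst e2
      simp [tp, sg, e1, Gs_swap h hab, mul_add, add_mul]
    · have k1 : Gs ι b j * Gs ι a b = -Gs ι a j := by
        rw [← Gs_mul h a b j, act_Gs h a b b j]
        simp [SP.dg, sg, e1, e2, Ne.symm hab]
      have k2 : Gs ι a b * Gs ι a j = -Gs ι b j := by rw [← Gs_mul h b a j, Gs_swap h hab]; simp
      simp [tp, sg, e1, swap_apply_of_ne_of_ne e1 e2, mul_add, add_mul, k1, k2, add_comm]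
  intro i j
  have h3 : (1 + Gs ι a b) * Gs ι i a =
      (sg F ((tp a b).e i) * sg F ((tp a b).e a)) • (Gs ι (swap a b i) b * (1 + Gs ι a b)) := by
    by_cases e : i = a
    · subst e
      simp [sg_sq, Gs_self h]
    · rw [Gs_swap h (Ne.symm e), mul_neg, h1, Gs_swap h (i := b) (j := swap a b i) fun e' =>
        e ((swap a b).injective (by rw [← e', swap_apply_left])), neg_mul, smul_neg, mul_comm]
  change _ = _ • (Gs ι (swap a b i) (swap a b j) * _)
  rw [← Gs_mul h i a j, ← mul_assoc, h3, smul_mul_assoc, mul_assoc, h1, mul_smul_comm,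
    smul_smul, ← mul_assoc, mul_assoc (sg F _), sg_sq, mul_one, ← mul_assoc, Gs_mul h]

theorem det_tp {a b : Fin 6} (hab : a ≠ b) : SP.det (tp a b) = 1 := by
  rw [SP.det_apply]
  change _ * Perm.sign (swap a b) = 1
  rw [Perm.sign_swap hab]
  simp [SP.sgn, tp]

theorem exists_act (h : ι * ι = -1) (h2 : (2 : F) ≠ 0) (s : Perm (Fin 6)) :
    ∃ (Y : G4 F) (g : SP), g.s = s ∧ SP.det g = 1 ∧ Act ι (Y : M4 F) g := by
  induction s using Perm.swap_induction_on with
  | one => exact ⟨1, 1, rfl, map_one _, act_one⟩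
  | swap_mul f a b hab ih =>
    obtain ⟨Y, g, rfl, h3, h4⟩ := ih
    have e : (1 + Gs ι a b) * ((2 : F)⁻¹ • (1 - Gs ι a b)) = 1 := by
      rw [mul_smul_comm, show (1 + Gs ι a b) * (1 - Gs ι a b) = (2 : F) • 1 by
        rw [two_smul]; linear_combination (norm := noncomm_ring) -Gs_sq h hab, inv_smul_smul₀ h2]
    exact ⟨(⟨_, _, e, mul_eq_one_comm.1 e⟩ : G4 F) * Y, tp a b * g, rfl,
      by rw [map_mul, det_tp hab, h3, one_mul], act_mul (act_tp h hab) h4⟩

theorem det_of_act (h : ι * ι = -1) (h2 : (2 : F) ≠ 0) {X Y : M4 F} (e : X * Y = 1) {g : SP}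
    (a : Act ι X g) : SP.det g = 1 := by
  obtain ⟨Z, t, h3, h4, h5⟩ := exists_act h h2 g.s
  have a' := act_mul (act_inv h5 Z.mul_inv) a
  have h6 : SP.det g = SP.det (t⁻¹ * g) := by rw [map_mul, map_inv, h4, inv_one, one_mul]
  have h7 : (t⁻¹ * g).s = 1 := by simp [h3]
  generalize t⁻¹ * g = u at a' h6 h7
  set W := (Z⁻¹).val * X
  have hW : W * (Y * Z.val) = 1 := by rw [mul_assoc, ← mul_assoc X, e, one_mul, Z.inv_mul]
  have h8 : W * (Gs ι 0 1 * Gs ι 2 3 * Gs ι 4 5) = (∏ i, sg F (u.e i)) •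
      (Gs ι 0 1 * Gs ι 2 3 * Gs ι 4 5 * W) := by
    rw [← mul_assoc, ← mul_assoc, a', smul_mul_assoc, smul_mul_assoc, mul_assoc _ W, a',
      mul_smul_comm, smul_mul_assoc, ← mul_assoc, mul_assoc _ W, a', mul_smul_comm, smul_smul,
      smul_smul, h7, Fin.prod_univ_six]
    simp only [Perm.coe_one, id_eq, mul_assoc]
  rw [Gs_prod h, mul_smul_comm, smul_mul_assoc, mul_one, one_mul, smul_smul] at h8
  have h0 : -ι ≠ 0 := fun e => by simp [neg_eq_zero.1 e] at h
  have h9 : ∏ i, sg F (u.e i) = 1 := (mul_eq_right₀ h0).1 (smul_cancel hW h8).symm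
  rw [h6, SP.det_apply, h7, map_one, mul_one]
  have h10 : ((u.sgn : ℤ) : F) = 1 := by
    rw [← h9, SP.sgn, Units.coe_prod, Int.cast_prod]
    exact Finset.prod_congr rfl fun i _ => by cases u.e i <;> simp [sg]
  refine (Int.units_eq_one_or _).resolve_right fun e => h2 ?_
  rw [e] at h10
  simp at h10
  linear_combination -h10

theorem eq_dg {g : SP} (h : g.s = 1) (h1 : SP.det g = 1) :
    ∃ i j, g = SP.dg i j ∨ g = SP.neg * SP.dg i j := by
  obtain ⟨e, s⟩ := g
  obtain rfl : s = 1 := h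
  rw [SP.det_apply, map_one, mul_one] at h1
  have : ∃ i j, (∀ a, e a = (SP.dg i j).e a) ∨ ∀ a, e a = !(SP.dg i j).e a := by
    revert e
    decide +kernel
  obtain ⟨i, j, h⟩ := this
  exact ⟨i, j, h.imp (fun h => SP.ext (funext h) rfl)
    fun h => SP.ext (funext fun a => by simp [SP.neg, h a]) (by simp [SP.neg, SP.dg])⟩

theorem trace_zero (h2 : (2 : F) ≠ 0) {X Y Z : M4 F} (e : Y * Z = 1) (a : X * Y = -(Y * X)) :
    X.trace = 0 := by
  have := congrArg (fun T => (T * Z).trace) a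
  simp only [mul_assoc, e, mul_one, neg_mul, trace_neg] at this
  rw [trace_mul_cycle', ← mul_assoc, mul_eq_one_comm.1 e, one_mul] at this
  exact (mul_eq_zero.1 (show 2 * X.trace = 0 by linear_combination this)).resolve_left h2

theorem avg1 (h : ι * ι = -1) (X : M4 F) : ∑ j, As ι j * X * As ι j = (2 * X.trace) • (1 : M4 F) -
    (2 : F) • !![X 3 3, -X 2 3, X 1 3, -X 0 3; -X 3 2, X 2 2, -X 1 2, X 0 2;
      X 3 1, -X 2 1, X 1 1, -X 0 1; -X 3 0, X 2 0, -X 1 0, X 0 0] := by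
  ext a b
  fin_cases a <;> fin_cases b <;>
    simp [Fin.sum_univ_six, As, mul_apply, Fin.sum_univ_four, trace, vecMul, dotProduct] <;> grind

theorem avg (h : ι * ι = -1) (X : M4 F) :
    ∑ i, ∑ j, Gs ι i j * X * Gs ι j i = (4 : F) • X + (8 * X.trace) • (1 : M4 F) := by
  have h1 : ∀ i j, Gs ι i j * X * Gs ι j i = As ι i * (As ι j * X * As ι j) * As ι i :=
    fun i j => by
    rw [Gs, Gs, smul_mul_assoc, smul_mul_smul_comm, ← one_smul F (As ι i * _ * As ι i)]
    congr 1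
    · split_ifs <;> grind
    · simp only [mul_assoc]
  simp only [h1, ← Finset.sum_mul, ← Finset.mul_sum]
  rw [avg1 h, avg1 h]
  ext a b
  fin_cases a <;> fin_cases b <;> simp [trace, Fin.sum_univ_four] <;> ring

/-- Elements acting with square `-1` have non-zero trace. -/
theorem trace_ne (h : ι * ι = -1) (h2 : (2 : F) ≠ 0) {X Y : M4 F} (e : X * Y = 1) {g : SP}
    (a : Act ι X g) (hg : g * g = SP.neg) : X.trace ≠ 0 := fun h0 => by
  have s1 : ∀ i, g.s (g.s i) = i := fun i => DFunLike.congr_fun (congrArg SP.s hg) i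
  have s2 : ∀ i, xor (g.e (g.s i)) (g.e i) = true := fun i => congrFun (congrArg SP.e hg) i
  have s3 : ∀ i, g.s i ≠ i := fun i e => by simpa [e] using s2 i
  have h1 := congrArg (fun T => (T * Y).trace) (avg h X)
  simp only [h0, mul_zero, zero_smul, add_zero, smul_mul_assoc, e, Finset.sum_mul, trace_sum,
    trace_smul, trace_one] at h1
  have h3 : ∀ i, ∑ j, (Gs ι i j * X * Gs ι j i * Y).trace = 8 := fun i => by
    have h4 : ∀ j, Gs ι i j * X * Gs ι j i * Y =
        (sg F (g.e j) * sg F (g.e i)) • (Gs ι i j * Gs ι (g.s j) (g.s i)) := fun j => by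
      rw [mul_assoc _ X, a, mul_smul_comm, smul_mul_assoc, mul_assoc, mul_assoc, e, mul_one]
    rw [Finset.sum_eq_add_of_mem i (g.s i) (by simp) (by simp) (s3 i).symm fun j _ hj => ?_, h4, h4,
      sg_sq, ← sg_xor, s2, s1, Gs_self h, Gs_self h, Gs_sq h (s3 i).symm]
    · simp [sg]
      norm_num
    · obtain ⟨m, hm⟩ := exm i j (g.s j) (g.s i)
      have h5 := act_mul (act_Gs h i j) (act_Gs h (g.s j) (g.s i)) i m
      have h6 : i ≠ g.s j := fun e => hj.2 (by rw [e, s1])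
      rw [h4, trace_smul, trace_zero h2 (Gs_inv h i m)
        (by simpa [SP.dg, sg, hm, hj.1.symm, h6, (s3 i).symm] using h5), smul_zero]
  simp only [h3] at h1
  refine pow_ne_zero 5 h2 ?_
  simp at h1
  linear_combination h1

/-- Five pairwise anticommuting classes have a common index. -/
theorem star1 (a b c d : Fin 6) (h : xor ((SP.dg a b).e c) ((SP.dg a b).e d) = true) :
    ∃ x, (a = x ∨ b = x) ∧ (c = x ∨ d = x) := by
  simp only [SP.dg] at h
  by_contra h1
  have h2 := not_exists.1 h1 a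
  have h3 := not_exists.1 h1 b
  grind

theorem star2 (a b c d : Fin 6) (h : xor ((SP.dg a b).e c) ((SP.dg a b).e d) = true) (x : Fin 6)
    (h1 : a = x ∨ b = x) (h2 : c = x ∨ d = x) (p q : Fin 6)
    (h3 : xor ((SP.dg a b).e p) ((SP.dg a b).e q) = true)
    (h4 : xor ((SP.dg c d).e p) ((SP.dg c d).e q) = true) (r s : Fin 6)
    (h5 : xor ((SP.dg a b).e r) ((SP.dg a b).e s) = true)
    (h6 : xor ((SP.dg c d).e r) ((SP.dg c d).e s) = true)
    (h7 : xor ((SP.dg p q).e r) ((SP.dg p q).e s) = true) : p = x ∨ q = x := by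
  simp only [SP.dg] at *
  grind

theorem exists_of_conj (h : ι * ι = -1) (h2 : (2 : F) ≠ 0) {X Y : M4 F} (e : X * Y = 1)
    (hX : ∀ j, ∃ (p q : Fin 6) (c : F), X * Gs ι 0 j * Y = c • Gs ι p q) : ∃ g, Act ι X g := by
  have e' := mul_eq_one_comm.1 e
  choose p q c hc using hX
  have cj : ∀ A B : M4 F, X * (A * B) * Y = X * A * Y * (X * B * Y) := fun A B => by
    rw [mul_assoc (X * A), ← mul_assoc Y, ← mul_assoc Y, e', one_mul, mul_assoc, mul_assoc,
      mul_assoc]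
  have c0 : ∀ j, c j ≠ 0 := fun j h0 => by
    have := cj (Gs ι 0 j) (Gs ι j 0)
    rw [Gs_inv h, mul_one, e, hc, h0, zero_smul, zero_mul] at this
    exact one_ne_zero this
  have R : ∀ j l, j ≠ 0 → l ≠ 0 → j ≠ l →
      xor ((SP.dg (p j) (q j)).e (p l)) ((SP.dg (p j) (q j)).e (q l)) = true :=
    fun j l hj hl hjl => by
    have h1 := congrArg (fun T => X * T * Y) (act_Gs0 h 0 j l)
    simp only [mul_smul_comm, smul_mul_assoc, cj, hc, smul_smul] at h1
    rw [act_Gs h, smul_smul] at h1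
    have h3 := smul_cancel (Y := Gs ι (q j) (p j) * Gs ι (q l) (p l)) (by
      change Gs ι (p l) (q l) * _ * _ = 1
      rw [mul_assoc, ← mul_assoc (Gs ι (p j) _), Gs_inv h, one_mul, Gs_inv h]) h1
    rw [← sg_xor, ← sg_xor, mul_comm (sg F _), mul_comm (c l)] at h3
    rw [sg_inj h2 (mul_left_cancel₀ (mul_ne_zero (c0 j) (c0 l)) h3)]
    simp [SP.dg, hj.symm, hl, hjl.symm]
  obtain ⟨x, x1, x2⟩ := star1 _ _ _ _ (R 1 2 (by decide) (by decide) (by decide))
  have st := fun j l a b c d (e : 1 ≠ l ∧ 2 ≠ l ∧ j ≠ l) => star2 _ _ _ _ (R 1 2 (by decide) (by decide) (by decide)) x x1 x2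
    _ _ (R 1 j (by decide) a b) (R 2 j (by decide) a c) _ _ (R 1 l (by decide) d e.1)
      (R 2 l (by decide) d e.2.1) (R j l a d e.2.2)
  have h3 : ∀ j, ∃ (w : Fin 6) (b : Bool), X * Gs ι 0 j * Y = sg F b • Gs ι x w := fun j => by
    by_cases hj : j = 0
    · exact ⟨x, false, by simp [hj, Gs_self h, e, sg]⟩
    have h4 : p j = x ∨ q j = x := by
      fin_cases j
      exacts [absurd rfl hj, x1, x2, st 3 4 hj (by decide) (by decide) (by decide) (by decide),
        st 4 3 hj (by decide) (by decide) (by decide) (by decide),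
        st 5 3 hj (by decide) (by decide) (by decide) (by decide)]
    have h5 := cj (Gs ι 0 j) (Gs ι 0 j)
    rw [Gs_sq h (Ne.symm hj), hc, smul_mul_smul_comm, mul_neg, neg_mul, mul_one, e] at h5
    have h6 : p j ≠ q j := fun h6 => by
      obtain ⟨l, l1, l2, -⟩ := exm 0 j 0 0
      simpa [h6, SP.dg] using R j l hj l1 l2.symm
    rw [Gs_sq h h6, smul_neg, neg_inj, ← one_smul F (1 : M4 F), smul_smul, mul_one] at h5
    obtain ⟨b, hb⟩ := sg_of_sq (smul_one_inj h5).symm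
    rcases h4 with rfl | rfl
    · exact ⟨_, b, by rw [hc, hb]⟩
    · exact ⟨p j, !b, by rw [hc, hb, Gs_swap h h6]; cases b <;> simp [sg]⟩
  choose w b hw using h3
  have h4 : ∀ i j, X * Gs ι i j * Y = (sg F (b i) * sg F (b j)) • Gs ι (w i) (w j) :=
    fun i j => by
    have h5 : X * Gs ι i 0 * Y = sg F (b i) • Gs ι (w i) x := by
      have h6 := cj (Gs ι i 0) (Gs ι 0 i)
      rw [Gs_inv h, mul_one, e, hw] at h6
      rw [← mul_one (X * _ * Y), ← Gs_inv h x (w i), ← one_smul F (Gs ι x _ * _), ← sg_sq (b i),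
        ← smul_mul_smul_comm, ← mul_assoc, ← h6, one_mul]
    rw [← Gs_mul h i 0 j, cj, h5, hw, smul_mul_smul_comm, Gs_mul h]
  have h5 : Function.Injective w := fun i j hij => by
    by_contra h6
    have h7 := cj (Gs ι i j) (Gs ι i j)
    rw [Gs_sq h h6, h4, hij, Gs_self h, smul_mul_smul_comm, mul_mul_mul_comm, sg_sq, sg_sq,
      mul_neg, neg_mul, mul_one, e] at h7
    have := congrFun (congrFun h7 0) 0
    simp at this
    exact h2 (by linear_combination -this)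
  refine ⟨⟨b, Equiv.ofBijective w h5.bijective_of_finite⟩, fun i j => ?_⟩
  rw [← mul_one (X * _), ← e', ← mul_assoc, h4, smul_mul_assoc]
  rfl

theorem As_mulVec (ι : F) (z : Fin 4 → F) : As ι 2 *ᵥ z = ![z 2, z 3, z 0, z 1] ∧
    As ι 3 *ᵥ z = ![-ι * z 2, -ι * z 3, ι * z 0, ι * z 1] ∧
    As ι 4 *ᵥ z = ![z 1, z 0, -z 3, -z 2] ∧
    As ι 5 *ᵥ z = ![-ι * z 1, ι * z 0, ι * z 3, -ι * z 2] := by
  refine ⟨?_, ?_, ?_, ?_⟩ <;> ext i <;> fin_cases i <;>
    simp [As, mulVec, dotProduct, Fin.sum_univ_four]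

theorem proj (h : ι * ι = -1) (z : Fin 4 → F) : z - ι • As ι 4 *ᵥ (As ι 5 *ᵥ z) -
    ι • As ι 2 *ᵥ (As ι 3 *ᵥ (z - ι • As ι 4 *ᵥ (As ι 5 *ᵥ z))) = ![2 * 2 * z 0, 0, 0, 0] := by
  ext i
  fin_cases i <;> simp [As_mulVec, vecHead, vecTail] <;> grind

/-- Four anticommuting involutions are conjugate to the standard ones. -/
theorem exists_basis (h : ι * ι = -1) (h2 : (2 : F) ≠ 0) {B2 B3 B4 B5 : M4 F} (s2 : B2 * B2 = 1)
    (s3 : B3 * B3 = 1) (s4 : B4 * B4 = 1) (s5 : B5 * B5 = 1) (a23 : B3 * B2 = -(B2 * B3))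
    (a24 : B4 * B2 = -(B2 * B4)) (a25 : B5 * B2 = -(B2 * B5)) (a34 : B4 * B3 = -(B3 * B4))
    (a35 : B5 * B3 = -(B3 * B5)) (a45 : B5 * B4 = -(B4 * B5)) :
    ∃ R : G4 F, B2 * R = R * As ι 2 ∧ B3 * R = R * As ι 3 ∧ B4 * R = R * As ι 4 ∧
      B5 * R = R * As ι 5 := by
  have t : ∀ {A : M4 F}, A * A = 1 → ∀ Z : M4 F, A * (A * Z) = Z := fun hA Z => by
    rw [← mul_assoc, hA, one_mul]
  have u : ∀ {A B : M4 F}, B * A = -(A * B) → ∀ Z : M4 F, B * (A * Z) = -(A * (B * Z)) :=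
    fun hA Z => by rw [← mul_assoc, hA, neg_mul, mul_assoc]
  set T := (1 - ι • (B2 * B3)) * (1 - ι • (B4 * B5)) with hT
  have T3 : B3 * T = ι • (B2 * T) := by
    simp only [hT, mul_sub, sub_mul, mul_smul_comm, smul_mul_assoc, mul_assoc, one_mul, mul_one,
      t s2, t s3, u a23, s3, smul_sub, smul_neg, smul_smul, h, mul_neg]
    module
  have T5 : B5 * T = ι • (B4 * T) := by
    simp only [hT, mul_sub, sub_mul, mul_smul_comm, smul_mul_assoc, mul_assoc, one_mul, mul_one,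
      t s4, u a24, u a25, u a34, u a35, u a45, s5, a34, a35, smul_sub, smul_neg, smul_smul,
      mul_neg, neg_neg, h]
    module
  have T0 : T ≠ 0 := fun e => by
    have e1 : T + B2 * T * B2 = (2 : F) • (1 - ι • (B4 * B5)) := by
      simp only [hT, mul_sub, sub_mul, mul_smul_comm, smul_mul_assoc, mul_assoc, one_mul, mul_one,
        t s2, u a23, u a24, a23, a25, s2, smul_sub, smul_neg, mul_neg, neg_neg]
      module
    rw [e, mul_zero, zero_mul, add_zero, eq_comm, smul_eq_zero, sub_eq_zero] at e1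
    have e2 := e1.resolve_left h2
    have e3 : (1 : M4 F) = -1 :=
      calc (1 : M4 F) = B4 * (ι • (B4 * B5)) * B4 := by rw [← e2, mul_one, s4]
        _ = -(ι • (B4 * B5)) := by simp only [mul_smul_comm, smul_mul_assoc, t s4, a45, smul_neg]
        _ = -1 := by rw [← e2]
    have := congrFun (congrFun e3 0) 0
    simp at this
    exact h2 (by linear_combination this)
  obtain ⟨w, hw⟩ : ∃ w, T *ᵥ w ≠ 0 := by
    by_contra h3
    push Not at h3
    exact T0 (ext_iff_mulVec.2 fun w => by simp [h3])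
  set v := T *ᵥ w
  have v3 : B3 *ᵥ v = ι • B2 *ᵥ v := by simp only [v, mulVec_mulVec, T3, smul_mulVec]
  have v5 : B5 *ᵥ v = ι • B4 *ᵥ v := by simp only [v, mulVec_mulVec, T5, smul_mulVec]
  have t' : ∀ {A : M4 F}, A * A = 1 → ∀ z, A *ᵥ (A *ᵥ z) = z := fun hA z => by
    rw [mulVec_mulVec, hA, one_mulVec]
  have u' : ∀ {A B : M4 F}, B * A = -(A * B) → ∀ z, B *ᵥ (A *ᵥ z) = -(A *ᵥ (B *ᵥ z)) :=
    fun hA z => by rw [mulVec_mulVec, hA, neg_mulVec, mulVec_mulVec]
  let R : M4 F := (of ![v, B4 *ᵥ v, B2 *ᵥ v, B2 *ᵥ (B4 *ᵥ v)])ᵀ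
  have hR : ∀ z, R *ᵥ z = z 0 • v + z 1 • B4 *ᵥ v + z 2 • B2 *ᵥ v + z 3 • B2 *ᵥ (B4 *ᵥ v) :=
    fun z => by
    ext i
    simp [R, mulVec, dotProduct, Fin.sum_univ_four, mul_comm]
  have hA := As_mulVec ι
  have k : B2 * R = R * As ι 2 ∧ B3 * R = R * As ι 3 ∧ B4 * R = R * As ι 4 ∧
      B5 * R = R * As ι 5 := by
    refine ⟨?_, ?_, ?_, ?_⟩ <;> refine ext_iff_mulVec.2 fun z => ?_ <;>
      simp only [← mulVec_mulVec, hR, hA, mulVec_add, mulVec_smul, mulVec_neg, t' s2, t' s4,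
        u' a23, u' a24, u' a25, u' a45, ← neg_eq_iff_eq_neg.2 (u' a34 _), v3, v5, cons_val,
        cons_val_zero, cons_val_one, neg_neg] <;> module
  have inj : ∀ z, R *ᵥ z = 0 → z = 0 := fun z hz => by
    have m : ∀ {B A : M4 F}, B * R = R * A → ∀ z, R *ᵥ z = 0 → R *ᵥ (A *ᵥ z) = 0 :=
      fun e z hz => by rw [mulVec_mulVec, ← e, ← mulVec_mulVec, hz, mulVec_zero]
    have z0 : ∀ z, R *ᵥ z = 0 → z 0 = 0 := fun z hz => by
      have m1 : R *ᵥ (z - ι • As ι 4 *ᵥ (As ι 5 *ᵥ z)) = 0 := by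
        rw [mulVec_sub, mulVec_smul, hz, m k.2.2.1 _ (m k.2.2.2 _ hz)]; simp
      have m3 := proj h z
      set y := z - ι • As ι 4 *ᵥ (As ι 5 *ᵥ z)
      have m2 : R *ᵥ (y - ι • As ι 2 *ᵥ (As ι 3 *ᵥ y)) = 0 := by
        rw [mulVec_sub, mulVec_smul, m1, m k.1 _ (m k.2.1 _ m1)]; simp
      rw [m3, hR] at m2
      simpa [h2, hw] using m2
    have y1 := z0 _ (m k.2.2.1 _ hz)
    have y2 := z0 _ (m k.1 _ hz)
    have y3 := z0 _ (m k.1 _ (m k.2.2.1 _ hz))
    have y0 := z0 _ hz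
    simp only [hA, cons_val, cons_val_zero, neg_eq_zero] at y1 y2 y3
    ext i
    fin_cases i
    exacts [y0, y1, y2, y3]
  have hu : IsUnit R := mulVec_injective_iff_isUnit.1 fun x y e =>
    sub_eq_zero.1 (inj _ (by rw [mulVec_sub, e, sub_self]))
  obtain ⟨R', hR'⟩ := hu
  exact ⟨R', hR' ▸ k⟩

end Cfsg.Agent.Cl.D4.P0
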