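/-
Subgroups of `SL₄(F)`: the Pauli frame.
-/
import Mathlib
import Cfsg.Agent.Cl.D4P0a

set_option autoImplicit false

namespace Cfsg.Agent.Cl.D4

open Matrix Cfsg.Geo Cfsg.Agent.Cl.Max Cfsg.Agent.Cl.Mx Subgroup
open Cfsg.Agent.Cl.D5 (MT Root TrGen Cov NoTv)
open scoped MatrixGroups commutatorElement
open P0

variable {F : Type*} [Field F] [Finite F] {G : Type*} [Group G] {P : Subgroup (G4 F)}
  {π : P →* G} {ι : F} {γ : Fin 6 → Fin 6 → P} {E : Subgroup G}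
  {H : Subgroup (Equiv.Perm (Fin 6))} {Φ : Gam H →* G}

omit [Finite F] in
theorem P0.pi_eq (h : PC P π) (hι : ι * ι = -1) (h2 : (2 : F) ≠ 0) {k k' : P} {g : SP}
    (a : Act ι (mat k) g) (a' : Act ι (mat k') g) : π k = π k' := by
  have h1 := act_mul (act_inv a' (mat_mul_inv k')) a
  rw [inv_mul_cancel] at h1
  obtain ⟨c, hc⟩ := scalar hι h2 (X := mat (k'⁻¹ * k)) fun i j => by
    simpa [sg, mat_mul] using h1 i j
  have := (h.eq_one_iff _).2 ⟨c, hc⟩
  rw [map_mul, map_inv, inv_mul_eq_one] at this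
  exact this.symm

omit [Finite F] in
theorem P0.conj_gamma (h : PC P π) (hγ : ∀ i j, mat (γ i j) = Gs ι i j) {k : P} {g : SP}
    (a : Act ι (mat k) g) (i j : Fin 6) :
    π k * π (γ i j) * (π k)⁻¹ = π (γ (g.s i) (g.s j)) := by
  rw [mul_inv_eq_iff_eq_mul, ← map_mul, ← map_mul, h.eq_iff]
  exact ⟨_, by rw [mat_mul, mat_mul, hγ, hγ, a]⟩

theorem P0.mem_norm (h : PC P π) (hγ : ∀ i j, mat (γ i j) = Gs ι i j)
    (hE : ∀ x, x ∈ E ↔ ∃ i j, π (γ i j) = x) {k : P} {g : SP} (a : Act ι (mat k) g) :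
    π k ∈ normalizer (E : Set G) := by
  have := h.finite
  refine mem_normalizer_fintype fun x hx => ?_
  obtain ⟨i, j, rfl⟩ := (hE x).1 hx
  exact (hE _).2 ⟨_, _, (conj_gamma h hγ a i j).symm⟩

theorem P0.mk_fr (h : Od P π) (hι : ι * ι = -1) (hγ : ∀ i j, mat (γ i j) = Gs ι i j)
    (hE : ∀ x, x ∈ E ↔ ∃ i j, π (γ i j) = x)
    (hH : ∀ s, s ∈ H ↔ ∃ (k : P) (g : SP), g.s = s ∧ Act ι (mat k) g) :
    ∃ Φ : Gam H →* G, Fr P π ι γ E H Φ := by
  have h1 : ∀ g : Gam H, ∃ k : P, Act ι (mat k) g.1 := fun g => by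
    obtain ⟨k, g', e, a⟩ := (hH _).1 g.2.1
    obtain ⟨i, j, e'⟩ := eq_dg (g := g.1 * g'⁻¹) (mul_inv_eq_one.2 e.symm) (by
      rw [map_mul, map_inv, det_of_act hι h.two (mat_mul_inv k) a, inv_one, mul_one]
      exact g.2.2)
    have a' := act_mul (hγ i j ▸ act_Gs hι i j) a
    refine ⟨γ i j * k, ?_⟩
    rcases e' with e' | e' <;> rw [mul_inv_eq_iff_eq_mul.1 e']
    · exact a'
    · rw [mul_assoc]
      exact act_neg a'
  choose κ hκ using h1
  let Φ : Gam H →* G := MonoidHom.mk' (fun g => π (κ g)) fun g g' => by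
    rw [← map_mul]
    exact pi_eq h.pc hι h.two (hκ _) (act_mul (hκ g) (hκ g'))
  have act : ∀ (g : Gam H) (k : P), π k = Φ g ↔ Act ι (mat k) g.1 := fun g k =>
    ⟨fun e => by
      obtain ⟨c, hc⟩ := (h.pc.eq_iff k (κ g)).1 e
      exact hc ▸ act_smul (hκ g) c, fun a => pi_eq h.pc hι h.two a (hκ g)⟩
  refine ⟨Φ, h, hι, hγ, hE, le_antisymm ?_ fun x hx => ?_, fun g => ?_, act, fun i j => ?_⟩
  · rintro _ ⟨g, rfl⟩
    exact mem_norm h.pc hγ hE (hκ g)
  · obtain ⟨k, rfl⟩ := h.surj x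
    obtain ⟨g, a⟩ := exists_of_conj hι h.two (mat_mul_inv k) fun j => by
      obtain ⟨p, q, e⟩ := (hE _).1 ((hx _).1 ((hE _).2 ⟨0, j, rfl⟩))
      obtain ⟨c, hc⟩ := (h.pc.eq_iff (k * γ 0 j * k⁻¹) (γ p q)).1 (by simp [e])
      exact ⟨p, q, c, by rw [← hγ, ← hγ, ← hc]; rfl⟩
    exact ⟨⟨g, (hH _).2 ⟨k, g, rfl, a⟩, det_of_act hι h.two (mat_mul_inv k) a⟩,
      ((act _ k).2 a).symm⟩
  · rw [← act_one_iff hι h.two, ← mat_one (P := P), ← act, map_one, eq_comm]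
  · exact ((act _ _).2 (hγ i j ▸ act_Gs hι i j)).symm

/-- The permutations induced by `P`. -/
def P0.ind (P : Subgroup (G4 F)) (ι : F) : Subgroup (Equiv.Perm (Fin 6)) where
  carrier := {s | ∃ (k : P) (g : SP), g.s = s ∧ Act ι (mat k) g}
  one_mem' := ⟨1, 1, rfl, act_one⟩
  mul_mem' := by
    rintro _ _ ⟨k, g, rfl, a⟩ ⟨k', g', rfl, a'⟩
    exact ⟨k * k', g * g', rfl, act_mul a a'⟩
  inv_mem' := by
    rintro _ ⟨k, g, rfl, a⟩
    exact ⟨k⁻¹, g⁻¹, rfl, act_inv a (mat_mul_inv k)⟩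

theorem P0.exists_four (h : Od P π) (hE : EA E 4) : ∃ a ∈ E, ∃ b ∈ E, ∃ c ∈ E, ∃ d ∈ E,
    An π a b ∧ An π a c ∧ An π a d ∧ An π b c ∧ An π b d ∧ An π c d := by
  classical
  have := h.pc.finite
  have nd := fun x => h.pc.nondeg h.two hE.1 (by rw [hE.2]; norm_num) (x := x)
  have ex : ∀ a b c : G, ∃ u ∈ E, u ≠ 1 ∧ u ≠ a ∧ u ≠ b ∧ u ≠ c := fun a b c => by
    by_contra h1
    push Not at h1
    have h2 : (E : Set G) ⊆ ↑({1, a, b, c} : Finset G) := fun u hu => by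
      have := h1 u hu
      simp only [Finset.coe_insert, Finset.coe_singleton, Set.mem_insert_iff, Set.mem_singleton_iff]
      tauto
    have h3 := Set.ncard_le_ncard h2
    rw [Set.ncard_coe_finset] at h3
    have h4 : (E : Set G).ncard = 16 := hE.2
    have := Finset.card_le_four (a := (1 : G)) (b := a) (c := b) (d := c)
    omega
  obtain ⟨x, hx, x1, -⟩ := ex 1 1 1
  obtain ⟨y, hy, xy⟩ := nd x hx x1
  have p := h.pc
  have adj : ∀ u ∈ E, ∃ w, (w = 1 ∨ w = x ∨ w = y ∨ w = x * y) ∧ Cm π x (u * w) ∧ Cm π y (u * w) :=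
    fun u hu => by
    rcases p.cm_or_an (hE.1 x hx) (W.ea_comm hE.1 hx hu) with a | a <;>
      rcases p.cm_or_an (hE.1 y hy) (W.ea_comm hE.1 hy hu) with b | b
    · exact ⟨1, by simp, by simpa using a, by simpa using b⟩
    · exact ⟨x, by simp, a.mul p (p.cm_self x), b.mul_an p xy.symm⟩
    · exact ⟨y, by simp, a.mul_an p xy, b.mul p (p.cm_self y)⟩
    · exact ⟨x * y, by simp, a.mul_an p ((p.cm_self x).mul_an p xy),
        b.mul_an p (xy.symm.mul_cm p (p.cm_self y))⟩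
  have mem : ∀ w, (w = 1 ∨ w = x ∨ w = y ∨ w = x * y) → w ∈ E := by
    rintro _ (rfl | rfl | rfl | rfl)
    exacts [E.one_mem, hx, hy, E.mul_mem hx hy]
  obtain ⟨u, hu, u1, u2, u3, u4⟩ := ex x y (x * y)
  obtain ⟨w, hw, c1, c2⟩ := adj u hu
  have hz := E.mul_mem hu (mem w hw)
  obtain ⟨v, hv, zv⟩ := nd _ hz fun e => by
    obtain rfl : u = w := mul_right_cancel (e.trans (hE.1 w (mem w hw)).symm)
    exact hw.elim u1 fun hw => hw.elim u2 fun hw => hw.elim u3 u4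
  obtain ⟨w', hw', d1, d2⟩ := adj v hv
  have ht := E.mul_mem hv (mem w' hw')
  have zt : An π (u * w) (v * w') := zv.mul_cm p (by
    rcases hw' with rfl | rfl | rfl | rfl
    exacts [p.cm_one _, c1.symm, c2.symm, c1.symm.mul p c2.symm])
  generalize u * w = z at *
  generalize v * w' = t at *
  have e1 : An π x (x * y) := (p.cm_self x).mul_an p xy
  have e2 : An π y (x * y) := xy.symm.mul_cm p (p.cm_self y)
  refine ⟨x, hx, y, hy, x * y * z, E.mul_mem (E.mul_mem hx hy) hz, x * y * t,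
    E.mul_mem (E.mul_mem hx hy) ht, xy, e1.mul_cm p c1, e1.mul_cm p d1, e2.mul_cm p c2,
    e2.mul_cm p d2, ?_⟩
  exact ((p.cm_self _).mul p (c1.symm.mul p c2.symm).symm).symm.mul_an p
    ((d1.symm.mul p d2.symm).mul_an p zt.symm).symm

theorem Od.pauli (h : Od P π) (hE : EA E 4) :
    ∃ (Q : G4 F) (ι : F) (γ : Fin 6 → Fin 6 → cP Q P) (H : Subgroup (Equiv.Perm (Fin 6)))
      (Φ : Gam H →* G), Fr (cP Q P) (cπ Q π) ι γ E H Φ := by
  classical
  have := h.pc.finite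
  obtain ⟨ι, hι⟩ := h.exists_i
  obtain ⟨a, ha, b, hb, c, hc, d, hd, ab, ac, ad, bc, bd, cd⟩ := exists_four h hE
  have lift : ∀ x ∈ E, ∃ k : P, π k = x ∧ mat k * mat k = 1 := fun x hx => by
    obtain ⟨k, h1, h2⟩ := h.exists_lift (x := x) (n := 2) (by rw [pow_two, hE.1 x hx])
    exact ⟨k, h1, by rw [← mat_mul, ← pow_two, h2, mat_one]⟩
  obtain ⟨a, rfl, a2⟩ := lift a ha
  obtain ⟨b, rfl, b2⟩ := lift b hb
  obtain ⟨c, rfl, c2⟩ := lift c hc
  obtain ⟨d, rfl, d2⟩ := lift d hd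
  obtain ⟨R, r2, r3, r4, r5⟩ := exists_basis hι h.two a2 b2 c2 d2 (ab.symm _ _ rfl rfl)
    (ac.symm _ _ rfl rfl) (ad.symm _ _ rfl rfl) (bc.symm _ _ rfl rfl) (bd.symm _ _ rfl rfl)
    (cd.symm _ _ rfl rfl)
  have h' := h.conj R⁻¹
  have cv : ∀ {k : P} {A : M4 F}, mat k * R = R * A → mat (cE R⁻¹ P k) = A := fun e => by
    rw [mat_cE, inv_inv, mul_assoc, e, Units.inv_mul_cancel_left]
  have i0 : ι ≠ 0 := fun e => by simp [e] at hι
  have hA : ∀ j, ∃ k : cP R⁻¹ P, mat k = As ι j ∧ cπ R⁻¹ π k ∈ E := fun j => by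
    fin_cases j
    · exact ⟨1, rfl, by simp⟩
    · obtain ⟨k, k1, k2⟩ := h'.exists_smul (cE R⁻¹ P (a * b * c * d)) (c := -1) (by simp)
      refine ⟨k, ?_, by
        simpa [k2, cπ_cE] using E.mul_mem (E.mul_mem (E.mul_mem ha hb) hc) hd⟩
      simp only [k1, map_mul, mat_mul, cv r2, cv r3, cv r4, cv r5]
      ext i j
      fin_cases i <;> fin_cases j <;> simp [As, hι]
    · exact ⟨_, cv r2, by simpa [cπ_cE] using ha⟩
    · exact ⟨_, cv r3, by simpa [cπ_cE] using hb⟩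
    · exact ⟨_, cv r4, by simpa [cπ_cE] using hc⟩
    · exact ⟨_, cv r5, by simpa [cπ_cE] using hd⟩
  choose α α1 α2 using hA
  have hG : ∀ i j, ∃ k : cP R⁻¹ P, mat k = Gs ι i j ∧ cπ R⁻¹ π k ∈ E := fun i j => by
    obtain ⟨k, k1, k2⟩ := h'.exists_smul (α i * α j)
      (c := (if i = 0 then 1 else -ι) * if j = 0 then 1 else ι) (by split_ifs <;> simp [i0])
    exact ⟨k, by rw [k1, mat_mul, α1, α1, Gs], by rw [k2, map_mul]; exact mul_mem (α2 i) (α2 j)⟩
  choose γ γ1 γ2 using hG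
  let L : Finset (Fin 6 × Fin 6) := Finset.univ.filter fun p => p.1 < p.2 ∨ p = (0, 0)
  have hL : ↑(L.image fun p => cπ R⁻¹ π (γ p.1 p.2)) = (E : Set G) := by
    refine Set.eq_of_subset_of_ncard_le (by
      intro x hx
      obtain ⟨p, -, rfl⟩ := Finset.mem_image.1 hx
      exact γ2 _ _) ?_
    rw [Set.ncard_coe_finset, Finset.card_image_of_injOn, show L.card = 16 by decide +kernel]
    · exact hE.2.le
    · rintro ⟨i, j⟩ hp ⟨k, l⟩ hq e
      obtain ⟨c, hc⟩ := (h'.pc.eq_iff _ _).1 e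
      rw [γ1, γ1] at hc
      have h1 := dg_of_smul hι h.two hc
      simp only [L, Finset.coe_filter, Finset.mem_univ, true_and, Set.mem_ofPred_eq,
        Prod.mk.injEq] at hp hq h1 ⊢
      by_cases h2 : k = l
      · by_cases h3 : i = j
        · omega
        · have := dg_eq h3 (h1.imp Eq.symm fun e => by rw [e, ← mul_assoc, P0.neg_sq, one_mul])
          omega
      · have := dg_eq h2 h1
        omega
  obtain ⟨Φ, hΦ⟩ := mk_fr (E := E) (H := ind _ ι) h' hι γ1 (fun x => ⟨fun hx => by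
    obtain ⟨p, -, e⟩ := Finset.mem_image.1 (hL.ge hx)
    exact ⟨_, _, e⟩, fun ⟨i, j, e⟩ => e ▸ γ2 i j⟩) fun _ => Iff.rfl
  exact ⟨_, ι, γ, _, Φ, hΦ⟩

omit [Finite F] in
theorem Fr.eq_iff (h : Fr P π ι γ E H Φ) (g g' : Gam H) :
    Φ g = Φ g' ↔ g.1 = g'.1 ∨ g.1 = SP.neg * g'.1 := by
  rw [← mul_inv_eq_one, ← map_inv, ← map_mul, h.ker]
  exact or_congr mul_inv_eq_one mul_inv_eq_iff_eq_mul

omit [Finite F] in
theorem Fr.mem_iff (h : Fr P π ι γ E H Φ) (g : Gam H) : Φ g ∈ E ↔ g.1.s = 1 := by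
  rw [h.mem]
  constructor
  · rintro ⟨i, j, e⟩
    rcases (h.eq_iff _ _).1 (e.symm.trans (h.dg i j).symm) with e | e <;> rw [e] <;> rfl
  · intro e
    obtain ⟨i, j, e'⟩ := eq_dg e g.2.2
    exact ⟨i, j, (h.dg i j).symm.trans ((h.eq_iff _ _).2 e').symm⟩

/-- An element of `P` acting as a signed permutation lies in the normaliser. -/
theorem Fr.exists_of_act (h : Fr P π ι γ E H Φ) {k : P} {g : SP} (e : Act ι (mat k) g) :
    ∃ hg : g ∈ Gam H, π k = Φ ⟨g, hg⟩ := by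
  obtain ⟨g', hg'⟩ := h.range.ge (mem_norm h.od.pc h.mat_eq h.mem e)
  have hg : g ∈ Gam H := by
    rcases act_unique h.ii h.od.two (mat_mul_inv k) e ((h.act g' k).1 hg'.symm) with e | e <;>
      rw [e]
    exacts [g'.2, mul_mem (neg_mem_Gam H) g'.2]
  exact ⟨hg, (h.act _ k).2 e⟩

theorem P0.exists_gam (s : Equiv.Perm (Fin 6)) : ∃ g : SP, g.s = s ∧ SP.det g = 1 := by
  rcases Int.units_eq_one_or (Equiv.Perm.sign s) with e | e
  · exact ⟨⟨fun _ => false, s⟩, rfl, by simp [SP.det_apply, SP.sgn, e]⟩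
  · exact ⟨⟨fun i => decide (i = 0), s⟩, rfl, by simp [SP.det_apply, SP.sgn, e]⟩

theorem Fr.relabel (h : Fr P π ι γ E H Φ) (τ : Equiv.Perm (Fin 6)) :
    ∃ (Q : G4 F) (γ' : Fin 6 → Fin 6 → cP Q P)
      (Φ' : Gam (H.map (MulAut.conj τ).toMonoidHom) →* G),
      Fr (cP Q P) (cπ Q π) ι γ' E (H.map (MulAut.conj τ).toMonoidHom) Φ' := by
  obtain ⟨Q, t, rfl, -, a⟩ := exists_act h.ii h.od.two τ
  have a' := act_inv a Q.mul_inv
  have h' := h.od.conj Q
  have hG : ∀ i j, ∃ k : cP Q P, mat k = Gs ι i j ∧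
      cπ Q π k = π (γ (t.s⁻¹ i) (t.s⁻¹ j)) := fun i j => by
    obtain ⟨k, k1, k2⟩ := h'.exists_smul (cE Q P (γ (t.s⁻¹ i) (t.s⁻¹ j)))
      (mul_ne_zero (sg_ne (t.e (t.s⁻¹ i))) (sg_ne (t.e (t.s⁻¹ j))))
    refine ⟨k, ?_, k2.trans (cπ_cE _ _ _)⟩
    rw [k1, mat_cE, h.mat_eq, a, smul_mul_assoc, smul_smul, mul_mul_mul_comm, sg_sq, sg_sq,
      Units.mul_inv_cancel_right]
    simp
  choose γ' γ1 γ2 using hG
  obtain ⟨Φ', hΦ⟩ := mk_fr (E := E) (H := H.map (MulAut.conj t.s).toMonoidHom) h' h.ii γ1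
    (fun x => by
      rw [h.mem]
      exact ⟨fun ⟨i, j, e⟩ => ⟨t.s i, t.s j, by simp [γ2, e]⟩, fun ⟨i, j, e⟩ => ⟨_, _, γ2 i j ▸ e⟩⟩)
    fun s => ⟨by
      rintro ⟨s, hs, rfl⟩
      obtain ⟨g, rfl, hg⟩ := exists_gam s
      obtain ⟨k, hk⟩ := h.od.surj (Φ ⟨g, hs, hg⟩)
      exact ⟨cE Q P k, t * g * t⁻¹, rfl, act_mul (act_mul a ((h.act _ k).1 hk)) a'⟩, by
      rintro ⟨k, g, rfl, e⟩
      obtain ⟨k, rfl⟩ := (cE Q P).surjective k
      have e' := act_mul (act_mul a' e) a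
      rw [mat_cE, ← mul_assoc, ← mul_assoc, Units.inv_mul, one_mul,
        Units.inv_mul_cancel_right] at e'
      exact ⟨_, (h.exists_of_act e').1.1, by simp [SP.perm, mul_assoc]⟩⟩
  exact ⟨Q, γ', Φ', hΦ⟩

/-- The underlying permutation. -/
def P0.pr (U : Subgroup (Equiv.Perm (Fin 6))) : Gam U →* U :=
  (SP.perm.comp (Gam U).subtype).codRestrict U fun g => g.2.1

theorem P0.pr_surj (U : Subgroup (Equiv.Perm (Fin 6))) : Function.Surjective (pr U) :=
  fun ⟨s, hs⟩ => by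
  obtain ⟨g, rfl, hg⟩ := exists_gam s
  exact ⟨⟨g, hs, hg⟩, rfl⟩

instance P0.finite_SP : Finite SP :=
  Finite.of_injective (fun g : SP => (g.e, g.s)) fun _ _ e =>
    SP.ext (congrArg Prod.fst e) (congrArg Prod.snd e)

theorem P0.card_Gam (U : Subgroup (Equiv.Perm (Fin 6))) : Nat.card (Gam U) = 32 * Nat.card U := by
  have h1 : Nat.card (pr U).ker = 32 := by
    rw [← show Nat.card {e : Fin 6 → Bool // (SP.mk e 1).sgn = 1} = 32 by
      rw [Nat.card_eq_fintype_card]; decide +kernel]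
    refine Nat.card_congr ⟨fun g => ⟨g.1.1.e, ?_⟩, fun e => ⟨⟨⟨e.1, 1⟩, U.one_mem, ?_⟩, rfl⟩,
      fun g => Subtype.ext (Subtype.ext (SP.ext rfl (congrArg Subtype.val g.2).symm)), fun _ => rfl⟩
    · have h1 : g.1.1.s = 1 := congrArg Subtype.val g.2
      have h2 := (mem_Gam.1 g.1.2).2
      rwa [h1, map_one, mul_one] at h2
    · exact (mem_Gam.2 ⟨U.one_mem, by rw [e.2, map_one, mul_one]⟩).2
  rw [← (pr U).ker.card_mul_index, h1, index_ker, MonoidHom.range_eq_top.2 (pr_surj U), card_top]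

omit [Finite F] in
theorem Fr.card_ker (h : Fr P π ι γ E H Φ) : Nat.card Φ.ker = 2 := by
  refine Nat.card_eq_two_iff.2 ⟨1, ⟨⟨_, neg_mem_Gam H⟩, (h.ker _).2 (Or.inr rfl)⟩, fun e => ?_,
    Set.eq_univ_of_forall fun g => ?_⟩
  · exact Bool.false_ne_true (congrArg (fun g : Φ.ker => g.1.1.e 0) e)
  · exact ((h.ker _).1 g.2).imp (fun e => Subtype.ext (Subtype.ext e))
      fun e => Subtype.ext (Subtype.ext e)

omit [Finite F] in
theorem Fr.card_map (h : Fr P π ι γ E H Φ) {U : Subgroup (Equiv.Perm (Fin 6))} (hU : U ≤ H) :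
    Nat.card (((Gam U).subgroupOf (Gam H)).map Φ) = 16 * Nat.card U := by
  have h1 : Φ.ker ≤ (Gam U).subgroupOf (Gam H) := fun g hg => by
    rcases (h.ker g).1 hg with e | e <;> rw [mem_subgroupOf, e]
    exacts [one_mem _, neg_mem_Gam U]
  have h2 := (Φ.ker.subgroupOf ((Gam U).subgroupOf (Gam H))).card_mul_index
  rw [Nat.card_congr (subgroupOfEquivOfLe h1).toEquiv, h.card_ker, ← relIndex, relIndex_ker,
    Nat.card_congr (subgroupOfEquivOfLe (show Gam U ≤ Gam H from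
      inf_le_inf_right _ (comap_mono hU))).toEquiv, card_Gam] at h2
  omega

omit [Finite F] in
theorem Fr.ea (h : Fr P π ι γ E H Φ) : EA E 4 := by
  have h1 : ((Gam ⊥).subgroupOf (Gam H)).map Φ = E := le_antisymm (by
    rintro _ ⟨g, hg, rfl⟩
    exact (h.mem_iff g).2 (mem_bot.1 hg.1)) fun x hx => by
      obtain ⟨i, j, rfl⟩ := (h.mem x).1 hx
      exact ⟨_, dg_mem_Gam ⊥ i j, h.dg i j⟩
  refine ⟨fun x hx => ?_, by rw [← h1, h.card_map bot_le, card_bot]; rfl⟩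
  obtain ⟨i, j, rfl⟩ := (h.mem x).1 hx
  rw [← h.dg, ← map_mul, h.ker]
  exact Or.inl (SP.ext (funext fun a => Bool.xor_self _) rfl)

omit [Finite F] in
theorem Fr.cent (h : Fr P π ι γ E H Φ) : centralizer (E : Set G) ≤ E := fun x hx => by
  obtain ⟨g, rfl⟩ := h.range.ge (centralizer_le_normalizer _ hx)
  obtain ⟨k, hk⟩ := h.od.surj (Φ g)
  refine (h.mem_iff g).2 (s_eq_one fun i j => (h.eq_iff ⟨_, dg_mem_Gam H _ _⟩ ⟨_, dg_mem_Gam H i j⟩).1 ?_)
  rw [h.dg, h.dg, ← conj_gamma h.od.pc h.mat_eq ((h.act g k).1 hk), hk,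
    ← hx _ ((h.mem _).2 ⟨i, j, rfl⟩), mul_inv_cancel_right]

omit [Finite F] in
theorem Fr.card (h : Fr P π ι γ E H Φ) :
    Nat.card (normalizer (E : Set G)) = 16 * Nat.card H := by
  rw [← h.card_map le_rfl, subgroupOf_self, ← MonoidHom.range_eq_map, h.range]

omit [Finite F] in
theorem Fr.scalar (h : Fr P π ι γ E H Φ) {X : M4 F} (e : ∀ i j, X * Gs ι i j = Gs ι i j * X) :
    ∃ c : F, X = c • (1 : M4 F) := P0.scalar h.ii h.od.two e

omit [Finite F] in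
/-- The type of an involution of the normaliser. -/
theorem Fr.zt_iff (h : Fr P π ι γ E H Φ) {g : Gam H} (hg : orderOf (Φ g) = 2) :
    ZT π (Φ g) ↔ g * g = 1 := by
  obtain ⟨k, hk⟩ := h.od.surj (Φ g)
  have a := (h.act g k).1 hk
  have h1 := (h.ker (g * g)).1 (by rw [map_mul, ← pow_two, ← hg, pow_orderOf_eq_one])
  refine ⟨fun hz => Subtype.ext (h1.resolve_right fun e => ?_), fun e => ?_⟩
  · exact trace_ne h.ii h.od.two (mat_mul_inv k) a e (ZT.trace h.od (hk ▸ hz))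
  · have e' : g.1 * g.1 = 1 := congrArg Subtype.val e
    obtain ⟨i, j, h2⟩ : ∃ i j, mat k * Gs ι i j = -(Gs ι i j * mat k) := by
      by_cases hs : g.1.s = 1
      · by_cases h3 : ∀ i, g.1.e i = g.1.e 0
        · have : Φ g = 1 := (h.ker g).2 (by
            cases h4 : g.1.e 0
            exacts [Or.inl (SP.ext (funext fun i => (h3 i).trans h4) hs),
              Or.inr (SP.ext (funext fun i => (h3 i).trans h4) hs)])
          rw [this, orderOf_one] at hg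
          omega
        · push Not at h3
          obtain ⟨i, hi⟩ := h3
          refine ⟨i, 0, ?_⟩
          rw [a, ← sg_xor, hs, show xor (g.1.e i) (g.1.e 0) = true by simpa using hi]
          simp [sg]
      · obtain ⟨i, hi⟩ := not_forall.1 (mt Equiv.ext hs)
        have s1 : g.1.s (g.1.s i) = i := DFunLike.congr_fun (congrArg SP.s e') i
        have s2 : xor (g.1.e (g.1.s i)) (g.1.e i) = false := congrFun (congrArg SP.e e') i
        refine ⟨i, g.1.s i, ?_⟩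
        rw [a, mul_comm, ← sg_xor, s2, s1, Gs_swap h.ii (i := i) (Ne.symm hi)]
        simp [sg]
    rw [← hk] at hg ⊢
    exact h.od.zt_of_an hg (h.od.pc.an_of (b := γ i j) (by rw [h.mat_eq, h2]))

theorem Od.zt_of_ea (h : Od P π) (hE : EA E 4) {x : G} (hx : x ∈ E) (h1 : x ≠ 1) : ZT π x := by
  obtain ⟨y, -, e⟩ := h.pc.nondeg h.two hE.1 (by rw [hE.2]; norm_num) hx h1
  exact h.zt_of_an (orderOf_eq_prime (by rw [pow_two, hE.1 x hx]) h1) e

omit [Finite F] in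
theorem Fr.normalizer_ne_top (h : Fr P π ι γ E H Φ) : normalizer (E : Set G) ≠ ⊤ := fun e => by
  have := h.od.simple
  rcases (normalizer_eq_top_iff.1 e).eq_bot_or_eq_top with e | e
  · have := h.ea.2
    rw [e, card_bot] at this
    omega
  · exact h.od.nonab ⟨⟨fun a b => W.ea_comm h.ea.1 (e ▸ mem_top a) (e ▸ mem_top b)⟩⟩

omit [Finite F] in
theorem Fr.solvable_iff (h : Fr P π ι γ E H Φ) :
    Group.IsSolvable (normalizer (E : Set G)) ↔ Group.IsSolvable H := by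
  rw [← h.range]
  constructor
  · intro _
    have : Group.IsSolvable Φ.ker := Group.isSolvable_of_comm fun a b => by
      have := Fact.mk Nat.prime_two
      exact (isCyclic_of_prime_card h.card_ker).commGroup.mul_comm a b
    have : Group.IsSolvable (Gam H) :=
      Group.isSolvable_of_ker_le_range Φ.ker.subtype Φ.rangeRestrict (by simp)
    exact Group.isSolvable_of_surjective (pr_surj H)
  · intro _
    have : Group.IsSolvable (pr H).ker := Group.isSolvable_of_comm fun a b => by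
      have ha : a.1.1.s = 1 := congrArg Subtype.val a.2
      have hb : b.1.1.s = 1 := congrArg Subtype.val b.2
      exact Subtype.ext (Subtype.ext (SP.ext (funext fun i => by simp [ha, hb, Bool.xor_comm])
        (by simp [ha, hb])))
    have : Group.IsSolvable (Gam H) := Group.isSolvable_of_ker_le_range (pr H).ker.subtype (pr H) (by simp)
    exact Group.isSolvable_of_surjective Φ.rangeRestrict_surjective

end Cfsg.Agent.Cl.D4
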