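/-
Subgroups of `S₆` containing the 5-cycle `c5`: word computations.
-/
import Mathlib
import Cfsg.Agent.Cl.D4Defs2
import Cfsg.Agent.Sym.Basic
import Cfsg.Agent.Perm.CompLen

set_option autoImplicit false

namespace Cfsg.Agent.Cl.D4.P1

open Equiv Subgroup

/-- A three-cycle. -/
def t3 : Perm (Fin 6) := ⟨![0, 2, 3, 1, 4, 5], ![0, 3, 1, 2, 4, 5], by decide, by decide⟩

/-- The value of a word in `c5` and `g`. -/
def ev (w : List Bool) (g : Perm (Fin 6)) : Perm (Fin 6) :=
  (w.map fun b => if b then c5 else g).prod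

/-- The value of a word in `c5` and `g`, on a point. -/
def evF (w : List Bool) (g : Fin 6 → Fin 6) (i : Fin 6) : Fin 6 :=
  w.foldr (fun b x => if b then c5 x else g x) i

theorem ev_apply (w : List Bool) (g : Perm (Fin 6)) (i : Fin 6) : ev w g i = evF w g i := by
  induction w with
  | nil => rfl
  | cons b w ih =>
    have e : ev (b :: w) g = (if b then c5 else g) * ev w g := by simp [ev]
    rw [e, Perm.mul_apply, ih]
    cases b <;> rfl

theorem ev_mem {H : Subgroup (Perm (Fin 6))} (hc : c5 ∈ H) {g : Perm (Fin 6)} (hg : g ∈ H)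
    (w : List Bool) : ev w g ∈ H := by
  refine H.list_prod_mem fun x hx => ?_
  obtain ⟨b, -, rfl⟩ := List.mem_map.1 hx
  cases b
  · exact hg
  · exact hc

theorem mem_of_word {H : Subgroup (Perm (Fin 6))} (hc : c5 ∈ H) {g x : Perm (Fin 6)} (hg : g ∈ H)
    {w : List Bool} (h : ∀ i, evF w g i = x i) : x ∈ H := by
  have e : x = ev w g := Equiv.ext fun i => by rw [ev_apply, h]
  rw [e]
  exact ev_mem hc hg w

/-- Words giving `t3` from an element fixing `0` and `1`. -/
def W0 : List (List Bool) :=
  [[true, false, true, true, false, true], [false, true, false, true, false, true, false, true],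
   [true, false, false, true, true, false, false, true],
   [true, false, true, false, true, false, true, false], [false, false, true],
   [true, false, false], [true, false, true, false, true],
   [false, true, false, false, true, false], [false, true, false, true, true, true],
   [true, true, true, false, true, false], [true, true, false, true, false, true, true],
   [true, false, true, false, true, true, true], [true, true, true, false, true, false, true],
   [true, false, true, true, true, false, true],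
   [false, true, true, true, false, false, true, true],
   [true, true, true, false, false, true, false, false]]

/-- Words giving `w2` from an element swapping `0` and `1`. -/
def W1w : List (List Bool) :=
  [[false], [true, false, true, true, false, true], [true, false, true, true, true, false, true],
   [true, false, true, true, true, true, false, true]]

/-- Words giving `t3` from an element swapping `0` and `1`. -/
def W1 : List (List Bool) :=
  [[false, true, false, true, true, false, true, false], [false, false, true],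
   [true, false, false], [false, false, false, false, true], [true, false, false, false, false],
   [true, false, false, true, true, false, false, true],
   [true, true, false, true, true, false, true, false],
   [true, false, true, false, false, true, true, true, false],
   [true, false, true, false, true, true, false, true, true, true],
   [true, true, true, false, true, false, true, true, false, true],
   [true, true, true, false, true, true, false, true, false, true],
   [true, false, true, true, false, true, false, true, true, true],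
   [true, true, true, false, true, true, true, true, false, true, false],
   [false, false, true, true, true, true, false, false, true, true, true],
   [false, true, false, true, true, true, true, false, true, true, true],
   [true, true, true, false, false, true, true, true, true, false, false],
   [false, true, true, true, true, false, true, true, false, true, true, true, true, false]]

/-- The even permutations fixing `0` and `1` as words in `c5`, `t3`. -/
def W2 : List (List Bool) :=
  [[], [true, false, false], [false, true, true, true, true],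
   [true, true, false, false, true, false, true, false], [true, true, true, false, true, false],
   [true, false, false, true, false, true], [true, true, true, true, false, true, false, true],
   [false, false, true], [false, true, true, true, false],
   [true, true, true, true, false, true, false, false], [true, true, true, true, false],
   [true, false, true]]

theorem k0 : ∀ a b c d : Fin 6, [0, 1, a, b, c, d].Nodup →
    (∃ k : Fin 4, ∀ i, ![0, 1, a, b, c, d] i = (m4 ^ k.1) i) ∨
      ∃ w ∈ W0, ∀ i, evF w ![0, 1, a, b, c, d] i = t3 i := by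
  decide +kernel

theorem k1 : ∀ a b c d : Fin 6, [1, 0, a, b, c, d].Nodup →
    (∃ w ∈ W1w, ∀ i, evF w ![1, 0, a, b, c, d] i = w2 i) ∨
      ∃ w ∈ W1, ∀ i, evF w ![1, 0, a, b, c, d] i = t3 i := by
  decide +kernel

theorem k2 : ∀ a b c d : Fin 6, [0, 1, a, b, c, d].Nodup →
    (∃ w ∈ W2, ∀ i, evF w t3 i = ![0, 1, a, b, c, d] i) ∨
      ∃ w ∈ W2, ∀ i, m4 (evF w t3 i) = ![0, 1, a, b, c, d] i := by
  decide +kernel

theorem sign_c5 : Perm.sign c5 = 1 := by decide +kernel
theorem sign_m4 : Perm.sign m4 = -1 := by decide +kernel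
theorem sign_w2 : Perm.sign w2 = 1 := by decide +kernel
theorem sign_t3 : Perm.sign t3 = 1 := by decide +kernel

theorem c5_zero : c5 0 = 0 := by decide
theorem c5_ne : ∀ i : Fin 6, i ≠ 0 → c5 i ≠ i := by decide
theorem c5_pow_zero (k : ℕ) : (c5 ^ k) 0 = 0 := Perm.pow_apply_eq_self_of_apply_eq_self c5_zero k

theorem c5_trans : ∀ i j : Fin 6, i ≠ 0 → j ≠ 0 → ∃ k : Fin 5, (c5 ^ k.1) i = j := by
  decide +kernel

theorem nodup (g : Perm (Fin 6)) : [g 0, g 1, g 2, g 3, g 4, g 5].Nodup :=
  List.Nodup.map g.injective (by decide : ([0, 1, 2, 3, 4, 5] : List (Fin 6)).Nodup)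

theorem coe_eq (g : Perm (Fin 6)) : (g : Fin 6 → Fin 6) = ![g 0, g 1, g 2, g 3, g 4, g 5] := by
  funext i
  fin_cases i <;> rfl

theorem app_inv (g : Perm (Fin 6)) (x : Fin 6) : g (g⁻¹ x) = x := g.apply_symm_apply x

variable {H : Subgroup (Perm (Fin 6))}

theorem fix_01 (hc : c5 ∈ H) (ht : t3 ∉ H) {g : Perm (Fin 6)} (hg : g ∈ H) (h0 : g 0 = 0)
    (h1 : g 1 = 1) : ∃ k : Fin 4, g = m4 ^ k.1 := by
  have hn := nodup g
  have e := coe_eq g
  rw [h0, h1] at hn e
  rcases k0 _ _ _ _ hn with ⟨k, hk⟩ | ⟨w, -, hw⟩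
  · exact ⟨k, Equiv.ext fun i => by rw [← hk i, ← e]⟩
  · rw [← e] at hw
    exact absurd (mem_of_word hc hg hw) ht

theorem fix_0 (hc : c5 ∈ H) (ht : t3 ∉ H) {g : Perm (Fin 6)} (hg : g ∈ H) (h0 : g 0 = 0) :
    ∃ (j : Fin 5) (k : Fin 4), g = (c5 ^ j.1)⁻¹ * m4 ^ k.1 := by
  have h1 : g 1 ≠ 0 := fun h => absurd (g.injective (h.trans h0.symm)) (by decide)
  obtain ⟨j, hj⟩ := c5_trans (g 1) 1 h1 (by decide)
  obtain ⟨k, hk⟩ := fix_01 hc ht (H.mul_mem (H.pow_mem hc j.1) hg)
    (by rw [Perm.mul_apply, h0, c5_pow_zero]) (by rw [Perm.mul_apply, hj])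
  exact ⟨j, k, by rw [← hk, inv_mul_cancel_left]⟩

theorem w2_mem (hc : c5 ∈ H) (ht : t3 ∉ H) {g : Perm (Fin 6)} (hg : g ∈ H) (h0 : g 0 ≠ 0) :
    w2 ∈ H := by
  obtain ⟨a, ha⟩ := c5_trans (g 0) 1 h0 (by decide)
  have h1 : g⁻¹ 0 ≠ 0 := fun h => h0 (Perm.inv_eq_iff_eq.1 (by rw [h]) : (0 : Fin 6) = g 0).symm
  obtain ⟨b, hb⟩ := c5_trans 1 (g⁻¹ 0) (by decide) h1
  set x := c5 ^ a.1 * g * c5 ^ b.1 with hx
  have hxH : x ∈ H := H.mul_mem (H.mul_mem (H.pow_mem hc _) hg) (H.pow_mem hc _)
  have x0 : x 0 = 1 := by rw [hx, Perm.mul_apply, Perm.mul_apply, c5_pow_zero, ha]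
  have x1 : x 1 = 0 := by
    rw [hx, Perm.mul_apply, Perm.mul_apply, hb, app_inv, c5_pow_zero]
  have hn := nodup x
  have e := coe_eq x
  rw [x0, x1] at hn e
  rcases k1 _ _ _ _ hn with ⟨w, -, hw⟩ | ⟨w, -, hw⟩ <;> rw [← e] at hw
  · exact mem_of_word hc hxH hw
  · exact absurd (mem_of_word hc hxH hw) ht

theorem sign_ev (w : List Bool) : Perm.sign (ev w t3) = 1 :=
  Perm.mem_alternatingGroup.1 (ev_mem (Perm.mem_alternatingGroup.2 sign_c5)
    (Perm.mem_alternatingGroup.2 sign_t3) w)

theorem even_mem (hc : c5 ∈ H) (ht : t3 ∈ H) {g : Perm (Fin 6)} (hg : Perm.sign g = 1)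
    (h0 : g 0 = 0) : g ∈ H := by
  have h1 : g 1 ≠ 0 := fun h => absurd (g.injective (h.trans h0.symm)) (by decide)
  obtain ⟨j, hj⟩ := c5_trans (g 1) 1 h1 (by decide)
  set x := c5 ^ j.1 * g with hx
  have x0 : x 0 = 0 := by rw [hx, Perm.mul_apply, h0, c5_pow_zero]
  have x1 : x 1 = 1 := by rw [hx, Perm.mul_apply, hj]
  have xs : Perm.sign x = 1 := by rw [hx, map_mul, map_pow, sign_c5, hg, one_pow, one_mul]
  have hn := nodup x
  have e := coe_eq x
  rw [x0, x1] at hn e
  have hxH : x ∈ H := by
    rcases k2 _ _ _ _ hn with ⟨w, -, hw⟩ | ⟨w, -, hw⟩ <;> rw [← e] at hw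
    · exact mem_of_word hc ht hw
    · have e2 : x = m4 * ev w t3 := Equiv.ext fun i => by
        rw [← hw i, Perm.mul_apply m4, ev_apply]
      rw [e2, map_mul, sign_ev, sign_m4] at xs
      exact absurd xs (by decide)
  have e3 : g = (c5 ^ j.1)⁻¹ * x := by rw [hx, inv_mul_cancel_left]
  rw [e3]
  exact H.mul_mem (H.inv_mem (H.pow_mem hc _)) hxH

/-- An element moving `0` can be corrected by `c5` and `y`. -/
theorem exists_fix {y : Perm (Fin 6)} (hy : y 0 ≠ 0) {g : Perm (Fin 6)} (hg : g 0 ≠ 0) :
    ∃ k : ℕ, ((c5 ^ k * y)⁻¹ * g) 0 = 0 := by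
  obtain ⟨k, hk⟩ := c5_trans (y 0) (g 0) hy hg
  refine ⟨k.1, ?_⟩
  rw [Perm.mul_apply, Perm.inv_eq_iff_eq, Perm.mul_apply, hk]

theorem alt_le (hc : c5 ∈ H) (ht : t3 ∈ H) {g : Perm (Fin 6)} (hg : g ∈ H) (h0 : g 0 ≠ 0) :
    alternatingGroup (Fin 6) ≤ H := by
  intro x hx
  rw [Perm.mem_alternatingGroup] at hx
  by_cases x0 : x 0 = 0
  · exact even_mem hc ht hx x0
  have h1 : g⁻¹ 0 ≠ 0 := fun h => h0 (Perm.inv_eq_iff_eq.1 (by rw [h]) : (0 : Fin 6) = g 0).symm
  have hy : (g * c5 * g⁻¹) 0 ≠ 0 := by
    intro h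
    rw [Perm.mul_apply, Perm.mul_apply, ← Perm.eq_inv_iff_eq] at h
    exact c5_ne _ h1 h
  obtain ⟨k, hk⟩ := exists_fix hy x0
  have hs : Perm.sign ((c5 ^ k * (g * c5 * g⁻¹))⁻¹ * x) = 1 := by
    simp only [map_mul, map_inv, map_pow, sign_c5, hx, one_pow, mul_one, mul_inv_cancel,
      inv_one]
  have h2 := even_mem hc ht hs hk
  have h3 : c5 ^ k * (g * c5 * g⁻¹) ∈ H :=
    H.mul_mem (H.pow_mem hc _) (H.mul_mem (H.mul_mem hg hc) (H.inv_mem hg))
  have h4 := H.mul_mem h3 h2
  rwa [mul_inv_cancel_left] at h4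

/-- A subgroup between `K ⊓ Aₙ` and `K`. -/
theorem idx2 {K : Subgroup (Perm (Fin 6))} (h1 : K ⊓ alternatingGroup (Fin 6) ≤ H) (h2 : H ≤ K) :
    H = K ⊓ alternatingGroup (Fin 6) ∨ H = K := by
  by_cases h : H ≤ alternatingGroup (Fin 6)
  · exact Or.inl (le_antisymm (le_inf h2 h) h1)
  obtain ⟨x, hx, hx'⟩ := SetLike.not_le_iff_exists.1 h
  refine Or.inr (le_antisymm h2 fun g hg => ?_)
  by_cases hs : g ∈ alternatingGroup (Fin 6)
  · exact h1 ⟨hg, hs⟩
  rw [Perm.mem_alternatingGroup] at hx' hs
  have e1 := (Int.units_eq_one_or (Perm.sign x)).resolve_left hx'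
  have e2 := (Int.units_eq_one_or (Perm.sign g)).resolve_left hs
  have h3 : x⁻¹ * g ∈ H := h1 (mem_inf.2 ⟨K.mul_mem (K.inv_mem (h2 hx)) hg, by
    rw [Perm.mem_alternatingGroup, map_mul, map_inv, e1, e2]; decide⟩)
  simpa using H.mul_mem hx h3

/-! ### The group `G25` does not contain `t3` -/

/-- The blocks of a design on six points. -/
def blocks : List (List (Fin 6)) :=
  [[0, 1, 2], [0, 1, 3], [0, 2, 4], [0, 3, 5], [0, 4, 5], [1, 2, 5], [1, 3, 4], [1, 4, 5],
   [2, 3, 4], [2, 3, 5]]

/-- The signed indicator function of the design. -/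
def sd (a b c : Fin 6) : ℤ :=
  if a = b ∨ a = c ∨ b = c then 0 else
    if blocks.any (fun l => l.contains a && l.contains b && l.contains c) then 1 else -1

/-- The permutations preserving the design up to their sign. -/
def Sd : Subgroup (Perm (Fin 6)) where
  carrier := {g | ∀ a b c, sd (g a) (g b) (g c) = (Perm.sign g : ℤ) * sd a b c}
  one_mem' := fun a b c => by simp
  mul_mem' := fun {g h} hg hh a b c => by
    rw [Perm.mul_apply, Perm.mul_apply, Perm.mul_apply, hg, hh, map_mul, Units.val_mul, mul_assoc]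
  inv_mem' := fun {g} hg a b c => by
    have e := hg (g⁻¹ a) (g⁻¹ b) (g⁻¹ c)
    simp only [app_inv] at e
    rw [e, Perm.sign_inv, ← mul_assoc, ← Units.val_mul, Int.units_mul_self, Units.val_one, one_mul]

theorem G25_le_Sd : G25 ≤ Sd := by
  rw [G25, closure_le]
  intro g hg
  rcases hg with rfl | rfl | rfl
  · intro a b c
    rw [sign_c5]
    revert a b c
    decide +kernel
  · intro a b c
    rw [sign_w2]
    revert a b c
    decide +kernel
  · intro a b c
    rw [sign_m4]
    revert a b c
    decide +kernel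

theorem t3_not_mem : t3 ∉ G25 := fun h => by
  have e := G25_le_Sd h 0 1 2
  have e' := G25_le_Sd h 0 2 3
  have e'' := G25_le_Sd h 0 1 3
  rw [sign_t3] at e e' e''
  revert e e' e''
  decide +kernel

end Cfsg.Agent.Cl.D4.P1
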