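/-
The non-solvable subgroups of `S₆`.
-/
import Mathlib
import Cfsg.Agent.Cl.D4P1a
import Cfsg.Agent.Perm.FixTools
import Cfsg.Agent.Ch.Burnside

set_option autoImplicit false

namespace Cfsg.Agent.Cl.D4

open Equiv Subgroup

namespace P1

theorem c5_L : c5 ∈ L25 := subset_closure (by simp)
theorem w2_L : w2 ∈ L25 := subset_closure (by simp)
theorem c5_G : c5 ∈ G25 := subset_closure (by simp)
theorem w2_G : w2 ∈ G25 := subset_closure (by simp)
theorem m4_G : m4 ∈ G25 := subset_closure (by simp)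

theorem L25_le {H : Subgroup (Perm (Fin 6))} (hc : c5 ∈ H) (hw : w2 ∈ H) : L25 ≤ H := by
  rw [L25, closure_le]
  rintro g (rfl | rfl)
  exacts [hc, hw]

theorem m4_sq : m4 ^ 2 ∈ L25 :=
  mem_of_word c5_L w2_L (w := [true, true, false, true, true, true, false, true, true, false])
    (by decide +kernel)

variable {H : Subgroup (Perm (Fin 6))}

theorem decomp (hc : c5 ∈ H) (ht : t3 ∉ H) (hw : w2 ∈ H) {g : Perm (Fin 6)} (hg : g ∈ H) :
    ∃ y ∈ L25, ∃ k : Fin 4, g = y * m4 ^ k.1 := by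
  by_cases h0 : g 0 = 0
  · obtain ⟨j, k, e⟩ := fix_0 hc ht hg h0
    exact ⟨_, L25.inv_mem (L25.pow_mem c5_L _), k, e⟩
  obtain ⟨a, ha⟩ := exists_fix (y := w2) (by decide) h0
  obtain ⟨j, k, e⟩ := fix_0 hc ht (H.mul_mem (H.inv_mem (H.mul_mem (H.pow_mem hc a) hw)) hg) ha
  refine ⟨c5 ^ a * w2 * (c5 ^ j.1)⁻¹,
    L25.mul_mem (L25.mul_mem (L25.pow_mem c5_L _) w2_L) (L25.inv_mem (L25.pow_mem c5_L _)), k, ?_⟩
  rw [mul_assoc, ← e, mul_inv_cancel_left]

theorem L25_le_alt : L25 ≤ alternatingGroup (Fin 6) :=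
  L25_le (Perm.mem_alternatingGroup.2 sign_c5) (Perm.mem_alternatingGroup.2 sign_w2)

end P1

open P1

theorem L25_eq : L25 = G25 ⊓ alternatingGroup (Fin 6) := by
  refine le_antisymm (le_inf (L25_le c5_G w2_G) L25_le_alt) fun g hg => ?_
  obtain ⟨y, hy, k, rfl⟩ := decomp c5_G t3_not_mem w2_G hg.1
  have hs : Perm.sign (y * m4 ^ k.1) = 1 := Perm.mem_alternatingGroup.1 hg.2
  rw [map_mul, Perm.mem_alternatingGroup.1 (L25_le_alt hy), one_mul, map_pow, sign_m4] at hs
  refine L25.mul_mem hy ?_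
  fin_cases k
  · exact L25.one_mem
  · exact absurd hs (by decide)
  · exact m4_sq
  · exact absurd hs (by decide)

theorem card_S5 : Nat.card S5 = 120 := by
  have h1 := Subgroup.card_mul_index S5
  rw [S5, MulAction.index_stabilizer_of_transitive, Nat.card_perm] at h1
  simp only [Nat.card_eq_fintype_card (α := Fin 6), Fintype.card_fin] at h1
  rw [show Nat.factorial 6 = 720 from rfl] at h1
  rw [S5]
  omega

theorem card_A5 : Nat.card A5 = 60 := by
  have h := Sym.two_mul_card_inf_alternatingGroup (H := S5) fun h => by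
    have h1 : swap (0 : Fin 6) 1 ∈ S5 := by
      rw [S5, MulAction.mem_stabilizer_iff]
      decide
    have h2 := Perm.mem_alternatingGroup.1 (h h1)
    rw [Perm.sign_swap (by decide)] at h2
    exact absurd h2 (by decide)
  rw [card_S5] at h
  rw [A5]
  omega

theorem card_G25 : Nat.card G25 = 120 := by
  have h1 := Perm.Fx.card_orbit_mul G25 (0 : Fin 6)
  have h2 := Perm.Fx.card_orbit_mul (G25 ⊓ MulAction.stabilizer (Perm (Fin 6)) (0 : Fin 6))
    (1 : Fin 6)
  have e1 : MulAction.orbit G25 (0 : Fin 6) = Set.univ := by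
    refine Set.eq_univ_of_forall fun i => ?_
    by_cases hi : i = 0
    · exact hi ▸ MulAction.mem_orbit_self _
    obtain ⟨k, hk⟩ := c5_trans (w2 0) i (by decide) hi
    exact ⟨⟨c5 ^ k.1 * w2, G25.mul_mem (G25.pow_mem c5_G _) w2_G⟩, hk⟩
  have e2 : MulAction.orbit
      (G25 ⊓ MulAction.stabilizer (Perm (Fin 6)) (0 : Fin 6) : Subgroup (Perm (Fin 6)))
      (1 : Fin 6) = ({1, 2, 3, 4, 5} : Finset (Fin 6)) := by
    ext i
    have e : i ∈ (({1, 2, 3, 4, 5} : Finset (Fin 6)) : Set (Fin 6)) ↔ i ≠ 0 := by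
      rw [Finset.mem_coe]
      revert i
      decide
    rw [e]
    constructor
    · rintro ⟨g, rfl⟩ h
      have h0 : g.1 0 = 0 := g.2.2
      exact absurd (g.1.injective (h0.trans (Eq.symm h))) (by decide)
    · intro hi
      obtain ⟨k, hk⟩ := c5_trans 1 i (by decide) hi
      exact ⟨⟨c5 ^ k.1, G25.pow_mem c5_G _, c5_pow_zero _⟩, hk⟩
  have e3 : G25 ⊓ MulAction.stabilizer (Perm (Fin 6)) (0 : Fin 6) ⊓
      MulAction.stabilizer (Perm (Fin 6)) (1 : Fin 6) = zpowers m4 := by
    refine le_antisymm (fun g hg => ?_) ?_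
    · obtain ⟨k, rfl⟩ := fix_01 c5_G t3_not_mem hg.1.1 hg.1.2 hg.2
      exact pow_mem (mem_zpowers _) _
    · rw [zpowers_le]
      exact ⟨⟨m4_G, (by decide : m4 0 = 0)⟩, (by decide : m4 1 = 1)⟩
  have e4 : orderOf m4 = 4 := by
    have : Fact (Nat.Prime 2) := ⟨Nat.prime_two⟩
    exact orderOf_eq_prime_pow (p := 2) (n := 1) (by decide) (by decide)
  rw [e2, e3, Nat.card_zpowers, e4, Nat.card_coe_set_eq, Set.ncard_coe_finset] at h2
  rw [e1, ← h2, Nat.card_univ, Nat.card_eq_fintype_card, Fintype.card_fin] at h1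
  rw [← h1]
  rfl

theorem card_L25 : Nat.card L25 = 60 := by
  have h := Sym.two_mul_card_inf_alternatingGroup (H := G25) fun h => by
    have h2 := Perm.mem_alternatingGroup.1 (h m4_G)
    rw [sign_m4] at h2
    exact absurd h2 (by decide)
  rw [card_G25, ← L25_eq] at h
  omega

namespace P1

variable {H : Subgroup (Perm (Fin 6))}

theorem cases_c5 (hc : c5 ∈ H) (h : ¬ Group.IsSolvable H) :
    H = L25 ∨ H = G25 ∨ H = alternatingGroup (Fin 6) ∨ H = ⊤ ∨
      H = MulAction.stabilizer (Perm (Fin 6)) (0 : Fin 6) ⊓ alternatingGroup (Fin 6) ∨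
      H = MulAction.stabilizer (Perm (Fin 6)) (0 : Fin 6) := by
  by_cases ht : t3 ∈ H <;> by_cases h0 : ∀ g ∈ H, g 0 = 0
  · rcases idx2 (H := H) (K := MulAction.stabilizer (Perm (Fin 6)) (0 : Fin 6))
      (fun g hg => even_mem hc ht (Perm.mem_alternatingGroup.1 hg.2) hg.1) h0 with e | e
    · simp only [e, true_or, or_true]
    · simp only [e, or_true]
  · push Not at h0
    obtain ⟨g, hg, h0⟩ := h0
    rcases idx2 (H := H) (K := ⊤) (inf_le_right.trans (alt_le hc ht hg h0)) le_top with e | e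
    · rw [top_inf_eq] at e
      simp only [e, true_or, or_true]
    · simp only [e, true_or, or_true]
  · refine absurd (Perm.CompLen.isSolvable_of_card_lt_sixty ?_) h
    choose j k e using fun g : H => fix_0 hc ht g.2 (h0 g g.2)
    have h1 := Nat.card_le_card_of_injective (fun g : H => (j g, k g)) fun a b hab => by
      have hab' := Prod.mk.inj hab
      exact Subtype.ext (by rw [e a, e b, hab'.1, hab'.2])
    rw [Nat.card_eq_fintype_card (α := Fin 5 × Fin 4)] at h1
    simp only [Fintype.card_prod, Fintype.card_fin] at h1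
    omega
  · push Not at h0
    obtain ⟨g, hg, h0⟩ := h0
    have hw := w2_mem hc ht hg h0
    have h2 : H ≤ G25 := fun x hx => by
      obtain ⟨y, hy, k, rfl⟩ := decomp hc ht hw hx
      exact G25.mul_mem (L25_le c5_G w2_G hy) (G25.pow_mem m4_G _)
    rcases idx2 (H := H) (K := G25) (L25_eq ▸ L25_le hc hw) h2 with e | e
    · exact Or.inl (e.trans L25_eq.symm)
    · exact Or.inr (Or.inl e)

theorem cycleType_five {g : Perm (Fin 6)} (hg : orderOf g = 5) : g.cycleType = {5} := by
  obtain ⟨n, hn⟩ := Perm.cycleType_prime_order (σ := g) (by rw [hg]; norm_num)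
  have h1 := g.sum_cycleType
  have h2 : g.support.card ≤ 6 := by simpa using Finset.card_le_univ g.support
  rw [hn, hg, Multiset.sum_replicate, smul_eq_mul] at h1
  have h3 : n = 0 := by omega
  rw [hn, hg, h3]
  rfl

theorem exists_conj (h : ¬ Group.IsSolvable H) : ∃ g ∈ H, IsConj g c5 := by
  have : Fact (Nat.Prime 5) := ⟨by norm_num⟩
  have hd : Nat.card H ∣ 2 ^ 4 * 3 ^ 2 * 5 := by
    have := H.card_subgroup_dvd_card
    rwa [Nat.card_perm, Nat.card_eq_fintype_card (α := Fin 6), Fintype.card_fin] at this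
  have h5 : 5 ∣ Nat.card H := by
    by_contra h5
    exact h (Ch.burnside_isSolvable_of_card_dvd Nat.prime_two Nat.prime_three
      (Nat.Coprime.dvd_of_dvd_mul_right
        ((Nat.Prime.coprime_iff_not_dvd (by norm_num)).2 h5).symm hd))
  obtain ⟨g, hg⟩ := exists_prime_orderOf_dvd_card' 5 h5
  refine ⟨g, g.2, Perm.isConj_iff_cycleType_eq.2 ?_⟩
  rw [cycleType_five (by rwa [Subgroup.orderOf_coe]),
    cycleType_five (orderOf_eq_prime (by decide) (by decide))]

theorem map_conj_conj (H : Subgroup (Perm (Fin 6))) (a b : Perm (Fin 6)) :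
    (H.map (MulAut.conj a).toMonoidHom).map (MulAut.conj b).toMonoidHom =
      H.map (MulAut.conj (b * a)).toMonoidHom := by
  rw [Subgroup.map_map]
  congr 1

theorem map_stab : (MulAction.stabilizer (Perm (Fin 6)) (0 : Fin 6)).map
    (MulAut.conj (swap (0 : Fin 6) 5)).toMonoidHom = S5 := by
  rw [← MulAction.stabilizer_smul_eq_stabilizer_map_conj]
  rfl

theorem map_alt (a : Perm (Fin 6)) : (alternatingGroup (Fin 6)).map
    (MulAut.conj a).toMonoidHom = alternatingGroup (Fin 6) := by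
  ext x
  rw [mem_map_equiv, Perm.mem_alternatingGroup, Perm.mem_alternatingGroup, MulAut.conj_symm_apply,
    map_mul, map_mul, mul_right_comm, map_inv, inv_mul_cancel, one_mul]

end P1

/-- The non-solvable subgroups of `S₆`. -/
theorem s6_cases {H : Subgroup (Equiv.Perm (Fin 6))} (h : ¬ Group.IsSolvable H) :
    ∃ τ : Equiv.Perm (Fin 6), H.map (MulAut.conj τ).toMonoidHom ∈
      ({A5, L25, G25, S5, alternatingGroup (Fin 6), ⊤} : Set (Subgroup (Equiv.Perm (Fin 6)))) := by
  obtain ⟨g, hg, hc⟩ := exists_conj h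
  obtain ⟨τ, hτ⟩ := isConj_iff.1 hc
  have hc' : c5 ∈ H.map (MulAut.conj τ).toMonoidHom := ⟨g, hg, hτ⟩
  have h' : ¬ Group.IsSolvable (H.map (MulAut.conj τ).toMonoidHom) := fun h1 =>
    h (Group.isSolvable_of_surjective
      (f := (H.equivMapOfInjective (MulAut.conj τ).toMonoidHom
        (MulAut.conj τ).injective).symm.toMonoidHom)
      (MulEquiv.surjective _))
  rcases cases_c5 hc' h' with e | e | e | e | e | e
  · exact ⟨τ, by simp only [e, Set.mem_insert_iff, true_or, or_true]⟩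
  · exact ⟨τ, by simp only [e, Set.mem_insert_iff, true_or, or_true]⟩
  · exact ⟨τ, by simp only [e, Set.mem_insert_iff, true_or, or_true]⟩
  · exact ⟨τ, by simp only [e, Set.mem_insert_iff, Set.mem_singleton_iff, or_true]⟩
  · refine ⟨swap 0 5 * τ, Or.inl ?_⟩
    rw [← map_conj_conj, e, Subgroup.map_inf_eq _ _ _ (MulAut.conj _).injective, map_stab, map_alt]
    rfl
  · refine ⟨swap 0 5 * τ, ?_⟩
    rw [← map_conj_conj, e, map_stab]
    simp only [Set.mem_insert_iff, true_or, or_true]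

end Cfsg.Agent.Cl.D4
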