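/-
Subgroups of `SL₄(F)`: a non-solvable 2-local subgroup gives an elementary abelian group of
order 16 with non-solvable normaliser.
-/
import Mathlib
import Cfsg.Agent.Cl.D4W
import Cfsg.Agent.Cl.D4P1b
import Cfsg.Agent.Sym.Orbits
import Cfsg.Prelude.Def_Local

set_option autoImplicit false

namespace Cfsg.Agent.Cl.D4

open Matrix Cfsg.Geo Cfsg.Agent.Cl.Max Cfsg.Agent.Cl.Mx Subgroup
open Cfsg.Agent.Cl.D5 (MT Root TrGen Cov NoTv)
open scoped MatrixGroups commutatorElement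

variable {F : Type*} [Field F] [Finite F] {G : Type*} [Group G] {P : Subgroup (G4 F)}
  {π : P →* G}

namespace P1

theorem two_mul_le [Finite G] {H K : Subgroup G} (h : H < K) : 2 * Nat.card H ≤ Nat.card K := by
  obtain ⟨c, hc⟩ := card_dvd_of_le h.le
  have h0 : 0 < Nat.card K := Nat.card_pos
  have h1 : c ≠ 1 := by
    rintro rfl
    exact h.ne (eq_of_le_of_card_ge h.le (by omega))
  have h2 : c ≠ 0 := by
    rintro rfl
    omega
  rw [hc, mul_comm]
  exact Nat.mul_le_mul_left _ (by omega)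

theorem solv_of_hom (hs : SolvC G) {M : Subgroup G} {X : Type*} [Group X] [Group.IsSolvable X]
    (φ : M →* X) {t : G} (h1 : t ≠ 1) (h2 : t * t = 1) (hk : ∀ g, φ g = 1 → Commute (g : G) t) :
    Group.IsSolvable M := by
  have : Fact (Nat.Prime 2) := ⟨Nat.prime_two⟩
  have := hs t (orderOf_eq_prime (by rw [pow_two, h2]) h1)
  have : Group.IsSolvable φ.ker := Group.isSolvable_of_isSolvable_injective
    (f := (M.subtype.comp φ.ker.subtype).codRestrict (centralizer ({t} : Set G)) fun g =>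
      mem_centralizer_singleton_iff.2 (hk g g.2).eq)
    fun a b hab => Subtype.ext (Subtype.ext (Subtype.mk.inj hab))
  exact Group.isSolvable_of_ker_le_range φ.ker.subtype φ (by rw [range_subtype])

theorem solv_of_le {M N : Subgroup G} (h : M ≤ N) (hN : Group.IsSolvable N) :
    Group.IsSolvable M :=
  Group.isSolvable_of_isSolvable_injective (inclusion_injective h)

theorem le_normalizer {M A : Subgroup G} (h : ∀ g ∈ M, ∀ x ∈ A, g * x * g⁻¹ ∈ A) :
    M ≤ normalizer (A : Set G) := fun g hg => mem_normalizer_iff.2 fun x =>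
  ⟨h g hg x, fun hx => by simpa [mul_assoc] using h g⁻¹ (M.inv_mem hg) _ hx⟩

theorem commute_of_sq {A : Subgroup G} (hA : ∀ x ∈ A, x * x = 1) {x y : G} (hx : x ∈ A)
    (hy : y ∈ A) : Commute x y := by
  have e := hA _ (A.mul_mem hx hy)
  have e1 : x⁻¹ = x := inv_eq_of_mul_eq_one_right (hA x hx)
  have e2 : y⁻¹ = y := inv_eq_of_mul_eq_one_right (hA y hy)
  have e3 := inv_eq_of_mul_eq_one_right e
  rw [_root_.mul_inv_rev, e1, e2] at e3
  exact e3.symm

/-- The involutions in the centre of `T`, and the identity. -/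
def om (T : Subgroup G) : Subgroup G where
  carrier := {x | x ∈ T ∧ (∀ y ∈ T, Commute x y) ∧ x * x = 1}
  one_mem' := ⟨T.one_mem, fun y _ => Commute.one_left y, one_mul 1⟩
  mul_mem' := fun {a b} ha hb => ⟨T.mul_mem ha.1 hb.1,
    fun y hy => (ha.2.1 y hy).mul_left (hb.2.1 y hy), by
      rw [(ha.2.1 b hb.1).symm.mul_mul_mul_comm, ha.2.2, hb.2.2, one_mul]⟩
  inv_mem' := fun {a} ha => ⟨T.inv_mem ha.1, fun y hy => (ha.2.1 y hy).inv_left, by
    rw [← _root_.mul_inv_rev, ha.2.2, inv_one]⟩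

theorem om_ne_bot [Finite G] {T : Subgroup G} (hT : IsPGroup 2 T) (h : T ≠ ⊥) : om T ≠ ⊥ := by
  have : Fact (Nat.Prime 2) := ⟨Nat.prime_two⟩
  have : Nontrivial T := (nontrivial_iff_ne_bot T).2 h
  have := hT.center_nontrivial
  obtain ⟨n, hn, e⟩ := (hT.to_subgroup (center T)).nontrivial_iff_card.1 inferInstance
  obtain ⟨z, hz⟩ := exists_prime_orderOf_dvd_card' (G := center T) 2
    (by rw [e]; exact dvd_pow_self 2 hn.ne')
  have hz' : orderOf ((z : T) : G) = 2 := by rw [orderOf_coe, orderOf_coe, hz]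
  refine (ne_bot_iff_exists_ne_one).2 ⟨⟨((z : T) : G), z.1.2, fun y hy => ?_, ?_⟩, fun h1 => ?_⟩
  · exact (congrArg Subtype.val (mem_center_iff.1 z.2 ⟨y, hy⟩)).symm
  · rw [← pow_two, ← hz', pow_orderOf_eq_one]
  · have h2 : ((z : T) : G) = 1 := congrArg Subtype.val h1
    rw [h2, orderOf_one] at hz'
    omega

theorem normalizer_le_om (T : Subgroup G) :
    normalizer (T : Set G) ≤ normalizer (om T : Set G) := by
  refine le_normalizer fun g hg x hx => ⟨(mem_normalizer_iff.1 hg x).1 hx.1, fun y hy => ?_, ?_⟩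
  · have h1 : g⁻¹ * y * g ∈ T := (mem_normalizer_iff''.1 hg y).1 hy
    have h2 := (hx.2.1 _ h1).eq
    calc g * x * g⁻¹ * y = g * (x * (g⁻¹ * y * g)) * g⁻¹ := by group
      _ = y * (g * x * g⁻¹) := by rw [h2]; group
  · rw [conj_mul, hx.2.2, mul_one, mul_inv_cancel]

omit [Finite F] in
/-- An elementary abelian group of order eight has a non-trivial radical. -/
theorem rad_eight [Finite G] (h : PC P π) (h2 : (2 : F) ≠ 0) {A : Subgroup G}
    (hA : ∀ x ∈ A, x * x = 1) (h8 : Nat.card A = 8) :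
    ∃ c ∈ A, c ≠ 1 ∧ ∀ x ∈ A, Cm π c x := by
  classical
  by_contra hc
  push Not at hc
  have hor : ∀ x ∈ A, ∀ y ∈ A, Cm π x y ∨ An π x y := fun x hx y hy =>
    h.cm_or_an (hA x hx) (commute_of_sq hA hx hy)
  obtain ⟨⟨a, ha⟩, a1⟩ := (ne_bot_iff_exists_ne_one (H := A)).1 (by
    rintro rfl
    simp at h8)
  have a1' : a ≠ 1 := fun e => a1 (Subtype.ext e)
  obtain ⟨b, hb, hab⟩ := hc a ha a1'
  have ab := (hor a ha b hb).resolve_left hab
  have adj : ∀ x ∈ A, ∃ v ∈ ({1, a, b, a * b} : Finset G),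
      x * v ∈ A ⊓ C0 π h a ⊓ C0 π h b := by
    intro x hx
    rcases hor a ha x hx with e | e <;> rcases hor b hb x hx with e' | e'
    · exact ⟨1, by simp, by rw [mul_one]; exact ⟨⟨hx, e⟩, e'⟩⟩
    · exact ⟨a, by simp, ⟨A.mul_mem hx ha, e.mul h (h.cm_self a)⟩, e'.mul_an h ab.symm⟩
    · exact ⟨b, by simp, ⟨A.mul_mem hx hb, e.mul_an h ab⟩, e'.mul h (h.cm_self b)⟩
    · exact ⟨a * b, by simp, ⟨A.mul_mem hx (A.mul_mem ha hb),
        e.mul_an h ((h.cm_self a).mul_an h ab)⟩,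
        e'.mul_an h (ab.symm.mul_cm h (h.cm_self b))⟩
  have hW : A ⊓ C0 π h a ⊓ C0 π h b ≠ ⊥ := by
    intro e
    have h1 : (A : Set G) ⊆ (({1, a, b, a * b} : Finset G).image (·⁻¹) : Finset G) := by
      intro x hx
      obtain ⟨v, hv, e'⟩ := adj x hx
      rw [e, mem_bot] at e'
      exact Finset.mem_coe.2 (Finset.mem_image.2 ⟨v, hv, (eq_inv_of_mul_eq_one_left e').symm⟩)
    have h3 := Set.ncard_le_ncard h1
    rw [Set.ncard_coe_finset, ← Nat.card_coe_set_eq, SetLike.coe_sort_coe, h8] at h3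
    have h4 := (h3.trans Finset.card_image_le).trans Finset.card_le_four
    omega
  obtain ⟨⟨c, hcW⟩, c1⟩ := ne_bot_iff_exists_ne_one.1 hW
  have c1' : c ≠ 1 := fun e => c1 (Subtype.ext e)
  have l1 := two_mul_le (bot_lt_iff_ne_bot.2 (zpowers_ne_bot.2 c1'))
  have l3 : A ⊓ C0 π h a ⊓ C0 π h b < A ⊓ C0 π h a := lt_of_le_of_ne inf_le_left fun e =>
    h.not_cm_an h2 (e.ge (show a ∈ A ⊓ C0 π h a from ⟨ha, h.cm_self a⟩)).2 ab.symm
  have l4 : A ⊓ C0 π h a < A := lt_of_le_of_ne inf_le_left fun e => hab (e.ge hb).2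
  have l2 : zpowers c = A ⊓ C0 π h a ⊓ C0 π h b := by
    by_contra e
    have m2 := two_mul_le (lt_of_le_of_ne (zpowers_le.2 hcW) e)
    have m3 := two_mul_le l3
    have m4 := two_mul_le l4
    rw [card_bot] at l1
    omega
  obtain ⟨x, hx, hcx⟩ := hc c hcW.1.1 c1'
  obtain ⟨v, hv, e⟩ := adj x hx
  have ca : a ∈ C0 π h c := Cm.symm hcW.1.2
  have cb : b ∈ C0 π h c := Cm.symm hcW.2
  have cv : v ∈ C0 π h c := by
    simp only [Finset.mem_insert, Finset.mem_singleton] at hv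
    rcases hv with rfl | rfl | rfl | rfl
    exacts [one_mem _, ca, cb, mul_mem ca cb]
  have cw : x * v ∈ C0 π h c := (zpowers_le (H := C0 π h c)).2 (h.cm_self c) (l2.ge e)
  exact hcx ((mul_mem_cancel_right cv).1 cw)

end P1

open P1

theorem Od.exists_ea (h : Od P π) (hs : SolvC G) {N : Subgroup G} (hN : IsTwoLocal N)
    (hn : ¬ Group.IsSolvable N) :
    ∃ E : Subgroup G, EA E 4 ∧ ¬ Group.IsSolvable (normalizer (E : Set G)) := by
  have := h.pc.finite
  have : Fact (Nat.Prime 2) := ⟨Nat.prime_two⟩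
  obtain ⟨T, hT, h0, rfl⟩ := hN
  have hn' : ¬ Group.IsSolvable (normalizer (om T : Set G)) := fun h1 =>
    hn (solv_of_le (normalizer_le_om T) h1)
  have hA : ∀ x ∈ om T, x * x = 1 := fun x hx => hx.2.2
  have hb := om_ne_bot hT h0
  generalize om T = A at hn' hA hb
  refine ⟨A, ⟨hA, ?_⟩, hn'⟩
  -- the radical is trivial
  have hR : ∀ c ∈ A, (∀ x ∈ A, Cm π c x) → c = 1 := by
    intro c hc hcm
    by_contra c1
    let R : Subgroup G := A ⊓ ⨅ x ∈ A, C0 π h.pc x
    have hm : ∀ y, y ∈ R ↔ y ∈ A ∧ ∀ x ∈ A, Cm π x y := fun y => by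
      simp only [R, mem_inf, mem_iInf, mem_C0]
    obtain ⟨φ, hφ⟩ := h.pc.wperm (A := R) (fun x hx y hy => ((hm y).1 hy).2 x ((hm x).1 hx).1)
      (n := 2) (by exact_mod_cast h.two) fun x hx => by rw [pow_two, hA x ((hm x).1 hx).1]
    have := Sym.isSolvable_perm_of_card_le_four (γ := Fin 4) (by simp)
    refine hn' (solv_of_le (le_normalizer fun g hg y hy => ?_) (solv_of_hom hs φ c1 (hA c hc)
      fun g hg => (hφ g hg c ((hm c).2 ⟨hc, fun x hx => (hcm x hx).symm⟩)).commute h.pc))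
    rw [hm] at hy ⊢
    refine ⟨(mem_normalizer_iff.1 hg y).1 hy.1, fun x hx => ?_⟩
    have e := (hy.2 _ ((mem_normalizer_iff''.1 hg x).1 hx)).conj h.pc g
    rwa [show g * (g⁻¹ * x * g) * g⁻¹ = x by group] at e
  have h16 := h.pc.card_le_sixteen h.two hA
  have hp : IsPGroup 2 A := fun x => ⟨1, Subtype.ext (by rw [pow_one, pow_two]; exact hA x x.2)⟩
  obtain ⟨n, hn⟩ := IsPGroup.iff_card.1 hp
  have h4 : ¬ Nat.card A ≤ 4 := by
    intro h4
    have := Sym.isSolvable_perm_of_card_le_four (γ := A) h4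
    obtain ⟨t, t1⟩ := ne_bot_iff_exists_ne_one.1 hb
    refine hn' (solv_of_hom hs ((MulAut.toPerm A).comp A.normalizerMonoidHom)
      (fun e => t1 (Subtype.ext e)) (hA t t.2) fun g hg => ?_)
    have e : A.normalizerMonoidHom g = 1 := MulEquiv.ext fun x => Equiv.congr_fun hg x
    rw [← MonoidHom.mem_ker, normalizerMonoidHom_ker, mem_subgroupOf] at e
    exact (show Commute (t : G) g from e t t.2).symm
  have h8 : Nat.card A ≠ 8 := fun h8 => by
    obtain ⟨c, hc, c1, hcm⟩ := rad_eight h.pc h.two hA h8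
    exact c1 (hR c hc hcm)
  rw [hn] at h16 h4 h8 ⊢
  have h5 : n < 5 := by
    by_contra h5
    have := Nat.pow_le_pow_right (show 0 < 2 by norm_num) (not_lt.1 h5)
    omega
  interval_cases n <;> simp_all

end Cfsg.Agent.Cl.D4
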