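/-
Matrices normalising the Pauli group.
-/
import Mathlib
import Cfsg.Agent.Cl.D4Defs2

set_option autoImplicit false

namespace Cfsg.Agent.Cl.D4.Pab

open Matrix

variable {F : Type*} [Field F] {ι : F} {X Y : M4 F} {g h : SP}

theorem sg_xor (a b : Bool) : sg F (xor a b) = sg F a * sg F b := by
  cases a <;> cases b <;> simp [sg]

theorem sg_mul_self (a : Bool) : sg F a * sg F a = 1 := by cases a <;> simp [sg]

theorem act_mul (hX : Act ι X g) (hY : Act ι Y h) : Act ι (X * Y) (g * h) := fun i j => by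
  rw [mul_assoc, hY, mul_smul_comm, ← mul_assoc, hX, smul_mul_assoc, smul_smul, mul_assoc,
    SP.mul_e, SP.mul_e, sg_xor, sg_xor, mul_assoc _ X]
  congr 1
  ring

theorem act_of_smul {c : F} (hc : c ≠ 0) (hX : Act ι (c • X) g) : Act ι X g := fun i j => by
  have e := hX i j
  rw [smul_mul_assoc, mul_smul_comm, smul_comm] at e
  exact smul_right_injective _ hc e

theorem act_neg : Act ι 1 SP.neg := fun i j => by simp [SP.neg, sg]

theorem act_of_base (hι : ι * ι = -1) (a : Fin 6)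
    (e : ∀ j, X * Gs ι a j = (sg F (g.e a) * sg F (g.e j)) • (Gs ι (g.s a) (g.s j) * X)) :
    Act ι X g := fun i j => by
  have e' : X * Gs ι i a = (sg F (g.e a) * sg F (g.e i)) • (Gs ι (g.s i) (g.s a) * X) := by
    by_cases hi : a = i
    · subst hi
      exact e a
    · rw [Gs_swap hι hi, Gs_swap hι (g.s.injective.ne hi), mul_neg, e, neg_mul, smul_neg]
  rw [← Gs_mul hι i a j, ← mul_assoc, e', smul_mul_assoc, mul_assoc, e, mul_smul_comm,
    ← mul_assoc, Gs_mul hι, smul_smul]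
  congr 1
  linear_combination (sg F (g.e i) * sg F (g.e j)) * sg_mul_self (F := F) (g.e a)

/-- A rotation by a right angle. -/
def rot (a b : Fin 6) : SP := ⟨fun i => decide (i = a), Equiv.swap a b⟩

theorem act_rot (hι : ι * ι = -1) {a b : Fin 6} (hab : a ≠ b) :
    Act ι (1 + Gs ι a b) (rot a b) := by
  refine act_of_base hι a fun j => ?_
  by_cases ha : j = a
  · subst ha
    simp [rot, sg, Gs_self hι]
  by_cases hb : j = b
  · subst hb
    simp [rot, sg, ha, Gs_swap hι hab, add_mul, mul_add]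
  have e1 : Gs ι a b * Gs ι a j = -Gs ι b j := by
    rw [Gs_swap hι hab.symm, neg_mul, Gs_mul hι]
  have e2 : Gs ι b j * Gs ι a b = -Gs ι a j := by
    rw [Gs_swap hι hab.symm, Gs_swap hι hb, neg_mul_neg, Gs_mul hι, Gs_swap hι (Ne.symm ha)]
  simp only [rot, sg, ha, Equiv.swap_apply_left, Equiv.swap_apply_of_ne_of_ne ha hb, add_mul,
    mul_add, e1, e2, decide_true, decide_false, if_true, one_mul, mul_one]
  simp [add_comm]

theorem act_gs (hι : ι * ι = -1) (a b : Fin 6) : Act ι (Gs ι a b) (SP.dg a b) := by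
  by_cases hab : a = b
  · subst hab
    intro i j
    simp [SP.dg, sg, Gs_self hι]
  refine act_of_base hι a fun j => ?_
  by_cases ha : j = a
  · subst ha
    simp [SP.dg, sg, Gs_self hι, hab]
  by_cases hb : j = b
  · subst hb
    simp [SP.dg, sg, ha, hab]
  have e1 : Gs ι a b * Gs ι a j = -Gs ι b j := by
    rw [Gs_swap hι (Ne.symm hab), neg_mul, Gs_mul hι]
  have e2 : Gs ι a j * Gs ι a b = Gs ι b j := by
    rw [Gs_swap hι ha, neg_mul, Gs_mul hι, Gs_swap hι hb]
  simp [SP.dg, sg, ha, hb, hab, e1, e2]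

theorem gs_unit (hι : ι * ι = -1) (a b : Fin 6) : IsUnit (Gs ι a b) :=
  IsUnit.of_mul_eq_one (Gs ι b a) (by rw [Gs_mul hι, Gs_self hι])

/-! ### The action on the pairs -/

/-- Conjugation by `X` maps the class of the pair `i j` to that of `a b`. -/
def Rl (ι : F) (X : M4 F) (i j a b : Fin 6) : Prop := ∃ c : F, X * Gs ι i j = c • (Gs ι a b * X)

/-- The action of `X` on the classes is induced by `σ`. -/
def Pa (ι : F) (X : M4 F) (σ : Fin 6 → Fin 6) : Prop := ∀ i j, Rl ι X i j (σ i) (σ j)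

theorem pa_of_act (hX : Act ι X g) : Pa ι X g.s := fun i j => ⟨_, hX i j⟩

theorem Pa.mul {σ τ : Fin 6 → Fin 6} (hX : Pa ι X σ) (hY : Pa ι Y τ) :
    Pa ι (X * Y) fun i => σ (τ i) := fun i j => by
  obtain ⟨c, e⟩ := hY i j
  obtain ⟨d, e'⟩ := hX (τ i) (τ j)
  exact ⟨c * d, by rw [mul_assoc, e, mul_smul_comm, ← mul_assoc, e', smul_mul_assoc, smul_smul,
    mul_assoc]⟩

theorem gs_swap' (hι : ι * ι = -1) (a b : Fin 6) : ∃ c : F, Gs ι a b = c • Gs ι b a := by
  by_cases h : a = b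
  · exact ⟨1, by rw [h, one_smul]⟩
  · exact ⟨-1, by rw [Gs_swap hι (Ne.symm h), neg_one_smul]⟩

theorem Rl.swap (hι : ι * ι = -1) {i j a b : Fin 6} (e : Rl ι X i j a b) : Rl ι X i j b a := by
  obtain ⟨c, e⟩ := e
  obtain ⟨d, e'⟩ := gs_swap' hι a b
  exact ⟨c * d, by rw [e, e', smul_mul_assoc, smul_smul]⟩

theorem Rl.swap' (hι : ι * ι = -1) {i j a b : Fin 6} (e : Rl ι X i j a b) : Rl ι X j i a b := by
  obtain ⟨c, e⟩ := e
  obtain ⟨d, e'⟩ := gs_swap' hι j i
  exact ⟨d * c, by rw [e', mul_smul_comm, e, smul_smul]⟩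

/-- The pairs meet in exactly one point. -/
def me (a b c d : Fin 6) : Bool :=
  xor (xor (decide (c = a)) (decide (c = b))) (xor (decide (d = a)) (decide (d = b)))

theorem gs_mul_gs (hι : ι * ι = -1) (a b c d : Fin 6) :
    Gs ι a b * Gs ι c d = sg F (me a b c d) • (Gs ι c d * Gs ι a b) := by
  rw [me, sg_xor]
  exact act_gs hι a b c d

theorem unit_ne_zero (hX : IsUnit X) : X ≠ 0 := hX.ne_zero

theorem me_eq (hι : ι * ι = -1) (h2 : (2 : F) ≠ 0) (hX : IsUnit X) {i j k l a b c d : Fin 6}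
    (e : Rl ι X i j a b) (e' : Rl ι X k l c d) : me a b c d = me i j k l := by
  obtain ⟨x, e⟩ := e
  obtain ⟨y, e'⟩ := e'
  have h1 : X * (Gs ι i j * Gs ι k l) = (x * y) • (Gs ι a b * Gs ι c d * X) := by
    rw [← mul_assoc, e, smul_mul_assoc, mul_assoc, e', mul_smul_comm, smul_smul, mul_assoc]
  have h3 : X * (Gs ι k l * Gs ι i j) = (x * y) • (Gs ι c d * Gs ι a b * X) := by
    rw [← mul_assoc, e', smul_mul_assoc, mul_assoc, e, mul_smul_comm, smul_smul, mul_assoc,
      mul_comm y]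
  rw [gs_mul_gs hι i j, gs_mul_gs hι a b, mul_smul_comm, smul_mul_assoc, smul_comm, ← h3] at h1
  have h4 := smul_left_injective F
    (unit_ne_zero (hX.mul ((gs_unit hι k l).mul (gs_unit hι i j)))) h1
  have h5 : (-1 : F) ≠ 1 := fun h => h2 (by linear_combination -h)
  revert h4
  cases me a b c d <;> cases me i j k l <;> simp [sg, h5, h5.symm]

theorem me_common : ∀ a b c d : Fin 6, me a b c d = true → a = c ∨ a = d ∨ b = c ∨ b = d := by
  decide +kernel

theorem me_star : ∀ c x y : Fin 6, me c x c y = true → ∀ a b, me c x a b = true →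
    me c y a b = true → a = c ∨ b = c ∨ (a = x ∧ b = y) ∨ (a = y ∧ b = x) := by
  decide +kernel

theorem me_tri (c x y a b : Fin 6) (h1 : me c x a b = true) (h2 : me c y a b = true) :
    me x y a b = false := by
  simp only [me] at h1 h2 ⊢
  revert h1 h2
  cases decide (a = c) <;> cases decide (a = x) <;> cases decide (a = y) <;>
    cases decide (b = c) <;> cases decide (b = x) <;> cases decide (b = y) <;> simp

/-- A matrix normalising the Pauli group induces a permutation of the six points. -/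
theorem exists_pa (hι : ι * ι = -1) (h2 : (2 : F) ≠ 0) (hX : IsUnit X)
    (hr : ∀ i j, ∃ a b, Rl ι X i j a b) : ∃ σ, Pa ι X σ := by
  obtain ⟨c, x, y, e1, e2⟩ : ∃ c x y, Rl ι X 0 1 c x ∧ Rl ι X 0 2 c y := by
    obtain ⟨a, b, e1⟩ := hr 0 1
    obtain ⟨c, d, e2⟩ := hr 0 2
    rcases me_common a b c d ((me_eq hι h2 hX e1 e2).trans (by decide)) with h | h | h | h <;>
      subst h
    exacts [⟨_, _, _, e1, e2⟩, ⟨_, _, _, e1, e2.swap hι⟩, ⟨_, _, _, e1.swap hι, e2⟩,
      ⟨_, _, _, e1.swap hι, e2.swap hι⟩]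
  have key : ∀ j k : Fin 6, me 0 1 0 j = true → me 0 2 0 j = true → me 0 1 0 k = true →
      me 0 2 0 k = true → me 0 j 0 k = true → ∃ z, Rl ι X 0 j c z := by
    intro j k m1 m2 m3 m4 m5
    obtain ⟨a, b, e3⟩ := hr 0 j
    obtain ⟨a', b', e4⟩ := hr 0 k
    have h3 : ¬ Rl ι X 0 j x y := fun e => by
      have h4 := me_tri c x y a' b' ((me_eq hι h2 hX e1 e4).trans m3)
        ((me_eq hι h2 hX e2 e4).trans m4)
      rw [me_eq hι h2 hX e e4, m5] at h4
      exact absurd h4 (by decide)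
    rcases me_star c x y ((me_eq hι h2 hX e1 e2).trans (by decide)) a b
      ((me_eq hι h2 hX e1 e3).trans m1) ((me_eq hι h2 hX e2 e3).trans m2) with
      rfl | rfl | ⟨rfl, rfl⟩ | ⟨rfl, rfl⟩
    exacts [⟨_, e3⟩, ⟨_, e3.swap hι⟩, absurd e3 h3, absurd (e3.swap hι) h3]
  have hall : ∀ j, ∃ z, Rl ι X 0 j c z := fun j => by
    fin_cases j
    · exact ⟨c, 1, by simp [Gs_self hι]⟩
    · exact ⟨x, e1⟩
    · exact ⟨y, e2⟩
    · exact key 3 4 (by decide) (by decide) (by decide) (by decide) (by decide)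
    · exact key 4 3 (by decide) (by decide) (by decide) (by decide) (by decide)
    · exact key 5 3 (by decide) (by decide) (by decide) (by decide) (by decide)
  choose σ hσ using hall
  refine ⟨σ, fun i j => ?_⟩
  obtain ⟨u, eu⟩ := ((hσ i).swap hι).swap' hι
  obtain ⟨v, ev⟩ := hσ j
  exact ⟨u * v, by rw [← Gs_mul hι i 0 j, ← mul_assoc, eu, smul_mul_assoc, mul_assoc, ev,
    mul_smul_comm, ← mul_assoc, Gs_mul hι, smul_smul]⟩

/-! ### Diagonal matrices -/

theorem gs01 (ι : F) : Gs ι 0 1 = diagonal ![ι, -ι, -ι, ι] := by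
  ext a b
  fin_cases a <;> fin_cases b <;> simp [Gs, As]

theorem gs23 (hι : ι * ι = -1) : Gs ι 2 3 = diagonal ![ι, ι, -ι, -ι] := by
  ext a b
  fin_cases a <;> fin_cases b <;> simp [Gs, As, hι]

theorem gs45 (hι : ι * ι = -1) : Gs ι 4 5 = diagonal ![ι, -ι, ι, -ι] := by
  ext a b
  fin_cases a <;> fin_cases b <;> simp [Gs, As, hι]

/-- A homology. -/
def rh (m : Fin 4) (c : F) : M4 F := diagonal fun i => if i = m then c else 1

theorem sep (hι : ι * ι = -1) (h2 : (2 : F) ≠ 0) {a b : Fin 4}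
    (e1 : ![ι, -ι, -ι, ι] a = ![ι, -ι, -ι, ι] b) (e2 : ![ι, ι, -ι, -ι] a = ![ι, ι, -ι, -ι] b) :
    a = b := by
  have h0 : ι ≠ -ι := fun h => h2 (by linear_combination (-ι) * h + 2 * hι)
  revert e1 e2
  fin_cases a <;> fin_cases b <;> simp [h0, h0.symm]

theorem isDiag_of_comm (hι : ι * ι = -1) (h2 : (2 : F) ≠ 0) (e1 : X * Gs ι 0 1 = Gs ι 0 1 * X)
    (e2 : X * Gs ι 2 3 = Gs ι 2 3 * X) : X.IsDiag := fun i j hij => by
  by_contra h0
  have h3 := congrFun (congrFun e1 i) j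
  have h4 := congrFun (congrFun e2 i) j
  rw [gs01, mul_diagonal, diagonal_mul, mul_comm] at h3
  rw [gs23 hι, mul_diagonal, diagonal_mul, mul_comm] at h4
  exact hij (sep hι h2 (mul_right_cancel₀ h0 h3).symm (mul_right_cancel₀ h0 h4).symm)

/-- A matrix normalising the diagonal group is monomial. -/
theorem exists_rh (hι : ι * ι = -1) (h2 : (2 : F) ≠ 0) (hX : IsUnit X) {A B C D : M4 F}
    (hA : A.IsDiag) (hB : B.IsDiag) (hC : C.IsDiag) (hD : D.IsDiag)
    (eA : X * Gs ι 0 1 = A * X) (eB : X * Gs ι 2 3 = B * X) (eC : Gs ι 0 1 * X = X * C)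
    (eD : Gs ι 2 3 * X = X * D) : ∃ m, X * rh 0 ι = rh m ι * X := by
  rw [← hA.diagonal_diag, gs01] at eA
  rw [← hB.diagonal_diag, gs23 hι] at eB
  rw [← hC.diagonal_diag, gs01] at eC
  rw [← hD.diagonal_diag, gs23 hι] at eD
  have row : ∀ i j k, X i j ≠ 0 → X i k ≠ 0 → j = k := fun i j k hj hk => by
    have a1 := congrFun (congrFun eA i) j
    have a2 := congrFun (congrFun eA i) k
    have b1 := congrFun (congrFun eB i) j
    have b2 := congrFun (congrFun eB i) k
    rw [mul_diagonal, diagonal_mul, mul_comm] at a1 a2 b1 b2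
    exact sep hι h2 ((mul_right_cancel₀ hj a1).trans (mul_right_cancel₀ hk a2).symm)
      ((mul_right_cancel₀ hj b1).trans (mul_right_cancel₀ hk b2).symm)
  have col : ∀ i j k, X j i ≠ 0 → X k i ≠ 0 → j = k := fun i j k hj hk => by
    have a1 := congrFun (congrFun eC j) i
    have a2 := congrFun (congrFun eC k) i
    have b1 := congrFun (congrFun eD j) i
    have b2 := congrFun (congrFun eD k) i
    rw [mul_diagonal, diagonal_mul, mul_comm] at a1 a2 b1 b2
    exact sep hι h2 ((mul_left_cancel₀ hj a1).trans (mul_left_cancel₀ hk a2).symm)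
      ((mul_left_cancel₀ hj b1).trans (mul_left_cancel₀ hk b2).symm)
  obtain ⟨m, hm⟩ : ∃ m, X m 0 ≠ 0 := by
    by_contra h0
    push Not at h0
    exact ((isUnit_iff_isUnit_det X).1 hX).ne_zero (det_eq_zero_of_column_eq_zero 0 h0)
  refine ⟨m, ?_⟩
  ext i j
  rw [rh, rh, mul_diagonal, diagonal_mul, mul_comm]
  by_cases h0 : X i j = 0
  · rw [h0, mul_zero, mul_zero]
  congr 1
  refine if_congr ⟨fun e => ?_, fun e => ?_⟩ rfl rfl
  · subst e
    exact col _ _ _ h0 hm
  · subst e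
    exact row _ _ _ h0 hm

theorem rh_mul (hι : ι * ι = -1) : rh 0 ι * rh 0 (-ι) = 1 := by
  ext a b
  fin_cases a <;> fin_cases b <;> simp [rh, hι]

theorem rh_mul' (hι : ι * ι = -1) : rh 0 (-ι) * rh 0 ι = 1 := by
  ext a b
  fin_cases a <;> fin_cases b <;> simp [rh, hι]

theorem rh_comm (m : Fin 4) (c : F) (hX : X.IsDiag) : rh m c * X = X * rh m c := by
  rw [← hX.diagonal_diag, rh, diagonal_mul_diagonal, diagonal_mul_diagonal]
  simp only [mul_comm]

/-- The signed permutations induced by products of two homologies. -/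
def rr : Fin 4 → SP := ![rot 0 1 * rot 2 3 * rot 4 5, rot 2 3, rot 4 5, rot 0 1]

theorem act_rr (hι : ι * ι = -1) (h2 : (2 : F) ≠ 0) (m : Fin 4) :
    Act ι (rh m ι * rh 0 ι) (rr m) := by
  have h1 : 1 - ι ≠ 0 := fun h => h2 (by linear_combination (1 + ι) * h + hι)
  have a1 := act_rot hι (show (0 : Fin 6) ≠ 1 by decide)
  have a2 := act_rot hι (show (2 : Fin 6) ≠ 3 by decide)
  have a3 := act_rot hι (show (4 : Fin 6) ≠ 5 by decide)
  have e : ∀ {c : F} {Y : M4 F} {g : SP}, c ≠ 0 → Act ι Y g → c • (rh m ι * rh 0 ι) = Y →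
      Act ι (rh m ι * rh 0 ι) g := fun hc hY e => act_of_smul hc (e ▸ hY)
  fin_cases m
  · refine e (mul_ne_zero h2 h1) (act_mul (act_mul a1 a2) a3) ?_
    simp only [gs01, gs23 hι, gs45 hι, rh, ← diagonal_one, diagonal_add, diagonal_mul_diagonal,
      ← diagonal_smul]
    refine congrArg diagonal (funext fun a => ?_)
    fin_cases a <;> simp <;> grind
  · refine e h1 a2 ?_
    simp only [gs23 hι, rh, ← diagonal_one, diagonal_add, diagonal_mul_diagonal, ← diagonal_smul]
    refine congrArg diagonal (funext fun a => ?_)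
    fin_cases a <;> simp <;> grind
  · refine e h1 a3 ?_
    simp only [gs45 hι, rh, ← diagonal_one, diagonal_add, diagonal_mul_diagonal, ← diagonal_smul]
    refine congrArg diagonal (funext fun a => ?_)
    fin_cases a <;> simp <;> grind
  · refine e h1 a1 ?_
    simp only [gs01, rh, ← diagonal_one, diagonal_add, diagonal_mul_diagonal, ← diagonal_smul]
    refine congrArg diagonal (funext fun a => ?_)
    fin_cases a <;> simp <;> grind

theorem act_u1 (hι : ι * ι = -1) (h2 : (2 : F) ≠ 0) :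
    Act ι (rh 0 ι * Gs ι 0 2 * rh 0 (-ι)) (rot 0 1 * rot 2 3 * SP.dg 0 2) := by
  have e1 : Gs ι 0 2 * rh 0 (-ι) = rh 2 (-ι) * Gs ι 0 2 := by
    ext a b
    rw [rh, rh, mul_diagonal, diagonal_mul]
    fin_cases a <;> fin_cases b <;> simp [Gs, As]
  have e2 : (2 : F) • (rh 0 ι * rh 2 (-ι)) = (1 + Gs ι 0 1) * (1 + Gs ι 2 3) := by
    simp only [gs01, gs23 hι, rh, ← diagonal_one, diagonal_add, diagonal_mul_diagonal,
      ← diagonal_smul]
    refine congrArg diagonal (funext fun a => ?_)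
    fin_cases a <;> simp <;> grind
  refine act_of_smul h2 ?_
  rw [mul_assoc (rh 0 ι), e1, ← mul_assoc, ← smul_mul_assoc, e2]
  exact act_mul (act_mul (act_rot hι (by decide)) (act_rot hι (by decide))) (act_gs hι 0 2)

theorem act_u2 (hι : ι * ι = -1) (h2 : (2 : F) ≠ 0) :
    Act ι (rh 0 ι * Gs ι 0 4 * rh 0 (-ι)) (rot 0 1 * rot 4 5 * SP.dg 0 4) := by
  have e1 : Gs ι 0 4 * rh 0 (-ι) = rh 1 (-ι) * Gs ι 0 4 := by
    ext a b
    rw [rh, rh, mul_diagonal, diagonal_mul]
    fin_cases a <;> fin_cases b <;> simp [Gs, As]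
  have e2 : (2 : F) • (rh 0 ι * rh 1 (-ι)) = (1 + Gs ι 0 1) * (1 + Gs ι 4 5) := by
    simp only [gs01, gs45 hι, rh, ← diagonal_one, diagonal_add, diagonal_mul_diagonal,
      ← diagonal_smul]
    refine congrArg diagonal (funext fun a => ?_)
    fin_cases a <;> simp <;> grind
  refine act_of_smul h2 ?_
  rw [mul_assoc (rh 0 ι), e1, ← mul_assoc, ← smul_mul_assoc, e2]
  exact act_mul (act_mul (act_rot hι (by decide)) (act_rot hι (by decide))) (act_gs hι 0 4)

end Cfsg.Agent.Cl.D4.Pab
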