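/-
A decision procedure for equality of signed permutations that reduces in the kernel.
-/
import Mathlib
import Cfsg.Agent.Cl.D4Defs2

set_option autoImplicit false

namespace Cfsg.Agent.Cl.D4.Pab

/-- Equality of signed permutations, pointwise. -/
scoped instance (priority := high) instDecEqSPpt : DecidableEq SP := fun a b =>
  decidable_of_iff ((∀ i, a.e i = b.e i) ∧ ∀ i, a.s i = b.s i)
    ⟨fun h => SP.ext (funext h.1) (Equiv.ext h.2), fun h => h ▸ ⟨fun _ => rfl, fun _ => rfl⟩⟩

end Cfsg.Agent.Cl.D4.Pab
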