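/-
Signed permutations over the dihedral group fixing three planes.
-/
import Mathlib
import Cfsg.Agent.Cl.D4Pdec
import Cfsg.Agent.Cl.D4Pb1

set_option autoImplicit false

namespace Cfsg.Agent.Cl.D4.Pab

open Matrix

/-- Equality of permutations, pointwise. -/
scoped instance (priority := high) instDecEqPermPt : DecidableEq (Equiv.Perm (Fin 6)) :=
  fun a b => decidable_of_iff (∀ i, a i = b i) Equiv.ext_iff.symm

/-- Bounded quantification over a list of permutations. -/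
scoped instance (priority := high) instDecBAllPerm (p : Equiv.Perm (Fin 6) → Prop)
    [DecidablePred p] (l : List (Equiv.Perm (Fin 6))) : Decidable (∀ a ∈ l, p a) :=
  List.decidableBAll p l

/-- A map given by the digits of a number. -/
def tb (N : ℕ) (i : Fin 6) : Fin 6 := Fin.ofNat 6 (N / 6 ^ i.1)

/-- A permutation given by the digits of two numbers. -/
def pm (N M : ℕ) (h : (∀ i, tb M (tb N i) = i) ∧ ∀ i, tb N (tb M i) = i := by decide +kernel) :
    Equiv.Perm (Fin 6) := ⟨tb N, tb M, h.1, h.2⟩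

/-- The elements of the Klein group fixing the three planes. -/
def vbS : List (Equiv.Perm (Fin 6)) := [1, pm 44605 44605, pm 38130 38130, pm 38305 38305]

/-- The elements of the dihedral group. -/
def d8S : List (Equiv.Perm (Fin 6)) :=
  [1, pm 44605 44605, pm 38130 38130, pm 38305 38305, pm 20670 26970, pm 26970 20670,
    pm 27145 27145, pm 20485 20485]

/-- The Klein group fixing the three planes. -/
def Vb : Subgroup (Equiv.Perm (Fin 6)) where
  carrier := {a | a ∈ vbS}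
  one_mem' := List.mem_cons_self
  mul_mem' := fun ha hb => (by decide +kernel : ∀ a ∈ vbS, ∀ b ∈ vbS, a * b ∈ vbS) _ ha _ hb
  inv_mem' := fun ha => (by decide +kernel : ∀ a ∈ vbS, a⁻¹ ∈ vbS) _ ha

/-- The dihedral group. -/
def D8 : Subgroup (Equiv.Perm (Fin 6)) where
  carrier := {a | a ∈ d8S}
  one_mem' := List.mem_cons_self
  mul_mem' := fun ha hb => (by decide +kernel : ∀ a ∈ d8S, ∀ b ∈ d8S, a * b ∈ d8S) _ ha _ hb
  inv_mem' := fun ha => (by decide +kernel : ∀ a ∈ d8S, a⁻¹ ∈ d8S) _ ha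

theorem Vb_le_D8 : Vb ≤ D8 := fun a ha => (by decide +kernel : ∀ a ∈ vbS, a ∈ d8S) a ha

theorem card_list {l : List (Equiv.Perm (Fin 6))} (h : l.Nodup) :
    Nat.card {a | a ∈ l} = l.length := by
  rw [Nat.card_coe_set_eq, ← List.coe_toFinset, Set.ncard_coe_finset,
    List.toFinset_card_of_nodup h]

theorem card_Vb : Nat.card Vb = 2 ^ 2 := card_list (l := vbS) (by decide +kernel)
theorem card_D8 : Nat.card D8 = 2 ^ 3 := card_list (l := d8S) (by decide +kernel)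

theorem vb_eq : ∀ a ∈ vbS, ∃ i j : Fin 2, a = w2 ^ i.1 * (m4 ^ 2) ^ j.1 := by decide +kernel
theorem d8_eq : ∀ a ∈ d8S, ∃ (i : Fin 2) (j : Fin 4), a = w2 ^ i.1 * m4 ^ j.1 := by
  decide +kernel
theorem vb_comm : ∀ a ∈ vbS, ∀ b ∈ vbS, a * b * a⁻¹ * b⁻¹ = 1 := by decide +kernel
theorem vb_fix : ∀ a ∈ vbS, ∃ i, a i = i := by decide +kernel

/-- The other point of the plane. -/
def pt : Fin 6 → Fin 6 := tb 38125

/-- The signs are constant on the planes. -/
def Pr (g : SP) : Prop := ∀ i, g.e (pt i) = g.e i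

theorem vb_pt : ∀ s ∈ vbS, ∀ i, (s i = i ∧ s (pt i) = pt i) ∨ (s i = pt i ∧ s (pt i) = i) := by
  decide +kernel

theorem e_eq (e : Fin 6 → Bool) : e = ![e 0, e 1, e 2, e 3, e 4, e 5] := by
  funext i
  fin_cases i <;> rfl

theorem sign_d8 : ∀ s ∈ d8S, Equiv.Perm.sign s = if s ∈ vbS then 1 else -1 := by decide +kernel

theorem sq_aux : ∀ s ∈ d8S, ∀ a b c d e f : Bool,
    SP.sgn ⟨![a, b, c, d, e, f], 1⟩ * (if s ∈ vbS then 1 else -1) = 1 →
    (∀ i, ![a, b, c, d, e, f] (s i) = ![a, b, c, d, e, f] i) → s * s = 1 →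
    s ∈ vbS ∧ (s = 1 ∨ ∀ i, ![a, b, c, d, e, f] (pt i) = ![a, b, c, d, e, f] i) := by
  decide +kernel

theorem of_sq {g : SP} (hg : g.s ∈ D8) (hd : g.sgn * Equiv.Perm.sign g.s = 1) (h2 : g * g = 1) :
    g.s ∈ Vb ∧ (g.s = 1 ∨ Pr g) := by
  have h := sq_aux g.s hg (g.e 0) (g.e 1) (g.e 2) (g.e 3) (g.e 4) (g.e 5)
  rw [← e_eq, ← sign_d8 _ hg] at h
  refine h hd (fun i => ?_) (congrArg SP.s h2)
  have e : xor (g.e (g.s i)) (g.e i) = false := congrFun (congrArg SP.e h2) i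
  simpa using e

theorem comm_aux : ∀ s ∈ vbS, s ≠ 1 → ∀ a b c d e f : Bool, SP.sgn ⟨![a, b, c, d, e, f], 1⟩ = 1 →
    ((∀ i, ![a, b, c, d, e, f] (s i) = ![a, b, c, d, e, f] i) ∨
      ∀ i, ![a, b, c, d, e, f] (s i) = not (![a, b, c, d, e, f] i)) →
    ∀ i, ![a, b, c, d, e, f] (pt i) = ![a, b, c, d, e, f] i := by
  decide +kernel

theorem of_comm {g y : SP} (hy : y.s ∈ Vb) (h1 : y.s ≠ 1) (hg : g.s = 1)
    (hd : g.sgn * Equiv.Perm.sign g.s = 1) (e : g * y = y * g ∨ g * y = SP.neg * (y * g)) :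
    Pr g := by
  have h := comm_aux y.s hy h1 (g.e 0) (g.e 1) (g.e 2) (g.e 3) (g.e 4) (g.e 5)
  rw [← e_eq] at h
  rw [hg, map_one, mul_one] at hd
  refine h hd (e.imp (fun e i => ?_) fun e i => ?_)
  · have e' := congrFun (congrArg SP.e e) i
    simp only [SP.mul_e, hg, Equiv.Perm.one_apply] at e'
    revert e'
    cases g.e (y.s i) <;> cases g.e i <;> cases y.e i <;> simp
  · have e' := congrFun (congrArg SP.e e) i
    simp only [SP.mul_e, hg, Equiv.Perm.one_apply, SP.neg] at e'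
    revert e'
    cases g.e (y.s i) <;> cases g.e i <;> cases y.e i <;> simp

theorem gen_aux : ∀ s ∈ vbS, ∀ a b c : Bool, ∃ i j k l m : Fin 2,
    (⟨![a, a, b, b, c, c], s⟩ : SP) = SP.neg ^ i.1 * SP.dg 0 1 ^ j.1 * SP.dg 2 3 ^ k.1 *
      (rot 0 1 * rot 2 3 * SP.dg 0 2) ^ l.1 * (rot 0 1 * rot 4 5 * SP.dg 0 4) ^ m.1 := by
  decide +kernel

theorem pt_aux : ∀ a b : Fin 6, a ≠ b → me a b 0 1 = false → me a b 2 3 = false → b = pt a := by
  decide +kernel

theorem dg_iff : ∀ a b c d : Fin 6, SP.dg a b = SP.dg c d →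
    (a = c ∧ b = d) ∨ (a = d ∧ b = c) ∨ (a = b ∧ c = d) := by
  decide +kernel

/-- A map preserving the planes. -/
def s3 (a c e i : Fin 6) : Fin 6 :=
  if i = 0 then a else if i = 1 then pt a else if i = 2 then c else if i = 3 then pt c else
    if i = 4 then e else pt e

theorem rr_s : ∀ m : Fin 4, ∃ N ∈ [38125, 44610, 38310, 44785], ∀ i, (rr m).s i = tb N i := by
  decide +kernel

theorem d8_tb : ∀ u ∈ d8S, ∃ N ∈ [44790, 44605, 38130, 38305, 20670, 26970, 27145, 20485],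
    ∀ i, u i = tb N i := by
  decide +kernel

theorem fin_aux' : ∀ a c e : Fin 6, [a, pt a, c, pt c, e, pt e].Nodup →
    ∀ N ∈ [38125, 44610, 38310, 44785],
    ∀ M ∈ [44790, 44605, 38130, 38305, 20670, 26970, 27145, 20485],
    ¬ ∀ i, tb N (s3 a c e (s3 a c e i)) = tb M i := by
  decide +kernel

theorem fin_aux (a c e : Fin 6) (h : [a, pt a, c, pt c, e, pt e].Nodup) (m : Fin 4)
    {u : Equiv.Perm (Fin 6)} (hu : u ∈ d8S) :
    ¬ ∀ i, (rr m).s (s3 a c e (s3 a c e i)) = u i := by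
  obtain ⟨N, hN, eN⟩ := rr_s m
  obtain ⟨M, hM, eM⟩ := d8_tb u hu
  simp only [eN, eM]
  exact fin_aux' a c e h N hN M hM

end Cfsg.Agent.Cl.D4.Pab
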