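/-
The Pauli frame: quarter turns and their products.
-/
import Mathlib
import Cfsg.Agent.Cl.D4P0

set_option autoImplicit false

namespace Cfsg.Agent.Cl.D4.Pc

open Matrix Cfsg.Geo Cfsg.Agent.Cl.Max Cfsg.Agent.Cl.Mx Subgroup Equiv
open scoped MatrixGroups commutatorElement

variable {F : Type*} [Field F] {ι : F}

theorem gs_sq (h : ι * ι = -1) {i j : Fin 6} (hij : i ≠ j) : Gs ι i j * Gs ι i j = -1 := by
  have e := Gs_mul h i j i
  rw [Gs_self h, Gs_swap h hij, mul_neg] at e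
  rw [← e, neg_neg]

theorem gs_anti (h : ι * ι = -1) {a b c : Fin 6} (ab : a ≠ b) (bc : b ≠ c) (ac : a ≠ c) :
    Gs ι a b * Gs ι b c = -(Gs ι b c * Gs ι a b) := by
  have e := Gs_mul h c b a
  rw [Gs_swap h bc, Gs_swap h ab, Gs_swap h ac, neg_mul_neg] at e
  rw [e, neg_neg, Gs_mul h]

theorem gs_anti' (h : ι * ι = -1) {a b c : Fin 6} (ab : a ≠ b) (bc : b ≠ c) (ac : a ≠ c) :
    Gs ι a b * Gs ι c b = -(Gs ι c b * Gs ι a b) := by
  rw [Gs_swap h bc, mul_neg, neg_mul, gs_anti h ab bc ac]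

theorem gs_anti'' (h : ι * ι = -1) {a b c : Fin 6} (ab : a ≠ b) (bc : b ≠ c) (ac : a ≠ c) :
    Gs ι a b * Gs ι a c = -(Gs ι a c * Gs ι a b) := by
  rw [Gs_swap h ab.symm, neg_mul, mul_neg, gs_anti h ab.symm ac bc]

theorem gs_comm (h : ι * ι = -1) {a b c d : Fin 6} (ab : a ≠ b) (ac : a ≠ c) (ad : a ≠ d)
    (bc : b ≠ c) (bd : b ≠ d) : Gs ι a b * Gs ι c d = Gs ι c d * Gs ι a b := by
  rw [← Gs_mul h c b d, ← mul_assoc, gs_anti' h ab bc ac, neg_mul, mul_assoc, gs_anti h ab bd ad,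
    mul_neg, neg_neg, mul_assoc]

theorem sg_mul_self (b : Bool) : sg F b * sg F b = 1 := by cases b <;> simp [sg]

theorem sg_xor (a b : Bool) : sg F (xor a b) = sg F a * sg F b := by
  cases a <;> cases b <;> simp [sg]

theorem sg_ne (b : Bool) : sg F b ≠ 0 := by cases b <;> simp [sg]

theorem act_mul {X Y : M4 F} {g g' : SP} (h : Act ι X g) (h' : Act ι Y g') :
    Act ι (X * Y) (g * g') := fun i j => by
  rw [mul_assoc, h', mul_smul_comm, ← mul_assoc, h, smul_mul_assoc, smul_smul, mul_assoc (Gs ι _ _)]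
  simp only [SP.mul_e, SP.mul_s, Perm.mul_apply, sg_xor]
  congr 1
  ring

theorem act_smul {X : M4 F} {g : SP} (h : Act ι X g) (c : F) : Act ι (c • X) g := fun i j => by
  rw [smul_mul_assoc, h, mul_smul_comm, smul_comm]

theorem act_one : Act ι (1 : M4 F) 1 := fun i j => by simp [sg]

theorem act_pos {X : M4 F} {g : SP} (h : Act ι X g) (i j i' j' : Fin 6)
    (e : g.s i = i' ∧ g.s j = j' ∧ g.e i = g.e j) : X * Gs ι i j = Gs ι i' j' * X := by
  rw [h, e.1, e.2.1, e.2.2, sg_mul_self, one_smul]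

theorem act_neg (hι : ι * ι = -1) {X : M4 F} {g : SP} (h : Act ι X g) (i j i' j' : Fin 6)
    (e : g.s i = j' ∧ g.s j = i' ∧ g.e i = !g.e j ∧ i' ≠ j') : X * Gs ι i j = Gs ι i' j' * X := by
  rw [h, e.1, e.2.1, e.2.2.1, Gs_swap hι e.2.2.2]
  cases g.e j <;> simp [sg]

theorem gs01 (h : ι * ι = -1) : Gs ι 0 1 = diagonal ![ι, -ι, -ι, ι] := by
  ext a b; fin_cases a <;> fin_cases b <;> simp [Gs, As]

theorem gs23 (h : ι * ι = -1) : Gs ι 2 3 = diagonal ![ι, ι, -ι, -ι] := by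
  ext a b; fin_cases a <;> fin_cases b <;> simp [Gs, As, h]

theorem gs45 (h : ι * ι = -1) : Gs ι 4 5 = diagonal ![ι, -ι, ι, -ι] := by
  ext a b; fin_cases a <;> fin_cases b <;> simp [Gs, As, h]

theorem diag_of_comm (h : ι * ι = -1) (h2 : (2 : F) ≠ 0) {Y : M4 F}
    (e : Y * Gs ι 2 3 = Gs ι 2 3 * Y) (e' : Y * Gs ι 4 5 = Gs ι 4 5 * Y) :
    Y = diagonal ![Y 0 0, Y 1 1, Y 2 2, Y 3 3] := by
  rw [gs23 h] at e
  rw [gs45 h] at e'
  ext a b
  have e1 := congrFun (congrFun e a) b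
  have e2 := congrFun (congrFun e' a) b
  rw [mul_diagonal, diagonal_mul] at e1 e2
  clear e e'
  fin_cases a <;> fin_cases b <;> simp at e1 e2 ⊢ <;> grind

/-- It is enough to check one row. -/
theorem act_of_row (h : ι * ι = -1) {X : M4 F} {g : SP} (c : Fin 6)
    (e : ∀ j, X * Gs ι c j = (sg F (g.e c) * sg F (g.e j)) • (Gs ι (g.s c) (g.s j) * X)) :
    Act ι X g := fun i j => by
  have e1 : X * Gs ι i c = (sg F (g.e i) * sg F (g.e c)) • (Gs ι (g.s i) (g.s c) * X) := by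
    by_cases hi : i = c
    · rw [hi]; exact e c
    · rw [Gs_swap h (Ne.symm hi), Gs_swap h (g.s.injective.ne (Ne.symm hi)), mul_neg, e, neg_mul,
        smul_neg, mul_comm]
  rw [← Gs_mul h i c j, ← mul_assoc, e1, smul_mul_assoc, mul_assoc, e, mul_smul_comm, smul_smul,
    ← mul_assoc (Gs ι _ _), Gs_mul h]
  congr 1
  linear_combination (sg F (g.e i) * sg F (g.e j)) * sg_mul_self (F := F) (g.e c)

/-- The quarter turn in the plane `a, b`. -/
def rot (a b : Fin 6) : SP := ⟨fun i => decide (i = a), swap a b⟩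

theorem rot_s (a b : Fin 6) : (rot a b).s = swap a b := rfl

theorem det_rot {a b : Fin 6} (ab : a ≠ b) : SP.det (rot a b) = 1 := by
  rw [SP.det_apply, rot_s, Perm.sign_swap ab]
  revert a
  have : ∀ a : Fin 6, (rot a b).sgn = -1 := fun a => by
    change ∏ i : Fin 6, (if decide (i = a) then (-1 : ℤˣ) else 1) = -1
    revert a; decide
  intro a _
  rw [this, neg_mul_neg, one_mul]

theorem act_rot (h : ι * ι = -1) {a b : Fin 6} (ab : a ≠ b) : Act ι (1 + Gs ι a b) (rot a b) := by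
  obtain ⟨c, ca, cb⟩ : ∃ c : Fin 6, c ≠ a ∧ c ≠ b := by revert a b; decide
  refine act_of_row h c fun j => ?_
  simp only [rot, swap_apply_of_ne_of_ne ca cb, ca, decide_false]
  by_cases ja : j = a
  · subst ja
    have e1 : Gs ι j b * Gs ι c j = -Gs ι c b := by
      rw [Gs_swap h ab.symm, Gs_swap h ca.symm, neg_mul_neg, Gs_mul h, Gs_swap h cb]
    have e2 : Gs ι c b * Gs ι j b = -Gs ι c j := by rw [Gs_swap h ab.symm, mul_neg, Gs_mul h]
    rw [swap_apply_left, add_mul, mul_add, one_mul, mul_one, e1, e2]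
    simp [sg, add_comm]
  by_cases jb : j = b
  · subst jb
    have e1 : Gs ι a j * Gs ι c j = Gs ι c a := by
      rw [Gs_swap h cb.symm, mul_neg, Gs_mul h, Gs_swap h ca.symm]
    rw [swap_apply_right, add_mul, mul_add, one_mul, mul_one, e1, Gs_mul h]
    simp [sg, add_comm, ja]
  rw [swap_apply_of_ne_of_ne ja jb]
  by_cases jc : j = c
  · subst jc
    simp [sg, ja, Gs_self h]
  · rw [add_mul, mul_add, gs_comm h ab ca.symm (Ne.symm ja) cb.symm (Ne.symm jb)]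
    simp [sg, ja]

theorem rot_mul_rot (h : ι * ι = -1) {a b : Fin 6} (ab : a ≠ b) :
    (1 + Gs ι a b) * (1 + Gs ι b a) = (2 : F) • (1 : M4 F) := by
  rw [Gs_swap h ab, add_mul, mul_add, mul_add, mul_neg, mul_neg, gs_sq h ab, two_smul]
  simp

theorem pair_of_dg : ∀ i j k l : Fin 6, k ≠ l →
    ((SP.dg i j).e = (SP.dg k l).e ∨ (SP.dg i j).e = (SP.neg * SP.dg k l).e) →
    (i = k ∧ j = l) ∨ (i = l ∧ j = k) := by decide +kernel

theorem dg_ne : ∀ i j : Fin 6, i ≠ j → (SP.dg i j).e ≠ (1 : SP).e ∧ (SP.dg i j).e ≠ SP.neg.e := by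
  decide +kernel

variable [Finite F] {G : Type*} [Group G] {P : Subgroup (G4 F)} {π : P →* G}
  {γ : Fin 6 → Fin 6 → P} {E : Subgroup G} {H : Subgroup (Equiv.Perm (Fin 6))} {Φ : Gam H →* G}

theorem mem_E (h : Fr P π ι γ E H Φ) (i j : Fin 6) : π (γ i j) ∈ E := (h.mem _).2 ⟨i, j, rfl⟩

theorem g_ne_one (h : Fr P π ι γ E H Φ) {i j : Fin 6} (hij : i ≠ j) : π (γ i j) ≠ 1 := fun e => by
  rw [← h.dg, h.ker] at e
  rcases e with e | e
  · exact (dg_ne i j hij).1 (congrArg SP.e e)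
  · exact (dg_ne i j hij).2 (congrArg SP.e e)

theorem g_inj (h : Fr P π ι γ E H Φ) {i j k l : Fin 6} (hkl : k ≠ l)
    (e : π (γ i j) = π (γ k l)) : (i = k ∧ j = l) ∨ (i = l ∧ j = k) := by
  rw [← h.dg, ← h.dg, h.eq_iff] at e
  exact pair_of_dg i j k l hkl (e.imp (congrArg SP.e) (congrArg SP.e))

theorem g_sq (h : Fr P π ι γ E H Φ) (i j : Fin 6) : π (γ i j) * π (γ i j) = 1 :=
  h.ea.1 _ (mem_E h i j)

theorem g_zt (h : Fr P π ι γ E H Φ) {i j : Fin 6} (hij : i ≠ j) : ZT π (π (γ i j)) :=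
  h.od.zt_of_ea h.ea (mem_E h i j) (g_ne_one h hij)

theorem g_swap (h : Fr P π ι γ E H Φ) (i j : Fin 6) : π (γ j i) = π (γ i j) := by
  by_cases hij : i = j
  · rw [hij]
  · exact (h.od.pc.eq_iff _ _).2 ⟨-1, by rw [h.mat_eq, h.mat_eq, Gs_swap h.ii hij, neg_one_smul]⟩

theorem g_mul (h : Fr P π ι γ E H Φ) (i j k : Fin 6) : π (γ i j) * π (γ j k) = π (γ i k) := by
  rw [← map_mul]
  exact congrArg π (mat_inj (by rw [mat_mul, h.mat_eq, h.mat_eq, h.mat_eq, Gs_mul h.ii]))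

theorem mem_N (h : Fr P π ι γ E H Φ) (g : Gam H) : Φ g ∈ normalizer (E : Set G) :=
  h.range ▸ ⟨g, rfl⟩

theorem exists_of_mem_N (h : Fr P π ι γ E H Φ) {x : G} (hx : x ∈ normalizer (E : Set G)) :
    ∃ g : Gam H, Φ g = x := by
  rw [← h.range] at hx; exact hx

theorem mem_N_of_act (h : Fr P π ι γ E H Φ) {k : P} {g : SP} (e : Act ι (mat k) g) :
    π k ∈ normalizer (E : Set G) := by
  obtain ⟨hg, e⟩ := h.exists_of_act e
  exact e ▸ mem_N h _

/-- A non-zero matrix acting as an element of `Gam H` lies in `P`. -/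
theorem mem_of_act (h : Fr P π ι γ E H Φ) {X : M4 F} {g : SP} (hX : X ≠ 0) (e : Act ι X g)
    (hs : g.s ∈ H) (hd : SP.det g = 1) : ∃ k : P, mat k = X := by
  obtain ⟨k, hk⟩ := h.od.surj (Φ ⟨g, mem_Gam.2 ⟨hs, hd⟩⟩)
  have ek : Act ι (mat k) g := (h.act _ k).1 hk
  obtain ⟨c, hc⟩ := h.scalar (X := mat k⁻¹ * X) fun i j => by
    have e1 : mat k⁻¹ * (mat k * Gs ι i j) * (mat k⁻¹ * X) = Gs ι i j * (mat k⁻¹ * X) := by
      rw [← mul_assoc (mat k⁻¹), mat_inv_mul, one_mul]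
    rw [← e1, ek, mul_assoc, e, mul_smul_comm, mul_smul_comm, smul_mul_assoc, mul_assoc, mul_assoc,
      ← mul_assoc (mat k), mat_mul_inv, one_mul]
  have e2 : X = c • mat k := by
    rw [← one_mul X, ← mat_mul_inv k, mul_assoc, hc, mul_smul_comm, mul_one]
  obtain ⟨b, hb, -⟩ := h.od.exists_smul k (c := c) fun h0 => hX (by rw [e2, h0, zero_smul])
  exact ⟨b, hb.trans e2.symm⟩

theorem conj_of_act (h : Fr P π ι γ E H Φ) {k : P} {g : SP} (e : Act ι (mat k) g) (i j : Fin 6) :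
    π k * π (γ i j) * (π k)⁻¹ = π (γ (g.s i) (g.s j)) := by
  rw [mul_inv_eq_iff_eq_mul, ← map_mul, ← map_mul]
  exact (h.od.pc.eq_iff _ _).2 ⟨_, by rw [mat_mul, mat_mul, h.mat_eq, h.mat_eq, e]⟩

theorem conj_Φ (h : Fr P π ι γ E H Φ) (g : Gam H) (i j : Fin 6) :
    Φ g * π (γ i j) * (Φ g)⁻¹ = π (γ (g.1.s i) (g.1.s j)) := by
  obtain ⟨k, hk⟩ := h.od.surj (Φ g)
  rw [← hk]
  exact conj_of_act h ((h.act g k).1 hk) i j

theorem rot_ne (h : ι * ι = -1) (h2 : (2 : F) ≠ 0) {a b : Fin 6} (ab : a ≠ b) {X : M4 F}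
    (hX : X ≠ 0) : (1 + Gs ι a b) * X ≠ 0 := fun e => by
  have e1 := congrArg ((1 + Gs ι b a) * ·) e
  simp only [← mul_assoc, rot_mul_rot h ab.symm, smul_mul_assoc, one_mul, mul_zero] at e1
  exact hX ((smul_eq_zero.1 e1).resolve_left h2)

/-- Products of two quarter turns. -/
theorem exists_rot2 (h : Fr P π ι γ E H Φ) {a b c d : Fin 6} (ab : a ≠ b) (cd : c ≠ d)
    (hs : swap a b * swap c d ∈ H) : ∃ k : P, mat k = (1 + Gs ι a b) * (1 + Gs ι c d) ∧
      Act ι (mat k) (rot a b * rot c d) := by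
  have e := act_mul (act_rot h.ii ab) (act_rot h.ii cd)
  obtain ⟨k, hk⟩ := mem_of_act h (rot_ne h.ii h.od.two ab (by
    simpa using rot_ne h.ii h.od.two cd one_ne_zero)) e hs
    (by rw [map_mul, det_rot ab, det_rot cd, one_mul])
  exact ⟨k, hk, hk ▸ e⟩

/-- The groups `S₅`, `A₆`, `S₆` contain `A₅`. -/
theorem swap2_mem (hH : H = S5 ∨ H = alternatingGroup (Fin 6) ∨ H = ⊤) {a b c d : Fin 6}
    (ab : a ≠ b) (cd : c ≠ d) (ha : a ≠ 5) (hb : b ≠ 5) (hc : c ≠ 5) (hd : d ≠ 5) :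
    swap a b * swap c d ∈ H := by
  rcases hH with rfl | rfl | rfl
  · change (swap a b * swap c d) 5 = 5
    rw [Perm.mul_apply, swap_apply_of_ne_of_ne hc.symm hd.symm,
      swap_apply_of_ne_of_ne ha.symm hb.symm]
  · rw [Perm.mem_alternatingGroup, map_mul, Perm.sign_swap ab, Perm.sign_swap cd]
    rfl
  · trivial

/-- Quarter turns, corrected by a quarter turn in the last plane for `A₆`. -/
theorem exists_rot1 (h : Fr P π ι γ E H Φ) (hH : H = S5 ∨ H = alternatingGroup (Fin 6) ∨ H = ⊤) :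
    ∃ (κ : F) (g : SP), (κ = 0 ∧ g = 1 ∨ κ = 1 ∧ g = rot 4 5) ∧
      ∀ a b : Fin 6, a ≠ b → a ≠ 5 → b ≠ 5 → ∃ k : P, mat k = (1 + Gs ι a b) * (1 + κ • Gs ι 4 5) ∧ Act ι (mat k) (rot a b * g) := by
  by_cases hA : H = alternatingGroup (Fin 6)
  · refine ⟨1, rot 4 5, .inr ⟨rfl, rfl⟩, fun a b ab _ _ => ?_⟩
    rw [one_smul]
    refine exists_rot2 h ab (by decide) ?_
    rw [hA, Perm.mem_alternatingGroup, map_mul, Perm.sign_swap ab, Perm.sign_swap (by decide)]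
    rfl
  · refine ⟨0, 1, .inl ⟨rfl, rfl⟩, fun a b ab ha hb => ?_⟩
    rw [zero_smul, add_zero, mul_one, mul_one]
    obtain ⟨k, hk⟩ := mem_of_act h (by simpa using rot_ne h.ii h.od.two ab one_ne_zero)
      (act_rot h.ii ab) (by
        rcases hH with rfl | rfl | rfl
        · exact swap_apply_of_ne_of_ne ha.symm hb.symm
        · exact absurd rfl hA
        · trivial) (det_rot ab)
    exact ⟨k, hk, hk ▸ act_rot h.ii ab⟩

end Cfsg.Agent.Cl.D4.Pc
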