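/-
Elements commuting with an involution normalise a four-group on each eigenspace.
-/
import Mathlib
import Cfsg.Agent.Cl.D4PP

set_option autoImplicit false

namespace Cfsg.Agent.Cl.D4.Pc

open Matrix Cfsg.Geo Cfsg.Agent.Cl.Max Cfsg.Agent.Cl.Mx Subgroup Equiv
open scoped MatrixGroups commutatorElement

theorem s4_dec : ∀ a : Perm (Fin 4), a * a = 1 ∧ a ≠ 1 ∧ Perm.sign a = 1 →
    ∀ b : Perm (Fin 4), b * b = 1 ∧ b ≠ 1 ∧ a ≠ b ∧ Perm.sign b = 1 → ∀ y : Perm (Fin 4),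
      y * a = a * y ∨ y * a = b * y ∨ y * a = a * b * y := by decide +kernel

theorem tri_basic {R : Type*} [Group R] {α β δ : R} (a2 : α * α = 1) (a1 : α ≠ 1)
    (e1 : δ * α * δ⁻¹ = β) (e2 : δ * β * δ⁻¹ = α * β) :
    β * β = 1 ∧ β ≠ 1 ∧ α ≠ β ∧ β * α = α * β ∧ δ * (α * β) * δ⁻¹ = α := by
  have b2 : β * β = 1 := by rw [← e1, conj_mul, a2, mul_one, mul_inv_cancel]
  have b1 : β ≠ 1 := fun e => a1 (by simpa [e, mul_inv_eq_one] using e1)
  have c2 : α * β * (α * β) = 1 := by rw [← e2, conj_mul, b2, mul_one, mul_inv_cancel]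
  have c : β * α = α * β := by
    rw [← mul_inv_eq_one, _root_.mul_inv_rev, inv_eq_of_mul_eq_one_right a2,
      inv_eq_of_mul_eq_one_right b2]
    have : β * α * (β * α) = α⁻¹ * (α * β * (α * β)) * α := by group
    rw [this, c2]; simp
  refine ⟨b2, b1, fun e => b1 ?_, c, ?_⟩
  · rw [e, b2] at e2
    simpa [mul_inv_eq_one] using e2
  · rw [← conj_mul, e1, e2, ← mul_assoc, c, mul_assoc, b2, mul_one]

theorem tri_s4 {R : Type*} [Group R] (f : R →* Perm (Fin 4)) (hf : Function.Injective f)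
    {α β δ : R} (a2 : α * α = 1) (a1 : α ≠ 1) (e1 : δ * α * δ⁻¹ = β) (e2 : δ * β * δ⁻¹ = α * β)
    (y : R) : y * α * y⁻¹ = α ∨ y * α * y⁻¹ = β ∨ y * α * y⁻¹ = α * β := by
  obtain ⟨b2, b1, ab, -, -⟩ := tri_basic a2 a1 e1 e2
  have s1 : Perm.sign (f α) = 1 := by
    have := congrArg (fun x => Perm.sign (f x)) e2
    simp only [map_mul, map_inv, mul_inv_cancel_comm] at this
    exact (mul_eq_right.1 this.symm)
  have s2 : Perm.sign (f β) = 1 := by
    rw [← e1]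
    simp only [map_mul, map_inv, mul_inv_cancel_comm, s1]
  have := s4_dec (f α) ⟨by rw [← map_mul, a2, map_one],
    fun e => a1 (hf (e.trans (map_one f).symm)), s1⟩ (f β) ⟨by rw [← map_mul, b2, map_one],
    fun e => b1 (hf (e.trans (map_one f).symm)), hf.ne ab, s2⟩ (f y)
  simp only [← map_mul, hf.eq_iff] at this
  simpa only [mul_inv_eq_iff_eq_mul] using this

variable {F : Type*} [Field F]

theorem tri_pgl (h2 : (2 : F) ≠ 0) {R : Subgroup PGL(2, F)} (hs : Group.IsSolvable R)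
    (hR : (∃ x : L2.P1 F, ∀ y ∈ R, y • x = x) ∨ (∃ y ∈ R, L2.tau y ≠ 4 ∧ R ≤ L2.ntor y) ∨
      Nonempty (R ≃* alternatingGroup (Fin 4)) ∨ Nonempty (R ≃* Perm (Fin 4)) ∨
      Nonempty (R ≃* alternatingGroup (Fin 5)))
    {α β δ y : PGL(2, F)} (ha : α ∈ R) (hb : β ∈ R) (hd : δ ∈ R) (hy : y ∈ R) (a2 : α * α = 1)
    (a1 : α ≠ 1) (e1 : δ * α * δ⁻¹ = β) (e2 : δ * β * δ⁻¹ = α * β) :
    y * α * y⁻¹ = α ∨ y * α * y⁻¹ = β ∨ y * α * y⁻¹ = α * β := by
  obtain ⟨b2, b1, ab, c, e3⟩ := tri_basic a2 a1 e1 e2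
  have key : ∀ f : R →* Perm (Fin 4), Function.Injective f →
      y * α * y⁻¹ = α ∨ y * α * y⁻¹ = β ∨ y * α * y⁻¹ = α * β := fun f hf => by
    simpa only [Subtype.ext_iff, coe_mul, coe_inv] using
      tri_s4 f hf (α := ⟨α, ha⟩) (β := ⟨β, hb⟩) (δ := ⟨δ, hd⟩) (Subtype.ext a2)
        (fun e => a1 (congrArg Subtype.val e)) (Subtype.ext e1) (Subtype.ext e2) ⟨y, hy⟩
  rcases hR with ⟨x, hx⟩ | ⟨t, -, ht, hR⟩ | ⟨⟨e⟩⟩ | ⟨⟨e⟩⟩ | ⟨⟨e⟩⟩
  · have u := (L2.commutator_mem_uni (hx δ hd) (hx β hb)).2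
    rw [e2, mul_inv_cancel_right, (L2.mul_self_eq_one_iff_tau a1).1 a2] at u
    exact absurd u.symm (L2.four_ne_zero_of_two h2)
  · exfalso
    have t1 := L2.ne_one_of_tau ht
    have hδ : δ ∈ L2.tor t := by
      by_contra hn
      have d2 := L2.mul_self_of_mem_ntor ht (hR hd) hn
      have : δ * β * δ⁻¹ = α := by
        rw [← e1, ← mul_assoc, ← mul_assoc, d2, mul_assoc, mul_assoc, ← _root_.mul_inv_rev, d2]
        simp
      exact b1 (mul_eq_left.1 (e2.symm.trans this))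
    have fx : ∀ x ∈ L2.tor t, δ * x * δ⁻¹ = x := fun x hx => by
      rw [L2.tor_comm t1 hδ hx, mul_inv_cancel_right]
    have := fx _ (L2.mul_mem_tor_of_not_mem ht (hR ha) (fun m => ab ((fx _ m).symm.trans e1))
      (hR hb) fun m => a1 (mul_eq_right.1 (e2.symm.trans (fx _ m))))
    exact b1 (mul_eq_left.1 (this.symm.trans e3))
  · exact key ((alternatingGroup (Fin 4)).subtype.comp e.toMonoidHom)
      (Subtype.val_injective.comp e.injective)
  · exact key e.toMonoidHom e.injective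
  · exfalso
    have : Group.IsSolvable (alternatingGroup (Fin 5)) :=
      Group.isSolvable_of_surjective (f := e.toMonoidHom) e.surjective
    have := IsSimpleGroup.comm_iff_isSolvable.2 this
      ⟨swap 0 1 * swap 1 2, Perm.mem_alternatingGroup.2 (by decide)⟩
      ⟨swap 0 1 * swap 1 3, Perm.mem_alternatingGroup.2 (by decide)⟩
    exact absurd (congrArg Subtype.val this) (by decide)

/-- The diagonal blocks of a matrix. -/
def bl (ε : Fin 2) (X : M4 F) : L2.M2 F :=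
  X.submatrix (fun i : Fin 2 => finProdFinEquiv (ε, i)) fun i : Fin 2 => finProdFinEquiv (ε, i)

theorem bl_zero (X : M4 F) : bl 0 X = !![X 0 0, X 0 1; X 1 0, X 1 1] := by
  ext i j; fin_cases i <;> fin_cases j <;> rfl

theorem bl_one (X : M4 F) : bl 1 X = !![X 2 2, X 2 3; X 3 2, X 3 3] := by
  ext i j; fin_cases i <;> fin_cases j <;> rfl

/-- Block diagonal matrices. -/
def Bd (X : M4 F) : Prop :=
  X 0 2 = 0 ∧ X 0 3 = 0 ∧ X 1 2 = 0 ∧ X 1 3 = 0 ∧ X 2 0 = 0 ∧ X 2 1 = 0 ∧ X 3 0 = 0 ∧ X 3 1 = 0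

theorem bd_of_comm (h2 : (2 : F) ≠ 0) {X : M4 F}
    (h : diagonal ![1, 1, -1, -1] * X = X * diagonal ![1, 1, -1, -1]) : Bd X := by
  have e : ∀ i j, (![1, 1, -1, -1] : Fin 4 → F) i * X i j = X i j * ![1, 1, -1, -1] j := fun i j => by
    simpa [diagonal_mul, mul_diagonal] using congrFun (congrFun h i) j
  have e02 := e 0 2; have e03 := e 0 3; have e12 := e 1 2; have e13 := e 1 3
  have e20 := e 2 0; have e21 := e 2 1; have e30 := e 3 0; have e31 := e 3 1
  simp at e02 e03 e12 e13 e20 e21 e30 e31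
  refine ⟨?_, ?_, ?_, ?_, ?_, ?_, ?_, ?_⟩ <;> grind

theorem bl_mul {X : M4 F} (hX : Bd X) (ε : Fin 2) (Y : M4 F) : bl ε (X * Y) = bl ε X * bl ε Y := by
  obtain ⟨h1, h2, h3, h4, h5, h6, h7, h8⟩ := hX
  fin_cases ε
  · simp [bl_zero, Matrix.mul_apply, Fin.sum_univ_four, *]
  · simp [bl_one, Matrix.mul_apply, Fin.sum_univ_four, *]

theorem bl_id (ε : Fin 2) : bl ε (1 : M4 F) = 1 := by
  fin_cases ε
  · simp [bl_zero, Matrix.one_fin_two]
  · simp [bl_one, Matrix.one_fin_two]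

theorem bl_neg (ε : Fin 2) (X : M4 F) : bl ε (-X) = -bl ε X := rfl

theorem eq_of_bl {X Y : M4 F} (hX : Bd X) (hY : Bd Y) {ε : Fin 2} {c : F}
    (e : bl ε X = c • bl ε Y) :
    X * (1 + (if ε = 0 then (1 : F) else -1) • diagonal ![1, 1, -1, -1]) =
      c • (Y * (1 + (if ε = 0 then (1 : F) else -1) • diagonal ![1, 1, -1, -1])) := by
  obtain ⟨h1, h2, h3, h4, h5, h6, h7, h8⟩ := hX
  obtain ⟨k1, k2, k3, k4, k5, k6, k7, k8⟩ := hY
  have e00 := congrFun (congrFun e 0) 0; have e01 := congrFun (congrFun e 0) 1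
  have e10 := congrFun (congrFun e 1) 0; have e11 := congrFun (congrFun e 1) 1
  clear e
  fin_cases ε
  · simp [bl_zero] at e00 e01 e10 e11
    ext i j
    fin_cases i <;> fin_cases j <;> simp [mul_add, mul_diagonal, *]
  · simp [bl_one] at e00 e01 e10 e11
    ext i j
    fin_cases i <;> fin_cases j <;> simp [mul_add, mul_diagonal, *]

variable [Finite F] {G : Type*} [Group G] {P : Subgroup (G4 F)} {π : P →* G}

theorem blk_diag (h : Od P π) {g a b d k : P} (hg : mat g = diagonal ![1, 1, -1, -1])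
    (hs : Group.IsSolvable (centralizer ({π g} : Set G))) (ga : Commute g a) (gb : Commute g b)
    (gd : Commute g d) (gk : Commute g k) (ab : mat a * mat b = -(mat b * mat a))
    (a2 : π a * π a = 1) (da : π d * π a * (π d)⁻¹ = π b) (db : π d * π b * (π d)⁻¹ = π a * π b)
    {s : F} (s1 : s = 1 ∨ s = -1) : ∃ c : F, ∃ x : P, (x = a ∨ x = b ∨ x = a * b) ∧
      mat (k * a * k⁻¹) * (1 + s • mat g) = c • (mat x * (1 + s • mat g)) := by
  obtain ⟨ε, rfl⟩ : ∃ ε : Fin 2, s = if ε = 0 then (1 : F) else -1 := by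
    rcases s1 with rfl | rfl
    exacts [⟨0, rfl⟩, ⟨1, rfl⟩]
  obtain ⟨ρ, hρ, hR⟩ := h.block hg ε
  have m : ∀ {x : P}, Commute g x → π x ∈ C0 π h.pc (π g) := fun e => mem_C0.2 (h.pc.cm_of e)
  have bd : ∀ {x : P}, Commute g x → Bd (mat x) := fun e =>
    bd_of_comm h.two (by rw [← hg, ← mat_mul, ← mat_mul, e.eq])
  have dt : ∀ {x : P}, Commute g x → (bl ε (mat x)).det ≠ 0 := fun {x} e h0 => by
    have := congrArg det (bl_mul (bd e) ε (mat x⁻¹))
    rw [mat_mul_inv, bl_id, det_mul, h0, zero_mul, det_one] at this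
    exact one_ne_zero this
  have hρ' : ∀ {x : P} (e : Commute g x), ρ ⟨π x, m e⟩ = L2.pm (bl ε (mat x)) := fun e => hρ _ _
  have hle : C0 π h.pc (π g) ≤ centralizer ({π g} : Set G) := fun x hx =>
    mem_centralizer_singleton_iff.2 (Cm.commute h.pc (mem_C0.1 hx)).symm.eq
  have : Group.IsSolvable (C0 π h.pc (π g)) :=
    Group.isSolvable_of_isSolvable_injective (inclusion_injective hle)
  have hsR : Group.IsSolvable ρ.range := Group.isSolvable_of_surjective ρ.rangeRestrict_surjective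
  have a1 : ρ ⟨π a, m ga⟩ ≠ 1 := fun e => by
    rw [hρ' ga, L2.pm_eq_one_iff' (dt ga)] at e
    obtain ⟨c, hc⟩ := e
    have e1 := congrArg (bl ε) ab
    rw [bl_neg, bl_mul (bd ga), bl_mul (bd gb)] at e1
    have e2 : bl ε (mat a) * bl ε (mat b) = 0 := by
      have : (2 : F) • (bl ε (mat a) * bl ε (mat b)) = 0 := by
        rw [two_smul]
        nth_rw 1 [e1]
        rw [hc]; simp
      exact (smul_eq_zero.1 this).resolve_left h.two
    exact mul_ne_zero (dt ga) (dt gb) (by rw [← det_mul, e2, det_zero])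
  have key := tri_pgl h.two hsR hR (α := ρ ⟨π a, m ga⟩) (β := ρ ⟨π b, m gb⟩) (δ := ρ ⟨π d, m gd⟩)
    (y := ρ ⟨π k, m gk⟩) ⟨_, rfl⟩ ⟨_, rfl⟩ ⟨_, rfl⟩ ⟨_, rfl⟩
    (by rw [← map_mul, ← map_one ρ]; exact congrArg ρ (Subtype.ext a2)) a1
    (by rw [← map_inv, ← map_mul, ← map_mul]; exact congrArg ρ (Subtype.ext da))
    (by rw [← map_inv, ← map_mul, ← map_mul, ← map_mul]; exact congrArg ρ (Subtype.ext db))
  have gw : Commute g (k * a * k⁻¹) := (gk.mul_right ga).mul_right gk.inv_right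
  have ew : ρ ⟨π k, m gk⟩ * ρ ⟨π a, m ga⟩ * (ρ ⟨π k, m gk⟩)⁻¹ = ρ ⟨π (k * a * k⁻¹), m gw⟩ := by
    rw [← map_inv, ← map_mul, ← map_mul]; exact congrArg ρ (Subtype.ext (by simp))
  have eab : ρ ⟨π a, m ga⟩ * ρ ⟨π b, m gb⟩ = ρ ⟨π (a * b), m (ga.mul_right gb)⟩ := by
    rw [← map_mul]; exact congrArg ρ (Subtype.ext (by simp))
  have fin : ∀ {x : P} (e : Commute g x), ρ ⟨π (k * a * k⁻¹), m gw⟩ = ρ ⟨π x, m e⟩ → ∃ c : F,
      mat (k * a * k⁻¹) * (1 + (if ε = 0 then (1 : F) else -1) • mat g) =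
        c • (mat x * (1 + (if ε = 0 then (1 : F) else -1) • mat g)) := fun e e' => by
    rw [hρ' gw, hρ' e] at e'
    obtain ⟨c, -, hc⟩ := (L2.pm_eq_iff (dt e) (dt gw)).1 e'.symm
    exact ⟨c, hg ▸ eq_of_bl (bd gw) (bd e) hc⟩
  rw [ew, eab] at key
  rcases key with e | e | e
  · exact (fin ga e).imp fun c hc => ⟨a, .inl rfl, hc⟩
  · exact (fin gb e).imp fun c hc => ⟨b, .inr (.inl rfl), hc⟩
  · exact (fin (ga.mul_right gb) e).imp fun c hc => ⟨a * b, .inr (.inr rfl), hc⟩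

theorem blk (h : Od P π) {g a b d k : P} (g2 : g * g = 1) (zt : ZT π (π g))
    (hs : Group.IsSolvable (centralizer ({π g} : Set G))) (ga : Commute g a) (gb : Commute g b)
    (gd : Commute g d) (gk : Commute g k) (ab : mat a * mat b = -(mat b * mat a))
    (a2 : π a * π a = 1) (da : π d * π a * (π d)⁻¹ = π b) (db : π d * π b * (π d)⁻¹ = π a * π b)
    {s : F} (s1 : s = 1 ∨ s = -1) : ∃ c : F, ∃ x : P, (x = a ∨ x = b ∨ x = a * b) ∧
      mat k * mat a * (1 + s • mat g) = c • (mat x * mat k * (1 + s • mat g)) := by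
  obtain ⟨Q, g0, e0, hg0⟩ := zt.exists_diag h
  obtain ⟨u, hu⟩ := (h.pc.eq_iff g g0).1 e0.symm
  have g02 : g0 * g0 = 1 := (cE Q P).injective (mat_inj (by
    rw [map_mul, mat_mul, hg0, map_one, mat_one, diagonal_mul_diagonal, ← diagonal_one]
    congr 1; ext i; fin_cases i <;> simp))
  have u2 : u * u = 1 := smul_one_inj (by
    have := congrArg mat g2
    rwa [mat_mul, hu, smul_mul_smul_comm, ← mat_mul, g02, mat_one, ← one_smul F (1 : M4 F),
      smul_smul, mul_one] at this)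
  have cm : ∀ {x : P}, Commute g x → Commute (cE Q P g0) (cE Q P x) := fun {x} e =>
    (show Commute g0 x from h.pc.cm_of e g0 x e0 rfl).map _
  obtain ⟨c, x, hx, e⟩ := blk_diag (h.conj Q) hg0 (by rw [cπ_cE, e0]; exact hs) (cm ga) (cm gb)
    (cm gd) (cm gk) (by
      rw [← mat_mul, ← mat_mul, ← map_mul, ← map_mul, mat_cE, mat_cE, mat_mul, mat_mul, ab]; simp)
    (by simpa only [cπ_cE] using a2) (by simpa only [cπ_cE] using da)
    (by simpa only [cπ_cE] using db) (s := s * u) (by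
      rcases mul_self_eq_one_iff.1 u2 with rfl | rfl <;> rcases s1 with rfl | rfl <;> simp)
  obtain ⟨x, rfl⟩ := (cE Q P).surjective x
  refine ⟨c, x, by simpa only [← map_mul, EmbeddingLike.apply_eq_iff_eq] using hx, ?_⟩
  have e1 : mat (k * a * k⁻¹) * (1 + s • mat g) = c • (mat x * (1 + s • mat g)) := by
    rw [← map_inv, ← map_mul, ← map_mul, mat_cE, mat_cE, mat_cE] at e
    have e2 := congrArg (fun X => ((Q⁻¹ : G4 F) : M4 F) * X * (Q : M4 F)) e
    simp only [mul_add, add_mul, mul_one, smul_add, mul_smul_comm, smul_mul_assoc, mul_assoc,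
      Units.inv_mul_cancel_left, Units.inv_mul] at e2
    simpa only [hu, smul_smul, mul_add, mul_one, smul_add, mul_smul_comm, mul_assoc] using e2
  have ck : (1 + s • mat g) * mat k = mat k * (1 + s • mat g) := by
    rw [add_mul, mul_add, smul_mul_assoc, mul_smul_comm, ← mat_mul, ← mat_mul, gk.eq, one_mul,
      mul_one]
  have e3 := congrArg (· * mat k) e1
  simp only [mul_assoc, smul_mul_assoc, ck] at e3
  rwa [← mul_assoc, ← mat_mul, mul_assoc k, mul_assoc a, inv_mul_cancel, mul_one, mat_mul,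
    ← mul_assoc] at e3

end Cfsg.Agent.Cl.D4.Pc
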