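/-
Computations on the two eigenspaces of an involution.
-/
import Mathlib
import Cfsg.Agent.Cl.D4PP

set_option autoImplicit false

namespace Cfsg.Agent.Cl.D4.Pc

open Matrix Cfsg.Geo Cfsg.Agent.Cl.Max Cfsg.Agent.Cl.Mx Subgroup Equiv
open scoped MatrixGroups commutatorElement

variable {F : Type*} [Field F] {P : Subgroup (G4 F)}

/-- Twice the projection onto an eigenspace of `z`. -/
def ee (z : P) (s : F) : M4 F := 1 + s • mat z

variable {z : P} {s : F}

theorem ee_comm' {X : M4 F} (h : mat z * X = X * mat z) : ee z s * X = X * ee z s := by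
  rw [ee, add_mul, mul_add, smul_mul_assoc, mul_smul_comm, h, one_mul, mul_one]

theorem ee_comm {k : P} (h : Commute z k) : ee z s * mat k = mat k * ee z s :=
  ee_comm' (by rw [← mat_mul, ← mat_mul, h.eq])

theorem mul_ee_ne (h : ee z s ≠ 0) (k : P) : mat k * ee z s ≠ 0 := fun e =>
  h (by rw [← one_mul (ee z s), ← mat_inv_mul k, mul_assoc, e, mul_zero])

/-- Conjugation by `k` maps `X` to `Y` on the eigenspace. -/
def Rl (z : P) (s : F) (k : P) (X Y : M4 F) : Prop := mat k * X * ee z s = Y * mat k * ee z s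

theorem rl_of_eq {k : P} {X Y : M4 F} (h : mat k * X = Y * mat k) : Rl z s k X Y := by rw [Rl, h]

theorem Rl.comp {k m : P} {X Y W : M4 F} (h : Rl z s k X Y) (c : Commute z k) (h' : Rl z s m Y W) :
    Rl z s (m * k) X W := by
  rw [Rl, mat_mul, mul_assoc (mat m), mul_assoc, h, mul_assoc, ← ee_comm c, ← mul_assoc Y,
    ← mul_assoc, ← mul_assoc, h', mul_assoc, ee_comm c, mul_assoc, mul_assoc, mul_assoc]

theorem Rl.neg {k : P} {X Y : M4 F} (h : Rl z s k X Y) : Rl z s k (-X) (-Y) := by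
  rw [Rl, mul_neg, neg_mul, h, neg_mul, neg_mul]

theorem Rl.mul {k : P} {X Y X' Y' : M4 F} (h : Rl z s k X Y) (h' : Rl z s k X' Y')
    (c : mat z * X' = X' * mat z) : Rl z s k (X * X') (Y * Y') := by
  rw [Rl, ← mul_assoc, mul_assoc _ X', ← ee_comm' c, ← mul_assoc, h, mul_assoc, ee_comm' c,
    mul_assoc, ← mul_assoc (mat k), h', mul_assoc, mul_assoc, mul_assoc]

theorem Rl.inv {k : P} {X Y : M4 F} (h : Rl z s k X Y) (c : Commute z k) : Rl z s k⁻¹ Y X := by
  have e := congrArg (fun W => mat k⁻¹ * W * mat k⁻¹) h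
  simp only [mul_assoc, ee_comm c.inv_right] at e
  rw [← mul_assoc (mat k⁻¹), mat_inv_mul, one_mul, ← mul_assoc (mat k), mat_mul_inv, one_mul] at e
  rw [Rl, mul_assoc, mul_assoc, e]

/-- Up to sign. -/
def Pm (z : P) (s : F) (k : P) (X Y : M4 F) : Prop := Rl z s k X Y ∨ Rl z s k X (-Y)

theorem Pm.comp {k m : P} {X Y W : M4 F} (h : Pm z s k X Y) (c : Commute z k) (h' : Rl z s m Y W) :
    Pm z s (m * k) X W := h.imp (fun e => e.comp c h') fun e => e.comp c h'.neg

theorem Pm.neg {k : P} {X Y : M4 F} (h : Pm z s k X (-Y)) : Pm z s k X Y :=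
  h.symm.imp_left fun e => by rwa [neg_neg] at e

theorem pm_of_smul (he : ee z s ≠ 0) {k : P} {X Y : M4 F} {c : F} (hX : X * X = -1)
    (hY : Y * Y = -1) (cX : mat z * X = X * mat z) (h : Rl z s k X (c • Y)) : Pm z s k X Y := by
  have e := h.mul h cX
  rw [Rl, hX, smul_mul_smul_comm, hY, mul_neg, mul_one, smul_mul_assoc, smul_mul_assoc, neg_mul,
    neg_mul, one_mul, neg_mul, smul_neg, neg_inj] at e
  have : c * c = 1 := by
    by_contra hn
    refine mul_ee_ne he k ((smul_eq_zero.1 (?_ : (c * c - 1) • (mat k * ee z s) = 0)).resolve_left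
      (sub_ne_zero.2 hn))
    rw [sub_smul, ← e, one_smul, sub_self]
  rcases mul_self_eq_one_iff.1 this with rfl | rfl
  · exact .inl (by rwa [one_smul] at h)
  · exact .inr (by rwa [neg_one_smul] at h)

theorem not_pm (h2 : (2 : F) ≠ 0) (he : ee z s ≠ 0) {k : P} {I J : M4 F} (hI : I * I = -1)
    (hIJ : J * I = -(I * J)) (cI : mat z * I = I * mat z) (cJ : mat z * J = J * mat z)
    (h : Pm z s k I I) (h' : Pm z s k J I) : False := by
  have key : ∀ A B : M4 F, A * B = B * A → (A * B = 1 ∨ A * B = -1) → Rl z s k I A →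
      Rl z s k J B → False := fun A B c hAB e e' => by
    have e1 := e.mul e' cJ
    have e2 := e'.mul e cI
    rw [Rl, hIJ, ← c, mul_neg, neg_mul, e1] at e2
    refine mul_ee_ne he k ((smul_eq_zero.1 (?_ : (2 : F) • (mat k * ee z s) = 0)).resolve_left h2)
    rcases hAB with h1 | h1 <;> rw [h1] at e2 <;> simp only [neg_mul, one_mul, neg_neg] at e2
    · rw [two_smul]; nth_rw 1 [← e2]; rw [neg_add_cancel]
    · rw [two_smul]; nth_rw 1 [e2]; rw [neg_add_cancel]
  rcases h with h | h <;> rcases h' with h' | h'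
  · exact key _ _ rfl (.inr hI) h h'
  · exact key _ _ (by simp) (.inl (by simp [hI])) h h'
  · exact key _ _ (by simp) (.inl (by simp [hI])) h h'
  · exact key _ _ rfl (.inr (by simp [hI])) h h'

/-- Normalising an element on one eigenspace. -/
theorem stepA (h2 : (2 : F) ≠ 0) (he : ee z s ≠ 0) {I J : M4 F} (hI : I * I = -1) (hJ : J * J = -1)
    (hIJ : J * I = -(I * J)) (cI : mat z * I = I * mat z) (cJ : mat z * J = J * mat z)
    {D n i j k : P} (cD : Commute z D) (cn : Commute z n) (cj : Commute z j) (ck : Commute z k)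
    (D1 : Rl z s D I J) (D2 : Rl z s D J (I * J)) (n1 : Rl z s n I I) (n2 : Rl z s n (I * J) (-J))
    (i1 : Rl z s i I I) (i2 : Rl z s i J (-J)) (j1 : Rl z s j I (-I)) (j2 : Rl z s j J J)
    (bI : ∀ k, Commute z k → ∃ c : F, ∃ X, (X = I ∨ X = J ∨ X = I * J) ∧ Rl z s k I (c • X))
    (bJ : ∀ k, Commute z k → ∃ c : F, ∃ X, (X = I ∨ X = J ∨ X = I * J) ∧ Rl z s k J (c • X)) :
    ∃ a b q : P, (a = 1 ∨ a = D ∨ a = D⁻¹) ∧ (b = 1 ∨ b = n) ∧
      (q = 1 ∨ q = i ∨ q = j ∨ q = i * j) ∧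
      Rl z s (q * (b * (a * k))) I I ∧ Rl z s (q * (b * (a * k))) J J := by
  have hK : I * J * (I * J) = -1 := by
    rw [mul_assoc, ← mul_assoc J, hIJ, neg_mul, mul_assoc, hJ]
    simp [hI]
  have sq : ∀ X, (X = I ∨ X = J ∨ X = I * J) → X * X = -1 := by
    rintro X (rfl | rfl | rfl) <;> assumption
  have D3 : Rl z s D (I * J) I := by
    have := D1.mul D2 cJ
    rwa [← mul_assoc J, hIJ, neg_mul, mul_assoc, hJ, mul_neg, neg_neg, mul_one] at this
  obtain ⟨a, ha, ca, e1⟩ : ∃ a : P, (a = 1 ∨ a = D ∨ a = D⁻¹) ∧ Commute z a ∧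
      Pm z s (a * k) I I := by
    obtain ⟨c, X, hX, e⟩ := bI k ck
    have e' := pm_of_smul he hI (sq X hX) cI e
    rcases hX with rfl | rfl | rfl
    · exact ⟨1, .inl rfl, Commute.one_right _, by rwa [one_mul]⟩
    · exact ⟨D⁻¹, .inr (.inr rfl), cD.inv_right, e'.comp ck (D1.inv cD)⟩
    · exact ⟨D, .inr (.inl rfl), cD, e'.comp ck D3⟩
  have cak := ca.mul_right ck
  obtain ⟨b, hb, cb, e2, e3⟩ : ∃ b : P, (b = 1 ∨ b = n) ∧ Commute z b ∧
      Pm z s (b * (a * k)) I I ∧ Pm z s (b * (a * k)) J J := by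
    obtain ⟨c, X, hX, e⟩ := bJ _ cak
    have e' := pm_of_smul he hJ (sq X hX) cJ e
    rcases hX with rfl | rfl | rfl
    · exact (not_pm h2 he hI hIJ cI cJ e1 e').elim
    · exact ⟨1, .inl rfl, Commute.one_right _, by rwa [one_mul], by rwa [one_mul]⟩
    · exact ⟨n, .inr rfl, cn, e1.comp cak n1, (e'.comp cak n2).neg⟩
  have cbk := cb.mul_right cak
  have i2' : Rl z s i (-J) J := by simpa using i2.neg
  have j1' : Rl z s j (-I) I := by simpa using j1.neg
  rcases e2 with e2 | e2 <;> rcases e3 with e3 | e3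
  · exact ⟨a, b, 1, ha, hb, .inl rfl, by rwa [one_mul], by rwa [one_mul]⟩
  · exact ⟨a, b, i, ha, hb, .inr (.inl rfl), e2.comp cbk i1, e3.comp cbk i2'⟩
  · exact ⟨a, b, j, ha, hb, .inr (.inr (.inl rfl)), e2.comp cbk j1', e3.comp cbk j2⟩
  · exact ⟨a, b, i * j, ha, hb, .inr (.inr (.inr rfl)), e2.comp cbk (j1'.comp cj i1),
      e3.comp cbk (j2.neg.comp cj i2')⟩

/-- `x` and `y` agree on the eigenspace. -/
def Ag (z : P) (s : F) (x y : P) : Prop := mat x * ee z s = mat y * ee z s

theorem Ag.left {x y : P} (h : Ag z s x y) (a : P) : Ag z s (a * x) (a * y) := by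
  rw [Ag, mat_mul, mat_mul, mul_assoc, h, mul_assoc]

theorem Ag.right {x y b : P} (h : Ag z s x y) (c : Commute z b) : Ag z s (x * b) (y * b) := by
  rw [Ag, mat_mul, mat_mul, mul_assoc, ← ee_comm c, ← mul_assoc, h, mul_assoc, ee_comm c, mul_assoc]

theorem Ag.inv {x y : P} (h : Ag z s x y) (c : Commute z y) : Ag z s x⁻¹ y⁻¹ := by
  have := (h.left x⁻¹).right c.inv_right
  rw [inv_mul_cancel, one_mul, mul_inv_cancel_right] at this
  exact this.symm

/-- `x` is scalar on the eigenspace. -/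
def Sc (z : P) (s : F) (x : P) : Prop := Commute z x ∧ ∃ c : F, mat x * ee z s = c • ee z s

theorem sc_one : Sc z s 1 := ⟨Commute.one_right _, 1, by rw [mat_one, one_mul, one_smul]⟩

theorem Sc.mul {x y : P} (h : Sc z s x) (h' : Sc z s y) : Sc z s (x * y) := by
  obtain ⟨c1, c, e⟩ := h
  obtain ⟨c2, c', e'⟩ := h'
  exact ⟨c1.mul_right c2, c' * c, by rw [mat_mul, mul_assoc, e', mul_smul_comm, e, smul_smul]⟩

theorem Sc.inv (he : ee z s ≠ 0) {x : P} (h : Sc z s x) : Sc z s x⁻¹ := by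
  obtain ⟨c1, c, e⟩ := h
  have hc : c ≠ 0 := fun h0 => mul_ee_ne he x (by rw [e, h0, zero_smul])
  refine ⟨c1.inv_right, c⁻¹, ?_⟩
  have := congrArg (fun W => c⁻¹ • (mat x⁻¹ * W)) e
  simp only [← mul_assoc, mat_inv_mul, one_mul, mul_smul_comm, smul_smul, inv_mul_cancel₀ hc,
    one_smul] at this
  exact this.symm

theorem Sc.conj {x g : P} (h : Sc z s x) (c : Commute z g) : Sc z s (g * x * g⁻¹) := by
  obtain ⟨c1, c2, e⟩ := h
  refine ⟨(c.mul_right c1).mul_right c.inv_right, c2, ?_⟩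
  rw [mat_mul, mat_mul, mul_assoc, ← ee_comm c.inv_right, mul_assoc, ← mul_assoc (mat x), e,
    smul_mul_assoc, mul_smul_comm, ee_comm c.inv_right, ← mul_assoc, mat_mul_inv, one_mul]

theorem Sc.ag {x y : P} (h : Sc z s x) (c : Commute z y) : Ag z s (x * y * x⁻¹) y := by
  obtain ⟨c1, c2, e⟩ := h
  have : Ag z s (x * y) (y * x) := by
    rw [Ag, mat_mul, mat_mul, mul_assoc, ← ee_comm c, ← mul_assoc, e, mul_assoc, e, smul_mul_assoc,
      mul_smul_comm, ee_comm c]
  simpa only [mul_inv_cancel_right] using this.right c1.inv_right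

theorem sc_of_rl (h2 : (2 : F) ≠ 0) (z2 : mat z * mat z = 1) (s2 : s * s = 1) {I J : M4 F}
    (cI : mat z * I = I * mat z) (cJ : mat z * J = J * mat z)
    (cen : ∀ Y : M4 F, Y * I = I * Y → Y * J = J * Y → Y * mat z = mat z * Y →
      ∃ x y : F, Y = x • (1 : M4 F) + y • mat z) {k : P} (ck : Commute z k) (e1 : Rl z s k I I)
    (e2 : Rl z s k J J) : Sc z s k := by
  obtain ⟨x, y, e⟩ := cen (mat k * ee z s)
    (by rw [mul_assoc, ee_comm' cI, ← mul_assoc, e1, mul_assoc])
    (by rw [mul_assoc, ee_comm' cJ, ← mul_assoc, e2, mul_assoc])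
    (by rw [mul_assoc, ee_comm' rfl, ← mul_assoc, ← mul_assoc, ← mat_mul, ← mat_mul, ck.eq])
  refine ⟨ck, 2⁻¹ * (x + y * s), ?_⟩
  have e3 : ee z s * ee z s = (2 : F) • ee z s := by
    simp only [ee, add_mul, mul_add, smul_mul_assoc, mul_smul_comm, z2, one_mul, mul_one]
    linear_combination (norm := module) s2 • (1 : M4 F)
  have e4 : (x • (1 : M4 F) + y • mat z) * ee z s = (x + y * s) • ee z s := by
    simp only [ee, add_mul, mul_add, smul_mul_assoc, mul_smul_comm, z2, one_mul, mul_one]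
    linear_combination (norm := module) s2 • (-y • mat z)
  rw [← e, mul_assoc, e3, mul_smul_comm] at e4
  rw [mul_smul, ← e4, smul_smul, inv_mul_cancel₀ h2, one_smul]

theorem ee_add : ee z 1 + ee z (-1) = (2 : F) • (1 : M4 F) := by
  rw [ee, ee]; module

theorem bi_of_sc (h2 : (2 : F) ≠ 0) {k : P} (h : Sc z 1 k) (h' : Sc z (-1) k) :
    ∃ x y : F, mat k = x • (1 : M4 F) + y • mat z := by
  obtain ⟨-, c, e⟩ := h
  obtain ⟨-, c', e'⟩ := h'
  have e1 : (2 : F) • mat k = c • ee z 1 + c' • ee z (-1) := by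
    rw [← e, ← e', ← mul_add, ee_add, mul_smul_comm, mul_one]
  refine ⟨2⁻¹ * (c + c'), 2⁻¹ * (c - c'), ?_⟩
  rw [← one_smul F (mat k), ← inv_mul_cancel₀ h2, mul_smul, e1, ee, ee]
  module

/-- Some element of `P` agrees with `x` on the first eigenspace and is trivial on the second. -/
def Pl (z x : P) : Prop := ∃ w : P, Commute z w ∧ Ag z 1 w x ∧ Ag z (-1) w 1

theorem Pl.inv {x : P} (h : Pl z x) (c : Commute z x) : Pl z x⁻¹ := by
  obtain ⟨w, cw, e, e'⟩ := h
  exact ⟨w⁻¹, cw.inv_right, e.inv c, by simpa using e'.inv (Commute.one_right _)⟩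

theorem Pl.conj {x g : P} (h : Pl z x) (c : Commute z g) : Pl z (g * x * g⁻¹) := by
  obtain ⟨w, cw, e, e'⟩ := h
  exact ⟨g * w * g⁻¹, (c.mul_right cw).mul_right c.inv_right, (e.left g).right c.inv_right,
    by simpa using (e'.left g).right c.inv_right⟩

theorem pl_comm {u v y : P} (hu : Sc z (-1) u) (hv : Sc z 1 v) (c : Commute z y) :
    Pl z (u * v * y * (u * v)⁻¹ * y⁻¹) := by
  refine ⟨u * y * u⁻¹ * y⁻¹, ((hu.1.mul_right c).mul_right hu.1.inv_right).mul_right c.inv_right,
    ?_, by simpa using (hu.ag c).right c.inv_right⟩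
  have := (((hv.ag c).left u).right hu.1.inv_right).right c.inv_right
  rw [show u * (v * y * v⁻¹) * u⁻¹ = u * v * y * (u * v)⁻¹ by group] at this
  exact this.symm

theorem half {Z a X : M4 F} (z2 : Z * Z = 1) (a2 : a * a = (-3 : F) • (1 : M4 F))
    (c : Z * a = a * Z) (e : (4 : F) • X = (1 + a) * (1 + Z) + (2 : F) • (1 - Z)) :
    (16 : F) • (X * X) = (4 : F) • (1 : M4 F) - (12 : F) • Z + (4 : F) • a + (4 : F) • (a * Z) := by
  have e1 : (16 : F) • (X * X) = ((4 : F) • X) * ((4 : F) • X) := by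
    rw [smul_mul_smul_comm]; norm_num
  have z2' : ∀ Y, Z * (Z * Y) = Y := fun Y => by rw [← mul_assoc, z2, one_mul]
  have a2' : ∀ Y, a * (a * Y) = (-3 : F) • Y := fun Y => by
    rw [← mul_assoc, a2, smul_mul_assoc, one_mul]
  have c' : ∀ Y, Z * (a * Y) = a * (Z * Y) := fun Y => by rw [← mul_assoc, c, mul_assoc]
  rw [e1, e]
  simp only [add_mul, mul_add, sub_mul, mul_sub, smul_mul_assoc, mul_smul_comm, one_mul, mul_one,
    mul_assoc, z2, a2, c, z2', a2', c']
  module

variable [Finite F] {G : Type*} [Group G] {π : P →* G}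

/-- No element of order three is trivial on exactly one eigenspace. -/
theorem not_pl (h : Od P π) (z2 : mat z * mat z = 1) {a Z' : M4 F} (a0 : a ≠ 0)
    (a2 : a * a = (-3 : F) • (1 : M4 F)) (c : mat z * a = a * mat z) {w r : P}
    (hw : (2 : F) • mat w = 1 + a) (ra : mat r * a = a * mat r) (rz : mat r * mat z = Z' * mat r)
    (an : mat z * Z' = -(Z' * mat z)) : ¬ Pl z w := by
  rintro ⟨p, cp, e, e'⟩
  have eZ : Z' = mat r * mat z * mat r⁻¹ := by rw [rz, mul_assoc, mat_mul_inv, mul_one]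
  have ea : a = mat r * a * mat r⁻¹ := by rw [ra, mul_assoc, mat_mul_inv, mul_one]
  have cj : ∀ X Y, mat r * X * mat r⁻¹ * (mat r * Y * mat r⁻¹) = mat r * (X * Y) * mat r⁻¹ :=
    fun X Y => by
      simp only [mul_assoc]
      rw [← mul_assoc (mat r⁻¹), mat_inv_mul, one_mul]
  have eaZ : a * Z' = mat r * (a * mat z) * mat r⁻¹ := by rw [← cj, ← ea, ← eZ]
  have c' : Z' * a = a * Z' := by rw [eaZ, ← c, ← cj, ← ea, ← eZ]
  have z2' : Z' * Z' = 1 := by rw [eZ, cj, z2, mul_one, mat_mul_inv]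
  have hne : ∀ t : F, t * t = 1 → a + t • (a * mat z) ≠ 0 := fun t ht h0 => by
    have h1 : a + t • (a * Z') = 0 := by
      rw [eaZ, ea, ← smul_mul_assoc, ← mul_smul_comm, ← add_mul, ← mul_add, ← ea, h0, mul_zero,
        zero_mul]
    have h3 : a * mat z = -t • a := by linear_combination (norm := module) t • h0 - ht • (a * mat z)
    have h4 : a * Z' = -t • a := by linear_combination (norm := module) t • h1 - ht • (a * Z')
    have h5 := congrArg (a * ·) an
    simp only [mul_neg, ← mul_assoc, h3, h4, smul_mul_assoc] at h5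
    refine a0 ((smul_eq_zero.1 (?_ : (2 : F) • a = 0)).resolve_left h.two)
    linear_combination (norm := module) h5 - ht • ((2 : F) • a)
  have cw : Commute z w := mat_inj (by
    refine smul_right_injective _ h.two ?_
    simp only [mat_mul]
    rw [← mul_smul_comm, ← smul_mul_assoc, hw, mul_add, add_mul, c, mul_one, one_mul])
  have key : ∀ (t : F) (x : P), Ag z t x w → Ag z (-t) x 1 →
      (4 : F) • mat x = (1 + a) * (1 + t • mat z) + (2 : F) • (1 - t • mat z) := fun t x e e' => by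
    rw [Ag, mat_one, one_mul] at e'
    have e1 : (4 : F) • mat x = (2 : F) • (mat x * ee z t) + (2 : F) • (mat x * ee z (-t)) := by
      simp only [ee, mul_add, mul_one, mul_smul_comm]; module
    rw [e1, e, e', ← smul_mul_assoc, hw, ee, ee, neg_smul, sub_eq_add_neg]
  have k1 := key 1 p e e'
  rw [one_smul] at k1
  have f1 := half z2 a2 c k1
  have za : ∀ Y, mat z * (a * Y) = a * (mat z * Y) := fun Y => by rw [← mul_assoc, c, mul_assoc]
  have aa : ∀ Y, a * (a * Y) = (-3 : F) • Y := fun Y => by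
    rw [← mul_assoc, a2, smul_mul_assoc, one_mul]
  by_cases h3 : (3 : F) = 0
  · have k2 := key (-1) (w * p⁻¹) (by simpa using (e'.inv (Commute.one_right _)).left w)
      (by simpa using Ag.right (x := w) (y := p) e.symm cp.inv_right)
    rw [neg_one_smul] at k2
    have f2 := half (by rw [neg_mul_neg, z2]) a2 (by rw [neg_mul, mul_neg, c]) k2
    have m1 : Mem P (1 + (a + a * mat z)) := by
      convert mem_mat (p * p) using 1
      rw [mat_mul]
      linear_combination (norm := module) -f1 + h3 • ((5 : F) • (mat p * mat p) - 1 +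
        (4 : F) • mat z - a - a * mat z)
    have m2 : Mem P (1 + (a - a * mat z)) := by
      convert mem_mat (w * p⁻¹ * (w * p⁻¹)) using 1
      rw [mat_mul]
      rw [mul_neg] at f2
      linear_combination (norm := module) -f2 + h3 • ((5 : F) • (mat (w * p⁻¹) * mat (w * p⁻¹)) - 1 -
        (4 : F) • mat z - a + a * mat z)
    have n1 := hne 1 (one_mul 1)
    have n2 := hne (-1) (by simp)
    rw [one_smul] at n1
    rw [neg_one_smul, ← sub_eq_add_neg] at n2
    have a3 : a * a = 0 := by rw [a2, neg_smul, h3, zero_smul, neg_zero]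
    have a4 : ∀ Y, a * (a * Y) = 0 := fun Y => by rw [← mul_assoc, a3, zero_mul]
    rcases h.small _ _ m1 m2 n1 (by simp [mul_add, add_mul, mul_assoc, za, c, a3, a4])
      (by simp [mul_sub, sub_mul, mul_assoc, za, c, a3, a4])
      (by simp [mul_sub, add_mul, mul_assoc, za, c, a3, a4])
      (by simp [mul_add, sub_mul, mul_assoc, za, c, a3, a4]) with h0 | h0 | h0
    · exact n2 h0
    · have h1 : (2 : F) • (a * mat z) = 0 := by linear_combination (norm := module) -h0
      have h4 := (smul_eq_zero.1 h1).resolve_left h.two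
      exact a0 (by rw [← mul_one a, ← z2, ← mul_assoc, h4, zero_mul])
    · refine a0 ((smul_eq_zero.1 (?_ : (2 : F) • a = 0)).resolve_left h.two)
      linear_combination (norm := module) h0
  · have h32 : (32 : F) ≠ 0 := by
      rw [show (32 : F) = 2 ^ 5 by norm_num]; exact pow_ne_zero _ h.two
    have e1 : -(a * mat z) - 1 = (2 : F) • mat (w * w * (p * p)) := by
      refine smul_right_injective _ h32 ?_
      have : (32 : F) • (2 : F) • mat (w * w * (p * p)) =
          ((2 : F) • mat w) * ((2 : F) • mat w) * ((16 : F) • (mat p * mat p)) := by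
        simp only [mat_mul, smul_mul_smul_comm, smul_smul]; norm_num
      beta_reduce
      rw [this]
      simp only [hw, f1, add_mul, mul_add, mul_sub, mul_smul_comm, one_mul, mul_one,
        mul_assoc, a2, aa, smul_mul_assoc]
      module
    have m1 : Mem P (-(a * mat z) - 1) := e1 ▸ h.mem_smul (mem_mat _) h.two
    refine h.pp h3 (A := -(a * mat z)) (B := -(a * Z')) ?_ ?_ ?_ m1 ?_
    · rw [neg_mul_neg, mul_assoc, za, z2, mul_one, a2]
    · rw [neg_mul_neg, mul_assoc, ← mul_assoc Z', c', mul_assoc, z2', mul_one, a2]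
    · rw [neg_mul_neg, neg_mul_neg, mul_assoc, za, an, mul_assoc, ← mul_assoc Z', c', mul_assoc,
        mul_neg, mul_neg]
    · convert ((mem_mat r).mul m1).mul (mem_mat r⁻¹) using 1
      rw [mul_sub, sub_mul, mul_one, mat_mul_inv, mul_neg, neg_mul, eaZ]

end Cfsg.Agent.Cl.D4.Pc
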