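/-
The Pauli frame with automiser `S₅`, `A₆` or `S₆`: the centraliser of `γ₄₅` normalises `E`.
-/
import Mathlib
import Cfsg.Agent.Cl.D4P0
import Cfsg.Agent.Cl.D4P1
import Cfsg.Agent.Cl.D4PP
import Cfsg.Agent.Cl.D4Pca
import Cfsg.Agent.Cl.D4Pcb
import Cfsg.Agent.Cl.D4Pcc

set_option autoImplicit false

namespace Cfsg.Agent.Cl.D4

open Matrix Cfsg.Geo Cfsg.Agent.Cl.Max Cfsg.Agent.Cl.Mx Subgroup
open Cfsg.Agent.Cl.D5 (MT Root TrGen Cov NoTv)
open scoped MatrixGroups commutatorElement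

namespace Pc

section Mat

variable {F : Type*} [Field F] {ι : F}

theorem ne_zero_of_ii (h : ι * ι = -1) : ι ≠ 0 := fun e => by simp [e] at h

theorem gs12 (h : ι * ι = -1) :
    Gs ι 1 2 = !![0, 0, 1, 0; 0, 0, 0, -1; -1, 0, 0, 0; 0, 1, 0, 0] := by
  ext a b; fin_cases a <;> fin_cases b <;> simp [Gs, As, h]

theorem gs24 (h : ι * ι = -1) :
    Gs ι 2 4 = !![0, 0, 0, -1; 0, 0, -1, 0; 0, 1, 0, 0; 1, 0, 0, 0] := by
  ext a b; fin_cases a <;> fin_cases b <;> simp [Gs, As, h]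

theorem gs43 (h : ι * ι = -1) :
    Gs ι 4 3 = !![0, 0, 0, -ι; 0, 0, -ι, 0; 0, -ι, 0, 0; -ι, 0, 0, 0] := by
  ext a b; fin_cases a <;> fin_cases b <;> simp [Gs, As, h]

theorem gs30 (h : ι * ι = -1) : Gs ι 3 0 = Gs ι 1 2 * (ι • Gs ι 4 5) := by
  rw [gs12 h, gs45 h]
  ext a b
  rw [mul_smul_comm, Matrix.smul_apply, mul_diagonal]
  fin_cases a <;> fin_cases b <;> simp [Gs, As, h]

theorem gs10 (h : ι * ι = -1) : Gs ι 1 0 = Gs ι 2 3 * (ι • Gs ι 4 5) := by
  rw [Gs_swap h (by decide : (0 : Fin 6) ≠ 1), gs01 h, gs23 h, gs45 h]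
  ext a b; fin_cases a <;> fin_cases b <;> simp [h, mul_diagonal]

theorem cen_mat (h : ι * ι = -1) (h2 : (2 : F) ≠ 0) (Y : M4 F) (e1 : Y * Gs ι 1 2 = Gs ι 1 2 * Y)
    (e2 : Y * Gs ι 2 3 = Gs ι 2 3 * Y) (e3 : Y * (ι • Gs ι 4 5) = ι • Gs ι 4 5 * Y) :
    ∃ x y : F, Y = x • (1 : M4 F) + y • ι • Gs ι 4 5 := by
  rw [mul_smul_comm, smul_mul_assoc] at e3
  have e := diag_of_comm h h2 e2 (smul_right_injective _ (ne_zero_of_ii h) e3)
  rw [e, gs12 h] at e1
  have a1 := congrFun (congrFun e1 0) 2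
  have a2 := congrFun (congrFun e1 1) 3
  rw [mul_diagonal, diagonal_mul] at a1 a2
  simp at a1 a2
  refine ⟨2⁻¹ * (Y 0 0 + Y 1 1), 2⁻¹ * (Y 1 1 - Y 0 0), ?_⟩
  rw [gs45 h]
  nth_rw 1 [e]
  ext a b; fin_cases a <;> fin_cases b <;> simp [h] <;> grind

theorem bi_mat (h : ι * ι = -1) (h2 : (2 : F) ≠ 0) {x y c : F} {X : M4 F}
    (hX : X = Gs ι 2 4 ∨ X = Gs ι 4 3 ∨ X = Gs ι 2 3)
    (e : (x • (1 : M4 F) + y • Gs ι 4 5) * Gs ι 2 4 * (1 + (1 : F) • ι • Gs ι 0 1) =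
      c • (X * (x • (1 : M4 F) + y • Gs ι 4 5) * (1 + (1 : F) • ι • Gs ι 0 1))) :
    x = 0 ∨ y = 0 ∨ x = y ∨ x = -y := by
  have e1 : (1 + (1 : F) • ι • Gs ι 0 1) = diagonal ![0, 2, 2, 0] := by
    rw [gs01 h]
    ext a b; fin_cases a <;> fin_cases b <;> simp [h, one_add_one_eq_two]
  have e2 : x • (1 : M4 F) + y • Gs ι 4 5 =
      diagonal ![x + y * ι, x - y * ι, x + y * ι, x - y * ι] := by
    rw [gs45 h]
    ext a b; fin_cases a <;> fin_cases b <;> simp [sub_eq_add_neg]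
  rw [e1, e2, gs24 h] at e
  have a1 := congrFun (congrFun e 1) 2
  have a2 := congrFun (congrFun e 2) 1
  simp only [mul_diagonal, diagonal_mul, Matrix.smul_apply, smul_eq_mul] at a1 a2
  clear e e1 e2
  have h8 : (8 : F) ≠ 0 := by rw [show (8 : F) = 2 ^ 3 by norm_num]; exact pow_ne_zero _ h2
  rcases hX with rfl | rfl | rfl
  · rw [gs24 h] at a1 a2
    simp at a1 a2
    have : 8 * ι * (x * y) = 0 := by linear_combination (x + y * ι) * a2 + (x - y * ι) * a1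
    rcases mul_eq_zero.1 ((mul_eq_zero.1 this).resolve_left
      (mul_ne_zero h8 (ne_zero_of_ii h))) with e | e
    exacts [.inl e, .inr (.inl e)]
  · rw [gs43 h] at a1 a2
    simp at a1 a2
    have : 8 * ((x - y) * (x + y)) = 0 := by
      linear_combination 2 * (x + y * ι) * a2 - 2 * (x - y * ι) * a1 - 8 * y ^ 2 * h
    rcases mul_eq_zero.1 ((mul_eq_zero.1 this).resolve_left h8) with e | e
    exacts [.inr (.inr (.inl (sub_eq_zero.1 e))), .inr (.inr (.inr (eq_neg_of_add_eq_zero_left e)))]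
  · rw [gs23 h] at a1 a2
    simp [h2] at a1 a2
    have : 2 * x = 0 := by linear_combination a2 - a1
    exact .inl ((mul_eq_zero.1 this).resolve_left h2)

theorem plus {P : Subgroup (G4 F)} {z k : P} {A : M4 F} (z2 : mat z * mat z = 1) (hA : A * A = -1)
    (e : mat k = (1 + A) * (1 + A * mat z)) :
    mat k * ee z 1 = (2 : F) • (A * ee z 1) ∧ mat k * ee z (-1) = (2 : F) • ee z (-1) := by
  have hA' : ∀ Y, A * (A * Y) = -Y := fun Y => by rw [← mul_assoc, hA, neg_one_mul]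
  constructor <;> simp only [e, ee, add_mul, mul_add, mul_smul_comm, one_mul, mul_one, mul_assoc,
    z2, hA, hA', mul_neg, neg_mul] <;> module

theorem rl_of_ag {P : Subgroup (G4 F)} {z k : P} {s c : F} {A X Y : M4 F}
    (e : mat k * ee z s = c • (A * ee z s)) (cX : mat z * X = X * mat z) (h : A * X = Y * A) :
    Rl z s k X Y := by
  rw [Rl, mul_assoc, ← ee_comm' cX, ← mul_assoc, e, mul_assoc, e, smul_mul_assoc, mul_assoc,
    ee_comm' cX, ← mul_assoc, h, mul_smul_comm, mul_assoc]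

theorem quat {I J : M4 F} (hI : I * I = -1) (hJ : J * J = -1) (hIJ : J * I = -(I * J)) :
    (I - J - I * J) * (I - J - I * J) = (-3 : F) • (1 : M4 F) ∧
      (I - J - I * J) * I + I * (I - J - I * J) = (-2 : F) • (1 : M4 F) ∧
      (1 + (I - J - I * J)) * ((1 + I) * (1 + J)) = (2 : F) • (1 + I + I * J - J) := by
  have h1 : ∀ Y, I * (I * Y) = -Y := fun Y => by rw [← mul_assoc, hI, neg_one_mul]
  have h2 : ∀ Y, J * (J * Y) = -Y := fun Y => by rw [← mul_assoc, hJ, neg_one_mul]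
  have h3 : ∀ Y, J * (I * Y) = -(I * (J * Y)) := fun Y => by
    rw [← mul_assoc, hIJ, neg_mul, mul_assoc]
  refine ⟨?_, ?_, ?_⟩ <;> simp only [add_mul, mul_add, sub_mul, mul_sub, one_mul, mul_one,
    mul_assoc, hI, hJ, hIJ, h1, h2, h3, mul_neg, neg_neg] <;> module

end Mat

variable {F : Type*} [Field F] [Finite F] {G : Type*} [Group G] {P : Subgroup (G4 F)}
  {π : P →* G} {ι : F} {γ : Fin 6 → Fin 6 → P} {E : Subgroup G}
  {H : Subgroup (Equiv.Perm (Fin 6))} {Φ : Gam H →* G}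

theorem exists_inv (h : Fr P π ι γ E H Φ) {i j : Fin 6} (hij : i ≠ j) :
    ∃ z : P, mat z = ι • Gs ι i j ∧ π z = π (γ i j) ∧ z * z = 1 := by
  obtain ⟨z, hz, e⟩ := h.od.exists_smul (γ i j) (ne_zero_of_ii h.ii)
  rw [h.mat_eq] at hz
  refine ⟨z, hz, e, mat_inj ?_⟩
  rw [mat_mul, hz, smul_mul_smul_comm, gs_sq h.ii hij, h.ii, mat_one]
  simp

theorem comm_of {z k : P} {c : F} {X : M4 F} (hz : mat z = c • X) (e : mat k * X = X * mat k) :
    Commute z k := mat_inj (by rw [mat_mul, mat_mul, hz, smul_mul_assoc, mul_smul_comm, e])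

theorem solv (h : Fr P π ι γ E H Φ) (hs : SolvC G) {i j : Fin 6} (hij : i ≠ j) :
    Group.IsSolvable (centralizer ({π (γ i j)} : Set G)) := hs _ ((g_zt h hij).orderOf h.od)

/-- Elements which are scalar on both eigenspaces normalise `E`. -/
theorem bi_mem (h : Fr P π ι γ E H Φ) (hs : SolvC G)
    (hH : H = S5 ∨ H = alternatingGroup (Fin 6) ∨ H = ⊤) {l : P} {x y : F}
    (hl : mat l = x • (1 : M4 F) + y • Gs ι 4 5) : π l ∈ normalizer (E : Set G) := by
  obtain ⟨t, ht, et, t2⟩ := exists_inv h (by decide : (0 : Fin 6) ≠ 1)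
  obtain ⟨D, -, aD⟩ := exists_rot2 h (a := 2) (b := 4) (c := 4) (d := 3) (by decide) (by decide)
    (swap2_mem hH (by decide) (by decide) (by decide) (by decide) (by decide) (by decide))
  have cm : ∀ i j : Fin 6, i ≠ j ∧ i ≠ 0 ∧ i ≠ 1 ∧ j ≠ 0 ∧ j ≠ 1 →
      Gs ι i j * Gs ι 0 1 = Gs ι 0 1 * Gs ι i j :=
    fun i j e => gs_comm h.ii e.1 e.2.1 e.2.2.1 e.2.2.2.1 e.2.2.2.2
  obtain ⟨c, X, hX, e⟩ := blk h.od (a := γ 2 4) (b := γ 4 3) (d := D) (k := l) t2
    (et ▸ g_zt h (by decide)) (et ▸ solv h hs (by decide))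
    (comm_of ht (by rw [h.mat_eq]; exact cm _ _ (by decide)))
    (comm_of ht (by rw [h.mat_eq]; exact cm _ _ (by decide)))
    (comm_of ht (act_pos aD 0 1 0 1 (by decide)))
    (comm_of ht (by
      rw [hl, add_mul, mul_add, smul_mul_assoc, smul_mul_assoc, mul_smul_comm, mul_smul_comm,
        cm _ _ (by decide), one_mul, mul_one]))
    (by rw [h.mat_eq, h.mat_eq]; exact gs_anti h.ii (by decide) (by decide) (by decide))
    (g_sq h _ _) (conj_of_act h aD 2 4) (by rw [conj_of_act h aD, g_mul h]; exact g_swap h 2 3)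
    (.inl rfl)
  rw [hl, ht, h.mat_eq] at e
  rcases bi_mat h.ii h.od.two (by
    rcases hX with rfl | rfl | rfl
    · exact .inl (h.mat_eq _ _)
    · exact .inr (.inl (h.mat_eq _ _))
    · exact .inr (.inr (by rw [mat_mul, h.mat_eq, h.mat_eq, Gs_mul h.ii]))) e with
    rfl | rfl | rfl | rfl
  · rw [zero_smul, zero_add, ← h.mat_eq] at hl
    rw [(h.od.pc.eq_iff _ _).2 ⟨_, hl⟩]
    exact le_normalizer (mem_E h 4 5)
  · rw [zero_smul, add_zero] at hl
    exact mem_N_of_act h (hl ▸ act_smul act_one _)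
  · rw [← smul_add] at hl
    exact mem_N_of_act h (hl ▸ act_smul (act_rot h.ii (by decide)) _)
  · have : mat l = (-y) • (1 + Gs ι 5 4) := by
      rw [hl, Gs_swap h.ii (by decide : (4 : Fin 6) ≠ 5)]; module
    exact mem_N_of_act h (this ▸ act_smul (act_rot h.ii (by decide)) _)

theorem comm_mem (h : Fr P π ι γ E H Φ) (hs : SolvC G)
    (hH : H = S5 ∨ H = alternatingGroup (Fin 6) ∨ H = ⊤) {z k : P} (hz : mat z = ι • Gs ι 4 5)
    (ez : π z = π (γ 4 5)) (zz : z * z = 1) (ck : Commute z k) :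
    π k ∈ normalizer (E : Set G) := by
  have hι := h.ii
  have h2 := h.od.two
  have z2 : mat z * mat z = 1 := congrArg mat zz
  have hI := gs_sq hι (by decide : (1 : Fin 6) ≠ 2)
  have hJ := gs_sq hι (by decide : (2 : Fin 6) ≠ 3)
  have hK := Gs_mul hι 1 2 3
  have hIJ : Gs ι 2 3 * Gs ι 1 2 = -(Gs ι 1 2 * Gs ι 2 3) := by
    rw [gs_anti hι (a := 1) (b := 2) (c := 3) (by decide) (by decide) (by decide), neg_neg]
  have cg : ∀ i j : Fin 6, i ≠ j ∧ i ≠ 4 ∧ i ≠ 5 ∧ j ≠ 4 ∧ j ≠ 5 → Commute z (γ i j) := fun i j e =>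
    comm_of hz (by rw [h.mat_eq]; exact gs_comm hι e.1 e.2.1 e.2.2.1 e.2.2.2.1 e.2.2.2.2)
  have ci := cg 1 2 (by decide)
  have cj := cg 2 3 (by decide)
  have cj' := cj
  have cI : mat z * Gs ι 1 2 = Gs ι 1 2 * mat z := by
    rw [← h.mat_eq, ← mat_mul, ← mat_mul, ci.eq]
  have cJ : mat z * Gs ι 2 3 = Gs ι 2 3 * mat z := by
    rw [← h.mat_eq, ← mat_mul, ← mat_mul, cj.eq]
  have r2 := fun (a b c d : Fin 6) (e : a ≠ b ∧ c ≠ d ∧ a ≠ 5 ∧ b ≠ 5 ∧ c ≠ 5 ∧ d ≠ 5) =>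
    exists_rot2 h e.1 e.2.1 (swap2_mem hH e.1 e.2.1 e.2.2.1 e.2.2.2.1 e.2.2.2.2.1 e.2.2.2.2.2)
  obtain ⟨D, hD, aD⟩ := r2 1 2 2 3 (by decide)
  obtain ⟨ip, hip, aip⟩ := r2 1 2 3 0 (by decide)
  obtain ⟨jp, hjp, ajp⟩ := r2 2 3 1 0 (by decide)
  obtain ⟨κ, g, hg, r1⟩ := exists_rot1 h hH
  obtain ⟨n, -, an⟩ := r1 1 2 (by decide) (by decide) (by decide)
  obtain ⟨r, -, ar⟩ := r1 0 4 (by decide) (by decide) (by decide)
  have cD : Commute z D := comm_of hz (act_pos aD 4 5 4 5 (by decide))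
  have cip : Commute z ip := comm_of hz (act_pos aip 4 5 4 5 (by decide))
  have cjp : Commute z jp := comm_of hz (act_pos ajp 4 5 4 5 (by decide))
  obtain ⟨cn, n1, n2, n3, ra, rb, rz⟩ : Commute z n ∧ mat n * Gs ι 1 2 = Gs ι 1 2 * mat n ∧
      mat n * Gs ι 2 3 = Gs ι 1 3 * mat n ∧ mat n * Gs ι 1 3 = Gs ι 3 2 * mat n ∧
      mat r * Gs ι 1 2 = Gs ι 1 2 * mat r ∧ mat r * Gs ι 2 3 = Gs ι 2 3 * mat r ∧
      mat r * Gs ι 4 5 = Gs ι 0 5 * mat r := by
    rcases hg with ⟨-, rfl⟩ | ⟨-, rfl⟩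
    · exact ⟨comm_of hz (act_pos an 4 5 4 5 (by decide)), act_neg hι an _ _ _ _ (by decide),
        act_pos an _ _ _ _ (by decide), act_neg hι an _ _ _ _ (by decide),
        act_pos ar _ _ _ _ (by decide), act_pos ar _ _ _ _ (by decide),
        act_pos ar _ _ _ _ (by decide)⟩
    · exact ⟨comm_of hz (act_neg hι an 4 5 4 5 (by decide)), act_neg hι an _ _ _ _ (by decide),
        act_pos an _ _ _ _ (by decide), act_neg hι an _ _ _ _ (by decide),
        act_pos ar _ _ _ _ (by decide), act_pos ar _ _ _ _ (by decide),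
        act_neg hι ar _ _ _ _ (by decide)⟩
  rw [Gs_swap hι (by decide : (2 : Fin 6) ≠ 3), ← hK] at n3
  rw [← hK] at n2
  have D1 : mat D * Gs ι 1 2 = Gs ι 2 3 * mat D := act_pos aD _ _ _ _ (by decide)
  have D2 : mat D * Gs ι 2 3 = Gs ι 1 2 * Gs ι 2 3 * mat D := by
    rw [hK]; exact act_neg hι aD _ _ _ _ (by decide)
  have he : ∀ s : F, ee z s ≠ 0 := fun s e => by
    have a1 := congrFun (congrFun e 0) 0
    have a2 := congrFun (congrFun e 1) 1
    rw [ee, hz, gs45 hι] at a1 a2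
    simp at a1 a2
    exact h2 (by linear_combination a1 + a2)
  have zt : ZT π (π z) := ez ▸ g_zt h (by decide)
  have sz : Group.IsSolvable (centralizer ({π z} : Set G)) := ez ▸ solv h hs (by decide)
  have d1 : π D * π (γ 1 2) * (π D)⁻¹ = π (γ 2 3) := conj_of_act h aD 1 2
  have d2 : π D * π (γ 2 3) * (π D)⁻¹ = π (γ 1 3) := (conj_of_act h aD 2 3).trans (g_swap h 1 3)
  have d3 : π D * π (γ 1 3) * (π D)⁻¹ = π (γ 1 2) := (conj_of_act h aD 1 3).trans (g_swap h 1 2)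
  have fin : ∀ {s c : F} {k x : P} {X : M4 F},
      mat k * X * (1 + s • mat z) = c • (mat x * mat k * (1 + s • mat z)) →
      Rl z s k X (c • mat x) := fun e => by rw [Rl, smul_mul_assoc, smul_mul_assoc]; exact e
  have step := fun (s : F) (s1 : s = 1 ∨ s = -1) (i j k : P) cj ck i1 i2 j1 j2 =>
    stepA (i := i) (j := j) (k := k) h2 (he s) hI hJ hIJ cI cJ cD cn cj ck (rl_of_eq D1)
    (rl_of_eq D2) (rl_of_eq n1) (rl_of_eq n3) i1 i2 j1 j2 (fun k ck => by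
      obtain ⟨c, x, hx, e⟩ := blk h.od zz zt sz ci cj' cD ck
        (by rw [h.mat_eq, h.mat_eq, hIJ, neg_neg]) (g_sq h _ _) d1 (by rw [d2, g_mul h]) s1
      rw [h.mat_eq] at e
      refine ⟨c, mat x, ?_, fin e⟩
      rcases hx with rfl | rfl | rfl <;> simp [mat_mul, h.mat_eq]) (fun k ck => by
      obtain ⟨c, x, hx, e⟩ := blk h.od zz zt sz cj' (cg 1 3 (by decide)) cD ck
        (by rw [h.mat_eq, h.mat_eq]; exact gs_anti' hι (by decide) (by decide) (by decide))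
        (g_sq h _ _) d2 (by rw [d3, g_swap h 3 1, g_mul h, g_swap h]) s1
      rw [h.mat_eq] at e
      refine ⟨c, mat x, ?_, fin e⟩
      rcases hx with rfl | rfl | rfl
      · exact .inr (.inl (h.mat_eq _ _))
      · exact .inr (.inr (by rw [h.mat_eq, hK]))
      · refine .inl ?_
        rw [mat_mul, h.mat_eq, h.mat_eq, Gs_swap hι (by decide : (3 : Fin 6) ≠ 1), mul_neg,
          Gs_mul hι, ← Gs_swap hι (by decide)])
  have sc := fun (s : F) (s2 : s * s = 1) (k : P) (ck : Commute z k) =>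
    sc_of_rl h2 z2 s2 cI cJ (by rw [hz]; exact cen_mat hι h2) ck
  obtain ⟨a2, a0, hw⟩ := quat hI hJ hIJ
  have npl : ¬ Pl z (n * D * n⁻¹ * D⁻¹) := by
    refine not_pl h.od z2 (Z' := ι • Gs ι 0 5) (r := r) (fun e => h2 ?_) a2 ?_ ?_ ?_ ?_ ?_
    · rw [e, mul_zero, zero_mul, add_zero, ← zero_smul F (1 : M4 F)] at a0
      exact neg_eq_zero.1 (smul_one_inj a0).symm
    · rw [mul_sub, mul_sub, sub_mul, sub_mul, cI, ← mul_assoc, cI, mul_assoc, cJ, mul_assoc]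
    · have e1 : mat n * mat D = (1 + Gs ι 1 2 + Gs ι 1 2 * Gs ι 2 3 - Gs ι 2 3) * mat n := by
        simp only [hD, add_mul, mul_add, one_mul, mul_one, n1, n2, n3]
        noncomm_ring
      rw [mat_mul, mat_mul, mat_mul, e1, mul_assoc _ (mat n), mat_mul_inv, mul_one,
        ← smul_mul_assoc, ← hw, ← hD, mul_assoc, mat_mul_inv, mul_one]
    · rw [mul_sub, mul_sub, sub_mul, sub_mul, ra, ← mul_assoc, ra, mul_assoc, rb, mul_assoc]
    · rw [hz, mul_smul_comm, rz, smul_mul_assoc]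
    · rw [hz, smul_mul_smul_comm, smul_mul_smul_comm,
        gs_anti' hι (by decide) (by decide) (by decide), smul_neg]
  have mD := mem_N_of_act h aD
  have mn := mem_N_of_act h an
  have mq : ∀ {i j a b q k : P}, π i ∈ normalizer (E : Set G) → π j ∈ normalizer (E : Set G) →
      (a = 1 ∨ a = D ∨ a = D⁻¹) → (b = 1 ∨ b = n) → (q = 1 ∨ q = i ∨ q = j ∨ q = i * j) →
      π (q * (b * (a * k))) ∈ normalizer (E : Set G) → π k ∈ normalizer (E : Set G) := by
    intro i j a b q k mi mj ha hb hq e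
    rw [map_mul, map_mul, map_mul, mul_mem_cancel_left, mul_mem_cancel_left,
      mul_mem_cancel_left] at e
    · exact e
    · rcases ha with rfl | rfl | rfl <;> simp [mD]
    · rcases hb with rfl | rfl <;> simp [mn]
    · rcases hq with rfl | rfl | rfl | rfl <;> simp [mi, mj, mul_mem]
  have cq : ∀ {i j a b q k : P}, Commute z i → Commute z j → Commute z k →
      (a = 1 ∨ a = D ∨ a = D⁻¹) → (b = 1 ∨ b = n) → (q = 1 ∨ q = i ∨ q = j ∨ q = i * j) →
      Commute z (q * (b * (a * k))) := by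
    intro i j a b q k mi mj mk ha hb hq
    refine Commute.mul_right ?_ (Commute.mul_right ?_ (Commute.mul_right ?_ mk))
    · rcases hq with rfl | rfl | rfl | rfl <;> simp [mi, mj]
    · rcases hb with rfl | rfl <;> simp [cn]
    · rcases ha with rfl | rfl | rfl <;> simp [cD]
  have hJI : Gs ι 1 2 * Gs ι 2 3 = -Gs ι 2 3 * Gs ι 1 2 := by rw [neg_mul, hIJ, neg_neg]
  obtain ⟨a, b, q, ha, hb, hq, e1, e2⟩ := step (-1) (.inr rfl) (γ 1 2) (γ 2 3) k cj ck
    (rl_of_eq (by rw [h.mat_eq])) (rl_of_eq (by rw [h.mat_eq, hJI]))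
    (rl_of_eq (by rw [h.mat_eq, hIJ, neg_mul])) (rl_of_eq (by rw [h.mat_eq]))
  refine mq (le_normalizer (mem_E h 1 2)) (le_normalizer (mem_E h 2 3)) ha hb hq ?_
  have cl := cq ci cj ck ha hb hq
  have sl := sc (-1) (by simp) _ cl e1 e2
  generalize q * (b * (a * k)) = l at cl sl
  clear e1 e2 ha hb hq a b q
  rw [gs30 hι, ← hz] at hip
  rw [gs10 hι, ← hz] at hjp
  obtain ⟨i1, i2⟩ := plus z2 hI hip
  obtain ⟨j1, j2⟩ := plus z2 hJ hjp
  obtain ⟨a, b, q, ha, hb, hq, e1, e2⟩ := step 1 (.inl rfl) ip jp l cjp cl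
    (rl_of_ag i1 cI rfl) (rl_of_ag i1 cJ hJI) (rl_of_ag j1 cI (by rw [hIJ, neg_mul]))
    (rl_of_ag j1 cJ rfl)
  refine mq (mem_N_of_act h aip) (mem_N_of_act h ajp) ha hb hq ?_
  have sl' := sc 1 (by simp) _ (cq cip cjp cl ha hb hq) e1 e2
  have si : Sc z (-1) ip := ⟨cip, _, i2⟩
  have sj : Sc z (-1) jp := ⟨cjp, _, j2⟩
  have sq : Sc z (-1) q := by
    rcases hq with rfl | rfl | rfl | rfl
    exacts [sc_one, si, sj, si.mul sj]
  have pl : ∀ y, Commute z y → Pl z (b * a * y * (b * a)⁻¹ * y⁻¹) := fun y cy => by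
    have := pl_comm ((sq.inv (he _)).mul ((sl.inv (he _)).conj sl'.1)) sl' cy
    rwa [show q⁻¹ * (q * (b * (a * l)) * l⁻¹ * (q * (b * (a * l)))⁻¹) * (q * (b * (a * l))) = b * a
      by group] at this
  rcases hb with rfl | rfl
  · rcases ha with rfl | rfl | rfl
    · obtain ⟨x, y, e⟩ := bi_of_sc h2 sl' (by simpa using sq.mul sl)
      rw [hz, smul_smul] at e
      exact bi_mem h hs hH e
    · refine (npl ?_).elim
      have := (pl n cn).inv (by
        rw [one_mul]; exact ((cD.mul_right cn).mul_right cD.inv_right).mul_right cn.inv_right)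
      rwa [show (1 * a * n * (1 * a)⁻¹ * n⁻¹)⁻¹ = n * a * n⁻¹ * a⁻¹ by group] at this
    · refine (npl ?_).elim
      have := (pl n cn).conj cD
      rwa [show D * (1 * D⁻¹ * n * (1 * D⁻¹)⁻¹ * n⁻¹) * D⁻¹ = n * D * n⁻¹ * D⁻¹ by group] at this
  · refine (npl ?_).elim
    have := pl D cD
    rcases ha with rfl | rfl | rfl
    · simpa using this
    · simpa [mul_assoc] using this
    · simpa [mul_assoc] using this

end Pc

variable {F : Type*} [Field F] [Finite F] {G : Type*} [Group G] {P : Subgroup (G4 F)}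
  {π : P →* G} {ι : F} {γ : Fin 6 → Fin 6 → P} {E : Subgroup G}
  {H : Subgroup (Equiv.Perm (Fin 6))} {Φ : Gam H →* G}

theorem Fr.pc (h : Fr P π ι γ E H Φ) (hs : SolvC G)
    (hH : H = S5 ∨ H = alternatingGroup (Fin 6) ∨ H = ⊤) :
    centralizer ({π (γ 4 5)} : Set G) ≤ normalizer (E : Set G) := fun x hx => by
  obtain ⟨z, hz, ez, zz⟩ := Pc.exists_inv h (by decide : (4 : Fin 6) ≠ 5)
  have key : ∀ y, Cm π (π (γ 4 5)) y → y ∈ normalizer (E : Set G) := fun y hy => by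
    obtain ⟨k, rfl⟩ := h.od.surj y
    exact Pc.comm_mem h hs hH hz ez zz (hy z k ez rfl)
  rcases h.od.pc.cm_or_an (Pc.g_sq h 4 5) (mem_centralizer_singleton_iff.1 hx).symm with e | e
  · exact key x e
  · have a : An π (π (γ 4 5)) (π (γ 0 5)) := h.od.pc.an_of (by
      rw [h.mat_eq, h.mat_eq]; exact Pc.gs_anti' h.ii (by decide) (by decide) (by decide))
    exact (mul_mem_cancel_right (le_normalizer (Pc.mem_E h 0 5))).1 (key _ (e.mul_an h.od.pc a))

end Cfsg.Agent.Cl.D4
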