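/-
Quadratic unipotent elements of a subgroup of `GL₄(q)` without transvections, I.
-/
import Mathlib
import Cfsg.Agent.Cl.D4B
import Cfsg.Agent.Chev.TimGen

set_option autoImplicit false
set_option linter.unusedSectionVars false
set_option linter.unusedVariables false

namespace Cfsg.Agent.Cl.D4

open Matrix Cfsg.Geo Cfsg.Agent.Cl.Max Cfsg.Agent.Cl.Mx Subgroup
open Cfsg.Agent.Cl.D5 (MT Root TrGen Cov NoTv)
open scoped MatrixGroups commutatorElement

namespace Q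

open Cfsg.Agent.GT

variable {F : Type*} [Field F] {P : Subgroup (G4 F)} {N M K T g : M4 F}

theorem mext (h : ∀ v, N *ᵥ v = M *ᵥ v) : N = M := toLin'.injective (LinearMap.ext h)

theorem zero_of_two (h2 : (2 : F) ≠ 0) (h : N = -N) : N = 0 := by
  have : (2 : F) • N = 0 := by rw [two_smul]; nth_rw 1 [h]; simp
  exact (smul_eq_zero.1 this).resolve_left h2

theorem mem_one : Mem P (1 : M4 F) := ⟨1, P.one_mem, rfl⟩

theorem mem_mul (hN : Mem P N) (hM : Mem P M) : Mem P (N * M) := by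
  obtain ⟨a, ha, rfl⟩ := hN
  obtain ⟨b, hb, rfl⟩ := hM
  exact ⟨a * b, P.mul_mem ha hb, rfl⟩

theorem mem_inv (hg : Mem P g) : Mem P g⁻¹ := by
  obtain ⟨a, ha, rfl⟩ := hg
  exact ⟨a⁻¹, P.inv_mem ha, (Matrix.coe_units_inv a)⟩

theorem mul_inv' (hg : Mem P g) : g * g⁻¹ = 1 := by
  obtain ⟨a, -, rfl⟩ := hg
  rw [← Matrix.coe_units_inv, Units.mul_inv]

theorem inv_mul' (hg : Mem P g) : g⁻¹ * g = 1 := by
  obtain ⟨a, -, rfl⟩ := hg
  rw [← Matrix.coe_units_inv, Units.inv_mul]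

theorem cj_mul (hg : Mem P g) (X Y : M4 F) :
    g * X * g⁻¹ * (g * Y * g⁻¹) = g * (X * Y) * g⁻¹ := by
  linear_combination (norm := noncomm_ring) g * X * inv_mul' hg * (Y * g⁻¹)

theorem cj_inj (hg : Mem P g) (h : g * N * g⁻¹ = g * M * g⁻¹) : N = M := by
  have e := inv_mul' hg
  linear_combination (norm := noncomm_ring) g⁻¹ * h * g - e * N * (g⁻¹ * g) - N * e +
    e * M * (g⁻¹ * g) + M * e

theorem two_le_rank (h1 : ∀ a b, N ≠ vecMulVec a b) :
    2 ≤ Module.finrank F (LinearMap.range (toLin' N)) := by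
  by_contra hc
  obtain ⟨a, ha⟩ := finrank_le_one_iff.1 (Nat.lt_succ_iff.1 (not_le.1 hc))
  choose c hc using fun j => ha ⟨toLin' N (Pi.single j 1), _, rfl⟩
  refine h1 a c (Matrix.ext fun i j => ?_)
  have := congrFun (congrArg Subtype.val (hc j)) i
  simp only [SetLike.val_smul, Pi.smul_apply, smul_eq_mul, toLin'_apply, mulVec_single_one,
    col_apply] at this
  rw [vecMulVec_apply, ← this, mul_comm]

theorem ker_im' (hT : ∀ a b, T ≠ vecMulVec a b) (hN : ∀ a b, N ≠ vecMulVec a b) (h : T * N = 0)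
    {v : Fin 4 → F} (hv : T *ᵥ v = 0) : ∃ u, N *ᵥ u = v := by
  have hle : LinearMap.range (toLin' N) ≤ LinearMap.ker (toLin' T) := by
    rintro _ ⟨u, rfl⟩
    simp [mulVec_mulVec, h]
  have h1 := two_le_rank hT
  have h2 := two_le_rank hN
  have h3 := LinearMap.finrank_range_add_finrank_ker (toLin' T)
  rw [Module.finrank_fintype_fun_eq_card] at h3
  have := Submodule.eq_of_le_of_finrank_le hle (by simp at h3; omega)
  exact (this.ge (show toLin' T v = 0 from hv) :)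

theorem mul_zero_of (hT : ∀ a b, T ≠ vecMulVec a b) (hN : ∀ a b, N ≠ vecMulVec a b)
    (h : T * N = 0) (h' : T * M = 0) (hK : K * N = 0) : K * M = 0 := mext fun v => by
  obtain ⟨u, hu⟩ := ker_im' hT hN h (v := M *ᵥ v) (by rw [mulVec_mulVec, h', zero_mulVec])
  rw [← mulVec_mulVec, ← hu, mulVec_mulVec, hK, zero_mulVec, zero_mulVec]

theorem tv (hn : NoTv P) {a b : Fin 4 → F} (hT : Qd P (vecMulVec a b)) : vecMulVec a b = 0 := by
  have h1 := hT.2
  rw [vecMulVec_mul_vecMulVec, vecMulVec_smul, smul_eq_zero] at h1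
  refine h1.elim (fun h1 => ?_) id
  obtain ⟨g, hg, e⟩ := hT.1
  rcases hn a b ⟨h1, g, hg, fun x => by
    rw [e, add_mulVec, one_mulVec, vecMulVec_mulVec]; simp⟩ with rfl | rfl <;> simp

theorem nr (hn : NoTv P) (hT : Qd P T) (h0 : T ≠ 0) (a b : Fin 4 → F) : T ≠ vecMulVec a b :=
  fun e => h0 (e.trans (tv hn (e ▸ hT)))

theorem inv1 (hN : Qd P N) : (1 + N)⁻¹ = 1 - N :=
  inv_eq_right_inv (by linear_combination (norm := noncomm_ring) -hN.2)

theorem qd_neg (hN : Qd P N) : Qd P (-N) :=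
  ⟨by simpa only [inv1 hN, sub_eq_add_neg] using mem_inv hN.1, by simp [hN.2]⟩

theorem qd_conj (hN : Qd P N) (hg : Mem P g) : Qd P (g * N * g⁻¹) :=
  ⟨by simpa only [mul_add, add_mul, Matrix.mul_one, mul_inv' hg] using
      mem_mul (mem_mul hg hN.1) (mem_inv hg), by rw [cj_mul hg, hN.2]; simp⟩

theorem qd_conj' (hN : Qd P N) (hM : Qd P M) : Qd P ((1 + M) * N * (1 - M)) :=
  inv1 hM ▸ qd_conj hN hM.1

theorem qd_add (hN : Qd P N) (hM : Qd P M) (e : N * M = 0) (e' : M * N = 0) : Qd P (N + M) :=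
  ⟨by simpa only [mul_add, add_mul, Matrix.mul_one, Matrix.one_mul, e, add_zero, add_assoc]
    using mem_mul hN.1 hM.1, by simp only [mul_add, add_mul, hN.2, hM.2, e, e', add_zero]⟩

/-- Right annihilators of `N` are killed by the left annihilators. -/
theorem trans (hn : NoTv P) (hN : Qd P N) (h0 : N ≠ 0) (e : N * M = 0) (hK : K * N = 0) :
    K * M = 0 := mul_zero_of (nr hn hN h0) (nr hn hN h0) hN.2 e hK

/-- For non-zero quadratic elements one vanishing product gives the other. -/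
theorem swap (hn : NoTv P) (hN : Qd P N) (hM : Qd P M) (e : N * M = 0) : M * N = 0 := by
  by_cases h0 : N = 0
  · simp [h0]
  by_cases h1 : M = 0
  · simp [h1]
  exact mul_zero_of (nr hn hN h0) (nr hn hM h1) e hN.2 hM.2

theorem of_tri₂ (hn : NoTv P) (hN : Qd P N) (hM : Qd P M) (e : N * M * N = 0)
    (e' : M * N * M = 0) : N * M = M * N := by
  by_contra h0
  have h0' : N * M - M * N ≠ 0 := sub_ne_zero.2 h0
  have h1 := mem_mul (mem_mul (mem_mul hN.1 hM.1) (qd_neg hN).1) (qd_neg hM).1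
  rw [show (1 + N) * (1 + M) * (1 + -N) * (1 + -M) = 1 + (N * M - M * N) by
    linear_combination (norm := noncomm_ring) -hN.2 * (1 - M) - (1 + N) * hM.2 -
      e * (1 - M) + e'] at h1
  have h2 : Qd P (N * M - M * N) := ⟨h1, by
    linear_combination (norm := noncomm_ring) e * M - N * hM.2 * N - M * hN.2 * M + e' * N⟩
  have h3 : N * M = 0 := by
    refine mul_zero_of (nr hn h2 h0') (nr hn hN fun e' => h0 (by simp [e'])) ?_ ?_ hN.2
    · linear_combination (norm := noncomm_ring) e - M * hN.2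
    · linear_combination (norm := noncomm_ring) N * hM.2 - e'
  exact h0 (h3.trans (swap hn hN hM h3).symm)

theorem of_tri (h2 : (2 : F) ≠ 0) (hn : NoTv P) (hN : Qd P N) (hM : Qd P M)
    (e : M * N * M = 0) : N * M = M * N := by
  have h1 := qd_conj' hN hM
  rw [show (1 + M) * N * (1 - M) = N + M * N - N * M by
    linear_combination (norm := noncomm_ring) -e] at h1
  have h3 : N * (N + M * N - N * M) = N * M * N := by
    linear_combination (norm := noncomm_ring) hN.2 * (1 - M)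
  have h4 : (N + M * N - N * M) * N = -(N * M * N) := by
    linear_combination (norm := noncomm_ring) (1 + M) * hN.2
  refine of_tri₂ hn hN hM (zero_of_two h2 ?_) e
  rw [← h4, ← h3]
  refine of_tri₂ hn hN h1 ?_ ?_
  · rw [h3, Matrix.mul_assoc, hN.2, Matrix.mul_zero]
  · rw [Matrix.mul_assoc, h3]
    linear_combination (norm := noncomm_ring) (1 + M) * hN.2 * (M * N) - N * e * N

section Dickson

variable {E : Type*} [Field E]

variable (P) in
/-- The matrices induced on a plane by the elements centralising `S`. -/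
def act (ρ : M4 F →+* M4 E) (S : Set (M4 F)) (x y : Fin 4 → E) : Subgroup SL(2, E) where
  carrier := {A | ∃ g, Mem P g ∧ (∀ T ∈ S, g * T = T * g) ∧ ∀ v : Fin 2 → E,
    ρ g *ᵥ (v 0 • x + v 1 • y) = (A.1 *ᵥ v) 0 • x + (A.1 *ᵥ v) 1 • y}
  one_mem' := ⟨1, mem_one, by simp, by simp⟩
  mul_mem' := by
    rintro A B ⟨g, hg, g1, g2⟩ ⟨k, hk, k1, k2⟩
    refine ⟨g * k, mem_mul hg hk, fun T hT => by rw [Matrix.mul_assoc, k1 T hT,
      ← Matrix.mul_assoc, g1 T hT, Matrix.mul_assoc], fun v => ?_⟩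
    rw [map_mul, ← mulVec_mulVec, k2, g2, mulVec_mulVec]; rfl
  inv_mem' := by
    rintro A ⟨g, hg, g1, g2⟩
    refine ⟨g⁻¹, mem_inv hg, fun T hT => ?_, fun v => ?_⟩
    · linear_combination (norm := noncomm_ring) -g⁻¹ * g1 T hT * g⁻¹ + inv_mul' hg * T * g⁻¹ -
        g⁻¹ * T * mul_inv' hg
    · have := congrArg (ρ g⁻¹ *ᵥ ·) (g2 ((A⁻¹).1 *ᵥ v))
      simp only [mulVec_mulVec, ← map_mul, inv_mul' hg, map_one, one_mulVec] at this
      rw [show A.1 * (A⁻¹).1 = 1 from congrArg Subtype.val (mul_inv_cancel A), one_mulVec] at this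
      exact this.symm

theorem weyl [Finite E] (h2 : (2 : E) ≠ 0) (ρ : M4 F →+* M4 E) (hN : Qd P N)
    (hM : Qd P M) {x : Fin 4 → E} {c : E}
    (hx : ρ N *ᵥ x = 0) (hc : ρ N *ᵥ (ρ M *ᵥ x) = c • x) (c0 : c ≠ 0) (c2 : c ^ 2 ≠ -1) {u : E}
    (hu : u = 1 ∨ u = 2 ∨ u = c) : ∃ g, Mem P g ∧
      (∀ T, N * T = T * N → M * T = T * M → g * T = T * g) ∧
      ρ g *ᵥ x = -u⁻¹ • ρ M *ᵥ x ∧ ρ g *ᵥ (ρ M *ᵥ x) = u • x := by
  set L := act P ρ {T | N * T = T * N ∧ M * T = T * M} x (ρ M *ᵥ x)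
  have l1 : slLo 1 ∈ L := ⟨1 + M, hM.1, fun T hT => by rw [add_mul, mul_add, hT.2]; simp,
    fun v => by
    have : ρ M *ᵥ (ρ M *ᵥ x) = 0 := by rw [mulVec_mulVec, ← map_mul, hM.2]; simp
    simp [mulVec_add, add_mulVec, mulVec_smul, this, vecHead, vecTail, add_smul, -mulVec_mulVec]
    abel⟩
  have uc : slUp c ∈ L := ⟨1 + N, hN.1, fun T hT => by rw [add_mul, mul_add, hT.1]; simp,
    fun v => by
    simp [mulVec_add, add_mulVec, mulVec_smul, hx, hc, vecHead, vecTail, add_smul, smul_smul,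
      -mulVec_mulVec, mul_comm]
    abel⟩
  have u1 := (Chev.Tim.dickson_inv h2 l1 c0 c2 uc).1
  obtain ⟨u0, uu⟩ : u ≠ 0 ∧ slUp u ∈ L := by
    rcases hu with rfl | rfl | rfl
    exacts [⟨one_ne_zero, u1⟩, ⟨h2, by simpa [← slUp_add, one_add_one_eq_two] using mul_mem u1 u1⟩,
      ⟨c0, uc⟩]
  have ui : slUp u⁻¹ ∈ L := by
    by_cases h1 : u ^ 2 = -1
    · rw [show u⁻¹ = -u by field_simp; linear_combination h1, slUp_neg]; exact inv_mem uu
    · exact (Chev.Tim.dickson_inv h2 l1 u0 h1 uu).2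
  have hw := mul_mem (mul_mem u1 (inv_mem l1)) u1
  obtain ⟨g, hg, g1, g2⟩ := mul_mem (mul_mem uu (mul_mem (mul_mem hw ui) (inv_mem hw))) uu
  refine ⟨g, hg, fun T a b => g1 T ⟨a, b⟩, ?_, ?_⟩
  · simpa [← slLo_neg, ← slUp_neg, u0] using g2 ![1, 0]
  · simpa [← slLo_neg, ← slUp_neg, u0] using g2 ![0, 1]

end Dickson

theorem rk1 (hn : NoTv P) (hN : Qd P N) (hM : Qd P M) {y : Fin 4 → F}
    (hy : y ≠ 0) (h1 : N *ᵥ y = 0) (h2 : M *ᵥ y = 0) : ∃ u φ, M * N = vecMulVec u φ := by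
  by_contra hc
  push Not at hc
  have N0 := nr hn hN fun e => hc 0 0 (by simp [e])
  obtain ⟨w, rfl⟩ := ker_im' N0 N0 hN.2 h1
  obtain ⟨w', rfl⟩ := ker_im' hc N0 (by rw [Matrix.mul_assoc, hN.2, Matrix.mul_zero])
    (v := w) (by rwa [← mulVec_mulVec])
  exact hy (by rw [mulVec_mulVec, hN.2, zero_mulVec])

theorem meet [Finite F] (two : (2 : F) ≠ 0) (hn : NoTv P) (hN : Qd P N) (hM : Qd P M)
    {y : Fin 4 → F} (hy : y ≠ 0) (h1 : N *ᵥ y = 0) (h2 : M *ᵥ y = 0) (h0 : N * M ≠ M * N) :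
    (M * N).trace ≠ 0 ∧ ((M * N).trace ^ 2 = -1 ∨ (3 : F) = 0 ∧ (M * N).trace ^ 2 = 1) := by
  obtain ⟨u, φ, e⟩ := rk1 hn hN hM hy h1 h2
  obtain ⟨u', φ', e'⟩ := rk1 hn hM hN hy h2 h1
  obtain ⟨c, hc⟩ : ∃ c, c = φ ⬝ᵥ u := ⟨_, rfl⟩
  have hc' : φ' ⬝ᵥ u' = c := by
    rw [hc, dotProduct_comm, ← trace_vecMulVec, ← e', trace_mul_comm, e, trace_vecMulVec,
      dotProduct_comm]
  rw [e, trace_vecMulVec, dotProduct_comm, ← hc]
  have e1 : M * N * (M * N) = c • (M * N) := by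
    rw [e, vecMulVec_mul_vecMulVec, vecMulVec_smul, hc]
  have e2 : N * M * (N * M) = c • (N * M) := by
    rw [e', vecMulVec_mul_vecMulVec, vecMulVec_smul, hc']
  obtain ⟨x, hx⟩ : ∃ x, x = N *ᵥ u := ⟨_, rfl⟩
  have e3 : N * M * N = vecMulVec x φ := by rw [Matrix.mul_assoc, e, mul_vecMulVec, hx]
  have x0 : x ≠ 0 := fun e' => h0 (of_tri two hn hM hN (by simp [e3, e'])).symm
  have c0 : c ≠ 0 := fun e' => h0 (of_tri two hn hN hM (by
    rw [← Matrix.mul_assoc, e3, vecMulVec_mul, e', zero_smul, vecMulVec_eq_zero] at e2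
    simp [e, vecMulVec_mul, e2.resolve_left x0]))
  have x1 : N *ᵥ x = 0 := by rw [hx, mulVec_mulVec, hN.2, zero_mulVec]
  have x2 : N *ᵥ (M *ᵥ x) = c • x := by
    rw [hx, mulVec_mulVec u, e, vecMulVec_mulVec, ← hc]; simp [mulVec_smul]
  refine ⟨c0, ?_⟩
  by_contra hne
  push Not at hne
  obtain ⟨d, hd, d1⟩ : ∃ d : F, (d = 1 ∨ d = 2 ∨ d = c) ∧ d ^ 2 ≠ 1 := by
    by_cases h3 : (3 : F) = 0
    · exact ⟨c, by simp, hne.2 h3⟩
    · exact ⟨2, by simp, fun e => h3 (by linear_combination e)⟩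
  have t1 : N * (c • N - N * M * N) = (c • N - N * M * N) * N := by
    simp only [mul_sub, sub_mul, mul_smul_comm, smul_mul_assoc, hN.2]
    linear_combination (norm := noncomm_ring) N * M * hN.2 - hN.2 * M * N
  have t2 : M * (c • N - N * M * N) = (c • N - N * M * N) * M := by
    simp only [mul_sub, sub_mul, mul_smul_comm, smul_mul_assoc, ← e1, ← e2]
    noncomm_ring
  have W := fun {d : F} => weyl (u := d) two (RingHom.id _) hN hM x1 x2 c0 hne.1
  obtain ⟨g, hg, g1, g2, g3⟩ := W hd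
  obtain ⟨k, hk, k1, k2, k3⟩ := W (.inl rfl)
  simp only [RingHom.id_apply, inv_one, one_smul, neg_smul] at g2 g3 k2 k3
  have hj := mem_mul hg hk
  have j1 : g * k * (c • N - N * M * N) = (c • N - N * M * N) * (g * k) := by
    rw [Matrix.mul_assoc, k1 _ t1 t2, ← Matrix.mul_assoc, g1 _ t1 t2, Matrix.mul_assoc]
  have j2 : (g * k) *ᵥ x = -d • x := by rw [← mulVec_mulVec, k2, mulVec_neg, g3, neg_smul]
  have j3 : (g * k) *ᵥ (M *ᵥ x) = -(d⁻¹ • M *ᵥ x) := by rw [← mulVec_mulVec, k3, g2]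
  generalize g * k = j at hj j1 j2 j3
  have d0 : d ≠ 0 := by rcases hd with rfl | rfl | rfl; exacts [one_ne_zero, two, c0]
  have j4 : j * N * j⁻¹ - N = vecMulVec x (c⁻¹ • (-d • φ ᵥ* j⁻¹ - φ)) := by
    rw [vecMulVec_smul, eq_inv_smul_iff₀ c0, vecMulVec_sub, vecMulVec_smul, ← smul_vecMulVec,
      ← j2, ← vecMulVec_mul, ← mul_vecMulVec, ← e3, smul_sub, ← smul_mul_assoc, ← mul_smul_comm]
    linear_combination (norm := noncomm_ring) j1 * j⁻¹ + (c • N - N * M * N) * mul_inv' hj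
  have j5 : N * (j * N * j⁻¹ - N) = 0 := by rw [j4, mul_vecMulVec, x1, zero_vecMulVec]
  have j6 := mem_mul (qd_neg hN).1 (qd_conj hN hj).1
  rw [show (1 + -N) * (1 + j * N * j⁻¹) = 1 + (j * N * j⁻¹ - N) by
    linear_combination (norm := noncomm_ring) -j5 - hN.2] at j6
  have j0 : (j * N * j⁻¹ - N) *ᵥ x = 0 := by
    have : (j * N * j⁻¹) *ᵥ (j *ᵥ x) = 0 := by
      rw [mulVec_mulVec, Matrix.mul_assoc, inv_mul' hj, Matrix.mul_one, ← mulVec_mulVec, x1,
        mulVec_zero]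
    rw [j2, mulVec_smul, smul_eq_zero_iff_right (neg_ne_zero.2 d0)] at this
    rw [sub_mulVec, this, x1, sub_zero]
  have jq : Qd P (j * N * j⁻¹ - N) :=
    ⟨j6, by nth_rw 2 [j4]; rw [mul_vecMulVec, j0, zero_vecMulVec]⟩
  rw [j4] at jq
  have j7 : j * N = N * j := by
    linear_combination (norm := noncomm_ring) (j4.trans (tv hn jq)) * j - j * N * inv_mul' hj
  have j8 := congrArg (· *ᵥ (M *ᵥ x)) j7
  simp only [← mulVec_mulVec, x2, j3, mulVec_smul, j2, smul_smul, ← neg_smul] at j8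
  have j9 := smul_left_injective F x0 j8
  exact d1 (by field_simp at j9; linear_combination -j9)

theorem bg_conj (hN : Bg P N) (hg : Mem P g) : Bg P (g * N * g⁻¹) := by
  obtain ⟨h0, h1, K, ⟨hK, a, b⟩, h2, h3, h4⟩ := hN
  exact ⟨qd_conj h0 hg, fun e' => h1 (cj_inj hg (by simpa using e')), _,
    ⟨qd_conj hK hg, by rw [cj_mul hg, a]; simp, by rw [cj_mul hg, b]; simp⟩,
    fun e' => h2 (cj_inj hg (by simpa using e')), fun e' => h3 (cj_inj hg e'),
    fun e' => h4 (cj_inj hg (by simpa using e'))⟩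

theorem bg_of_qa (hN : Bg P N) (hM : QA P N M) (h0 : M ≠ 0) : Bg P M := by
  refine ⟨hM.1, h0, ?_⟩
  by_cases e1 : N = M
  · exact e1 ▸ hN.2.2
  by_cases e2 : N = -M
  · subst e2
    obtain ⟨K, ⟨hK, a, b⟩, h2, h3, h4⟩ := hN.2.2
    exact ⟨K, ⟨hK, by simpa using a, by simpa using b⟩, h2, by simpa using h4, h3⟩
  exact ⟨N, ⟨hN.1, hM.2.2, hM.2.1⟩, hN.2.1, e1, e2⟩

theorem common (hN : N * N = 0) (hM : M * M = 0) (hd : (N + M).det = 0) :
    ∃ y ≠ 0, N *ᵥ y = 0 ∧ M *ᵥ y = 0 := by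
  obtain ⟨v, hv, e⟩ := exists_mulVec_eq_zero_iff.2 hd
  rw [add_mulVec, add_eq_zero_iff_eq_neg] at e
  by_cases h1 : N *ᵥ v = 0
  · exact ⟨v, hv, h1, neg_eq_zero.1 (e ▸ h1)⟩
  · exact ⟨_, h1, by rw [mulVec_mulVec, hN, zero_mulVec],
      by rw [e, mulVec_neg, mulVec_mulVec, hM, zero_mulVec, neg_zero]⟩

/-- A quadratic element whose line meets a big line commutes with it. -/
theorem comm_of_det [Finite F] (two : (2 : F) ≠ 0) (hn : NoTv P) (hN : Bg P N) (hM : Qd P M)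
    (hd : (N + M).det = 0) : N * M = M * N := by
  by_contra h0
  obtain ⟨y, hy, h1, h2⟩ := common hN.1.2 hM.2 hd
  obtain ⟨hq, N0, K, ⟨hK, k0, k1⟩, k2, k3, k4⟩ := hN
  obtain ⟨w, rfl⟩ := ker_im' (nr hn hq N0) (nr hn hq N0) hq.2 h1
  have key := fun K (hK : Qd P K) (e : K * N = 0) (K0 : K ≠ 0) => meet two hn hK hM hy
    (by rw [mulVec_mulVec, e, zero_mulVec]) h2 fun e' => h0 (of_tri two hn hM hq (by
      have s := swap hn hK hq e
      have a : N * (M * K) = 0 := trans hn hK K0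
        (by rw [← Matrix.mul_assoc, e', Matrix.mul_assoc, hK.2, Matrix.mul_zero]) s
      exact trans hn hK K0 e (by rwa [Matrix.mul_assoc]))).symm
  have a1 := key N hq hq.2 N0
  have a2 := key K hK k1 k2
  have a3 := key _ (qd_add hK hq k1 k0) (by simp [add_mul, k1, hq.2])
    fun e => k4 (eq_neg_of_add_eq_zero_left e)
  have a4 := key _ (qd_add hK (qd_neg hq) (by simp [k1]) (by simp [k0]))
    (by simp [add_mul, k1, hq.2]) fun e => k3 (by simpa using eq_neg_of_add_eq_zero_left e)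
  have a5 := key _ (qd_add hq hq hq.2 hq.2) (by simp [add_mul, hq.2])
    fun e => N0 (zero_of_two two (eq_neg_of_add_eq_zero_left e))
  simp only [mul_add, mul_neg, trace_add, trace_neg] at a3 a4 a5
  grind

end Q

variable {F : Type*} [Field F] [Finite F] {G : Type*} [Group G] {P : Subgroup (G4 F)}
  {π : P →* G}

theorem q1 (hP : QS P) (h2 : (2 : F) ≠ 0) (hT : NoTv P) {N M : M4 F} (hN : Bg P N) (hM : Bg P M)
    (hd : (N + M).det = 0) : N * M = M * N := Q.comm_of_det h2 hT hN hM.1 hd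

end Cfsg.Agent.Cl.D4
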