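/-
Quadratic unipotent elements of a subgroup of `GL₄(q)` without transvections, II.
-/
import Mathlib
import Cfsg.Agent.Cl.D4Q1

set_option autoImplicit false
set_option linter.unusedSectionVars false
set_option linter.unusedVariables false

namespace Cfsg.Agent.Cl.D4

open Matrix Cfsg.Geo Cfsg.Agent.Cl.Max Cfsg.Agent.Cl.Mx Subgroup
open Cfsg.Agent.Cl.D5 (MT Root TrGen Cov NoTv)
open scoped MatrixGroups commutatorElement

namespace Q

universe u

theorem exists_root {F : Type u} [Field F] [Finite F] (t d : F) :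
    ∃ (E : Type u) (_ : Field E) (_ : Finite E) (f : F →+* E) (c : E),
      c ^ 2 - f t * c + f d = 0 := by
  let p : Polynomial F := Polynomial.X ^ 2 - Polynomial.C t * Polynomial.X + Polynomial.C d
  have hp : p.degree = 2 := by simp only [p]; compute_degree!
  obtain ⟨c, hc⟩ := (Polynomial.SplittingField.splits p).exists_eval_eq_zero
    (by rw [Polynomial.degree_map, hp]; simp)
  exact ⟨p.SplittingField, inferInstance, Module.finite_of_finite F, algebraMap F _, c,
    by simpa [p] using hc⟩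

variable {F : Type*} [Field F] {P : Subgroup (G4 F)} {N M K T g : M4 F}

theorem unit_G (hN : N * N = 0) (hM : M * M = 0) (hd : (N + M).det ≠ 0) :
    IsUnit (N * M + M * N) := by
  have hu : IsUnit (N + M) := (isUnit_iff_isUnit_det _).2 (isUnit_iff_ne_zero.2 hd)
  rw [show N * M + M * N = (N + M) * (N + M) by linear_combination (norm := noncomm_ring) -hN - hM]
  exact hu.mul hu

/-- A conjugate of `N` by an element of the algebra of `N` and `M` which commutes with `M`
annihilates `M`. -/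
theorem key (two : (2 : F) ≠ 0) (hN : N * N = 0) (hM : M * M = 0) (hd : (N + M).det ≠ 0)
    (hg : Mem P g) (hc : ∀ T, N * T = T * N → M * T = T * M → g * T = T * g)
    (e : g * N * g⁻¹ * M = M * (g * N * g⁻¹)) : g * N * g⁻¹ * M = 0 := by
  have hu := unit_G hN hM hd
  have i1 := mul_inv' hg
  have i2 := inv_mul' hg
  have hK : ∀ T, N * T = T * N → M * T = T * M → g * N * g⁻¹ * T = T * (g * N * g⁻¹) :=
    fun T a b => by
      have c := hc T a b
      linear_combination (norm := noncomm_ring) -g * N * g⁻¹ * c * g⁻¹ + g * a * g⁻¹ +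
        c * N * g⁻¹ + g * N * i2 * T * g⁻¹ - g * N * g⁻¹ * T * i1
  have hZ : ∀ T, N * T = T * N → M * T = T * M → T * (g * N * g⁻¹) = 0 → T * N = 0 :=
    fun T a b z => by
      have c := hc T a b
      linear_combination (norm := noncomm_ring) g⁻¹ * z * g + g⁻¹ * c * N * (g⁻¹ * g) -
        i2 * T * N * (g⁻¹ * g) - T * N * i2
  have kk : g * N * g⁻¹ * (g * N * g⁻¹) = 0 := by rw [cj_mul hg, hN]; simp
  generalize g * N * g⁻¹ = K at e hK hZ kk
  obtain ⟨G, hG⟩ : ∃ G, G = N * M + M * N := ⟨_, rfl⟩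
  rw [← hG] at hu
  have gn : N * G = G * N := by
    rw [hG]; linear_combination (norm := noncomm_ring) hN * M - M * hN
  have gm : M * G = G * M := by
    rw [hG]; linear_combination (norm := noncomm_ring) hM * N - N * hM
  have gk := hK G gn gm
  have m1 : M * N * M = G * M := by rw [hG]; linear_combination (norm := noncomm_ring) -N * hM
  obtain ⟨Z, hZ'⟩ : ∃ Z, Z = N * (K * M) + K * M * N := ⟨_, rfl⟩
  have zn : N * Z = Z * N := by
    rw [hZ']; linear_combination (norm := noncomm_ring) hN * K * M - K * M * hN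
  have z1 : Z * M = G * (K * M) := by
    rw [hZ']; linear_combination (norm := noncomm_ring) N * K * hM + K * m1 + gk * M
  have z2 : M * Z = G * (K * M) := by
    rw [hZ']
    linear_combination (norm := noncomm_ring) M * N * e + m1 * K - G * e +
      M * e * N + hM * K * N
  have zm : M * Z = Z * M := z2.trans z1.symm
  have zk := hK Z zn zm
  have zz : Z * Z = 0 := by
    have t1 : K * M * (K * M) = 0 := by
      linear_combination (norm := noncomm_ring) -K * e * M + kk * M * M
    have t2 : K * M * N * (K * M) = 0 := by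
      linear_combination (norm := noncomm_ring) K * M * N * e + K * m1 * K + gk * M * K -
        G * K * e + G * kk * M
    rw [hZ']
    linear_combination (norm := noncomm_ring) N * t2 + t2 * N + N * t1 * N + K * M * hN * (K * M)
  obtain ⟨Y, hY⟩ : ∃ Y, Y = M * (N * K - K * N) := ⟨_, rfl⟩
  have gy : G * K = Z + Y := by
    rw [hG, hZ', hY]; linear_combination (norm := noncomm_ring) -N * e - e * N
  have ym : Y * M = 0 := by
    rw [hY]
    linear_combination (norm := noncomm_ring) M * N * e + m1 * K + e * N * M - K * m1 - gk * M -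
      G * e
  have yy : Y * Y = 0 := by nth_rw 2 [hY]; rw [← Matrix.mul_assoc, ym, Matrix.zero_mul]
  have zy : Z * Y = Y * Z := by
    rw [hY]
    linear_combination (norm := noncomm_ring) -zm * (N * K - K * N) - M * zn * K - M * N * zk +
      M * zk * N + M * K * zn
  have s0 : (Z + Y) * (Z + Y) = 0 := by
    rw [← gy]; linear_combination (norm := noncomm_ring) G * gk * K + G * G * kk
  have s1 : Z * Y = 0 := zero_of_two two (by
    linear_combination (norm := noncomm_ring) s0 - zz - yy + zy)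
  have zg : G * Z = Z * G := by
    rw [hG]; linear_combination (norm := noncomm_ring) N * zm + zn * M + M * zn + zm * N
  have s2 : Z * K = 0 := hu.mul_right_eq_zero.1 (by
    linear_combination (norm := noncomm_ring) zg * K + Z * gy + zz + s1)
  have s3 := hZ Z zn zm s2
  have s4 : Z = 0 := hu.mul_right_eq_zero.1 (by
    rw [zg, hG]; linear_combination (norm := noncomm_ring) s3 * M - zm * N + M * s3)
  exact hu.mul_right_eq_zero.1 (by rw [← z1, s4, Matrix.zero_mul])

theorem det_of_ker {E : Type*} [Field E] (f : F →+* E) {z : Fin 4 → E} (hz : z ≠ 0)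
    (h1 : f.mapMatrix N *ᵥ z = 0) (h2 : f.mapMatrix M *ᵥ z = 0) : (N + M).det = 0 :=
  f.injective (by
    rw [RingHom.map_det, map_zero]
    exact exists_mulVec_eq_zero_iff.1 ⟨z, hz, by rw [map_add, add_mulVec, h1, h2, add_zero]⟩)

theorem det_qa (hn : NoTv P) (hN : Qd P N) (hM : Qd P M) (hK : QA P M K) (K0 : K ≠ 0)
    (hd : (N + M).det ≠ 0) : (N + K).det ≠ 0 := fun e => by
  obtain ⟨y, hy, h1, h2⟩ := common hN.2 hK.1.2 e
  obtain ⟨w, rfl⟩ := ker_im' (nr hn hK.1 K0) (nr hn hK.1 K0) hK.1.2 h2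
  exact hd (exists_mulVec_eq_zero_iff.1 ⟨_, hy, by
    rw [add_mulVec, h1, mulVec_mulVec, hK.2.1, zero_mulVec, add_zero]⟩)

theorem good [Finite F] {E : Type*} [Field E] [Finite E] (f : F →+* E) (two : (2 : F) ≠ 0)
    (hn : NoTv P) (hN : Bg P N) (hM : Qd P M) (hd : (N + M).det ≠ 0) {x : Fin 4 → E} {c : E}
    (x0 : x ≠ 0) (x1 : f.mapMatrix N *ᵥ x = 0)
    (x2 : f.mapMatrix N *ᵥ (f.mapMatrix M *ᵥ x) = c • x) (c2 : c ^ 2 ≠ -1) :
    ∃ K, QA P M K ∧ N * K + K * N = 1 := by
  have h2 : (2 : E) ≠ 0 := by rw [← map_ofNat f 2]; exact (_root_.map_ne_zero _).2 two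
  set ρ : M4 F →+* M4 E := f.mapMatrix with hρ
  have m0 : ρ M *ᵥ x ≠ 0 := fun e => hd (det_of_ker f x0 x1 e)
  have m1 : ρ M *ᵥ (ρ M *ᵥ x) = 0 := by rw [mulVec_mulVec, ← map_mul, hM.2]; simp
  have c0 : c ≠ 0 := fun e => hd (det_of_ker f m0 (by rw [← hρ, x2, e, zero_smul]) m1)
  obtain ⟨w, hw, w0, w1, w2⟩ := weyl h2 ρ hN.1 hM x1 x2 c0 c2 (.inr (.inr rfl))
  have wi : ∀ v, ρ (w * N * w⁻¹) *ᵥ (ρ w *ᵥ v) = ρ w *ᵥ (ρ N *ᵥ v) := fun v => by
    rw [mulVec_mulVec, mulVec_mulVec, ← map_mul, ← map_mul, Matrix.mul_assoc, inv_mul' hw,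
      Matrix.mul_one]
  have w3 := wi x
  have w4 := wi (ρ M *ᵥ x)
  rw [w1, x1, mulVec_zero, mulVec_smul, smul_eq_zero_iff_right (by simpa using c0)] at w3
  rw [w2, x2, mulVec_smul, mulVec_smul, w1, smul_right_inj c0] at w4
  have hK := bg_conj hN hw
  have k1 := key two hN.1.2 hM.2 hd hw w0 (comm_of_det two hn hK hM (det_of_ker f m0 w3 m1))
  generalize w * N * w⁻¹ = K at hK w3 w4 k1
  have k0 := swap hn hK.1 hM k1
  have k2 : ρ N *ᵥ (ρ K *ᵥ x) = -x := by
    rw [w4, mulVec_smul, x2, smul_smul, neg_mul, inv_mul_cancel₀ c0, neg_smul, one_smul]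
  have k3 : ρ K *ᵥ (ρ K *ᵥ x) = 0 := by rw [mulVec_mulVec, ← map_mul, hK.1.2]; simp
  have hd' := det_qa hn hN.1 hM ⟨hK.1, k0, k1⟩ hK.2.1 hd
  have n2 := hN.1.2
  have n3 := hK.1.2
  have hv : Mem P ((1 + -N) * (1 + -K)) := mem_mul (qd_neg hN.1).1 (qd_neg hK.1).1
  have vi : ((1 + -N) * (1 + -K))⁻¹ = (1 + K) * (1 + N) := inv_eq_right_inv (by
    linear_combination (norm := noncomm_ring) -(1 - N) * n3 * (1 + N) - n2)
  have b := bg_conj hN hv
  have k4 := key two n2 n3 hd' hv (fun T a b => by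
      linear_combination (norm := noncomm_ring) -a * (1 - K) - (1 - N) * b)
    (comm_of_det two hn b hK.1 (det_of_ker f (z := ρ K *ᵥ x)
      (fun e => x0 (by simpa [e] using k2.symm)) (by
        rw [vi, ← hρ]
        simp [← mulVec_mulVec, add_mulVec, k3, x1, mulVec_add, k2, mulVec_neg]) k3))
  have k5 := swap hn b.1 hK.1 k4
  rw [vi] at k5
  have k6 : K * (1 - N) * (1 - K) * N = 0 := by
    linear_combination (norm := noncomm_ring) k5 * (1 - N) * (1 - K) +
      K * (1 - N) * (1 - K) * N * (1 + K) * n2 * (1 - K) + K * (1 - N) * (1 - K) * N * n3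
  have k7 : K * N + K * N * K * N = 0 := by
    linear_combination (norm := noncomm_ring) k6 + n3 * N + K * n2
  have hu := unit_G n2 n3 hd'
  have k8 : N * K + N * K * N * K = 0 := hu.mul_right_eq_zero.1 (by
    linear_combination (norm := noncomm_ring) N * k7 * K + K * n2 * (K + K * N * K))
  refine ⟨-K, ⟨qd_neg hK.1, by simp [k0], by simp [k1]⟩, ?_⟩
  refine sub_eq_zero.1 (hu.mul_right_eq_zero.1 ?_)
  linear_combination (norm := noncomm_ring) -k7 - k8 - N * n3 * N - K * n2 * K

theorem factor (hN : N * N = 0) (h1 : ∀ a b, N ≠ vecMulVec a b) :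
    ∃ (A : Matrix (Fin 4) (Fin 2) F) (B : Matrix (Fin 2) (Fin 4) F),
      (∀ v, A *ᵥ v = 0 → v = 0) ∧ N * A = 0 ∧ N = A * B := by
  have hle : LinearMap.range (toLin' N) ≤ LinearMap.ker (toLin' N) := by
    rintro _ ⟨u, rfl⟩
    simp [mulVec_mulVec, hN]
  have h2 := two_le_rank h1
  have h3 := LinearMap.finrank_range_add_finrank_ker (toLin' N)
  rw [Module.finrank_fintype_fun_eq_card, Fintype.card_fin] at h3
  have h4 := Submodule.finrank_mono hle
  let b := Module.finBasisOfFinrankEq F (LinearMap.range (toLin' N)) (n := 2) (by omega)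
  have hA : ∀ v : Fin 2 → F, (of fun i j => (b j).1 i) *ᵥ v = (∑ j, v j • b j : _).1 :=
    fun v => funext fun i => by simp [mulVec, dotProduct, mul_comm]
  refine ⟨of fun i j => (b j).1 i, of fun i j => b.repr ⟨toLin' N (Pi.single j 1), _, rfl⟩ i,
    fun v hv => ?_, Matrix.ext fun i j => ?_, Matrix.ext fun i j => ?_⟩
  · rw [hA] at hv
    exact funext (Fintype.linearIndependent_iff.1 b.linearIndependent v (Subtype.ext hv))
  · exact congrFun (hle (b j).2) i
  · have := congrFun (congrArg Subtype.val (b.sum_repr ⟨toLin' N (Pi.single j 1), _, rfl⟩)) i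
    simp only [toLin'_apply, mulVec_single_one, col_apply] at this
    refine this.symm.trans ?_
    rw [mul_apply, Submodule.coe_sum, Finset.sum_apply]
    exact Finset.sum_congr rfl fun x _ => by simp [mul_comm]

theorem inj_map {E : Type*} [Field E] (f : F →+* E) {A : Matrix (Fin 4) (Fin 2) F}
    (h : ∀ v, A *ᵥ v = 0 → v = 0) {v : Fin 2 → E} (hv : A.map f *ᵥ v = 0) : v = 0 := by
  obtain ⟨C, hC⟩ := (toLin' A).exists_leftInverse_of_injective (LinearMap.ker_eq_bot'.2 h)
  have e : LinearMap.toMatrix' C * A = 1 := by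
    rw [← LinearMap.toMatrix'_toLin' A, ← LinearMap.toMatrix'_comp, hC, LinearMap.toMatrix'_id]
  have := congrArg ((LinearMap.toMatrix' C).map f *ᵥ ·) hv
  simpa only [mulVec_mulVec, ← Matrix.map_mul, e, Matrix.map_one f f.map_zero f.map_one,
    one_mulVec, mulVec_zero] using this

/-- Two big lines in general position generate a rank one group. -/
theorem opp [Finite F] (two : (2 : F) ≠ 0) (hn : NoTv P) (hN : Bg P N) (hM : Bg P M)
    (hd : (N + M).det ≠ 0) : ∃ K, QA P M K ∧ N * K + K * N = 1 := by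
  by_contra hne
  obtain ⟨A, B, hA, a1, a2⟩ := factor hN.1.2 (nr hn hN.1 hN.2.1)
  have key := fun K (hK : QA P M K) (K0 : K ≠ 0) => show
      ((B * K * A).trace = 0 ∧ (B * K * A).det = 1 ∨
        (B * K * A).trace ^ 2 = -4 ∧ (B * K * A).det = -1) by
    by_contra hg
    obtain ⟨E, _, _, f, c, hc, c2⟩ : ∃ (E : Type _) (_ : Field E) (_ : Finite E) (f : F →+* E)
        (c : E), c ^ 2 - f (B * K * A).trace * c + f (B * K * A).det = 0 ∧ c ^ 2 ≠ -1 := by
      obtain ⟨E, _, _, f, c, hc⟩ := exists_root (B * K * A).trace (B * K * A).det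
      refine ⟨E, inferInstance, inferInstance, f, ?_⟩
      by_contra hne
      push Not at hne
      have h1 := hne c hc
      have h2 := hne (f (B * K * A).trace - c) (by linear_combination hc)
      refine hg ?_
      simp only [← f.injective.eq_iff, map_pow, map_neg, map_one, map_zero, map_ofNat]
      grind
    obtain ⟨v, v0, hv⟩ := exists_mulVec_eq_zero_iff.2
      (show ((B * K * A).map f - c • 1).det = 0 by
        rw [trace_fin_two, det_fin_two] at hc
        simp only [map_add, map_sub, map_mul] at hc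
        simp only [det_fin_two, Matrix.sub_apply, map_apply, Matrix.smul_apply, one_apply_eq,
          ne_eq, zero_ne_one, one_ne_zero, not_false_eq_true, one_apply_ne, smul_eq_mul]
        linear_combination hc)
    rw [sub_mulVec, smul_mulVec, one_mulVec, sub_eq_zero] at hv
    obtain ⟨L, ⟨hL, l1, l2⟩, l3⟩ := good f two hn hN hK.1 (det_qa hn hN.1 hM.1 hK K0 hd)
      (x := A.map f *ᵥ v) (c := c) (fun e => v0 (inj_map f hA e))
      (by rw [RingHom.mapMatrix_apply, mulVec_mulVec, ← Matrix.map_mul, a1]; simp)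
      (by rw [← mulVec_smul, ← hv, RingHom.mapMatrix_apply, RingHom.mapMatrix_apply,
        mulVec_mulVec, mulVec_mulVec, mulVec_mulVec, ← Matrix.map_mul, ← Matrix.map_mul,
        ← Matrix.map_mul, a2]; simp only [Matrix.mul_assoc]) c2
    have l4 := trans hn hK.1 K0 l1 hK.2.1
    exact hne ⟨L, ⟨hL, l4, swap hn hM.1 hL l4⟩, l3⟩
  obtain ⟨hq, M0, K, ⟨hK, k0, k1⟩, k2, k3, k4⟩ := hM
  have b1 := key M ⟨hq, hq.2, hq.2⟩ M0
  have b2 := key K ⟨hK, k0, k1⟩ k2
  have b3 := key _ ⟨qd_add hK hq k1 k0, by simp [mul_add, k0, hq.2], by simp [add_mul, k1, hq.2]⟩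
    fun e => k4 (eq_neg_of_add_eq_zero_left e)
  have b4 := key _ ⟨qd_add hK (qd_neg hq) (by simp [k1]) (by simp [k0]),
    by simp [mul_add, k0, hq.2], by simp [add_mul, k1, hq.2]⟩
    fun e => k3 (by simpa using eq_neg_of_add_eq_zero_left e)
  have b5 := key _ ⟨qd_add hq hq hq.2 hq.2, by simp [mul_add, hq.2], by simp [add_mul, hq.2]⟩
    fun e => M0 (zero_of_two two (eq_neg_of_add_eq_zero_left e))
  simp only [Matrix.mul_add, Matrix.add_mul, Matrix.mul_neg, Matrix.neg_mul] at b3 b4 b5
  generalize B * M * A = m at *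
  generalize B * K * A = k at *
  have e1 : (k + m).det + (k + -m).det = m.det + m.det + k.det + k.det := by
    simp only [det_fin_two, Matrix.add_apply, Matrix.neg_apply]; ring
  have e2 : (m + m).det = m.det + m.det + m.det + m.det := by
    simp only [det_fin_two, Matrix.add_apply]; ring
  rw [trace_add] at b3 b4 b5
  rw [trace_neg] at b4
  generalize (k + m).det = d3 at *
  generalize (k + -m).det = d4 at *
  generalize (m + m).det = d5 at *
  generalize m.det = d1 at *
  generalize k.det = d2 at *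
  generalize m.trace = s at *
  generalize k.trace = t at *
  grind

end Q

variable {F : Type*} [Field F] [Finite F] {G : Type*} [Group G] {P : Subgroup (G4 F)}
  {π : P →* G}

theorem q2 (hP : QS P) (h2 : (2 : F) ≠ 0) (hT : NoTv P) {N M : M4 F} (hN : Bg P N) (hM : Bg P M)
    (hd : (N + M).det ≠ 0) : ∃ M', QA P M M' ∧ N * M' + M' * N = 1 := Q.opp h2 hT hN hM hd

end Cfsg.Agent.Cl.D4
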