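/-
Quadratic unipotent elements of a subgroup of `GL₄(q)` without transvections, III.
-/
import Mathlib
import Cfsg.Agent.Cl.D4Q2
import Cfsg.Agent.Cl.ClassStar

set_option autoImplicit false
set_option linter.unusedSectionVars false
set_option linter.unusedSimpArgs false
set_option linter.unusedVariables false

namespace Cfsg.Agent.Cl.D4

open Matrix Cfsg.Geo Cfsg.Agent.Cl.Max Cfsg.Agent.Cl.Mx Subgroup
open Cfsg.Agent.Cl.D5 (MT Root TrGen Cov NoTv)
open scoped MatrixGroups commutatorElement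

namespace Q

variable {F : Type*} [Field F] {P : Subgroup (G4 F)} {N M K n m a b c : M4 F}

theorem qd_zero : Qd P 0 := ⟨by simpa using mem_one, by simp⟩

theorem sm_inj {a b : F} (h : a • (1 : M4 F) = b • 1) : a = b := by
  simpa using congrFun (congrFun h 0) 0

theorem four_ne (h2 : (2 : F) ≠ 0) : (4 : F) ≠ 0 := by
  rw [show (4 : F) = 2 * 2 by norm_num]; exact mul_ne_zero h2 h2

theorem det_of_opp (hN : N * N = 0) (hM : M * M = 0) (e : N * M + M * N = 1) :
    (N + M).det ≠ 0 := fun h => by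
  have : (N + M) * (N + M) = 1 := by linear_combination (norm := noncomm_ring) hN + hM + e
  simpa [h] using congrArg det this

theorem sq_two {X : Matrix (Fin 2) (Fin 2) F} (h : X.trace = 0) : X * X = -X.det • 1 := by
  rw [trace_fin_two] at h
  ext i j
  fin_cases i <;> fin_cases j <;> simp [mul_apply, det_fin_two] <;> grind

theorem par_two (h2 : (2 : F) ≠ 0) {X Y : Matrix (Fin 2) (Fin 2) F} (hX : X.trace = 0)
    (hY : Y.trace = 0) (X0 : X ≠ 0) (e : X * Y = Y * X) : ∃ u : F, Y = u • X := by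
  rw [trace_fin_two] at hX hY
  have e0 := congrFun (congrFun e 0) 0
  have e1 := congrFun (congrFun e 0) 1
  have e2 := congrFun (congrFun e 1) 0
  simp only [mul_apply, Fin.sum_univ_two] at e0 e1 e2
  by_cases h0 : X 0 0 = 0
  · by_cases h1 : X 0 1 = 0
    · have h3 : X 1 0 ≠ 0 := fun h3 => X0 (by
        ext i j; fin_cases i <;> fin_cases j <;> simp <;> grind)
      exact ⟨Y 1 0 / X 1 0, by ext i j; fin_cases i <;> fin_cases j <;> simp <;> grind⟩
    · exact ⟨Y 0 1 / X 0 1, by ext i j; fin_cases i <;> fin_cases j <;> simp <;> grind⟩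
  · exact ⟨Y 0 0 / X 0 0, by ext i j; fin_cases i <;> fin_cases j <;> simp <;> grind⟩

variable (n m) in
/-- Matrices of trace zero commuting with `n` and `m`. -/
structure W (a : M4 F) : Prop where
  cn : n * a = a * n
  cm : m * a = a * m
  tr : a.trace = 0

theorem W.smul (h : W n m a) (c : F) : W n m (c • a) :=
  ⟨by simp [h.cn], by simp [h.cm], by simp [h.tr]⟩

theorem W.add (h : W n m a) (h' : W n m b) : W n m (a + b) :=
  ⟨by simp [mul_add, add_mul, h.cn, h'.cn], by simp [mul_add, add_mul, h.cm, h'.cm],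
    by simp [h.tr, h'.tr]⟩

theorem W.of (h2 : (2 : F) ≠ 0) (h : n * a = a * n) (h' : m * a = a * m) :
    W n m (a - (a.trace / 4) • 1) :=
  ⟨by simp [mul_sub, sub_mul, h], by simp [mul_sub, sub_mul, h'], by
    have := four_ne h2
    simp; field_simp; ring⟩

theorem W.eq_zero_of_scalar (h : W n m a) (h2 : (2 : F) ≠ 0) {c : F} (e : a = c • 1) : a = 0 := by
  have := h.tr
  rw [e] at this ⊢
  simp only [trace_smul, trace_one, Fintype.card_fin, Nat.cast_ofNat, smul_eq_mul, mul_eq_zero,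
    four_ne h2, or_false] at this
  rw [this, zero_smul]

variable (P n m) in
/-- A pair of opposite big elements. -/
structure St : Prop where
  two : (2 : F) ≠ 0
  hn : NoTv P
  bn : Bg P n
  bm : Bg P m
  e : n * m + m * n = 1

variable (P n m) in
/-- The coordinatising Jordan ring. -/
structure Jd (a : M4 F) : Prop where
  cn : n * a = a * n
  cm : m * a = a * m
  qd : Qd P (a * n)

theorem Jd.cn' (ha : Jd P n m a) (x : M4 F) : n * (a * x) = a * (n * x) := by
  rw [← Matrix.mul_assoc, ha.cn, Matrix.mul_assoc]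

theorem Jd.cm' (ha : Jd P n m a) (x : M4 F) : m * (a * x) = a * (m * x) := by
  rw [← Matrix.mul_assoc, ha.cm, Matrix.mul_assoc]

namespace St

theorem symm (s : St P n m) : St P m n := ⟨s.two, s.hn, s.bm, s.bn, add_comm (n * m) _ ▸ s.e⟩
theorem mn (s : St P n m) : m * n = 1 - n * m := eq_sub_of_add_eq' s.e
theorem mn' (s : St P n m) (x : M4 F) : m * (n * x) = x - n * (m * x) := by
  rw [← Matrix.mul_assoc, s.mn]; noncomm_ring
theorem nn' (s : St P n m) (x : M4 F) : n * (n * x) = 0 := by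
  rw [← Matrix.mul_assoc, s.bn.1.2, Matrix.zero_mul]

theorem cancel (s : St P n m) (h1 : m * a = a * m) (h2 : a * n = 0) : a = 0 := by
  linear_combination (norm := noncomm_ring) -a * s.e + h2 * m + m * h2 - h1 * n

theorem of_line (s : St P n m) (hN : Qd P N) (e : N * n = 0) : ∃ a, Jd P n m a ∧ N = a * n := by
  have e' := swap s.hn hN s.bn.1 e
  have e1 : (N * m + m * N) * n = N := by
    linear_combination (norm := noncomm_ring) N * s.e + m * e - e * m
  refine ⟨N * m + m * N, ⟨?_, ?_, e1.symm ▸ hN⟩, e1.symm⟩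
  · rw [e1]; linear_combination (norm := noncomm_ring) s.e * N + e' * m - m * e'
  · linear_combination (norm := noncomm_ring) s.bm.1.2 * N - N * s.bm.1.2

theorem weyl (s : St P n m) (ha : Jd P n m a) (hb : Qd P (b * m)) (b1 : n * b = b * n)
    (b2 : m * b = b * m) (e : a * b = 1) :
    Mem P (a * n - b * m) ∧ (a * n - b * m)⁻¹ = b * m - a * n := by
  have e' := mul_eq_one_comm.1 e
  have e1 : a * n * (b * m) = n * m := by
    linear_combination (norm := noncomm_ring) a * b1 * m + e * (n * m)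
  have e2 : b * m * (a * n) = m * n := by
    linear_combination (norm := noncomm_ring) b * ha.cm * n + e' * (m * n)
  have e3 : n * m * (a * n) = a * n := by
    simp [Matrix.mul_assoc, ha.cm', ha.cn', s.mn, mul_sub, s.nn', ha.cn]
  refine ⟨?_, inv_eq_right_inv (by
    linear_combination (norm := noncomm_ring) e1 + e2 + s.e - ha.qd.2 - hb.2)⟩
  convert mem_mul (mem_mul ha.qd.1 (qd_neg hb).1) ha.qd.1 using 1
  linear_combination (norm := noncomm_ring) e1 * (1 + a * n) + e2 + e3 + s.e - ha.qd.2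

theorem det (s : St P n m) : (n + m).det ≠ 0 := det_of_opp s.bn.1.2 s.bm.1.2 s.e

/-- A big line opposite to `m` which meets the line of `n` is the line of `n`. -/
theorem same [Finite F] (s : St P n m) (hK : Bg P K) (h1 : (m + K).det ≠ 0)
    (h2 : (n + K).det = 0) : K * n = 0 := by
  obtain ⟨L, ⟨hL, l1, l2⟩, l3⟩ := opp s.two s.hn s.bm hK h1
  have l4 := comm_of_det s.two s.hn s.bn hL (by_contra fun e =>
    det_qa s.hn s.bn.1 hL ⟨hK.1, l2, l1⟩ hK.2.1 e h2)
  have l5 : L - n = 0 := zero_of_two s.two (by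
    linear_combination (norm := noncomm_ring) -(L - n) * s.e - s.e * (L - n) -
      l4 * m + m * l4 + n * l3 + l3 * n - n * s.e - s.e * n)
  rw [← sub_eq_zero.1 l5, l1]

theorem one (s : St P n m) : Jd P n m 1 := ⟨by simp, by simp, by simpa using s.bn.1⟩

theorem sw (s : St P n m) (ha : Jd P n m a) : Jd P m n a := by
  obtain ⟨h1, h2⟩ := s.weyl s.one (b := 1) (by simpa using s.bm.1) (by simp) (by simp) (by simp)
  refine ⟨ha.cm, ha.cn, ?_⟩
  convert qd_neg (qd_conj ha.qd h1) using 1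
  rw [h2]
  simp [Matrix.mul_assoc, ha.cm', ha.cn', s.mn, s.mn', mul_sub, sub_mul, s.nn', s.symm.nn',
    s.bn.1.2, s.bm.1.2]

theorem inv [Finite F] (s : St P n m) (ha : Jd P n m a) (a0 : a ≠ 0) :
    ∃ b, Jd P n m b ∧ a * b = 1 := by
  have a1 : a * n ≠ 0 := fun e => a0 (s.cancel ha.cm e)
  have a2 : QA P n (a * n) := ⟨ha.qd, by rw [ha.cn', s.bn.1.2, Matrix.mul_zero],
    by rw [Matrix.mul_assoc, s.bn.1.2, Matrix.mul_zero]⟩
  obtain ⟨K, ⟨hK, -, k1⟩, k2⟩ := opp s.two s.hn (bg_of_qa s.bn a2 a1) s.bm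
    (add_comm m _ ▸ det_qa s.hn s.bm.1 s.bn.1 a2 a1 s.symm.det)
  obtain ⟨b, hb, rfl⟩ := s.symm.of_line hK k1
  replace hb := s.symm.sw hb
  refine ⟨b, hb, sub_eq_zero.1 (s.cancel ?_ ?_)⟩
  · simp [mul_sub, sub_mul, Matrix.mul_assoc, ha.cm', hb.cm]
  · have := congrArg (· * n) k2
    simpa [Matrix.mul_assoc, ha.cm', hb.cn', s.mn, mul_sub, sub_mul, add_mul, s.nn', s.bn.1.2,
      sub_eq_zero] using this

theorem zero (_ : St P n m) : Jd P n m 0 := ⟨by simp, by simp, by simpa using qd_zero⟩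

theorem U [Finite F] (s : St P n m) (ha : Jd P n m a) (hc : Jd P n m c) :
    Jd P n m (a * c * a) := by
  by_cases a0 : a = 0
  · simpa [a0] using s.zero
  obtain ⟨b, hb, e⟩ := s.inv ha a0
  obtain ⟨h1, h2⟩ := s.weyl ha (s.sw hb).qd hb.cn hb.cm e
  refine ⟨by simp [Matrix.mul_assoc, ha.cn', hc.cn', ha.cn],
    by simp [Matrix.mul_assoc, ha.cm', hc.cm', ha.cm], ?_⟩
  convert qd_neg (qd_conj (s.sw hc).qd h1) using 1
  rw [h2]
  simp [Matrix.mul_assoc, ha.cm', ha.cn', hb.cm', hb.cn', hc.cm', hc.cn', s.mn, s.mn', mul_sub,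
    sub_mul, s.nn', s.symm.nn', s.bn.1.2, s.bm.1.2, ha.cn]

theorem add (s : St P n m) (ha : Jd P n m a) (hb : Jd P n m b) : Jd P n m (a + b) :=
  ⟨by rw [mul_add, add_mul, ha.cn, hb.cn], by rw [mul_add, add_mul, ha.cm, hb.cm], by
    rw [add_mul]
    exact qd_add ha.qd hb.qd (by simp [Matrix.mul_assoc, hb.cn', s.bn.1.2])
      (by simp [Matrix.mul_assoc, ha.cn', s.bn.1.2])⟩

theorem neg (s : St P n m) (ha : Jd P n m a) : Jd P n m (-a) :=
  ⟨by simp [ha.cn], by simp [ha.cm], by simpa using qd_neg ha.qd⟩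

theorem sub (s : St P n m) (ha : Jd P n m a) (hb : Jd P n m b) : Jd P n m (a - b) :=
  sub_eq_add_neg a b ▸ s.add ha (s.neg hb)

theorem half [Finite F] (s : St P n m) (ha : Jd P n m (a + a)) : Jd P n m a := by
  have h1 : ∀ k : ℕ, Jd P n m ((k : F) • (a + a)) := fun k => by
    induction k with
    | zero => simpa using s.zero
    | succ k ih => rw [Nat.cast_succ, add_smul, one_smul]; exact s.add ih ha
  have := Fintype.ofFinite F
  obtain ⟨k, hk⟩ := Nat.odd_iff.2 (FiniteField.odd_card_of_char_ne_two (F := F) fun e =>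
    s.two (by simpa [e] using ringChar.Nat.cast_ringChar (R := F)))
  have h2 := FiniteField.cast_card_eq_zero F
  rw [hk] at h2
  convert h1 (k + 1) using 1
  rw [← two_smul F, smul_smul, show ((k + 1 : ℕ) : F) * 2 = 1 by
    push_cast at h2 ⊢; linear_combination h2, one_smul]

theorem circ [Finite F] (s : St P n m) (ha : Jd P n m a) (hb : Jd P n m b) :
    Jd P n m (a * b + b * a) := by
  convert s.sub (s.sub (s.U (s.add ha hb) s.one) (s.U ha s.one)) (s.U hb s.one) using 1
  noncomm_ring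

theorem smul [Finite F] (s : St P n m) {z : F} (hz : Jd P n m (z • 1)) (ha : Jd P n m a) :
    Jd P n m (z • a) := s.half (by simpa using s.circ hz ha)

theorem pow [Finite F] (s : St P n m) (ha : Jd P n m a) (k : ℕ) : Jd P n m (a ^ k) := by
  induction k with
  | zero => simpa using s.one
  | succ k ih => exact s.half (by simpa only [← pow_succ, ← pow_succ'] using s.circ ha ih)

theorem emb (s : St P n m) : ∃ φ : M4 F →ₗ[F] Matrix (Fin 2) (Fin 2) F, φ 1 = 1 ∧
    (∀ a b, n * b = b * n → m * b = b * m → φ (a * b) = φ a * φ b) ∧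
    (∀ a, m * a = a * m → n * a = a * n → φ a = 0 → a = 0) ∧
    ∀ a, n * a = a * n → a.trace = 2 * (φ a).trace := by
  obtain ⟨A, B, hA, a1, a2⟩ := factor s.bn.1.2 (nr s.hn s.bn.1 s.bn.2.1)
  have inj : ∀ X : Matrix (Fin 2) (Fin 2) F, A * X = 0 → X = 0 := fun X h =>
    toLin'.injective (LinearMap.ext fun v => by
      simpa using hA (X *ᵥ v) (by rw [mulVec_mulVec, h, zero_mulVec]))
  have a3 : n * m * A = A := by
    rw [eq_sub_of_add_eq s.e, Matrix.sub_mul, Matrix.one_mul, Matrix.mul_assoc, a1,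
      Matrix.mul_zero, sub_zero]
  have a4 : ∀ b, n * b = b * n → m * b = b * m → A * (B * m * b * A) = b * A := fun b h1 h2 => by
    rw [← Matrix.mul_assoc, ← Matrix.mul_assoc, ← Matrix.mul_assoc, ← a2,
      show n * m * b = b * (n * m) by
        linear_combination (norm := noncomm_ring) n * h2 + h1 * m, Matrix.mul_assoc, a3]
  refine ⟨⟨⟨fun a => B * m * a * A, fun x y => by rw [Matrix.mul_add, Matrix.add_mul]⟩,
    fun c x => by simp⟩, ?_, fun a b h1 h2 => ?_, fun a h2 h1 h => s.cancel h2 ?_, fun a h => ?_⟩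
  · refine sub_eq_zero.1 (inj _ ?_)
    rw [Matrix.mul_sub]
    exact sub_eq_zero.2 ((a4 1 (by simp) (by simp)).trans (by simp))
  · change B * m * (a * b) * A = B * m * a * A * (B * m * b * A)
    rw [Matrix.mul_assoc _ A, a4 b h1 h2]
    simp only [Matrix.mul_assoc]
  · have := a4 a h1 h2
    rw [show B * m * a * A = 0 from h, Matrix.mul_zero] at this
    rw [a2, ← Matrix.mul_assoc, ← this, Matrix.zero_mul]
  · change a.trace = 2 * (B * m * a * A).trace
    rw [trace_mul_comm, ← Matrix.mul_assoc, ← Matrix.mul_assoc, ← a2, two_mul]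
    nth_rw 2 [Matrix.mul_assoc, trace_mul_comm]
    rw [← trace_add, Matrix.mul_assoc m, ← h, ← Matrix.mul_assoc, ← add_mul, s.e, Matrix.one_mul]

theorem wsq (s : St P n m) (hw : W n m a) : ∃ q : F, a * a = q • 1 := by
  obtain ⟨φ, h1, h2, h3, h4⟩ := s.emb
  have t := (mul_eq_zero.1 ((h4 a hw.cn).symm.trans hw.tr)).resolve_left s.two
  refine ⟨-(φ a).det, sub_eq_zero.1 (h3 _ ?_ ?_ ?_)⟩
  · simp only [mul_sub, sub_mul, mul_smul_comm, smul_mul_assoc, Matrix.mul_one, Matrix.one_mul]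
    linear_combination (norm := noncomm_ring) hw.cm * a + a * hw.cm
  · simp only [mul_sub, sub_mul, mul_smul_comm, smul_mul_assoc, Matrix.mul_one, Matrix.one_mul]
    linear_combination (norm := noncomm_ring) hw.cn * a + a * hw.cn
  · rw [map_sub, map_smul, h1, h2 a a hw.cn hw.cm, sq_two t, sub_self]

theorem par (s : St P n m) (ha : W n m a) (hb : W n m b) (a0 : a ≠ 0) (e : a * b = b * a) :
    ∃ u : F, b = u • a := by
  obtain ⟨φ, h1, h2, h3, h4⟩ := s.emb
  have t := fun {x} (hw : W n m x) =>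
    (mul_eq_zero.1 ((h4 x hw.cn).symm.trans hw.tr)).resolve_left s.two
  obtain ⟨u, hu⟩ := par_two s.two (t ha) (t hb) (fun h => a0 (h3 a ha.cm ha.cn h))
    (by rw [← h2 a b hb.cn hb.cm, e, h2 b a ha.cn ha.cm])
  refine ⟨u, sub_eq_zero.1 (h3 _ ?_ ?_ (by rw [map_sub, map_smul, hu, sub_self]))⟩
  · simp [mul_sub, sub_mul, ha.cm, hb.cm]
  · simp [mul_sub, sub_mul, ha.cn, hb.cn]

theorem nzd [Finite F] (s : St P n m) (ha : Jd P n m a) (a0 : a ≠ 0) (e : c * a = 0) : c = 0 := by
  obtain ⟨b, -, h⟩ := s.inv ha a0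
  rw [← Matrix.mul_one c, ← h, ← Matrix.mul_assoc, e, Matrix.zero_mul]

/-- The scalars in the Jordan ring. -/
def Z [Finite F] (s : St P n m) : Subfield F where
  carrier := {z | Jd P n m (z • 1)}
  one_mem' := by simpa using s.one
  zero_mem' := by simpa using s.zero
  mul_mem' := fun ha hb => by simpa [smul_smul] using s.smul ha hb
  add_mem' := fun ha hb => by simpa [add_smul] using s.add ha hb
  neg_mem' := fun ha => by simpa using s.neg ha
  inv_mem' := fun z hz => by
    by_cases z0 : z = 0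
    · simpa [z0] using s.zero
    obtain ⟨b, hb, e⟩ := s.inv hz (by simpa using z0)
    rw [smul_mul_assoc, Matrix.one_mul, ← eq_inv_smul_iff₀ z0] at e
    exact show Jd P n m _ from e ▸ hb

theorem comm_of_w [Finite F] (s : St P n m) (hb : Jd P n m b) (hw : W n m b) (b0 : b ≠ 0)
    (hc : Jd P n m c) : b * c = c * b := by
  by_contra hne
  have sq : ∀ {x}, Jd P n m x → W n m x → x ≠ 0 → ∃ q : s.Z, q ≠ 0 ∧ x * x = (q : F) • 1 :=
    fun {x} hx wx x0 => by
      obtain ⟨q, hq⟩ := s.wsq wx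
      exact ⟨⟨q, show Jd P n m _ by simpa [← hq] using s.U hx s.one⟩,
        fun e => x0 (s.nzd hx x0 (by rw [hq, show q = 0 from congrArg Subtype.val e, zero_smul])),
        hq⟩
  obtain ⟨q, q0, hq⟩ := sq hb hw b0
  have q1 : (q : F) ≠ 0 := by simpa using q0
  have h1 := s.sub (s.smul q.2 hc) (s.U hb hc)
  have l1 : b * ((q : F) • c - b * c * b) = (q : F) • (b * c - c * b) := by
    simp [mul_sub, ← Matrix.mul_assoc, hq, smul_sub]
  have l2 : ((q : F) • c - b * c * b) * b = -((q : F) • (b * c - c * b)) := by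
    simp [sub_mul, Matrix.mul_assoc, hq, smul_sub]
  have h0 : (q : F) • c - b * c * b ≠ 0 := fun e => hne (by
    rwa [e, Matrix.mul_zero, eq_comm, smul_eq_zero_iff_right q1, sub_eq_zero] at l1)
  obtain ⟨r, r0, hr⟩ := sq h1 ⟨h1.cn, h1.cm, by
    rw [trace_sub, trace_mul_cycle, hq]; simp⟩ h0
  rw [← l1] at l2
  generalize (q : F) • c - b * c * b = d at h1 h0 hr l2
  obtain ⟨x, y, e⟩ := Cls.exists_quad_eq_of_field (t := 0) (n := -q) (by
    have : (4 : s.Z) ≠ 0 := fun e => four_ne s.two (congrArg Subtype.val e)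
    simpa [this] using q0) r
  have e' : (x : F) ^ 2 - q * y ^ 2 = r := by
    simpa [sub_eq_add_neg] using congrArg Subtype.val e
  have j1 := s.add (s.smul y.2 hb) h1
  have j2 : (y : F) • b + d ≠ 0 := fun e => by
    have := congrArg (fun x => x * d + d * x) e
    simp only [add_mul, mul_add, smul_mul_assoc, mul_smul_comm, l2, hr, Matrix.zero_mul,
      Matrix.mul_zero, smul_neg] at this
    refine r0 (Subtype.ext (mul_left_cancel₀ s.two (sm_inj (b := 2 * 0) ?_)))
    linear_combination (norm := module) this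
  have j3 : ((x : F) • 1 - ((y : F) • b + d)) * ((x : F) • 1 + ((y : F) • b + d)) = 0 := by
    simp only [add_mul, mul_add, sub_mul, smul_mul_assoc, mul_smul_comm, l2, hr, hq,
      Matrix.mul_one, Matrix.one_mul, ← e']
    module
  have wd : W n m ((y : F) • b + d) := (hw.smul _).add ⟨h1.cn, h1.cm, by
    have := congrArg trace (congrArg (b * ·) l2)
    rw [← Matrix.mul_assoc, trace_mul_cycle, mul_neg, ← Matrix.mul_assoc, hq] at this
    simp only [smul_mul_assoc, Matrix.one_mul, trace_neg, trace_smul, smul_eq_mul] at this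
    exact mul_left_cancel₀ (mul_ne_zero s.two q1) (by linear_combination this)⟩
  by_cases j4 : (x : F) • 1 + ((y : F) • b + d) = 0
  · exact j2 (wd.eq_zero_of_scalar s.two (c := -x)
      (by rw [neg_smul]; exact eq_neg_of_add_eq_zero_right j4))
  · exact j2 (wd.eq_zero_of_scalar s.two (sub_eq_zero.1 (s.nzd (s.add x.2 j1) j4 j3)).symm)

theorem comm [Finite F] (s : St P n m) (ha : Jd P n m a) (hb : Jd P n m b) : a * b = b * a := by
  have h2 := s.two
  have h1 := s.sub (s.sub (s.circ (s.U ha s.one) hb) (s.U ha hb)) (s.U ha hb)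
  have wa := W.of h2 ha.cn ha.cm
  have wb := W.of h2 hb.cn hb.cm
  generalize a.trace / 4 = z at wa
  generalize b.trace / 4 = y at wb
  by_cases h0 : a * 1 * a * b + b * (a * 1 * a) - a * b * a - a * b * a = 0
  swap
  · have hw : W n m _ := ⟨h1.cn, h1.cm, by
      simp only [trace_sub, trace_add, Matrix.mul_one, trace_mul_cycle a b a, trace_mul_comm b]
      ring⟩
    obtain ⟨u, hu⟩ := s.par hw wa h0 (by
      rw [mul_sub _ a, sub_mul a, s.comm_of_w h1 hw h0 ha]; simp)
    obtain ⟨v, hv⟩ := s.par hw wb h0 (by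
      rw [mul_sub _ b, sub_mul b, s.comm_of_w h1 hw h0 hb]; simp)
    generalize a * 1 * a * b + b * (a * 1 * a) - a * b * a - a * b * a = w at hu hv
    rw [sub_eq_iff_eq_add.1 hu, sub_eq_iff_eq_add.1 hv]
    simp only [add_mul, mul_add, smul_mul_assoc, mul_smul_comm, Matrix.mul_one, Matrix.one_mul]
    module
  obtain ⟨X, rfl⟩ : ∃ X, a = X + z • 1 := ⟨a - z • 1, by abel⟩
  rw [add_sub_cancel_right] at wa
  obtain ⟨q, hq⟩ := s.wsq wa
  by_cases q0 : q = 0
  · have := Fintype.ofFinite F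
    have e : ∀ k : ℕ, (X + z • 1) ^ (k + 1) = z ^ (k + 1) • 1 + (((k + 1 : ℕ) : F) * z ^ k) • X :=
      fun k => by
      induction k with
      | zero => simp [add_comm]
      | succ k ih =>
        rw [pow_succ, ih]
        simp only [add_mul, mul_add, smul_mul_assoc, mul_smul_comm, Matrix.mul_one, Matrix.one_mul,
          hq, q0]
        push_cast
        module
    have h3 := s.pow ha (Fintype.card F - 1 + 1)
    rw [e, Nat.sub_add_cancel Fintype.card_pos, FiniteField.cast_card_eq_zero,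
      FiniteField.pow_card, zero_mul, zero_smul, add_zero] at h3
    have h4 := s.sub ha h3
    rw [add_sub_cancel_right] at h4
    have : X = 0 := by_contra fun X0 => X0 (s.nzd h4 X0 (by rw [hq, q0, zero_smul]))
    simp [this]
  have h3 : (2 * q) • b = (2 : F) • (X * b * X) := by
    simp only [add_mul, mul_add, smul_mul_assoc, mul_smul_comm, Matrix.mul_one, Matrix.one_mul,
      hq] at h0
    linear_combination (norm := module) h0
  have h4 := congrArg (X * ·) h3
  simp only [mul_smul_comm, ← Matrix.mul_assoc, hq, smul_mul_assoc, Matrix.one_mul,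
    smul_smul] at h4
  simp [add_mul, mul_add, smul_right_injective _ (mul_ne_zero h2 q0) h4]

theorem sq_mem [Finite F] (s : St P n m) (hK : Bg P K) (c1 : n * a = a * n) (c2 : m * a = a * m)
    (e : K = (1 + a * n) * m * (1 - a * n)) : Jd P n m (a * a) := by
  have c1' : ∀ x, n * (a * x) = a * (n * x) := fun x => by
    rw [← Matrix.mul_assoc, c1, Matrix.mul_assoc]
  have c2' : ∀ x, m * (a * x) = a * (m * x) := fun x => by
    rw [← Matrix.mul_assoc, c2, Matrix.mul_assoc]
  by_cases h0 : K * m = 0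
  · have : a = 0 := s.symm.cancel c1 (by
      have := congrArg (fun x => m * n * x) h0
      simpa [e, Matrix.mul_assoc, c1', c2', s.mn, s.mn', mul_sub, sub_mul, mul_add, add_mul, s.nn',
        s.symm.nn', s.bn.1.2, s.bm.1.2] using this)
    simpa [this] using s.zero
  have h1 : (n + K).det ≠ 0 := det_of_opp s.bn.1.2 hK.1.2 (by
    simp [e, Matrix.mul_assoc, c1', c2', s.mn, s.mn', mul_sub, sub_mul, mul_add, add_mul, s.nn',
      s.bn.1.2, c1])
  obtain ⟨L, ⟨hL, -, l1⟩, l2⟩ := opp s.two s.hn hK s.bm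
    fun e => h0 (s.symm.same hK h1 (add_comm K m ▸ e))
  obtain ⟨b, hb, rfl⟩ := s.symm.of_line hL l1
  replace hb := s.symm.sw hb
  have h1 : a * a * -b = 1 := sub_eq_zero.1 (s.cancel
    (by simp [mul_sub, sub_mul, Matrix.mul_assoc, c2', hb.cm]) (by
      have := congrArg (fun x => n * m * x * n) l2
      simpa [e, Matrix.mul_assoc, c1', c2', s.mn, s.mn', mul_sub, sub_mul, mul_add, add_mul, s.nn',
        s.symm.nn', s.bn.1.2, s.bm.1.2, hb.cn', hb.cm', hb.cn, c1, sub_eq_zero] using this))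
  obtain ⟨c, hc, e'⟩ := s.inv (s.neg hb) fun e => by simp [e] at h1
  rwa [← Matrix.mul_one (a * a), ← e', ← Matrix.mul_assoc, h1, Matrix.one_mul]

theorem mem_alg [Finite F] (s : St P n m) (A : Subalgebra F (M4 F)) (hn : n ∈ A) (hm : m ∈ A)
    (hJ : ∀ a, Jd P n m a → a ∈ A) (hN : Bg P N) (hd : n * N = 0 ∨ (n + N).det ≠ 0) :
    N ∈ A := by
  rcases hd with h0 | h0
  · obtain ⟨a, ha, rfl⟩ := s.of_line hN.1 (swap s.hn s.bn.1 hN.1 h0)
    exact mul_mem (hJ a ha) hn
  obtain ⟨K, ⟨hK, k0, k1⟩, k2⟩ := opp s.two s.hn s.bn hN h0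
  have bK := bg_of_qa hN ⟨hK, k0, k1⟩ (fun e => by simp [e] at k2)
  have r1 : K * n = 1 - n * K := eq_sub_of_add_eq' k2
  have r2 : ∀ x, K * (n * x) = x - n * (K * x) := fun x => by
    rw [← Matrix.mul_assoc, r1]; noncomm_ring
  have r3 : ∀ x, K * (K * x) = 0 := fun x => by rw [← Matrix.mul_assoc, hK.2, Matrix.zero_mul]
  obtain ⟨a, ha⟩ : ∃ a, a = K * n * m - m * n * K := ⟨_, rfl⟩
  have c1 : n * a = a * n := by
    simp [ha, Matrix.mul_assoc, s.mn, s.mn', mul_sub, sub_mul, s.nn', s.symm.nn', s.bn.1.2, s.bm.1.2,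
      r1, r2]
  have c2 : m * a = a * m := by
    simp [ha, Matrix.mul_assoc, s.mn, s.mn', mul_sub, sub_mul, s.nn', s.symm.nn', s.bn.1.2, s.bm.1.2,
      r1, r2]
  have c3 : a * n = n * m - n * K := by
    simp [ha, Matrix.mul_assoc, s.mn, s.mn', mul_sub, sub_mul, s.nn', s.symm.nn', s.bn.1.2, s.bm.1.2,
      r1, r2]
  have e : K = (1 + a * n) * m * (1 - a * n) := by
    simp [c3, Matrix.mul_assoc, s.mn, s.mn', mul_sub, sub_mul, s.nn', s.symm.nn', s.bn.1.2, s.bm.1.2,
      r1, r2, r3, hK.2, mul_add, add_mul]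
  have j1 := s.sq_mem bK c1 c2 e
  have j2 := s.sq_mem (a := a + 1) (bg_conj bK s.bn.1.1) (by simp [mul_add, add_mul, c1])
    (by simp [mul_add, add_mul, c2]) (by
      rw [inv1 s.bn.1, e]
      have nn := s.bn.1.2
      rw [show 1 + (a + 1) * n = (1 + n) * (1 + a * n) by
        linear_combination (norm := noncomm_ring) -c1 * n - a * nn,
        show 1 - (a + 1) * n = (1 - a * n) * (1 - n) by
        linear_combination (norm := noncomm_ring) -a * nn]
      noncomm_ring)
  have j3 : Jd P n m a := s.half (by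
    convert s.sub (s.sub j2 j1) s.one using 1
    noncomm_ring)
  have g1 := (qd_neg j3.qd).1
  obtain ⟨b, hb, e'⟩ := s.symm.of_line (qd_conj hN.1 g1) (by
    rw [inv1 (qd_neg j3.qd)]
    have := k0
    rw [e] at this
    linear_combination (norm := noncomm_ring) (1 - a * n) * this * (1 + a * n) +
      (1 - a * n) * N * (1 + a * n) * m * j3.qd.2)
  rw [inv1 (qd_neg j3.qd)] at e'
  have an := mul_mem (hJ a j3) hn
  convert mul_mem (mul_mem (add_mem (one_mem A) an) (mul_mem (hJ b (s.symm.sw hb)) hm))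
    (sub_mem (one_mem A) an) using 1
  rw [← e']
  linear_combination (norm := noncomm_ring) j3.qd.2 * N * (1 - a * n * (a * n)) + N * j3.qd.2

end St

theorem normal_eq (hP : QS P) (hn : Bg P n) {H : Subgroup (G4 F)} (h1 : H ≤ P) (h2 : NormsG P H)
    (h3 : ∀ g ∈ P, (g : M4 F) = 1 + n → g ∈ H) : H = P := by
  refine (hP.simple H h1 h2).resolve_left fun h => ?_
  obtain ⟨g, hg, e⟩ := hn.1.1
  obtain ⟨c, hc⟩ := (mem_scalars_iff g).1 (h (h3 g hg e))
  have e1 : n = ((c : F) - 1) • 1 := by rw [sub_smul, ← hc, e]; simp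
  have e2 := hn.1.2
  rw [e1, smul_mul_smul_comm, Matrix.one_mul, ← zero_smul F (1 : M4 F)] at e2
  exact hn.2.1 (by rw [e1, mul_self_eq_zero.1 (sm_inj e2), zero_smul])

theorem le_of_big (hP : QS P) (hn : Bg P n) {H : Subgroup (G4 F)}
    (h : ∀ g ∈ P, ∀ N, Bg P N → (g : M4 F) = 1 + N → g ∈ H) : P ≤ H := by
  have h1 : closure {g | g ∈ P ∧ ∃ N, Bg P N ∧ (g : M4 F) = 1 + N} = P := by
    refine normal_eq hP hn ((closure_le _).2 fun g hg => hg.1) (fun g hg x hx => ?_)
      fun g hg e => subset_closure ⟨hg, n, hn, e⟩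
    induction hx using closure_induction with
    | mem x hx =>
      obtain ⟨hx, N, hN, e⟩ := hx
      refine subset_closure ⟨P.mul_mem (P.mul_mem hg hx) (P.inv_mem hg), _,
        bg_conj hN ⟨g, hg, rfl⟩, ?_⟩
      rw [Units.val_mul, Units.val_mul, e, mul_add, add_mul, Matrix.mul_one, Units.mul_inv,
        Matrix.coe_units_inv]
    | one => simp
    | mul x y _ _ hx hy => simpa [mul_assoc] using mul_mem hx hy
    | inv x _ hx => simpa [mul_assoc] using inv_mem hx
  exact h1.ge.trans ((closure_le _).2 fun g ⟨hg, N, hN, e⟩ => h g hg N hN e)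

/-- The units of a subalgebra. -/
def unitsIn (A : Subalgebra F (M4 F)) : Subgroup (G4 F) where
  carrier := {g | (g : M4 F) ∈ A ∧ ((g⁻¹ : G4 F) : M4 F) ∈ A}
  one_mem' := ⟨one_mem A, by simp⟩
  mul_mem' := fun ha hb => ⟨mul_mem ha.1 hb.1, by rw [_root_.mul_inv_rev]; exact mul_mem hb.2 ha.2⟩
  inv_mem' := fun ha => ⟨ha.2, by rw [inv_inv]; exact ha.1⟩

/-- The normaliser of a subalgebra. -/
def normIn (A : Subalgebra F (M4 F)) : Subgroup (G4 F) where
  carrier := {g | ∀ x ∈ A, (g : M4 F) * x * (g⁻¹ : G4 F) ∈ A ∧ (g⁻¹ : G4 F) * x * (g : M4 F) ∈ A}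
  one_mem' := fun x hx => by simpa using hx
  mul_mem' := fun {a b} ha hb x hx => by
    rw [_root_.mul_inv_rev, Units.val_mul, Units.val_mul]
    exact ⟨by simpa only [Matrix.mul_assoc] using (ha _ (hb x hx).1).1,
      by simpa only [Matrix.mul_assoc] using (hb _ (ha x hx).2).2⟩
  inv_mem' := fun ha x hx => by rw [inv_inv]; exact (ha x hx).symm

theorem St.le_alg [Finite F] (s : St P n m) (hP : QS P) (A : Subalgebra F (M4 F)) (hn : n ∈ A)
    (hm : m ∈ A) (hJ : ∀ a, Jd P n m a → a ∈ A) : ∀ g ∈ P, (g : M4 F) ∈ A := by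
  let A0 := Algebra.adjoin F ({n, m} ∪ {a | Jd P n m a})
  have n0 : n ∈ A0 := Algebra.subset_adjoin (by simp)
  have inv : ∀ {g : G4 F} {N}, Qd P N → (g : M4 F) = 1 + N → ((g⁻¹ : G4 F) : M4 F) = 1 - N :=
    fun hN e => by rw [Matrix.coe_units_inv, e, inv1 hN]
  have h1 : P ≤ normIn A0 := le_of_big hP s.bn fun g hg N hN e x hx => by
    rw [inv hN.1 e, e]
    by_cases hd : n * N = 0 ∨ (n + N).det ≠ 0
    · have := s.mem_alg A0 n0 (Algebra.subset_adjoin (by simp))
        (fun a ha => Algebra.subset_adjoin (Or.inr ha)) hN hd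
      have a1 := add_mem (one_mem A0) this
      have a2 := sub_mem (one_mem A0) this
      exact ⟨mul_mem (mul_mem a1 hx) a2, mul_mem (mul_mem a2 hx) a1⟩
    push Not at hd
    have c1 := comm_of_det s.two s.hn s.bn hN.1 hd.2
    have c2 := comm_of_det s.two s.hn s.bm hN.1 (by_contra fun e =>
      hd.1 (swap s.hn hN.1 s.bn.1 (s.same hN e hd.2)))
    have c3 : A0 ≤ Subalgebra.centralizer F {N} := Algebra.adjoin_le (by
      rintro a ((rfl | rfl) | ha) _ rfl
      · exact c1.symm
      · exact c2.symm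
      · by_cases a1 : a * n = 0
        · simp [s.cancel ha.cm a1]
        have c4 := comm_of_det s.two s.hn hN ha.qd (by_contra fun e => det_qa s.hn hN.1 ha.qd
          ⟨s.bn.1, by rw [Matrix.mul_assoc, s.bn.1.2, Matrix.mul_zero],
            by rw [ha.cn', s.bn.1.2, Matrix.mul_zero]⟩ s.bn.2.1 e (add_comm n _ ▸ hd.2))
        refine sub_eq_zero.1 (s.cancel ?_ ?_)
        · linear_combination (norm := noncomm_ring) c2 * a + _ * ha.cm - ha.cm * _ - a * c2
        · linear_combination (norm := noncomm_ring) c4 + a * c1)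
    have c5 : N * x = x * N := c3 hx N rfl
    rw [show (1 + N) * x * (1 - N) = x by
        linear_combination (norm := noncomm_ring) c5 * (1 - N) - x * hN.1.2,
      show (1 - N) * x * (1 + N) = x by
        linear_combination (norm := noncomm_ring) -c5 * (1 + N) - x * hN.1.2]
    exact ⟨hx, hx⟩
  have h2 : P ⊓ unitsIn A0 = P := normal_eq hP s.bn inf_le_left
    (fun g hg x hx => ⟨P.mul_mem (P.mul_mem hg hx.1) (P.inv_mem hg), (h1 hg _ hx.2.1).1, by
      simpa only [_root_.mul_inv_rev, inv_inv, Units.val_mul, Matrix.mul_assoc] using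
        (h1 hg _ hx.2.2).1⟩)
    fun g hg e => ⟨hg, e ▸ add_mem (one_mem A0) n0, inv s.bn.1 e ▸ sub_mem (one_mem A0) n0⟩
  have h3 : A0 ≤ A := Algebra.adjoin_le (by
    rintro a ((rfl | rfl) | ha)
    exacts [hn, hm, hJ a ha])
  exact fun g hg => h3 (h2.ge hg).2.1

end Q

variable {F : Type*} [Field F] [Finite F] {G : Type*} [Group G] {P : Subgroup (G4 F)}
  {π : P →* G}

open Q in
theorem small_of_noTv (hP : QS P) (h2 : (2 : F) ≠ 0) (hT : NoTv P) : Small P := by
  intro n K h1 h1' n0 h3 h4 e e'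
  by_contra hne
  push Not at hne
  have bn : Bg P n := ⟨⟨h1, h3⟩, n0, K, ⟨⟨h1', h4⟩, e, e'⟩, hne⟩
  have sc : ∀ X : M4 F, (∀ g ∈ P, (g : M4 F) ∈ Subalgebra.centralizer F {X}) →
      ∃ c : F, X = c • 1 := fun X h => hP.spans.scalar_of_commute fun g hg => h g hg X rfl
  obtain ⟨M, hM, h0⟩ : ∃ M, Bg P M ∧ (n + M).det ≠ 0 := by
    by_contra hc
    push Not at hc
    obtain ⟨c, hc⟩ := sc n fun g hg => (le_of_big hP bn
      (H := unitsIn (Subalgebra.centralizer F {n})) (fun g hg N hN e => by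
        have : N ∈ Subalgebra.centralizer F {n} := by
          rintro _ rfl; exact comm_of_det h2 hT bn hN.1 (hc N hN)
        exact ⟨e ▸ add_mem (one_mem _) this, by
          rw [Matrix.coe_units_inv, e, inv1 hN.1]; exact sub_mem (one_mem _) this⟩) hg).1
    rw [hc, smul_mul_smul_comm, Matrix.one_mul, ← zero_smul F (1 : M4 F)] at h3
    exact n0 (by rw [hc, mul_self_eq_zero.1 (sm_inj h3), zero_smul])
  obtain ⟨m, hm, m2⟩ := opp h2 hT bn hM h0
  have s : St P n m := ⟨h2, hT, bn, bg_of_qa hM hm (fun e => by simp [e] at m2), m2⟩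
  have key : ∀ a : M4 F, n * a = a * n → m * a = a * m → (∀ b, Jd P n m b → a * b = b * a) →
      ∃ c : F, a = c • 1 := fun a a1 a2 a3 => sc a (s.le_alg hP _
    (by rintro _ rfl; exact a1.symm) (by rintro _ rfl; exact a2.symm)
    fun b hb => by rintro _ rfl; exact a3 b hb)
  obtain ⟨i, j, hij⟩ : ∃ i j, n i j ≠ 0 := by
    by_contra hc
    push Not at hc
    exact n0 (Matrix.ext hc)
  obtain ⟨T, hT'⟩ : ∃ T, T = vecMulVec (n *ᵥ Pi.single j 1) (Pi.single i 1 ᵥ* n) := ⟨_, rfl⟩
  have t1 : n * T = 0 := by rw [hT', mul_vecMulVec, mulVec_mulVec, h3, zero_mulVec, zero_vecMulVec]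
  have t2 : T * n = 0 := by rw [hT', vecMulVec_mul, vecMul_vecMul, h3, vecMul_zero, vecMulVec_zero]
  obtain ⟨c, hc⟩ := key (T * m + m * T)
    (by linear_combination (norm := noncomm_ring) t1 * m + m2 * T - m * t1 - T * m2 + t2 * m -
      m * t2)
    (by linear_combination (norm := noncomm_ring) hm.1.2 * T - T * hm.1.2) fun b hb => by
      obtain ⟨c, rfl⟩ := key b hb.cn hb.cm fun d hd => s.comm hb hd
      simp
  have t3 : T = c • n := by
    have := congrArg (· * n) hc
    simp only [smul_mul_assoc, Matrix.one_mul] at this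
    linear_combination (norm := noncomm_ring) this - T * m2 + t2 * m - m * t2
  have c0 : c ≠ 0 := fun e => by
    have := congrFun (congrFun (hT'.symm.trans t3) i) j
    simp [e, vecMulVec_apply, hij] at this
  exact nr hT bn.1 n0 (c⁻¹ • n *ᵥ Pi.single j 1) _ (by
    rw [smul_vecMulVec, ← hT', t3, smul_smul, inv_mul_cancel₀ c0, one_smul])

end Cfsg.Agent.Cl.D4
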