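/-
Subgroups of `SL₄(F)` containing a root group with at least three elements.
-/
import Mathlib
import Cfsg.Agent.Cl.D4B
import Cfsg.Agent.Cl.D5TA
import Cfsg.Agent.Cl.D5TB
import Cfsg.Agent.Cl.D5TC
import Cfsg.Agent.Cl.D5TD
import Cfsg.Agent.Cl.D5TF

set_option autoImplicit false

namespace Cfsg.Agent.Cl.D4

open Matrix Cfsg.Geo Cfsg.Agent.Cl.Max Cfsg.Agent.Cl.Mx
open Cfsg.Agent.Cl.D5 (MT Root TrGen Cov NoTv TA cyc3)

variable {F : Type*} [Field F] [Fintype F] {P : Subgroup (G4 F)} {k : Subfield F}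
  {T : (Fin 4 → F) → (Fin 4 → F) → Prop}

theorem big_of_tf (H : D5.TF P k T) (ht : TrGen P) (h3 : 3 ≤ Nat.card k) : Big P := by
  by_cases hc : ∀ {v₁ φ₁ v₂ φ₂ v₃ φ₃}, T v₁ φ₁ → T v₂ φ₂ → T v₃ φ₃ → cyc3 v₁ φ₁ v₂ φ₂ v₃ φ₃ ∈ k
  · obtain rfl := H.eq_top ht le_rfl hc
    exact H.sl_or_coh.imp_right fun h => Or.inl (real_iff.2 (D5.tr_of_coh H.qs H.fam H.ex h))
  push Not at hc
  obtain ⟨v₁, φ₁, v₂, φ₂, v₃, φ₃, h₁, h₂, h₃, hc⟩ := hc
  obtain ⟨σ, f, hq, rfl, hf, hle⟩ := H.uni ht h₁ h₂ h₃ hc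
  exact Or.inr (Or.inr ⟨σ, _, f, hq, hf,
    D5.su_of_triple H.qs hq h3 hf hle (H.tk h₁) (H.tk h₂) (H.tk h₃) hc⟩)

theorem big_of_root (hP : QS P) (ht : TrGen P) (hr : Root P 4) : Big P := by
  obtain ⟨k, h3, H⟩ := D5.exists_field hP (.inl hr)
  exact big_of_tf H ht h3

theorem big_of_tv (h2 : (2 : F) ≠ 0) (hP : QS P) (ht : TrGen P) (hn : ¬ NoTv P) : Big P := by
  classical
  by_cases hr : Root P 4
  · exact big_of_root hP ht hr
  obtain ⟨p, hp, _⟩ := L2.exists_char (F := F)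
  have := Fact.mk hp
  obtain ⟨v, φ, h⟩ : ∃ v φ, TA P v φ := by
    by_contra h
    exact hn fun v φ h1 => by
      by_contra h2
      push Not at h2
      exact h ⟨v, φ, h2.1, h2.2, h1⟩
  obtain rfl : p = 3 := by
    by_contra h4
    have h6 : p ≠ 2 := by
      rintro rfl
      exact h2 (by exact_mod_cast CharP.cast_eq_zero F 2)
    have h5 : 4 ≤ p := by have := hp.two_le; omega
    refine hr ⟨v, φ, h.1, h.2.1, (Finset.range 4).image (Nat.cast : ℕ → F), ?_, fun a ha => ?_⟩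
    · rw [Finset.card_image_of_injOn, Finset.card_range]
      exact (CharP.natCast_injOn_Iio F p).mono fun x hx => by simp at hx ⊢; omega
    · obtain ⟨n, -, rfl⟩ := Finset.mem_image.1 ha
      exact h.2.2.nsmul n
  refine big_of_tf (k := ⊥) (T := TA P) ⟨hP, D5.fam_TA, ⟨v, φ, h⟩, fun {v φ} h c d hc hd hk => ?_,
    fun h h' => D5.two_cyc_three (by exact_mod_cast CharP.cast_eq_zero F 3) (by simp) hP hr h.2.2
      h'.2.2, fun v φ hv hφ => ?_⟩ ht (Subfield.card_bot F 3).ge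
  · refine ⟨smul_ne_zero hc h.1, smul_ne_zero hd h.2.1, ?_⟩
    obtain ⟨n, hn⟩ := (mem_bot_iff_intCast 3 F).1 hk
    rw [MT.smul_iff, smul_smul, ← hn]
    obtain ⟨m, rfl | rfl⟩ := n.eq_nat_or_neg
    · simpa using h.2.2.nsmul m
    · simpa using (h.2.2.nsmul m).neg
  · rw [Subfield.card_bot F 3]
    by_contra h3
    exact hr ((D5.root_of_ncard hv hφ).mono (by omega))

end Cfsg.Agent.Cl.D4
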