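/-
Four-dimensional representations of `Sp₄(3)`: the field and the form.
-/
import Mathlib
import Cfsg.Agent.Cl.D4W
import Cfsg.Agent.Cl.D4U42a
import Cfsg.Agent.Cl.LinearTransv
import Cfsg.Agent.Cl.UOrder
import Cfsg.Agent.Cl.MxU

set_option autoImplicit false

namespace Cfsg.Agent.Cl.D4

open Matrix Cfsg.Geo Cfsg.Agent.Cl.Max Cfsg.Agent.Cl.Mx Subgroup
open Cfsg.Agent.Cl.D5 (MT Root TrGen Cov NoTv)
open scoped MatrixGroups commutatorElement

namespace U42

section Lin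

variable {F : Type*} [Field F] {ω : F}

/-- Row `j` of `C` placed in row `i`. -/
def R (C : M4 F) (i j : Fin 4) : M4 F := of fun a b => if a = i then C j b else 0

theorem R_mul (C : M4 F) (i j k l : Fin 4) : R C i j * R C k l = C j k • R C i l := by
  ext a b
  by_cases h : a = i <;> simp [R, mul_apply, h]

/-- The matrix with columns `v j`. -/
def VM (v : Fin 4 → Fin 4 → F) : M4 F := of fun a j => v j a

/-- The matrix of the numbers `φ i ⬝ v j`. -/
def CM (φ v : Fin 4 → Fin 4 → F) : M4 F := of fun i j => φ i ⬝ᵥ v j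

theorem mul_VM (φ v : Fin 4 → Fin 4 → F) (i : Fin 4) :
    (ω • (1 : M4 F) + vecMulVec (v i) (φ i)) * VM v = VM v * (ω • 1 + R (CM φ v) i i) := by
  rw [add_mul, mul_add, smul_mul_assoc, mul_smul_comm, one_mul, mul_one]
  congr 1
  ext a b
  simp [VM, CM, R, mul_apply, vecMulVec_apply, dotProduct, Finset.mul_sum, mul_assoc]

theorem lam_ne (hω : ω * ω + ω + 1 = 0) (h3 : (3 : F) ≠ 0) : 1 - ω ≠ 0 := fun h =>
  h3 (by linear_combination hω + (ω + 2) * h)

theorem of_comm {C : M4 F} {i j : Fin 4} (hij : i ≠ j) (hj : C j j ≠ 0)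
    (h : (ω • 1 + R C i i) * (ω • 1 + R C j j) = (ω • 1 + R C j j) * (ω • 1 + R C i i)) :
    C i j = 0 := by
  simp only [add_mul, mul_add, smul_mul_assoc, mul_smul_comm, one_mul, mul_one, R_mul] at h
  have e := congrFun (congrFun h i) j
  simp only [R, Matrix.add_apply, Matrix.smul_apply, of_apply, if_true, if_neg hij, smul_eq_mul,
    smul_add, one_apply_ne hij] at e
  exact (mul_eq_zero.1 (by linear_combination e : C i j * C j j = 0)).resolve_right hj

theorem of_braid {C : M4 F} {i j : Fin 4} (hij : i ≠ j) (hi : C i i = 1 - ω) (h0 : 1 - ω ≠ 0)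
    (h : (ω • 1 + R C i i) * (ω • 1 + R C j j) * (ω • 1 + R C i i) =
      (ω • 1 + R C j j) * (ω • 1 + R C i i) * (ω • 1 + R C j j)) : C i j * C j i = -ω := by
  simp only [add_mul, mul_add, smul_mul_assoc, mul_smul_comm, one_mul, mul_one, R_mul] at h
  have e := congrFun (congrFun h i) i
  simp only [R, Matrix.add_apply, Matrix.smul_apply, of_apply, if_true, if_neg hij, smul_eq_mul,
    smul_add, one_apply_eq, hi] at e
  exact mul_right_cancel₀ h0 (by linear_combination e)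

/-- The Cartan matrix. -/
def C0 (ω : F) : M4 F := !![1 - ω, -ω, 0, 0; 1, 1 - ω, -ω, 0; 0, 1, 1 - ω, -ω; 0, 0, 1, 1 - ω]

theorem isUnit_C0 (hω : ω * ω + ω + 1 = 0) : IsUnit (C0 ω).det := by
  have e : (C0 ω).det = ω * ω := by
    simp [C0, det_succ_row_zero, Fin.sum_univ_succ, Fin.succAbove]
    linear_combination (ω * ω - 2 * ω + 1) * hω
  have h0 : ω ≠ 0 := by
    rintro rfl
    simp at hω
  rw [e]
  exact (mul_ne_zero h0 h0).isUnit

theorem map_fix {σ : F →+* F} (h : σ ω = ω) (i : Fin 4) :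
    (ω • (1 : M4 F) + R (C0 ω) i i).map σ = ω • 1 + R (C0 ω) i i := by
  ext a b
  fin_cases i <;> fin_cases a <;> fin_cases b <;> simp [R, C0, h]

theorem map_form (hω : ω * ω + ω + 1 = 0) {σ : F →+* F} (h : σ ω = ω * ω) (i : Fin 4) :
    ((ω • (1 : M4 F) + R (C0 ω) i i).map σ)ᵀ * C0 ω * (ω • 1 + R (C0 ω) i i) = C0 ω := by
  ext a b
  fin_cases i <;> fin_cases a <;> fin_cases b <;>
    simp [R, C0, h, mul_apply, Fin.sum_univ_four, one_apply] <;> grind

theorem trace_eq_of_form {H : Type*} [Group H] (f f' : H →* M4 F) {C : M4 F} (hC : IsUnit C.det)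
    {S : Set H} (hS : closure S = ⊤) (h : ∀ g ∈ S, (f' g)ᵀ * C * f g = C) (g : H) :
    (f' g).trace = (f g⁻¹).trace := by
  have key : ∀ g ∈ closure S, (f' g)ᵀ * C * f g = C := fun g hg => by
    induction hg using closure_induction with
    | mem x hx => exact h x hx
    | one => simp
    | mul x y _ _ hx hy =>
      rw [map_mul, map_mul, transpose_mul]
      calc _ = (f' y)ᵀ * ((f' x)ᵀ * C * f x) * f y := by simp only [mul_assoc]
        _ = C := by rw [hx, hy]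
    | inv x _ hx =>
      calc _ = (f' x⁻¹)ᵀ * ((f' x)ᵀ * C * f x) * f x⁻¹ := by rw [hx]
        _ = (f' x * f' x⁻¹)ᵀ * C * (f x * f x⁻¹) := by simp only [transpose_mul, mul_assoc]
        _ = C := by simp [← map_mul]
  have e := key g (hS ▸ mem_top g)
  have e2 : (f' g)ᵀ = C * f g⁻¹ * C⁻¹ := by
    calc _ = (f' g)ᵀ * C * (f g * f g⁻¹) * C⁻¹ := by
          rw [← map_mul, mul_inv_cancel, map_one, mul_one, mul_nonsing_inv_cancel_right _ _ hC]
      _ = _ := by rw [← mul_assoc _ (f g), e]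
  rw [← trace_transpose, e2, trace_mul_cycle, nonsing_inv_mul _ hC, one_mul]

end Lin

variable {F : Type*} [Field F] {G : Type*} [Group G] {P : Subgroup (G4 F)} {π : P →* G} {ω : F}

/-- Conjugation by an invertible matrix. -/
noncomputable def rho (P : Subgroup (G4 F)) {V : M4 F} (hV : IsUnit V.det) : P →* M4 F where
  toFun g := V⁻¹ * mat g * V
  map_one' := by rw [mat_one, mul_one, nonsing_inv_mul _ hV]
  map_mul' a b := by
    rw [mat_mul]
    simp only [mul_assoc, mul_nonsing_inv_cancel_left _ _ hV]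

theorem trace_rho {V : M4 F} (hV : IsUnit V.det) (g : P) : (rho P hV g).trace = (mat g).trace := by
  change (V⁻¹ * mat g * V).trace = _
  rw [trace_mul_cycle, mul_nonsing_inv _ hV, one_mul]

theorem rho_eq {V : M4 F} (hV : IsUnit V.det) {g : P} {B : M4 F} (h : mat g * V = V * B) :
    rho P hV g = B := by
  change V⁻¹ * mat g * V = _
  rw [mul_assoc, h, nonsing_inv_mul_cancel_left _ _ hV]

theorem core (hs : Spans P) {a : Fin 4 → P} (ha : Dat a) (h0 : 1 - ω ≠ 0)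
    {v φ : Fin 4 → Fin 4 → F} (hv : ∀ i, mat (a i) = ω • 1 + vecMulVec (v i) (φ i))
    (hd : ∀ i, φ i ⬝ᵥ v i = 1 - ω) : ∃ hV : IsUnit (VM v).det,
      (∀ i, rho P hV (a i) = ω • 1 + R (CM φ v) i i) ∧
      (CM φ v 0 1 * CM φ v 1 0 = -ω ∧ CM φ v 1 2 * CM φ v 2 1 = -ω ∧
        CM φ v 2 3 * CM φ v 3 2 = -ω) ∧ (CM φ v 0 2 = 0 ∧ CM φ v 0 3 = 0 ∧ CM φ v 1 3 = 0) ∧
      CM φ v 2 0 = 0 ∧ CM φ v 3 0 = 0 ∧ CM φ v 3 1 = 0 := by
  have hm : ∀ i, mat (a i) * VM v = VM v * (ω • 1 + R (CM φ v) i i) := fun i => by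
    rw [hv, mul_VM]
  have hV : IsUnit (VM v).det := by
    have pc : PC P (QuotientGroup.mk' ((scalars (Fin 4) F).subgroupOf P)) :=
      ⟨QuotientGroup.mk'_surjective _, fun g => QuotientGroup.eq_one_iff g⟩
    have := pc.irr_of_gen hs (S := Set.range a) (by
      rw [← MonoidHom.map_closure, ha.gen, ← MonoidHom.range_eq_map,
        MonoidHom.range_eq_top.2 pc.surj]) (LinearMap.range (toLin' (VM v))) (by
      rintro _ ⟨i, rfl⟩ _ ⟨y, rfl⟩
      exact ⟨_ *ᵥ y, by rw [toLin'_apply, toLin'_apply, mulVec_mulVec, mulVec_mulVec, hm]⟩)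
    rcases this with e | e
    · have e2 : VM v = 0 := toLin'.injective (by rw [map_zero]; exact LinearMap.range_eq_bot.1 e)
      have e3 : v 0 = 0 := funext fun b => congrFun (congrFun e2 b) 0
      exact absurd (by rw [← hd 0, e3, dotProduct_zero]) h0
    · exact (isUnit_iff_isUnit_det _).1 (mulVec_surjective_iff_isUnit.1
        (LinearMap.range_eq_top.1 e))
  have hr : ∀ i, rho P hV (a i) = ω • 1 + R (CM φ v) i i := fun i => rho_eq hV (hm i)
  have hc : ∀ i, CM φ v i i = 1 - ω := hd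
  have cm : ∀ i j, i ≠ j → a i * a j = a j * a i → CM φ v i j = 0 := fun i j hij e =>
    of_comm (ω := ω) hij ((hc j).trans_ne h0) (by simp only [← hr, ← map_mul, e])
  have br : ∀ i j, i ≠ j → a i * a j * a i = a j * a i * a j → CM φ v i j * CM φ v j i = -ω :=
    fun i j hij e => of_braid hij (hc i) h0 (by simp only [← hr, ← map_mul, e])
  exact ⟨hV, hr, ⟨br 0 1 (by decide) ha.b01, br 1 2 (by decide) ha.b12, br 2 3 (by decide) ha.b23⟩,
    ⟨cm 0 2 (by decide) ha.c02, cm 0 3 (by decide) ha.c03, cm 1 3 (by decide) ha.c13⟩,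
    cm 2 0 (by decide) ha.c02.symm, cm 3 0 (by decide) ha.c03.symm, cm 3 1 (by decide) ha.c13.symm⟩

theorem frame (hs : Spans P) {a : Fin 4 → P} (ha : Dat a) (hω : ω * ω + ω + 1 = 0)
    (h0 : 1 - ω ≠ 0) {v φ : Fin 4 → Fin 4 → F}
    (hv : ∀ i, mat (a i) = ω • 1 + vecMulVec (v i) (φ i)) (hd : ∀ i, φ i ⬝ᵥ v i = 1 - ω) :
    ∃ (V : M4 F) (hV : IsUnit V.det), ∀ i, rho P hV (a i) = ω • 1 + R (C0 ω) i i := by
  have hω0 : -ω ≠ 0 := fun e => by
    rw [neg_eq_zero.1 e] at hω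
    simp at hω
  obtain ⟨-, -, ⟨p1, p2, p3⟩, -⟩ := core hs ha h0 hv hd
  have n1 := right_ne_zero_of_mul (p1.trans_ne hω0)
  have n2 := right_ne_zero_of_mul (p2.trans_ne hω0)
  have n3 := right_ne_zero_of_mul (p3.trans_ne hω0)
  let t : Fin 4 → F := ![1, CM φ v 1 0, CM φ v 2 1 * CM φ v 1 0,
    CM φ v 3 2 * (CM φ v 2 1 * CM φ v 1 0)]
  have ht : ∀ i, t i ≠ 0 := fun i => by fin_cases i <;> simp [t, n1, n2, n3]
  have hC : ∀ i j, CM (fun i => (t i)⁻¹ • φ i) (fun i => t i • v i) i j =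
      (t i)⁻¹ * (t j * CM φ v i j) := fun i j => by simp [CM, mul_left_comm]
  obtain ⟨hV, hr, ⟨q1, q2, q3⟩, ⟨z1, z2, z3⟩, z4, z5, z6⟩ := core hs ha h0
    (v := fun i => t i • v i) (φ := fun i => (t i)⁻¹ • φ i)
    (fun i => by rw [hv, smul_vecMulVec, vecMulVec_smul, smul_smul, mul_inv_cancel₀ (ht i),
      one_smul])
    (fun i => by rw [smul_dotProduct, dotProduct_smul, smul_smul, inv_mul_cancel₀ (ht i), one_smul,
      hd])
  refine ⟨_, hV, fun i => ?_⟩
  rw [hr]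
  set C := CM (fun i => (t i)⁻¹ • φ i) (fun i => t i • v i)
  have d : ∀ i, C i i = 1 - ω := fun i => by
    rw [hC, inv_mul_cancel_left₀ (ht i)]
    exact hd i
  have o1 : C 1 0 = 1 := by
    rw [hC, inv_mul_eq_one₀ (ht 1)]
    simp [t]
  have o2 : C 2 1 = 1 := by
    rw [hC, inv_mul_eq_one₀ (ht 2)]
    simp [t, mul_comm]
  have o3 : C 3 2 = 1 := by
    rw [hC, inv_mul_eq_one₀ (ht 3)]
    simp [t, mul_comm]
  rw [o1, mul_one] at q1
  rw [o2, mul_one] at q2
  rw [o3, mul_one] at q3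
  have e : C = C0 ω := by
    clear hC
    ext i j
    fin_cases i <;> fin_cases j <;> simp [C0, *]
  rw [e]

theorem lift_dat (h : Ctx P π) {x : Fin 4 → G} (hx : Dat x) :
    ∃ a : Fin 4 → P, (∀ i, π (a i) = x i) ∧ (∀ i, a i ^ 3 = 1) ∧ closure (Set.range a) = ⊤ ∧
      (∀ i j, x i * x j * x i = x j * x i * x j → a i * a j * a i = a j * a i * a j) ∧
      ∀ i j, x i * x j = x j * x i → a i * a j = a j * a i := by
  have o3 : Odd 3 ∨ (2 : F) = 0 := Or.inl (by decide)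
  choose a h1 h2 using fun i => exists_lift h.cov o3 (hx.cube i)
  have key : ∀ (g : P) i j, π g * x i = x j * π g → g * a i = a j * g := fun g i j e =>
    mul_inv_eq_iff_eq_mul.1 (lift_unique h.cov o3
      (by rw [map_mul, map_mul, map_inv, h1, h1, e, mul_inv_cancel_right])
      (by rw [conj_pow, h2, mul_one, mul_inv_cancel]) (h2 j))
  refine ⟨a, h1, h2, h.closure_eq_top ?_, fun i j e => ?_, fun i j e => key _ j j ?_⟩
  · rw [← Set.range_comp, show π ∘ a = x from funext h1, hx.gen]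
  · rw [key (a i * a j) i j (by rw [map_mul, h1, h1, e, mul_assoc]), mul_assoc]
  · rw [h1, e]

theorem conj_rk {a b g : P} (e : g * a = b * g) {v φ : Fin 4 → F}
    (h : mat a = ω • 1 + vecMulVec v φ) :
    ∃ v' φ', mat b = ω • 1 + vecMulVec v' φ' ∧ φ' ⬝ᵥ v' = φ ⬝ᵥ v := by
  refine ⟨mat g *ᵥ v, φ ᵥ* mat g⁻¹, ?_, ?_⟩
  · rw [← mul_inv_eq_iff_eq_mul.2 e, mat_mul, mat_mul, h, mul_add, add_mul, mul_smul_comm, mul_one,
      smul_mul_assoc, mat_mul_inv, mul_vecMulVec, vecMulVec_mul]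
  · rw [← dotProduct_mulVec, mulVec_mulVec, mat_inv_mul, one_mulVec]

theorem card_su [Fintype F] {σ : F →+* F} {f : (Fin 4 → F) → (Fin 4 → F) → F} (hσ : UField σ 2)
    (hf : HForm σ 1 f) : Nat.card (suG f) ≤ 25920 := by
  obtain ⟨Q, hQ⟩ := exists_tStr_dForm hσ.invol hf (Equiv.refl (Fin 4))
  have hc := hσ.card_SU (n := 4) (by norm_num)
  have h2 : Nat.card (SU 4 F 2) = 25920 := by
    norm_num [uOrd, Finset.prod_range_succ] at hc
    omega
  have hd : dForm σ = hermForm 4 F 2 := by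
    funext u v
    simp only [dForm, hσ.pow, hermForm]
  rw [← h2]
  refine Nat.card_le_card_of_surjective (fun s : SU 4 F 2 =>
    (⟨trG (Equiv.refl _) Q (SpecialLinearGroup.toGL s.1), (TStr.trG_mem_suG (tStr_one (σ := σ) hQ)).2
      (mem_suG.2 ⟨?_, s.1.2⟩)⟩ : suG f)) fun g => ?_
  · rw [hd]
    exact s.2
  · obtain ⟨k, hk⟩ := (trG (Equiv.refl _) Q).surjective g.1
    have := mem_suG.1 ((TStr.trG_mem_suG (tStr_one (σ := σ) hQ)).1 (hk ▸ g.2))
    rw [hd] at this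
    refine ⟨⟨⟨k, this.2⟩, this.1⟩, Subtype.ext (Eq.trans (congrArg (trG _ Q) ?_) hk)⟩
    exact Units.ext rfl

end U42

variable {F : Type*} [Field F] [Fintype F] {G : Type*} [Group G] {P : Subgroup (G4 F)}
  {π : P →* G}

open U42 in
theorem Ctx.u42 (p : ℕ) [Fact p.Prime] [CharP F p] (h : Ctx P π) (ht : TrGen P)
    (h3 : p = 3 → NoTv P) (e : IsoS4 G 3) : C42 P p ∨ IsSU P := by
  obtain ⟨K, _, _, hK, ⟨e⟩⟩ := e
  obtain ⟨hG, x, hx, y, z, y3, z3, yz, cy, cz⟩ := exists_dat hK e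
  have hp : p.Prime := Fact.out
  have := h.simple
  have := Fact.mk Nat.prime_three
  have ho : orderOf (x 0) = 3 := orderOf_eq_prime (hx.cube 0) hx.ne_one
  by_cases p3 : p = 3
  · subst p3
    exact (h.pc.not_heis_three (noTv_sup h.cov (h3 rfl)) (by simpa using CharP.cast_eq_zero F 3)
      y3 z3 ho yz cy cz).elim
  have n3 : ((3 : ℕ) : F) ≠ 0 := fun e => p3 ((D5.cast_eq_zero_iff p Nat.prime_three).1 e)
  have n3' : (3 : F) ≠ 0 := by simpa using n3
  obtain ⟨a, a1, a3, ag, ab, ac⟩ := lift_dat h hx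
  obtain ⟨-, ω, hω, hr, htr⟩ := heis_coprime h.cov Nat.prime_three (by decide) n3 y3 z3 ho yz cy cz
    (a1 0) (a3 0)
  have h0 := lam_ne hω n3'
  obtain ⟨v0, φ0, -, -, e0⟩ := exists_vecMulVec_of_rank_eq_one hr
  rw [sub_eq_iff_eq_add'] at e0
  have d0 : φ0 ⬝ᵥ v0 = 1 - ω := by
    rw [e0, trace_add, trace_smul, trace_one, trace_vecMulVec, dotProduct_comm] at htr
    simp only [Fintype.card_fin, smul_eq_mul, Nat.cast_ofNat] at htr
    linear_combination htr
  obtain ⟨v1, φ1, e1, d1⟩ := conj_rk ((ab 0 1 hx.b01).trans (mul_assoc _ _ _)) e0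
  obtain ⟨v2, φ2, e2, d2⟩ := conj_rk ((ab 1 2 hx.b12).trans (mul_assoc _ _ _)) e1
  obtain ⟨v3, φ3, e3, d3⟩ := conj_rk ((ab 2 3 hx.b23).trans (mul_assoc _ _ _)) e2
  have ha : Dat a := ⟨a3, ab 0 1 hx.b01, ab 1 2 hx.b12, ab 2 3 hx.b23, ac 0 2 hx.c02, ac 0 3 hx.c03,
    ac 1 3 hx.c13, ag⟩
  obtain ⟨V, hV, hB⟩ := frame h.qs.spans ha hω h0 (v := ![v0, v1, v2, v3]) (φ := ![φ0, φ1, φ2, φ3])
    (fun i => by fin_cases i <;> assumption)
    (fun i => by fin_cases i <;> simp [d3, d2, d1, d0])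
  let σ := frobenius F p
  let ρ' : P →* M4 F := (σ.mapMatrix : M4 F →+* M4 F).toMonoidHom.comp (rho P hV)
  have tρ : ∀ g, (ρ' g).trace = (mat g).trace ^ p := fun g => by
    rw [← trace_rho hV, ← frobenius_def, AddMonoidHom.map_trace]
    rfl
  have w3 : ω ^ 3 = 1 := by linear_combination (ω - 1) * hω
  have wp : σ ω = ω ^ (p % 3) := by
    rw [frobenius_def, ← Nat.div_add_mod p 3, pow_add, pow_mul, w3, one_pow, one_mul,
      Nat.div_add_mod]
  have m0 : p % 3 ≠ 0 := fun e =>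
    p3 ((Nat.prime_dvd_prime_iff_eq Nat.prime_three hp).1 (Nat.dvd_of_mod_eq_zero e)).symm
  have p2 := hp.eq_two_or_odd
  by_cases m1 : p % 3 = 1
  · rw [m1, pow_one] at wp
    have e : ρ' = rho P hV := MonoidHom.eq_of_eqOn_dense ag (by
      rintro _ ⟨i, rfl⟩
      change (rho P hV (a i)).map σ = _
      rw [hB, map_fix wp])
    exact Or.inl (Or.inl ⟨card_eq_of_fix p ht fun g => by rw [← tρ, e, trace_rho], by omega⟩)
  have m2 : p % 3 = 2 := by omega
  rw [m2, pow_two] at wp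
  have tr : ∀ g : P, (mat g).trace ^ p = (mat g⁻¹).trace := fun g => by
    rw [← tρ, ← trace_rho hV]
    refine trace_eq_of_form (rho P hV) ρ' (isUnit_C0 hω) ag ?_ g
    rintro _ ⟨i, rfl⟩
    change ((rho P hV (a i)).map σ)ᵀ * _ * _ = _
    rw [hB, map_form hω wp]
  rcases real_or_herm p h.qs ht tr with hr | hh
  · have e : (mat (a 0)).trace = (mat (a 0)⁻¹).trace := hr _ (a 0).2
    rw [← tr, htr, ← frobenius_def, map_add, map_mul, map_one, map_ofNat] at e
    change _ = 3 * σ ω + 1 at e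
    rw [wp] at e
    exact absurd (mul_left_cancel₀ n3' (by linear_combination ω ^ 2 * e - 3 * (1 - ω) * w3)) h0
  rcases p2 with rfl | p2
  · obtain ⟨τ, f, hτ, hf, hle⟩ := hh
    refine Or.inr ⟨τ, 2, f, hτ, hf, eq_of_le_of_card_ge (le_inf hle h.cov.sl) ?_⟩
    exact (card_su hτ hf).trans (hG.ge.trans (Nat.card_le_card_of_surjective π h.cov.surj))
  · exact Or.inl (Or.inr ⟨by omega, hh⟩)

end Cfsg.Agent.Cl.D4
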