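/-
Subgroups of `SL₄(F)`: extension of the ground field.
-/
import Mathlib
import Cfsg.Agent.Cl.D4B

set_option autoImplicit false

namespace Cfsg.Agent.Cl.D4

open Matrix Cfsg.Geo Cfsg.Agent.Cl.Max Cfsg.Agent.Cl.Mx Subgroup Polynomial
open Cfsg.Agent.Cl.D5 (MT Root TrGen Cov NoTv)

universe u

variable {F : Type u} [Field F] {G : Type*} [Group G] {P : Subgroup (G4 F)} {π : P →* G}

namespace X

variable {E : Type*} [Field E]

theorem splits_smul {A : M4 E} (h : A.charpoly.Splits) {c : E} (hc : c ≠ 0) :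
    (c • A).charpoly.Splits := by
  have e : (c • A).charpoly = C (c ^ 4) * A.charpoly.comp (C c⁻¹ * Polynomial.X) := by
    rw [charpoly, charpoly, ← coe_compRingHom_apply, RingHom.map_det, C_pow]
    refine Eq.trans (congrArg det ?_) (det_smul _ _)
    ext1 i j
    by_cases e : i = j
    · subst e
      have h1 : C c * C c⁻¹ = 1 := by rw [← C_mul, mul_inv_cancel₀ hc, C_1]
      simp [mul_sub, ← mul_assoc, h1]
    · simp [charmatrix_apply_ne _ _ _ e]
  rw [e]
  exact (h.comp_of_natDegree_le_one ((natDegree_C_mul_le _ _).trans natDegree_X_le)).C_mul _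

/-- Images of elements of `P` times scalars. -/
def mu (P : Subgroup (G4 F)) (ι : F →+* E) : P × Eˣ →* G4 E :=
  ((GeneralLinearGroup.map ι).comp P.subtype).noncommCoprod (sc (Fin 4))
    fun _ c => (mul_comm_of_mem_scalars (sc_mem c) _).symm

theorem coe_mu (ι : F →+* E) (x : P × Eˣ) : (mu P ι x : M4 E) = (x.2 : E) • (mat x.1).map ι := by
  change (mat x.1).map ι * (sc (Fin 4) x.2 : M4 E) = _
  rw [coe_sc, mul_smul_comm, mul_one]

theorem mu_mem (h : PC P π) (ι : F →+* E) (x : P × Eˣ) :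
    mu P ι x ∈ scalars (Fin 4) E ↔ π x.1 = 1 := by
  rw [h.eq_one_iff]
  refine ⟨fun e => ⟨mat x.1 0 0, ?_⟩, fun ⟨c, e⟩ => mem_scalars_of_eq_smul (c := x.2 * ι c) ?_⟩
  · obtain ⟨c, -, e⟩ := coe_eq_smul_of_mem_scalars e
    rw [coe_mu] at e
    ext i j
    refine ι.injective (mul_left_cancel₀ x.2.ne_zero ?_)
    have h1 := congrFun₂ e i j
    have h2 := congrFun₂ e 0 0
    simp only [Matrix.smul_apply, map_apply, smul_eq_mul, one_apply] at h1 h2 ⊢
    split_ifs at h1 ⊢ <;> simp_all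
  · rw [coe_mu, e]
    ext i j
    by_cases e : i = j <;> simp [e]

theorem one_add_pow {N : M4 E} (h : N * N = 0) (m : ℕ) : (1 + N) ^ m = 1 + (m : E) • N := by
  induction m with
  | zero => simp
  | succ m ih =>
    rw [pow_succ, ih, add_mul, mul_add, mul_add, smul_mul_assoc, smul_mul_assoc, h]
    simp only [one_mul, mul_one, smul_zero, Nat.cast_succ]
    module

theorem descend [Fintype E] (ι : F →+* E) {N : M4 E} (h : Mem (mu P ι).range (1 + N))
    (h2 : N * N = 0) : ∃ M : M4 F, Mem P (1 + M) ∧ N = ι.mapMatrix M := by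
  obtain ⟨_, ⟨x, rfl⟩, e⟩ := h
  refine ⟨mat (x.1 ^ (Fintype.card E - 1) ^ 2) - 1, by rw [add_sub_cancel]; exact mem_mat _, ?_⟩
  have h1 := one_add_pow h2 ((Fintype.card E - 1) ^ 2)
  rw [← e, coe_mu, _root_.smul_pow, pow_two, pow_mul, FiniteField.pow_card_sub_one_eq_one _ x.2.ne_zero,
    one_pow, one_smul, Nat.cast_mul, Nat.cast_sub Fintype.card_pos,
    FiniteField.cast_card_eq_zero] at h1
  rw [map_sub, map_one, mat_pow, map_pow, pow_two, RingHom.mapMatrix_apply, h1]
  simp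

theorem inj (ι : F →+* E) : Function.Injective (ι.mapMatrix : M4 F →+* M4 E) :=
  Matrix.map_injective ι.injective

end X

open X in
theorem Ctx.exists_od [Finite F] (h : Ctx P π) (h2 : (2 : F) ≠ 0) (hT : NoTv P) (hS : Small P) :
    ∃ (E : Type u) (_ : Field E) (_ : Finite E) (Q : Subgroup (G4 E)) (ρ : Q →* G), Od Q ρ := by
  classical
  have := Fintype.ofFinite P
  let f : F[X] := (Polynomial.X ^ 4 + C 1) * ∏ g : P, (mat g).charpoly
  have f0 : f ≠ 0 := ((monic_X_pow_add_C _ four_ne_zero).mul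
    (monic_prod_of_monic _ _ fun g _ => charpoly_monic _)).ne_zero
  let E := f.SplittingField
  let ι := algebraMap F E
  have : Finite E := Module.finite_of_finite F
  have := Fintype.ofFinite E
  have hs : ∀ g, g ∣ f → (g.map ι).Splits := fun g hg =>
    (SplittingField.splits f).of_dvd (Polynomial.map_ne_zero f0) (Polynomial.map_dvd _ hg)
  let ρ := (mu P ι).rangeRestrict.liftOfSurjective (mu P ι).rangeRestrict_surjective
    ⟨π.comp (MonoidHom.fst _ _), fun x hx => (mu_mem h.pc ι x).1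
      ((show mu P ι x = 1 from congrArg Subtype.val hx).symm ▸ one_mem _)⟩
  have hρ : ∀ x, ρ ((mu P ι).rangeRestrict x) = π x.1 := fun x =>
    MonoidHom.liftOfRightInverse_comp_apply _ _ _ _ x
  refine ⟨E, inferInstance, inferInstance, _, ρ, ⟨fun x => ?_, fun g => ?_⟩, ?_, fun Y => ?_,
    h.simple, h.nonab, ?_, ?_, ?_, ?_, ?_⟩
  · obtain ⟨a, rfl⟩ := h.cov.surj x
    exact ⟨_, hρ (a, 1)⟩
  · obtain ⟨x, rfl⟩ := (mu P ι).rangeRestrict_surjective g
    rw [hρ, ← mu_mem h.pc ι]
    rfl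
  · rintro _ ⟨c, rfl⟩
    exact ⟨(1, c), by simp [mu, sc]⟩
  · have h1 : ∀ Z : M4 F, ι.mapMatrix Z ∈ spanAlg (mu P ι).range := fun Z =>
      spanAlg_induction (p := fun Z => ι.mapMatrix Z ∈ spanAlg (mu P ι).range)
        (fun g hg => by simpa [coe_mu] using
          coe_mem_spanAlg (N := (mu P ι).range) ⟨(⟨g, hg⟩, 1), rfl⟩)
        (by simp) (fun a b ha hb => by rw [map_add]; exact add_mem ha hb)
        (fun c a ha => by
          convert Subalgebra.smul_mem _ ha (ι c) using 1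
          ext
          simp) (h.qs.spans Z)
    rw [matrix_eq_sum_single Y]
    refine sum_mem fun i _ => sum_mem fun j _ => ?_
    convert Subalgebra.smul_mem _ (h1 (single i j 1)) (Y i j) using 1
    simp [map_single]
  · rwa [← map_ofNat ι 2, _root_.map_ne_zero]
  · obtain ⟨ζ, e⟩ := (hs _ (dvd_mul_right _ _)).exists_eval_eq_zero (by
      rw [degree_map, degree_X_pow_add_C four_pos]; norm_num)
    exact ⟨ζ, eq_neg_of_add_eq_zero_left (by simpa using e)⟩
  · rintro _ ⟨x, rfl⟩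
    rw [coe_mu]
    refine splits_smul ?_ x.2.ne_zero
    rw [Matrix.charpoly_map]
    exact hs _ ((Finset.dvd_prod_of_mem _ (Finset.mem_univ x.1)).mul_left _)
  · rintro v φ ⟨h0, g, hg, e⟩
    obtain ⟨M, hM, e'⟩ := descend ι (N := vecMulVec v φ) ⟨g, hg, ext_iff_mulVec.2 fun x => by
      rw [e, add_mulVec, one_mulVec, vecMulVec_mulVec, op_smul_eq_smul]⟩
      (by rw [vecMulVec_mul_vecMulVec, h0]; simp)
    have h3 : ∀ i j, v i * φ j = ι (M i j) := fun i j => congrFun₂ e' i j
    by_contra hn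
    push Not at hn
    obtain ⟨i, hi⟩ := Function.ne_iff.1 hn.1
    obtain ⟨j, hj⟩ := Function.ne_iff.1 hn.2
    have h4 : M i j ≠ 0 := fun e => mul_ne_zero hi hj (by rw [h3, e, map_zero])
    have h5 : M = vecMulVec (fun a => M a j) fun b => M i b / M i j := by
      ext a b
      refine ι.injective ?_
      rw [vecMulVec_apply, map_mul, map_div₀, ← h3, ← h3, ← h3, ← h3, ← mul_div_assoc,
        eq_div_iff (mul_ne_zero hi hj)]
      ring
    exact h4 (congrFun₂ (notTv_of_noTv hT hM (inj ι (by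
      rw [map_mul, ← e', vecMulVec_mul_vecMulVec, h0]; simp)) (h5 ▸ rank_vecMulVec_le _ _)) i j)
  · intro N M h1 h3 h4 h5 h6 h7 h8
    obtain ⟨N, hN, rfl⟩ := descend ι h1 h5
    obtain ⟨M, hM, rfl⟩ := descend ι h3 h6
    rw [← map_neg]
    simp only [← map_mul, ne_eq, map_eq_zero_iff _ (inj ι), (inj ι).eq_iff] at *
    exact hS N M hN hM h4 h5 h6 h7 h8

end Cfsg.Agent.Cl.D4
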