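import Mathlib
import Cfsg.Agent.Cl.DerExt2

/-! Elements of prime order of `PΩ_n(q)` and quadratic extension field subgroups. -/

set_option autoImplicit false
set_option linter.unusedSectionVars false

namespace Cfsg.Agent.Cl.Der

open Polynomial Module Cfsg.Agent.Cl.Cls
open QuadraticMap hiding sq

theorem arith_aux₁ (x e a c : ℕ) : 2 * x * e * (a * c) = x * (a * (2 * e * c)) := by ring

theorem arith_aux₂ (x e a c d : ℕ) : 2 * x * e * (a * c * d) = x * (a * (2 * e * (c * d))) := by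
  ring

theorem arith_aux₃ (x e a c d : ℕ) : 2 * x * e * (a * c * d) = x * (e * a * (2 * (c * d))) := by
  ring

section SA

variable {F V : Type*} [Field F] [AddCommGroup V] [Module F V] [FiniteDimensional F V]
  {f g a : End F V} {Q Q' : QuadraticForm F V} {z : F}

/-- Self-adjoint maps. -/
def SA (Q : QuadraticForm F V) (a : End F V) : Prop :=
  ∀ u v, polarBilin Q (a u) v = polarBilin Q u (a v)

theorem SA.aeval (h : SA Q a) (P : F[X]) : SA Q (aeval a P) := fun u v => by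
  induction P using Polynomial.induction_on generalizing u v with
  | C c => simp [-polarBilin_apply_apply]
  | add p q hp hq => simp [-polarBilin_apply_apply, hp, hq]
  | monomial n c ih =>
    rw [pow_succ, ← mul_assoc, aeval_mul_apply, ih, aeval_X, h, mul_comm _ X, aeval_mul_apply X,
      aeval_X]

theorem SimB.sa (h : SimB (σ := RingHom.id F) (polarBilin Q) z a) (h' : a ^ 2 = z • 1)
    (hz : z ≠ 0) : SA Q a := fun u v => mul_left_cancel₀ hz (by
  rw [← h u, ← End.mul_apply a a v, ← sq, h']; simp [-polarBilin_apply_apply])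

theorem quad_disc_of_comp {ι : Type*} [Fintype ι] [DecidableEq ι] (b : Basis ι F V)
    (h : ∀ u v, polarBilin Q' u v = polarBilin Q (g u) v) :
    quad_disc Q' b = LinearMap.det g * quad_disc Q b := by
  rw [quad_disc_eq_toMatrix, quad_disc_eq_toMatrix, show polarBilin Q' =
    LinearMap.BilinForm.compLeft (polarBilin Q) g from LinearMap.ext₂ h,
    LinearMap.BilinForm.toMatrix_compLeft, Matrix.det_mul, Matrix.det_transpose,
    LinearMap.det_toMatrix]

theorem orefl_comm (h : IsoQ Q g) {c : V} (hc : g c = c ∨ g c = -c) (v : V) :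
    g ((orefl Q c).1 v) = (orefl Q c).1 (g v) := by
  have h1 : polar Q (g v) (g c) = polar Q v c := h.mapB v c
  rw [orefl_app, orefl_app, map_sub, map_smul, ← h1]
  rcases hc with hc | hc <;> simp [hc]

variable [Fintype F]

theorem GeomQ.exists_sa_of_sq (hG : GeomQ Q) (h2 : (2 : F) ≠ 0) (he : Even (finrank F V))
    (h : InO Q f) (hf : f ^ 2 = 1) (hz : z ≠ 0) :
    ∃ a, SA Q a ∧ a ^ 2 = z • 1 ∧ ∀ v, f (a v) = a (f v) := by
  obtain ⟨j, hj, -⟩ := (hG.inO_iff_of_sq h2 h.iso hf).1 h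
  have h1 := hG.nd_fixS h.iso (isSemisimple_of_sq_eq_one h2 hf)
  have h3 := hG.finrank_add_perp (fixS f)
  have hc := hG.isCompl_perp h1
  obtain ⟨a, a1, a2⟩ := h1.geomQ.exists_sq h2 (by rw [Nat.even_iff] at he ⊢; omega) z
  obtain ⟨b, b1, b2⟩ := (hG.nd_perp h1).geomQ.exists_sq h2 ⟨j, by omega⟩ z
  have a3 : ∀ u v : fixS f, polarBilin Q (a u) v = polarBilin Q u (a v) := by
    simpa only [SA, polarBilin_restrict, resB_apply] using a1.sa a2 hz
  have b3 : ∀ u v : perpQ Q (fixS f), polarBilin Q (b u) v = polarBilin Q u (b v) := by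
    simpa only [SA, polarBilin_restrict, resB_apply] using b1.sa b2 hz
  have h4 : ∀ (u : fixS f) (w : perpQ Q (fixS f)), polarBilin Q u w = 0 := fun u w => w.2 u u.2
  have h5 : ∀ (u : fixS f) (w : perpQ Q (fixS f)), polarBilin Q w u = 0 := fun u w =>
    hG.comm.1 (h4 u w)
  have h6 : ∀ u : fixS f, f u = u := fun u => mem_fixS.1 u.2
  have h7 : ∀ w : perpQ Q (fixS f), f w = -w := fun w => hG.apply_of_mem_perp_fixS h.iso hf w.2
  refine ⟨LinearMap.ofIsCompl hc ((fixS f).subtype ∘ₗ a) ((perpQ Q (fixS f)).subtype ∘ₗ b),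
    fun u v => ?_, LinearMap.ext fun u => ?_, fun u => ?_⟩ <;>
    obtain ⟨u, w, rfl, -⟩ := Submodule.existsUnique_add_of_isCompl hc u
  · obtain ⟨u', w', rfl, -⟩ := Submodule.existsUnique_add_of_isCompl hc v
    simp [-polarBilin_apply_apply, a3, b3, h4, h5]
  · have a4 : a (a u) = z • u := LinearMap.congr_fun a2 u
    have b4 : b (b w) = z • w := LinearMap.congr_fun b2 w
    simp [sq, a4, b4]
  · simp [h6, h7]

theorem GeomQ.exists_sa_of_sq_neg (hG : GeomQ Q) (h2 : (2 : F) ≠ 0) [Nontrivial V]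
    (h : IsoQ Q f) (hf : f ^ 2 = -1) (z : F) : ∃ a c, SA Q a ∧ a ^ 2 = z • 1 ∧ Q c ≠ 0 ∧
      (∀ v, f (a v) = -a (f v)) ∧ ∀ v, (orefl Q c).1 (f ((orefl Q c).1 (a v))) =
        -a ((orefl Q c).1 (f ((orefl Q c).1 v))) := by
  obtain ⟨U, u1, u2, u3⟩ := hG.exists_half h2 h hf _ ⊤ (fun _ _ => Submodule.mem_top) hG.nd_top
    le_rfl
  obtain ⟨ρ, r1, r2, r3, r4⟩ := hG.exists_neg_on h2 u1
  obtain ⟨s, t, hst⟩ := exists_sq_add_mul_sq h2 one_ne_zero z
  obtain ⟨c, c1, c2⟩ := u1.exists_ne_zero (Nat.pos_of_ne_zero fun h0 => by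
    rw [Submodule.finrank_eq_zero.1 h0, Submodule.map_bot, sup_idem] at u3
    exact bot_ne_top u3)
  have f1 := apply_apply_of_sq_eq_neg_one hf
  have r5 := apply_apply_of_sq_eq_one r2
  have r6 : ∀ v, ρ (f v) = -f (ρ v) := fun v => by
    obtain ⟨u, hu, _, ⟨w, hw, rfl⟩, rfl⟩ := Submodule.mem_sup.1 (u3 ▸ Submodule.mem_top : v ∈ _)
    have h1 : ∀ u ∈ U, ρ (f u) = f u := fun u hu => mem_fixS.1 (r3 ▸ u2 ⟨u, hu, rfl⟩)
    simp [f1, h1 u hu, h1 w hw, r4 u hu, r4 w hw, add_comm]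
  have r7 : ∀ u v, polarBilin Q (ρ u) v = polarBilin Q u (ρ v) := fun u v => by
    rw [← r1.mapB, r5]
  have f2 : ∀ u v, polarBilin Q (f u) v = -polarBilin Q u (f v) := fun u v => by
    rw [← h.mapB, f1, map_neg, LinearMap.neg_apply]
  have f3 : polar Q (f c) c = 0 := hG.comm.1 (polar_apply_of_sq_eq_neg_one h2 h hf c)
  have c3 := orefl_comm r1 (Or.inr (r4 c c1))
  have c4 : ∀ v, (orefl Q c).1 (f ((orefl Q c).1 (f v))) =
      f ((orefl Q c).1 (f ((orefl Q c).1 v))) := fun v => by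
    simp only [orefl_app, map_sub, map_smul, f1, polar_neg_left, f3]
    module
  refine ⟨s • ρ + t • (f * ρ), c, fun u v => ?_, LinearMap.ext fun v => ?_, c2, fun v => ?_,
    fun v => ?_⟩
  · simp [-polarBilin_apply_apply, r7, f2, r6]
  · simp only [sq, End.mul_apply, LinearMap.add_apply, LinearMap.smul_apply, map_add, map_smul, r6,
      r5, map_neg, f1, ← hst, End.one_apply]
    module
  · simp only [End.mul_apply, LinearMap.add_apply, LinearMap.smul_apply, map_add, map_smul, r6,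
      map_neg]
    module
  · simp only [End.mul_apply, LinearMap.add_apply, LinearMap.smul_apply, map_add, map_smul, r6,
      map_neg, c3, c4]
    module

end SA

section Tw

variable {F L V : Type*} [Field F] [Field L] [Algebra F L] [AddCommGroup V] [Module F V]

/-- `V` with the structure of a vector space over the extension field given by `φ`. -/
def Tw (_ : L →ₐ[F] End F V) : Type _ := V

instance (φ : L →ₐ[F] End F V) : AddCommGroup (Tw φ) := ‹_›
instance (φ : L →ₐ[F] End F V) : Module F (Tw φ) := ‹Module F V›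
instance (φ : L →ₐ[F] End F V) : Module L (Tw φ) := Module.compHom V (φ : L →+* End F V)
instance (φ : L →ₐ[F] End F V) : IsScalarTower F L (Tw φ) :=
  ⟨fun c l v => LinearMap.congr_fun (map_smul φ c l) v⟩
instance (φ : L →ₐ[F] End F V) [FiniteDimensional F V] : FiniteDimensional F (Tw φ) :=
  ‹FiniteDimensional F V›

end Tw

section Lift

variable {F L V V' : Type*} [Field F] [Field L] [Algebra F L] [AddCommGroup V] [Module F V]
  [Module L V] [IsScalarTower F L V] [AddCommGroup V'] [Module F V'] [Module L V']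
  [IsScalarTower F L V'] [Fintype F] [Fintype L] [FiniteDimensional F V] [FiniteDimensional F V']
  [FiniteDimensional L V] [FiniteDimensional L V'] {f g : End F V} {σ : L ≃ₐ[F] L} {Q : QuadraticForm F V} {Q' : QuadraticForm F V'}
  {P : QuadraticForm L V} {P' : QuadraticForm L V'}

theorem two_ne_zero_ext (h2 : (2 : F) ≠ 0) : (2 : L) ≠ 0 := fun h =>
  h2 ((algebraMap F L).injective (by rw [map_ofNat, h, map_zero]))

theorem isSquare_of_norm (h2 : (2 : F) ≠ 0) {l : L} (h : IsSquare (Algebra.norm F l)) :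
    IsSquare l := by
  by_contra h1
  obtain ⟨z, hz⟩ := FiniteField.exists_nonsquare (ringChar_ne_two h2)
  obtain ⟨m, rfl⟩ := FiniteField.norm_surjective F L z
  obtain ⟨b, rfl⟩ := exists_mul_sq (two_ne_zero_ext h2) (mt (IsSquare.map (Algebra.norm F)) hz) h1
  exact hz (by rw [map_mul, map_pow]; exact (IsSquare.sq _).mul h)

/-- `Q` is the trace of `P`. -/
def LiftQ (Q : QuadraticForm F V) (P : QuadraticForm L V) : Prop :=
  ∀ v, Algebra.trace F L (P v) = Q v

theorem LiftQ.lift (h : LiftQ Q P) : Lift (ρ := RingHom.id L) (polarBilin Q) (polarBilin P) :=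
  fun u v => by simp [polar, h _]

theorem GeomQ.exists_liftQ (hG : GeomQ Q) (h2 : (2 : F) ≠ 0) (h : ∀ l : L, SA Q (lsm F V l)) :
    ∃ P : QuadraticForm L V, GeomQ P ∧ LiftQ Q P := by
  obtain ⟨β, hβ⟩ := exists_lift (RingHom.id L) h
  have h1 : ∀ x y, β y x = β x y := fun x y => eq_of_trace F fun l => by
    rw [hβ.trace_mul, hβ.trace_mul, symm_polarBilin]; exact h l x y
  have h3 : polarBilin ((2 : F)⁻¹ • LinearMap.BilinMap.toQuadraticMap β) = β :=
    LinearMap.ext₂ fun x y => by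
      refine (QuadraticMap.polar_smul _ _ x y).trans ?_
      rw [LinearMap.BilinMap.polar_toQuadraticMap, h1 x y, ← two_smul F, inv_smul_smul₀ h2]
  refine ⟨(2 : F)⁻¹ • LinearMap.BilinMap.toQuadraticMap β, geom_quad (h3.symm ▸
    ⟨hβ.nondeg hG.nondeg, fun y hy => hβ.nondeg hG.nondeg y fun x => h1 y x ▸ hy x⟩), fun v => ?_⟩
  rw [smul_apply, map_smul, LinearMap.BilinMap.toQuadraticMap_apply, hβ,
    polarBilin_self, smul_eq_mul, inv_mul_cancel_left₀ h2]

theorem LiftQ.isoQ (h : LiftQ Q P) {g : End L V} (hg : IsoQ P g) : IsoQ Q (g.restrictScalars F) :=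
  isoQ_iff.2 fun v => by rw [← h, ← h, LinearMap.restrictScalars_apply, hg.mapQ]

theorem LiftQ.isoQ_of (h : LiftQ Q P) (h2 : (2 : F) ≠ 0) {g : End L V}
    (hg : IsoQ Q (g.restrictScalars F)) : IsoQ P g :=
  SimB.isoQ (two_ne_zero_ext h2) fun u v => by rw [one_mul, (h.lift.iso_res_iff g).1 hg.mapB]

theorem exists_equiv_of_liftQ (h2 : (2 : F) ≠ 0) (hQ : GeomQ Q) (hP : GeomQ P)
    (h : LiftQ Q P) (h' : LiftQ Q' P') (e : V ≃ₗ[F] V')
    (he : ∀ v, Q' (e v) = Q v) : ∃ e : V ≃ₗ[L] V', ∀ v, Q' (e v) = Q v := by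
  have hd : finrank L V = finrank L V' := Nat.eq_of_mul_eq_mul_left finrank_pos
    ((finrank_mul_finrank F L V).trans (e.finrank_eq.trans (finrank_mul_finrank F L V').symm))
  let t := LinearEquiv.ofFinrankEq V V' hd
  let T := LinearMap.BilinForm.symmCompOfNondegenerate (polarBilin (P'.comp t.toLinearMap)) _
    hP.nondegenerate
  have h1 : ∀ u v, polarBilin (P'.comp t.toLinearMap) u v = polarBilin P (T u) v := fun u v =>
    (LinearMap.BilinForm.symmCompOfNondegenerate_left_apply _ _ v u).symm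
  have h3 : LiftQ (Q'.comp (t.restrictScalars F).toLinearMap) (P'.comp t.toLinearMap) :=
    fun v => h' (t v)
  have h4 := quad_disc_of_comp (finBasis L V) h1
  have h5 := quad_disc_of_comp (g := T.restrictScalars F) (finBasis F V) fun u v => by
    rw [← h3.lift, h1, h.lift, LinearMap.restrictScalars_apply]
  obtain ⟨s, s1, s2⟩ := quad_disc_of_equiv (Q := Q) (Q' := Q'.comp (t.restrictScalars F).toLinearMap)
    (e.trans (t.restrictScalars F).symm) (fun v => by simp [he]) (finBasis F V) (finBasis F V)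
  have h6 := mul_right_cancel₀ ((quad_disc_ne_zero_iff Q _).2 hQ.nondegenerate) (h5.symm.trans s2)
  rw [LinearMap.det_restrictScalars] at h6
  obtain ⟨u, hu⟩ := isSquare_of_norm h2 (h6 ▸ IsSquare.sq s)
  obtain ⟨g, hg⟩ := (quad_equiv_iff_disc (two_ne_zero_ext h2) hP.nondegenerate
    (Q' := P'.comp t.toLinearMap) ((quad_disc_ne_zero_iff _ (finBasis L V)).1 (by
      rw [h4]
      refine mul_ne_zero (fun h0 => ?_) ((quad_disc_ne_zero_iff P _).2 hP.nondegenerate)
      rw [h0, Algebra.norm_zero] at h6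
      exact pow_ne_zero 2 s1 h6.symm)) rfl (finBasis L V) (finBasis L V)).2
      ⟨u * quad_disc P (finBasis L V), by rw [h4, hu]; ring⟩
  exact ⟨g.trans t, fun v => (h3 _).symm.trans ((congrArg _ (hg v)).trans (h v))⟩

theorem exists_gen (hk : finrank F L = 2) {z : F} (hz : ¬ IsSquare z) :
    ∃ pb : PowerBasis F L, pb.gen ^ 2 = algebraMap F L z ∧ minpoly F pb.gen = X ^ 2 - C z := by
  have h1 : ∀ c : F, c ^ 2 ≠ z := fun c h => hz (h ▸ IsSquare.sq c)
  obtain ⟨δ, hδ⟩ := exists_pow_eq_of_nonpow (L := L) Nat.prime_two (hk ▸ dvd_rfl) h1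
  have h2 : minpoly F δ = X ^ 2 - C z := (minpoly.eq_of_irreducible_of_monic
    (X_pow_sub_C_irreducible_of_prime Nat.prime_two h1) (by simp [hδ])
    (monic_X_pow_sub_C z two_ne_zero)).symm
  have h3 := (Field.primitive_element_iff_minpoly_natDegree_eq F δ).2 (by
    rw [h2, natDegree_X_pow_sub_C, hk])
  refine ⟨(IntermediateField.adjoin.powerBasis (.of_finite F δ)).map
    ((IntermediateField.equivOfEq h3).trans IntermediateField.topEquiv), hδ, h2⟩

theorem semiB_of_gen (pb : PowerBasis F L) (h : ∀ v, f (pb.gen • v) = σ pb.gen • f v) :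
    SemiB σ f := fun l v => by
  obtain ⟨p, rfl⟩ := pb.exists_eq_aeval' l
  rw [← aeval_algHom_apply, ← lsm_apply (F := F), ← lsm_apply (F := F), ← aeval_algHom_apply,
    ← aeval_algHom_apply]
  exact intertwine_aeval f h p v

theorem GeomQ.exists_conj_sa (hG : GeomQ Q) (h2 : (2 : F) ≠ 0) (h : ∀ l : L, SA Q (lsm F V l))
    (pb : PowerBasis F L) {a : End F V} (ha : SA Q a) (h1 : aeval a (minpoly F pb.gen) = 0) :
    ∃ u : OG Q, ∀ v, u.1 (pb.gen • v) = a (u.1 v) := by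
  obtain ⟨P, p1, p2⟩ := hG.exists_liftQ h2 h
  obtain ⟨φ, hφ⟩ : ∃ φ : L →ₐ[F] End F V, ∀ p, φ (aeval pb.gen p) = aeval a p :=
    ⟨pb.lift a h1, pb.lift_aeval a h1⟩
  have := Module.Finite.of_restrictScalars_finite F L (Tw φ)
  obtain ⟨P', q1, q2⟩ := GeomQ.exists_liftQ (V := Tw φ) (L := L) hG h2 fun l => by
    obtain ⟨p, rfl⟩ := pb.exists_eq_aeval' l
    exact (hφ p ▸ ha.aeval p : SA Q (φ _))
  obtain ⟨e, he⟩ := exists_equiv_of_liftQ (V' := Tw φ) h2 hG p1 p2 q2
    (LinearEquiv.refl F V) fun _ => rfl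
  exact ⟨⟨e.restrictScalars F, he⟩, fun v => (e.map_smul _ v).trans
    (LinearMap.congr_fun (by simpa using hφ X : φ pb.gen = a) _)⟩

theorem GeomQ.exists_lin_spin (hG : GeomQ Q) (h2 : (2 : F) ≠ 0) (h : ∀ l : L, SA Q (lsm F V l))
    (hk : finrank F L = 2) (hn : 4 ≤ finrank F V) {δ : L} {z : F} (hz : ¬ IsSquare z)
    (hδ : δ ^ 2 = algebraMap F L z) (hσ : σ δ = -δ) : ∃ w : OG Q, (∀ v, w.1 (δ • v) = δ • w.1 v) ∧
      dickson hG.nondegenerate w = 1 ∧ ospin hG.nondegenerate w = -1 := by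
  obtain ⟨P, p1, p2⟩ := hG.exists_liftQ h2 h
  have hV := finrank_mul_finrank F L V
  obtain ⟨v, -, hv⟩ := p1.nd_top.exists_eq (by rw [finrank_top]; rw [hk] at hV; omega) 1
  have h0 : z ≠ 0 := fun e => hz (e ▸ IsSquare.zero)
  have h1 : Q v = 2 := by
    rw [← p2, hv, ← map_one (algebraMap F L), Algebra.trace_algebraMap, hk]; simp
  have h3 : ∀ x, δ • δ • x = z • (x : V) := fun x => by
    rw [smul_smul, ← sq, hδ, algebraMap_smul]
  have h4 : ∀ x y, polar Q (δ • x) y = polar Q x (δ • y) := h δ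
  have h5 : Q (δ • v) = z * 2 := mul_left_cancel₀ h2 (by
    rw [← o_polar_self, h4, h3, polar_smul_right, o_polar_self, h1, smul_eq_mul]; ring)
  have h6 : polar Q v (δ • v) = 0 := by
    have h7 := Algebra.trace_eq_of_algEquiv σ δ
    rw [hσ, map_neg, neg_eq_iff_add_eq_zero, ← two_mul, mul_eq_zero] at h7
    rw [← polarBilin_apply_apply, ← p2.lift.trace_mul, polarBilin_self, hv, mul_one, mul_two,
      map_add, h7.resolve_left h2, add_zero]
  have h7 : Q (δ • v) ≠ 0 := h5 ▸ mul_ne_zero h0 h2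
  refine ⟨orefl Q v * orefl Q (δ • v), fun x => ?_, ?_, ?_⟩
  · have hw : ∀ x, (orefl Q v * orefl Q (δ • v)).1 x = x - (2⁻¹ * polar Q x v) • v -
        ((z * 2)⁻¹ * polar Q x (δ • v)) • δ • v := fun x => by
      simp only [OG.mul_app, orefl_app, polar_sub_left, polar_smul_left, h4 v v, h6, h1, h5,
        smul_zero, sub_zero]
      abel
    have e1 : ∀ t : F, (z * 2)⁻¹ * t * z = 2⁻¹ * t := fun t => by field_simp
    rw [hw, hw, h4, h4, h3, polar_smul_right, smul_sub, smul_sub, smul_comm δ, smul_comm δ, h3,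
      smul_smul, e1, smul_eq_mul, mul_comm z (polar _ _ _), ← mul_assoc, e1]
    abel
  · rw [map_mul, dickson_orefl _ (h1 ▸ h2), dickson_orefl _ h7]; simp
  · rw [map_mul, ospin_orefl _ (h1 ▸ h2), ospin_orefl _ h7, h1, h5, sqSign_mul h0 h2,
      sqSign_eq_neg_one_iff.2 hz, mul_left_comm, Int.units_mul_self, mul_one]

variable (L Q) in
/-- `f` is conjugate under `Ω(Q)` to a semilinear map. -/
def ConjO (f : End F V) : Prop :=
  ∃ (g y : End F V) (σ : L ≃ₐ[F] L), InO Q g ∧ SemiB σ y ∧ f * g = g * y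

theorem ConjO.fixI (h : ConjO L Q f) (hf : IsoQ Q f) : FixI L (polarBilin Q) Q f := by
  obtain ⟨_, y, σ, ⟨g, -, rfl⟩, h1, h2⟩ := h
  have h3 : ∀ v, g.1 (y v) = f (g.1 v) := fun v => (LinearMap.congr_fun h2 v).symm
  exact ⟨σ, y, h1, isoQ_iff.2 fun v => by rw [← OG.map_app g, h3, hf.mapQ, OG.map_app], g.1, h3⟩

theorem GeomQ.conjO_of_sq (hG : GeomQ Q) (h2 : (2 : F) ≠ 0) (hL : ∀ l : L, SA Q (lsm F V l))
    (hk : finrank F L = 2) (hn : 4 ≤ finrank F V) (h : InO Q f) (hf : f ^ 2 = 1 ∨ f ^ 2 = -1)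
    (h1 : f ≠ 1) : ConjO L Q f := by
  have : Nontrivial V := Module.nontrivial_of_finrank_pos (R := F) (by omega)
  obtain ⟨z, hz⟩ := FiniteField.exists_nonsquare (ringChar_ne_two h2)
  obtain ⟨pb, hδ, hm⟩ := exists_gen hk hz
  obtain ⟨θ, hθ⟩ := exists_ne_one (F := F) (L := L) (by omega)
  have h3 : θ pb.gen = -pb.gen := (sq_eq_sq_iff_eq_or_eq_neg.1 (by
    rw [← map_pow, hδ, AlgEquiv.commutes])).resolve_left fun e =>
      hθ (AlgEquiv.coe_toAlgHom_injective (pb.algHom_ext e))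
  obtain ⟨w, w1, w2, w3⟩ := hG.exists_lin_spin h2 hL hk hn hz hδ h3
  obtain ⟨a, c, s, σ, a1, a2, c1, hs, a3, a4⟩ : ∃ (a : End F V) (c : V) (s : F) (σ : L ≃ₐ[F] L),
      SA Q a ∧ a ^ 2 = z • 1 ∧ Q c ≠ 0 ∧ σ pb.gen = s • pb.gen ∧ (∀ v, f (a v) = s • a (f v)) ∧
      ∀ v, (orefl Q c).1 (f ((orefl Q c).1 (a v))) =
        s • a ((orefl Q c).1 (f ((orefl Q c).1 v))) := by
    rcases hf with hf | hf
    · obtain ⟨a, a1, a2, a3⟩ := hG.exists_sa_of_sq h2
        ⟨finrank L V, by rw [← finrank_mul_finrank F L V, hk, two_mul]⟩ h hf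
        (z := z) fun e => hz (e ▸ IsSquare.zero)
      obtain ⟨c, c1, c2⟩ := (hG.nd_perp (hG.nd_fixS h.iso
        (isSemisimple_of_sq_eq_one h2 hf))).exists_ne_zero (by
          have := hG.finrank_add_perp (fixS f)
          have := Submodule.finrank_lt (mt (fixS_eq_top (f := f)).1 h1)
          omega)
      have c3 := orefl_comm h.iso (Or.inr (hG.apply_of_mem_perp_fixS h.iso hf c1))
      exact ⟨a, c, 1, 1, a1, a2, c2, by simp, by simp [a3], by simp [c3, a3]⟩
    · obtain ⟨a, c, a1, a2, c1, a3, a4⟩ := hG.exists_sa_of_sq_neg h2 h.iso hf z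
      exact ⟨a, c, -1, θ, a1, a2, c1, by simp [h3], by simp [a3], by simp [a4]⟩
  obtain ⟨u, hu⟩ := hG.exists_conj_sa h2 hL pb a1 (hm ▸ aeval_X_pow_sub_C_eq_zero.2 a2)
  have hu' : ∀ v, (u⁻¹).1 (a v) = pb.gen • (u⁻¹).1 v := fun v => by
    rw [OG.inv_app_eq_iff, hu, OG.app_inv_app]
  have w4 : ∀ v, (w⁻¹).1 (pb.gen • v) = pb.gen • (w⁻¹).1 v := fun v => by
    rw [OG.inv_app_eq_iff, w1, OG.app_inv_app]
  let S := fun u : OG Q => ∀ v, (u⁻¹).1 (f (u.1 (pb.gen • v))) = s • pb.gen • (u⁻¹).1 (f (u.1 v))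
  have s1 : S u := fun v => by rw [hu, a3, map_smul, hu']
  have s2 : S (orefl Q c * u) := fun v => by
    simp only [mul_inv_rev, OG.mul_app, orefl_inv, hu, a4, map_smul, hu']
  have s3 : ∀ u, S u → S (u * w) := fun u h v => by
    simp only [mul_inv_rev, OG.mul_app, w1, h _, map_smul, w4]
  have s4 : ∀ u, S u → dickson hG.nondegenerate u = 1 → ospin hG.nondegenerate u = 1 →
      ConjO L Q f := fun u h h4 h5 => ⟨u.1, (u⁻¹).1 * f * u.1, σ, ⟨u, (mem_commutator_OG_iff _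
        (not_oExc_of_two_ne_zero h2) u).2 ⟨h4, h5⟩, rfl⟩, semiB_of_gen pb fun v => by
          rw [hs, smul_assoc]; exact h v, LinearMap.ext fun v => (OG.app_inv_app u _).symm⟩
  have s5 : ∀ u, S u → dickson hG.nondegenerate u = 1 → ConjO L Q f := fun u h h4 => by
    rcases Int.units_eq_one_or (ospin hG.nondegenerate u) with h5 | h5
    · exact s4 u h h4 h5
    · exact s4 _ (s3 u h) (by rw [map_mul, h4, w2, one_mul]) (by rw [map_mul, h5, w3]; simp)
  rcases Int.units_eq_one_or (dickson hG.nondegenerate u) with h5 | h5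
  · exact s5 u s1 h5
  · exact s5 _ s2 (by rw [map_mul, h5, dickson_orefl _ c1]; simp)

variable {r : ℕ} [hr : Fact r.Prime] {p : ℕ} [hp : Fact p.Prime] [CharP F p]

theorem GeomQ.exists_of_fixI (hQ : LiftQ Q P) (hp2 : p ≠ 2) (hk : finrank F L = 2) (h2 : r ≠ 2)
    [Nontrivial V] (hf : f ^ r = 1) (h : FixI L (polarBilin Q) Q f) :
    ∃ g : End L V, IsoQ P g ∧ g ^ r = 1 ∧ Sim (g.restrictScalars F) f := by
  obtain ⟨σ, g, g1, g2, g3⟩ := h
  have g4 := sim_pow_eq_one g3.symm hf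
  obtain rfl := g1.eq_one_of_ne (hk ▸ Nat.prime_two) hr.out (hk ▸ h2)
    (g4.trans (one_smul F _).symm) (g4 ▸ one_ne_zero)
  obtain ⟨g, rfl⟩ := g1.exists_res
  exact ⟨g, hQ.isoQ_of (two_ne_zero_of_ne hp2) g2, res_pow_eq_one g4, g3⟩

theorem GeomQ.not_all_ext (hG : GeomQ Q) (hP : GeomQ P) (hQ : LiftQ Q P) (hp2 : p ≠ 2)
    (hk : finrank F L = 2) (hn : 4 ≤ finrank F V) (h2 : r ≠ 2) {a : ℕ} (ha : r ∣ a)
    (h : a * Nat.card (OG P) ∣ Nat.card (OG Q)) :
    ¬ ∀ f, IsoQ Q f → f ^ r = 1 → f ≠ 1 → FixI L (polarBilin Q) Q f := fun H => by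
  classical
  have : Nontrivial V := Module.nontrivial_of_finrank_pos (R := F) (by omega)
  have : CharP L p := charP_of_injective_algebraMap (algebraMap F L).injective p
  have hV := finrank_mul_finrank F L V
  rw [hk] at hV
  have h5 := two_ne_zero_of_ne (F := F) hp2
  by_cases hrp : r = p
  · subst hrp
    have h1 : ∀ a ∈ 3 ::ₘ Multiset.replicate (finrank F V - 3) 1, 0 < a ∧ a ≤ r ∧ Odd a :=
      fun a ha => by
        have := two_lt_of_ne h2
        rcases Multiset.mem_cons.1 ha with rfl | ha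
        · exact ⟨by omega, this, by decide⟩
        · rw [Multiset.eq_of_mem_replicate ha]; exact ⟨one_pos, by omega, odd_one⟩
    obtain ⟨f, f1, f2⟩ := (hG.realOn_sum_odd h5 (fun a ha => (h1 a ha).2.2) hG.nd_top
      (by simp; omega)).top
    have f3 := pow_char_eq_one_of_ed f2 fun a ha => (h1 a ha).2.1
    obtain ⟨g, -, -, g3⟩ := GeomQ.exists_of_fixI hQ hp2 hk h2 f3 (H f f1 f3 (ne_one_of_mem_degs
      (degs_of_ed_eq_map f2 ▸ Multiset.mem_cons_self _ _) (by omega)))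
    have h3 := g3.nul_eq ((X - C 1) ^ 2)
    rw [nul_res, nul_eq_gcdDeg f, f2, gcdDeg, Multiset.map_map, hk] at h3
    simp only [Function.comp_def, natDegree_gcd_pow_pow, natDegree_X_sub_C] at h3
    simp at h3
    omega
  have hq := Fintype.one_lt_card (α := F)
  have h0 := natCast_ne_zero_of_card (F := F) hrp
  have hi := orderOf_pos_of_ne_zero h0
  have hL : Fintype.card L = Fintype.card F ^ 2 := by rw [Module.card_eq_pow_finrank (K := F), hk]
  have key : ∀ s, 0 < s → s * cOf (orderOf ((Fintype.card F : ℕ) : ZMod r)) ≤ finrank F V →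
      (s * cOf (orderOf ((Fintype.card F : ℕ) : ZMod r)) = finrank F V →
        tq (orderOf ((Fintype.card F : ℕ) : ZMod r)) (finrank F V) = tp Q ⊤) →
      ∃ g : End L V, IsoQ P g ∧ g ^ r = 1 ∧ 2 * finrank L (perpQ P (fixS g)) =
        s * cOf (orderOf ((Fintype.card F : ℕ) : ZMod r)) ∧ Even (finrank L (perpQ P (fixS g))) :=
    fun s h1 h3 h4 => by
      obtain ⟨w, o, e1, e2, e3, -⟩ := exists_mul_cOf (one_le_div_orderOf h0) s
      have := Nat.mul_pos h1 (cOf_pos hi)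
      obtain ⟨f, f1, f2, f3, -⟩ := hG.exists_model hrp h2 (w := w) (e1 ▸ Nat.sub_add_cancel h3) e2 e3
        fun e => h4 (by omega)
      obtain ⟨g, g1, g2, g3⟩ := GeomQ.exists_of_fixI hQ hp2 hk h2 f2
        (H f f1 f2 (ne_one_of_finrank_fixS (by omega)))
      have g4 := hP.finrank_add_perp (fixS g)
      rw [← mult_one, ← sim_mult g3, mult_res, map_one, mult_one, hk] at f3
      exact ⟨g, g1, g2, by omega, (even_cOf _).trans_dvd (hP.cOf_dvd g1 hrp h2 g2
        (hP.perp_inv g1 (fixS_inv g)) (hP.nd_perp (hP.nd_fixS g1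
          (isSemisimple_of_pow_eq_one hrp g2))) le_rfl)⟩
  obtain ⟨d, hd⟩ : ∃ d, finrank L V = d + 1 := ⟨finrank L V - 1, by omega⟩
  have key2 : ∀ j < d, ¬ 2 ∣ j + 1 → ¬ r ∣ Fintype.card F ^ (2 * (j + 1)) - 1 :=
    fun j h3 h6 h4 => by
      rw [dvd_pow_two_mul_sub_one_iff (by omega)] at h4
      have h7 := Nat.le_of_dvd (by omega) h4
      obtain ⟨g, -, -, g1, k, g2⟩ := key 1 one_pos (by omega) (by omega)
      exact h6 (Nat.dvd_of_mul_dvd_mul_left two_pos (dvd_trans ⟨k, by omega⟩ h4))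
  have key4 : ∀ e ≤ d, ¬ r ∣ ∏ j ∈ Finset.range e with ¬ 2 ∣ j + 1,
      (Fintype.card F ^ (2 * (j + 1)) - 1) := fun e he h1 => by
    obtain ⟨j, h3, h4⟩ := (prime_dvd_prod_iff _ _).1 h1
    obtain ⟨h3, h6⟩ := Finset.mem_filter.1 h3
    exact key2 j ((Finset.mem_range.1 h3).trans_le he) h6 h4
  have hpos : ∀ m, 0 < ∏ i ∈ Finset.range m, (Fintype.card F ^ (2 * (2 * (i + 1))) - 1) := fun m =>
    Finset.prod_pos fun i _ => Nat.sub_pos_of_lt (Nat.one_lt_pow (by positivity) hq)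
  have key3 : (r ∣ if tp Q ⊤ = 1 then Fintype.card F ^ (d + 1) - 1
      else Fintype.card F ^ (d + 1) + 1) → Even (d + 1) ∧ tp P ⊤ = tp Q ⊤ := fun h1 => by
    have h3 : tq (orderOf ((Fintype.card F : ℕ) : ZMod r)) (finrank F V) = tp Q ⊤ := by
      refine units_eq_of_iff ?_
      rw [tq_eq_one_iff, ← hV, hd, Nat.mul_dvd_mul_iff_left two_pos]
      split_ifs at h1 with h3
      · exact iff_of_true ((dvd_pow_sub_one_iff (by omega) _).1 h1) h3
      · exact iff_of_false (fun h4 => neg_one_ne_one_zmod h2 (((dvd_pow_add_one_iff _ _).1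
          h1).symm.trans (orderOf_dvd_iff_pow_eq_one.1 h4))) h3
    obtain ⟨k, h4⟩ : cOf (orderOf ((Fintype.card F : ℕ) : ZMod r)) ∣ finrank F V := by
      rw [← hV, hd, ← dvd_pow_two_mul_sub_one_iff (by omega), pow_two_mul_sub_one]
      split_ifs at h1
      · exact h1.mul_right _
      · exact h1.mul_left _
    rw [mul_comm] at h4
    obtain ⟨g, g1, g2, g3, g4⟩ := key k (Nat.pos_of_ne_zero (by rintro rfl; omega)) h4.ge
      fun _ => h3
    have g5 := hP.finrank_add_perp (fixS g)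
    rw [show finrank L (perpQ P (fixS g)) = d + 1 by omega] at g4
    refine ⟨g4, ?_⟩
    rw [hP.tp_top_of_fpf g1 hrp h2 g2 (Submodule.finrank_eq_zero.1 (by omega)), ← h3]
    refine units_eq_of_iff ?_
    obtain ⟨e, he⟩ := g4.two_dvd
    rw [tq_eq_one_iff, tq_eq_one_iff, ← hV, hd, Nat.mul_dvd_mul_iff_left two_pos, he,
      Nat.mul_dvd_mul_iff_left two_pos, orderOf_dvd_iff_pow_eq_one, orderOf_dvd_iff_pow_eq_one, hL,
      Nat.cast_pow, pow_mul]
  rw [hG.card_OG_even (m := d) (by omega)] at h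
  obtain ⟨m, rfl | rfl⟩ := Nat.even_or_odd' d
  · rw [hP.card_OG_odd (two_ne_zero_ext h5) hd, hL,
      prod_range_mul (fun j => Fintype.card F ^ (2 * j) - 1) two_pos] at h
    simp only [← pow_mul] at h
    refine key4 _ le_rfl ((hr.out.dvd_mul.1 (dvd_of_index (mt (dvd_card_iff (F := F)).1 hrp)
      (hpos m) ha (h.trans (dvd_of_eq (arith_aux₁ ..))))).resolve_left fun h1 => ?_)
    exact absurd (key3 ((Nat.Coprime.dvd_mul_left ((Nat.coprime_primes hr.out
      Nat.prime_two).2 h2)).1 h1)).1 (by simp)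
  · rw [hP.card_OG_even (m := m) (by omega), hL, Finset.prod_range_succ,
      prod_range_mul (fun j => Fintype.card F ^ (2 * j) - 1) two_pos] at h
    simp only [← pow_mul] at h
    have h3 : ¬ r ∣ (∏ j ∈ Finset.range (2 * m) with ¬ 2 ∣ j + 1,
        (Fintype.card F ^ (2 * (j + 1)) - 1)) * (Fintype.card F ^ (2 * (2 * m + 1)) - 1) :=
      fun h1 => (hr.out.dvd_mul.1 h1).elim (key4 _ (by omega)) (key2 _ (by omega) (by omega))
    refine h3 ((hr.out.dvd_mul.1 (dvd_of_index (mt (dvd_card_iff (F := F)).1 hrp)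
      (hpos m) ha (h.trans (dvd_of_eq (arith_aux₂ ..))))).resolve_left fun h1 => h3 ?_)
    rw [(key3 ((Nat.Coprime.dvd_mul_left ((Nat.coprime_primes hr.out Nat.prime_two).2 h2)).1
      h1)).2, show 2 * (m + 1) = 2 * m + 1 + 1 from rfl, mul_assoc _ (ite _ _ _)] at h
    have h4 := Nat.one_lt_pow (n := 2 * m + 1 + 1) (by omega) hq
    exact (Nat.Coprime.dvd_mul_left ((Nat.coprime_primes hr.out Nat.prime_two).2 h2)).1
      (dvd_of_index (mt (dvd_card_iff (F := F)).1 hrp) (Nat.mul_pos (by split_ifs <;> omega)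
        (hpos m)) ha (h.trans (dvd_of_eq (arith_aux₃ ..))))

end Lift

section Mat

variable {F L : Type*} [Field F] {ι : Type} [Fintype ι] [DecidableEq ι] {H : Subgroup (GL ι F)}
  [Field L] [Algebra F L] [Module L (ι → F)] [IsScalarTower F L (ι → F)] [Fintype F] [Fintype L]
  {Q : QuadraticForm F (ι → F)} {r : ℕ} [hr : Fact r.Prime]

theorem omega_ext_iff (hG : GeomQ Q) (p : ℕ) [Fact p.Prime] [CharP F p] (hp2 : p ≠ 2)
    (hH : ∀ x, x ∈ H ↔ ∃ σ : L ≃ₐ[F] L, SemiB σ (glRep x)) (hk : finrank F L = 2)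
    (hL : ∀ l : L, SA Q (lsm F _ l)) (hn : 4 < finrank F (ι → F))
    (h : r ∣ H.relIndex (Cfsg.Geo.omegaGL Q)) : (∀ x ∈ Cfsg.Geo.omegaGL Q,
      (∃ z : F, ((x ^ r : GL ι F) : Matrix ι ι F) = z • (1 : Matrix ι ι F)) →
      (∀ z : F, (x : Matrix ι ι F) ≠ z • (1 : Matrix ι ι F)) →
      ∃ g ∈ Cfsg.Geo.omegaGL Q, g⁻¹ * x * g ∈ H) ↔ r = 2 := by
  have := Module.Finite.of_restrictScalars_finite F L (ι → F)
  have : Nontrivial (ι → F) := Module.nontrivial_of_finrank_pos (R := F) (by omega)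
  have h2 := two_ne_zero_of_ne (F := F) hp2
  obtain ⟨P, p1, p2⟩ := hG.exists_liftQ h2 hL
  have key : ∀ x, (∃ g ∈ Cfsg.Geo.omegaGL Q, g⁻¹ * x * g ∈ H) ↔ ConjO L Q (glRep x) := fun x =>
    ⟨fun ⟨g, g1, g2⟩ => let ⟨σ, g3⟩ := (hH _).1 g2; ⟨_, _, σ, (mem_omegaGL_iff g).1 g1, g3, by
      rw [← map_mul, ← map_mul, mul_assoc, mul_inv_cancel_left]⟩, fun ⟨g, y, σ, g1, g2, g3⟩ => by
      obtain ⟨g, rfl⟩ := exists_glRep (hG.isUnit g1.iso)
      refine ⟨g, (mem_omegaGL_iff g).2 g1, (hH _).2 ⟨σ, ?_⟩⟩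
      rwa [mul_assoc, map_mul, map_mul, g3, ← mul_assoc, ← map_mul, inv_mul_cancel, map_one,
        one_mul]⟩
  simp only [key]
  refine (omega_forall_iff hG (ConjO L Q)).trans ?_
  refine ⟨fun H => by_contra fun h1 => ?_, fun h1 f f1 f2 ⟨z, f3⟩ f4 => hG.conjO_of_sq h2 hL hk
    hn.le f2 (hG.sq_cases f1 (h1 ▸ f3)) (one_smul F (1 : End F (ι → F)) ▸ f4 1)⟩
  refine hG.not_all_ext p1 p2 hp2 hk hn.le h1 h ?_ ((hG.forall_odd hn h1 fun f ⟨σ, g, g1, g2, g3⟩ =>
    ⟨σ, -g, g1.neg, hG.iso_neg g2, by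
      have := sim_smul g3 (-1)
      rwa [neg_one_smul F g, neg_one_smul F (-f), neg_neg] at this⟩).1
      fun f f1 f2 f3 f4 => (H f f1 f2 f3 f4).fixI f1)
  rw [← isoFix_eq_OG, ← isoFix_eq_OG]
  refine relIndex_mul_dvd_of_res (fun x hx => mem_isoGL.2 ((mem_omegaGL_iff x).1 hx).iso)
    (fun s hs t ht => ?_) hH fun g hg => p2.isoQ (mem_isoFix_bot.1 hg)
  obtain ⟨s', s1, s2⟩ := (mem_omegaGL_iff s).1 hs
  obtain ⟨t', t1⟩ := hG.exists_OG (mem_isoGL.1 ht)
  refine (mem_omegaGL_iff _).2 ⟨_, (Subgroup.commutator_normal _ _).conj_mem _ s1 t', ?_⟩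
  rw [map_mul, map_mul, ← s2, ← t1]
  refine LinearMap.ext fun v => congrArg (fun w => t'.1 (s'.1 w)) ?_
  refine (OG.inv_app_eq_iff t').2 ?_
  change v = (t'.1 : End F (ι → F)) _
  rw [t1, ← End.mul_apply, ← map_mul, mul_inv_cancel, map_one, End.one_apply]

end Mat

end Cfsg.Agent.Cl.Der
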