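import Mathlib
import Cfsg.Agent.Cl.DerSix
import Cfsg.Agent.Cl.MaxPlus

/-! Explicit elements of the normalizer of a group of symplectic type. -/

set_option autoImplicit false
set_option linter.unusedSectionVars false

namespace Cfsg.Agent.Cl.Der

open Polynomial Module Cfsg.Agent.Cl.Cls

section Model

variable {F V : Type*} [Field F] [AddCommGroup V] [Module F V] [FiniteDimensional F V]
  {σ : F →+* F} {B : V →ₛₗ[σ] V →ₗ[F] F} {S : Submonoid (End F V)} {μ ν : F}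
  {f g a b c d x y z u v : End F V}

theorem SimB.mul (h : SimB B μ f) (h' : SimB B ν g) : SimB B (μ * ν) (f * g) := fun u v =>
  (h _ _).trans (by rw [h', mul_assoc])

theorem isUnit_of_mul_eq {s : F} (hs : s ≠ 0) (h : f * g = s • 1) : IsUnit f :=
  .of_mul_eq_one (s⁻¹ • g) (by rw [mul_smul_comm, h, inv_smul_smul₀ hs])

/-- `f` is a similarity normalizing `S`. -/
structure Md (S : Submonoid (End F V)) (B : V →ₛₗ[σ] V →ₗ[F] F) (μ : F) (f : End F V) : Prop where
  unit : IsUnit f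
  norm : ∀ y ∈ S, ∃ y' ∈ S, f * y = y' * f
  sim : SimB B μ f

theorem Md.mul (h : Md S B μ f) (h' : Md S B ν g) : Md S B (μ * ν) (f * g) :=
  ⟨h.unit.mul h'.unit, fun y hy =>
    let ⟨y₁, h1, h2⟩ := h'.norm y hy
    let ⟨y₂, h3, h4⟩ := h.norm y₁ h1
    ⟨y₂, h3, by rw [mul_assoc, h2, ← mul_assoc, h4, mul_assoc]⟩, h.sim.mul h'.sim⟩

theorem Md.smul (h : Md S B μ f) {s : F} (hs : s ≠ 0) : Md S B (σ s * s * μ) (s • f) :=
  ⟨h.unit.smul (Units.mk0 s hs), fun y hy =>
    let ⟨y₁, h1, h2⟩ := h.norm y hy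
    ⟨y₁, h1, by rw [smul_mul_assoc, h2, mul_smul_comm]⟩, h.sim.smul s⟩

theorem Md.pow (h : Md S B 1 f) (k : ℕ) : Md S B 1 (f ^ k) := by
  induction k with
  | zero => exact ⟨by simp, fun y hy => ⟨y, hy, by simp⟩, fun _ _ => by simp⟩
  | succ k ih => simpa only [one_mul, ← pow_succ] using ih.mul h

theorem Md.neg (h : Md S B μ f) : Md S B μ (-f) := by
  simpa using h.smul (neg_ne_zero.2 one_ne_zero)

theorem Md.half (h : Md S B (2 * 2) f) (h2 : (2 : F) ≠ 0) : Md S B 1 ((2 : F)⁻¹ • f) := by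
  have := h.smul (inv_ne_zero h2)
  rwa [map_inv₀, map_ofNat, show (2 : F)⁻¹ * 2⁻¹ * (2 * 2) = 1 by field_simp] at this

/-- `f` has the type of an isometry normalizing `S`. -/
def FixM (S : Submonoid (End F V)) (B : V →ₛₗ[σ] V →ₗ[F] F) (f : End F V) : Prop :=
  ∃ g, Md S B 1 g ∧ ed g = ed f

/-- Adjoint maps. -/
def Adj (B : V →ₛₗ[σ] V →ₗ[F] F) (f g : End F V) : Prop := ∀ u v, B (f u) v = B u (g v)

theorem Adj.add (h : Adj B f g) (h' : Adj B x y) : Adj B (f + x) (g + y) := fun u v => by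
  simp [h u v, h' u v]

theorem Adj.mul (h : Adj B f g) (h' : Adj B x y) : Adj B (f * x) (y * g) := fun _ _ =>
  (h _ _).trans (h' _ _)

theorem Adj.smul (h : Adj B f g) (s : F) : Adj B (s • f) (σ s • g) := fun u v => by
  simp [h u v]

theorem Adj.one : Adj B 1 1 := fun _ _ => rfl

theorem SimB.adj (h : SimB B 1 f) (h' : f * g = 1) : Adj B f g := fun u v => by
  rw [← one_mul (B u _), ← h, ← End.mul_apply, h', End.one_apply]

theorem Adj.simB (h : Adj B f g) (h' : g * f = μ • 1) : SimB B μ f := fun u v => by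
  rw [h, ← End.mul_apply, h']
  simp

/-- A spanning `2`-group of isometries of symplectic type. -/
structure Pau (S : Submonoid (End F V)) (B : V →ₛₗ[σ] V →ₗ[F] F) : Prop where
  two : (2 : F) ≠ 0
  sq : ∀ x ∈ S, x * x = 1 ∨ x * x = -1
  pm : ∀ x ∈ S, ∀ y ∈ S, y * x = x * y ∨ y * x = -(x * y)
  neg : -1 ∈ S
  span : Submodule.span F (S : Set (End F V)) = ⊤
  iso : ∀ x ∈ S, SimB B 1 x

/-- Two commuting pairs of anticommuting elements. -/
structure Quad (S : Submonoid (End F V)) (a b c d : End F V) : Prop where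
  ha : a ∈ S
  hb : b ∈ S
  hc : c ∈ S
  hd : d ∈ S
  ba : b * a = -(a * b)
  dc : d * c = -(c * d)
  ca : c * a = a * c
  cb : c * b = b * c
  da : d * a = a * d
  db : d * b = b * d

theorem Quad.symm (h : Quad S a b c d) : Quad S c d a b :=
  ⟨h.hc, h.hd, h.ha, h.hb, h.dc, h.ba, h.ca.symm, h.da.symm, h.cb.symm, h.db.symm⟩

theorem smul_mem_of {s : F} (hs : s • (1 : End F V) ∈ S) (h : x ∈ S) : s • x ∈ S := by
  simpa using S.mul_mem hs h

theorem Quad.smul (h : Quad S a b c d) {s t : F} (hs : s • (1 : End F V) ∈ S)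
    (ht : t • (1 : End F V) ∈ S) : Quad S (s • a) (t • b) c d :=
  ⟨smul_mem_of hs h.ha, smul_mem_of ht h.hb, h.hc, h.hd,
    by simp [h.ba, smul_comm s t], h.dc, by simp [h.ca], by simp [h.cb], by simp [h.da],
    by simp [h.db]⟩

theorem ne_of_anti [Nontrivial V] (h2 : (2 : F) ≠ 0) (hx : IsUnit x) (hy : IsUnit y)
    (h : y * x = -(x * y)) : y * x ≠ x * y := fun e => (hx.mul hy).ne_zero (by
  rw [h, neg_eq_iff_add_eq_zero, ← two_smul F] at e
  exact (smul_eq_zero.1 e).resolve_left h2)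

theorem sw (h : y * x = x * y) (z : End F V) : y * (x * z) = x * (y * z) := by
  rw [← mul_assoc, h, mul_assoc]

theorem sw' (h : y * x = -(x * y)) (z : End F V) : y * (x * z) = -(x * (y * z)) := by
  rw [← mul_assoc, h, neg_mul, mul_assoc]

theorem sq1 (h : x * x = 1) (z : End F V) : x * (x * z) = z := by rw [← mul_assoc, h, one_mul]

theorem sq2 (h : x * x = -1) (z : End F V) : x * (x * z) = -z := by
  rw [← mul_assoc, h, neg_one_mul]

namespace Pau

theorem unit (h : Pau S B) (hx : x ∈ S) : IsUnit x :=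
  isUnit_mul_self_iff.1 ((h.sq x hx).elim (· ▸ isUnit_one) (· ▸ isUnit_one.neg))

theorem neg_mem (h : Pau S B) (hx : x ∈ S) : -x ∈ S := by simpa using S.mul_mem h.neg hx

theorem md (h : Pau S B) (hx : x ∈ S) : Md S B 1 x := ⟨h.unit hx, fun y hy =>
  (h.pm y hy x hx).elim (⟨y, hy, ·⟩) fun e => ⟨-y, h.neg_mem hy, by rw [e, neg_mul]⟩, h.iso x hx⟩

theorem md_one_add (h : Pau S B) (hx : x ∈ S) (h1 : x * x = -1) : Md S B 2 (1 + x) := by
  have h2 : (1 + -x) * (1 + x) = (2 : F) • 1 := by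
    rw [two_smul, add_mul, one_mul, neg_mul, mul_add, h1, mul_one]; abel
  refine ⟨.of_mul_eq_one_right ((2 : F)⁻¹ • (1 + -x)) (by
    rw [smul_mul_assoc, h2, inv_smul_smul₀ h.two]), fun y hy => ?_,
    (Adj.one.add ((h.iso x hx).adj (by rw [mul_neg, h1, neg_neg]))).simB h2⟩
  rcases h.pm y hy x hx with e | e
  · exact ⟨y, hy, by rw [add_mul, mul_add, e, one_mul, mul_one]⟩
  · refine ⟨_, h.neg_mem (S.mul_mem hy hx), ?_⟩
    simp [add_mul, mul_add, e, mul_assoc, h1, add_comm]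

theorem exists_anti (h : Pau S B) (hx : x ∈ S) (hs : ∀ s : F, x ≠ s • 1) :
    ∃ y ∈ S, y * x = -(x * y) := by
  by_contra! H
  obtain ⟨s, h1, e⟩ := End.mem_center_iff.1 (Semigroup.mem_center_iff.2 fun y => by
    have : y ∈ Submodule.span F (S : Set (End F V)) := h.span ▸ Submodule.mem_top
    induction this using Submodule.span_induction with
    | mem y hy => exact (h.pm x hx y hy).resolve_right (H y hy)
    | zero => simp
    | add y z _ _ h1 h2 => rw [add_mul, mul_add, h1, h2]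
    | smul s y _ h1 => rw [smul_mul_assoc, mul_smul_comm, h1] : x ∈ Set.center (End F V))
  exact hs s e

theorem ne_smul [Nontrivial V] (h : Pau S B) (hx : x ∈ S) (hy : y ∈ S) (e : y * x = -(x * y))
    (s : F) : x ≠ s • 1 := fun e' =>
  ne_of_anti h.two (h.unit hx) (h.unit hy) e (by simp [e'])

theorem trace (h : Pau S B) (hy : y ∈ S) (e : y * x = -(x * y)) : LinearMap.trace F V x = 0 :=
  trace_eq_zero_of_comm (h.unit hy) (c := -1) (fun e => h.two (by linear_combination -e))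
    (by rw [e, neg_one_smul])

theorem exists_fix (h : Pau S B) (ha : a ∈ S) (hb : b ∈ S) (e : b * a = -(a * b)) (hx : x ∈ S) :
    ∃ m ∈ ({1, a, b, a * b} : Set (End F V)), x * m * a = a * (x * m) ∧ x * m * b = b * (x * m) := by
  have e' : a * b = -(b * a) := by rw [e, neg_neg]
  rcases h.pm x hx a ha with e1 | e1 <;> rcases h.pm x hx b hb with e2 | e2
  · exact ⟨1, by simp, by simp [e1], by simp [e2]⟩
  · exact ⟨a, by simp, by rw [← mul_assoc, e1], by
      rw [← mul_assoc, e2, neg_mul, mul_assoc, mul_assoc, e', mul_neg]⟩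
  · exact ⟨b, by simp, by rw [← mul_assoc, e1, neg_mul, mul_assoc, mul_assoc, e, mul_neg], by
      rw [← mul_assoc, e2]⟩
  · exact ⟨a * b, by simp, by simp [mul_assoc, sw' e1, e], by simp [mul_assoc, sw' e2, sw' e]⟩

theorem exists_notMem (h : Pau S B) {k : ℕ} (hk : k < finrank F V * finrank F V)
    (w : Fin k → End F V) : ∃ x ∈ S, x ∉ Submodule.span F (Set.range w) := by
  by_contra! H
  have h1 := finrank_range_le_card (R := F) w
  rw [Set.finrank, eq_top_iff.2 (h.span.ge.trans (Submodule.span_le.2 H)), finrank_top,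
    finrank_linearMap, Fintype.card_fin] at h1
  omega

theorem exists_pair (h : Pau S B) (hV : 2 ≤ finrank F V) :
    ∃ a ∈ S, ∃ b ∈ S, b * a = -(a * b) := by
  obtain ⟨a, ha, h1⟩ := h.exists_notMem (by nlinarith) ![1]
  exact ⟨a, ha, h.exists_anti ha fun s e =>
    h1 (e ▸ Submodule.smul_mem _ _ (Submodule.subset_span ⟨0, rfl⟩))⟩

theorem exists_quad (h : Pau S B) (hV : 3 ≤ finrank F V) : ∃ a b c d, Quad S a b c d := by
  obtain ⟨a, ha, b, hb, e⟩ := h.exists_pair (by omega)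
  have h1 : ∀ m ∈ ({1, a, b, a * b} : Set (End F V)), m ∈ S := by
    rintro m (rfl | rfl | rfl | rfl)
    exacts [S.one_mem, ha, hb, S.mul_mem ha hb]
  obtain ⟨x, hx, h2⟩ := h.exists_notMem (by nlinarith) ![1, a, b, a * b]
  obtain ⟨m, hm, e1, e2⟩ := h.exists_fix ha hb e hx
  obtain ⟨y, hy, e3⟩ := h.exists_anti (S.mul_mem hx (h1 m hm)) fun s e' => h2 (by
    have h3 : s • m ∈ Submodule.span F (Set.range ![1, a, b, a * b]) := Submodule.smul_mem _ _
      (Submodule.subset_span (by rcases hm with rfl | rfl | rfl | rfl <;> simp))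
    rw [← one_mul m, ← smul_mul_assoc, ← e', mul_assoc] at h3
    rcases h.sq m (h1 m hm) with e4 | e4 <;> simpa [e4] using h3)
  obtain ⟨n, hn, e4, e5⟩ := h.exists_fix ha hb e hy
  refine ⟨a, b, _, _, ha, hb, S.mul_mem hx (h1 m hm), S.mul_mem hy (h1 n hn), e, ?_, e1, e2, e4, e5⟩
  rw [mul_assoc, ← mul_assoc _ y, ← neg_mul, ← e3, mul_assoc y]
  rcases hn with rfl | rfl | rfl | rfl
  · simp
  · rw [e1]
  · rw [e2]
  · rw [mul_assoc, ← e2, ← mul_assoc a, ← e1, mul_assoc _ a]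

theorem exists_quad_neg (h : Pau S B) (hV : 3 ≤ finrank F V) {i : F} (hi : i * i = -1)
    (hS : i • (1 : End F V) ∈ S) :
    ∃ a b c d, Quad S a b c d ∧ a * a = -1 ∧ b * b = -1 ∧ c * c = -1 ∧ d * d = -1 := by
  have h1 : ∀ x ∈ S, ∃ s : F, s • (1 : End F V) ∈ S ∧ s • x * s • x = -1 := fun x hx =>
    (h.sq x hx).elim (fun e => ⟨i, hS, by simp [smul_smul, hi, e]⟩)
      fun e => ⟨1, by simp, by simp [e]⟩
  obtain ⟨a, b, c, d, H⟩ := h.exists_quad hV
  obtain ⟨s, s1, s2⟩ := h1 a H.ha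
  obtain ⟨t, t1, t2⟩ := h1 b H.hb
  obtain ⟨u, u1, u2⟩ := h1 c H.hc
  obtain ⟨v, v1, v2⟩ := h1 d H.hd
  exact ⟨_, _, _, _, ((H.smul s1 t1).symm.smul u1 v1).symm, s2, t2, u2, v2⟩

theorem pair_cases (h : Pau S B) (H : Quad S a b c d) : (a * a = -1 ∧ b * b = -1) ∨
    ∃ a b, Quad S a b c d ∧ a * a = 1 ∧ b * b = 1 := by
  refine (Max.exists_pair_of_anti (B := {x | x ∈ S ∧ c * x = x * c ∧ d * x = x * d})
    (fun x hx y hy => ⟨S.mul_mem hx.1 hy.1, (Commute.mul_right hx.2.1 hy.2.1).eq,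
      (Commute.mul_right hx.2.2 hy.2.2).eq⟩) ⟨H.ha, H.ca, H.da⟩ ⟨H.hb, H.cb, H.db⟩
      (h.sq a H.ha) (h.sq b H.hb) H.ba).imp_right fun ⟨s, hs, t, ht, e1, e2, e3⟩ => ?_
  refine ⟨t, s * t, ⟨ht.1, S.mul_mem hs.1 ht.1, H.hc, H.hd, ?_, H.dc, ht.2.1,
    (Commute.mul_right hs.2.1 ht.2.1).eq, ht.2.2, (Commute.mul_right hs.2.2 ht.2.2).eq⟩, e2, ?_⟩
  · rw [← mul_assoc, e3, neg_mul, neg_neg]
  · rw [mul_assoc, ← mul_assoc t, e3, neg_mul, mul_assoc, e2, mul_one, mul_neg, e1, neg_neg]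

end Pau

/-- There are no two independent commuting involutions. -/
def Minus (S : Submonoid (End F V)) : Prop := ∀ x ∈ S, ∀ y ∈ S, x * x = 1 → y * y = 1 →
  y * x = x * y → (∃ s : F, x = s • 1) ∨ (∃ s : F, y = s • 1) ∨ ∃ s : F, x * y = s • 1

theorem Pau.exists_quad_minus [Nontrivial V] (h : Pau S B) (hV : 3 ≤ finrank F V) (hm : Minus S) :
    ∃ a b c d, Quad S a b c d ∧ a * a = 1 ∧ b * b = 1 ∧ c * c = -1 ∧ d * d = -1 := by
  obtain ⟨a, b, c, d, H⟩ := h.exists_quad hV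
  rcases h.pair_cases H with ⟨a1, b1⟩ | ⟨a, b, H, a1, b1⟩ <;>
    rcases h.pair_cases H.symm with ⟨c1, d1⟩ | ⟨c, d, H, c1, d1⟩
  · rcases hm _ (S.mul_mem H.ha H.hc) _ (S.mul_mem H.hb H.hd) (by
      simp [mul_assoc, sw H.ca, a1, c1]) (by simp [mul_assoc, sw H.db, b1, d1]) (by
      simp [mul_assoc, sw H.da, sw H.cb, sw' H.ba, H.dc]) with ⟨s, e⟩ | ⟨s, e⟩ | ⟨s, e⟩
    · exact absurd e (h.ne_smul (S.mul_mem H.ha H.hc) H.hb
        (by simp [mul_assoc, sw' H.ba, H.cb]) s)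
    · exact absurd e (h.ne_smul (S.mul_mem H.hb H.hd) H.ha
        (by simp [mul_assoc, sw' H.ba, H.da]) s)
    · exact absurd e (h.ne_smul (S.mul_mem (S.mul_mem H.ha H.hc) (S.mul_mem H.hb H.hd)) H.ha
        (by simp [mul_assoc, sw' H.ba, H.da, sw H.ca]) s)
  · exact ⟨_, _, _, _, H, c1, d1, a1, b1⟩
  · exact ⟨_, _, _, _, H, a1, b1, c1, d1⟩
  · rcases hm _ H.ha _ H.hc c1 a1 H.ca with ⟨s, e⟩ | ⟨s, e⟩ | ⟨s, e⟩
    · exact absurd e (h.ne_smul H.ha H.hb H.ba s)
    · exact absurd e (h.ne_smul H.hc H.hd H.dc s)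
    · exact absurd e (h.ne_smul (S.mul_mem H.ha H.hc) H.hb (by
        rw [← mul_assoc, H.ba, neg_mul, mul_assoc, mul_assoc, H.cb]) s)

theorem mult_eq_zero_iff {s : F} : mult f s = 0 ↔ IsUnit (f - s • 1) := by
  rw [mult, Submodule.finrank_eq_zero, LinearMap.isUnit_iff_ker_eq_bot]

theorem cube_of_quad (h : f * f + f + 1 = 0) : f ^ 3 = 1 := by
  rw [← sub_eq_zero, show f ^ 3 - 1 = (f - 1) * (f * f + f + 1) by noncomm_ring, h, mul_zero]

theorem quad_of_cube (h : f ^ 3 = 1) (h' : mult f 1 = 0) : f * f + f + 1 = 0 :=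
  (mult_eq_zero_iff.1 h').mul_right_eq_zero.1 (by rw [one_smul, ← sub_eq_zero.2 h]; noncomm_ring)

theorem mult_of_quad (h3 : (3 : F) ≠ 0) (h : f * f + f + 1 = 0) : mult f 1 = 0 :=
  mult_eq_zero_iff.2 (isUnit_of_mul_eq h3 (g := -(f + 1 + 1)) (by
    simp only [mul_add, sub_mul, mul_neg, one_smul, one_mul, mul_one]
    linear_combination (norm := module) -h))

/-- An element of order three normalizing a quaternion group. -/
noncomputable def wq (c d : End F V) : End F V := -((2 : F)⁻¹ • ((1 + c) * (1 + d)))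

theorem Pau.md_wq (h : Pau S B) (hc : c ∈ S) (hd : d ∈ S) (c1 : c * c = -1) (d1 : d * d = -1) :
    Md S B 1 (wq c d) := (((h.md_one_add hc c1).mul (h.md_one_add hd d1)).half h.two).neg

theorem wq_quad (h2 : (2 : F) ≠ 0) (c1 : c * c = -1) (d1 : d * d = -1) (e : d * c = -(c * d)) :
    wq c d * wq c d + wq c d + 1 = 0 := by
  simp only [wq, mul_add, add_mul, mul_assoc, mul_neg, neg_mul, smul_mul_assoc, mul_smul_comm,
    one_mul, mul_one, c1, d1, e, sq2 c1, sw' e]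
  match_scalars <;> field_simp <;> ring

theorem wq_comm (h1 : x * c = c * x) (h2 : x * d = d * x) : x * wq c d = wq c d * x :=
  ((((Commute.one_right x).add_right h1).mul_right ((Commute.one_right x).add_right h2)).smul_right
    _).neg_right

theorem Pau.wq_ne [Nontrivial V] (h : Pau S B) (hc : c ∈ S) (hd : d ∈ S) (c1 : c * c = -1)
    (e : d * c = -(c * d)) : c * wq c d ≠ wq c d * c := fun e' => by
  rw [wq, mul_neg, neg_mul, neg_inj, mul_smul_comm, smul_mul_assoc, ← mul_assoc,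
    ((Commute.one_right c).add_right (Commute.refl c)).eq, mul_assoc, mul_assoc] at e'
  have := (h.md_one_add hc c1).unit.mul_left_cancel (smul_right_injective _ (inv_ne_zero h.two) e')
  rw [mul_add, add_mul, mul_one, one_mul, add_right_inj] at this
  exact ne_of_anti h.two (h.unit hc) (h.unit hd) e this.symm

theorem Pau.exists_three [Nontrivial V] (h : Pau S B) (h3 : (3 : F) ≠ 0) (H : Quad S a b c d)
    (a1 : a * a = -1) (b1 : b * b = -1) (c1 : c * c = -1) (d1 : d * d = -1) :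
    (∃ f, Md S B 1 f ∧ f ^ 3 = 1 ∧ mult f 1 = 0) ∧
      ∃ f, Md S B 1 f ∧ f ^ 3 = 1 ∧ f ≠ 1 ∧ mult f 1 ≠ 0 := by
  have h1 := wq_quad h.two a1 b1 H.ba
  have h2 := wq_quad h.two c1 d1 H.dc
  have h4 := h.wq_ne H.hc H.hd c1 H.dc
  have h5 := wq_comm H.ca H.cb
  have h6 : Commute (wq a b) (wq c d) := wq_comm h5.symm (wq_comm H.da H.db).symm
  have h7 := h6.mul_pow 3
  rw [cube_of_quad h1, cube_of_quad h2, mul_one] at h7
  refine ⟨⟨_, h.md_wq H.hc H.hd c1 d1, cube_of_quad h2, mult_of_quad h3 h2⟩, _,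
    by simpa using (h.md_wq H.ha H.hb a1 b1).mul (h.md_wq H.hc H.hd c1 d1), h7, fun e => h4 ?_,
    fun e => h4 ?_⟩
  · exact (h.md_wq H.ha H.hb a1 b1).unit.mul_left_cancel (by
      rw [← mul_assoc, ← h5, mul_assoc, e, ← mul_assoc, e, one_mul, mul_one])
  have h8 := quad_of_cube h7 e
  generalize wq a b = w at *
  generalize wq c d = w' at *
  rw [← h6.mul_mul_mul_comm, eq_neg_of_add_eq_zero_left ((add_assoc _ _ _).symm.trans h1),
    eq_neg_of_add_eq_zero_left ((add_assoc _ _ _).symm.trans h2)] at h8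
  have h10 : ((2 : F) • w + 1) * ((2 : F) • w + 1) = (-3 : F) • 1 := by
    simp only [mul_add, add_mul, smul_mul_assoc, mul_smul_comm, one_mul, mul_one]
    linear_combination (norm := module) (4 : F) • h1
  have h11 : ((2 : F) • w + 1) * w' = ((2 : F) • w + 1) * w := by
    simp only [mul_add, add_mul, smul_mul_assoc, one_mul, mul_one, neg_mul_neg] at h8 ⊢
    linear_combination (norm := module) h8 - (2 : F) • h1
  rwa [(isUnit_of_mul_eq (neg_ne_zero.2 h3) h10).mul_left_cancel h11]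

theorem mult_eq_of_trace {k : ℕ} (h2 : (2 : F) ≠ 0) (hV : finrank F V = 4) (h : f * f = 1)
    (hs : ∀ s : F, f ≠ s • 1) (hk : k = 2 ∨ k = 3)
    (ht : LinearMap.trace F V f + 4 = 2 * k) : mult f 1 = k := by
  have h1 := sum_trace_pow (r := 2) (by simpa using h2) ((sq f).trans h)
  have h3 := mult_pos_of_sq ((sq f).trans h) (hs _)
  have h4 := hV ▸ mult_lt (hs 1)
  rw [Finset.sum_range_succ, Finset.sum_range_one, pow_zero, pow_one, LinearMap.trace_one, hV,
    add_comm, Nat.cast_ofNat, ht, Nat.cast_ofNat, mul_right_inj' h2] at h1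
  generalize mult f 1 = m at *
  by_contra h5
  interval_cases m <;> rcases hk with rfl | rfl <;> first
    | exact h5 rfl
    | exact h2 (by push_cast at h1; linear_combination h1)
    | exact one_ne_zero (α := F) (by push_cast at h1; linear_combination h1)
    | exact one_ne_zero (α := F) (by push_cast at h1; linear_combination -h1)

theorem Pau.exists_cz [Nontrivial V] (h : Pau S B) (hV : finrank F V = 4) (H : Quad S a b c d)
    (a1 : a * a = 1) (c1 : c * c = 1) : ∃ f, Md S B 1 f ∧ f * f = 1 ∧ mult f 1 = 3 := by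
  have h2 := h.two
  have h1 : (2 : F)⁻¹ • (1 + a + c + -(a * c)) * (2 : F)⁻¹ • (1 + a + c + -(a * c)) = 1 := by
    simp only [mul_add, add_mul, mul_assoc, mul_neg, neg_mul, smul_mul_assoc, mul_smul_comm,
      one_mul, mul_one, a1, c1, H.ca, sq1 a1, sw H.ca]
    match_scalars <;> field_simp <;> ring
  have h3 : a * c * (a * c) = 1 := by simp [mul_assoc, sw H.ca, a1, c1]
  refine ⟨_, ⟨.of_mul_eq_one _ h1, fun y hy => ?_, Adj.simB (by
    simpa [map_ofNat] using (((Adj.one.add ((h.iso a H.ha).adj a1)).add ((h.iso c H.hc).adj c1)).add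
      ((h.iso _ (h.neg_mem (S.mul_mem H.ha H.hc))).adj ((neg_mul_neg _ _).trans h3))).smul
      (2 : F)⁻¹) (h1.trans (one_smul F _).symm)⟩, h1, mult_eq_of_trace h2 hV h1 (fun s e => ?_)
      (Or.inr rfl) ?_⟩
  · rcases h.pm y hy a H.ha with e1 | e1 <;> rcases h.pm y hy c H.hc with e2 | e2
    on_goal 1 => refine ⟨y, hy, ?_⟩
    on_goal 2 => refine ⟨_, S.mul_mem hy H.ha, ?_⟩
    on_goal 3 => refine ⟨_, S.mul_mem hy H.hc, ?_⟩
    on_goal 4 => refine ⟨_, h.neg_mem (S.mul_mem hy (S.mul_mem H.ha H.hc)), ?_⟩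
    all_goals
      first | have e3 := sw e1 | have e3 := sw' e1
      simp only [mul_add, add_mul, mul_assoc, mul_neg, neg_mul, smul_mul_assoc, mul_smul_comm,
        one_mul, mul_one, a1, c1, H.ca, sq1 a1, sw H.ca, e1, e2, e3, neg_neg]
      try module
  · have h4 : (2 : F)⁻¹ • (1 + a + c + -(a * c)) * b = b * (2 : F)⁻¹ • (1 + a + c + -(a * c)) := by
      simp [e]
    refine h.ne_smul H.hc H.hd H.dc 1 ((h.unit (S.mul_mem H.ha H.hb)).mul_left_cancel ?_)
    simp only [mul_add, add_mul, mul_assoc, mul_neg, neg_mul, smul_mul_assoc, mul_smul_comm,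
      one_mul, mul_one, H.ba, H.cb, sw' H.ba, neg_neg, one_smul] at h4 ⊢
    linear_combination (norm := skip) -h4
    match_scalars <;> field_simp <;> ring
  · have h4 := h.trace H.hb H.ba
    have h5 := h.trace H.hd H.dc
    have h6 := h.trace (x := a * c) H.hb (by simp [mul_assoc, sw' H.ba, H.cb])
    simp only [map_smul, map_add, map_neg, h4, h5, h6, LinearMap.trace_one, hV, smul_eq_mul]
    field_simp
    norm_num

/-- `u` conjugates `x` to a multiple of `y`. -/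
def Cj (u x y : End F V) : Prop := ∃ s : F, u * x = s • (y * u)

theorem Cj.mul (h : Cj u y z) (h' : Cj v x y) : Cj (u * v) x z :=
  let ⟨s, h⟩ := h
  let ⟨t, h'⟩ := h'
  ⟨t * s, by rw [mul_assoc, h', mul_smul_comm, ← mul_assoc, h, smul_mul_assoc, smul_smul,
    mul_assoc]⟩

theorem exists_pow_of_cj [Finite (End F V)] {r : ℕ} [hr : Fact r.Prime] (hu : IsUnit u)
    {γ : ZMod r → End F V} (h : ∀ i, Cj u (γ i) (γ (i + 1)))
    (h' : ∀ i ≠ 0, ∀ s : F, γ 0 ≠ s • γ i) : ∃ k, (u ^ k) ^ r = 1 ∧ u ^ k ≠ 1 := by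
  have h1 : ∀ k : ℕ, Cj (u ^ k) (γ 0) (γ k) := fun k => by
    induction k with
    | zero => exact ⟨1, by simp⟩
    | succ k ih => simpa only [pow_succ', Nat.cast_succ] using (h k).mul ih
  have h2 := (isOfFinOrder_iff_isUnit.2 hu).orderOf_pos
  obtain ⟨s, h3⟩ := h1 (orderOf u)
  rw [pow_orderOf_eq_one, one_mul, mul_one] at h3
  obtain ⟨k, h4⟩ := (ZMod.natCast_eq_zero_iff _ _).1 (by_contra fun e => h' _ e s h3)
  refine ⟨k, by rw [← pow_mul, mul_comm, ← h4, pow_orderOf_eq_one], pow_ne_one_of_lt_orderOf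
    (fun e => by simp [h4, e] at h2) ?_⟩
  have := hr.1.two_le
  rw [h4] at h2 ⊢
  nlinarith [Nat.pos_of_mul_pos_left h2]

theorem cj_swap {I : Type*} [DecidableEq I] {γ : I → End F V} (h1 : ∀ i, γ i * γ i = 1)
    (h2 : ∀ i j, i ≠ j → γ j * γ i = -(γ i * γ j)) {i j : I} (h : i ≠ j) (k : I) :
    Cj (1 + γ i * γ j) (γ k) (γ (Equiv.swap i j k)) := by
  by_cases e : k = i
  · exact ⟨-1, by simp [e, add_mul, mul_add, mul_assoc, h2 i j h, sw' (h2 i j h), h1,
      sq1 (h1 i), add_comm]⟩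
  by_cases e' : k = j
  · exact ⟨1, by simp [e', add_mul, mul_add, mul_assoc, h1, sq1 (h1 i), add_comm]⟩
  · exact ⟨1, by simp [Equiv.swap_apply_of_ne_of_ne e e', add_mul, mul_add, mul_assoc,
      h2 k j e', sw' (h2 k i e)]⟩

theorem Pau.exists_five [Nontrivial V] [Finite (End F V)] (h : Pau S B) (H : Quad S a b c d)
    (a1 : a * a = 1) (b1 : b * b = 1) (c1 : c * c = -1) (d1 : d * d = -1) :
    ∃ f, Md S B 1 f ∧ f ^ 5 = 1 ∧ f ≠ 1 := by
  have := Fact.mk Nat.prime_five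
  let γ : Fin 5 → End F V := ![a, b, a * b * c, a * b * d, a * b * (c * d)]
  have h0 : ∀ i, γ i ∈ S := fun i => by
    have := S.mul_mem H.ha H.hb
    fin_cases i
    exacts [H.ha, H.hb, S.mul_mem this H.hc, S.mul_mem this H.hd,
      S.mul_mem this (S.mul_mem H.hc H.hd)]
  have h1 : ∀ i, γ i * γ i = 1 := fun i => by
    fin_cases i <;> simp [γ, mul_assoc, a1, b1, c1, d1, sw' H.ba, sw' H.dc, sw H.ca, sw H.cb,
      sw H.da, sw H.db]
  have h2 : ∀ i j, i ≠ j → γ j * γ i = -(γ i * γ j) := fun i j e => by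
    fin_cases i <;> fin_cases j <;> first
      | exact absurd rfl e
      | simp [γ, mul_assoc, d1, sw' H.ba, sw' H.dc, sw H.ca, sw H.cb, sw H.da, sw H.db,
          sq1 a1, sq1 b1, sq2 c1, H.ba, H.dc, H.ca, H.cb, H.da, H.db]
  have h3 : ∀ i j, i ≠ j → Md S B 2 (1 + γ i * γ j) := fun i j e => h.md_one_add
    (S.mul_mem (h0 i) (h0 j)) (by rw [mul_assoc, sw' (h2 i j e), h1, mul_neg, sq1 (h1 i)])
  have h4 := (((h3 0 1 (by decide)).mul (h3 1 2 (by decide))).half h.two).mul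
    (((h3 2 3 (by decide)).mul (h3 3 4 (by decide))).half h.two)
  rw [one_mul] at h4
  obtain ⟨k, h5⟩ := exists_pow_of_cj (r := 5) h4.unit (γ := γ) (fun i => by
    obtain ⟨s, e⟩ := ((cj_swap h1 h2 (i := 0) (j := 1) (by decide) _).mul
      (cj_swap h1 h2 (i := 1) (j := 2) (by decide) _)).mul ((cj_swap h1 h2 (i := 2) (j := 3)
        (by decide) _).mul (cj_swap h1 h2 (i := 3) (j := 4) (by decide) i))
    refine ⟨s, ?_⟩
    rw [smul_mul_smul_comm, smul_mul_assoc, e, mul_smul_comm, smul_comm]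
    congr 4
    exact (by decide : ∀ i : Fin 5, Equiv.swap 0 1 (Equiv.swap 1 2 (Equiv.swap 2 3
      (Equiv.swap 3 4 i))) = i + 1) i) fun i hi s e => ne_of_anti h.two (h.unit (h0 0)) (h.unit (h0 i)) (h2 0 i hi.symm)
      (by rw [show γ 0 = _ from e]; simp)
  exact ⟨_, h4.pow k, h5⟩

end Model

end Cfsg.Agent.Cl.Der
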