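import Mathlib
import Cfsg.Agent.Cl.DerSix2

/-! Types of elements of small order in the normalizer of a group of symplectic type. -/

set_option autoImplicit false
set_option linter.unusedSectionVars false

namespace Cfsg.Agent.Cl.Der

open Polynomial Module Cfsg.Agent.Cl.Cls

section Model

variable {F V : Type*} [Field F] [AddCommGroup V] [Module F V] [FiniteDimensional F V]
  {σ : F →+* F} {B : V →ₛₗ[σ] V →ₗ[F] F} {S : Submonoid (End F V)} {μ ν ω : F}
  {f g a b c d x y z u v : End F V}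

/-- A Heisenberg group of isometries. -/
structure Hei (S : Submonoid (End F V)) (B : V →ₛₗ[σ] V →ₗ[F] F) (ω : F) (a b : End F V) :
    Prop where
  three : (3 : F) ≠ 0
  root : ω * ω + ω + 1 = 0
  ha : a ∈ S
  hb : b ∈ S
  hω : ω • (1 : End F V) ∈ S
  a3 : a * (a * a) = 1
  b3 : b * (b * b) = 1
  ba : b * a = ω • (a * b)
  iso : ∀ x ∈ S, SimB B 1 x
  gen : ∀ f, IsUnit f → (∃ y ∈ S, f * a = y * f) → (∃ y ∈ S, f * b = y * f) →
    ∀ y ∈ S, ∃ y' ∈ S, f * y = y' * f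

theorem sw3 (h : y * x = ω • (x * y)) (z : End F V) : y * (x * z) = ω • (x * (y * z)) := by
  rw [← mul_assoc, h, smul_mul_assoc, mul_assoc]

theorem cb1 (h : x * (x * x) = 1) (z : End F V) : x * (x * (x * z)) = z := by
  rw [← mul_assoc x x, ← mul_assoc, mul_assoc x x x, h, one_mul]

/-- The projection onto the fixed space of an element of order three. -/
noncomputable def pj (a : End F V) : End F V := (3 : F)⁻¹ • (1 + a + a * a)

theorem SimB.adj_pj (h : SimB B 1 a) (h' : a * (a * a) = 1) : Adj B (pj a) (pj a) := by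
  have := ((Adj.one.add (h.adj h')).add
    (SimB.adj (by simpa using h.mul h) ((mul_assoc _ _ _).trans h'))).smul (3 : F)⁻¹
  rwa [map_inv₀, map_ofNat, add_right_comm 1 (a * a)] at this

namespace Hei

theorem cube (h : Hei S B ω a b) : ω * (ω * ω) = 1 := by linear_combination (ω - 1) * h.root

theorem ne_one (h : Hei S B ω a b) : ω ≠ 1 := fun e => h.three (by
  linear_combination h.root - (ω + 2) * e)

theorem prim (h : Hei S B ω a b) : IsPrimitiveRoot ω 3 :=
  have := Fact.mk Nat.prime_three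
  orderOf_eq_prime ((pow_three ω).trans h.cube) h.ne_one ▸ IsPrimitiveRoot.orderOf ω

theorem symm (h : Hei S B ω a b) : Hei S B (ω * ω) b a :=
  ⟨h.three, by linear_combination (ω * ω - ω + 1) * h.root, h.hb, h.ha,
    mul_smul ω ω (1 : End F V) ▸ smul_mem_of h.hω h.hω, h.b3, h.a3,
    by rw [h.ba, smul_smul, mul_assoc, h.cube, one_smul], h.iso, fun f h1 h2 h3 => h.gen f h1 h3 h2⟩

theorem trace (h : Hei S B ω a b) :
    LinearMap.trace F V a = 0 ∧ LinearMap.trace F V (a * a) = 0 :=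
  ⟨trace_eq_zero_of_comm (.of_mul_eq_one _ h.b3) h.ne_one h.ba,
    trace_eq_zero_of_comm (.of_mul_eq_one _ h.b3) h.symm.ne_one (by
      simp only [sw3 h.ba, h.ba, mul_smul_comm, smul_smul, mul_assoc])⟩

theorem ne_comm [Nontrivial V] (h : Hei S B ω a b) : b * a ≠ a * b := fun e =>
  ((IsUnit.of_mul_eq_one _ h.a3).mul (.of_mul_eq_one _ h.b3)).ne_zero (by
    rw [h.ba, ← sub_eq_zero, ← one_smul F (a * b), smul_smul, mul_one, ← sub_smul] at e
    exact (smul_eq_zero.1 e).resolve_left (sub_ne_zero.2 h.ne_one))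

theorem md (h : Hei S B ω a b) : Md S B 1 a := ⟨.of_mul_eq_one _ h.a3, h.gen a
  (.of_mul_eq_one _ h.a3) ⟨a, h.ha, rfl⟩ ⟨_, smul_mem_of h.symm.hω h.hb, by
    rw [h.symm.ba, smul_mul_assoc]⟩, h.iso a h.ha⟩

theorem exists_two [Nontrivial V] (h : Hei S B ω a b) :
    ∃ f, Md S B 1 f ∧ f * f = 1 ∧ ∀ s : F, f ≠ s • 1 := by
  have h0 := h.root
  have h3 := mul_inv_cancel₀ h.three
  have h1 := smul_mem_of h.hω h.ha
  have h2 := smul_mem_of h.hω h1
  obtain ⟨f, e⟩ : ∃ f, f = pj a + b * b * pj (ω • ω • a) + b * pj (ω • a) := ⟨_, rfl⟩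
  have h4 : f * f = 1 ∧ f * a = a * a * f ∧ f * b = b * b * f ∧
      pj a + pj (ω • ω • a) * (b * b * (b * b)) + pj (ω • a) * (b * b) = f := by
    refine ⟨?_, ?_, ?_, ?_⟩ <;>
    simp only [e, pj, mul_add, add_mul, mul_assoc, smul_mul_assoc, mul_smul_comm, one_mul, mul_one,
      h.a3, h.b3, h.ba, sw3 h.ba, cb1 h.a3] <;>
    match_scalars <;> grind
  have h5 : ∀ s : F, s * (s * s) = 1 → s • a * (s • a * s • a) = 1 := fun s hs => by
    simp only [smul_mul_assoc, mul_smul_comm, smul_smul, h.a3, mul_assoc, hs, one_smul]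
  have h6 := (h.iso b h.hb).adj h.b3
  have h7 := (((h.iso a h.ha).adj_pj h.a3).add ((h6.mul h6).mul ((h.iso _ h2).adj_pj (by
    rw [smul_smul]; exact h5 _ h.symm.cube)))).add (h6.mul ((h.iso _ h1).adj_pj (h5 _ h.cube)))
  rw [h4.2.2.2, ← e] at h7
  refine ⟨f, ⟨.of_mul_eq_one _ h4.1, h.gen f (.of_mul_eq_one _ h4.1) ⟨_, S.mul_mem h.ha h.ha,
    h4.2.1⟩ ⟨_, S.mul_mem h.hb h.hb, h4.2.2.1⟩, h7.simB (h4.1.trans (one_smul F _).symm)⟩, h4.1,
    fun s e => h.ne_comm ?_⟩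
  have h8 := h4.2.1
  rw [show f * a = a * f by simp [e], mul_assoc, (IsUnit.of_mul_eq_one _ h.a3).mul_right_inj,
    eq_comm, (IsUnit.of_mul_eq_one _ h4.1).mul_eq_right] at h8
  simp [h8]

end Hei

theorem mult_of_trace (h3 : (3 : F) ≠ 0) (hV : finrank F V = 3) (h : f ^ 3 = 1) {k : F}
    (ht : LinearMap.trace F V f + LinearMap.trace F V (f * f) + 3 = 3 * k) : mult f 1 = k := by
  have h1 := sum_trace_pow (r := 3) (by simpa using h3) h
  rw [Finset.sum_range_succ, Finset.sum_range_succ, Finset.sum_range_one, pow_zero, pow_one,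
    LinearMap.trace_one, hV, sq] at h1
  exact mul_left_cancel₀ h3 (by push_cast at h1; linear_combination ht - h1)

theorem Hei.mult_le [Nontrivial V] (h : Hei S B ω a b) (hV : finrank F V = 3) (s : F)
    (hs : s ≠ 0) : mult a s ≤ 1 := by
  by_contra! h1
  have h2 : a ^ 3 = (1 : F) • 1 := by rw [pow_three, h.a3, one_smul]
  have h3 := pow_eq_of_mult_pos h2 (zero_lt_one.trans h1)
  have h4 := mult_of_trace (f := s⁻¹ • a) h.three hV (k := 1) (by
    rw [_root_.smul_pow, inv_pow, h3, h2, inv_one, one_smul, one_smul]) (by simp [h.trace])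
  have h5 := hV ▸ mult_lt (f := a) (c := s) fun e => h.ne_comm (by simp [e])
  rw [← inv_mul_cancel₀ hs, mult_smul (inv_ne_zero hs), show mult a s = 2 by omega,
    inv_mul_cancel₀ hs] at h4
  exact one_ne_zero (α := F) (by push_cast at h4; linear_combination h4)

theorem Hei.exists_three [Nontrivial V] (h : Hei S B ω a b) (h2 : (2 : F) ≠ 0)
    (hV : finrank F V = 3) : ∃ f, Md S B 1 f ∧ f ^ 3 = 1 ∧ mult f 1 = 2 := by
  have h0 := h.root
  have h3 := mul_inv_cancel₀ h.three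
  obtain ⟨f, e⟩ : ∃ f, f = 1 + (ω • 1 + (-1 : F) • 1) * pj a := ⟨_, rfl⟩
  have h4 : f ^ 3 = 1 ∧ f * a = a * f ∧ f * b = ω • (a * a * b) * f ∧
      (1 + pj a * ((ω * ω) • 1 + (-1 : F) • 1)) * f = (1 : F) • 1 := by
    refine ⟨?_, ?_, ?_, ?_⟩ <;>
    simp only [e, pj, pow_three, mul_add, add_mul, mul_assoc, smul_mul_assoc, mul_smul_comm, one_mul,
      mul_one, h.a3, h.ba, sw3 h.ba, cb1 h.a3] <;>
    match_scalars <;> grind
  have h5 := Adj.one.add ((((h.iso _ h.hω).adj (g := (ω * ω) • 1) (by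
    simp [smul_smul, mul_assoc, h.cube])).add (Adj.one.smul (-1))).mul ((h.iso a h.ha).adj_pj h.a3))
  rw [map_neg, map_one, ← e] at h5
  have h6 := isUnit_of_pow_eq_one three_ne_zero h4.1
  refine ⟨f, ⟨h6, h.gen f h6 ⟨a, h.ha, h4.2.1⟩ ⟨_, smul_mem_of h.hω (S.mul_mem
    (S.mul_mem h.ha h.ha) h.hb), h4.2.2.1⟩, h5.simB h4.2.2.2⟩, h4.1, ?_⟩
  have h7 := mult_of_trace h.three hV h4.1 (k := 2) (by
    simp only [e, pj, mul_add, add_mul, mul_assoc, smul_mul_assoc, mul_smul_comm, one_mul, mul_one,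
      h.a3, map_add, map_smul, h.trace, LinearMap.trace_one, hV, smul_eq_mul, Nat.cast_ofNat]
    grind)
  have h8 := mult_add_rank f 1
  generalize mult f 1 = m at *
  have : m ≤ 3 := by omega
  by_contra h9
  interval_cases m <;> first
    | exact h9 rfl
    | exact h2 (by push_cast at h7; linear_combination -h7)
    | exact one_ne_zero (α := F) (by push_cast at h7; linear_combination h7)
    | exact one_ne_zero (α := F) (by push_cast at h7; linear_combination -h7)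

theorem FixM.smul (h : FixM S B f) {s : F} (hs : s ≠ 0) (h' : σ s * s = 1) : FixM S B (s • f) :=
  let ⟨g, h1, h2⟩ := h
  ⟨s • g, by simpa [h'] using h1.smul hs, (sim_smul (sim_iff_ed_eq.2 h2) s).ed_eq⟩

theorem FixM.smul' (h : FixM S B f) {s : F} (hs : s ≠ 0) (h' : SimB B 1 (s • 1)) :
    FixM S B (s • f) :=
  let ⟨g, h1, h2⟩ := h
  ⟨s • g, ⟨(h1.smul hs).unit, (h1.smul hs).norm, by simpa using h'.mul h1.sim⟩,
    (sim_smul (sim_iff_ed_eq.2 h2) s).ed_eq⟩

variable {r : ℕ} [hr : Fact r.Prime] [Fintype F] {p : ℕ} [hp : Fact p.Prime] [CharP F p]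

theorem mult_neg_add (h2 : 2 ≠ p) (h : f ^ 2 = 1) : mult (-f) 1 + mult f 1 = finrank F V := by
  classical
  obtain ⟨k, l, h1, h3, -⟩ := exists_ed_of_sq h2 h
  have h4 : (1 : F) ≠ -1 := fun e => natCast_ne_zero_of_ne (F := F) h2 (by
    linear_combination e)
  have h5 := mult_smul (neg_ne_zero.2 one_ne_zero) f (-1)
  rw [neg_one_smul, neg_mul_neg, one_mul] at h5
  simp [h5, mult_of_ed_eq_dg h3, Multiset.count_replicate, h4, h4.symm, ← h1, add_comm]

theorem Md.fixM_of_sq (h : Md S B 1 g) (h2 : 2 ≠ p) (hg : g * g = 1) (hf : f ^ 2 = 1)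
    (H : mult g 1 = mult f 1 ∨ mult g 1 + mult f 1 = finrank F V) : FixM S B f := by
  rw [← sq] at hg
  rcases H with e | e
  · exact ⟨g, h, ed_eq_of_sq (p := p) hg hf e rfl⟩
  · have := mult_neg_add h2 hg
    exact ⟨-g, h.neg, ed_eq_of_sq (p := p) (by rwa [neg_sq]) hf (by omega) rfl⟩

theorem Hei.fixM_two [Nontrivial V] (h : Hei S B ω a b) (h2 : 2 ≠ p) (hV : finrank F V = 3)
    (hf : f ^ 2 = 1) (hs : ∀ s : F, f ≠ s • 1) : FixM S B f := by
  obtain ⟨g, h1, h3, h4⟩ := h.exists_two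
  have := mult_pos_of_sq hf (hs _)
  have := mult_lt (hs 1)
  have := mult_pos_of_sq ((sq g).trans h3) (h4 _)
  have := mult_lt (h4 1)
  exact h1.fixM_of_sq h2 h3 hf (by omega)

include hp in
theorem ed_of_mult_two (hq : 3 ∣ Fintype.card F - 1) (hV : finrank F V = 3) (h : f ^ 3 = 1)
    (h' : mult f 1 = 2) : ed f = dg {1, 1, LinearMap.det f} ∧ LinearMap.det f ≠ 1 ∧
      LinearMap.det f ^ 3 = 1 := by
  classical
  have := Fact.mk Nat.prime_three
  obtain ⟨t, h1, -⟩ := exists_ed_eq_dg_of_pow (ne_char_of_dvd (p := p) hq) hq h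
  rw [mult_of_ed_eq_dg h1] at h'
  obtain ⟨u, rfl⟩ := Multiset.le_iff_exists_add.1 (Multiset.le_count_iff_replicate_le.1 h'.ge)
  have h2 := card_of_ed_eq_dg h1
  obtain ⟨e, rfl⟩ := Multiset.card_eq_one.1 (show Multiset.card u = 1 by simp at h2; omega)
  refine ⟨by rw [det_of_ed_eq_dg h1, h1]; simp, by
    rw [det_of_ed_eq_dg h1]; rintro e'; simp_all, by rw [← map_pow, h, map_one]⟩

include hp in
theorem Hei.ed_eq [Nontrivial V] (h : Hei S B ω a b) (hq : 3 ∣ Fintype.card F - 1)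
    (hV : finrank F V = 3) : ed a = dg {1, ω, ω ^ 2} :=
  have := Fact.mk Nat.prime_three
  let ⟨_, h1, h2⟩ := exists_ed_eq_dg_of_pow (ne_char_of_dvd (p := p) hq) hq
    ((pow_three a).trans h.a3)
  ed_of_three h.prim h1 h2 hV (h.mult_le hV)

include hp in
theorem Hei.det_eq [Nontrivial V] (h : Hei S B ω a b) (hq : 3 ∣ Fintype.card F - 1)
    (hV : finrank F V = 3) : LinearMap.det a = 1 := by
  rw [det_of_ed_eq_dg (h.ed_eq (p := p) hq hV)]
  simpa [sq] using h.cube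

theorem Hei.fixM_three [Nontrivial V] (h : Hei S B ω a b) (h2 : 2 ≠ p)
    (hq : 3 ∣ Fintype.card F - 1) (hV : finrank F V = 3) (hf : f ^ 3 = 1)
    (hs : ∀ s : F, f ≠ s • 1) : FixM S B f := by
  have := Fact.mk Nat.prime_three
  by_cases h1 : ∀ s, s ≠ 0 → mult f s ≤ 1
  · obtain ⟨_, h3, h4⟩ := exists_ed_eq_dg_of_pow (ne_char_of_dvd (p := p) hq) hq hf
    exact ⟨a, h.md, (h.ed_eq (p := p) hq hV).trans (ed_of_three h.prim h3 h4 hV h1).symm⟩
  push Not at h1
  obtain ⟨s, h0, h1⟩ := h1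
  have h3 := mult_lt (hs s)
  have h4 := pow_eq_of_mult_pos (hf.trans (one_smul F _).symm) (zero_lt_one.trans h1)
  obtain ⟨g, g1, g2, g3⟩ := h.exists_three (natCast_ne_zero_of_ne (F := F) h2) hV
  obtain ⟨f1, f2, f3⟩ := ed_of_mult_two (p := p) (f := s⁻¹ • f) hq hV (by
    rw [_root_.smul_pow, inv_pow, h4, hf, inv_one, one_smul]) (by
    rw [← inv_mul_cancel₀ h0, mult_smul (inv_ne_zero h0)]; omega)
  obtain ⟨g4, g5, g6⟩ := ed_of_mult_two (p := p) hq hV g2 g3
  obtain ⟨g7, -⟩ := ed_of_mult_two (p := p) (f := g ^ 2) hq hV (by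
    rw [← pow_mul, mul_comm, pow_mul, g2, one_pow]) (by
    rw [mult_one, show fixS (g ^ 2) = fixS g from Submodule.ext fun v => mem_fixS.trans
      ⟨fun e => mem_fixS.2 (by rw [← e, ← End.mul_apply g, ← pow_succ', g2, e, End.one_apply]),
        fun e => by rw [sq, End.mul_apply, mem_fixS.1 e, mem_fixS.1 e]⟩, ← mult_one, g3])
  rw [← smul_inv_smul'' h0 f]
  refine FixM.smul' ?_ h0 (h.iso _ ?_)
  · rcases (by grind : LinearMap.det g = LinearMap.det (s⁻¹ • f) ∨
      LinearMap.det g ^ 2 = LinearMap.det (s⁻¹ • f)) with e | e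
    · exact ⟨g, g1, by rw [g4, f1, e]⟩
    · exact ⟨_, g1.pow 2, by rw [g7, f1, map_pow, e]⟩
  obtain ⟨i, -, rfl⟩ := h.prim.eq_pow_of_pow_eq_one h4
  simpa only [_root_.smul_pow, one_pow] using S.pow_mem h.hω i

theorem ed_eq_add_mult (hrp : r ≠ p) (h : f ^ r = 1) :
    ed f = movE f + Multiset.replicate (mult f 1) (X - C 1) := by
  classical
  obtain ⟨k, h1⟩ := ed_eq_movE_add f
  rw [mult_eq_nul, nul_X_sub_C, h1, Multiset.filter_add,
    (Multiset.filter_eq_nil (p := fun e : F[X] => e.eval 1 = 0)).2 fun e he h2 => ne_of_mem_cycF (natCast_ne_zero_of_ne hrp) (mem_cycF_of_mem_movE hrp h he)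
      (eq_of_monic_of_associated (mem_cycF.1 (mem_cycF_of_mem_movE hrp h he)).2.1 (monic_X_sub_C 1)
        ((irreducible_X_sub_C 1).associated_of_dvd (mem_cycF.1 (mem_cycF_of_mem_movE hrp h he)).1
          (dvd_iff_isRoot.2 h2)).symm),
    Multiset.filter_eq_self.2 fun a ha => by simp [Multiset.eq_of_mem_replicate ha], zero_add,
    Multiset.card_replicate]

variable (r) in
/-- All primitive roots of unity have the same multiplicity. -/
def Cy (f : End F V) : Prop := f ^ r = 1 ∧ ∃ k, (movE f).prod = cyclotomic r F ^ k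

theorem Cy.charpoly (h : Cy r f) (hrp : r ≠ p) : ∃ k, k * (r - 1) + mult f 1 = finrank F V ∧
    f.charpoly = cyclotomic r F ^ k * (X - C 1) ^ mult f 1 := by
  obtain ⟨k, h1⟩ := h.2
  have h2 := charpoly_eq_prod_ed f
  rw [ed_eq_add_mult hrp h.1, Multiset.prod_add, h1, Multiset.prod_replicate] at h2
  refine ⟨k, ?_, h2⟩
  rw [← f.charpoly_natDegree, h2, ((cyclotomic.monic r F).pow k).natDegree_mul
    ((monic_X_sub_C 1).pow _), natDegree_pow, natDegree_pow, natDegree_cyclotomic,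
    Nat.totient_prime hr.1, natDegree_X_sub_C, mul_one]

theorem Cy.ed_eq (h : Cy r f) (h' : Cy r g) (hrp : r ≠ p) (e : mult f 1 = mult g 1) :
    ed f = ed g := by
  obtain ⟨k, h1, h2⟩ := h.charpoly hrp
  obtain ⟨l, h3, h4⟩ := h'.charpoly hrp
  have := hr.1.two_le
  refine ed_eq_of_charpoly_eq (isSemisimple_of_pow_eq_one hrp h.1)
    (isSemisimple_of_pow_eq_one hrp h'.1) ?_
  rw [h2, h4, e, Nat.eq_of_mul_eq_mul_right (by omega : 0 < r - 1) (by omega : k * _ = l * _)]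

theorem cy_of_order (hrp : r ≠ p) (hi : orderOf ((Fintype.card F : ℕ) : ZMod r) = r - 1)
    (h : f ^ r = 1) : Cy r f := ⟨h, _, by
  rw [(Multiset.eq_replicate_card (s := movE f)).2 fun e he => ?_, Multiset.prod_replicate]
  have h1 := mem_cycF_of_mem_movE hrp h he
  refine (eq_of_monic_of_dvd_of_natDegree_le (mem_cycF.1 h1).2.1 (cyclotomic.monic r F)
    (mem_cycF.1 h1).2.2 ?_).symm
  rw [natDegree_of_mem_cycF hrp h1, hi, natDegree_cyclotomic, Nat.totient_prime hr.1]⟩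

theorem GeomU.cy {q : ℕ} (hG : GeomU B q) (hrp : r ≠ p) (h2 : r ≠ 2)
    (hD : orderOf (q : ZMod r) % 4 ≠ 2) (hi : 2 * orderOf ((Fintype.card F : ℕ) : ZMod r) = r - 1)
    (h1 : IsoU B f) (h : f ^ r = 1) : Cy r f := by
  have h3 := hG.herm.invol
  obtain ⟨t, h4⟩ := (hG.dt hrp h2).exists_eq_add_map h3 hD (fun e => mem_cycF_of_mem_movE hrp h)
    (hG.geom.map_uDual_movE' h1 (isSemisimple_of_pow_eq_one hrp h))
  refine ⟨h, Multiset.card t, ?_⟩
  rw [h4, Multiset.prod_add, ← Multiset.map_id' t, Multiset.map_map, ← Multiset.prod_map_mul,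
    Multiset.map_congr rfl (g := fun _ => cyclotomic r F) fun e he => ?_]
  · simp
  have h5 := mem_cycF_of_mem_movE hrp h (h4 ▸ Multiset.mem_add.2 (Or.inl he))
  have h6 := uDual_mem_cycF h3 (natCast_ne_zero_of_ne hrp) h5
  obtain ⟨a1, a2, a3⟩ := mem_cycF.1 h5
  obtain ⟨b1, b2, b3⟩ := mem_cycF.1 h6
  refine (eq_of_monic_of_dvd_of_natDegree_le (a2.mul b2) (cyclotomic.monic r F)
    (IsCoprime.mul_dvd ((a1.coprime_iff_not_dvd).2 fun e' => hD (((hG.dt hrp h2).dual e h5).1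
      (eq_of_monic_of_associated a2 b2 (a1.associated_of_dvd b1 e')).symm)) a3 b3) ?_).symm
  rw [a2.natDegree_mul b2, natDegree_of_mem_cycF hrp h5, natDegree_of_mem_cycF hrp h6,
    natDegree_cyclotomic, Nat.totient_prime hr.1]
  omega

theorem Pau.mult_two [Nontrivial V] (h : Pau S B) (hV : finrank F V = 4) (ha : a ∈ S)
    (hb : b ∈ S) (e : b * a = -(a * b)) (a1 : a * a = 1) : mult a 1 = 2 :=
  mult_eq_of_trace h.two hV a1 (h.ne_smul ha hb e) (Or.inl rfl) (by rw [h.trace hb e]; norm_num)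

theorem Pau.fixM_two [Nontrivial V] (h : Pau S B) (hV : finrank F V = 4) {i : F} (hi : i * i = -1)
    (hS : i • (1 : End F V) ∈ S) (h2 : 2 ≠ p) (hf : f ^ 2 = 1) (hs : ∀ s : F, f ≠ s • 1) :
    FixM S B f := by
  obtain ⟨a, b, c, d, H, a1, -, c1, -⟩ := h.exists_quad_neg (by omega) hi hS
  have H := ((H.smul hS hS).symm.smul hS hS).symm
  have a2 : i • a * i • a = 1 := by simp [smul_smul, hi, a1]
  obtain ⟨g, g1, g2, g3⟩ := h.exists_cz hV H a2 (by simp [smul_smul, hi, c1])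
  have := mult_pos_of_sq hf (hs _)
  have := mult_lt (hs 1)
  by_cases e : mult f 1 = 2
  · exact (h.md H.ha).fixM_of_sq h2 a2 hf (Or.inl ((h.mult_two hV H.ha H.hb H.ba a2).trans e.symm))
  · exact g1.fixM_of_sq h2 g2 hf (by omega)

theorem Pau.fixM_three [Fact (Nat.Prime 3)] [Nontrivial V] (h : Pau S B) (hV : finrank F V = 4)
    {i : F} (hi : i * i = -1) (hS : i • (1 : End F V) ∈ S) (h3 : 3 ≠ p)
    (hC : ∀ g, SimB B 1 g → g ^ 3 = 1 → Cy 3 g) (hf : Cy 3 f) (hs : f ≠ 1) : FixM S B f := by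
  obtain ⟨a, b, c, d, H, a1, b1, c1, d1⟩ := h.exists_quad_neg (by omega) hi hS
  obtain ⟨⟨g, g1, g2, g3⟩, u, u1, u2, u3, u4⟩ :=
    h.exists_three (natCast_ne_zero_of_ne (F := F) h3) H a1 b1 c1 d1
  by_cases e : mult f 1 = 0
  · exact ⟨g, g1, (hC g g1.sim g2).ed_eq hf h3 (g3.trans e.symm)⟩
  obtain ⟨k, h1, -⟩ := hf.charpoly h3
  obtain ⟨l, h2, -⟩ := (hC u u1.sim u2).charpoly h3
  have := mult_lt (c := 1) (by rwa [one_smul] : f ≠ _)
  have := mult_lt (c := 1) (by rwa [one_smul] : u ≠ _)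
  exact ⟨u, u1, (hC u u1.sim u2).ed_eq hf h3 (by omega)⟩

theorem Pau.fixM_five [Fact (Nat.Prime 5)] [Nontrivial V] (h : Pau S B) (hV : finrank F V = 4)
    (H : Quad S a b c d) (a1 : a * a = 1) (b1 : b * b = 1) (c1 : c * c = -1) (d1 : d * d = -1)
    (h5 : 5 ≠ p) (hC : ∀ g, SimB B 1 g → g ^ 5 = 1 → Cy 5 g) (hf : Cy 5 f) (hs : f ≠ 1) :
    FixM S B f := by
  have : Finite (End F V) := Module.finite_of_finite F
  obtain ⟨u, u1, u2, u3⟩ := h.exists_five H a1 b1 c1 d1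
  obtain ⟨k, h1, -⟩ := hf.charpoly h5
  obtain ⟨l, h2, -⟩ := (hC u u1.sim u2).charpoly h5
  have := mult_lt (c := 1) (by rwa [one_smul] : f ≠ _)
  have := mult_lt (c := 1) (by rwa [one_smul] : u ≠ _)
  exact ⟨u, u1, (hC u u1.sim u2).ed_eq hf h5 (by omega)⟩

theorem Pau.fixM_odd [Nontrivial V] (h : Pau S B) (hV : finrank F V = 4) {i : F} (hi : i * i = -1)
    (hS : i • (1 : End F V) ∈ S) (h35 : r = 3 ∨ r = 5) (hrp : r ≠ p)
    (hC : ∀ g, SimB B 1 g → g ^ r = 1 → Cy r g) (hf : Cy r f) (hs : f ≠ 1) : FixM S B f := by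
  rcases h35 with rfl | rfl
  · exact h.fixM_three hV hi hS hrp hC hf hs
  obtain ⟨a, b, c, d, H, a1, b1, c1, d1⟩ := h.exists_quad_neg (by omega) hi hS
  exact h.fixM_five hV (H.smul hS hS) (by simp [smul_smul, hi, a1]) (by simp [smul_smul, hi, b1])
    c1 d1 hrp hC hf hs

omit [Fintype F] in
theorem exists_quad_two (hV : finrank F V = 2) (f : End F V) :
    ∃ t : F, f.charpoly = X ^ 2 - C t * X + C (LinearMap.det f) ∧
      f * f = t • f - LinearMap.det f • 1 := by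
  have b := finBasisOfFinrankEq F V hV
  have h1 := (LinearMap.charpoly_toMatrix f b).symm.trans (Matrix.charpoly_fin_two _)
  rw [LinearMap.det_toMatrix] at h1
  refine ⟨_, h1, ?_⟩
  have h2 := f.aeval_self_charpoly
  simp only [h1, map_add, map_sub, map_mul, aeval_C, aeval_X, sq, Algebra.algebraMap_eq_smul_one,
    smul_mul_assoc, one_mul] at h2
  linear_combination (norm := module) h2

omit [Fintype F] in
theorem eq_of_not_scalar (hs : ∀ s : F, f ≠ s • 1) {s t : F} (h : s • f = t • 1) : s = 0 ∧ t = 0 := by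
  by_cases e : s = 0
  · have : Nontrivial (End F V) := ⟨_, _, hs 0⟩
    exact ⟨e, by simpa [e] using h.symm⟩
  · exact absurd (by rw [mul_smul, ← h, inv_smul_smul₀ e]) (hs (s⁻¹ * t))

omit [Fintype F] in
theorem charpoly_two (hV : finrank F V = 2) (hs : ∀ s : F, f ≠ s • 1) {t e : F}
    (h : f * f = t • f - e • 1) : f.charpoly = X ^ 2 - C t * X + C e := by
  obtain ⟨t', h1, h2⟩ := exists_quad_two hV f
  obtain ⟨h3, h4⟩ := eq_of_not_scalar hs (s := t' - t) (t := LinearMap.det f - e) (by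
    linear_combination (norm := module) h - h2)
  rw [h1, sub_eq_zero.1 h3, sub_eq_zero.1 h4]

theorem Pau.fixM_dim_two [Nontrivial V] (h : Pau S B) (hV : finrank F V = 2) (hc : c ∈ S)
    (hd : d ∈ S) (c1 : c * c = -1) (d1 : d * d = -1) (e : d * c = -(c * d)) (h23 : r = 2 ∨ r = 3)
    (hrp : r ≠ p) (h1 : LinearMap.det f = 1) {z : F} (hz : f ^ r = z • 1)
    (hs : ∀ s : F, f ≠ s • 1) : FixM S B f := by
  obtain ⟨t, h2, h3⟩ := exists_quad_two hV f
  have h4 := natCast_ne_zero_of_ne (F := F) hrp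
  have h5 := isSemisimple_of_pow_eq h4 (ne_zero_of_pow_eq_smul (isUnit_of_det_eq_one h1) hz) hz
  rw [h1] at h2 h3
  rcases h23 with rfl | rfl
  · obtain ⟨rfl, -⟩ := eq_of_not_scalar hs (s := t) (t := z + 1) (by
      rw [pow_two] at hz; linear_combination (norm := module) hz - h3)
    exact ⟨c, h.md hc, ed_eq_of_charpoly_eq (isSemisimple_of_sq_eq_neg_one h.two ((pow_two c).trans c1))
      h5 ((charpoly_two hV (h.ne_smul hc hd e) (by simp [c1])).trans h2.symm)⟩
  have h6 := wq_quad h.two c1 d1 e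
  have h7 : ∀ s : F, wq c d ≠ s • 1 := fun s e' => h.wq_ne hc hd c1 e (by simp [e'])
  obtain ⟨h8, -⟩ := eq_of_not_scalar hs (s := t * t - 1) (t := z + t) (by
    rw [pow_three, h3, mul_sub, mul_smul_comm, h3, mul_smul_comm, mul_one] at hz
    linear_combination (norm := module) hz)
  rcases mul_self_eq_one_iff.1 (sub_eq_zero.1 h8) with rfl | rfl
  · refine ⟨_, (h.md_wq hc hd c1 d1).neg, ed_eq_of_charpoly_eq (isSemisimple_of_pow_eq (z := -1) h4
      (by simp) (by rw [Odd.neg_pow (by decide), cube_of_quad h6, neg_one_smul])) h5 ((charpoly_two hV (fun s e' => h7 (-s) (by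
        rw [neg_smul, ← e', neg_neg])) ?_).trans h2.symm)⟩
    rw [neg_mul_neg]
    linear_combination (norm := module) h6
  · exact ⟨_, h.md_wq hc hd c1 d1, ed_eq_of_charpoly_eq (isSemisimple_of_pow_eq_one hrp
      (cube_of_quad h6)) h5 ((charpoly_two hV h7 (by
        linear_combination (norm := module) h6)).trans h2.symm)⟩

end Model

end Cfsg.Agent.Cl.Der
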