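import Mathlib
import Cfsg.Agent.Cl.DerSix3

/-! Elements of prime order and normalizers of groups of symplectic type in small dimensions. -/

set_option autoImplicit false
set_option linter.unusedSectionVars false

namespace Cfsg.Agent.Cl.Der

open Polynomial Module Cfsg.Agent.Cl.Cls Cfsg.Geo Cfsg.Agent.Cl.Max

theorem le_of_cube {G : Type*} [Group G] {R K : Subgroup G} {l : ℕ} (hl : l.Prime)
    (hR : Nat.card R = l ^ 3) {a b : G} (ha : a ∈ R) (hb : b ∈ R) (h : b * a ≠ a * b)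
    (ha' : a ∈ K) (hb' : b ∈ K) : R ≤ K := by
  have := Fact.mk hl
  have : Finite R := Nat.finite_of_card_ne_zero (hR ▸ pow_ne_zero _ hl.ne_zero)
  obtain ⟨j, h1, h2⟩ := (Nat.dvd_prime_pow hl).1 (hR ▸ (K.subgroupOf R).card_subgroup_dvd_card)
  rw [← Subgroup.subgroupOf_eq_top]
  by_contra h3
  have h4 : IsMulCommutative (K.subgroupOf R) := by
    interval_cases j
    · have := (Nat.card_eq_one_iff_unique.1 h2).1
      infer_instance
    · have := isCyclic_of_prime_card (h2.trans (pow_one l))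
      infer_instance
    · exact IsPGroup.isMulCommutative_of_card_eq_prime_sq h2
    · exact absurd (Subgroup.eq_top_of_card_eq _ (h2.trans hR.symm)) h3
  exact h (congrArg (fun x : K.subgroupOf R => x.1.1)
    (h4.is_comm.comm ⟨⟨b, hb⟩, hb'⟩ ⟨⟨a, ha⟩, ha'⟩))

theorem false_of_minus {G : Type*} [Group G] (hG : Nat.card G = 2 ^ 5) (hm : ∀ A : Subgroup G,
    IsMulCommutative A → (∀ x ∈ A, x * x = 1) → Nat.card A < 2 ^ (2 + 1)) {x y z : G}
    (h1 : x * x = 1) (h2 : y * y = 1) (h3 : z * z = 1) (h4 : y * x = x * y) (h5 : x * z = z * x)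
    (h6 : y * z = z * y) (z1 : z ≠ 1) (H : ∀ a ∈ ({x, y, x * y} : Set G), a ≠ 1 ∧ a ≠ z) : False := by
  classical
  have : Finite G := Nat.finite_of_card_ne_zero (by simp [hG])
  have h7 := Subgroup.isMulCommutative_closure (k := {z, x, y}) (by
    rintro a (rfl | rfl | rfl) b (rfl | rfl | rfl) <;> simp [h4, h5, h6])
  have h8 := hm _ h7 fun a ha => by
    induction ha using Subgroup.closure_induction with
    | mem a ha => rcases ha with rfl | rfl | rfl <;> assumption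
    | one => simp
    | mul a b ha hb h1 h2 =>
      rw [mul_assoc, show b * (a * b) = a * b * b from congrArg Subtype.val (h7.is_comm.comm
        ⟨b, hb⟩ ⟨a * b, mul_mem ha hb⟩), mul_assoc, h2, mul_one, h1]
    | inv a _ h1 => rw [← mul_inv_rev, h1, inv_one]
  have h9 := hG ▸ (Subgroup.closure {z, x, y}).card_subgroup_dvd_card
  have h10 := Set.ncard_le_ncard (s := (({1, z, x, y, x * y} : Finset G) : Set G))
    (t := (Subgroup.closure {z, x, y} : Subgroup G)) (by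
      have h : ∀ a ∈ ({z, x, y} : Set G), a ∈ Subgroup.closure {z, x, y} := Subgroup.subset_closure
      simp [Set.insert_subset_iff, h, mul_mem])
  obtain ⟨x1, x2⟩ := H x (by simp)
  obtain ⟨y1, y2⟩ := H y (by simp)
  obtain ⟨w1, w2⟩ := H (x * y) (by simp)
  have h11 : x ≠ y := fun e => w1 (e ▸ h1)
  rw [Set.ncard_coe_finset, Finset.card_insert_of_notMem (by simp [*, eq_comm]),
    Finset.card_insert_of_notMem (by simp [x2.symm, y2.symm, w2.symm]),
    Finset.card_insert_of_notMem (by simp [*]),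
    Finset.card_pair (by simp [*]), ← Nat.card_coe_set_eq, SetLike.coe_sort_coe] at h10
  generalize Nat.card (Subgroup.closure ({z, x, y} : Set G)) = k at *
  interval_cases k <;> norm_num at h9

theorem mult_of_trace_four {F V : Type*} [Field F] [AddCommGroup V] [Module F V]
    [FiniteDimensional F V] {f : End F V} (h3 : ((3 : ℕ) : F) ≠ 0) (hV : finrank F V = 4)
    (h : f ^ 3 = 1) :
    4 + LinearMap.trace F V f + LinearMap.trace F V (f * f) = 3 * (mult f 1 : F) := by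
  simpa [Finset.sum_range_succ, hV, sq] using sum_trace_pow h3 h

theorem orderOf_cast_two : orderOf ((2 : ℕ) : ZMod 3) = 2 :=
  orderOf_eq_prime (by decide) (by decide)

theorem orderOf_cast_five : orderOf ((5 : ℕ) : ZMod 5) ≠ 4 := by
  have := Fact.mk Nat.prime_five
  rw [ZMod.natCast_self, orderOf_zero]
  decide

section Mat

variable {F : Type*} [Field F] [Fintype F] {ι : Type} [Fintype ι] [DecidableEq ι] [Nonempty ι]
  {R H T : Subgroup (GL ι F)} {l r : ℕ} [hr : Fact r.Prime] {x y : GL ι F} {σ : F →+* F}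
  {B : (ι → F) →ₛₗ[σ] (ι → F) →ₗ[F] F} {f : End F (ι → F)}

/-- The image of a matrix group in the endomorphism ring. -/
noncomputable def Sm (R : Subgroup (GL ι F)) : Submonoid (End F (ι → F)) := R.toSubmonoid.map glRep

theorem mem_Sm : glRep x ∈ Sm R ↔ x ∈ R :=
  ⟨fun ⟨_, h, e⟩ => glRep_injective e ▸ h, fun h => ⟨x, h, rfl⟩⟩

theorem glRep_sc (c : Fˣ) : glRep (sc ι c) = (c : F) • 1 := glRep_eq_smul.2 (coe_sc c)

theorem mem_scalars_iff_glRep : x ∈ scalars ι F ↔ ∃ s : F, glRep x = s • 1 :=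
  ⟨fun h => let ⟨c, _, e⟩ := coe_eq_smul_of_mem_scalars h; ⟨c, glRep_eq_smul.2 e⟩,
    fun ⟨_, e⟩ => mem_scalars_of_eq_smul (glRep_eq_smul.1 e)⟩

theorem conj_mem_iff : x * y * x⁻¹ ∈ R ↔ ∃ y' ∈ Sm R, glRep x * glRep y = y' * glRep x :=
  ⟨fun h => ⟨_, mem_Sm.2 h, by rw [← map_mul, ← map_mul, inv_mul_cancel_right]⟩, by
    rintro ⟨_, ⟨z, h, rfl⟩, e⟩
    rw [← map_mul, ← map_mul] at e
    rwa [glRep_injective e, mul_inv_cancel_right]⟩

theorem FixM.fixG (h : FixM (Sm R) B f) (hH : ∀ x, SimB B 1 (glRep x) → x ∈ H) :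
    FixG (subgroupNormalizer R ⊓ H) f := by
  obtain ⟨g, h1, h2⟩ := h
  obtain ⟨x, rfl⟩ := exists_glRep h1.unit
  exact ⟨x, ⟨Subgroup.mem_normalizer_fintype fun y hy =>
    conj_mem_iff.2 (h1.norm _ (mem_Sm.2 hy)), hH x h1.sim⟩, sim_iff_ed_eq.2 h2⟩

theorem FixM.fixG' (h : FixM (Sm R) B f) : FixG (subgroupNormalizer R) f :=
  inf_top_eq (subgroupNormalizer R) ▸ h.fixG fun _ _ => Subgroup.mem_top _

theorem pau_of (h : ExtraData R R 2) (hn : 2 ≤ Fintype.card ι) (h4 : ∀ x ∈ R, x ^ 4 = 1)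
    (hB : ∀ x ∈ R, SimB B 1 (glRep x)) : Pau (Sm R) B := by
  obtain ⟨c, c1, c2, c3⟩ := h.exists_root hn
  obtain rfl := (units_sq_eq_one c2).resolve_left c1
  refine ⟨fun e => c1 (Units.ext (by simp; linear_combination -e)), ?_, ?_,
    ⟨_, c3, (glRep_sc _).trans (neg_one_smul F (1 : End F (ι → F)))⟩, eq_top_iff.2 fun f _ => ?_, ?_⟩
  · rintro _ ⟨x, hx, rfl⟩
    obtain ⟨s, e⟩ := mem_scalars_iff_glRep.1 (h.pow x hx)
    have h1 := pow_eq_one_of_smul (k := 2) (e ▸ (by rw [← map_pow, ← pow_mul, h4 x hx, map_one]) :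
      (s • (1 : End F (ι → F))) ^ 2 = 1)
    rw [← map_mul, ← pow_two, e]
    rcases mul_self_eq_one_iff.1 ((pow_two s).symm.trans h1) with rfl | rfl
    exacts [Or.inl (one_smul _ _), Or.inr (neg_one_smul F (1 : End F (ι → F)))]
  · rintro _ ⟨x, hx, rfl⟩ _ ⟨y, hy, rfl⟩
    obtain ⟨c, h1, e⟩ := h.exists_comm hy hx
    rw [← map_mul, e, map_mul, glRep_sc, map_mul]
    rcases units_sq_eq_one h1 with rfl | rfl <;> simp
  · obtain ⟨M, rfl⟩ := (Matrix.toLinAlgEquiv' (R := F) (n := ι)).surjective f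
    refine Submodule.span_mono ?_ (Submodule.apply_mem_span_image_of_mem_span
      (Matrix.toLinAlgEquiv' (R := F) (n := ι)).toLinearMap (mem_spanAlg.1 (h.spans M)))
    rintro _ ⟨_, ⟨x, hx, rfl⟩, rfl⟩
    exact mem_Sm.2 hx
  · rintro _ ⟨x, hx, rfl⟩
    exact hB x hx

theorem exists_i (h : Spans R) (hZ : Nat.card (Subgroup.center R) = 4) :
    ∃ i : F, i * i = -1 ∧ i • (1 : End F (ι → F)) ∈ Sm R := by
  obtain ⟨⟨c, hc⟩, h1⟩ := IsCyclic.exists_ofOrder_eq_natCard (α := scOf R)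
  rw [← h.card_center, hZ, ← Subgroup.orderOf_coe, ← orderOf_units] at h1
  refine ⟨c, (mul_self_eq_one_iff.1 ?_).resolve_left fun e => ?_, _, hc, glRep_sc c⟩
  · linear_combination (h1 ▸ pow_orderOf_eq_one (c : F) : (c : F) ^ 4 = 1)
  · exact absurd (h1 ▸ orderOf_dvd_of_pow_eq_one ((pow_two _).trans e)) (by decide)

theorem minus_of (h : Pau (Sm R) B) (hm : IsOfMinusType 2 R) (hR : Nat.card R = 2 ^ 5) :
    Minus (Sm R) := by
  rintro _ ⟨x, hx, rfl⟩ _ ⟨y, hy, rfl⟩ h1 h2 h3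
  obtain ⟨z, hz, h4⟩ := h.neg
  by_contra! H
  have h5 : Function.Injective (glRep.comp R.subtype) := glRep_injective.comp Subtype.val_injective
  have h6 := mul_comm_of_mem_scalars (mem_scalars_iff_glRep.2 ⟨-1, h4.trans (neg_one_smul F _).symm⟩)
  refine false_of_minus hR hm (x := ⟨x, hx⟩) (y := ⟨y, hy⟩) (z := ⟨z, hz⟩) (h5 (by simpa using h1))
    (h5 (by simpa using h2)) (h5 (by simpa [h4] using LinearMap.ext fun v => neg_neg v))
    (h5 (by simpa using h3)) (Subtype.ext (h6 x).symm) (Subtype.ext (h6 y).symm) (fun e => ?_) ?_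
  · rw [show z = 1 from congrArg Subtype.val e, map_one, eq_neg_iff_add_eq_zero, ← two_smul F] at h4
    exact smul_ne_zero h.two one_ne_zero h4
  have h7 : ∀ a : R, (∀ s : F, glRep a.1 ≠ s • 1) → a ≠ 1 ∧ a ≠ ⟨z, hz⟩ := fun a e =>
    ⟨fun e' => e 1 (by simp [e']), fun e' => e (-1) (e' ▸ h4.trans (neg_one_smul F _).symm)⟩
  rintro a (rfl | rfl | rfl)
  exacts [h7 _ H.1, h7 _ H.2.1, h7 _ (by simpa using H.2.2)]

theorem exists_hei (h : ExtraData R R 3) (hn : 2 ≤ Fintype.card ι) (hR : Nat.card R = 3 ^ 3)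
    (h3 : ∀ x ∈ R, x ^ 3 = 1) (hB : ∀ x ∈ R, SimB B 1 (glRep x)) :
    ∃ (ω : F) (a b : GL ι F), (∀ K : Subgroup (GL ι F), a ∈ K → b ∈ K → R ≤ K) ∧
      Hei (Sm R) B ω (glRep a) (glRep b) := by
  obtain ⟨a, ha, h1⟩ := SetLike.not_le_iff_exists.1 (h.spans.not_le_scalars hn)
  obtain ⟨b, hb, c, c1, c2, c3⟩ := h.exists_comm_ne ha h1
  have h2 : ∀ K : Subgroup (GL ι F), a ∈ K → b ∈ K → R ≤ K := fun K => le_of_cube Nat.prime_three hR
    ha hb fun e => c1 (sc_injective ((mul_eq_right.1 (c3.symm.trans e)).trans (map_one _).symm))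
  have c4 : (c : F) - 1 ≠ 0 := sub_ne_zero.2 fun e => c1 (Units.ext e)
  have c5 : (c : F) ^ 3 = 1 := by simpa using congrArg Units.val c2
  have h4 : (c : F) * c + c + 1 = 0 := mul_left_cancel₀ c4 (by linear_combination c5)
  have h5 : ∀ x ∈ R, glRep x * (glRep x * glRep x) = 1 := fun x hx => by
    rw [← pow_three, ← map_pow, h3 x hx, map_one]
  refine ⟨c, a, b, h2, fun e => mul_ne_zero c4 c4 (by linear_combination h4 - c * e), h4,
    mem_Sm.2 ha, mem_Sm.2 hb, ⟨_, ?_, glRep_sc c⟩, h5 a ha, h5 b hb, ?_, ?_, fun f f1 f2 f3 => ?_⟩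
  · rw [eq_mul_inv_of_mul_eq c3.symm]
    exact R.mul_mem (R.mul_mem hb ha) (R.inv_mem (R.mul_mem ha hb))
  · rw [← map_mul, c3, map_mul, glRep_sc, map_mul, smul_mul_assoc, one_mul]
  · rintro _ ⟨x, hx, rfl⟩
    exact hB x hx
  · obtain ⟨x, rfl⟩ := exists_glRep f1
    rintro _ ⟨y, hy, rfl⟩
    exact conj_mem_iff.1 (h2 (R.comap (MulAut.conj x).toMonoidHom) (conj_mem_iff.2 f2)
      (conj_mem_iff.2 f3) hy)

/-- Every element of order `r` modulo scalars in `T` is conjugate into `H`. -/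
abbrev AllC (T H : Subgroup (GL ι F)) (r : ℕ) : Prop := ∀ x ∈ T,
  (∃ z : F, ((x ^ r : GL ι F) : Matrix ι ι F) = z • (1 : Matrix ι ι F)) →
  (∀ z : F, (x : Matrix ι ι F) ≠ z • (1 : Matrix ι ι F)) → ∃ g ∈ T, g⁻¹ * x * g ∈ H

theorem AllC.fixG (h : AllC T H r) (hx : x ∈ T) (hz : ∃ z : F, glRep x ^ r = z • 1)
    (hs : ∀ z : F, glRep x ≠ z • 1) : FixG H (glRep x) :=
  let ⟨_, _, h1⟩ := h x hx (hz.imp fun _ => glRep_pow_eq_smul.1) fun z e =>
    hs z (glRep_eq_smul.2 e)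
  fixG_of_conj h1

theorem AllC.exists_mem (h : AllC T H r) {n : ℕ}
    (hT : ∀ x ∈ T, ∀ z : F, glRep x = z • 1 → z ^ n = 1) (h1 : r ∣ H.relIndex T) (h2 : ¬ r ∣ n) :
    ∃ x ∈ H, x ^ r ∈ scalars ι F ∧ x ∉ scalars ι F := by
  obtain ⟨x, hx⟩ := exists_prime_orderOf_dvd_card' r (h1.trans (H.subgroupOf T).index_dvd_card)
  have h3 : glRep x.1 ^ r = 1 := by
    rw [← map_pow, ← Subgroup.coe_pow, ← hx, pow_orderOf_eq_one, Subgroup.coe_one, map_one]
  have h4 : ∀ z : F, glRep x.1 ≠ z • 1 := fun z e => by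
    obtain rfl := (pow_eq_one_iff_of_coprime (hr.1.coprime_iff_not_dvd.2 h2)).1
      ⟨pow_eq_one_of_smul (e ▸ h3), hT x x.2 z e⟩
    rw [one_smul, ← map_one glRep] at e
    rw [show x = 1 from Subtype.ext (glRep_injective e), orderOf_one] at hx
    exact hr.1.ne_one hx.symm
  obtain ⟨y, y1, y2, y3, -⟩ := (h.fixG x.2 ⟨1, h3.trans (one_smul F _).symm⟩ h4).exists_mem
    ⟨1, h3.trans (one_smul F _).symm⟩ h4
  exact ⟨y, y1, y2, y3⟩

theorem sl_scalar (hT : T ≤ specialLinear ι F) : ∀ x ∈ T, ∀ z : F, glRep x = z • 1 →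
    z ^ Fintype.card ι = 1 := fun x hx z e => by
  simpa [e] using mem_specialLinear_iff.1 (hT hx)

theorem AllC.two_or_three (H : AllC T (subgroupNormalizer R) r) (h : ExtraData R R l)
    (hn : Fintype.card ι = l) (hl : l ≤ 3) (hT : T ≤ specialLinear ι F)
    (h1 : r ∣ (subgroupNormalizer R).relIndex T) : r = 2 ∨ r = 3 := by
  have := hr.1.two_le
  by_contra! h2
  obtain ⟨x, x1, x2, x3⟩ := H.exists_mem (sl_scalar hT) h1 fun e => by
    have := Nat.le_of_dvd Fintype.card_pos e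
    omega
  have := le_three_of_norm h hn hl x1 x2 x3
  omega

theorem AllC.three_or_five (H : AllC T (subgroupNormalizer R) r) (h : ExtraData R R 2)
    (hn : Fintype.card ι = 4) (hT : ∀ x ∈ T, ∀ z : F, glRep x = z • 1 → z ^ 4 = 1)
    (h1 : r ∣ (subgroupNormalizer R).relIndex T) (h2 : r ≠ 2) : r = 3 ∨ r = 5 :=
  let ⟨_, x1, x2, x3⟩ := H.exists_mem hT h1 fun e => h2
    ((Nat.prime_dvd_prime_iff_eq hr.1 Nat.prime_two).1 (hr.1.dvd_of_dvd_pow (n := 2) e))
  (cases_of_norm h hn h2 x1 x2 x3).imp And.left And.left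

/-- An element of order `r` with a large fixed space. -/
def Big (r : ℕ) (f : End F (ι → F)) : Prop :=
  f ^ r = 1 ∧ mult f 1 < 4 ∧ 2 ≤ mult f 1 ∧ (r = 3 → mult f 1 = 3)

theorem AllC.not_big (H : AllC T (subgroupNormalizer R) r) (h : ExtraData R R 2)
    (hn : Fintype.card ι = 4) (h35 : r = 3 ∨ r = 5) (hf : Big r f)
    (hT : ∀ (k : ℕ) x, glRep x = LinearMap.det f ^ k • f → x ∈ specialLinear ι F → x ∈ T) :
    False := by
  obtain ⟨h1, h2, h3, h4⟩ := hf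
  have h5 : LinearMap.det f ^ r = 1 := by rw [← map_pow, h1, map_one]
  have h6 := isUnit_of_pow_eq_one hr.1.ne_zero h1
  obtain ⟨k, h7⟩ : ∃ k : ℕ, (LinearMap.det f ^ k) ^ 4 * LinearMap.det f = 1 := by
    rcases h35 with rfl | rfl
    exacts [⟨2, by grind⟩, ⟨1, by grind⟩]
  have h8 := pow_ne_zero k (LinearMap.isUnit_det f h6).ne_zero
  obtain ⟨x, hx⟩ := exists_glRep (h6.smul (Units.mk0 _ h8))
  have hV := (finrank_fintype_fun_eq_card F).trans hn
  have h9 : ∀ z : F, glRep x ≠ z • 1 := hx ▸ smul_ne_smul_one h8 (ne_smul_of_movE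
    (by rw [← mult_one]; omega) (ne_one_of_finrank_fixS (by rw [← mult_one]; omega)))
  have h10 : ∃ z : F, glRep x ^ r = z • 1 := ⟨_, by rw [hx, Units.smul_mk0, _root_.smul_pow, h1]⟩
  have h11 := mult_smul h8 f 1
  rcases (H.fixG (hT k x hx (mem_specialLinear_iff.2 (by
    rw [hx, Units.smul_mk0, LinearMap.det_smul, hV, h7]))) h10 h9).cases h hn (by omega) h10 h9
    with ⟨e, h12⟩ | ⟨e, h12⟩ <;> have := h11 ▸ hx ▸ h12 (LinearMap.det f ^ k * 1) <;> omega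

theorem orderOf_cases {q : ℕ} (hq : ¬ r ∣ q) (h35 : r = 3 ∨ r = 5) :
    (r = 3 ∧ q % 3 = 1 ∧ orderOf (q : ZMod r) = 1) ∨ (r = 3 ∧ q % 3 = 2 ∧ orderOf (q : ZMod r) = 2) ∨
      (r = 5 ∧ (orderOf (q : ZMod r) = 1 ∨ orderOf (q : ZMod r) = 2 ∨ orderOf (q : ZMod r) = 4)) := by
  have h := ZMod.orderOf_dvd_card_sub_one (mt (ZMod.natCast_eq_zero_iff q r).1 hq)
  rcases h35 with rfl | rfl
  · rw [← ZMod.natCast_mod]
    rcases (by omega : q % 3 = 1 ∨ q % 3 = 2) with e | e <;> rw [e]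
    · simp
    · exact Or.inr (Or.inl ⟨rfl, rfl, orderOf_cast_two⟩)
  · have := Nat.le_of_dvd (by decide) h
    generalize orderOf (q : ZMod 5) = k at *
    interval_cases k <;> simp_all

variable {p : ℕ} [hp : Fact p.Prime] [CharP F p]

theorem not_dvd_card (hrp : r ≠ p) : ¬ r ∣ Fintype.card F := fun h => by
  obtain ⟨n, -, e⟩ := FiniteField.card F p
  exact hrp ((Nat.prime_dvd_prime_iff_eq hr.1 hp.1).1 (hr.1.dvd_of_dvd_pow (e ▸ h)))

theorem exists_big (hn : Fintype.card ι = 4) (h35 : r = 3 ∨ r = 5)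
    (h : r = p ∨ orderOf ((Fintype.card F : ℕ) : ZMod r) ≠ r - 1) :
    ∃ f : End F (ι → F), Big r f := by
  have hV := (finrank_fintype_fun_eq_card F).trans hn
  by_cases hrp : r = p
  · obtain ⟨f, -, h1, -, h2⟩ := exists_transv F (ι → F) p (by omega)
    exact ⟨f, hrp ▸ h1, by omega, by omega, by omega⟩
  obtain ⟨e, he⟩ := cycF_nonempty (F := F) (r := r)
  have h1 := orderOf_cases (not_dvd_card (F := F) hrp) h35
  obtain ⟨f, h2, -, h3⟩ := exists_block (V := ι → F) hrp (by omega) he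
  rw [← mult_one] at h3
  exact ⟨f, h2, by omega, by omega, by omega⟩

theorem GeomU.exists_big {q : ℕ} (hG : GeomU B q) (hn : Fintype.card ι = 4) (h35 : r = 3 ∨ r = 5)
    (h : r = p ∨ (r = 3 ∧ q % 3 ≠ 1) ∨ (r = 5 ∧ orderOf (q : ZMod r) ≠ 4)) :
    ∃ f, IsoU B f ∧ Big r f := by
  have hV := (finrank_fintype_fun_eq_card F).trans hn
  by_cases hrp : r = p
  · obtain ⟨f, h1, h2, h3⟩ := hG.exists_unip (p := p) (μ := {2, 1, 1}) (by
      simp; omega) (by simp [hV])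
    have := mult_of_ed_unip h3 (by simp)
    exact ⟨f, h1, hrp ▸ h2, by simp [this], by simp [this], fun _ => this⟩
  have h1 := orderOf_cases (mt hG.dvd_iff.1 hrp) h35
  have h2 := hG.orderOf_card (r := r)
  have h3 := hG.dt hrp (by omega)
  by_cases e : orderOf (q : ZMod r) = 2
  · rw [e, if_pos even_two] at h2
    obtain ⟨f, f1, f2, f3, -⟩ := hG.exists_model h3 (w := 0) (o := 1) (by omega) (by
      rw [h2]; omega) (by omega)
    have := hG.geom.finrank_fixS_add f1 hrp f2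
    rw [← mult_one, f3, h2] at this
    exact ⟨f, f1, f2, by omega, by omega, by omega⟩
  · rw [show orderOf (q : ZMod r) = 1 by omega, if_neg Nat.not_even_one] at h2
    obtain ⟨f, f1, f2, f3, -⟩ := hG.exists_model h3 (w := 1) (o := 0) (by omega) (Nat.zero_le _)
      fun _ => rfl
    have := hG.geom.finrank_fixS_add f1 hrp f2
    rw [← mult_one, f3, h2] at this
    exact ⟨f, f1, f2, by omega, by omega, by omega⟩

theorem allC_sl (hrp : r ≠ p) (hv : r ∣ Fintype.card F - 1 → padicValNat r (Fintype.card ι) ≤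
    padicValNat r (Fintype.card F - 1) ∧ (r = 2 → Even (Fintype.card ι) → Fintype.card F % 4 = 1))
    (h : ∀ f : End F (ι → F), f ^ r = 1 → (∀ z : F, f ≠ z • 1) → FixM (Sm R) B f) :
    AllC (specialLinear ι F) (subgroupNormalizer R) r := by
  refine (sl_forall_iff (Or.inl hrp)).2 ((lin_forall_iff hr.1.ne_zero (FixG.smul fun x hx =>
    Subgroup.mem_normalizer_fintype fun y hy => ?_)).2 ⟨fun f h1 h2 _ => (h f h1 h2).fixG',
      fun f z h1 h2 h3 => ?_⟩)
  · rwa [mul_comm_of_mem_scalars hx, mul_inv_cancel_right]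
  · have := exists_nonpow_end_iff.1 ⟨f, z, h1, h2, h3⟩
    rw [finrank_fintype_fun_eq_card] at this
    exact absurd (hv this.1) this.2

theorem allC_su {n q : ℕ} [NeZero n] {R : Subgroup (GL (Fin n) F)} (hσ : UField σ q) (hrp : r ≠ p)
    (hv : r ∣ q + 1 → padicValNat r n ≤ padicValNat r (q + 1) ∧ (r = 2 → Even n → (q + 1) % 4 = 0))
    (h : ∀ f, IsoU (uB σ n) f → f ^ r = 1 → (∀ z : F, f ≠ z • 1) → FixM (Sm R) (uB σ n) f) :
    AllC (GU n F q ⊓ specialLinear (Fin n) F) (subgroupNormalizer R) r := by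
  rintro x hx ⟨z, hz⟩ hs
  have hG := geomU_uB (n := n) hσ
  obtain ⟨h1, h2⟩ := (mem_GU_inf_iff hσ x).1 hx
  rw [← glRep_pow_eq_smul] at hz
  obtain ⟨c, c1, rfl⟩ : ∃ c : F, c ^ (q + 1) = 1 ∧ c ^ r = z := by
    by_contra! H
    have := hG.exists_NP_iff.1 ⟨_, z, h1, h2, hz, hG.norm_iff.1 (hG.geom.norm_eq_one
      (hz ▸ h1.pow r)), H⟩
    rw [finrank_fin_fun] at this
    exact absurd (hv this.1) this.2
  have c0 : c ≠ 0 := fun e => by simp [e] at c1
  have h3 := (h _ (hG.iso_smul h1 (by rw [inv_pow, c1, inv_one])) (smul_pow_eq_one c0 hz)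
    (smul_ne_smul_one (inv_ne_zero c0) fun z e => hs z (glRep_eq_smul.1 e))).smul c0
      (hG.norm_iff.2 c1)
  rw [smul_inv_smul'' c0] at h3
  obtain ⟨y, ⟨y1, y2⟩, y3⟩ := h3.fixG (H := isoGL (uB σ n) fun v => uB σ n v v) fun x hx =>
    mem_isoGL.2 (isoU_of fun u v => (hx u v).trans (one_mul _))
  have y4 := (mem_GU_inf_iff hσ y).2 ⟨mem_isoGL.1 y2, y3.det_eq.trans h2⟩
  obtain ⟨u, hu⟩ := exists_conj_of_sim y3
  obtain ⟨x, rfl⟩ := exists_toGL_eq hx.2
  obtain ⟨y, rfl⟩ := exists_toGL_eq y4.2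
  obtain ⟨e, he⟩ := exists_mem_ed (glRep (Matrix.SpecialLinearGroup.toGL y))
  obtain ⟨g, hg⟩ := isConj_iff.1 (isConj_SU_of_irreducible_mem hσ (g := ⟨y, y4.1⟩) (g' := ⟨x, hx.1⟩)
    (irreducible_of_isSemisimple (isSemisimple_of_pow_eq (natCast_ne_zero_of_ne hrp)
      (pow_ne_zero r c0) (sim_pow_eq y3.symm hz)) he) he
    (isConj_units_iff.1 (isConj_iff.2 ⟨u, (by rw [← hu]; group : u * Matrix.SpecialLinearGroup.toGL y
      * u⁻¹ = Matrix.SpecialLinearGroup.toGL x)⟩)))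
  refine ⟨Matrix.SpecialLinearGroup.toGL g.1, ⟨g.2, toGL_mem _⟩, ?_⟩
  rwa [← show g.1 * y * g.1⁻¹ = x from congrArg Subtype.val hg, map_mul, map_mul, map_inv,
    ← mul_assoc, ← mul_assoc, inv_mul_cancel, one_mul, inv_mul_cancel_right]

theorem card_GU_inf {n q : ℕ} (hσ : UField σ q) (hn : 1 ≤ n) :
    (q + 1) * Nat.card ↥(GU n F q ⊓ specialLinear (Fin n) F) = uOrd q n := by
  rw [← hσ.card_SU hn, ← Subgroup.card_map_of_injective (K := SU n F q)
    (f := Matrix.SpecialLinearGroup.toGL) Matrix.SpecialLinearGroup.toGL_injective]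
  refine congrArg (fun K : Subgroup (GL (Fin n) F) => (q + 1) * Nat.card K)
    (Subgroup.ext fun x => ⟨fun hx => ?_, ?_⟩)
  · obtain ⟨y, rfl⟩ := exists_toGL_eq hx.2
    exact ⟨y, hx.1, rfl⟩
  · rintro ⟨y, hy, rfl⟩
    exact ⟨hy, toGL_mem y⟩

theorem simB_of_le_GU {n q : ℕ} {R : Subgroup (GL (Fin n) F)} (hσ : UField σ q)
    (h : R ≤ GU n F q) : ∀ x ∈ R, SimB (uB σ n) 1 (glRep x) := fun _ hx =>
  (iso_uB_iff.2 ((hσ.mem_GU_iff _).1 (h hx))).simB

theorem mod_nine_one {q : ℕ} (h : q % 3 = 1) (h' : 81 ∣ q ^ 3 * (q ^ 2 - 1) * (q ^ 3 - 1)) :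
    q % 9 = 1 := by
  have h1 := (ZMod.natCast_eq_zero_iff _ _).2 h'
  rw [Nat.cast_mul, Nat.cast_mul, Nat.cast_pred (pow_pos (by omega) _),
    Nat.cast_pred (pow_pos (by omega) _)] at h1
  have := (by decide +kernel : ∀ x : ZMod 81, x ^ 3 * (x ^ 2 - 1) * (x ^ 3 - 1) = 0 →
    x.val % 3 = 1 → x.val % 9 = 1) q (by simpa using h1)
  rw [ZMod.val_natCast] at this
  omega

theorem mod_nine_eight {q : ℕ} (h : q % 3 = 2) (h' : 81 ∣ q ^ 3 * ((q ^ 2 - 1) * (q ^ 3 + 1))) :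
    q % 9 = 8 := by
  have h1 := (ZMod.natCast_eq_zero_iff _ _).2 h'
  rw [Nat.cast_mul, Nat.cast_mul, Nat.cast_pred (pow_pos (by omega) _)] at h1
  have := (by decide +kernel : ∀ x : ZMod 81, x ^ 3 * ((x ^ 2 - 1) * (x ^ 3 + 1)) = 0 →
    x.val % 3 = 2 → x.val % 9 = 8) q (by simpa using h1)
  rw [ZMod.val_natCast] at this
  omega

theorem pow_four_of_sympl (h : IsSymplecticTypeGroup 2 R) : ∀ x ∈ R, x ^ 4 = 1 := fun x hx =>
  congrArg Subtype.val (h.exponent_eq ▸ Monoid.pow_exponent_eq_one (⟨x, hx⟩ : R) :)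

variable {B : (ι → F) →ₛₗ[RingHom.id F] (ι → F) →ₗ[F] F}

theorem GeomA.trace_inv (hG : GeomA B) (h : IsoA B (glRep x)) :
    ((x⁻¹ : GL ι F) : Matrix ι ι F).trace = (x : Matrix ι ι F).trace := by
  rw [← Matrix.trace_toLin'_eq, ← Matrix.trace_toLin'_eq, ← LinearMap.trace_transpose']
  exact (sim_trace ⟨LinearMap.BilinForm.toDual B hG.nondegenerate, fun v => LinearMap.ext fun u =>
    h.simB.adj (g := glRep x⁻¹) (by rw [← map_mul, mul_inv_cancel, map_one]) v u⟩).symm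

theorem GeomA.not_allA_three [Fact (Nat.Prime 3)] (hG : GeomA B) (h : ExtraData R R 2)
    (hP : Pau (Sm R) B) (hm : Minus (Sm R)) (hn : Fintype.card ι = 4) (h3 : 3 ≠ p) {f : End F (ι → F)}
    (h1 : f ^ 3 = 1) (h2 : mult f 1 = 2) :
    ¬ FixG (subgroupNormalizer R ⊓ isoGL B fun _ => (0 : F)) f := fun H => by
  have hV := (finrank_fintype_fun_eq_card F).trans hn
  obtain ⟨x, ⟨x1, x2⟩, x3, x4, x5⟩ := H.exists_mem (r := 3) ⟨1, h1.trans (one_smul F _).symm⟩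
    (ne_smul_of_movE (by rw [← mult_one]; omega) (ne_one_of_finrank_fixS (by
      rw [← mult_one]; omega)))
  rcases cases_of_norm h hn (by decide) x1 x3 x4 with ⟨-, -, e | e⟩ | ⟨e, -⟩
  · obtain ⟨_, b, -, -, ⟨⟨a, ha, rfl⟩, hb, -, -, a2, -⟩, a1, -⟩ := hP.exists_quad_minus (by omega) hm
    obtain ⟨u1, u2⟩ := exists_not_comm h (by decide) x1 x3 ha
    have h4 := normsG_subgroupNormalizer R x x1
    have h5 : ∀ y : GL ι F, glRep y * glRep y = 1 → (∀ s : F, glRep y ≠ s • 1) →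
        glRep (x * y * x⁻¹) * glRep (x * y * x⁻¹) = 1 ∧ ∀ s : F, glRep (x * y * x⁻¹) ≠ s • 1 :=
      fun y y1 y2 => ⟨by rw [← map_mul, conj_mul, map_mul, map_mul, map_mul glRep y, y1, mul_one,
        ← map_mul, mul_inv_cancel, map_one], fun s e => y2 s (sim_eq_smul (by
          simpa using sim_glRep_conj x⁻¹ y) e)⟩
    obtain ⟨a3, a4⟩ := h5 a a1 (hP.ne_smul (mem_Sm.2 ha) hb a2)
    obtain ⟨a5, a6⟩ := h5 _ a3 a4
    obtain ⟨s, h6⟩ := mem_scalars_iff_glRep.1 (e _ u1 u2)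
    have h7 : s * s = 1 := hG.norm_eq_one (h6 ▸ (hP.iso _ (mem_Sm.2 u1)).isoA)
    rw [show (a * x) ^ 3 * (x ^ 3)⁻¹ = a * (x * a * x⁻¹) * (x * (x * a * x⁻¹) * x⁻¹) by
      simp only [pow_three]; group, map_mul, map_mul glRep a] at h6
    have h8 := congrArg (· * glRep (x * (x * a * x⁻¹) * x⁻¹)) h6
    simp only [mul_assoc _ _ (glRep (x * (x * a * x⁻¹) * x⁻¹)), a5, mul_one, smul_mul_assoc,
      one_mul] at h8
    rcases hm _ (mem_Sm.2 ha) _ (mem_Sm.2 (h4 a ha)) a1 a3 (left_inv_eq_right_inv (a := glRep a *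
      glRep (x * a * x⁻¹)) (by rw [mul_assoc, sq1 a1, a3]) (by
        rw [h8, smul_mul_smul_comm, h7, a5, one_smul])) with ⟨t, e⟩ | ⟨t, e⟩ | ⟨t, e⟩
    · exact hP.ne_smul (mem_Sm.2 ha) hb a2 t e
    · exact a4 t e
    · exact smul_ne_smul_one (left_ne_zero_of_mul_eq_one h7) a6 t (h8.symm.trans e)
  · have h4 := sim_pow_eq_one x5.symm h1
    have h5 := mult_of_trace_four (natCast_ne_zero_of_ne (F := F) h3) hV h4
    rw [show glRep x * glRep x = glRep x⁻¹ from left_inv_eq_right_inv (a := glRep x) (by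
      rw [← h4, pow_three']) (by rw [← map_mul, mul_inv_cancel, map_one]), glRep_apply,
      glRep_apply, Matrix.trace_toLin'_eq, Matrix.trace_toLin'_eq, ← glRep_apply, sim_mult x5, h2,
      hG.trace_inv (mem_isoGL.1 x2)] at h5
    rw [hG.trace_inv (mem_isoGL.1 x2)] at e
    have h6 : (x : Matrix ι ι F).trace = 1 := mul_left_cancel₀ hP.two (by
      push_cast at h5; linear_combination h5)
    exact natCast_ne_zero_of_ne (F := F) h3 (by rw [h6] at e; push_cast; linear_combination -e)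
  · omega

theorem GeomA.exists_mult_two (hG : GeomA B) (hn : Fintype.card ι = 4) (hrp : r ≠ p)
    (h35 : r = 3 ∨ r = 5) (h : orderOf ((Fintype.card F : ℕ) : ZMod r) ≠ 4) :
    ∃ f, IsoA B f ∧ f ^ r = 1 ∧ mult f 1 = 2 := by
  have hV := (finrank_fintype_fun_eq_card F).trans hn
  have h1 := orderOf_cases (not_dvd_card (F := F) hrp) h35
  obtain ⟨W, -, h2, h3⟩ := hG.exists_nd hG.nd_top even_two (by rw [finrank_top]; omega)
  have h4 := hG.finrank_add_perp W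
  by_cases e : orderOf ((Fintype.card F : ℕ) : ZMod r) = 2
  · obtain ⟨f, f1, f2, f3, -⟩ := hG.exists_model hrp (by omega) h2 (w := 0) (o := 1) (by omega)
      (by rw [e]; omega) (by simp [e])
    exact ⟨f, f1, f2, by rw [mult_one, f3]; omega⟩
  · obtain ⟨f, f1, f2, f3, -⟩ := hG.exists_model hrp (by omega) h2 (w := 1) (o := 0) (by omega)
      (Nat.zero_le _) fun _ => rfl
    exact ⟨f, f1, f2, by rw [mult_one, f3]; omega⟩

end Mat

end Cfsg.Agent.Cl.Der
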