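import Mathlib
import Cfsg.Agent.Cl.EichClass
import Cfsg.Agent.Ch.Linear
import Cfsg.Agent.Ch.Integrality

/-!
# Steinberg characters of the projective classical groups
-/

set_option autoImplicit false

namespace Cfsg.Agent.Cl.EB

open Cfsg Cfsg.Agent.Ch Cfsg.Agent.Ch.BakForm Cfsg.Agent.Chev Module QuadraticMap

/-- There is an irreducible character whose restriction to a Sylow subgroup is regular. -/
def StC (p : ℕ) (Q : Type*) [Group Q] : Prop :=
  ∃ χ : Q → ℂ, IsIrrCharacter Q χ ∧ ∀ P : Sylow p Q,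
    χ 1 = Nat.card P ∧ ∀ x : Q, x ∈ P → x ≠ 1 → χ x = 0

section Groups

variable {p : ℕ} [hp : Fact p.Prime] {G : Type*} [Group G] [Finite G]

theorem stC_of_deg {χ : G → ℂ} (h : IsIrrCharacter G χ)
    (hd : charDegree χ = p ^ (Nat.card G).factorization p) : StC p G := by
  refine ⟨χ, h, fun P => ⟨?_, fun x hx hx1 => ?_⟩⟩
  · rw [← h.coe_charDegree, hd, P.card_eq_multiplicity]
  · refine Ch.apply_eq_zero_of_defect_zero hp.out h (by rw [hd]) ?_
    obtain ⟨k, hk⟩ := IsPGroup.iff_orderOf.1 P.isPGroup' ⟨x, hx⟩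
    rw [Subgroup.orderOf_mk] at hk
    rw [hk]
    refine dvd_pow_self p fun h0 => hx1 ?_
    rwa [h0, pow_zero, orderOf_eq_one_iff] at hk

theorem stC_of_not_dvd (h : ¬ p ∣ Nat.card G) : StC p G :=
  stC_of_deg IsIrrCharacter.one (by
    rw [Nat.factorization_eq_zero_of_not_dvd h, pow_zero]
    exact IsIrrCharacter.one.isCharacter.charDegree_eq_one_iff.2 rfl)

theorem stC_quot (h : CT.HasSt p G) : StC p (G ⧸ Subgroup.center G) :=
  h.exists_quot (QuotientGroup.mk' _) (QuotientGroup.mk'_surjective _) (QuotientGroup.ker_mk' _).le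

theorem ClLie.hasSt {D : Prop} {m a b : ℕ} (h : ClLie p G D m a b) : CT.HasSt p G := by
  obtain ⟨R, hG, hL, -⟩ := h
  exact (CT.hasSt_of_le (R := R) (G1 := ⊤) hG.ge (fun _ => le_top) hL.pU
    fun h hh _ => hL.pH h hh).of_mulEquiv Subgroup.topEquiv.symm

theorem stC_quot_of_comm (h : ∀ a b : G, a * b = b * a) : StC p (G ⧸ Subgroup.center G) :=
  stC_of_not_dvd (by
    rw [← Subgroup.index_eq_card, (Subgroup.eq_top_iff' _).2 fun a =>
      Subgroup.mem_center_iff.2 fun b => h b a, Subgroup.index_top]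
    exact hp.out.not_dvd_one)

theorem stC_quot_of_dvd (h : Nat.card G ∣ 18) : StC 2 (G ⧸ Subgroup.center G) := by
  by_cases h2 : 2 ∣ Nat.card (G ⧸ Subgroup.center G)
  swap
  · exact stC_of_not_dvd h2
  have h3 := Subgroup.card_eq_card_quotient_mul_card_subgroup (Subgroup.center G)
  have h4 : Nat.card (G ⧸ Subgroup.center G) ∣ 18 := (Dvd.intro _ h3.symm).trans h
  obtain ⟨χ, hχ⟩ := exists_irr_nonlinear (G := G ⧸ Subgroup.center G) fun hc => by
    have : Group.IsNilpotent G := Group.of_quotient_center_nilpotent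
      (@CommGroup.isNilpotent _ { (inferInstance : Group (G ⧸ Subgroup.center G)) with mul_comm := hc })
    obtain ⟨t, ht⟩ := exists_prime_orderOf_dvd_card' 2 (h2.trans (Dvd.intro _ h3.symm))
    obtain ⟨P, hP⟩ := (IsPGroup.of_card (p := 2) (G := Subgroup.zpowers t) (n := 1)
      (by rw [Nat.card_zpowers, ht, pow_one])).exists_le_sylow
    have h5 : Nat.card P = 2 := by
      obtain ⟨k, hk⟩ := IsPGroup.iff_card.1 P.isPGroup'
      have a1 := (P.1.card_subgroup_dvd_card.trans h)
      have a2 := Subgroup.card_dvd_of_le hP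
      rw [Nat.card_zpowers, ht] at a2
      change Nat.card P ∣ 18 at a1
      rw [hk] at a1 a2 ⊢
      rcases k with _ | _ | k
      · simp at a2
      · rfl
      · exact absurd ((Dvd.intro_left (2 ^ k) (by ring)).trans a1 : 4 ∣ 18) (by decide)
    have ht1 : t ≠ 1 := by rintro rfl; simp at ht
    have h6 : t ∈ Subgroup.center G := Subgroup.mem_center_iff.2 fun g => by
      obtain ⟨y, -, hy⟩ := (Nat.card_eq_two_iff' (1 : P)).1 h5
      have a1 := hP (Subgroup.mem_zpowers t)
      have a2 := (hy ⟨_, Subgroup.Normal.conj_mem inferInstance t a1 g⟩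
        (by simpa [Subtype.ext_iff] using ht1)).trans (hy ⟨t, a1⟩
          (by simpa [Subtype.ext_iff] using ht1)).symm
      exact mul_inv_eq_iff_eq_mul.1 (congrArg Subtype.val a2)
    have h7 := Subgroup.orderOf_dvd_natCard _ h6
    rw [ht] at h7
    exact absurd ((mul_dvd_mul h2 h7).trans (h3 ▸ h) : 2 * 2 ∣ 18) (by decide)
  have : Fact (Nat.Prime 3) := ⟨Nat.prime_three⟩
  obtain ⟨T⟩ : Nonempty (Sylow 3 (G ⧸ Subgroup.center G)) := inferInstance
  have h5 : ∀ a ∈ T.1, ∀ b ∈ T.1, a * b = b * a := by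
    obtain ⟨k, hk⟩ := IsPGroup.iff_card.1 T.isPGroup'
    have a1 := T.1.card_subgroup_dvd_card.trans h4
    have : IsMulCommutative T.1 := by
      rw [hk] at a1
      rcases k with _ | _ | _ | k
      · have := (Nat.card_eq_one_iff_unique.1 hk).1
        exact ⟨⟨fun _ _ => Subsingleton.elim _ _⟩⟩
      · have := isCyclic_of_prime_card (p := 3) hk
        infer_instance
      · exact IsPGroup.isMulCommutative_of_card_eq_prime_sq hk
      · exact absurd ((Dvd.intro_left (3 ^ k) (by ring)).trans a1 : 27 ∣ 18) (by decide)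
    exact fun a ha b hb => setLike_mul_comm ha hb
  have h6 := χ.2.charDegree_le_index_of_comm T.1 h5
  have h7 : T.1.index ∣ 2 := (Nat.Coprime.pow_right 2 ((Nat.prime_three.coprime_iff_not_dvd.2
    T.not_dvd_index).symm)).dvd_of_dvd_mul_right (T.1.index_dvd_card.trans h4)
  have h8 := Nat.le_of_dvd two_pos h7
  have h9 := χ.2.charDegree_pos
  have h10 := χ.2.isCharacter.charDegree_eq_one_iff.not.2 hχ
  refine stC_of_deg χ.2 ?_
  have a1 := (Nat.prime_two.pow_dvd_iff_le_factorization (k := 1) Nat.card_pos.ne').1 h2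
  have a2 := (Nat.prime_two.pow_dvd_iff_le_factorization (k := 2)
    (Nat.card_pos (α := G ⧸ Subgroup.center G)).ne').not.1 fun h => absurd (h.trans h4) (by decide)
  rw [show (Nat.card (G ⧸ Subgroup.center G)).factorization 2 = 1 by omega]
  omega

end Groups

variable {K : Type*} [Field K] [Finite K] {p : ℕ} [hp : Fact p.Prime] [CharP K p]

omit [Finite K] in
theorem comm_of_finrank_two {V : Type*} [AddCommGroup V] [Module K V] [FiniteDimensional K V]
    {Q : QuadraticForm K V} (hQ : (polarBilin Q).Nondegenerate) (h : finrank K V = 2) {a b : OG Q}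
    (ha : dickson hQ a = 1) (hb : dickson hQ b = 1) : a * b = b * a := by
  obtain ⟨r, hr⟩ := dickson_surjective hQ (by omega) (-1)
  have key : ∀ g, dickson hQ g = 1 → r * g * r = g⁻¹ := by
    intro g hg
    have h1 : dickson hQ (r * g) = -1 := by rw [map_mul, hr, hg, mul_one]
    have h2 := orank_add_finrank_ofix (r * g)
    obtain ⟨k, hk⟩ := (dickson_eq_neg_one_iff hQ _).1 h1
    obtain ⟨v, -, hv⟩ := exists_orefl_of_orank_eq_one hQ (g := r * g) (by omega)
    rw [eq_inv_iff_mul_eq_one, mul_assoc, hv, orefl_mul_self]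
  have h1 := key 1 (map_one _)
  have h2 := key (a⁻¹ * b⁻¹) (by simp [ha, hb])
  rw [mul_one, inv_one] at h1
  rw [mul_inv_rev, inv_inv, inv_inv] at h2
  have h3 := key a⁻¹ (by simp [ha])
  have h4 := key b⁻¹ (by simp [hb])
  rw [inv_inv] at h3 h4
  calc a * b = (r * a⁻¹ * r) * (r * b⁻¹ * r) := by rw [h3, h4]
    _ = r * (a⁻¹ * (r * r) * b⁻¹) * r := by simp only [mul_assoc]
    _ = b * a := by rw [h1, mul_one, h2]

variable {ι : Type} [Fintype ι] [DecidableEq ι] {P : QuadraticForm K (ι → K)}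

omit [CharP K p] in
theorem stC_pomega_two (hP : (polarBilin P).Nondegenerate) (h : Fintype.card ι = 2) :
    StC p (POmega K ⇑P) :=
  stC_quot_of_comm fun a b => by
    have h1 : ∀ a : Omega K ⇑P, dickson hP (omatEquiv P a) = 1 := fun a =>
      Abelianization.commutator_subset_ker ((dickson hP).comp (omatEquiv P).toMonoidHom) a.2
    exact Subtype.ext ((omatEquiv P).injective (by
      simpa using comm_of_finrank_two hP (by simpa using h) (h1 a) (h1 b)))

omit [CharP K p] in
theorem stC_pomega_of_hasSt (hP : (polarBilin P).Nondegenerate) (hexc : ¬ OExc P)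
    (hn : 3 ≤ Fintype.card ι) (h : CT.HasSt p (bakO hP).EG) : StC p (POmega K ⇑P) := by
  obtain ⟨e⟩ := nonempty_Omega_equiv_EG hP hexc hn
  exact stC_quot (h.of_mulEquiv e)

theorem stC_pomegaPlus_four (h2 : Nat.card K = 2) : StC p (POmega K (quadFormPlus 2 K)) := by
  have hP := quad_plus_nondeg (m := 2) (F := K)
  obtain rfl : p = 2 := by
    have := Fintype.ofFinite K
    refine (Nat.prime_dvd_prime_iff_eq hp.out Nat.prime_two).1 ((CharP.cast_eq_zero_iff K p 2).1 ?_)
    rw [← h2, Nat.card_eq_fintype_card, FiniteField.cast_card_eq_zero]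
  have hfin := (bakO hP).finite_EG
  have h1 : (Omega K ⇑(quad_plus 2 K)).map (omatEquiv _).toMonoidHom = commutator (OG _) :=
    map_commutator_of_surjective _ (omatEquiv _).surjective
  have h3 : commutator (OG (quad_plus 2 K)) ≤ EO _ :=
    commutator_le_EO hP (by simp) (quad_exists_singular _ (by simp))
  let N := ((commutator (OG (quad_plus 2 K))).subgroupOf (EO _)).map (eoEquivEG hP).toMonoidHom
  have e : Omega K (quadFormPlus 2 K) ≃* N :=
    ((omatEquiv (quad_plus 2 K)).subgroupMap _).trans ((MulEquiv.subgroupCongr h1).trans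
      ((Subgroup.subgroupOfEquivOfLe h3).symm.trans ((eoEquivEG hP).subgroupMap _)))
  by_cases hN : N = ⊤
  · exact stC_quot ((hasSt_bakO (framePlus 2 K) (d := 0) (by simp) (by omega)
      (by omega)).of_mulEquiv (e.trans ((MulEquiv.subgroupCongr hN).trans Subgroup.topEquiv)))
  have : N.Normal := Subgroup.Normal.map inferInstance _ (eoEquivEG hP).surjective
  have hD : IsD (framePlus 2 K) := (isD_bakO_iff _).2 (Submodule.finrank_eq_zero.1 (by
    have := (framePlus 2 K).finrank_eq
    rw [Module.finrank_fintype_fun_eq_card] at this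
    simp only [Fintype.card_sum, Fintype.card_fin] at this
    omega))
  obtain ⟨r, x, hx, hxN⟩ : ∃ r, ∃ x ∈ Xr (framePlus 2 K) r, x ∉ N := by
    by_contra! h
    exact hN (eq_top_of_Xr_le h)
  have h4 : x ^ 2 = 1 := by
    obtain ⟨a, b, h, rfl⟩ := r.exists_mk
    have hab := h.cases.resolve_left fun h => h.2 hD
    obtain ⟨t, rfl⟩ := (mem_Xr_ne hab h).1 hx
    rw [pow_two, ← Frame.X_add _ (ne_of_fst_ne hab).2.2.1, CharTwo.add_self_eq_zero, Frame.X_zero]
  have h5 : 2 ∣ N.index := by
    have := orderOf_dvd_natCard (x : _ ⧸ N)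
    rwa [orderOf_eq_prime (p := 2) (by rw [← QuotientGroup.mk_pow, h4, QuotientGroup.mk_one])
      (by simpa using hxN)] at this
  have h6 : Nat.card (OG (quad_plus 2 K)) = 72 := by rw [card_OG_plus, h2]; simp
  have h7 : (dickson hP).ker.index = 2 := by
    rw [Subgroup.index_ker, MonoidHom.range_eq_top.2 (dickson_surjective hP (by simp)),
      Subgroup.card_top]
    simp
  have h8 := (dickson hP).ker.card_mul_index
  rw [h6, h7] at h8
  have h9 := Subgroup.card_dvd_of_le (EO_le_ker_dickson hP)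
  rw [Nat.card_congr (eoEquivEG hP).toEquiv, ← N.card_mul_index,
    show Nat.card (dickson hP).ker = 18 * 2 by omega] at h9
  refine stC_quot_of_dvd ?_
  rw [Nat.card_congr e.toEquiv]
  exact Nat.dvd_of_mul_dvd_mul_right two_pos ((mul_dvd_mul_left _ h5).trans h9)

theorem stC_pomegaPlus {m : ℕ} (hm : 1 ≤ m) : StC p (POmega K (quadFormPlus m K)) := by
  by_cases h1 : m = 1
  · exact stC_pomega_two quad_plus_nondeg (by simp [h1])
  by_cases h2 : m = 2 ∧ Nat.card K = 2
  · obtain ⟨rfl, h2⟩ := h2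
    exact stC_pomegaPlus_four h2
  exact stC_pomega_of_hasSt quad_plus_nondeg (fun h => h2 ⟨by have := h.2.1; simp at this; omega, h.1⟩)
    (by simp; omega) (hasSt_bakO (framePlus m K) (d := 0) (by simp; omega) (by omega) fun _ => h1)

theorem stC_pomegaMinus {m : ℕ} {a b : K}
    (hab : ∀ z₁ z₂ : K, z₁ ^ 2 + a * z₁ * z₂ + b * z₂ ^ 2 = 0 → z₁ = 0 ∧ z₂ = 0) :
    StC p (POmega K (quadFormMinus m K a b)) := by
  rcases Nat.eq_zero_or_pos m with rfl | hm
  · exact stC_pomega_two (o_minus_nondeg hab) (by simp)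
  · exact stC_quot (clLie_omegaMinus hab hm).hasSt

end Cfsg.Agent.Cl.EB
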