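import Mathlib
import Cfsg.Agent.Cl.MaxOB3

/-!
# Maximality in `Ω` of frame stabilisers I: new roots with two zero coordinates

`Fr M e κ`: `e` is an orthogonal basis of vectors of norm `κ` over a prime field of odd order and
`M` contains the stabiliser of the frame in `Ω`.  `RR M e c`: the products `r_{e i} r_c` lie in `M`.
-/

set_option autoImplicit false
set_option linter.unusedSectionVars false
set_option linter.unusedVariables false

namespace Cfsg.Agent.Cl.MaxO

open Module QuadraticMap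

variable {F V : Type*} [Field F] [AddCommGroup V] [Module F V] {Q : QuadraticForm F V}
  [FiniteDimensional F V] [Finite F] {ι : Type*} [Fintype ι] [DecidableEq ι]
  {M : Subgroup (OG Q)} {e : ι → V} {κ : F}

variable (Q e) in
/-- The stabiliser of a frame. -/
def FS : Subgroup (OG Q) := dstab Q fun i => Submodule.span F {e i}

variable (M e κ) in
/-- A frame whose stabiliser in `Ω` lies in `M`. -/
structure Fr : Prop where
  ne : κ ≠ 0
  two : (2 : F) ≠ 0
  norm : ∀ i, Q (e i) = κ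
  orth : ∀ {i j}, i ≠ j → polar Q (e i) (e j) = 0
  sep : ∀ x, (∀ i, polar Q (e i) x = 0) → x = 0
  nd : (polarBilin Q).Nondegenerate
  card : 7 ≤ Fintype.card ι
  dim : 5 ≤ finrank F V
  prime : ∀ t : F, ∃ k : ℕ, t = k
  le : ∀ g ∈ FS Q e, g ∈ commutator (OG Q) → g ∈ M

theorem mem_FS_map {g x : OG Q} : x ∈ FS Q (fun i => g.1 (e i)) ↔ g⁻¹ * x * g ∈ FS Q e := by
  have key : ∀ (e : ι → V) (g x : OG Q), g⁻¹ * x * g ∈ FS Q e → x ∈ FS Q (fun i => g.1 (e i)) :=
    fun e g x h => by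
      have := mem_dstab_map h
      simp only [Submodule.map_span, Set.image_singleton] at this
      exact this
  refine ⟨fun h => ?_, key e g x⟩
  have := key (fun i => g.1 (e i)) g⁻¹ (g⁻¹ * x * g) (by simpa [mul_assoc] using h)
  simpa using this

theorem ND.finrank_sup {S T : Submodule F V} (hS : ND Q S)
    (h : ∀ x ∈ S, ∀ y ∈ T, polar Q x y = 0) : finrank F ↥(S ⊔ T) = finrank F S + finrank F T := by
  have h1 := Submodule.finrank_sup_add_finrank_inf_eq S T
  rwa [hS.disjoint h, finrank_bot, add_zero] at h1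

theorem eich_of_hyp {W : Submodule F V} (hW : ND Q W) {u u' : V} (hu : Q u = 0) (hu' : Q u' = 0)
    (huu' : polar Q u u' ≠ 0) (hA : ∀ y ∈ W, y ∈ EA M hu) (hA' : ∀ y ∈ W, y ∈ EA M hu') :
    ∀ y ∈ Submodule.span F {u, u'} ⊔ W, ∀ v ∈ Submodule.span F {u, u'} ⊔ W, eich Q y v ∈ M := by
  intro y hy v hv
  have hT : ND Q (Submodule.span F {u, u'}) := nd_span_pair (by simpa [hu] using huu')
  have hTS : ∀ x ∈ Submodule.span F {u, u'}, ∀ y ∈ W, polar Q x y = 0 := fun x hx y hy => by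
    obtain ⟨s, t, rfl⟩ := Submodule.mem_span_pair.1 hx
    simp only [oexp, (hA y hy).1, (hA' y hy).1]; ring
  refine eich_mem_of_pair (hT.sup hW hTS) (Submodule.mem_sup_left (mem_span_two_left u u'))
    (Submodule.mem_sup_left (mem_span_two_right u u')) hu hu' huu' (fun z hz h => ?_)
    (fun z hz h => ?_) hy hv
  · obtain ⟨x, hx, y, hy, rfl⟩ := Submodule.mem_sup.1 hz
    obtain ⟨s, t, rfl⟩ := Submodule.mem_span_pair.1 hx
    simp only [oexp, hu, (hA y hy).1] at h
    have ht : t = 0 := by simpa [huu'] using h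
    rw [ht, zero_smul, add_zero]
    exact (EA M hu).add_mem (smul_self_mem_EA hu s) (hA y hy)
  · obtain ⟨x, hx, y, hy, rfl⟩ := Submodule.mem_sup.1 hz
    obtain ⟨s, t, rfl⟩ := Submodule.mem_span_pair.1 hx
    simp only [oexp, hu', (hA' y hy).1, polar_comm Q u' u] at h
    have ht : s = 0 := by simpa [huu'] using h
    rw [ht, zero_smul, zero_add]
    exact (EA M hu').add_mem (smul_self_mem_EA hu' t) (hA' y hy)

theorem refl_of_eich (h2 : (2 : F) ≠ 0) {S : Submodule F V} (hS : ND Q S) (h3 : 3 ≤ finrank F S)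
    (hE : ∀ x ∈ S, ∀ y ∈ S, eich Q x y ∈ M) {a b : V} (ha : a ∈ S) (hb : b ∈ S) (ha0 : Q a ≠ 0)
    (hb0 : Q b ≠ 0) (h : IsSquare (Q a * Q b)) : orefl Q a * orefl Q b ∈ M := by
  have hx := not_oExc_of_two_ne_zero (Q := Q.restrict S) h2
  have key : EO (Q.restrict S) ≤ M.comap (oext hS) := EO_le_iff.2 fun u v _ _ => by
    rw [Subgroup.mem_comap, oext_eich]; exact hE u u.2 v v.2
  have := key (commutator_eq_EO_of_finite hS.nondeg hx h3 ▸
    (orefl_mul_orefl_mem_commutator_iff hS.nondeg hx (v := ⟨a, ha⟩) (w := ⟨b, hb⟩) ha0 hb0).2 h)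
  rwa [Subgroup.mem_comap, map_mul, oext_orefl, oext_orefl] at this

variable (M e) in
/-- The roots of `M` in the class of the frame. -/
def RR (c : V) : Prop := Q c ≠ 0 ∧ ∀ i, orefl Q (e i) * orefl Q c ∈ M

variable (Q e κ) in
/-- The component supported on `T`. -/
noncomputable def prS (T : Finset ι) (c : V) : V := ∑ i ∈ T, (polar Q (e i) c / (2 * κ)) • e i

namespace Fr

variable (h : Fr M e κ)
include h

theorem self (i : ι) : polar Q (e i) (e i) = 2 * κ := by rw [o_polar_self, h.norm]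

theorem norm_ne (i : ι) : Q (e i) ≠ 0 := by rw [h.norm]; exact h.ne

theorem e_ne (i : ι) : e i ≠ 0 := o_ne_zero_of_norm (h.norm_ne i)

theorem two_ne : 2 * κ ≠ 0 := mul_ne_zero h.two h.ne

theorem idx (l : List ι) (hl : l.length < 7) : ∃ x, x ∉ l :=
  exists_idx l (by have := h.card; omega)

theorem ext {x y : V} (H : ∀ i, polar Q (e i) x = polar Q (e i) y) : x = y :=
  sub_eq_zero.1 (h.sep _ fun i => by rw [polar_sub_right, H, sub_self])

theorem exists_co {x : V} (hx : x ≠ 0) : ∃ i, polar Q (e i) x ≠ 0 := by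
  by_contra H
  push Not at H
  exact hx (h.sep x H)

theorem co_prS (T : Finset ι) (c : V) (j : ι) :
    polar Q (e j) (prS Q e κ T c) = if j ∈ T then polar Q (e j) c else 0 := by
  rw [prS, quad_polar_sum_right]
  split_ifs with hj
  · rw [Finset.sum_eq_single_of_mem j hj fun i _ hi => by
      rw [o_polar_smul_right, h.orth hi.symm, mul_zero], o_polar_smul_right, h.self,
      div_mul_cancel₀ _ h.two_ne]
  · exact Finset.sum_eq_zero fun i hi => by
      rw [o_polar_smul_right, h.orth (fun H : j = i => hj (H ▸ hi)), mul_zero]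

theorem prS_univ (c : V) : prS Q e κ Finset.univ c = c := h.ext fun i => by simp [h.co_prS]

theorem prS_compl (T : Finset ι) (c : V) : prS Q e κ Tᶜ c = c - prS Q e κ T c :=
  h.ext fun i => by
    rw [polar_sub_right, h.co_prS, h.co_prS]
    by_cases H : i ∈ T <;> simp [H]

theorem polar_prS (T : Finset ι) (c : V) :
    polar Q (prS Q e κ T c) c = ∑ i ∈ T, polar Q (e i) c ^ 2 / (2 * κ) := by
  rw [polar_comm, prS, quad_polar_sum_right]
  exact Finset.sum_congr rfl fun i _ => by rw [o_polar_smul_right, polar_comm Q c]; ring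

theorem polar_prS' (T : Finset ι) (c : V) :
    polar Q (prS Q e κ T c) c = 2 * Q (prS Q e κ T c) := by
  rw [← o_polar_self, h.polar_prS]
  conv_rhs => rw [polar_comm, prS, quad_polar_sum_right]
  exact Finset.sum_congr rfl fun i hi => by
    rw [o_polar_smul_right, polar_comm Q _ (e i), ← prS, h.co_prS, if_pos hi]; ring

theorem Q_prS (T : Finset ι) (c : V) :
    4 * κ * Q (prS Q e κ T c) = ∑ i ∈ T, polar Q (e i) c ^ 2 := by
  have h1 := h.polar_prS T c
  rw [h.polar_prS', ← Finset.sum_div, eq_div_iff h.two_ne] at h1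
  linear_combination h1

theorem og_ext {g k : OG Q} (H : ∀ i, g.1 (e i) = k.1 (e i)) : g = k := OG.ext fun x => by
  rw [← h.prS_univ x, prS, map_sum, map_sum]
  exact Finset.sum_congr rfl fun i _ => by rw [map_smul, map_smul, H]

theorem mem_FS {g : OG Q} (H : ∀ i, ∃ j, g.1 (e i) ∈ Submodule.span F {e j}) : g ∈ FS Q e := by
  refine mem_dstab_of_maps (fun i j hij => ?_) (fun i j => by
    rw [finrank_span_singleton (h.e_ne i), finrank_span_singleton (h.e_ne j)]) fun i => ?_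
  · by_contra hne
    obtain ⟨s, hs⟩ := Submodule.mem_span_singleton.1
      (show e i ∈ Submodule.span F {e j} from hij ▸ Submodule.mem_span_singleton_self _)
    have := h.self i
    conv at this => lhs; arg 3; rw [← hs]
    rw [o_polar_smul_right, h.orth hne, mul_zero] at this
    exact h.two_ne this.symm
  · obtain ⟨j, hj⟩ := H i
    exact ⟨j, fun x hx => by
      obtain ⟨s, rfl⟩ := Submodule.mem_span_singleton.1 hx
      rw [map_smul]; exact Submodule.smul_mem _ _ hj⟩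

theorem app {g : OG Q} (hg : g ∈ FS Q e) (i : ι) :
    ∃ j, ∃ s : F, s * s = 1 ∧ g.1 (e i) = s • e j := by
  obtain ⟨σ, hσ⟩ := hg
  obtain ⟨s, hs⟩ := Submodule.mem_span_singleton.1 (show g.1 (e i) ∈ Submodule.span F {e (σ i)} from
    (hσ i).le ⟨e i, Submodule.mem_span_singleton_self _, rfl⟩)
  refine ⟨σ i, s, mul_right_cancel₀ h.ne ?_, hs.symm⟩
  have := OG.map_app g (e i)
  rw [← hs, o_qsmul, h.norm, h.norm] at this
  linear_combination this

theorem map {g : OG Q} (hg : g ∈ M) : Fr M (fun i => g.1 (e i)) κ where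
  ne := h.ne
  two := h.two
  norm i := by rw [OG.map_app, h.norm]
  orth hij := by rw [OG.polar_app, h.orth hij]
  sep x hx := by
    have := h.sep ((g⁻¹).1 x) fun i => by rw [OG.polar_inv_right, hx]
    rwa [OG.app_eq_zero_iff] at this
  nd := h.nd
  card := h.card
  dim := h.dim
  prime := h.prime
  le x hx hx' := by
    have := h.le _ (mem_FS_map.1 hx) ((inferInstance : (commutator (OG Q)).Normal).conj_mem' x hx' g)
    simpa [mul_assoc] using M.mul_mem (M.mul_mem hg this) (M.inv_mem hg)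

theorem refl_app (i : ι) (x : V) :
    (orefl Q (e i)).1 x = x - (κ⁻¹ * polar Q (e i) x) • e i := by
  rw [orefl_app, h.norm, polar_comm]

theorem refl_mem (i : ι) : orefl Q (e i) ∈ FS Q e := h.mem_FS fun j => ⟨j, by
  by_cases H : j = i
  · rw [H, orefl_app_self (h.norm_ne i)]; exact neg_mem (Submodule.mem_span_singleton_self _)
  · rw [orefl_app_of_polar (h.orth H)]; exact Submodule.mem_span_singleton_self _⟩

theorem Q_long {i j : ι} (hij : i ≠ j) {s : F} (hs : s * s = 1) : Q (e i - s • e j) = 2 * κ := by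
  simp only [oexp, h.norm, h.orth hij]; linear_combination κ * hs

theorem long_ne {i j : ι} (hij : i ≠ j) {s : F} (hs : s * s = 1) : Q (e i - s • e j) ≠ 0 := by
  rw [h.Q_long hij hs]; exact h.two_ne

theorem long_mem {i j : ι} (hij : i ≠ j) {s : F} (hs : s * s = 1) :
    orefl Q (e i - s • e j) ∈ FS Q e := h.mem_FS fun l => by
  have hq : Q (e i) = Q (s • e j) := by
    rw [o_qsmul, h.norm, h.norm]; linear_combination -κ * hs
  by_cases H : l = i
  · exact ⟨j, by
      rw [H, orefl_sub_app hq (h.long_ne hij hs)]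
      exact Submodule.smul_mem _ _ (Submodule.mem_span_singleton_self _)⟩
  by_cases H' : l = j
  · refine ⟨i, ?_⟩
    rw [H', show e j = s • s • e j by rw [smul_smul, hs, one_smul], map_smul]
    conv => rhs; arg 2; arg 1; rw [smul_smul, smul_smul, hs, one_mul]
    rw [orefl_sub_app' hq (h.long_ne hij hs)]
    exact Submodule.smul_mem _ _ (Submodule.mem_span_singleton_self _)
  · exact ⟨l, by
      rw [orefl_app_of_polar (by simp only [oexp, h.orth H, h.orth H']; ring)]
      exact Submodule.mem_span_singleton_self _⟩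

theorem mem_of_refl {a b : V} (ha : orefl Q a ∈ FS Q e) (hb : orefl Q b ∈ FS Q e) (ha0 : Q a ≠ 0)
    (hb0 : Q b ≠ 0) (H : IsSquare (Q a * Q b)) : orefl Q a * orefl Q b ∈ M :=
  h.le _ ((FS Q e).mul_mem ha hb) (refl_mem_omega h.nd h.dim ha0 hb0 H)

theorem dd_mem (i j : ι) : orefl Q (e i) * orefl Q (e j) ∈ M :=
  h.mem_of_refl (h.refl_mem i) (h.refl_mem j) (h.norm_ne i) (h.norm_ne j)
    ⟨κ, by rw [h.norm, h.norm]⟩

theorem cyc_mem {i j k l : ι} (hij : i ≠ j) (hkl : k ≠ l) :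
    orefl Q (e i - e j) * orefl Q (e k - e l) ∈ M := by
  have := h.mem_of_refl (h.long_mem hij (mul_one 1)) (h.long_mem hkl (mul_one 1))
    (h.long_ne hij (mul_one 1)) (h.long_ne hkl (mul_one 1))
    ⟨2 * κ, by rw [h.Q_long hij (mul_one 1), h.Q_long hkl (mul_one 1)]⟩
  rwa [one_smul, one_smul] at this

theorem rr_of_one {c : V} (hc : Q c ≠ 0) {i : ι} (H : orefl Q (e i) * orefl Q c ∈ M) : RR M e c :=
  ⟨hc, fun j => refl_trans (h.dd_mem i j) H⟩

theorem rr_e (i : ι) : RR M e (e i) := ⟨h.norm_ne i, fun j => h.dd_mem j i⟩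

theorem rr_mul {b c : V} (hb : RR M e b) (hc : RR M e c) : orefl Q b * orefl Q c ∈ M := by
  obtain ⟨i, -⟩ := h.idx [] (by simp)
  exact refl_trans (hb.2 i) (hc.2 i)

end Fr

theorem RR.trans {b c : V} (hb : RR M e b) (hc : Q c ≠ 0) (H : orefl Q b * orefl Q c ∈ M) :
    RR M e c := ⟨hc, fun i => by simpa [mul_assoc, ← mul_assoc (orefl Q b)] using M.mul_mem (hb.2 i) H⟩

theorem RR.refl {b c : V} (hb : RR M e b) (hc : RR M e c) : RR M e ((orefl Q b).1 c) :=
  ⟨by rw [OG.map_app]; exact hc.1, fun i => refl_refl (hb.2 i) (hc.2 i)⟩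

theorem RR.smul {c : V} (hc : RR M e c) {s : F} (hs : s ≠ 0) : RR M e (s • c) :=
  ⟨by rw [o_qsmul]; exact mul_ne_zero (pow_ne_zero _ hs) hc.1, fun i => by
    rw [orefl_smul hs]; exact hc.2 i⟩

namespace Fr

variable (h : Fr M e κ)
include h

theorem rr_map {g : OG Q} (hg : g ∈ M) {x y : V} (hgx : RR M e (g.1 x)) (hx : RR M e x)
    (hy : RR M e y) : RR M e (g.1 y) :=
  hgx.trans (by rw [OG.map_app]; exact hy.1) (conj_refl_mem hg (h.rr_mul hx hy))

theorem rr_flip {c : V} (hc : RR M e c) (T : Finset ι) : RR M e (c - (2 : F) • prS Q e κ T c) := by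
  induction T using Finset.induction_on with
  | empty => simpa [prS] using hc
  | insert a T ha ih =>
    convert (h.rr_e a).refl ih using 1
    rw [h.refl_app, polar_sub_right, o_polar_smul_right, h.co_prS, if_neg ha, prS,
      Finset.sum_insert ha, ← prS]
    have := h.ne
    have := h.two
    match_scalars <;> field_simp
    ring

theorem notMem_of_three {c : V} (hc : Q c ≠ 0) {i j k : ι} (hij : i ≠ j) (hik : i ≠ k)
    (hjk : j ≠ k) (hi : polar Q (e i) c ≠ 0) (hj : polar Q (e j) c ≠ 0)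
    (hk : polar Q (e k) c ≠ 0) : orefl Q c ∉ FS Q e := fun H => by
  obtain ⟨l, s, -, hs⟩ := h.app H i
  have key : ∀ m, i ≠ m → m ≠ l → polar Q (e m) c = 0 := fun m h1 h2 => by
    have := congrArg (polar Q (e m)) hs
    simp only [orefl_app, oexp, h.orth h1.symm, h.orth h2] at this
    simpa [hc, hi] using this
  by_cases H : j = l
  · exact hk (key k hik (H ▸ hjk.symm))
  · exact hj (key j hij H)

theorem mem_of_two {c : V} (hc : Q c ≠ 0) {i j : ι} (hij : i ≠ j)
    (hz : ∀ l, l ≠ i → l ≠ j → polar Q (e l) c = 0)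
    (H : polar Q (e j) c = 0 ∨ polar Q (e j) c ^ 2 = polar Q (e i) c ^ 2) :
    orefl Q c ∈ FS Q e := by
  obtain ⟨s, hs, h1⟩ : ∃ s : F, (s = 0 ∨ s * s = 1) ∧ polar Q (e j) c = -s * polar Q (e i) c := by
    rcases H with H | H
    · exact ⟨0, .inl rfl, by simp [H]⟩
    rcases sq_eq_sq_iff_eq_or_eq_neg.1 H with H | H
    · exact ⟨-1, .inr (by ring), by simp [H]⟩
    · exact ⟨1, .inr (by ring), by simp [H]⟩
  have := h.two
  have := h.ne
  have h2 : c = (polar Q (e i) c / (2 * κ)) • (e i - s • e j) := h.ext fun l => by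
    by_cases a : l = i
    · simp only [a, oexp, h.norm, h.orth hij]; field_simp; ring
    by_cases b : l = j
    · simp only [b, oexp, h.norm, h.orth hij.symm, h1]; field_simp; ring
    · simp only [oexp, h.orth a, h.orth b, hz l a b]; ring
  have h3 : polar Q (e i) c / (2 * κ) ≠ 0 := fun H => hc (by rw [h2, H]; simp)
  rw [h2, orefl_smul h3]
  rcases hs with rfl | hs
  · simpa using h.refl_mem i
  · exact h.long_mem hij hs

theorem long_of_mem {c : V} (hc : Q c ≠ 0) (H : orefl Q c ∈ FS Q e)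
    (hn : ∀ i, c ∉ Submodule.span F {e i}) :
    ∃ k l, ∃ s β : F, k ≠ l ∧ s * s = 1 ∧ β ≠ 0 ∧ β • c = e k - s • e l := by
  obtain ⟨k, hk⟩ := h.exists_co (o_ne_zero_of_norm hc)
  obtain ⟨l, s, hs, h1⟩ := h.app H k
  have hβ := mul_ne_zero (inv_ne_zero hc) hk
  have h2 : ((Q c)⁻¹ * polar Q (e k) c) • c = e k - s • e l := by
    rw [← h1, orefl_app, sub_sub_cancel]
  refine ⟨k, l, s, _, fun H => hn k ?_, hs, hβ, h2⟩
  rw [← Submodule.smul_mem_iff _ hβ, h2, ← H]
  exact Submodule.sub_mem _ (Submodule.mem_span_singleton_self _)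
    (Submodule.smul_mem _ _ (Submodule.mem_span_singleton_self _))

/-- Over the prime field `EA` is a subspace. -/
def EAm {u : V} (hu : Q u = 0) : Submodule F V :=
  { EA M hu with
    smul_mem' := fun t x hx => by
      obtain ⟨k, rfl⟩ := h.prime t
      rw [Nat.cast_smul_eq_nsmul]
      exact (EA M hu).nsmul_mem hx k }

theorem EA_e {u w : V} (hu : Q u = 0) {a b d : ι} (hab : a ≠ b) (had : a ≠ d) (hbd : b ≠ d)
    (ha : polar Q (e a) u = 0) (hb : polar Q (e b) u = 0) (hd : polar Q (e d) u = 0)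
    (hw : w ∈ h.EAm hu) (hw0 : polar Q (e a) w ≠ 0) : e a ∈ h.EAm hu := by
  have key : ∀ b, polar Q (e b) u = 0 → ∀ w ∈ h.EAm hu,
      w - (orefl Q (e a) * orefl Q (e b)).1 w ∈ h.EAm hu := fun b hb w hw =>
    (h.EAm hu).sub_mem hw (EA_fix (hu := hu) (h.dd_mem a b) (by simp [h.refl_app, ha, hb]) hw)
  have := key d hd _ (key b hb w hw)
  rw [← Submodule.smul_mem_iff _ (mul_ne_zero h.two (mul_ne_zero (inv_ne_zero h.ne) hw0))]
  convert this using 1
  simp only [OG.mul_app, h.refl_app, oexp, h.orth hab, h.orth had, h.orth had.symm, h.norm,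
    h.orth hbd.symm]
  have := h.ne
  match_scalars <;> field_simp <;> ring

theorem cyc_app {a b d : ι} (hab : a ≠ b) (had : a ≠ d) (hbd : b ≠ d) :
    (orefl Q (e a - e b) * orefl Q (e b - e d)).1 (e a) = e b := by
  have := h.long_ne hab (mul_one 1)
  rw [one_smul] at this
  rw [OG.mul_app, orefl_app_of_polar (v := e b - e d) (by
    simp only [oexp, h.orth hab, h.orth had]; ring),
    orefl_sub_app (by rw [h.norm, h.norm]) this]

theorem cyc_fix {a b d : ι} {u : V} (ha : polar Q (e a) u = 0) (hb : polar Q (e b) u = 0)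
    (hd : polar Q (e d) u = 0) : (orefl Q (e a - e b) * orefl Q (e b - e d)).1 u = u := by
  rw [OG.mul_app, orefl_app_of_polar (v := e b - e d), orefl_app_of_polar] <;>
    rw [polar_comm, polar_sub_left] <;> simp [ha, hb, hd]

theorem EA_cyc {u : V} (hu : Q u = 0) {a b d : ι} (hab : a ≠ b) (had : a ≠ d) (hbd : b ≠ d)
    (ha : polar Q (e a) u = 0) (hb : polar Q (e b) u = 0) (hd : polar Q (e d) u = 0)
    (H : e a ∈ h.EAm hu) : e b ∈ h.EAm hu :=
  h.cyc_app hab had hbd ▸ EA_fix (hu := hu) (h.cyc_mem hab hbd) (h.cyc_fix ha hb hd) H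

theorem nd_two {a b : ι} (hab : a ≠ b) : ND Q (Submodule.span F {e a, e b}) := nd_span_pair (by
  rw [h.orth hab, h.norm, h.norm]
  exact fun H => mul_ne_zero h.two_ne h.two_ne (by linear_combination -H))

theorem finrank_two {a b : ι} (hab : a ≠ b) : finrank F (Submodule.span F {e a, e b}) = 2 :=
  finrank_span_two (h.e_ne a) fun H => by
    obtain ⟨s, hs⟩ := Submodule.mem_span_singleton.1 H
    have := congrArg (polar Q (e b)) hs
    rw [o_polar_smul_right, h.orth hab.symm, h.self, mul_zero] at this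
    exact h.two_ne this.symm

theorem nd_three {a b : ι} (hab : a ≠ b) {c : V} (hc : Q c ≠ 0) (ha : polar Q (e a) c = 0)
    (hb : polar Q (e b) c = 0) : ND Q (Submodule.span F {e a, e b} ⊔ Submodule.span F {c}) ∧
      finrank F ↥(Submodule.span F {e a, e b} ⊔ Submodule.span F {c}) = 3 := by
  have h1 : ∀ x ∈ Submodule.span F {e a, e b}, ∀ y ∈ Submodule.span F {c}, polar Q x y = 0 :=
    fun x hx y hy => by
      obtain ⟨s, t, rfl⟩ := Submodule.mem_span_pair.1 hx
      obtain ⟨r, rfl⟩ := Submodule.mem_span_singleton.1 hy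
      simp only [oexp, ha, hb]; ring
  exact ⟨(h.nd_two hab).sup (nd_span_one h.two hc) h1, by
    rw [(h.nd_two hab).finrank_sup h1, h.finrank_two hab,
      finrank_span_singleton (o_ne_zero_of_norm hc)]⟩

omit h in
theorem mem_three {a b c x : V} (hx : x ∈ Submodule.span F {a, b} ⊔ Submodule.span F {c}) :
    ∃ s t r : F, x = s • a + t • b + r • c := by
  obtain ⟨y, hy, z, hz, rfl⟩ := Submodule.mem_sup.1 hx
  obtain ⟨s, t, rfl⟩ := Submodule.mem_span_pair.1 hy
  obtain ⟨r, rfl⟩ := Submodule.mem_span_singleton.1 hz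
  exact ⟨s, t, r, rfl⟩

omit h in
theorem three_mem (a b c : V) (s t r : F) :
    s • a + t • b + r • c ∈ Submodule.span F {a, b} ⊔ Submodule.span F {c} :=
  Submodule.add_mem_sup (Submodule.mem_span_pair.2 ⟨s, t, rfl⟩)
    (Submodule.mem_span_singleton.2 ⟨r, rfl⟩)

theorem spread {u w : V} (hu : Q u = 0) (hu0 : u ≠ 0) {a b d : ι} (hab : a ≠ b) (had : a ≠ d)
    (hbd : b ≠ d) (ha : polar Q (e a) u = 0) (hb : polar Q (e b) u = 0)
    (hd : polar Q (e d) u = 0) (hw : w ∈ EA M hu) (hw0 : polar Q (e a) w ≠ 0) : EO Q ≤ M := by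
  obtain ⟨hW, hW3⟩ := h.nd_three hab (h.norm_ne d) (h.orth had) (h.orth hbd)
  set W := Submodule.span F {e a, e b} ⊔ Submodule.span F {e d}
  have key : ∀ {u : V} (hu : Q u = 0), polar Q (e a) u = 0 → polar Q (e b) u = 0 →
      polar Q (e d) u = 0 → e b ∈ h.EAm hu → W ≤ h.EAm hu := fun hu ha hb hd H =>
    sup_le (span_two_le (h.EA_cyc hu hab.symm hbd had hb ha hd H) H)
      (span_one_le (h.EA_cyc hu hbd hab.symm had.symm hb hd ha H))
  have h1 := h.EA_cyc hu hab had hbd ha hb hd (h.EA_e hu hab had hbd ha hb hd hw hw0)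
  obtain ⟨i, hi⟩ := h.exists_co hu0
  have hia : i ≠ a := fun H => hi (H ▸ ha)
  have hib : i ≠ b := fun H => hi (H ▸ hb)
  have hid : i ≠ d := fun H => hi (H ▸ hd)
  have hβ := mul_ne_zero (inv_ne_zero h.ne) hi
  set u' := u - (κ⁻¹ * polar Q (e i) u) • e i with hu'
  have hg : (orefl Q (e i) * orefl Q (e a)).1 u = u' := by simp [h.refl_app, ha, hu']
  have hq' : Q u' = 0 := by rw [← hg, OG.map_app, hu]
  have h2 : e b ∈ h.EAm hq' := by
    have := EA_map (hu := hu) hq' (h.dd_mem i a) hg h1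
    rwa [OG.mul_app, orefl_app_of_polar (h.orth hab.symm), orefl_app_of_polar (h.orth hib.symm)]
      at this
  have hz : ∀ z, i ≠ z → polar Q (e z) u = 0 → polar Q (e z) u' = 0 := fun z h1 h2 => by
    simp only [hu', oexp, h2, h.orth h1.symm]; ring
  have hE := eich_of_hyp hW hu hq' (by
    simp only [hu', oexp, hu, polar_comm Q u]; simpa using ⟨h.ne, hi⟩) (key hu ha hb hd h1)
    (key hq' (hz a hia ha) (hz b hib hb) (hz d hid hd) h2)
  have hWz : ∀ l, l ≠ a → l ≠ b → l ≠ d → ∀ y ∈ W, polar Q (e l) y = 0 := fun l h1 h2 h3 y hy => by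
    obtain ⟨s, t, r, rfl⟩ := mem_three hy
    simp only [oexp, h.orth h1, h.orth h2, h.orth h3]; ring
  have hfull : ∀ y ∈ W, Q y = 0 → Full M y := fun y hy hq => full_of_EA hq fun v hv => by
    have a1 : e i ∈ h.EAm hq := ⟨by rw [polar_comm]; exact hWz i hia hib hid y hy,
      hE y (Submodule.mem_sup_right hy) _ (Submodule.mem_sup_left (by
        rw [← Submodule.smul_mem_iff _ hβ, show _ • e i = u - u' by simp [hu']]
        exact Submodule.sub_mem _ (mem_span_two_left _ _) (mem_span_two_right _ _)))⟩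
    have a2 : prS Q e κ {a, b, d}ᶜ v ∈ h.EAm hq := Submodule.sum_mem _ fun l hl => by
      simp only [Finset.mem_compl, Finset.mem_insert, Finset.mem_singleton, not_or] at hl
      refine Submodule.smul_mem _ _ ?_
      by_cases H : i = l
      · exact H ▸ a1
      obtain ⟨m, hm⟩ := h.idx [a, b, d, i, l] (by simp)
      simp only [List.mem_cons, List.not_mem_nil, or_false, not_or] at hm
      exact h.EA_cyc hq H (Ne.symm hm.2.2.2.1) (Ne.symm hm.2.2.2.2) (hWz i hia hib hid y hy)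
        (hWz l hl.1 hl.2.1 hl.2.2 y hy) (hWz m hm.1 hm.2.1 hm.2.2.1 y hy) a1
    have a3 : prS Q e κ {a, b, d} v ∈ W := Submodule.sum_mem _ fun l hl => by
      simp only [Finset.mem_insert, Finset.mem_singleton] at hl
      refine Submodule.smul_mem _ _ ?_
      rcases hl with rfl | rfl | rfl
      exacts [Submodule.mem_sup_left (mem_span_two_left _ _),
        Submodule.mem_sup_left (mem_span_two_right _ _),
        Submodule.mem_sup_right (Submodule.mem_span_singleton_self _)]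
    rw [h.prS_compl] at a2
    have a4 := a2.1
    rw [polar_sub_right, hv, zero_sub, neg_eq_zero] at a4
    simpa using (EA M hq).add_mem a2
      ⟨a4, hE y (Submodule.mem_sup_right hy) _ (Submodule.mem_sup_right a3)⟩
  obtain ⟨y, hy, hy0, hq⟩ := exists_singular_mem (Q := Q) hW3.ge
  obtain ⟨y', hy', h3, h4⟩ := hW.exists_partner hy hy0 hq
  exact EO_le_of_full h.nd (hfull y hy hq) (hfull y' hy' h3) (by rw [h4]; exact one_ne_zero)

theorem top_of_pair {c u : V} (hc : RR M e c) (hcu : RR M e (c + u)) (hu : Q u = 0) (hu0 : u ≠ 0)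
    (huc : polar Q u c = 0) {a b d : ι} (hab : a ≠ b) (had : a ≠ d) (hbd : b ≠ d)
    (ha : polar Q (e a) u = 0) (hb : polar Q (e b) u = 0) (hd : polar Q (e d) u = 0)
    (hc0 : polar Q (e a) c ≠ 0) : EO Q ≤ M :=
  h.spread hu hu0 hab had hbd ha hb hd (mem_EA_of_refl hu hc.1 huc (h.rr_mul hc hcu))
    (by rw [o_polar_smul_right]; exact mul_ne_zero (inv_ne_zero hc.1) hc0)

theorem top_of_sub {c : V} (hc : RR M e c) (T : Finset ι) (hT : Q (prS Q e κ T c) = 0) {i : ι}
    (hi : i ∈ T) (hi0 : polar Q (e i) c ≠ 0) {a b d : ι} (hab : a ≠ b) (had : a ≠ d) (hbd : b ≠ d)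
    (ha : a ∉ T) (hb : polar Q (e b) c = 0) (hd : polar Q (e d) c = 0)
    (hc0 : polar Q (e a) c ≠ 0) : EO Q ≤ M := by
  refine h.top_of_pair (u := -((2 : F) • prS Q e κ T c)) hc
    (by rw [← sub_eq_add_neg]; exact h.rr_flip hc T) (by simp only [oexp, hT]; ring)
    (fun H => mul_ne_zero h.two hi0 ?_) (by simp only [oexp, h.polar_prS', hT]; ring) hab had hbd
    ?_ ?_ ?_ hc0
  · have := congrArg (polar Q (e i)) (neg_eq_zero.1 H)
    simpa only [oexp, h.co_prS, if_pos hi, polar_zero_right] using this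
  all_goals simp [h.co_prS, ha, hb, hd]

theorem Q_compl (T : Finset ι) (c : V) : Q (prS Q e κ Tᶜ c) = Q c - Q (prS Q e κ T c) := by
  rw [h.prS_compl, o_qsub, polar_comm, h.polar_prS']; ring

theorem top_of_omega (h3 : Nat.card F ≠ 3) {c : V} (hc : Q c ≠ 0) {i j y y' : ι} (hij : i ≠ j)
    (hiy : i ≠ y) (hiy' : i ≠ y') (hjy : j ≠ y) (hjy' : j ≠ y') (hyy' : y ≠ y')
    (hi : polar Q (e i) c = 0) (hj : polar Q (e j) c = 0) (hy : polar Q (e y) c = 0)
    (hy' : polar Q (e y') c = 0) (hE : ∀ x ∈ Submodule.span F {e i, e j} ⊔ Submodule.span F {c},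
      ∀ z ∈ Submodule.span F {e i, e j} ⊔ Submodule.span F {c}, eich Q x z ∈ M) : EO Q ≤ M := by
  obtain ⟨k, hk⟩ := h.exists_co (o_ne_zero_of_norm hc)
  have ki : k ≠ i := fun H => hk (H ▸ hi)
  have kj : k ≠ j := fun H => hk (H ▸ hj)
  have ky : k ≠ y := fun H => hk (H ▸ hy)
  have ky' : k ≠ y' := fun H => hk (H ▸ hy')
  by_cases hsq : IsSquare (-1 : F)
  · obtain ⟨s, hs⟩ := hsq
    have hu : Q (e i + s • e j) = 0 := by
      simp only [oexp, h.norm, h.orth hij]; linear_combination -κ * hs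
    refine h.spread hu (w := c) (o_ne_zero_of_polar_right (Q := Q) (x := e i) (by
      simp only [oexp, h.norm, h.orth hij]; simpa using ⟨h.two, h.ne⟩)) ky ky' hyy' ?_ ?_ ?_
      ⟨by simp only [oexp, hi, hj]; ring, hE _ (by simpa using three_mem (e i) (e j) c 1 s 0) _
        (Submodule.mem_sup_right (Submodule.mem_span_singleton_self _))⟩ hk
    · simp only [oexp, h.orth ki, h.orth kj]; ring
    · simp only [oexp, h.orth hiy.symm, h.orth hjy.symm]; ring
    · simp only [oexp, h.orth hiy'.symm, h.orth hjy'.symm]; ring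
  obtain ⟨hS, hS3⟩ := h.nd_three hij hc hi hj
  have hR : ∀ s t r : F, Cls Q κ (s • e i + t • e j + r • c) → RR M e (s • e i + t • e j + r • c) :=
    fun s t r H => h.rr_of_one H.1 (refl_of_eich h.two hS hS3.ge hE
      (Submodule.mem_sup_left (mem_span_two_left _ _)) (three_mem _ _ _ s t r) (h.norm_ne i) H.1
      (by rw [h.norm, mul_comm]; exact H.2))
  obtain ⟨z, hz, hz1⟩ := (h.nd_two hjy).exists_eq (h.finrank_two hjy).ge (-κ)
  obtain ⟨s, t, rfl⟩ := Submodule.mem_span_pair.1 hz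
  have hst : s ^ 2 + t ^ 2 + 1 = 0 := mul_right_cancel₀ h.ne (by
    simp only [oexp, h.norm, h.orth hjy] at hz1; linear_combination hz1)
  have s0 : s ≠ 0 := fun H => hsq ⟨t, by rw [H] at hst; linear_combination -hst⟩
  have t0 : t ≠ 0 := fun H => hsq ⟨s, by rw [H] at hst; linear_combination -hst⟩
  have hm : Q (-s ^ 2 • e i + s • e j) = -κ * (s * t) ^ 2 := by
    simp only [oexp, h.norm, h.orth hij]; linear_combination κ * s ^ 2 * hst
  have hm0 : Q (-s ^ 2 • e i + s • e j) ≠ 0 := by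
    rw [hm]; exact mul_ne_zero (neg_ne_zero.2 h.ne) (pow_ne_zero _ (mul_ne_zero s0 t0))
  have hcm : polar Q c (-s ^ 2 • e i + s • e j) = 0 := by
    simp only [oexp, polar_comm Q c, hi, hj]; ring
  have hmc : -s ^ 2 • e i + s • e j ∉ Submodule.span F {c} := fun H => by
    obtain ⟨r, hr⟩ := Submodule.mem_span_singleton.1 H
    rw [← hr] at hcm hm0
    simp only [oexp] at hcm hm0
    exact hm0 (by rw [(mul_eq_zero.1 hcm).resolve_right (mul_ne_zero h.two hc)]; ring)
  obtain ⟨x, hx, x1, x2⟩ := exists_cls_notMem (U := Submodule.span F {c, -s ^ 2 • e i + s • e j})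
    (nd_span_pair (by
      rw [hcm]; exact fun H => mul_ne_zero (mul_ne_zero h.two hc) (mul_ne_zero h.two hm0)
        (by linear_combination -H)))
    (.inr ⟨finrank_span_two (o_ne_zero_of_norm hc) hmc, h3,
      fun H => absurd (two_eq_zero_of_card H) h.two⟩) h.ne (mem_span_two_right _ _) hmc
  obtain ⟨γ, μ, rfl⟩ := Submodule.mem_span_pair.1 hx
  have μ0 : μ ≠ 0 := fun H => x2 (by
    rw [H, zero_smul, add_zero]; exact Submodule.smul_mem _ _ (Submodule.mem_span_singleton_self _))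
  have γ0 : γ ≠ 0 := fun H => by
    obtain ⟨r, hr⟩ := x1.2
    rw [H, zero_smul, zero_add, o_qsmul, hm] at hr
    have := h.ne
    exact hsq ⟨r / (μ * κ * (s * t)), by field_simp; linear_combination hr⟩
  have e1 : γ • c + μ • (-s ^ 2 • e i + s • e j) = (-μ * s ^ 2) • e i + (μ * s) • e j + γ • c := by
    module
  rw [e1] at x1
  have r1 := hR _ _ _ x1
  have r2 := hR (-μ * (s ^ 2 + 1)) (-μ * t) γ (x1.of_eq (by
    simp only [oexp, h.norm, h.orth hij, hi, hj]; linear_combination μ ^ 2 * κ * hst))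
  have f1 := h.cyc_fix (h.orth hij.symm) (h.orth hiy.symm) (h.orth hiy'.symm)
  have r3 := h.rr_map (h.cyc_mem hjy hyy') (f1.symm ▸ h.rr_e i) (h.rr_e i) r2
  rw [map_add, map_add, map_smul, map_smul, map_smul, f1, h.cyc_app hjy hjy' hyy',
    h.cyc_fix hj hy hy'] at r3
  obtain ⟨d, hd⟩ := h.idx [i, j, y, y', k] (by simp)
  simp only [List.mem_cons, List.not_mem_nil, or_false, not_or] at hd
  refine h.top_of_pair (u := -μ • (e i + s • e j + t • e y)) r1 (by convert r3 using 1; module)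
    (by simp only [oexp, h.norm, h.orth hij, h.orth hiy, h.orth hjy]
        linear_combination μ ^ 2 * κ * hst)
    (o_ne_zero_of_polar_right (Q := Q) (x := e i) (by
      simp only [oexp, h.norm, h.orth hij, h.orth hiy]; simpa using ⟨μ0, h.two, h.ne⟩))
    (by simp only [oexp, h.norm, h.orth hij, h.orth hij.symm, h.orth hiy.symm, h.orth hjy.symm, hi,
      hj, hy]; ring) ky' (Ne.symm hd.2.2.2.2) (Ne.symm hd.2.2.2.1) ?_ ?_ ?_ ?_
  · simp only [oexp, h.orth ki, h.orth kj, h.orth ky]; ring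
  · simp only [oexp, h.orth hiy'.symm, h.orth hjy'.symm, h.orth hyy'.symm]; ring
  · simp only [oexp, h.orth hd.1, h.orth hd.2.1, h.orth hd.2.2.1]; ring
  · simp only [oexp, h.orth ki, h.orth kj]; simpa using ⟨γ0, hk⟩

theorem dick (h3 : (3 : F) ≠ 0) (hno : ¬ EO Q ≤ M) {c : V} (hc : RR M e c) {i j k y y' : ι}
    (hij : i ≠ j) (hjy : j ≠ y) (hjy' : j ≠ y') (hyy' : y ≠ y') (hy : polar Q (e y) c = 0)
    (hy' : polar Q (e y') c = 0) (hi : polar Q (e i) c ≠ 0) (hki : k ≠ i) (hkj : k ≠ j)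
    (hk : polar Q (e k) c ≠ 0) :
    (polar Q (e j) c = 0 ∧ polar Q (e i) c ^ 2 = 2 * (κ * Q c)) ∨
      (polar Q (e i) c ^ 2 = κ * Q c ∧ polar Q (e j) c ^ 2 = κ * Q c) := by
  have hiy : i ≠ y := fun H => hi (H ▸ hy)
  have hiy' : i ≠ y' := fun H => hi (H ▸ hy')
  have hkT : k ∈ ({i, j}ᶜ : Finset ι) := by simp [hki, hkj]
  have hc' : Q (prS Q e κ {i, j}ᶜ c) ≠ 0 := fun H =>
    hno (h.top_of_sub hc _ H hkT hk hiy hiy' hyy' (by simp) hy hy' hi)
  have ci : polar Q (e i) (prS Q e κ {i, j}ᶜ c) = 0 := by simp [h.co_prS]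
  have cj : polar Q (e j) (prS Q e κ {i, j}ᶜ c) = 0 := by simp [h.co_prS]
  have cy : polar Q (e y) (prS Q e κ {i, j}ᶜ c) = 0 := by simp [h.co_prS, hy]
  have cy' : polar Q (e y') (prS Q e κ {i, j}ᶜ c) = 0 := by simp [h.co_prS, hy']
  have hcS : c ∈ Submodule.span F {e i, e j} ⊔ Submodule.span F {prS Q e κ {i, j}ᶜ c} := by
    convert three_mem (e i) (e j) _ (polar Q (e i) c / (2 * κ)) (polar Q (e j) c / (2 * κ)) 1
    rw [h.prS_compl, prS, Finset.sum_pair hij]; simp
  generalize prS Q e κ {i, j}ᶜ c = c' at *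
  obtain ⟨hS, hS3⟩ := h.nd_three hij hc' ci cj
  have si : e i ∈ Submodule.span F {e i, e j} ⊔ Submodule.span F {c'} :=
    Submodule.mem_sup_left (mem_span_two_left _ _)
  have sj : e j ∈ Submodule.span F {e i, e j} ⊔ Submodule.span F {c'} :=
    Submodule.mem_sup_left (mem_span_two_right _ _)
  have hz : ∀ z, i ≠ z → j ≠ z → polar Q (e z) c' = 0 →
      e z ∈ operp Q (Submodule.span F {e i, e j} ⊔ Submodule.span F {c'}) := fun z a b d =>
    mem_operp.2 fun x hx => by
      obtain ⟨s, t, r, rfl⟩ := mem_three hx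
      simp only [oexp, h.orth a, h.orth b, polar_comm Q c', d]; ring
  have zy := hz y hiy hjy cy
  have zy' := hz y' hiy' hjy' cy'
  set S := Submodule.span F {e i, e j} ⊔ Submodule.span F {c'} with hSd
  let L : Subgroup (OG Q) :=
    { carrier := {g | g ∈ fixS Q (operp Q S) ∧ ∃ k ∈ FS Q e,
        (∀ g' ∈ fixS Q (operp Q S), Commute g' k) ∧ g * k ∈ M}
      one_mem' := ⟨one_mem _, 1, one_mem _, fun _ _ => Commute.one_right _, by simp⟩
      mul_mem' := by
        rintro a b ⟨ha, k, hk, k1, k2⟩ ⟨hb, l, hl, l1, l2⟩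
        refine ⟨mul_mem ha hb, k * l, mul_mem hk hl, fun g hg => (k1 g hg).mul_right (l1 g hg), ?_⟩
        rw [← (k1 b hb).symm.mul_mul_mul_comm]
        exact M.mul_mem k2 l2
      inv_mem' := by
        rintro a ⟨ha, k, hk, k1, k2⟩
        refine ⟨inv_mem ha, k⁻¹, inv_mem hk, fun g hg => (k1 g hg).inv_right, ?_⟩
        rw [← (k1 a ha).mul_inv]
        exact M.inv_mem k2 }
  have hmem : ∀ x ∈ S, ∀ z ∈ operp Q S, orefl Q z ∈ FS Q e → orefl Q x * orefl Q z ∈ M →
      orefl Q x ∈ L := fun x hx z hz h1 h2 =>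
    ⟨fun w hw => orefl_app_of_polar (by rw [polar_comm]; exact mem_operp.1 hw x hx), _, h1,
      fun g hg => by rw [Commute, SemiconjBy, mul_orefl, hg z hz], h2⟩
  have lm := h.long_mem hyy' (mul_one 1)
  rw [one_smul] at lm
  rcases b3 h.nd h.two h3 hS hS3 (L := L) (fun g hg z hz => hg.1 z (mem_operp.2 hz)) si sj hcS
    (h.orth hij) (by rw [h.norm, h.norm]) (h.norm_ne i) hc.1 (fun H => hk (by
      obtain ⟨s, t, rfl⟩ := Submodule.mem_span_pair.1 H
      simp only [oexp, h.orth hki, h.orth hkj]; ring)) hi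
    (hmem _ si _ zy (h.refl_mem y) (h.dd_mem i y))
    (hmem _ (S.sub_mem si sj) _ (sub_mem zy zy') lm (h.cyc_mem hij hyy'))
    (hmem _ hcS _ zy (h.refl_mem y) (h.rr_mul hc (h.rr_e y))) with H | H
  swap
  · rwa [h.norm] at H
  obtain ⟨u, hu, v, hv, hu0, hq, huv, hvu, -, k, hk, k1, k2⟩ := H
  have k3 : k * k ∈ M := h.le _ (mul_mem hk hk) ((mem_commutator_OG_iff h.nd
    (not_oExc_of_two_ne_zero h.two) _).2 ⟨by rw [map_mul, Int.units_mul_self],
      by rw [map_mul, Int.units_mul_self]⟩)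
  have k4 : v ∈ h.EAm hq := by
    rw [← Submodule.smul_mem_iff _ h.two, two_smul]
    refine ⟨by rw [polar_add_right, huv, add_zero], ?_⟩
    have a1 : eich Q u v ∈ fixS Q (operp Q S) := fun w hw => eich_app_of_polar
      (by rw [polar_comm]; exact mem_operp.1 hw u hu) (by rw [polar_comm]; exact mem_operp.1 hw v hv)
    have := M.mul_mem (M.mul_mem k2 k2) (M.inv_mem k3)
    rwa [(k1 _ a1).symm.mul_mul_mul_comm, mul_inv_cancel_right, eich_mul hq huv huv] at this
  have k5 : ∀ z ∈ S, polar Q u z = 0 → z ∈ h.EAm hq := fun z hz hz' => by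
    obtain ⟨w, hw, -, w1⟩ := hS.exists_partner hu hu0 hq
    have a1 : S ⊓ operp Q (Submodule.span F {u}) < S := lt_of_le_of_ne inf_le_left fun H => by
      rw [← H] at hw; rw [mem_operp_one.1 hw.2] at w1; exact zero_ne_one w1
    have a2 := Submodule.finrank_lt_finrank_of_lt a1
    have a3 := Submodule.eq_of_le_of_finrank_le (span_two_le (S := S ⊓ operp Q (Submodule.span F {u}))
      ⟨hu, mem_operp_one.2 (by rw [o_polar_self, hq, mul_zero])⟩ ⟨hv, mem_operp_one.2 huv⟩)
      (by rw [finrank_span_two hu0 hvu]; omega)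
    have a4 := smul_self_mem_EA (M := M) hq 1
    rw [one_smul] at a4
    exact span_two_le (S := h.EAm hq) a4 k4 (a3.ge ⟨hz, mem_operp_one.2 hz'⟩)
  obtain ⟨l, sl, hl⟩ : ∃ l, e l ∈ S ∧ polar Q (e l) u ≠ 0 := by
    by_contra H
    push Not at H
    have a1 := H i si
    have a2 := H j sj
    obtain ⟨s, t, r, rfl⟩ := mem_three hu
    simp only [oexp, h.norm, h.orth hij, h.orth hij.symm, ci, cj] at a1 a2 hq
    have s0 : s = 0 := (mul_eq_zero.1 (by linear_combination a1)).resolve_right h.two_ne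
    have t0 : t = 0 := (mul_eq_zero.1 (by linear_combination a2)).resolve_right h.two_ne
    have r0 : r ^ 2 = 0 := (mul_eq_zero.1 (by rw [s0, t0] at hq; linear_combination hq)).resolve_right hc'
    exact hu0 (by simp [s0, t0, pow_eq_zero_iff two_ne_zero |>.1 r0])
  have hg : ∀ z ∈ S, (orefl Q (e l) * orefl Q (e y)).1 z = (orefl Q (e l)).1 z := fun z hz => by
    rw [OG.mul_app, orefl_app_of_polar (mem_operp.1 zy z hz)]
  have hr : ∀ z ∈ S, (orefl Q (e l)).1 z ∈ S := fun z hz => by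
    rw [orefl_app]; exact S.sub_mem hz (S.smul_mem _ sl)
  have hq' : Q ((orefl Q (e l)).1 u) = 0 := by rw [OG.map_app, hq]
  refine (hno (h.top_of_omega (fun H => h3 ?_) hc' hij hiy hiy' hjy hjy' hyy' ci cj cy cy'
    fun x hx z hz => eich_mem_of_pair hS hu (hr u hu) hq hq' ?_ k5 (fun z hz hz' => ?_) hx hz)).elim
  · have := Fintype.ofFinite F
    have := FiniteField.cast_card_eq_zero F
    rwa [← Nat.card_eq_fintype_card, H] at this
  · rw [h.refl_app]; simp only [oexp, hq, polar_comm Q u]; simpa using ⟨h.ne, hl⟩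
  · have := EA_map (hu := hq) hq' (h.dd_mem l y) (hg u hu) (k5 _ (hr z hz) (by
      rwa [← OG.polar_app (orefl Q (e l)), orefl_orefl_app]))
    rwa [hg _ (hr z hz), orefl_orefl_app] at this

theorem supp_cases {c : V} (hc : Q c ≠ 0) (hn : orefl Q c ∉ FS Q e) :
    (∃ i j, i ≠ j ∧ polar Q (e i) c ≠ 0 ∧ polar Q (e j) c ≠ 0 ∧
      polar Q (e j) c ^ 2 ≠ polar Q (e i) c ^ 2 ∧ ∀ l, l ≠ i → l ≠ j → polar Q (e l) c = 0) ∨
    ∃ i j k, i ≠ j ∧ k ≠ i ∧ k ≠ j ∧ polar Q (e i) c ≠ 0 ∧ polar Q (e j) c ≠ 0 ∧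
      polar Q (e k) c ≠ 0 := by
  obtain ⟨i, hi⟩ := h.exists_co (o_ne_zero_of_norm hc)
  obtain ⟨j, hj, hj0⟩ : ∃ j, j ≠ i ∧ polar Q (e j) c ≠ 0 := by
    by_contra H
    push Not at H
    obtain ⟨j, hj⟩ := h.idx [i] (by simp)
    have hj : j ≠ i := by simpa using hj
    exact hn (h.mem_of_two hc hj.symm (fun l a _ => H l a) (.inl (H j hj)))
  by_cases H : ∃ k, k ≠ i ∧ k ≠ j ∧ polar Q (e k) c ≠ 0
  · obtain ⟨k, h1, h2, h3⟩ := H
    exact .inr ⟨i, j, k, hj.symm, h1, h2, hi, hj0, h3⟩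
  · push Not at H
    exact .inl ⟨i, j, hj.symm, hi, hj0, fun H' => hn (h.mem_of_two hc hj.symm H (.inr H')), H⟩

/-- A new root with two zero coordinates. -/
theorem two_zero (hno : ¬ EO Q ≤ M) {c : V} (hc : RR M e c) {y y' : ι} (hyy' : y ≠ y')
    (hy : polar Q (e y) c = 0) (hy' : polar Q (e y') c = 0) : orefl Q c ∈ FS Q e := by
  by_contra hn
  have hne : ∀ {i z}, polar Q (e i) c ≠ 0 → polar Q (e z) c = 0 → i ≠ z := fun a b H => a (H ▸ b)
  have N0 := mul_ne_zero h.ne hc.1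
  have k4 : 4 * κ ≠ 0 := mul_ne_zero (L2.four_ne_zero_of_two h.two) h.ne
  by_cases h3 : (3 : F) = 0
  · have hsq : ∀ x : F, x ≠ 0 → x ^ 2 = 1 := fun x hx => by
      obtain ⟨k, rfl⟩ := h.prime x
      rw [← Nat.div_add_mod k 3] at hx ⊢
      have : k % 3 < 3 := Nat.mod_lt _ (by omega)
      generalize k % 3 = r at *
      push_cast at hx ⊢
      rw [h3] at hx ⊢
      interval_cases r
      · simp at hx
      · simp
      · push_cast; linear_combination h3
    rcases h.supp_cases hc.1 hn with ⟨i, j, -, hi, hj, H, -⟩ | ⟨i, j, k, h1, h2, h4, hi, hj, hk⟩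
    · exact H (by rw [hsq _ hi, hsq _ hj])
    have hT : Q (prS Q e κ {k, i, j} c) = 0 := mul_left_cancel₀ k4 (by
      rw [h.Q_prS, Finset.sum_insert (by simp [h2, h4]), Finset.sum_pair h1, hsq _ hi, hsq _ hj,
        hsq _ hk]
      linear_combination h3)
    obtain ⟨a, ha⟩ := h.exists_co (x := prS Q e κ {k, i, j}ᶜ c) (o_ne_zero_of_norm (by
      rw [h.Q_compl, hT, sub_zero]; exact hc.1))
    rw [h.co_prS] at ha
    have ha' : a ∈ ({k, i, j}ᶜ : Finset ι) := by by_contra H; exact ha (if_neg H)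
    rw [if_pos ha'] at ha
    exact hno (h.top_of_sub hc _ hT (i := i) (by simp) hi (hne ha hy) (hne ha hy') hyy'
      (Finset.mem_compl.1 ha') hy hy' ha)
  have hz : ∀ i k z, k ≠ i → polar Q (e i) c ≠ 0 → polar Q (e k) c ≠ 0 → z ≠ y → z ≠ y' →
      polar Q (e z) c = 0 → polar Q (e i) c ^ 2 = 2 * (κ * Q c) := fun i k z a1 a2 a3 a4 a5 a6 =>
    ((h.dick h3 hno hc (hne a2 a6) a4 a5 hyy' hy hy' a2 a1 (hne a3 a6) a3).resolve_right fun H =>
      N0 (by rw [← H.2, a6]; ring)).2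
  rcases h.supp_cases hc.1 hn with ⟨i, j, h1, hi, hj, H, H'⟩ | ⟨i, j, k, h1, h2, h4, hi, hj, hk⟩
  · obtain ⟨z, hz'⟩ := h.idx [i, j, y, y'] (by simp)
    simp only [List.mem_cons, List.not_mem_nil, or_false, not_or] at hz'
    have := H' z hz'.1 hz'.2.1
    exact H (by rw [hz i j z h1.symm hi hj hz'.2.2.1 hz'.2.2.2 this,
      hz j i z h1 hj hi hz'.2.2.1 hz'.2.2.2 this])
  have hq : ∀ a b d, a ≠ b → d ≠ a → d ≠ b → polar Q (e a) c ≠ 0 → polar Q (e b) c ≠ 0 →
      polar Q (e d) c ≠ 0 → polar Q (e a) c ^ 2 = κ * Q c := fun a b d a1 a2 a3 a4 a5 a6 =>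
    ((h.dick h3 hno hc a1 (hne a5 hy) (hne a5 hy') hyy' hy hy' a4 a2 a3 a6).resolve_left fun H =>
      a5 H.1).1
  have hall : ∀ z, z ≠ y → z ≠ y' → polar Q (e z) c ≠ 0 := fun z a1 a2 a3 => N0 (by
    linear_combination hq i j k h1 h2 h4 hi hj hk - hz i j z h1.symm hi hj a1 a2 a3)
  obtain ⟨l, hl⟩ := h.idx [i, j, k, y, y'] (by simp)
  obtain ⟨m, hm⟩ := h.idx [i, j, k, y, y', l] (by simp)
  simp only [List.mem_cons, List.not_mem_nil, or_false, not_or] at hl hm
  have l0 := hall l hl.2.2.2.1 hl.2.2.2.2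
  refine hno (h.top_of_sub hc {l, k, i, j}ᶜ ?_ (i := m) (by simp; tauto)
    (hall m hm.2.2.2.1 hm.2.2.2.2.1) (hne hi hy) (hne hi hy') hyy' (by simp) hy hy' hi)
  rw [h.Q_compl, sub_eq_zero]
  refine mul_left_cancel₀ k4 ?_
  rw [h.Q_prS, Finset.sum_insert (by simp; tauto), Finset.sum_insert (by simp [h2, h4]),
    Finset.sum_pair h1, hq i j k h1 h2 h4 hi hj hk, hq j i k h1.symm h4 h2 hj hi hk,
    hq k i j h2 h4.symm h1.symm hk hi hj, hq l i j hl.1 (Ne.symm hl.2.1) h1.symm l0 hi hj]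
  ring

end Fr

end Cfsg.Agent.Cl.MaxO
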