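import Mathlib
import Cfsg.Agent.Cl.MaxOFrA

/-!
# Maximality in `Ω` of frame stabilisers II

The stabiliser in `Ω` of an orthogonal frame of isometric points over a prime field of odd order
is maximal in dimension `n ≥ 7`, `n ≠ 8`.
-/

set_option autoImplicit false
set_option linter.unusedSectionVars false
set_option linter.unusedVariables false

namespace Cfsg.Agent.Cl.MaxO

open Module QuadraticMap

theorem dih {G : Type*} [Group G] [Finite G] {t s : G} (ht : t * t = 1) (hs : s * s = 1) :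
    (∃ y ∈ Subgroup.zpowers (t * s), y * t * y⁻¹ * t * (y * t * y⁻¹)⁻¹ = s) ∨
    ∃ z ∈ Subgroup.zpowers (t * s), z ≠ 1 ∧ Commute z t ∧ Commute z s ∧
      (∃ y ∈ Subgroup.zpowers (t * s), z * t = y * t * y⁻¹ ∨ z * t = y * s * y⁻¹) ∧
      ∃ y ∈ Subgroup.zpowers (t * s), z * s = y * t * y⁻¹ ∨ z * s = y * s * y⁻¹ := by
  set u := t * s with hu
  have ti : t⁻¹ = t := inv_eq_of_mul_eq_one_right ht
  have h1 : s = u ^ (-1 : ℤ) * t := by
    rw [zpow_neg_one, hu, mul_inv_rev, ti, inv_eq_of_mul_eq_one_right hs, mul_assoc, ht, mul_one]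
  have h2 : ∀ k : ℤ, t * u ^ k = u ^ (-k) * t := fun k => by
    have : t * u * t⁻¹ = u⁻¹ := by
      rw [ti, hu, ← mul_assoc, ht, one_mul, mul_inv_rev, ti, inv_eq_of_mul_eq_one_right hs]
    rw [zpow_neg, ← inv_zpow, ← this, conj_zpow, inv_mul_cancel_right]
  have h3 : ∀ a b : ℤ, u ^ a * (u ^ b * t) * (u ^ a)⁻¹ = u ^ (2 * a + b) * t := fun a b => by
    rw [← zpow_neg, mul_assoc, mul_assoc, h2, ← mul_assoc, ← mul_assoc, ← zpow_add, ← zpow_add]
    congr 2; ring
  have h4 : ∀ a : ℤ, u ^ a * t * (u ^ a)⁻¹ = u ^ (2 * a) * t := fun a => by simpa using h3 a 0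
  have h5 : ∀ k : ℤ, ∃ y ∈ Subgroup.zpowers u, u ^ k * t = y * t * y⁻¹ ∨ u ^ k * t = y * s * y⁻¹ :=
    fun k => by
      obtain ⟨a, rfl | rfl⟩ := Int.even_or_odd' k
      · exact ⟨u ^ a, ⟨a, rfl⟩, .inl (h4 a).symm⟩
      · exact ⟨u ^ (a + 1), ⟨_, rfl⟩, .inr (by rw [h1, h3]; congr 2; ring)⟩
  have hn : u ^ (orderOf u : ℤ) = 1 := by rw [zpow_natCast, pow_orderOf_eq_one]
  obtain ⟨m, hm | hm⟩ := Nat.even_or_odd' (orderOf u)
  · have h0 := orderOf_pos u
    have h6 : Commute (u ^ (m : ℤ)) t := by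
      rw [Commute, SemiconjBy, h2, ← mul_one (u ^ (-m : ℤ)), ← hn, ← zpow_add, hm]
      congr 2; push_cast; ring
    refine .inr ⟨u ^ (m : ℤ), ⟨_, rfl⟩, ?_, h6, h1 ▸ (Commute.zpow_zpow_self u _ _).mul_right h6,
      h5 m, ?_⟩
    · rw [zpow_natCast]; exact pow_ne_one_of_lt_orderOf (by omega) (by omega)
    · obtain ⟨y, hy, H⟩ := h5 (m + -1)
      rw [zpow_add, mul_assoc, ← h1] at H
      exact ⟨y, hy, H⟩
  · refine .inl ⟨u ^ (-(m + 1) ^ 2 : ℤ), ⟨_, rfl⟩, ?_⟩
    rw [h4, mul_inv_rev, ti, mul_assoc _ t t, ht, mul_one, ← mul_assoc, h4, h1,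
      ← mul_one (u ^ (-1 : ℤ)), ← one_zpow (-(2 * m + 3)), ← hn, ← zpow_mul, ← zpow_add, hm]
    congr 2; push_cast; ring

variable {F V : Type*} [Field F] [AddCommGroup V] [Module F V] {Q : QuadraticForm F V}
  [FiniteDimensional F V] [Finite F] {ι : Type*} [Fintype ι] [DecidableEq ι]
  {M : Subgroup (OG Q)} {e : ι → V} {κ : F}

theorem finite_OG : Finite (OG Q) := by
  have := Module.finite_of_finite F (M := V)
  exact Finite.of_injective (fun g : OG Q => (g.1 : V → V)) fun a b h => OG.ext (congrFun h)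

theorem mem_span_of_orefl_eq (hQ : (polarBilin Q).Nondegenerate) {a b : V} (ha : Q a ≠ 0)
    (H : orefl Q a = orefl Q b) : a ∈ Submodule.span F {b} := by
  obtain ⟨x, -, hx⟩ := (show ND Q ⊤ from fun x _ h => ((quad_nondeg_iff Q).1 hQ) x fun y =>
    h y trivial).exists_polar_ne trivial (o_ne_zero_of_norm ha)
  have := congrArg (fun g : OG Q => g.1 x) H
  simp only [orefl_app, sub_right_inj] at this
  rw [← Submodule.smul_mem_iff _ (mul_ne_zero (inv_ne_zero ha) (polar_comm Q a x ▸ hx)), this]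
  exact Submodule.smul_mem _ _ (Submodule.mem_span_singleton_self _)

theorem polar_eq_zero_of_fix {a b x : V} (ha : Q a ≠ 0) (hab : a ∉ Submodule.span F {b})
    (H : (orefl Q a * orefl Q b).1 x = x) : polar Q x a = 0 := by
  by_contra h
  have h2 : (orefl Q b).1 x = (orefl Q a).1 x := by
    rw [OG.mul_app] at H
    conv_rhs => rw [← H]
    rw [orefl_orefl_app]
  rw [orefl_app, orefl_app, sub_right_inj] at h2
  exact hab ((Submodule.smul_mem_iff _ (mul_ne_zero (inv_ne_zero ha) h)).1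
    (h2 ▸ Submodule.smul_mem _ _ (Submodule.mem_span_singleton_self b)))

theorem refl_sub_mem (f h x : V) :
    (orefl Q f * orefl Q h).1 x - x ∈ Submodule.span F {f, h} := by
  rw [OG.mul_app, show (orefl Q f).1 ((orefl Q h).1 x) - x =
    ((orefl Q f).1 ((orefl Q h).1 x) - (orefl Q h).1 x) + ((orefl Q h).1 x - x) by abel]
  exact Submodule.add_mem _ (orefl_app_sub_mem (mem_span_two_left f h) _)
    (orefl_app_sub_mem (mem_span_two_right f h) _)

namespace Fr

variable (h : Fr M e κ)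
include h

theorem co_sub_ne {w : OG Q} (hw : w ∈ FS Q e) {i : ι} (hi : w.1 (e i) ≠ e i) :
    polar Q (e i) (w.1 (e i) - e i) ≠ 0 := by
  obtain ⟨j, s, -, hs⟩ := h.app hw i
  rw [polar_sub_right, h.self, hs, o_polar_smul_right]
  by_cases H : i = j
  · subst H
    rw [h.self]
    intro H
    have : s = 1 := mul_right_cancel₀ h.two_ne (by linear_combination H)
    exact hi (by rw [hs, this, one_smul])
  · rw [h.orth H]; simpa using ⟨h.two, h.ne⟩

/-- An element of the frame stabiliser of rank `r` moves at most `2 r` basis vectors. -/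
theorem exists_fix {w : OG Q} (hw : w ∈ FS Q e) {U : Submodule F V} (hU : ∀ x, w.1 x - x ∈ U)
    (l : List ι) (hl : l.length + 2 * finrank F U < Fintype.card ι) :
    ∃ a, a ∉ l ∧ w.1 (e a) = e a := by
  by_contra H
  push Not at H
  have key : ∀ k, 2 * k + l.length ≤ Fintype.card ι + 1 → ∃ (L : List ι) (W : Submodule F V),
      L.length ≤ 2 * k ∧ W ≤ U ∧ k ≤ finrank F W ∧ ∀ x ∈ W, ∀ m, m ∉ L → polar Q (e m) x = 0 := by
    intro k
    induction k with
    | zero => exact fun _ => ⟨[], ⊥, by simp, bot_le, by simp, fun x hx m _ => by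
        rw [(Submodule.mem_bot F).1 hx, polar_zero_right]⟩
    | succ k ih =>
      intro hk
      obtain ⟨L, W, h1, h2, h3, h4⟩ := ih (by omega)
      obtain ⟨i, hi⟩ := exists_idx (l ++ L) (by simp; omega)
      rw [List.mem_append, not_or] at hi
      obtain ⟨j, s, -, hs⟩ := h.app hw i
      have h5 : w.1 (e i) - e i ∉ W := fun H' => h.co_sub_ne hw (H i hi.1) (h4 _ H' i hi.2)
      refine ⟨i :: j :: L, W ⊔ Submodule.span F {w.1 (e i) - e i}, by simp; omega,
        sup_le h2 (span_one_le (hU _)), ?_, fun x hx m hm => ?_⟩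
      · have := Submodule.finrank_lt_finrank_of_lt (show W < W ⊔ Submodule.span F {w.1 (e i) - e i}
          from left_lt_sup.2 fun H' => h5 (H' (Submodule.mem_span_singleton_self _)))
        omega
      · simp only [List.mem_cons, not_or] at hm
        obtain ⟨y, hy, z, hz, rfl⟩ := Submodule.mem_sup.1 hx
        obtain ⟨t, rfl⟩ := Submodule.mem_span_singleton.1 hz
        simp only [oexp, hs, h4 y hy m hm.2.2, h.orth hm.1, h.orth hm.2.1]; ring
  obtain ⟨-, W, -, h2, h3, -⟩ := key (finrank F U + 1) (by omega)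
  have := Submodule.finrank_mono h2
  omega

theorem dihR {c : V} (hc : RR M e c) {i : ι} (hci : c ∉ Submodule.span F {e i}) :
    (∃ l : F, RR M e (e i - l • c) ∧ (orefl Q (e i - l • c)).1 (e i) = l • c) ∨
    ∃ l : F, RR M e (c - l • e i) ∧ polar Q (e i) (c - l • e i) = 0 := by
  have := finite_OG (Q := Q)
  have hz : ∀ y ∈ Subgroup.zpowers (orefl Q (e i) * orefl Q c), ∀ x,
      RR M e x ∧ x ∈ Submodule.span F {e i, c} →
        RR M e (y.1 x) ∧ y.1 x ∈ Submodule.span F {e i, c} := fun y hy => by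
    obtain ⟨n, rfl⟩ := (Submonoid.mem_powers_iff _ _).1 (mem_powers_iff_mem_zpowers.2 hy)
    clear hy
    induction n with
    | zero => exact fun x hx => hx
    | succ n ih =>
      intro x hx
      rw [pow_succ', OG.mul_app]
      exact ⟨(h.rr_e i).refl (hc.refl (ih x hx).1), by
        have := Submodule.add_mem _ (refl_sub_mem (Q := Q) (e i) c
          (((orefl Q (e i) * orefl Q c) ^ n).1 x)) (ih x hx).2
        rwa [sub_add_cancel] at this⟩
  have z1 := fun y hy => hz y hy _ ⟨h.rr_e i, mem_span_two_left _ _⟩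
  have z2 := fun y hy => hz y hy _ ⟨hc, mem_span_two_right _ _⟩
  rcases dih (orefl_mul_self (Q := Q) (e i)) (orefl_mul_self c) with ⟨y, hy, H⟩ |
    ⟨z, -, z0, zt, -, ⟨y, hy, H⟩, -⟩
  · rw [conj_orefl, conj_orefl] at H
    obtain ⟨l, hl⟩ := Submodule.mem_span_singleton.1 (mem_span_of_orefl_eq h.nd
      (by rw [OG.map_app]; exact h.norm_ne i) H)
    have h1 := (z1 y hy).1
    generalize y.1 (e i) = Y at h1 hl
    have h2 : e i - l • c = ((Q Y)⁻¹ * polar Q (e i) Y) • Y := by rw [hl, orefl_app]; simp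
    have h3 : (Q Y)⁻¹ * polar Q (e i) Y ≠ 0 := fun H' => by
      rw [H', zero_smul, sub_eq_zero] at h2
      have l0 : l ≠ 0 := fun H'' => h.e_ne i (by rw [h2, H'', zero_smul])
      exact hci ((Submodule.smul_mem_iff _ l0).1 (h2 ▸ Submodule.mem_span_singleton_self _))
    exact .inl ⟨l, h2 ▸ h1.smul h3, by rw [h2, orefl_smul h3, hl]⟩
  · obtain ⟨Y, hY, h1, h2⟩ : ∃ Y, z * orefl Q (e i) = orefl Q Y ∧ RR M e Y ∧
        Y ∈ Submodule.span F {e i, c} := by
      rcases H with H | H <;> rw [conj_orefl] at H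
      exacts [⟨_, H, z1 y hy⟩, ⟨_, H, z2 y hy⟩]
    have h3 : orefl Q ((orefl Q Y).1 (e i)) = orefl Q (e i) := by
      rw [← conj_orefl, ← hY, mul_inv_rev, orefl_inv, mul_assoc z, orefl_mul_self, mul_one,
        ← mul_assoc, zt.eq, mul_inv_cancel_right]
    have h4 : polar Q (e i) Y = 0 := by
      by_contra H'
      have a1 := mem_span_of_orefl_eq h.nd (by rw [OG.map_app]; exact h.norm_ne i) h3
      rw [orefl_app, Submodule.sub_mem_iff_right _ (Submodule.mem_span_singleton_self _),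
        Submodule.smul_mem_iff _ (mul_ne_zero (inv_ne_zero h1.1) H')] at a1
      obtain ⟨s, rfl⟩ := Submodule.mem_span_singleton.1 a1
      rw [orefl_smul (by rintro rfl; simp at H'), mul_eq_right] at hY
      exact z0 hY
    obtain ⟨s, t, rfl⟩ := Submodule.mem_span_pair.1 h2
    have t0 : t ≠ 0 := by
      rintro rfl
      simp only [oexp, h.norm] at h4
      exact h1.1 (by
        rw [(mul_eq_zero.1 (by linear_combination h4 : s * (2 * κ) = 0)).resolve_right h.two_ne]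
        simp)
    have h5 : c - (-(s / t)) • e i = t⁻¹ • (s • e i + t • c) := by
      match_scalars <;> field_simp
    exact .inr ⟨-(s / t), h5 ▸ h1.smul (inv_ne_zero t0), by rw [h5, o_polar_smul_right, h4, mul_zero]⟩

theorem odd_pair {c : V} {i j y : ι} (hij : i ≠ j) (hc : ∀ l, l ≠ y → polar Q (e l) c ≠ 0)
    {a b : F} (h1 : RR M e (e i - a • c)) (h2 : (orefl Q (e i - a • c)).1 (e i) = a • c)
    (h3 : RR M e (e j - b • c)) (h4 : (orefl Q (e j - b • c)).1 (e j) = b • c) :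
    orefl Q (e i - a • c) * orefl Q (e j - b • c) ∈ M ∧
      orefl Q (e i - a • c) * orefl Q (e j - b • c) ∉ FS Q e ∧
      (orefl Q (e i - a • c) * orefl Q (e j - b • c)).1 (e j) ∈ Submodule.span F {e i} := by
  have a0 : a ≠ 0 := fun H => OG.app_ne_zero _ (h.e_ne i) (by rw [h2, H, zero_smul])
  have h5 : (orefl Q (e i - a • c) * orefl Q (e j - b • c)).1 (e j) = (b / a) • e i := by
    rw [OG.mul_app, h4, show b • c = (b / a) • a • c by rw [smul_smul, div_mul_cancel₀ _ a0], map_smul]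
    conv_lhs => arg 2; arg 2; rw [← h2]
    rw [orefl_orefl_app]
  refine ⟨h.rr_mul h1 h3, fun H => ?_,
    h5 ▸ Submodule.smul_mem _ _ (Submodule.mem_span_singleton_self _)⟩
  obtain ⟨k, hk, h6⟩ := h.exists_fix H (refl_sub_mem _ _) [i, y] (by
    have := finrank_span_pair_le (F := F) (e i - a • c) (e j - b • c)
    have := h.card
    simp; omega)
  simp only [List.mem_cons, List.not_mem_nil, or_false, not_or] at hk
  have h7 := polar_eq_zero_of_fix h1.1 (fun H' => ?_) h6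
  · simp only [oexp, h.orth hk.1] at h7
    exact mul_ne_zero a0 (hc k hk.2) (by linear_combination -h7)
  · obtain ⟨s, hs⟩ := Submodule.mem_span_singleton.1 H'
    rw [← hs, orefl_smul (fun H'' => h1.1 (by rw [← hs, H'']; simp)), orefl_mul_self] at h5
    have := congrArg (polar Q (e j)) h5
    rw [OG.one_app, h.self, o_polar_smul_right, h.orth hij.symm, mul_zero] at this
    exact h.two_ne this

theorem rr_long {c : V} (hc : Q c = κ) {k l : ι} {s β : F} (hkl : k ≠ l) (hs : s * s = 1)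
    (hβ : β • c = e k - s • e l) {i j : ι} (hij : i ≠ j) : RR M e (e i - e j) := by
  have h1 := h.Q_long hkl hs
  rw [← hβ, o_qsmul, hc] at h1
  have h2 := h.long_mem hij (mul_one 1)
  have h3 := h.Q_long hij (mul_one 1)
  rw [one_smul] at h2 h3
  exact h.rr_of_one (h3 ▸ h.two_ne) (h.mem_of_refl (h.refl_mem i) h2 (h.norm_ne i) (h3 ▸ h.two_ne)
    ⟨β * κ, by rw [h3, h.norm]; linear_combination -κ * h1⟩)

theorem co_long {c : V} {k l : ι} {s β : F} (hkl : k ≠ l) (hs : s * s = 1) (hβ0 : β ≠ 0)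
    (hβ : β • c = e k - s • e l) : polar Q (e k) c ≠ 0 ∧ polar Q (e l) c ≠ 0 ∧
      ∀ m, m ≠ k → m ≠ l → polar Q (e m) c = 0 := by
  have key := fun m => congrArg (polar Q (e m)) hβ
  refine ⟨fun H => h.two_ne ?_, fun H => h.two_ne ?_, fun m h1 h2 => ?_⟩
  · have := key k
    simp only [oexp, H, h.norm, h.orth hkl] at this
    linear_combination -this
  · have := key l
    simp only [oexp, H, h.norm, h.orth hkl.symm] at this
    linear_combination s * this - 2 * κ * hs
  · have := key m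
    simp only [oexp, h.orth h1, h.orth h2] at this
    simpa [hβ0] using this

theorem co_map {g : OG Q} {a y j : ι} (ha : g.1 (e a) ∈ Submodule.span F {e y}) (hj : j ≠ a) :
    polar Q (e y) (g.1 (e j)) = 0 := by
  obtain ⟨s, hs⟩ := Submodule.mem_span_singleton.1 ha
  have := OG.polar_app g (e a) (e j)
  rw [← hs, o_polar_smul_left, h.orth hj.symm] at this
  exact (mul_eq_zero.1 this).resolve_left fun H => OG.app_ne_zero g (h.e_ne a) (by
    rw [← hs, H, zero_smul])

theorem line_aux (hno : ¬ EO Q ≤ M) {g : OG Q} (hg : g ∈ M) (hgn : g ∉ FS Q e) {a y : ι}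
    (ha : g.1 (e a) ∈ Submodule.span F {e y}) : ∃ j, (∀ m, g.1 (e j) ∉ Submodule.span F {e m}) ∧
      RR M e (g.1 (e j)) ∧ orefl Q (g.1 (e j)) ∉ FS Q e := by
  obtain ⟨s, hs⟩ := Submodule.mem_span_singleton.1 ha
  have s0 : s ≠ 0 := fun H => OG.app_ne_zero g (h.e_ne a) (by rw [← hs, H, zero_smul])
  have ra : RR M e (g.1 (e a)) := hs ▸ (h.rr_e y).smul s0
  obtain ⟨j, hj⟩ : ∃ j, ∀ m, g.1 (e j) ∉ Submodule.span F {e m} := by
    by_contra H
    push Not at H
    exact hgn (h.mem_FS H)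
  have hja : j ≠ a := fun H => hj y (H ▸ ha)
  have rj := h.rr_map hg ra (h.rr_e a) (h.rr_e j)
  refine ⟨j, hj, rj, fun H => ?_⟩
  obtain ⟨k, l, t, β, hkl, ht, β0, hβ⟩ := h.long_of_mem rj.1 H hj
  obtain ⟨c1, c2, c3⟩ := h.co_long hkl ht β0 hβ
  have c4 := h.co_map ha hja
  have ky : k ≠ y := fun H => c1 (H ▸ c4)
  have ly : l ≠ y := fun H => c2 (H ▸ c4)
  have rx := h.rr_map hg ra (h.rr_e a) (h.rr_long (by rw [OG.map_app, h.norm]) hkl ht hβ hja)
  rw [map_sub, ← hs] at rx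
  obtain ⟨m, hm⟩ := h.idx [k, l, y] (by simp)
  obtain ⟨m', hm'⟩ := h.idx [k, l, y, m] (by simp)
  simp only [List.mem_cons, List.not_mem_nil, or_false, not_or] at hm hm'
  refine h.notMem_of_three rx.1 hkl ky ly ?_ ?_ ?_ (h.two_zero hno rx hm'.2.2.2 ?_ ?_)
  · simpa [h.orth ky] using c1
  · simpa [h.orth ly] using c2
  · simp only [oexp, c4, h.norm]; simpa using ⟨s0, h.two, h.ne⟩
  · simp [h.orth hm'.2.2.1, c3 m' hm'.1 hm'.2.1]
  · simp [h.orth hm.2.2, c3 m hm.1 hm.2.1]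

theorem two_lines (hno : ¬ EO Q ≤ M) {g : OG Q} (hg : g ∈ M) {a b y y' : ι} (hyy' : y ≠ y')
    (ha : g.1 (e a) ∈ Submodule.span F {e y}) (hb : g.1 (e b) ∈ Submodule.span F {e y'}) :
    g ∈ FS Q e := by
  by_contra hgn
  obtain ⟨j, h1, h2, h3⟩ := h.line_aux hno hg hgn ha
  exact h3 (h.two_zero hno h2 hyy' (h.co_map ha fun H => h1 y (H ▸ ha))
    (h.co_map hb fun H => h1 y' (H ▸ hb)))

theorem notMem_sub {c : V} {i y : ι} {l : F} (hc : ∀ m, m ≠ y → polar Q (e m) c ≠ 0)
    (h0 : Q (c - l • e i) ≠ 0) : orefl Q (c - l • e i) ∉ FS Q e := by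
  obtain ⟨a, ha⟩ := h.idx [i, y] (by simp)
  obtain ⟨b, hb⟩ := h.idx [i, y, a] (by simp)
  obtain ⟨d, hd⟩ := h.idx [i, y, a, b] (by simp)
  simp only [List.mem_cons, List.not_mem_nil, or_false, not_or] at ha hb hd
  refine h.notMem_of_three h0 hb.2.2 (Ne.symm hd.2.2.2) (Ne.symm hd.2.2.1) ?_ ?_ ?_
  · simpa [h.orth hb.1] using hc b hb.2.1
  · simpa [h.orth ha.1] using hc a ha.2
  · simpa [h.orth hd.1] using hc d hd.2.1

theorem notMem_span {c : V} {y : ι} (hc : ∀ m, m ≠ y → polar Q (e m) c ≠ 0) (i : ι) :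
    c ∉ Submodule.span F {e i} := fun H => by
  obtain ⟨a, ha⟩ := h.idx [i, y] (by simp)
  simp only [List.mem_cons, List.not_mem_nil, or_false, not_or] at ha
  obtain ⟨s, rfl⟩ := Submodule.mem_span_singleton.1 H
  exact hc a ha.2 (by rw [o_polar_smul_right, h.orth ha.1, mul_zero])

theorem one_zero (hno : ¬ EO Q ≤ M) {c : V} (hc : RR M e c) {y : ι} (hy : polar Q (e y) c = 0) :
    orefl Q c ∈ FS Q e := by
  by_cases H : ∃ l, l ≠ y ∧ polar Q (e l) c = 0
  · obtain ⟨l, h1, h2⟩ := H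
    exact h.two_zero hno hc h1 h2 hy
  push Not at H
  have key : ∀ i, i ≠ y → ∃ l : F, RR M e (e i - l • c) ∧ (orefl Q (e i - l • c)).1 (e i) = l • c :=
    fun i hi => (h.dihR hc (h.notMem_span H i)).resolve_right fun ⟨l, h1, h2⟩ =>
      h.notMem_sub H h1.1 (h.two_zero hno h1 hi h2 (by simp [hy, h.orth hi.symm]))
  obtain ⟨i, hi⟩ := h.idx [y] (by simp)
  obtain ⟨j, hj⟩ := h.idx [y, i] (by simp)
  simp only [List.mem_cons, List.not_mem_nil, or_false, not_or] at hi hj
  obtain ⟨a, a1, a2⟩ := key i hi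
  obtain ⟨b, b1, b2⟩ := key j hj.1
  obtain ⟨w1, w2, w3⟩ := h.odd_pair (Ne.symm hj.2) H a1 a2 b1 b2
  refine (w2 (h.two_lines hno w1 hi w3 (b := y) ?_)).elim
  rw [OG.mul_app, orefl_app_of_polar (v := e j - b • c) (by simp [hy, h.orth (Ne.symm hj.1)]),
    orefl_app_of_polar (by simp [hy, h.orth (Ne.symm hi)])]
  exact Submodule.mem_span_singleton_self _

/-- An element of `M` mapping a point of the frame to a point of the frame stabilises it. -/
theorem st (hno : ¬ EO Q ≤ M) {g : OG Q} (hg : g ∈ M) {a y : ι}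
    (ha : g.1 (e a) ∈ Submodule.span F {e y}) : g ∈ FS Q e := by
  by_contra hgn
  obtain ⟨j, h1, h2, h3⟩ := h.line_aux hno hg hgn ha
  exact h3 (h.one_zero hno h2 (h.co_map ha fun H => h1 y (H ▸ ha)))

theorem st_fix (hno : ¬ EO Q ≤ M) {g : OG Q} (hg : g ∈ M) {a : ι} (ha : g.1 (e a) = e a) :
    g ∈ FS Q e := h.st hno hg (a := a) (y := a) (ha.symm ▸ Submodule.mem_span_singleton_self _)

theorem root (hno : ¬ EO Q ≤ M) {c : V} (hc : RR M e c) : orefl Q c ∈ FS Q e := by
  by_cases H : ∃ l, polar Q (e l) c = 0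
  · obtain ⟨l, h1⟩ := H
    exact h.one_zero hno hc h1
  push Not at H
  obtain ⟨i, -⟩ := h.idx [] (by simp)
  have H' : ∀ m, m ≠ i → polar Q (e m) c ≠ 0 := fun m _ => H m
  have key : ∀ j, ∃ l : F, RR M e (e j - l • c) ∧ (orefl Q (e j - l • c)).1 (e j) = l • c :=
    fun j => (h.dihR hc (h.notMem_span H' j)).resolve_right fun ⟨l, h1, h2⟩ =>
      h.notMem_sub H' h1.1 (h.one_zero hno h1 h2)
  obtain ⟨j, hj⟩ := h.idx [i] (by simp)
  obtain ⟨a, a1, a2⟩ := key i
  obtain ⟨b, b1, b2⟩ := key j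
  obtain ⟨w1, w2, w3⟩ := h.odd_pair (Ne.symm (by simpa using hj)) H' a1 a2 b1 b2
  exact (w2 (h.st hno w1 w3)).elim

theorem of_rr (hno : ¬ EO Q ≤ M) {g : OG Q} (hg : g ∈ M) {a : ι} (ha : RR M e (g.1 (e a))) :
    g ∈ FS Q e := by
  by_contra hgn
  have hr := fun j => h.rr_map hg ha (h.rr_e a) (h.rr_e j)
  have hl := fun j => h.long_of_mem (hr j).1 (h.root hno (hr j)) fun i H => hgn (h.st hno hg H)
  obtain ⟨k, l, s, β, hkl, hs, β0, hβ⟩ := hl a
  obtain ⟨c1, c2, c3⟩ := h.co_long hkl hs β0 hβ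
  obtain ⟨z, hz⟩ := h.idx [k, l] (by simp)
  simp only [List.mem_cons, List.not_mem_nil, or_false, not_or] at hz
  obtain ⟨m, hm⟩ := (h.map hg).exists_co (h.e_ne z)
  rw [polar_comm] at hm
  have hma : a ≠ m := fun H => hm (H ▸ c3 z hz.1 hz.2)
  have h1 : polar Q (e k) (g.1 (e m)) = s * polar Q (e l) (g.1 (e m)) := by
    have := congrArg (polar Q · (g.1 (e m))) hβ
    simp only [oexp, OG.polar_app, h.orth hma] at this
    linear_combination -this
  have h2 : polar Q (e l) (g.1 (e m)) = 0 := by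
    by_contra H
    exact h.notMem_of_three (hr m).1 hkl (Ne.symm hz.1) (Ne.symm hz.2) (by
      rw [h1]; exact mul_ne_zero (by rintro rfl; simp at hs) H) H hm (h.root hno (hr m))
  have rx := h.rr_map hg ha (h.rr_e a) (h.rr_long (by rw [OG.map_app, h.norm]) hkl hs hβ hma)
  rw [map_sub] at rx
  exact h.notMem_of_three rx.1 hkl (Ne.symm hz.1) (Ne.symm hz.2) (by simpa [h1, h2] using c1)
    (by simpa [h2] using c2) (by simpa [c3 z hz.1 hz.2] using hm) (h.root hno rx)

theorem le_of_odd (hno : ¬ EO Q ≤ M) (hodd : Odd (Fintype.card ι)) {g : OG Q} (hg : g ∈ M) :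
    g ∈ FS Q e := by
  have h1 : ∀ x, (OG.negOne Q).1 x = x - ∑ i, ((Q (e i))⁻¹ * polar Q x (e i)) • e i := fun x => by
    have := h.ne
    have := h.two
    have h2 : ∑ i, ((Q (e i))⁻¹ * polar Q x (e i)) • e i = (2 : F) • prS Q e κ Finset.univ x := by
      rw [prS, Finset.smul_sum]
      exact Finset.sum_congr rfl fun i _ => by
        rw [h.norm, polar_comm, smul_smul]; congr 1; field_simp
    rw [h2, h.prS_univ, OG.negOne_app]; module
  have h2 : ∀ i, OG.negOne Q * orefl Q (e i) ∈ M := fun i => by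
    refine h.le _ (mul_mem (h.mem_FS fun j => ⟨j, neg_mem (Submodule.mem_span_singleton_self _)⟩)
      (h.refl_mem i)) ((mem_commutator_OG_iff h.nd (not_oExc_of_two_ne_zero h.two) _).2 ⟨?_, ?_⟩)
    · rw [map_mul, quad_dickson_orth h.nd e (fun i j => h.orth) h.norm_ne _ h1,
        dickson_orefl _ (h.norm_ne i), hodd.neg_one_pow]; simp
    · rw [map_mul, quad_ospin_orth h.nd e (fun i j => h.orth) h.norm_ne _ h1,
        ospin_orefl _ (h.norm_ne i)]
      simp only [h.norm, Finset.prod_const, Finset.card_univ]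
      obtain ⟨k, hk⟩ := hodd
      rw [sqSign_pow h.ne, ← pow_succ, hk, show 2 * k + 1 + 1 = 2 * (k + 1) by ring, pow_mul,
        Int.units_sq, one_pow]
  obtain ⟨a, -⟩ := h.idx [] (by simp)
  refine h.of_rr hno hg (h.rr_of_one (by rw [OG.map_app]; exact h.norm_ne a) (i := a) ?_)
  convert M.mul_mem (h2 a) (M.mul_mem (M.mul_mem hg (h2 a)) (M.inv_mem hg)) using 1
  rw [← mul_assoc g, OG.negOne_comm, mul_assoc _ g, mul_assoc (OG.negOne Q) _ g⁻¹, conj_orefl,
    ← OG.negOne_comm, mul_assoc, ← mul_assoc (OG.negOne Q), OG.negOne_mul_self, one_mul]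

end Fr

variable (Q e) in
/-- The sign change at two coordinates. -/
abbrev dd (i j : ι) : OG Q := orefl Q (e i) * orefl Q (e j)

theorem dd_map (g : OG Q) (i j : ι) : dd Q (fun i => g.1 (e i)) i j = g * dd Q e i j * g⁻¹ := by
  simp only [dd, ← conj_orefl]; group

variable (M e) in
/-- The `M`-conjugates of the sign changes at two coordinates. -/
def IsD (x : OG Q) : Prop := ∃ g ∈ M, ∃ i j, i ≠ j ∧ x = g * dd Q e i j * g⁻¹

theorem IsD.map {x g : OG Q} (h : IsD M e x) (hg : g ∈ M) : IsD M (fun i => g.1 (e i)) x := by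
  obtain ⟨k, hk, i, j, hij, rfl⟩ := h
  exact ⟨k * g⁻¹, M.mul_mem hk (M.inv_mem hg), i, j, hij, by rw [dd_map]; group⟩

theorem IsD.conj {x g : OG Q} (h : IsD M e x) (hg : g ∈ M) : IsD M e (g * x * g⁻¹) := by
  obtain ⟨k, hk, i, j, hij, rfl⟩ := h
  exact ⟨g * k, M.mul_mem hg hk, i, j, hij, by group⟩

namespace Fr

variable (h : Fr M e κ)
include h

theorem dd_app {i j : ι} (hij : i ≠ j) (x : V) : (dd Q e i j).1 x =
    x - (κ⁻¹ * polar Q (e i) x) • e i - (κ⁻¹ * polar Q (e j) x) • e j := by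
  simp only [OG.mul_app, h.refl_app, oexp, h.orth hij]; module

theorem dd_self {i j : ι} (hij : i ≠ j) : dd Q e i j * dd Q e i j = 1 := by
  conv_lhs => arg 2; rw [dd, orefl_comm_of_polar (h.orth hij)]
  simp [mul_assoc, ← mul_assoc (orefl Q (e j))]

theorem dd_FS (i j : ι) : dd Q e i j ∈ FS Q e := mul_mem (h.refl_mem i) (h.refl_mem j)

theorem dd_fix {i j l : ι} (hi : l ≠ i) (hj : l ≠ j) : (dd Q e i j).1 (e l) = e l := by
  rw [OG.mul_app, orefl_app_of_polar (h.orth hj), orefl_app_of_polar (h.orth hi)]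

theorem dd_left {i j : ι} (hij : i ≠ j) : (dd Q e i j).1 (e i) = -e i := by
  rw [OG.mul_app, orefl_app_of_polar (h.orth hij), orefl_app_self (h.norm_ne i)]

theorem exists_neg {i j k l : ι} (H : dd Q e i j * dd Q e k l ≠ 1) :
    ∃ m, (dd Q e i j * dd Q e k l).1 (e m) = -e m := by
  have h1 : ∀ i m, (orefl Q (e i)).1 (e m) = e m ∨ (orefl Q (e i)).1 (e m) = -e m := fun i m => by
    by_cases H : m = i
    · exact .inr (H ▸ orefl_app_self (h.norm_ne m))
    · exact .inl (orefl_app_of_polar (h.orth H))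
  by_contra H'
  push Not at H'
  refine H (h.og_ext fun m => Or.resolve_right ?_ (H' m))
  rcases h1 i m with a | a <;> rcases h1 j m with b | b <;> rcases h1 k m with c | c <;>
    rcases h1 l m with d | d <;> simp [a, b, c, d]

section Pair

variable (hno : ¬ EO Q ≤ M) {g : OG Q} (hg : g ∈ M) (hgn : g ∉ FS Q e)
include hno hg hgn

theorem mix {x : OG Q} (hx : x ∈ FS Q fun i => g.1 (e i)) {a m : ι}
    (ha : polar Q (e a) (g.1 (e m)) ≠ 0) (H : x.1 (g.1 (e m)) = (orefl Q (e a)).1 (g.1 (e m))) :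
    False := by
  obtain ⟨m', s, hs, h1⟩ := (h.map hg).app hx m
  have hβ := mul_ne_zero (inv_ne_zero h.ne) ha
  have h2 : (κ⁻¹ * polar Q (e a) (g.1 (e m))) • e a = g.1 (e m) - s • g.1 (e m') := by
    rw [← h1, H, h.refl_app, sub_sub_cancel]
  by_cases hm : m = m'
  · subst hm
    have h3 : 1 - s ≠ 0 := fun H' => smul_ne_zero hβ (h.e_ne a) (by
      rw [h2, ← sub_eq_zero.1 H']; simp)
    refine hgn (h.st hno hg (a := m) (y := a) ?_)
    rw [← Submodule.smul_mem_iff _ h3, sub_smul, one_smul, ← h2]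
    exact Submodule.smul_mem _ _ (Submodule.mem_span_singleton_self _)
  · have h3 := (h.map hg).long_mem hm hs
    rw [← h2, orefl_smul hβ] at h3
    exact hgn (h.of_rr hno hg (h.rr_of_one ((h.map hg).norm_ne m) ((h.map hg).mem_of_refl h3
      ((h.map hg).refl_mem m) (h.norm_ne a) ((h.map hg).norm_ne m) ⟨κ, by simp [h.norm]⟩)))

theorem three {a b d m : ι} (hab : a ≠ b) (had : a ≠ d) (hbd : b ≠ d)
    (h1 : dd Q e a b ∈ FS Q fun i => g.1 (e i)) (h2 : dd Q e a d ∈ FS Q fun i => g.1 (e i))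
    (h3 : dd Q e b d ∈ FS Q fun i => g.1 (e i)) (ha : polar Q (e a) (g.1 (e m)) ≠ 0) :
    polar Q (e a) (g.1 (e m)) ^ 2 = κ ^ 2 ∧ polar Q (e b) (g.1 (e m)) ^ 2 = κ ^ 2 ∧
      polar Q (e d) (g.1 (e m)) ^ 2 = κ ^ 2 := by
  have hb : polar Q (e b) (g.1 (e m)) ≠ 0 := fun H =>
    h.mix hno hg hgn h1 ha (by rw [h.dd_app hab, h.refl_app, H]; simp)
  have hd : polar Q (e d) (g.1 (e m)) ≠ 0 := fun H =>
    h.mix hno hg hgn h2 ha (by rw [h.dd_app had, h.refl_app, H]; simp)
  have key : ∀ p q r, p ≠ q → r ≠ p → r ≠ q → dd Q e p q ∈ FS Q (fun i => g.1 (e i)) →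
      polar Q (e p) (g.1 (e m)) ≠ 0 → polar Q (e r) (g.1 (e m)) ≠ 0 →
      polar Q (e p) (g.1 (e m)) ^ 2 + polar Q (e q) (g.1 (e m)) ^ 2 = 2 * κ ^ 2 :=
    fun p q r a1 a2 a3 a4 a5 a6 => by
      obtain ⟨m', s, -, hs⟩ := (h.map hg).app a4 m
      rw [h.dd_app a1] at hs
      have := h.ne
      by_cases hm : m = m'
      · subst hm
        have b1 := congrArg (polar Q (e r)) hs
        have b2 := congrArg (polar Q (e p)) hs
        simp only [oexp, h.orth a2, h.orth a3, h.orth a1, h.norm] at b1 b2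
        have : s = 1 := mul_right_cancel₀ a6 (by linear_combination -b1)
        rw [this] at b2
        field_simp at b2
        exact absurd (by linear_combination -b2) (mul_ne_zero (mul_ne_zero a5 h.ne) h.two)
      · have b1 := congrArg (polar Q (g.1 (e m))) hs
        simp only [oexp, OG.polar_app, OG.map_app, h.orth (Ne.symm hm), h.norm,
          polar_comm Q (g.1 (e m))] at b1
        field_simp at b1
        linear_combination -b1
  have k1 := key a b d hab had.symm hbd.symm h1 ha hd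
  have k2 := key a d b had hab.symm hbd h2 ha hb
  have k3 := key b d a hbd hab had h3 hb ha
  exact ⟨mul_left_cancel₀ h.two (by linear_combination k1 + k2 - k3),
    mul_left_cancel₀ h.two (by linear_combination k1 - k2 + k3),
    mul_left_cancel₀ h.two (by linear_combination -k1 + k2 + k3)⟩

theorem dd_mem_map {m a b : ι} (hab : a ≠ b) (ha : polar Q (e a) (g.1 (e m)) = 0)
    (hb : polar Q (e b) (g.1 (e m)) = 0) : dd Q e a b ∈ FS Q fun i => g.1 (e i) :=
  (h.map hg).st_fix hno (h.dd_mem a b) (a := m) (by rw [h.dd_app hab, ha, hb]; simp)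

theorem five {m : ι} (l : List ι) (hl : l.length + 5 ≤ Fintype.card ι)
    (H : ∀ z, z ∉ l → polar Q (e z) (g.1 (e m)) = 0) : False := by
  obtain ⟨a, ha⟩ := exists_idx l (by omega)
  obtain ⟨b, hb⟩ := exists_idx (a :: l) (by simp; omega)
  obtain ⟨c, hc⟩ := exists_idx (b :: a :: l) (by simp; omega)
  obtain ⟨d, hd⟩ := exists_idx (c :: b :: a :: l) (by simp; omega)
  obtain ⟨z, hz⟩ := exists_idx (d :: c :: b :: a :: l) (by simp; omega)
  simp only [List.mem_cons, not_or] at hb hc hd hz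
  have k := fun p q hpq hp hq => h.dd_mem_map hno hg hgn (a := p) (b := q) hpq (H p hp) (H q hq)
  obtain ⟨n, hn⟩ := (h.map hg).exists_co (h.e_ne a)
  rw [polar_comm] at hn
  have ab := Ne.symm hb.1
  have ac := Ne.symm hc.2.1
  have bc := Ne.symm hc.1
  have ad := Ne.symm hd.2.2.1
  have az := Ne.symm hz.2.2.2.1
  have dz := Ne.symm hz.1
  have cd := Ne.symm hd.1
  obtain ⟨t1, t2, t3⟩ := h.three hno hg hgn ab ac bc (k _ _ ab ha hb.2) (k _ _ ac ha hc.2.2)
    (k _ _ bc hb.2 hc.2.2) hn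
  obtain ⟨-, t4, t5⟩ := h.three hno hg hgn ad az dz (k _ _ ad ha hd.2.2.2) (k _ _ az ha hz.2.2.2.2)
    (k _ _ dz hd.2.2.2 hz.2.2.2.2) hn
  obtain ⟨n', s, -, hs⟩ := (h.map hg).app (mul_mem (k _ _ ab ha hb.2) (k _ _ cd hc.2.2 hd.2.2.2)) n
  rw [OG.mul_app, h.dd_app ab, h.dd_app cd] at hs
  have := h.ne
  have z0 : polar Q (e z) (g.1 (e n)) ≠ 0 := fun H => pow_ne_zero 2 this (by rw [← t5, H]; ring)
  by_cases hm : n = n'
  · subst hm
    have b1 := congrArg (polar Q (e z)) hs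
    have b2 := congrArg (polar Q (e a)) hs
    simp only [oexp, h.orth hz.1, h.orth hz.2.1, h.orth hz.2.2.1, h.orth hz.2.2.2.1, h.orth ab,
      h.orth ac, h.orth ad, h.norm] at b1 b2
    have : s = 1 := mul_right_cancel₀ z0 (by linear_combination -b1)
    rw [this] at b2
    field_simp at b2
    exact absurd (by linear_combination -b2)
      (mul_ne_zero (mul_ne_zero hn (pow_ne_zero 2 h.ne)) h.two)
  · have b1 := congrArg (polar Q (g.1 (e n))) hs
    simp only [oexp, OG.polar_app, OG.map_app, h.orth (Ne.symm hm), h.norm,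
      polar_comm Q (g.1 (e n)),
      h.orth ac, h.orth ad, h.orth bc, h.orth (Ne.symm hd.2.1)] at b1
    field_simp at b1
    exact mul_ne_zero h.two (pow_ne_zero 3 this) (by
      linear_combination -b1 - κ * (t1 + t2 + t3 + t4))

theorem no_three (h9 : 9 ≤ Fintype.card ι) {a b d m : ι} (hab : a ≠ b) (had : a ≠ d) (hbd : b ≠ d)
    (ha : polar Q (e a) (g.1 (e m)) = 0) (hb : polar Q (e b) (g.1 (e m)) = 0)
    (hd : polar Q (e d) (g.1 (e m)) = 0) : False := by
  obtain ⟨n, hn⟩ := (h.map hg).exists_co (h.e_ne a)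
  rw [polar_comm] at hn
  obtain ⟨n1, s1, -, h1⟩ := (h.map hg).app (h.dd_mem_map hno hg hgn hab ha hb) n
  obtain ⟨n2, s2, -, h2⟩ := (h.map hg).app (h.dd_mem_map hno hg hgn had ha hd) n
  obtain ⟨n3, s3, -, h3⟩ := (h.map hg).app (h.dd_mem_map hno hg hgn hbd hb hd) n
  rw [h.dd_app hab] at h1
  rw [h.dd_app had] at h2
  rw [h.dd_app hbd] at h3
  have h4 : (2 * (κ⁻¹ * polar Q (e a) (g.1 (e n)))) • e a =
      g.1 (e n) - s1 • g.1 (e n1) - s2 • g.1 (e n2) + s3 • g.1 (e n3) := by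
    rw [← h1, ← h2, ← h3]; module
  refine (h.map hg).five hno (M.inv_mem hg) (fun H => hgn (by simpa using mem_FS_map.1 H)) (m := a)
    [n, n1, n2, n3] (by simp; omega) fun z hz => ?_
  simp only [List.mem_cons, List.not_mem_nil, or_false, not_or] at hz
  have := congrArg (polar Q (g.1 (e z))) h4
  simp only [oexp, OG.polar_app, h.orth hz.1, h.orth hz.2.1, h.orth hz.2.2.1, h.orth hz.2.2.2] at this
  rw [OG.inv_app_app]
  simpa [h.two, h.ne, hn] using this

theorem no_neg (h9 : 9 ≤ Fintype.card ι) {z : OG Q} (l : List ι) (hl : l.length ≤ 4)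
    (H : ∀ a, a ∉ l → z.1 (e a) = e a) {m : ι} : z.1 (g.1 (e m)) ≠ -g.1 (e m) := fun hm => by
  have key : ∀ a, a ∉ l → polar Q (e a) (g.1 (e m)) = 0 := fun a ha => by
    have := OG.polar_app z (e a) (g.1 (e m))
    rw [H a ha, hm, polar_neg_right] at this
    exact (mul_eq_zero.1 (by linear_combination -this)).resolve_left h.two
  obtain ⟨a, ha⟩ := exists_idx l (by omega)
  obtain ⟨b, hb⟩ := exists_idx (a :: l) (by simp; omega)
  obtain ⟨d, hd⟩ := exists_idx (b :: a :: l) (by simp; omega)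
  simp only [List.mem_cons, not_or] at hb hd
  exact h.no_three hno hg hgn h9 hb.1 (Ne.symm hd.1) (Ne.symm hd.2.1) (key b hb.2) (key a ha)
    (key d hd.2.2)

end Pair

variable (hno : ¬ EO Q ≤ M) (h9 : 9 ≤ Fintype.card ι)
include hno h9

theorem of_conj_dd {g : OG Q} (hg : g ∈ M) {i j : ι} (hij : i ≠ j)
    (H : g * dd Q e i j * g⁻¹ ∈ FS Q e) : g ∈ FS Q e := by
  by_contra hgn
  rw [← dd_map] at H
  have hr := finrank_span_pair_le (F := F) (g.1 (e i)) (g.1 (e j))
  have key : ∀ a, (dd Q (fun i => g.1 (e i)) i j).1 (e a) = e a → polar Q (e a) (g.1 (e i)) = 0 :=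
    fun a ha => by
      have := OG.polar_app (dd Q (fun i => g.1 (e i)) i j) (e a) (g.1 (e i))
      rw [ha, (h.map hg).dd_left hij, polar_neg_right] at this
      exact (mul_eq_zero.1 (by linear_combination -this)).resolve_left h.two
  obtain ⟨a, -, ha⟩ := h.exists_fix H (refl_sub_mem _ _) [] (by simp; omega)
  obtain ⟨b, hb, hb'⟩ := h.exists_fix H (refl_sub_mem _ _) [a] (by simp; omega)
  obtain ⟨d, hd, hd'⟩ := h.exists_fix H (refl_sub_mem _ _) [b, a] (by simp; omega)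
  simp only [List.mem_cons, List.not_mem_nil, or_false, not_or] at hb hd
  exact h.no_three hno hg hgn h9 hb (Ne.symm hd.1) (Ne.symm hd.2) (key b hb') (key a ha) (key d hd')

omit hno h9 in
theorem conj_dd {g : OG Q} (hg : g ∈ FS Q e) {i j : ι} (hij : i ≠ j) :
    ∃ a b, ∃ s t : F, a ≠ b ∧ s * s = 1 ∧ t * t = 1 ∧ g.1 (e i) = s • e a ∧ g.1 (e j) = t • e b ∧
      g * dd Q e i j * g⁻¹ = dd Q e a b := by
  obtain ⟨a, s, hs, h1⟩ := h.app hg i
  obtain ⟨b, t, ht, h2⟩ := h.app hg j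
  have s0 : s ≠ 0 := by rintro rfl; simp at hs
  have t0 : t ≠ 0 := by rintro rfl; simp at ht
  refine ⟨a, b, s, t, fun H => ?_, hs, ht, h1, h2, by
    rw [← dd_map]; simp only [dd, h1, h2, orefl_smul s0, orefl_smul t0]⟩
  have := OG.polar_app g (e i) (e j)
  rw [h1, h2, H, o_polar_smul_left, o_polar_smul_right, h.self, h.orth hij] at this
  exact mul_ne_zero s0 (mul_ne_zero t0 h.two_ne) this

theorem eq_dd {x : OG Q} (hx : IsD M e x) (H : x ∈ FS Q e) : ∃ i j, x = dd Q e i j := by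
  obtain ⟨g, hg, i, j, hij, rfl⟩ := hx
  obtain ⟨a, b, -, -, -, -, -, -, -, h1⟩ := h.conj_dd (h.of_conj_dd hno h9 hg hij H) hij
  exact ⟨a, b, h1⟩

theorem mem_of_comm {z : OG Q} (hz : z ∈ M) {i j : ι} (hij : i ≠ j) (H : Commute z (dd Q e i j)) :
    z ∈ FS Q e :=
  h.of_conj_dd hno h9 hz hij (by rw [H.eq, mul_inv_cancel_right]; exact h.dd_FS i j)

theorem eq_dd_mul {z : OG Q} (hz : z ∈ M) {i j : ι} (hij : i ≠ j) (H : Commute z (dd Q e i j))
    (hD : IsD M e (z * dd Q e i j)) : ∃ a b, z = dd Q e a b * dd Q e i j := by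
  obtain ⟨a, b, h1⟩ := h.eq_dd hno h9 hD (mul_mem (h.mem_of_comm hno h9 hz hij H) (h.dd_FS i j))
  exact ⟨a, b, by rw [← h1, mul_assoc, h.dd_self hij, mul_one]⟩

theorem exists_swap {g : OG Q} (hg : g ∈ M) (hgn : g ∉ FS Q e) {i j k l : ι} (hij : i ≠ j)
    (hkl : k ≠ l) : ∃ y ∈ M, y * dd Q e i j * y⁻¹ * dd Q e i j * (y * dd Q e i j * y⁻¹)⁻¹ =
      g * dd Q e k l * g⁻¹ := by
  have := finite_OG (Q := Q)
  have h1 : Subgroup.zpowers (dd Q e i j * dd Q (fun i => g.1 (e i)) k l) ≤ M :=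
    Subgroup.zpowers_le.2 (M.mul_mem (h.dd_mem i j) ((h.map hg).dd_mem k l))
  have d1 : IsD M e (dd Q e i j) := ⟨1, M.one_mem, i, j, hij, by simp⟩
  have d2 : IsD M e (dd Q (fun i => g.1 (e i)) k l) := ⟨g, hg, k, l, hkl, dd_map _ _ _⟩
  rcases dih (h.dd_self hij) ((h.map hg).dd_self hkl) with ⟨y, hy, H⟩ |
    ⟨z, hz, z0, z1, z2, ⟨y, hy, H⟩, ⟨y', hy', H'⟩⟩
  · exact ⟨y, h1 hy, H.trans (dd_map _ _ _)⟩
  obtain ⟨a, b, h2⟩ := h.eq_dd_mul hno h9 (h1 hz) hij z1 (by
    rcases H with H | H <;> rw [H]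
    exacts [d1.conj (h1 hy), d2.conj (h1 hy)])
  obtain ⟨c, d, h3⟩ := (h.map hg).eq_dd_mul hno h9 (h1 hz) hkl z2 (by
    rcases H' with H | H <;> rw [H]
    exacts [(d1.conj (h1 hy')).map hg, (d2.conj (h1 hy')).map hg])
  obtain ⟨m, hm⟩ := (h.map hg).exists_neg (h3 ▸ z0)
  refine (h.no_neg hno hg hgn h9 [a, b, i, j] (by simp) (fun x hx => ?_) (h3 ▸ hm)).elim
  simp only [List.mem_cons, List.not_mem_nil, or_false, not_or] at hx
  rw [h2, OG.mul_app, h.dd_fix hx.2.2.1 hx.2.2.2, h.dd_fix hx.1 hx.2.1]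

theorem le_of_nine {g : OG Q} (hg : g ∈ M) : g ∈ FS Q e := by
  by_contra hgn
  obtain ⟨i, -⟩ := h.idx [] (by simp)
  obtain ⟨j, hj⟩ := h.idx [i] (by simp)
  obtain ⟨k, hk⟩ := h.idx [i, j] (by simp)
  obtain ⟨l, hl⟩ := h.idx [i, j, k] (by simp)
  simp only [List.mem_cons, List.not_mem_nil, or_false, not_or] at hj hk hl
  have hij := Ne.symm hj
  have hkl := Ne.symm hl.2.2
  obtain ⟨y, hy, h1⟩ := h.exists_swap hno h9 hg hgn hij hij
  obtain ⟨y', hy', h2⟩ := h.exists_swap hno h9 hg hgn hkl hij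
  rw [← dd_map y] at h1
  rw [← dd_map y'] at h2
  have hx : dd Q (fun i => y.1 (e i)) i j ∈ M := (h.map hy).dd_mem i j
  have hx' : dd Q (fun i => y'.1 (e i)) k l ∈ M := (h.map hy').dd_mem k l
  have xx := (h.map hy).dd_self hij
  have xx' := (h.map hy').dd_self hkl
  have hP : ∀ v, (dd Q (fun i => y.1 (e i)) i j).1 v - v ∈
    Submodule.span F {y.1 (e i), y.1 (e j)} := refl_sub_mem _ _
  have hP' : ∀ v, (dd Q (fun i => y'.1 (e i)) k l).1 v - v ∈
    Submodule.span F {y'.1 (e k), y'.1 (e l)} := refl_sub_mem _ _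
  have r1 := finrank_span_pair_le (F := F) (y.1 (e i)) (y.1 (e j))
  have r2 := finrank_span_pair_le (F := F) (y'.1 (e k)) (y'.1 (e l))
  have xn : dd Q (fun i => y.1 (e i)) i j ∉ FS Q e := fun H => hgn (h.of_conj_dd hno h9 hg hij
    (h1 ▸ mul_mem (mul_mem H (h.dd_FS i j)) (inv_mem H)))
  have yn : y ∉ FS Q e := fun H => xn (by
    rw [dd_map]; exact mul_mem (mul_mem H (h.dd_FS i j)) (inv_mem H))
  have dx' : IsD M (fun i => y.1 (e i)) (dd Q (fun i => y'.1 (e i)) k l) :=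
    IsD.map ⟨y', hy', k, l, hkl, dd_map _ _ _⟩ hy
  have hdk : dickson h.nd (dd Q (fun i => y.1 (e i)) i j * dd Q (fun i => y'.1 (e i)) k l) = 1 := by
    simp only [map_mul, dickson_orefl h.nd ((h.map hy).norm_ne _),
      dickson_orefl h.nd ((h.map hy').norm_ne _)]
    decide
  set x := dd Q (fun i => y.1 (e i)) i j with hxd
  set x' := dd Q (fun i => y'.1 (e i)) k l
  generalize Submodule.span F {y.1 (e i), y.1 (e j)} = P at *
  generalize Submodule.span F {y'.1 (e k), y'.1 (e l)} = P' at *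
  have xi : x⁻¹ = x := inv_eq_of_mul_eq_one_right xx
  have h3 : x * x' * dd Q e k l * (x * x')⁻¹ = dd Q e i j := by
    rw [mul_inv_rev, mul_assoc x x', mul_assoc x, ← mul_assoc (x' * _), h2, ← h1, xi]
    simp only [← mul_assoc, xx, one_mul]
    rw [mul_assoc, xx, mul_one]
  have hw : x * x' ∈ FS Q e := h.of_conj_dd hno h9 (M.mul_mem hx hx') hkl (h3 ▸ h.dd_FS i j)
  have hU : ∀ v, (x * x').1 v - v ∈ P ⊔ P' := fun v => by
    rw [OG.mul_app, ← sub_add_sub_cancel _ (x'.1 v)]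
    exact Submodule.add_mem_sup (hP _) (hP' _)
  have r3 := Submodule.finrank_sup_add_finrank_inf_eq P P'
  obtain ⟨a, -, ha⟩ := h.exists_fix hw hU [] (by simp; omega)
  have h4 : x'.1 (e a) = x.1 (e a) := by
    rw [OG.mul_app] at ha
    rw [← xi, eq_comm, OG.inv_app_eq_iff, ha]
  have r4 : P ⊓ P' ≠ ⊥ := fun H => xn (h.st_fix hno hx (a := a) (sub_eq_zero.1
    ((Submodule.mem_bot F).1 (H ▸ (⟨hP _, h4 ▸ hP' _⟩ : x.1 (e a) - e a ∈ P ⊓ P')))))
  have r5 := Submodule.one_le_finrank_iff.2 r4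
  have r6 : finrank F (ocomm (x * x')) ≤ finrank F ↥(P ⊔ P') :=
    Submodule.finrank_mono fun v hv => by obtain ⟨z, rfl⟩ := mem_ocomm.1 hv; exact hU z
  obtain ⟨n, hn⟩ := (dickson_eq_one_iff h.nd _).1 hdk
  change finrank F (ocomm (x * x')) = _ at hn
  obtain ⟨p, q, s, t, hpq, hs, ht, w1, w2, h5⟩ := h.conj_dd hw hkl
  rw [h3] at h5
  have h6 : ∀ r, r = p ∨ r = q → r ≠ k ∧ r ≠ l := fun r hr => by
    have a1 : (dd Q e i j).1 (e r) = -e r := by
      rw [h5]
      rcases hr with rfl | rfl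
      · exact h.dd_left hpq
      · rw [dd, orefl_comm_of_polar (h.orth hpq)]; exact h.dd_left hpq.symm
    have a2 : ∀ r, r ≠ i → r ≠ j → (dd Q e i j).1 (e r) ≠ -e r := fun r b1 b2 H => by
      rw [h.dd_fix b1 b2, eq_neg_iff_add_eq_zero, ← two_smul F] at H
      exact smul_ne_zero h.two (h.e_ne r) H
    exact ⟨fun H => a2 k hk.1 hk.2 (H ▸ a1), fun H => a2 l hl.1 hl.2.1 (H ▸ a1)⟩
  obtain ⟨pk, pl⟩ := h6 p (.inl rfl)
  obtain ⟨qk, ql⟩ := h6 q (.inr rfl)
  have h7 : Submodule.span F {s • e p - e k, t • e q - e l} = ocomm (x * x') :=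
    Submodule.eq_of_le_of_finrank_le (span_two_le (w1 ▸ sub_mem_ocomm _ _) (w2 ▸ sub_mem_ocomm _ _))
      (by
        rw [finrank_span_two (o_ne_zero_of_polar_right (Q := Q) (x := e k) (by
          simp only [oexp, h.orth pk.symm, h.norm]; simpa using ⟨h.two, h.ne⟩)) fun H => ?_]
        · omega
        obtain ⟨c, hc⟩ := Submodule.mem_span_singleton.1 H
        have := congrArg (polar Q (e l)) hc
        simp only [oexp, h.orth pl.symm, h.orth ql.symm, h.orth hkl.symm, h.norm] at this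
        exact h.two_ne (by linear_combination this))
  have h8 : ∀ v, polar Q (s • e p - e k) v = 0 → polar Q (t • e q - e l) v = 0 →
      (x * x').1 v = v := fun v a1 a2 => by
    rw [← mem_ofix, ← operp_ocomm h.nd, ← h7]; exact mem_operp_two.2 ⟨a1, a2⟩
  have h9' : ∀ r, r ∉ [p, q, k, l] → (x * x').1 (e r) = e r := fun r hr => by
    simp only [List.mem_cons, List.not_mem_nil, or_false, not_or] at hr
    apply h8 <;> simp only [oexp, h.orth (Ne.symm hr.1), h.orth (Ne.symm hr.2.1),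
      h.orth (Ne.symm hr.2.2.1), h.orth (Ne.symm hr.2.2.2)] <;> ring
  have w3 : (x * x').1 (s • e p) = e k := by
    have := h8 (e k + s • e p) (by
      simp only [oexp, h.orth pk, h.orth pk.symm, h.norm]; linear_combination 2 * κ * hs)
      (by simp only [oexp, h.orth qk, h.orth hpq.symm, h.orth hkl.symm, h.orth pl.symm]; ring)
    rwa [map_add, w1, add_comm, add_left_inj] at this
  have w4 : (x * x').1 (t • e q) = e l := by
    have := h8 (e l + t • e q)
      (by simp only [oexp, h.orth pl, h.orth hpq, h.orth hkl, h.orth qk.symm]; ring) (by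
      simp only [oexp, h.orth ql, h.orth ql.symm, h.norm]; linear_combination 2 * κ * ht)
    rwa [map_add, w2, add_comm, add_left_inj] at this
  have ww : x * x' * (x * x') = 1 := h.og_ext fun r => by
    rw [OG.mul_app, OG.one_app]
    by_cases H : r ∈ [p, q, k, l]
    · simp only [List.mem_cons, List.not_mem_nil, or_false] at H
      rcases H with rfl | rfl | rfl | rfl
      · rw [show e r = s • s • e r by rw [smul_smul, hs, one_smul], map_smul, w3, map_smul, w1]
      · rw [show e r = t • t • e r by rw [smul_smul, ht, one_smul], map_smul, w4, map_smul, w2]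
      · rw [w1, w3]
      · rw [w2, w4]
    · rw [h9' r H, h9' r H]
  have hc : Commute x' x := by
    have := inv_eq_of_mul_eq_one_right ww
    rwa [mul_inv_rev, xi, inv_eq_of_mul_eq_one_right xx'] at this
  obtain ⟨c, d, h10⟩ := (h.map hy).eq_dd hno h9 dx' ((h.map hy).mem_of_comm hno h9 hx' hij hc)
  obtain ⟨m, hm⟩ := (h.map hy).exists_neg (i := i) (j := j) (k := c) (l := d) fun H => by
    rw [← h10] at H
    have := congrArg (polar Q (e k)) w1
    rw [show x * x' = 1 from H, OG.one_app, h.self, o_polar_smul_right, h.orth pk.symm,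
      mul_zero] at this
    exact h.two_ne this
  exact h.no_neg hno hy yn h9 [p, q, k, l] (by simp) h9' (h10 ▸ hm)

end Fr

/-- **Frames over a prime field.** -/
theorem omax_frame (hQ : (polarBilin Q).Nondegenerate) (h2 : (2 : F) ≠ 0)
    (hp : (Nat.card F).Prime) {D : ι → Submodule F V} (hD : ODec Q D)
    (hiso : ∀ i j, ∃ e : D i ≃ₗ[F] D j, ∀ x : D i, Q (e x : V) = Q (x : V))
    (hk : ∀ i, finrank F (D i) = 1) (h7 : 7 ≤ Fintype.card ι) (h8 : Fintype.card ι ≠ 8) :
    OMax (dstab Q D) := by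
  obtain ⟨i₀⟩ : Nonempty ι := Fintype.card_pos_iff.1 (by omega)
  obtain ⟨v, hv, hv0⟩ := (hD.nd i₀).exists_nonsingular (ne_bot_of_finrank (hk i₀).ge)
  choose φ hφ using hiso i₀
  let e : ι → V := fun i => φ i ⟨v, hv⟩
  have he : ∀ i, Q (e i) = Q v := fun i => hφ i _
  have hD' : D = fun i => Submodule.span F {e i} := funext fun i =>
    (Submodule.eq_of_le_of_finrank_eq (span_one_le (φ i _).2) (by
      rw [finrank_span_singleton (o_ne_zero_of_norm (by rwa [he])), hk])).symm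
  have horth : ∀ {i j}, i ≠ j → polar Q (e i) (e j) = 0 := fun hij =>
    hD.orth _ _ hij _ (φ _ _).2 _ (φ _ _).2
  have hn : 5 ≤ finrank F V := by
    have := (show LinearIndependent F e from LinearMap.linearIndependent_of_isOrthoᵢ
      (B := polarBilin Q) (fun i j hij => horth hij) fun i H => mul_ne_zero h2 hv0 (by
        rw [← he i, ← o_polar_self]; exact H)).fintype_card_le_finrank
    omega
  have hFr : ∀ M : Subgroup (OG Q), dstab Q D ⊓ commutator (OG Q) ≤ M → Fr M e (Q v) := fun M hM =>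
    { ne := hv0
      two := h2
      norm := he
      orth := horth
      sep := fun x hx => by
        by_contra H
        obtain ⟨i, hi⟩ := hD.exists_pr_ne_zero H
        refine hi (hD.pr_eq_zero_iff.2 fun y hy => ?_)
        rw [hD'] at hy
        obtain ⟨s, rfl⟩ := Submodule.mem_span_singleton.1 hy
        rw [o_polar_smul_left, hx, mul_zero]
      nd := hQ
      card := h7
      dim := hn
      prime := fun t => by
        have := Fact.mk hp
        obtain ⟨k, hk⟩ := (AddSubmonoid.mem_multiples_iff _ _).1 (mem_multiples_iff_mem_zmultiples.2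
          (mem_zmultiples_of_prime_card rfl (one_ne_zero (α := F)) : t ∈ _))
        exact ⟨k, by simpa using hk.symm⟩
      le := fun g hg hg' => hM ⟨hD' ▸ hg, hg'⟩ }
  refine ⟨?_, fun M hM _ g hgM hgD => ?_⟩
  · have h := hFr ⊤ le_top
    obtain ⟨a, ha⟩ := h.idx [i₀] (by simp)
    obtain ⟨b, hb⟩ := h.idx [i₀, a] (by simp)
    obtain ⟨c, hc⟩ := h.idx [i₀, a, b] (by simp)
    simp only [List.mem_cons, List.not_mem_nil, or_false, not_or] at ha hb hc
    obtain ⟨u, hu, hu0, hq⟩ := exists_singular_mem (Q := Q)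
      (h.nd_three hb.2 (h.norm_ne c) (h.orth (Ne.symm hc.2.2)) (h.orth (Ne.symm hc.2.1))).2.ge
    have h1 : polar Q (e i₀) u = 0 := by
      obtain ⟨s, t, r, rfl⟩ := Fr.mem_three hu
      simp only [oexp, h.orth (Ne.symm ha), h.orth (Ne.symm hb.1), h.orth (Ne.symm hc.1)]; ring
    refine ⟨_, eich_mem_omega hQ hn u (e i₀), fun H => ?_⟩
    obtain ⟨j, s, -, hs⟩ := h.app (hD' ▸ H) i₀
    rw [eich_app_of_polar_left hq (by rwa [polar_comm]) h1, h.self] at hs
    by_cases H' : j = i₀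
    · have := congrArg Q hs
      subst H'
      have a1 := congrArg (polar Q (e j)) hs
      simp only [oexp, h1, he] at a1
      have : s = 1 := mul_right_cancel₀ h.two_ne (by linear_combination -a1)
      rw [this, one_smul, sub_eq_self] at hs
      exact smul_ne_zero h.two_ne hu0 hs
    · have a1 := congrArg (polar Q (e i₀)) hs
      simp only [oexp, h1, he, h.orth (Ne.symm H')] at a1
      exact h.two_ne (by linear_combination a1)
  rw [omega_eq hQ hn]
  by_contra hno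
  rw [hD'] at hgD
  by_cases h9 : 9 ≤ Fintype.card ι
  · exact hgD ((hFr M hM).le_of_nine hno h9 hgM)
  · exact hgD ((hFr M hM).le_of_odd hno ⟨3, by omega⟩ hgM)

end Cfsg.Agent.Cl.MaxO
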