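import Mathlib
import Cfsg.Agent.Cl.MaxOFrB
import Cfsg.Agent.Cl.MaxOND

/-!
# Growing a subspace whose Eichler transformations lie in `M`

`EE M S`: all Eichler transformations of `S` lie in `M`.  A reflection product `r_b r_c ∈ M`
with `b ∈ S` and `c` neither in `S` nor orthogonal to it enlarges `S`.
-/

set_option autoImplicit false
set_option linter.unusedSectionVars false
set_option linter.unusedVariables false

namespace Cfsg.Agent.Cl.MaxO

open Module QuadraticMap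

variable {F V : Type*} [Field F] [AddCommGroup V] [Module F V] {Q : QuadraticForm F V}
  [FiniteDimensional F V] [Finite F] {M : Subgroup (OG Q)}

variable (M) in
/-- The roots of `M` relative to `b`. -/
def Rt (b c : V) : Prop := Cls Q (Q b) c ∧ orefl Q b * orefl Q c ∈ M

variable (M) in
/-- All Eichler transformations of `S` lie in `M`. -/
def EE (S : Submodule F V) : Prop := ∀ x ∈ S, ∀ y ∈ S, eich Q x y ∈ M

theorem Rt.ne {b c : V} (h : Rt M b c) : Q c ≠ 0 := h.1.1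

theorem Rt.refl {b c d : V} (hc : Rt M b c) (hd : Rt M b d) : Rt M b ((orefl Q c).1 d) :=
  ⟨hd.1.map _, refl_refl hc.2 hd.2⟩

theorem Rt.mul {b c d : V} (hc : Rt M b c) (hd : Rt M b d) : orefl Q c * orefl Q d ∈ M :=
  refl_trans hc.2 hd.2

theorem Cls.smul {γ : F} {c : V} (h : Cls Q γ c) {s : F} (hs : s ≠ 0) : Cls Q γ (s • c) := by
  obtain ⟨h1, r, hr⟩ := h
  exact ⟨by rw [o_qsmul]; exact mul_ne_zero (pow_ne_zero _ hs) h1,
    s * r, by rw [o_qsmul]; linear_combination s ^ 2 * hr⟩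

theorem Rt.smul {b c : V} (hc : Rt M b c) {s : F} (hs : s ≠ 0) : Rt M b (s • c) :=
  ⟨hc.1.smul hs, by rw [orefl_smul hs]; exact hc.2⟩

theorem Rt.map {b c x : V} {g : OG Q} (hc : Rt M b c) (hg : g ∈ M) (hx : Rt M b x)
    (hgx : Rt M b (g.1 x)) : Rt M b (g.1 c) :=
  ⟨hc.1.map g, by
    simpa [mul_assoc, ← mul_assoc (orefl Q (g.1 x))] using
      M.mul_mem hgx.2 (conj_refl_mem hg (hx.mul hc))⟩

theorem rt_self {b : V} (hb : Q b ≠ 0) : Rt M b b :=
  ⟨cls_self hb, by rw [orefl_mul_self]; exact M.one_mem⟩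

theorem add_sq_mem {A : AddSubgroup V} (h2 : (2 : F) ≠ 0) {u : V}
    (h : ∀ t : F, t ≠ 0 → t ^ 2 • u ∈ A) (t : F) : t • u ∈ A := by
  have k : ∀ t : F, t ^ 2 • u ∈ A := fun t => by
    by_cases ht : t = 0
    · simp [ht]
    · exact h t ht
  have := A.sub_mem (k ((t + 1) / 2)) (k ((t - 1) / 2))
  convert this using 1
  rw [← sub_smul]; congr 1; field_simp; ring

section Step

variable (h2 : (2 : F) ≠ 0) {S : Submodule F V} (hS : ND Q S) (h3 : 3 ≤ finrank F S)
  (hE : EE M S)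
include h2 hS h3 hE

theorem rt_of_EE {b c : V} (hb : b ∈ S) (hb0 : Q b ≠ 0) (hc : c ∈ S) (h : Cls Q (Q b) c) :
    Rt M b c :=
  ⟨h, refl_of_eich h2 hS h3 hE hb hc hb0 h.1 (by rw [mul_comm]; exact h.2)⟩

theorem exists_trans {w w' : V} (hw : w ∈ S) (hw' : w' ∈ S) (h0 : Q w ≠ 0) (h : Q w' = Q w) :
    ∃ g ∈ M, g.1 w = w' ∧ (∀ y ∈ S, g.1 y ∈ S) ∧
      ∀ z, (∀ y ∈ S, polar Q y z = 0) → g.1 z = z := by
  have key : ∀ a ∈ S, ∀ b ∈ S, (∀ y ∈ S, (orefl Q a * orefl Q b).1 y ∈ S) ∧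
      ∀ z, (∀ y ∈ S, polar Q y z = 0) → (orefl Q a * orefl Q b).1 z = z := fun a ha b hb =>
    ⟨fun y hy => by
      have := S.add_mem (span_two_le ha hb (refl_sub_mem (Q := Q) a b y)) hy
      rwa [sub_add_cancel] at this, fun z hz => by
      rw [OG.mul_app, orefl_app_of_polar (v := b) (by rw [polar_comm]; exact hz b hb),
        orefl_app_of_polar (by rw [polar_comm]; exact hz a ha)]⟩
  by_cases hd : Q (w - w') = 0
  · have hp : Q (w + w') = 4 * Q w := by
      simp only [oexp, h] at hd ⊢; linear_combination -hd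
    have hp0 : Q (w + w') ≠ 0 := by rw [hp]; exact mul_ne_zero (L2.four_ne_zero_of_two h2) h0
    refine ⟨_, refl_of_eich h2 hS h3 hE hw' (S.add_mem hw hw') (by rwa [h]) hp0
      ⟨2 * Q w, by rw [hp, h]; ring⟩, ?_, key _ hw' _ (S.add_mem hw hw')⟩
    rw [OG.mul_app, orefl_app_of_diff hp0 (by simp only [oexp, h]; ring), sub_add_cancel_left,
      map_neg, orefl_app_self (by rwa [h]), neg_neg]
  · have hT := nd_span_one h2 h0
    have h4 := hT.finrank_inf_perp (span_one_le hw)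
    have h5 := finrank_span_one_le (F := F) w
    obtain ⟨y, hy, h6⟩ := (hS.inf_perp hT (span_one_le hw)).exists_eq (by omega) (Q (w - w'))
    refine ⟨_, refl_of_eich h2 hS h3 hE (S.sub_mem hw hw') hy.1 hd (by rwa [h6])
      ⟨_, by rw [h6]⟩, ?_, key _ (S.sub_mem hw hw') _ hy.1⟩
    rw [OG.mul_app, orefl_app_of_polar (mem_operp_one.1 hy.2),
      orefl_app_of_diff hd (by simp only [oexp, h]; ring), sub_sub_cancel]

theorem rt_move {b w w' u : V} (hb : b ∈ S) (hb0 : Q b ≠ 0) (hw : w ∈ S) (hw' : w' ∈ S)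
    (h0 : Q w ≠ 0) (h : Q w' = Q w) (hu : ∀ y ∈ S, polar Q y u = 0) (hc : Rt M b (w + u)) :
    Rt M b (w' + u) := by
  obtain ⟨g, hg, g1, g2, g3⟩ := exists_trans h2 hS h3 hE hw hw' h0 h
  have := hc.map hg (rt_self hb0) (rt_of_EE h2 hS h3 hE hb hb0 (g2 b hb) ((cls_self hb0).map g))
  rwa [map_add, g1, g3 u hu] at this

theorem otor_mem {s s' : V} (hs : s ∈ S) (hs' : s' ∈ S) (hq : Q s = 0) (hq' : Q s' = 0)
    (h1 : polar Q s s' = 1) {t : F} (ht : t ≠ 0) : otor Q s s' (t ^ 2) ∈ M :=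
  refl_of_eich h2 hS h3 hE (S.add_mem hs hs') (S.add_mem hs (S.smul_mem _ hs'))
    (by simp [oexp, hq, hq', h1]) (by simp [oexp, hq, hq', h1, ht])
    ⟨t, by simp only [oexp, hq, hq', h1]; ring⟩

/-- From one vector to a larger subspace. -/
theorem ee_sup {s u : V} (hs : s ∈ S) (hs0 : s ≠ 0) (hq : Q s = 0) (hu0 : Q u ≠ 0)
    (hu : ∀ y ∈ S, polar Q y u = 0) {l : F} (hl : l ≠ 0) (h : l • u ∈ EA M hq) :
    EE M (S ⊔ Submodule.span F {u}) := by
  obtain ⟨s', hs', hq', h1⟩ := hS.exists_partner hs hs0 hq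
  have k1 : ∀ t : F, t • u ∈ EA M hq := fun t => by
    have := add_sq_mem (A := EA M hq) h2 (u := l • u) (fun t ht => by
      have := EA_scale (otor_mem h2 hS h3 hE hs hs' hq hq' h1 ht) (pow_ne_zero 2 ht)
        (otor_left hq hq' h1 (pow_ne_zero 2 ht)) h
      rwa [otor_perp _ (by rw [o_polar_smul_right, hu s hs, mul_zero])
        (by rw [o_polar_smul_right, hu s' hs', mul_zero])] at this) (t / l)
    rwa [smul_smul, div_mul_cancel₀ _ hl] at this
  obtain ⟨z, hz, h4, h5⟩ := exists_nonsingular_perp_mem hS h3 s'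
  have hg := hE s' hs' z hz
  have hgs : (eich Q s' z).1 s ∈ S := by
    simpa using S.add_mem (eich_app_sub_mem (Q := Q) hs' hz s) hs
  have hq2 : Q ((eich Q s' z).1 s) = 0 := by rw [OG.map_app, hq]
  have k2 : ∀ t : F, t • u ∈ EA M hq2 := fun t => by
    have := EA_map hq2 hg rfl (k1 t)
    rwa [eich_app_of_polar (x := t • u) (by rw [polar_comm, o_polar_smul_right, hu s' hs', mul_zero])
      (by rw [polar_comm, o_polar_smul_right, hu z hz, mul_zero])] at this
  have key : ∀ x ∈ S, ∀ hx : Q x = 0, (∀ t : F, t • u ∈ EA M hx) →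
      ∀ v ∈ S ⊔ Submodule.span F {u}, polar Q x v = 0 → v ∈ EA M hx := fun x hx hxq H v hv h0 => by
    obtain ⟨a, ha, c, hc, rfl⟩ := Submodule.mem_sup.1 hv
    obtain ⟨t, rfl⟩ := Submodule.mem_span_singleton.1 hc
    rw [polar_add_right, o_polar_smul_right, hu x hx, mul_zero, add_zero] at h0
    exact (EA M hxq).add_mem ⟨h0, hE x hx a ha⟩ (H t)
  intro y hy v hv
  exact eich_mem_of_pair (hS.sup (nd_span_one h2 hu0) fun x hx y hy => by
      obtain ⟨t, rfl⟩ := Submodule.mem_span_singleton.1 hy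
      rw [o_polar_smul_right, hu x hx, mul_zero])
    (Submodule.mem_sup_left hs) (Submodule.mem_sup_left hgs) hq hq2
    (by rw [polar_eich_partner hq hq' h1 h5]; exact neg_ne_zero.2 h4) (key s hs hq k1)
    (key _ hgs hq2 k2) hy hv

theorem ee_of_diff {b w u s : V} (hw : w ∈ S) (hs : s ∈ S) (hs0 : s ≠ 0) (hq : Q s = 0)
    (hws : polar Q s w = 0) (hu0 : Q u ≠ 0) (hu : ∀ y ∈ S, polar Q y u = 0)
    (hc : Rt M b (w + u)) (hc' : Rt M b (w + u + s)) : EE M (S ⊔ Submodule.span F {u}) := by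
  have h1 := mem_EA_of_refl hq hc.ne (by rw [polar_add_right, hws, hu s hs, add_zero]) (hc.mul hc')
  have h4 := (EA M hq).sub_mem h1 (show (Q (w + u))⁻¹ • w ∈ EA M hq from
    ⟨by rw [o_polar_smul_right, hws, mul_zero], hE s hs _ (S.smul_mem _ hw)⟩)
  rw [smul_add, add_sub_cancel_left] at h4
  exact ee_sup h2 hS h3 hE hs hs0 hq hu0 hu (inv_ne_zero hc.ne) h4

theorem ee_of_sing (hq5 : Nat.card F ≠ 3) {b w u : V} (hb : b ∈ S) (hb0 : Q b ≠ 0) (hw : w ∈ S)
    (hw0 : w ≠ 0) (hq : Q w = 0) (hu0 : Q u ≠ 0) (hu : ∀ y ∈ S, polar Q y u = 0)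
    (hc : Rt M b (w + u)) : EE M (S ⊔ Submodule.span F {u}) := by
  obtain ⟨s', hs', hq', h1⟩ := hS.exists_partner hw hw0 hq
  obtain ⟨t, ht0, ht⟩ := o_exists_sq_ne_one (F := F) (by have := card_cases h2 hq5; omega)
  have hg := otor_mem h2 hS h3 hE hw hs' hq hq' h1 ht0
  have hgb : (otor Q w s' (t ^ 2)).1 b ∈ S := by
    have := S.add_mem (span_two_le (S.add_mem hw hs') (S.add_mem hw (S.smul_mem (t ^ 2) hs'))
      (refl_sub_mem (Q := Q) _ _ b)) hb
    rwa [sub_add_cancel] at this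
  have h4 := hc.map hg (rt_self hb0) (rt_of_EE h2 hS h3 hE hb hb0 hgb ((cls_self hb0).map _))
  rw [map_add, otor_left hq hq' h1 (pow_ne_zero 2 ht0), otor_perp _ (hu w hw) (hu s' hs')] at h4
  refine ee_of_diff h2 hS h3 hE hw (S.smul_mem (t ^ 2 - 1) hw)
    (smul_ne_zero (sub_ne_zero.2 ht) hw0) (by rw [o_qsmul, hq, mul_zero])
    (by simp [oexp, hq]) hu0 hu hc ?_
  convert h4 using 1; module

/-- A mixed root enlarges the subspace. -/
theorem grow_step (hq5 : Nat.card F ≠ 3) {b w u : V} (hb : b ∈ S) (hb0 : Q b ≠ 0) (hw : w ∈ S)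
    (hw0 : w ≠ 0) (hu0 : Q u ≠ 0) (hu : ∀ y ∈ S, polar Q y u = 0) (hc : Rt M b (w + u)) :
    EE M (S ⊔ Submodule.span F {u}) := by
  by_cases hq : Q w = 0
  · exact ee_of_sing h2 hS h3 hE hq5 hb hb0 hw hw0 hq hu0 hu hc
  have hc0 := hc.ne
  have hκ : Q (w + u) = Q w + Q u := by rw [o_qadd, hu w hw, add_zero]
  obtain ⟨s, hs, hs0, hsq⟩ := exists_singular_mem (Q := Q) h3
  obtain ⟨e, he, he0, hse⟩ := exists_nonsingular_perp_mem hS h3 s
  have heu := hu e he
  have hue : u ∉ Submodule.span F {e} := fun H => by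
    obtain ⟨t, rfl⟩ := Submodule.mem_span_singleton.1 H
    simp only [oexp] at heu hu0
    exact hu0 (by rw [(mul_eq_zero.1 heu).resolve_right (mul_ne_zero h2 he0)]; ring)
  obtain ⟨v, hv, ⟨v0, r, hr⟩, hve⟩ := exists_cls_notMem (U := Submodule.span F {e, u})
    (nd_span_pair (by
      rw [heu]; exact fun H => mul_ne_zero (mul_ne_zero (L2.four_ne_zero_of_two h2) he0) hu0
        (by linear_combination -H)))
    (.inr ⟨finrank_span_two (o_ne_zero_of_norm he0) hue, hq5,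
      fun H => absurd (two_eq_zero_of_card H) h2⟩) hc0 (mem_span_two_right _ _) hue
  obtain ⟨y₀, x₀, rfl⟩ := Submodule.mem_span_pair.1 hv
  have x0 : x₀ ≠ 0 := fun H => hve (by
    rw [H, zero_smul, add_zero]; exact Submodule.smul_mem _ _ (Submodule.mem_span_singleton_self _))
  have r0 : r ≠ 0 := fun H => mul_ne_zero v0 hc0 (by rw [hr, H, mul_zero])
  simp only [o_qadd Q (y₀ • e), o_qsmul, o_polar_smul_left, o_polar_smul_right, heu] at hr
  obtain ⟨x, y, hx0, hx1, hx2, hxy⟩ : ∃ x y : F, x ≠ 0 ∧ x ≠ -1 ∧ x ≠ 2 ∧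
      y ^ 2 * Q e + x ^ 2 * Q u = Q (w + u) := by
    have k : (y₀ * Q (w + u) / r) ^ 2 * Q e + (x₀ * Q (w + u) / r) ^ 2 * Q u = Q (w + u) := by
      field_simp; linear_combination hr
    have k0 : x₀ * Q (w + u) / r ≠ 0 := div_ne_zero (mul_ne_zero x0 hc0) r0
    generalize x₀ * Q (w + u) / r = x at k k0
    by_cases H : x = -1 ∨ x = 2
    · refine ⟨-x, _, neg_ne_zero.2 k0, ?_, ?_, (neg_sq x).symm ▸ k⟩
      · rcases H with H | H <;> rw [H] <;> intro H'
        · exact h2 (by linear_combination H')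
        · exact one_ne_zero (by linear_combination -H')
      · rcases H with H | H <;> rw [H] <;> intro H'
        · exact one_ne_zero (by linear_combination -H')
        · exact L2.four_ne_zero_of_two h2 (by linear_combination -H')
    · push Not at H
      exact ⟨x, _, k0, H.1, H.2, k⟩
  obtain ⟨d, hd, d1, d2⟩ := exists_diff hS h3 h2 hw hq ((x + 1) * Q (w + u))
  have h4 := hc.refl (rt_move h2 hS h3 hE hb hb0 hw (S.sub_mem hw hd) hq
    (by simp only [oexp, d1, d2]; ring) hu hc)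
  have h5 : (orefl Q (w + u)).1 (w - d + u) = (x • w - d) + x • u := by
    have : (Q (w + u))⁻¹ * polar Q (w - d + u) (w + u) = 1 - x := by
      rw [inv_mul_eq_iff_eq_mul₀ hc0]
      simp only [polar_add_left, polar_add_right, polar_sub_left, o_polar_self, hu w hw,
        polar_comm Q u w, polar_comm Q d w, d2, hu d hd, hκ]
      ring
    rw [orefl_app, this]; module
  rw [h5] at h4
  have hw2 : x • w - d ∈ S := S.sub_mem (S.smul_mem _ hw) hd
  have hu' : ∀ z ∈ S, polar Q z (x • u) = 0 := fun z hz => by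
    rw [o_polar_smul_right, hu z hz, mul_zero]
  have hu0' : Q (x • u) ≠ 0 := by rw [o_qsmul]; exact mul_ne_zero (pow_ne_zero 2 hx0) hu0
  have hN : Q (x • w - d) = y ^ 2 * Q e := by
    rw [hκ] at hxy; simp only [oexp, d1, d2, hu w hw]; linear_combination -hxy
  rw [← Submodule.span_singleton_smul_eq (IsUnit.mk0 x hx0) u]
  by_cases hy : y = 0
  · refine ee_of_sing h2 hS h3 hE hq5 hb hb0 hw2 (fun H => ?_) (by rw [hN, hy]; ring) hu0' hu' h4
    rw [sub_eq_zero] at H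
    rw [← H] at d1 d2
    simp only [oexp] at d1 d2
    have : x * (x - 2) * Q w = 0 := by linear_combination d1 - d2
    exact mul_ne_zero (mul_ne_zero hx0 (sub_ne_zero.2 hx2)) hq this
  have hN0 : Q (x • w - d) ≠ 0 := by rw [hN]; exact mul_ne_zero (pow_ne_zero 2 hy) he0
  refine ee_of_diff h2 hS h3 hE (S.smul_mem y he) hs hs0 hsq (by simp [oexp, hse]) hu0' hu'
    (rt_move h2 hS h3 hE hb hb0 hw2 (S.smul_mem y he) hN0 (by rw [hN, o_qsmul]) hu' h4) ?_
  have := rt_move h2 hS h3 hE hb hb0 hw2 (S.add_mem (S.smul_mem y he) hs) hN0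
    (by rw [hN]; simp [oexp, hsq, polar_comm Q e s, hse]) hu' h4
  convert this using 1; abel

theorem sing_step {b w u : V} (hb : b ∈ S) (hb0 : Q b ≠ 0) (hw : w ∈ S) (hw0 : w ≠ 0)
    (hq : Q u = 0) (hu : ∀ y ∈ S, polar Q y u = 0) (hc : Rt M b (w + u)) :
    ∀ y ∈ S, y ∈ EA M hq := by
  have h1 : Q w = Q (w + u) := by rw [o_qadd, hu w hw, hq]; ring
  have hr := rt_of_EE h2 hS h3 hE hb hb0 hw (hc.1.of_eq h1)
  obtain ⟨y, hy, hwy⟩ := hS.exists_polar_ne hw hw0
  exact le_EA_of_three hS h3 hE hq (fun y hy => by rw [polar_comm]; exact hu y hy)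
    (mem_EA_of_refl hq hr.ne (by rw [polar_comm]; exact hu w hw) (hr.mul hc)) hy
    (by rw [o_polar_smul_left]; exact mul_ne_zero (inv_ne_zero hr.ne) hwy)

end Step

theorem EO_le_of_EE (h : EE M ⊤) : EO Q ≤ M := EO_le_iff.2 fun u v _ _ => h u trivial v trivial

/-- The growing argument. -/
theorem grow (hQ : (polarBilin Q).Nondegenerate) (h2 : (2 : F) ≠ 0) (hq5 : Nat.card F ≠ 3)
    {S₀ : Submodule F V} (hS₀ : ND Q S₀) (h3 : 3 ≤ finrank F S₀) (hE₀ : EE M S₀) {b : V}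
    (hb : b ∈ S₀) (hb0 : Q b ≠ 0) (hsp : ∀ u, u ≠ 0 → ∃ d, Rt M b d ∧ polar Q d u ≠ 0)
    (hmix : ∀ S, S₀ ≤ S → ND Q S → EE M S → S ≠ ⊤ → ∃ c, Rt M b c ∧ c ∉ S ∧ c ∉ operp Q S) :
    EO Q ≤ M := by
  obtain ⟨S, ⟨hle, hS, hE⟩, hmax⟩ := exists_maximal_of_wellFoundedGT
    (fun S : Submodule F V => S₀ ≤ S ∧ ND Q S ∧ EE M S) ⟨S₀, le_rfl, hS₀, hE₀⟩
  have h3' : 3 ≤ finrank F S := h3.trans (Submodule.finrank_mono hle)
  by_cases htop : S = ⊤
  · exact EO_le_of_EE (htop ▸ hE)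
  exfalso
  have hp : ∀ c, ∀ y ∈ S, polar Q y (c - proj hS c) = 0 := fun c y hy => polar_sub_proj hS hy c
  have e : ∀ c, proj hS c + (c - proj hS c) = c := fun c => by abel
  have key : ∀ c, Rt M b c → proj hS c ≠ 0 → ∃ hq : Q (c - proj hS c) = 0,
      ∀ y ∈ S, y ∈ EA M hq := fun c hc h0 => by
    by_cases hq : Q (c - proj hS c) = 0
    · exact ⟨hq, sing_step h2 hS h3' hE (hle hb) hb0 (proj_mem hS c) h0 hq (hp c) (by rwa [e])⟩
    have h1 := grow_step h2 hS h3' hE hq5 (hle hb) hb0 (proj_mem hS c) h0 hq (hp c) (by rwa [e])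
    have h4 := hmax ⟨hle.trans le_sup_left, hS.sup (nd_span_one h2 hq) fun x hx y hy => by
      obtain ⟨t, rfl⟩ := Submodule.mem_span_singleton.1 hy
      rw [o_polar_smul_right, hp c x hx, mul_zero], h1⟩ le_sup_left
    have h5 := h4 (Submodule.mem_sup_right (Submodule.mem_span_singleton_self _))
    exact absurd (hS _ h5 fun y hy => by rw [polar_comm]; exact hp c y hy) (o_ne_zero_of_norm hq)
  obtain ⟨c, hc, c1, c2⟩ := hmix S hle hS hE htop
  obtain ⟨hq, hA⟩ := key c hc fun H => c2 (mem_operp.2 ((proj_eq_zero_iff hS).1 H))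
  have hu0 : c - proj hS c ≠ 0 := fun H => c1 (by rw [sub_eq_zero.1 H]; exact proj_mem hS c)
  have hu := hp c
  generalize c - proj hS c = u at hq hA hu0 hu
  obtain ⟨u', hq', hA', hne⟩ : ∃ u', ∃ hq' : Q u' = 0, (∀ y ∈ S, y ∈ EA M hq') ∧
      polar Q u u' ≠ 0 := by
    obtain ⟨d, hd, hdu⟩ := hsp u hu0
    by_cases h0 : proj hS d = 0
    · have hd' := (proj_eq_zero_iff hS).1 h0
      have hg := hd.mul (rt_self hb0)
      have hq' : Q ((orefl Q d).1 u) = 0 := by rw [OG.map_app, hq]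
      refine ⟨_, hq', fun y hy => ?_, ?_⟩
      · have h1 : (orefl Q b).1 y ∈ S := by
          rw [orefl_app]; exact S.sub_mem hy (S.smul_mem _ (hle hb))
        have := EA_map hq' hg (by
          rw [OG.mul_app, orefl_app_of_polar (v := b)
            (by rw [polar_comm]; exact hu b (hle hb))]) (hA _ h1)
        rwa [OG.mul_app, orefl_orefl_app, orefl_app_of_polar (hd' y hy)] at this
      · rw [orefl_app]
        simp only [oexp, hq, polar_comm Q u d]
        simpa using ⟨hd.ne, hdu⟩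
    · obtain ⟨hq', hA'⟩ := key d hd h0
      refine ⟨_, hq', hA', ?_⟩
      rwa [polar_sub_right, polar_comm Q u (proj hS d), hu _ (proj_mem hS d), sub_zero, polar_comm]
  have hT : ND Q (Submodule.span F {u, u'}) := nd_span_pair (by simpa [hq] using hne)
  have h4 := hmax ⟨hle.trans le_sup_right, hT.sup hS fun x hx y hy => by
    obtain ⟨s, t, rfl⟩ := Submodule.mem_span_pair.1 hx
    simp only [oexp, (hA y hy).1, (hA' y hy).1]; ring, eich_of_hyp hS hq hq' hne hA hA'⟩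
    le_sup_right
  exact hu0 (hS u (h4 (Submodule.mem_sup_left (mem_span_two_left u u'))) fun y hy => by
    rw [polar_comm]; exact hu y hy)

end Cfsg.Agent.Cl.MaxO
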