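import Mathlib
import Cfsg.Agent.Cl.LowOGrow

/-!
# Maximality in `Ω₅`, `Ω₆` of the stabilisers of non-degenerate planes

The decompositions `3 ⊥ 2` (`q ≥ 5`) and `4 ⊥ 2` (`q ≥ 4`), and the transfer of maximality along
a homomorphism onto `Ω`.
-/

set_option autoImplicit false
set_option linter.unusedSectionVars false
set_option linter.unusedVariables false

namespace Cfsg.Agent.Cl.MaxO

open Module QuadraticMap

variable {F V : Type*} [Field F] [AddCommGroup V] [Module F V] {Q : QuadraticForm F V}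
  [FiniteDimensional F V] [Finite F] {M : Subgroup (OG Q)}

theorem exists_neg_cls (hQ : (polarBilin Q).Nondegenerate) (h2 : (2 : F) ≠ 0)
    (hodd : Odd (finrank F V)) : ∃ γ : F, γ ≠ 0 ∧ ∀ a, Cls Q γ a →
      OG.negOne Q * orefl Q a ∈ commutator (OG Q) := by
  obtain ⟨γ, hγ, h⟩ : ∃ γ : F, γ ≠ 0 ∧ sqSign γ = ospin hQ (OG.negOne Q) := by
    rcases Int.units_eq_one_or (ospin hQ (OG.negOne Q)) with h | h
    · exact ⟨1, one_ne_zero, by rw [h, sqSign_one]⟩
    · obtain ⟨c, hc⟩ := FiniteField.exists_nonsquare (F := F) (o_ringChar_ne_two h2)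
      exact ⟨c, fun H => hc (H ▸ IsSquare.zero), by rw [h, sqSign_eq_neg_one_iff]; exact hc⟩
  refine ⟨γ, hγ, fun a ha => (mem_commutator_OG_iff hQ (not_oExc_of_two_ne_zero h2) _).2 ⟨?_, ?_⟩⟩
  · rw [map_mul, dickson_negOne hQ h2, dickson_orefl _ ha.1, hodd.neg_one_pow]; simp
  · rw [map_mul, ospin_orefl _ ha.1, ← h, mul_comm, ← sqSign_mul ha.1 hγ, sqSign_eq_one_iff]
    exact ha.2

theorem refl_mul_of_neg {a b : V} {g : OG Q} (hg : g ∈ M) (ha : OG.negOne Q * orefl Q a ∈ M)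
    (hb : OG.negOne Q * orefl Q b ∈ M) : orefl Q a * orefl Q (g.1 b) ∈ M := by
  convert M.mul_mem ha (M.mul_mem (M.mul_mem hg hb) (M.inv_mem hg)) using 1
  rw [← mul_assoc g, OG.negOne_comm, mul_assoc _ g, mul_assoc (OG.negOne Q) _ g⁻¹, conj_orefl,
    ← OG.negOne_comm, mul_assoc, ← mul_assoc (OG.negOne Q), OG.negOne_mul_self, one_mul]

theorem exists_notMem_stab (hQ : (polarBilin Q).Nondegenerate) (hn : 5 ≤ finrank F V)
    {U : Submodule F V} (hU : ND Q U) (h3 : 3 ≤ finrank F U) (h0 : U ≠ ⊤) :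
    ∃ g ∈ commutator (OG Q), g ∉ quad_stab Q U := by
  obtain ⟨u, hu, hu0, hq⟩ := exists_singular_mem (Q := Q) h3
  have h1 := finrank_operp hQ U
  have h4 := Submodule.finrank_lt h0
  have hD := odec_perp hQ hU
  obtain ⟨g, hg, hn⟩ := exists_notMem_dstab hQ hn hD hq (i := 0) (l := 1)
    (by rwa [hD.pr_of_mem (i := 0) hu]) (hD.pr_of_ne (i := 1) (j := 0) (by simp) hu)
    (by change 2 ≤ finrank F U; omega)
    (ne_bot_of_finrank (by change 1 ≤ finrank F (operp Q U); omega))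
  exact ⟨g, hg, fun H => hn (mem_dstab_two hQ hD (i := 0) (j := 1) (by simp) fin_two_cases
    fun x hx => stab_app H hx)⟩

/-- The decomposition `3 ⊥ 2`. -/
theorem omax_three_two (hQ : (polarBilin Q).Nondegenerate) (hn : finrank F V = 5)
    (hq : Nat.card F ≠ 3) {U : Submodule F V} (hU : ND Q U) (h3 : finrank F U = 3) :
    OMax (quad_stab Q U) := by
  have h2 := hU.two_ne_zero_of_three h3
  have hW := hU.perp hQ
  have hW2 : finrank F (operp Q U) = 2 := by have := finrank_operp hQ U; omega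
  have hq5 := card_cases h2 hq
  refine ⟨exists_notMem_stab hQ hn.ge hU h3.ge fun H => by rw [H, finrank_top] at h3; omega,
    fun M hM _ g hgM hgU => ?_⟩
  rw [omega_eq hQ hn.ge]
  obtain ⟨γ, hγ, hneg⟩ := exists_neg_cls hQ h2 (by rw [hn]; decide)
  have hr : ∀ a, a ∈ U ∨ a ∈ operp Q U → orefl Q a ∈ quad_stab Q U := by
    rintro a (ha | ha)
    · exact quad_orefl_mem_stab_of_mem ha
    · rw [← stab_perp hQ]; exact quad_orefl_mem_stab_of_mem ha
  have hN : ∀ a, a ∈ U ∨ a ∈ operp Q U → Cls Q γ a → OG.negOne Q * orefl Q a ∈ M := fun a ha hc =>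
    hM ⟨mul_mem (quad_mem_stab_of_le fun x hx => U.neg_mem hx) (hr a ha), hneg a hc⟩
  obtain ⟨b, hb, hb1⟩ := hU.exists_eq (by omega) γ
  subst hb1
  have hR : ∀ k ∈ M, ∀ a, a ∈ U ∨ a ∈ operp Q U → Cls Q (Q b) a → Rt M b (k.1 a) :=
    fun k hk a ha hc => ⟨hc.map k, refl_mul_of_neg hk (hN b (.inl hb) (cls_self hγ)) (hN a ha hc)⟩
  have hE : EE M U := fun x hx y hy => hM ⟨quad_mem_stab_of_le fun z hz => by
    simpa using U.add_mem (eich_app_sub_mem (Q := Q) hx hy z) hz, eich_mem_omega hQ hn.ge x y⟩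
  obtain ⟨c, hc, c1, c2⟩ : ∃ c, Rt M b c ∧ c ∉ U ∧ c ∉ operp Q U := by
    by_contra H
    push Not at H
    rcases conn (X := U ⊓ U.comap (g.1 : V →ₗ[F] V)) hU (.inr (.inr (.inl ⟨h3, hq⟩))) hγ
      inf_le_left (fun v hv hc => by
        by_cases h : g.1 v ∈ U
        · exact .inl ⟨hv, h⟩
        · exact .inr fun x hx => by
            rw [← OG.polar_app g]
            exact mem_operp.1 (H _ (hR g hgM v (.inl hv) hc) h) _ hx.2) with h | h
    · refine not_maps_of_lt (U := U) (W := operp Q U) (by omega) g fun x hx => ?_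
      by_contra hx'
      obtain ⟨v, hv, v1, v2⟩ := exists_cls_notMem hU (.inl h3.ge) hγ
        (P := (operp Q U).comap (g.1 : V →ₗ[F] V)) hx hx'
      have : v ∈ U ⊓ U.comap (g.1 : V →ₗ[F] V) := ⟨hv, by
        by_contra h'; exact v2 (H _ (hR g hgM v (.inl hv) v1) h')⟩
      rw [h] at this
      exact o_ne_zero_of_norm v1.1 this
    · exact hgU (quad_mem_stab_of_le fun x hx => by rw [← h] at hx; exact hx.2)
  have hw := proj_mem hU c
  have hu : c - proj hU c ∈ operp Q U := mem_operp.2 fun y hy => polar_sub_proj hU hy c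
  have hw0 : proj hU c ≠ 0 := fun H => c2 (mem_operp.2 ((proj_eq_zero_iff hU).1 H))
  have hu0 : c - proj hU c ≠ 0 := fun H => c1 (by rw [sub_eq_zero.1 H]; exact hw)
  have e : c = proj hU c + (c - proj hU c) := by abel
  generalize proj hU c = w at *
  generalize c - w = u at *
  subst e
  obtain ⟨v, hv, v1, v2, v3⟩ := exists_plane_refl hW hW2 (by omega) hu hu0
  obtain ⟨y, hy, y1⟩ := hU.exists_eq (by omega) (Q v)
  have hk : orefl Q y * orefl Q v ∈ M := hM ⟨mul_mem (hr y (.inl hy)) (hr v (.inr hv)),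
    refl_mem_omega hQ hn.ge (by rwa [y1]) v1 ⟨Q v, by rw [y1]⟩⟩
  have hc' := hc.map hk (rt_self hγ) (hR _ hk b (.inl hb) (cls_self hγ))
  have hyU : ∀ x ∈ U, (orefl Q y).1 x ∈ U := fun x hx => stab_app (hr y (.inl hy)) hx
  have hu' : (orefl Q v).1 u ∈ operp Q U := by
    rw [orefl_app]; exact sub_mem hu (Submodule.smul_mem _ _ hv)
  rw [OG.mul_app, map_add, orefl_app_of_polar (v := v) (mem_operp.1 hv w hw), map_add,
    orefl_app_of_polar (v := y) (x := (orefl Q v).1 u)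
      (by rw [polar_comm]; exact mem_operp.1 hu' y hy)] at hc'
  have key : ∀ S, U ≤ S → ∀ w ∈ U, w ≠ 0 → ∀ u ∈ operp Q U, w + u ∉ operp Q S :=
    fun S hS w hw hw0 u hu H => hw0 (hU w hw fun x hx => by
      have := mem_operp.1 H x (hS hx)
      rwa [polar_add_right, mem_operp.1 hu x hx, add_zero, polar_comm] at this)
  refine grow hQ h2 hq hU h3.ge hE hb hγ (fun z hz => ?_) fun S hS _ _ hne => ?_
  · by_cases h : ∃ x ∈ U, polar Q z x ≠ 0
    · obtain ⟨x, hx, h⟩ := h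
      obtain ⟨d, hd, d1, d2⟩ := exists_cls_polar_ne hU (.inl h3.ge) hγ hx h
      exact ⟨d, hR 1 M.one_mem d (.inl hd) d1, by rwa [polar_comm]⟩
    · push Not at h
      have hz' : z ∈ operp Q U := mem_operp.2 fun x hx => by rw [polar_comm]; exact h x hx
      obtain ⟨x, hx, h⟩ := hW.exists_polar_ne hz' hz
      obtain ⟨d, hd, d1, d2⟩ := exists_cls_polar_ne hW (.inr ⟨hW2, hq, by omega⟩) hγ hx h
      exact ⟨d, hR 1 M.one_mem d (.inr hd) d1, by rwa [polar_comm]⟩
  by_cases h : w + u ∈ S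
  swap
  · exact ⟨_, hc, h, key S hS w hw hw0 u hu⟩
  refine ⟨_, hc', fun h' => hne ?_, key S hS _ (hyU w hw) (OG.app_ne_zero _ hw0) _ hu'⟩
  have s1 : u ∈ S := by simpa using S.sub_mem h (hS hw)
  have s2 : (orefl Q v).1 u ∈ S := by simpa using S.sub_mem h' (hS (hyU w hw))
  have s3 : v ∈ S := by
    have := S.sub_mem s1 s2
    rwa [orefl_app, sub_sub_cancel, S.smul_mem_iff (mul_ne_zero (inv_ne_zero v1) v2)] at this
  rw [eq_top_iff, ← hU.isCompl.sup_eq_top, ← Submodule.eq_of_le_of_finrank_eq (span_two_le hu hv)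
    (by rw [finrank_span_two hu0 v3, hW2])]
  exact sup_le hS (span_two_le s1 s3)

theorem exists_cls_perp_three {U : Submodule F V} (hU : ND Q U) (hd : 4 ≤ finrank F U)
    (hq : 4 ≤ Nat.card F) (z : V) {γ : F} (hγ : γ ≠ 0) : ∃ f ∈ U, ∃ h ∈ U, ∃ x ∈ U, Cls Q γ f ∧
      Cls Q γ h ∧ Cls Q γ x ∧ polar Q z f = 0 ∧ polar Q z h = 0 ∧ polar Q z x = 0 ∧
      h ∉ Submodule.span F {f} ∧ x ∉ Submodule.span F {f, h} := by
  obtain ⟨T, hT, h1, hp, h2, h2'⟩ := hU.exists_around (proj_mem hU z)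
  have h3 := h1.finrank_inf_perp hT
  have hY := hU.inf_perp h1 hT
  have hz : ∀ f ∈ U, polar Q z f = polar Q (proj hU z) f := fun f hf =>
    (polar_proj_left hU hf z).symm
  generalize proj hU z = p at hp h2' hz
  have hz' : ∀ f ∈ U ⊓ operp Q T, polar Q z f = 0 := fun f hf => by
    rw [hz f hf.1]; exact mem_operp.1 hf.2 _ hp
  obtain ⟨f, hf, h4⟩ := hY.exists_eq (by omega) γ
  have hf0 : Q f ≠ 0 := by rwa [h4]
  obtain ⟨x, hx, hxP⟩ := exists_mem_notMem_of_lt (S := U ⊓ operp Q T)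
    (T := Submodule.span F {f}) (by have := finrank_span_one_le (F := F) f; omega)
  obtain ⟨h, hh, h6, h7⟩ := exists_cls_notMem hY (by
    by_cases h : 3 ≤ finrank F ↥(U ⊓ operp Q T)
    · exact .inl h
    · exact .inr ⟨by omega, by omega, by omega⟩) hγ hx hxP
  by_cases h5 : 3 ≤ finrank F ↥(U ⊓ operp Q T)
  · obtain ⟨x, hx, hxP⟩ := exists_mem_notMem_of_lt (S := U ⊓ operp Q T)
      (T := Submodule.span F {f, h}) (by have := finrank_span_pair_le (F := F) f h; omega)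
    obtain ⟨k, hk, k1, k2⟩ := exists_cls_notMem hY (.inl h5) hγ hx hxP
    exact ⟨f, hf.1, h, hh.1, k, hk.1, cls_of_eq' hγ h4, h6, k1, hz' f hf, hz' h hh, hz' k hk, h7, k2⟩
  obtain ⟨hp0, h8⟩ := h2'.resolve_left (by omega)
  have hpf : polar Q p f = 0 := mem_operp.1 hf.2 _ hp
  have hpn : p ∉ Submodule.span F {f, h} := fun H => hp0 (h1 p hp fun y hy => by
    rw [polar_comm]; exact mem_operp.1 (span_two_le (S := operp Q T) hf.2 hh.2 H) y hy)
  by_cases h9 : Q p = 0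
  · refine ⟨f, hf.1, h, hh.1, f + p, U.add_mem hf.1 (hT hp), cls_of_eq' hγ h4, h6,
      cls_of_eq' hγ ?_, hz' f hf, hz' h hh, ?_, h7, fun H => hpn ?_⟩
    · rw [o_qadd, polar_comm, hpf, h9, h4]; ring
    · rw [hz _ (U.add_mem hf.1 (hT hp)), polar_add_right, hpf, o_polar_self, h9]; ring
    · simpa using Submodule.sub_mem _ H (mem_span_two_left f h)
  · have h20 := h8.resolve_left h9
    exact ⟨f, hf.1, h, hh.1, p, hT hp, cls_of_eq' hγ h4, h6, cls_of_two h20 γ h9, hz' f hf, hz' h hh,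
      by rw [hz p (hT hp), o_polar_self, h20, zero_mul], h7, hpn⟩

theorem omax_two' {κ : Type*} [Fintype κ] [DecidableEq κ] {D : κ → Submodule F V}
    (hQ : (polarBilin Q).Nondegenerate) (hn : 5 ≤ finrank F V) (hD : ODec Q D) {i j : κ}
    (hij : i ≠ j) (hall : ∀ l, l = i ∨ l = j) (h4 : finrank F (D i) = 4) (hq : 4 ≤ Nat.card F)
    (h0 : D j ≠ ⊥) (hns : ∀ g : OG Q, ¬ ∀ x ∈ D i, g.1 x ∈ D j) : OMax (dstab Q D) := by
  have hg : Good Q (D i) := .inr (.inl ⟨h4, by omega⟩)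
  refine ⟨?_, fun M hM _ g hgM hgD => ?_⟩
  · obtain ⟨u, hu, hu0, hq⟩ := exists_singular_mem (Q := Q) (S := D i) (by omega)
    exact exists_notMem_dstab hQ hn hD hq (i := i) (l := j) (by rwa [hD.pr_of_mem hu])
      (hD.pr_of_ne hij.symm hu) (by omega) h0
  rw [omega_eq hQ hn]
  have hR := refl_of_le hQ hn hD hM
  by_cases hC : Closed M D
  · exfalso
    have hS : St M D := fun g hg l m a ha ha0 hga => by
      obtain ⟨m, hm⟩ := closed_maps hD hR hC hg ha ha0 hga ‹Good Q (D i)›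
      rcases hall m with rfl | rfl
      · exact mem_dstab_two hQ hD hij hall hm
      · exact absurd hm (hns g)
    have hP := pair_of_notMem hD hR hS hgM hgD
    have hfix := fun f e (h : orefl Q f * orefl Q e ∈ dstab Q _) =>
      fix_of_mem_dstab_two (D := fun i => (D i).map (g.1 : V →ₗ[F] V)) hij hall (fun k H =>
        hns (g⁻¹ * k * g) fun x hx => (mem_map_iff _ _ _).1 (H _ ⟨x, hx, rfl⟩)) h
    have h0' : (D i).map (g.1 : V →ₗ[F] V) ≠ ⊥ :=
      ne_bot_of_finrank (by rw [LinearEquiv.finrank_map_eq]; omega)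
    obtain ⟨a, ha, ha0⟩ := (hP.dec'.nd i).exists_nonsingular h0'
    obtain ⟨f, hf, e, he, x, hx, f1, e1, x1, f2, e2, x2, e3, x3⟩ :=
      exists_cls_perp_three (hD.nd i) h4.ge hq a one_ne_zero
    exact hP.three hfix ha ha0 one_ne_zero hf he hx f1 e1 x1 f2 e2 x2 e3 x3
  simp only [Closed, not_forall, not_exists] at hC
  obtain ⟨i₀, a, ha, ha0, c, hc, h, hcn⟩ := hC
  have hi : hD.pr i c ≠ 0 := by
    obtain ⟨l, h1, h2⟩ := hD.exists_pr_ne (hcn j)
    rwa [(hall l).resolve_right h1] at h2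
  have hj : hD.pr j c ≠ 0 := by
    obtain ⟨l, h1, h2⟩ := hD.exists_pr_ne (hcn i)
    rwa [(hall l).resolve_left h1] at h2
  have key : (∃ u ∈ D i, u ≠ 0 ∧ ∃ hu : Q u = 0, (Q c)⁻¹ • c ∈ EA M hu) → EO Q ≤ M := by
    rintro ⟨u, hu, hu0, hq', hA⟩
    exact fin_two hQ hn hD hM hij hall (by omega) hu hu0 hq' (spread_small hQ hn hD hM hij hall
      h4.ge (by omega) hu hu0 hq' hA (pr_smul_ne hQ hn hD hM hc hj))
  by_cases h6 : Q (hD.pr i c) = 0
  · exact key (EA_of_singular_comp hQ hn hD hM ha ha0 hc h hi h6 (.inl (by omega)))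
  · exact key (EA_of_big hQ hn hD hM ha ha0 hc h hi (.inr ⟨h4.ge, h6⟩))

/-- The decomposition `4 ⊥ 2`. -/
theorem omax_four_two (hQ : (polarBilin Q).Nondegenerate) (hn : finrank F V = 6)
    (hq : 4 ≤ Nat.card F) {W : Submodule F V} (hW : ND Q W) (h2 : finrank F W = 2) :
    OMax (quad_stab Q W) := by
  have hU := hW.perp hQ
  have h1 := finrank_operp hQ W
  have h1' := finrank_operp hQ (operp Q W)
  rw [← stab_perp hQ]
  generalize operp Q W = U at *
  have hD := odec_perp hQ hU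
  have hns := not_maps_of_lt (Q := Q) (U := U) (W := operp Q U) (by omega)
  have h3 : dstab Q ![U, operp Q U] = quad_stab Q U := le_antisymm
    (fun g hg => quad_mem_stab_of_le
      (fix_of_mem_dstab_two (i := 0) (j := 1) (by simp) fin_two_cases hns hg 0))
    fun g hg => mem_dstab_two hQ hD (i := 0) (j := 1) (by simp) fin_two_cases
      fun x hx => stab_app hg hx
  rw [← h3]
  exact omax_two' hQ (by omega) hD (i := 0) (j := 1) (by simp) fin_two_cases
    (by change finrank F U = 4; omega) hq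
    (ne_bot_of_finrank (by change 1 ≤ finrank F (operp Q U); omega)) hns

/-- Transfer of maximality along a homomorphism onto `Ω`. -/
theorem isMaximalIn_of_hom {K : Type*} [Field K] {ι : Type} [Fintype ι] [DecidableEq ι]
    {G₀ : Type*} [Group G₀] (j : G₀ →* GL ι K) {G H : Subgroup (GL ι K)} (hj : j.range = G)
    (φ : G₀ →* OG Q) (hφ : φ.range = commutator (OG Q)) {L : Subgroup (OG Q)} (hL : OMax L)
    (hH : ∀ g, j g ∈ H ↔ φ g ∈ L) : Geo.IsMaximalIn G (H ⊓ G) := by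
  subst hj
  refine Max.isMaximalIn_of inf_le_right (fun h => ?_) fun N h1 h2 h3 => ?_
  · obtain ⟨g, hg, hn⟩ := hL.1
    rw [← hφ] at hg
    obtain ⟨k, rfl⟩ := hg
    exact hn ((hH k).1 (h ⟨k, rfl⟩).1)
  · obtain ⟨x, hxN, hx⟩ := SetLike.not_le_iff_exists.1 h3
    obtain ⟨g, rfl⟩ := h2 hxN
    have := hL.2 ((N.comap j).map φ) (fun k hk => by
        obtain ⟨a, rfl⟩ := hφ.ge hk.2
        exact ⟨a, h1 ⟨(hH a).2 hk.1, a, rfl⟩, rfl⟩)
      (by rw [← hφ]; exact Subgroup.map_le_range _ _) (φ g) ⟨g, hxN, rfl⟩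
      fun H => hx ⟨(hH g).2 H, g, rfl⟩
    rintro _ ⟨k, rfl⟩
    obtain ⟨a, ha, e⟩ := this (hφ.le ⟨k, rfl⟩)
    have h4 : j (a⁻¹ * k) ∈ N := h1 ⟨(hH _).2 (by
      rw [map_mul, map_inv, e, inv_mul_cancel]; exact L.one_mem), _, rfl⟩
    simpa using N.mul_mem ha h4

end Cfsg.Agent.Cl.MaxO
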