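import Mathlib
import Cfsg.Agent.Cl.LowOSmall

/-!
# Frame stabilisers in `Ω₅(p)`, `Ω₆(p)` I: basic facts

`Fs M e κ` is `Fs M e κ` for five or six basis vectors.
-/

set_option autoImplicit false
set_option linter.unusedSectionVars false
set_option linter.unusedVariables false

namespace Cfsg.Agent.Cl.MaxO

open Module QuadraticMap

variable {F V : Type*} [Field F] [AddCommGroup V] [Module F V] {Q : QuadraticForm F V}
  [FiniteDimensional F V] [Finite F] {ι : Type*} [Fintype ι] [DecidableEq ι]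
  {M : Subgroup (OG Q)} {e : ι → V} {κ : F}

variable (M e κ) in
/-- A frame of five or six vectors whose stabiliser in `Ω` lies in `M ≤ Ω`. -/
structure Fs : Prop where
  ne : κ ≠ 0
  two : (2 : F) ≠ 0
  norm : ∀ i, Q (e i) = κ
  orth : ∀ {i j}, i ≠ j → polar Q (e i) (e j) = 0
  sep : ∀ x, (∀ i, polar Q (e i) x = 0) → x = 0
  nd : (polarBilin Q).Nondegenerate
  card : 5 ≤ Fintype.card ι
  card' : Fintype.card ι ≤ 6
  dim : 5 ≤ finrank F V
  prime : ∀ t : F, ∃ k : ℕ, t = k
  le : ∀ g ∈ FS Q e, g ∈ commutator (OG Q) → g ∈ M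
  sub : M ≤ commutator (OG Q)

namespace Fs

variable (h : Fs M e κ)
include h

theorem self (i : ι) : polar Q (e i) (e i) = 2 * κ := by rw [o_polar_self, h.norm]

theorem norm_ne (i : ι) : Q (e i) ≠ 0 := by rw [h.norm]; exact h.ne

theorem e_ne (i : ι) : e i ≠ 0 := o_ne_zero_of_norm (h.norm_ne i)

theorem two_ne : 2 * κ ≠ 0 := mul_ne_zero h.two h.ne

theorem idx (l : List ι) (hl : l.length < 5) : ∃ x, x ∉ l :=
  exists_idx l (by have := h.card; omega)

theorem ext {x y : V} (H : ∀ i, polar Q (e i) x = polar Q (e i) y) : x = y :=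
  sub_eq_zero.1 (h.sep _ fun i => by rw [polar_sub_right, H, sub_self])

theorem exists_co {x : V} (hx : x ≠ 0) : ∃ i, polar Q (e i) x ≠ 0 := by
  by_contra H
  push Not at H
  exact hx (h.sep x H)

theorem co_prS (T : Finset ι) (c : V) (j : ι) :
    polar Q (e j) (prS Q e κ T c) = if j ∈ T then polar Q (e j) c else 0 := by
  rw [prS, quad_polar_sum_right]
  split_ifs with hj
  · rw [Finset.sum_eq_single_of_mem j hj fun i _ hi => by
      rw [o_polar_smul_right, h.orth hi.symm, mul_zero], o_polar_smul_right, h.self,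
      div_mul_cancel₀ _ h.two_ne]
  · exact Finset.sum_eq_zero fun i hi => by
      rw [o_polar_smul_right, h.orth (fun H : j = i => hj (H ▸ hi)), mul_zero]

theorem prS_univ (c : V) : prS Q e κ Finset.univ c = c := h.ext fun i => by simp [h.co_prS]

theorem prS_compl (T : Finset ι) (c : V) : prS Q e κ Tᶜ c = c - prS Q e κ T c :=
  h.ext fun i => by
    rw [polar_sub_right, h.co_prS, h.co_prS]
    by_cases H : i ∈ T <;> simp [H]

theorem polar_prS (T : Finset ι) (c : V) :
    polar Q (prS Q e κ T c) c = ∑ i ∈ T, polar Q (e i) c ^ 2 / (2 * κ) := by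
  rw [polar_comm, prS, quad_polar_sum_right]
  exact Finset.sum_congr rfl fun i _ => by rw [o_polar_smul_right, polar_comm Q c]; ring

theorem polar_prS' (T : Finset ι) (c : V) :
    polar Q (prS Q e κ T c) c = 2 * Q (prS Q e κ T c) := by
  rw [← o_polar_self, h.polar_prS]
  conv_rhs => rw [polar_comm, prS, quad_polar_sum_right]
  exact Finset.sum_congr rfl fun i hi => by
    rw [o_polar_smul_right, polar_comm Q _ (e i), ← prS, h.co_prS, if_pos hi]; ring

theorem Q_prS (T : Finset ι) (c : V) :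
    4 * κ * Q (prS Q e κ T c) = ∑ i ∈ T, polar Q (e i) c ^ 2 := by
  have h1 := h.polar_prS T c
  rw [h.polar_prS', ← Finset.sum_div, eq_div_iff h.two_ne] at h1
  linear_combination h1

theorem og_ext {g k : OG Q} (H : ∀ i, g.1 (e i) = k.1 (e i)) : g = k := OG.ext fun x => by
  rw [← h.prS_univ x, prS, map_sum, map_sum]
  exact Finset.sum_congr rfl fun i _ => by rw [map_smul, map_smul, H]

theorem mem_FS {g : OG Q} (H : ∀ i, ∃ j, g.1 (e i) ∈ Submodule.span F {e j}) : g ∈ FS Q e := by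
  refine mem_dstab_of_maps (fun i j hij => ?_) (fun i j => by
    rw [finrank_span_singleton (h.e_ne i), finrank_span_singleton (h.e_ne j)]) fun i => ?_
  · by_contra hne
    obtain ⟨s, hs⟩ := Submodule.mem_span_singleton.1
      (show e i ∈ Submodule.span F {e j} from hij ▸ Submodule.mem_span_singleton_self _)
    have := h.self i
    conv at this => lhs; arg 3; rw [← hs]
    rw [o_polar_smul_right, h.orth hne, mul_zero] at this
    exact h.two_ne this.symm
  · obtain ⟨j, hj⟩ := H i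
    exact ⟨j, fun x hx => by
      obtain ⟨s, rfl⟩ := Submodule.mem_span_singleton.1 hx
      rw [map_smul]; exact Submodule.smul_mem _ _ hj⟩

theorem app {g : OG Q} (hg : g ∈ FS Q e) (i : ι) :
    ∃ j, ∃ s : F, s * s = 1 ∧ g.1 (e i) = s • e j := by
  obtain ⟨σ, hσ⟩ := hg
  obtain ⟨s, hs⟩ := Submodule.mem_span_singleton.1 (show g.1 (e i) ∈ Submodule.span F {e (σ i)} from
    (hσ i).le ⟨e i, Submodule.mem_span_singleton_self _, rfl⟩)
  refine ⟨σ i, s, mul_right_cancel₀ h.ne ?_, hs.symm⟩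
  have := OG.map_app g (e i)
  rw [← hs, o_qsmul, h.norm, h.norm] at this
  linear_combination this

theorem map {g : OG Q} (hg : g ∈ M) : Fs M (fun i => g.1 (e i)) κ where
  ne := h.ne
  two := h.two
  norm i := by rw [OG.map_app, h.norm]
  orth hij := by rw [OG.polar_app, h.orth hij]
  sep x hx := by
    have := h.sep ((g⁻¹).1 x) fun i => by rw [OG.polar_inv_right, hx]
    rwa [OG.app_eq_zero_iff] at this
  nd := h.nd
  card := h.card
  card' := h.card'
  sub := h.sub
  dim := h.dim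
  prime := h.prime
  le x hx hx' := by
    have := h.le _ (mem_FS_map.1 hx) ((inferInstance : (commutator (OG Q)).Normal).conj_mem' x hx' g)
    simpa [mul_assoc] using M.mul_mem (M.mul_mem hg this) (M.inv_mem hg)

theorem refl_app (i : ι) (x : V) :
    (orefl Q (e i)).1 x = x - (κ⁻¹ * polar Q (e i) x) • e i := by
  rw [orefl_app, h.norm, polar_comm]

theorem refl_mem (i : ι) : orefl Q (e i) ∈ FS Q e := h.mem_FS fun j => ⟨j, by
  by_cases H : j = i
  · rw [H, orefl_app_self (h.norm_ne i)]; exact neg_mem (Submodule.mem_span_singleton_self _)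
  · rw [orefl_app_of_polar (h.orth H)]; exact Submodule.mem_span_singleton_self _⟩

theorem Q_long {i j : ι} (hij : i ≠ j) {s : F} (hs : s * s = 1) : Q (e i - s • e j) = 2 * κ := by
  simp only [oexp, h.norm, h.orth hij]; linear_combination κ * hs

theorem long_ne {i j : ι} (hij : i ≠ j) {s : F} (hs : s * s = 1) : Q (e i - s • e j) ≠ 0 := by
  rw [h.Q_long hij hs]; exact h.two_ne

theorem long_mem {i j : ι} (hij : i ≠ j) {s : F} (hs : s * s = 1) :
    orefl Q (e i - s • e j) ∈ FS Q e := h.mem_FS fun l => by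
  have hq : Q (e i) = Q (s • e j) := by
    rw [o_qsmul, h.norm, h.norm]; linear_combination -κ * hs
  by_cases H : l = i
  · exact ⟨j, by
      rw [H, orefl_sub_app hq (h.long_ne hij hs)]
      exact Submodule.smul_mem _ _ (Submodule.mem_span_singleton_self _)⟩
  by_cases H' : l = j
  · refine ⟨i, ?_⟩
    rw [H', show e j = s • s • e j by rw [smul_smul, hs, one_smul], map_smul]
    conv => rhs; arg 2; arg 1; rw [smul_smul, smul_smul, hs, one_mul]
    rw [orefl_sub_app' hq (h.long_ne hij hs)]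
    exact Submodule.smul_mem _ _ (Submodule.mem_span_singleton_self _)
  · exact ⟨l, by
      rw [orefl_app_of_polar (by simp only [oexp, h.orth H, h.orth H']; ring)]
      exact Submodule.mem_span_singleton_self _⟩

theorem mem_of_refl {a b : V} (ha : orefl Q a ∈ FS Q e) (hb : orefl Q b ∈ FS Q e) (ha0 : Q a ≠ 0)
    (hb0 : Q b ≠ 0) (H : IsSquare (Q a * Q b)) : orefl Q a * orefl Q b ∈ M :=
  h.le _ ((FS Q e).mul_mem ha hb) (refl_mem_omega h.nd h.dim ha0 hb0 H)

theorem dd_mem (i j : ι) : orefl Q (e i) * orefl Q (e j) ∈ M :=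
  h.mem_of_refl (h.refl_mem i) (h.refl_mem j) (h.norm_ne i) (h.norm_ne j)
    ⟨κ, by rw [h.norm, h.norm]⟩

theorem cyc_mem {i j k l : ι} (hij : i ≠ j) (hkl : k ≠ l) :
    orefl Q (e i - e j) * orefl Q (e k - e l) ∈ M := by
  have := h.mem_of_refl (h.long_mem hij (mul_one 1)) (h.long_mem hkl (mul_one 1))
    (h.long_ne hij (mul_one 1)) (h.long_ne hkl (mul_one 1))
    ⟨2 * κ, by rw [h.Q_long hij (mul_one 1), h.Q_long hkl (mul_one 1)]⟩
  rwa [one_smul, one_smul] at this

theorem rr_of_one {c : V} (hc : Q c ≠ 0) {i : ι} (H : orefl Q (e i) * orefl Q c ∈ M) : RR M e c :=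
  ⟨hc, fun j => refl_trans (h.dd_mem i j) H⟩

theorem rr_e (i : ι) : RR M e (e i) := ⟨h.norm_ne i, fun j => h.dd_mem j i⟩

theorem rr_mul {b c : V} (hb : RR M e b) (hc : RR M e c) : orefl Q b * orefl Q c ∈ M := by
  obtain ⟨i, -⟩ := h.idx [] (by simp)
  exact refl_trans (hb.2 i) (hc.2 i)

theorem rr_map {g : OG Q} (hg : g ∈ M) {x y : V} (hgx : RR M e (g.1 x)) (hx : RR M e x)
    (hy : RR M e y) : RR M e (g.1 y) :=
  hgx.trans (by rw [OG.map_app]; exact hy.1) (conj_refl_mem hg (h.rr_mul hx hy))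

theorem rr_flip {c : V} (hc : RR M e c) (T : Finset ι) : RR M e (c - (2 : F) • prS Q e κ T c) := by
  induction T using Finset.induction_on with
  | empty => simpa [prS] using hc
  | insert a T ha ih =>
    convert (h.rr_e a).refl ih using 1
    rw [h.refl_app, polar_sub_right, o_polar_smul_right, h.co_prS, if_neg ha, prS,
      Finset.sum_insert ha, ← prS]
    have := h.ne
    have := h.two
    match_scalars <;> field_simp
    ring

theorem notMem_of_three {c : V} (hc : Q c ≠ 0) {i j k : ι} (hij : i ≠ j) (hik : i ≠ k)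
    (hjk : j ≠ k) (hi : polar Q (e i) c ≠ 0) (hj : polar Q (e j) c ≠ 0)
    (hk : polar Q (e k) c ≠ 0) : orefl Q c ∉ FS Q e := fun H => by
  obtain ⟨l, s, -, hs⟩ := h.app H i
  have key : ∀ m, i ≠ m → m ≠ l → polar Q (e m) c = 0 := fun m h1 h2 => by
    have := congrArg (polar Q (e m)) hs
    simp only [orefl_app, oexp, h.orth h1.symm, h.orth h2] at this
    simpa [hc, hi] using this
  by_cases H : j = l
  · exact hk (key k hik (H ▸ hjk.symm))
  · exact hj (key j hij H)

theorem mem_of_two {c : V} (hc : Q c ≠ 0) {i j : ι} (hij : i ≠ j)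
    (hz : ∀ l, l ≠ i → l ≠ j → polar Q (e l) c = 0)
    (H : polar Q (e j) c = 0 ∨ polar Q (e j) c ^ 2 = polar Q (e i) c ^ 2) :
    orefl Q c ∈ FS Q e := by
  obtain ⟨s, hs, h1⟩ : ∃ s : F, (s = 0 ∨ s * s = 1) ∧ polar Q (e j) c = -s * polar Q (e i) c := by
    rcases H with H | H
    · exact ⟨0, .inl rfl, by simp [H]⟩
    rcases sq_eq_sq_iff_eq_or_eq_neg.1 H with H | H
    · exact ⟨-1, .inr (by ring), by simp [H]⟩
    · exact ⟨1, .inr (by ring), by simp [H]⟩
  have := h.two
  have := h.ne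
  have h2 : c = (polar Q (e i) c / (2 * κ)) • (e i - s • e j) := h.ext fun l => by
    by_cases a : l = i
    · simp only [a, oexp, h.norm, h.orth hij]; field_simp; ring
    by_cases b : l = j
    · simp only [b, oexp, h.norm, h.orth hij.symm, h1]; field_simp; ring
    · simp only [oexp, h.orth a, h.orth b, hz l a b]; ring
  have h3 : polar Q (e i) c / (2 * κ) ≠ 0 := fun H => hc (by rw [h2, H]; simp)
  rw [h2, orefl_smul h3]
  rcases hs with rfl | hs
  · simpa using h.refl_mem i
  · exact h.long_mem hij hs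

theorem long_of_mem {c : V} (hc : Q c ≠ 0) (H : orefl Q c ∈ FS Q e)
    (hn : ∀ i, c ∉ Submodule.span F {e i}) :
    ∃ k l, ∃ s β : F, k ≠ l ∧ s * s = 1 ∧ β ≠ 0 ∧ β • c = e k - s • e l := by
  obtain ⟨k, hk⟩ := h.exists_co (o_ne_zero_of_norm hc)
  obtain ⟨l, s, hs, h1⟩ := h.app H k
  have hβ := mul_ne_zero (inv_ne_zero hc) hk
  have h2 : ((Q c)⁻¹ * polar Q (e k) c) • c = e k - s • e l := by
    rw [← h1, orefl_app, sub_sub_cancel]
  refine ⟨k, l, s, _, fun H => hn k ?_, hs, hβ, h2⟩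
  rw [← Submodule.smul_mem_iff _ hβ, h2, ← H]
  exact Submodule.sub_mem _ (Submodule.mem_span_singleton_self _)
    (Submodule.smul_mem _ _ (Submodule.mem_span_singleton_self _))

/-- Over the prime field `EA` is a subspace. -/
def EAm {u : V} (hu : Q u = 0) : Submodule F V :=
  { EA M hu with
    smul_mem' := fun t x hx => by
      obtain ⟨k, rfl⟩ := h.prime t
      rw [Nat.cast_smul_eq_nsmul]
      exact (EA M hu).nsmul_mem hx k }

theorem cyc_app {a b d : ι} (hab : a ≠ b) (had : a ≠ d) (hbd : b ≠ d) :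
    (orefl Q (e a - e b) * orefl Q (e b - e d)).1 (e a) = e b := by
  have := h.long_ne hab (mul_one 1)
  rw [one_smul] at this
  rw [OG.mul_app, orefl_app_of_polar (v := e b - e d) (by
    simp only [oexp, h.orth hab, h.orth had]; ring),
    orefl_sub_app (by rw [h.norm, h.norm]) this]

theorem cyc_fix {a b d : ι} {u : V} (ha : polar Q (e a) u = 0) (hb : polar Q (e b) u = 0)
    (hd : polar Q (e d) u = 0) : (orefl Q (e a - e b) * orefl Q (e b - e d)).1 u = u := by
  rw [OG.mul_app, orefl_app_of_polar (v := e b - e d), orefl_app_of_polar] <;>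
    rw [polar_comm, polar_sub_left] <;> simp [ha, hb, hd]

theorem nd_two {a b : ι} (hab : a ≠ b) : ND Q (Submodule.span F {e a, e b}) := nd_span_pair (by
  rw [h.orth hab, h.norm, h.norm]
  exact fun H => mul_ne_zero h.two_ne h.two_ne (by linear_combination -H))

theorem finrank_two {a b : ι} (hab : a ≠ b) : finrank F (Submodule.span F {e a, e b}) = 2 :=
  finrank_span_two (h.e_ne a) fun H => by
    obtain ⟨s, hs⟩ := Submodule.mem_span_singleton.1 H
    have := congrArg (polar Q (e b)) hs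
    rw [o_polar_smul_right, h.orth hab.symm, h.self, mul_zero] at this
    exact h.two_ne this.symm

theorem nd_three {a b : ι} (hab : a ≠ b) {c : V} (hc : Q c ≠ 0) (ha : polar Q (e a) c = 0)
    (hb : polar Q (e b) c = 0) : ND Q (Submodule.span F {e a, e b} ⊔ Submodule.span F {c}) ∧
      finrank F ↥(Submodule.span F {e a, e b} ⊔ Submodule.span F {c}) = 3 := by
  have h1 : ∀ x ∈ Submodule.span F {e a, e b}, ∀ y ∈ Submodule.span F {c}, polar Q x y = 0 :=
    fun x hx y hy => by
      obtain ⟨s, t, rfl⟩ := Submodule.mem_span_pair.1 hx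
      obtain ⟨r, rfl⟩ := Submodule.mem_span_singleton.1 hy
      simp only [oexp, ha, hb]; ring
  exact ⟨(h.nd_two hab).sup (nd_span_one h.two hc) h1, by
    rw [(h.nd_two hab).finrank_sup h1, h.finrank_two hab,
      finrank_span_singleton (o_ne_zero_of_norm hc)]⟩

theorem Q_compl (T : Finset ι) (c : V) : Q (prS Q e κ Tᶜ c) = Q c - Q (prS Q e κ T c) := by
  rw [h.prS_compl, o_qsub, polar_comm, h.polar_prS']; ring

theorem supp_cases {c : V} (hc : Q c ≠ 0) (hn : orefl Q c ∉ FS Q e) :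
    (∃ i j, i ≠ j ∧ polar Q (e i) c ≠ 0 ∧ polar Q (e j) c ≠ 0 ∧
      polar Q (e j) c ^ 2 ≠ polar Q (e i) c ^ 2 ∧ ∀ l, l ≠ i → l ≠ j → polar Q (e l) c = 0) ∨
    ∃ i j k, i ≠ j ∧ k ≠ i ∧ k ≠ j ∧ polar Q (e i) c ≠ 0 ∧ polar Q (e j) c ≠ 0 ∧
      polar Q (e k) c ≠ 0 := by
  obtain ⟨i, hi⟩ := h.exists_co (o_ne_zero_of_norm hc)
  obtain ⟨j, hj, hj0⟩ : ∃ j, j ≠ i ∧ polar Q (e j) c ≠ 0 := by
    by_contra H
    push Not at H
    obtain ⟨j, hj⟩ := h.idx [i] (by simp)
    have hj : j ≠ i := by simpa using hj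
    exact hn (h.mem_of_two hc hj.symm (fun l a _ => H l a) (.inl (H j hj)))
  by_cases H : ∃ k, k ≠ i ∧ k ≠ j ∧ polar Q (e k) c ≠ 0
  · obtain ⟨k, h1, h2, h3⟩ := H
    exact .inr ⟨i, j, k, hj.symm, h1, h2, hi, hj0, h3⟩
  · push Not at H
    exact .inl ⟨i, j, hj.symm, hi, hj0, fun H' => hn (h.mem_of_two hc hj.symm H (.inr H')), H⟩

theorem co_sub_ne {w : OG Q} (hw : w ∈ FS Q e) {i : ι} (hi : w.1 (e i) ≠ e i) :
    polar Q (e i) (w.1 (e i) - e i) ≠ 0 := by
  obtain ⟨j, s, -, hs⟩ := h.app hw i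
  rw [polar_sub_right, h.self, hs, o_polar_smul_right]
  by_cases H : i = j
  · subst H
    rw [h.self]
    intro H
    have : s = 1 := mul_right_cancel₀ h.two_ne (by linear_combination H)
    exact hi (by rw [hs, this, one_smul])
  · rw [h.orth H]; simpa using ⟨h.two, h.ne⟩

/-- An element of the frame stabiliser of rank `r` moves at most `2 r` basis vectors. -/
theorem exists_fix {w : OG Q} (hw : w ∈ FS Q e) {U : Submodule F V} (hU : ∀ x, w.1 x - x ∈ U)
    (l : List ι) (hl : l.length + 2 * finrank F U < Fintype.card ι) :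
    ∃ a, a ∉ l ∧ w.1 (e a) = e a := by
  by_contra H
  push Not at H
  have key : ∀ k, 2 * k + l.length ≤ Fintype.card ι + 1 → ∃ (L : List ι) (W : Submodule F V),
      L.length ≤ 2 * k ∧ W ≤ U ∧ k ≤ finrank F W ∧ ∀ x ∈ W, ∀ m, m ∉ L → polar Q (e m) x = 0 := by
    intro k
    induction k with
    | zero => exact fun _ => ⟨[], ⊥, by simp, bot_le, by simp, fun x hx m _ => by
        rw [(Submodule.mem_bot F).1 hx, polar_zero_right]⟩
    | succ k ih =>
      intro hk
      obtain ⟨L, W, h1, h2, h3, h4⟩ := ih (by omega)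
      obtain ⟨i, hi⟩ := exists_idx (l ++ L) (by simp; omega)
      rw [List.mem_append, not_or] at hi
      obtain ⟨j, s, -, hs⟩ := h.app hw i
      have h5 : w.1 (e i) - e i ∉ W := fun H' => h.co_sub_ne hw (H i hi.1) (h4 _ H' i hi.2)
      refine ⟨i :: j :: L, W ⊔ Submodule.span F {w.1 (e i) - e i}, by simp; omega,
        sup_le h2 (span_one_le (hU _)), ?_, fun x hx m hm => ?_⟩
      · have := Submodule.finrank_lt_finrank_of_lt (show W < W ⊔ Submodule.span F {w.1 (e i) - e i}
          from left_lt_sup.2 fun H' => h5 (H' (Submodule.mem_span_singleton_self _)))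
        omega
      · simp only [List.mem_cons, not_or] at hm
        obtain ⟨y, hy, z, hz, rfl⟩ := Submodule.mem_sup.1 hx
        obtain ⟨t, rfl⟩ := Submodule.mem_span_singleton.1 hz
        simp only [oexp, hs, h4 y hy m hm.2.2, h.orth hm.1, h.orth hm.2.1]; ring
  obtain ⟨-, W, -, h2, h3, -⟩ := key (finrank F U + 1) (by omega)
  have := Submodule.finrank_mono h2
  omega

theorem rr_long {c : V} (hc : Q c = κ) {k l : ι} {s β : F} (hkl : k ≠ l) (hs : s * s = 1)
    (hβ : β • c = e k - s • e l) {i j : ι} (hij : i ≠ j) : RR M e (e i - e j) := by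
  have h1 := h.Q_long hkl hs
  rw [← hβ, o_qsmul, hc] at h1
  have h2 := h.long_mem hij (mul_one 1)
  have h3 := h.Q_long hij (mul_one 1)
  rw [one_smul] at h2 h3
  exact h.rr_of_one (h3 ▸ h.two_ne) (h.mem_of_refl (h.refl_mem i) h2 (h.norm_ne i) (h3 ▸ h.two_ne)
    ⟨β * κ, by rw [h3, h.norm]; linear_combination -κ * h1⟩)

theorem co_long {c : V} {k l : ι} {s β : F} (hkl : k ≠ l) (hs : s * s = 1) (hβ0 : β ≠ 0)
    (hβ : β • c = e k - s • e l) : polar Q (e k) c ≠ 0 ∧ polar Q (e l) c ≠ 0 ∧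
      ∀ m, m ≠ k → m ≠ l → polar Q (e m) c = 0 := by
  have key := fun m => congrArg (polar Q (e m)) hβ
  refine ⟨fun H => h.two_ne ?_, fun H => h.two_ne ?_, fun m h1 h2 => ?_⟩
  · have := key k
    simp only [oexp, H, h.norm, h.orth hkl] at this
    linear_combination -this
  · have := key l
    simp only [oexp, H, h.norm, h.orth hkl.symm] at this
    linear_combination s * this - 2 * κ * hs
  · have := key m
    simp only [oexp, h.orth h1, h.orth h2] at this
    simpa [hβ0] using this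

theorem co_map {g : OG Q} {a y j : ι} (ha : g.1 (e a) ∈ Submodule.span F {e y}) (hj : j ≠ a) :
    polar Q (e y) (g.1 (e j)) = 0 := by
  obtain ⟨s, hs⟩ := Submodule.mem_span_singleton.1 ha
  have := OG.polar_app g (e a) (e j)
  rw [← hs, o_polar_smul_left, h.orth hj.symm] at this
  exact (mul_eq_zero.1 this).resolve_left fun H => OG.app_ne_zero g (h.e_ne a) (by
    rw [← hs, H, zero_smul])

theorem dd_app {i j : ι} (hij : i ≠ j) (x : V) : (dd Q e i j).1 x =
    x - (κ⁻¹ * polar Q (e i) x) • e i - (κ⁻¹ * polar Q (e j) x) • e j := by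
  simp only [OG.mul_app, h.refl_app, oexp, h.orth hij]; module

theorem dd_self {i j : ι} (hij : i ≠ j) : dd Q e i j * dd Q e i j = 1 := by
  conv_lhs => arg 2; rw [dd, orefl_comm_of_polar (h.orth hij)]
  simp [mul_assoc, ← mul_assoc (orefl Q (e j))]

theorem dd_FS (i j : ι) : dd Q e i j ∈ FS Q e := mul_mem (h.refl_mem i) (h.refl_mem j)

theorem dd_fix {i j l : ι} (hi : l ≠ i) (hj : l ≠ j) : (dd Q e i j).1 (e l) = e l := by
  rw [OG.mul_app, orefl_app_of_polar (h.orth hj), orefl_app_of_polar (h.orth hi)]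

theorem dd_left {i j : ι} (hij : i ≠ j) : (dd Q e i j).1 (e i) = -e i := by
  rw [OG.mul_app, orefl_app_of_polar (h.orth hij), orefl_app_self (h.norm_ne i)]

theorem exists_neg {i j k l : ι} (H : dd Q e i j * dd Q e k l ≠ 1) :
    ∃ m, (dd Q e i j * dd Q e k l).1 (e m) = -e m := by
  have h1 : ∀ i m, (orefl Q (e i)).1 (e m) = e m ∨ (orefl Q (e i)).1 (e m) = -e m := fun i m => by
    by_cases H : m = i
    · exact .inr (H ▸ orefl_app_self (h.norm_ne m))
    · exact .inl (orefl_app_of_polar (h.orth H))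
  by_contra H'
  push Not at H'
  refine H (h.og_ext fun m => Or.resolve_right ?_ (H' m))
  rcases h1 i m with a | a <;> rcases h1 j m with b | b <;> rcases h1 k m with c | c <;>
    rcases h1 l m with d | d <;> simp [a, b, c, d]

theorem conj_dd {g : OG Q} (hg : g ∈ FS Q e) {i j : ι} (hij : i ≠ j) :
    ∃ a b, ∃ s t : F, a ≠ b ∧ s * s = 1 ∧ t * t = 1 ∧ g.1 (e i) = s • e a ∧ g.1 (e j) = t • e b ∧
      g * dd Q e i j * g⁻¹ = dd Q e a b := by
  obtain ⟨a, s, hs, h1⟩ := h.app hg i
  obtain ⟨b, t, ht, h2⟩ := h.app hg j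
  have s0 : s ≠ 0 := by rintro rfl; simp at hs
  have t0 : t ≠ 0 := by rintro rfl; simp at ht
  refine ⟨a, b, s, t, fun H => ?_, hs, ht, h1, h2, by
    rw [← dd_map]; simp only [dd, h1, h2, orefl_smul s0, orefl_smul t0]⟩
  have := OG.polar_app g (e i) (e j)
  rw [h1, h2, H, o_polar_smul_left, o_polar_smul_right, h.self, h.orth hij] at this
  exact mul_ne_zero s0 (mul_ne_zero t0 h.two_ne) this

end Fs

end Cfsg.Agent.Cl.MaxO
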