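import Mathlib
import Cfsg.Agent.Cl.LowOFsA

/-!
# Dickson's theorem for three reflections, two of them commuting
-/

set_option autoImplicit false
set_option linter.unusedSectionVars false
set_option linter.unusedVariables false

namespace Cfsg.Agent.Cl.MaxO

open Module QuadraticMap Matrix
open scoped MatrixGroups

variable {F V : Type*} [Field F] [AddCommGroup V] [Module F V] {Q : QuadraticForm F V}
  [FiniteDimensional F V] [Finite F]

/-- The invariant of an element of order five. -/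
def Gd (x : F) : Prop := x ^ 2 - 3 * x + 1 = 0 ∧ x ≠ 4

/-- The admissible pairs of invariants. -/
def PP (x y : F) : Prop := (x = 1 ∨ x = 2 ∨ Gd x) ∧ (x ≠ 1 → y ≠ 1 → Gd x ∧ x + y = 3)

set_option synthInstance.maxSize 1024 in
theorem A5_three : ∀ a : L2.A5, a * a = 1 → ∀ b : L2.A5, b * b = 1 → a * b * (a * b) = 1 →
    ∀ c : L2.A5, c * c = 1 → (a * c) ^ 5 = 1 → (b * c) ^ 5 = 1 → (a * b * c) ^ 5 = 1 →
    a * c = 1 ∨ b * c = 1 ∨ a * b * c = 1 := by
  decide +kernel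

theorem norm_ne_of_three {S : Submodule F V} (hS : ND Q S) (h3 : finrank F S = 3) {u v : V}
    (hu : u ∈ S) (hv : v ∈ S) (hu0 : u ≠ 0) (hq : Q u = 0) (huv : polar Q u v = 0)
    (hn : v ∉ Submodule.span F {u}) : Q v ≠ 0 := fun h0 => by
  obtain ⟨w, hw, w1, w2⟩ := hS.exists_partner hu hu0 hq
  have hT : ND Q (Submodule.span F {u, w}) := nd_span_pair (by simp [hq, w2])
  have h4 := hT.finrank_inf_perp (span_two_le hu hw)
  rw [finrank_span_two hu0 fun H => by
    obtain ⟨s, rfl⟩ := Submodule.mem_span_singleton.1 H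
    simp only [oexp, hq] at w2; simp at w2] at h4
  have h5 : v - polar Q v w • u ∈ S ⊓ operp Q (Submodule.span F {u, w}) :=
    ⟨S.sub_mem hv (S.smul_mem _ hu), mem_operp_two.2 ⟨by simp [oexp, huv, hq], by
      simp [oexp, polar_comm Q w, w2]⟩⟩
  have h6 : v - polar Q v w • u ≠ 0 := fun H => hn (by
    rw [sub_eq_zero.1 H]; exact Submodule.smul_mem _ _ (Submodule.mem_span_singleton_self _))
  obtain ⟨y, hy, h7⟩ := (hS.inf_perp hT (span_two_le hu hw)).exists_polar_ne h5 h6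
  rw [← Submodule.eq_of_le_of_finrank_eq (span_one_le h5)
    (by rw [finrank_span_singleton h6]; omega)] at hy
  obtain ⟨t, rfl⟩ := Submodule.mem_span_singleton.1 hy
  exact h7 (by simp [oexp, polar_comm Q v u, huv, hq, h0])

/-- **Dickson's theorem** for `r_a`, `r_b`, `r_c` with `a ⊥ b`. -/
theorem d3 (hQ : (polarBilin Q).Nondegenerate) (h2 : (2 : F) ≠ 0) {a b d c : V}
    (ha0 : Q a ≠ 0) (hb0 : Q b ≠ 0) (hd0 : Q d ≠ 0) (hc0 : Q c ≠ 0) (hab : polar Q a b = 0)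
    (had : polar Q a d = 0) (hbd : polar Q b d = 0) {S : Submodule F V}
    (hSd : S = Submodule.span F {a, b} ⊔ Submodule.span F {d}) (hS : ND Q S)
    (h3 : finrank F S = 3) (hc : c ∈ S) (hac : polar Q a c ≠ 0) (hbc : polar Q b c ≠ 0)
    (hdc : polar Q d c ≠ 0) {L : Subgroup (OG Q)}
    (hL : ∀ g ∈ L, ∀ z, (∀ y ∈ S, polar Q y z = 0) → g.1 z = z)
    (r1 : orefl Q a ∈ L) (r2 : orefl Q b ∈ L) (r3 : orefl Q c ∈ L) :
    (∃ u v, u ≠ 0 ∧ Q u = 0 ∧ polar Q u v = 0 ∧ Q v ≠ 0 ∧ eich Q u v ∈ L) ∨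
      PP (polar Q a c ^ 2 / (Q a * Q c)) (polar Q b c ^ 2 / (Q b * Q c)) := by
  obtain ⟨ψ, μ, h⟩ := exists_sl2 hS h3
  have h4 : (4 : F) ≠ 0 := L2.four_ne_zero_of_two h2
  have ha : a ∈ S := hSd ▸ Submodule.mem_sup_left (mem_span_two_left _ _)
  have hb : b ∈ S := hSd ▸ Submodule.mem_sup_left (mem_span_two_right _ _)
  have hd : d ∈ S := hSd ▸ Submodule.mem_sup_right (Submodule.mem_span_singleton_self _)
  have hLS : ∀ g ∈ L, ∀ y ∈ S, g.1 y ∈ S := fun g hg y hy => by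
    rw [← operp_operp hQ S]
    exact mem_operp.2 fun z hz => by
      rw [← hL g hg z (mem_operp.1 hz), OG.polar_app, polar_comm]; exact mem_operp.1 hz y hy
  set H := imS ψ L hLS with hH
  have hmem : ∀ x ∈ S, Q x ≠ 0 → orefl Q x ∈ L → L2.pm (ψ x) ∈ H := fun x hx h0 hr =>
    ⟨_, h.det_ne hx h0, rfl, _, hr, -1, by ring, fun y hy => h.refl hx h0 hy⟩
  by_cases hreg : ∀ g ∈ H, g ≠ 1 → L2.tau g ≠ 4
  swap
  · push Not at hreg
    obtain ⟨_, ⟨A, hA, rfl, g, hg, ε, hε, h1⟩, hne, ht⟩ := hreg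
    obtain ⟨u, hu, hAu, hd⟩ := h.exists_decomp h2 A
    rw [(L2.tau_pm_eq_iff hA).1 ht, sub_self] at hd
    have hq : Q u = 0 := by simpa [h4, h.ne] using hd
    generalize A.trace / 2 = l at hAu
    have hu0 : u ≠ 0 := fun H => hne ((L2.pm_eq_one_iff' hA).2 ⟨l, by rw [hAu, H]; simp⟩)
    have huu : ψ u * ψ u = 0 := by rw [h.sq hu, hq]; simp
    have hAi : ∀ X Y : L2.M2 F, X * A = Y * A → X = Y := fun X Y e =>
      (Matrix.isUnit_iff_isUnit_det A).2 hA.isUnit |>.mul_right_cancel e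
    have hA2 : ∀ y ∈ S, A * A * ψ y = ψ ((g * g).1 y) * (A * A) := fun y hy => by
      rw [mul_assoc, h1 y hy, ← mul_assoc, mul_smul_comm, h1 _ (hLS g hg y hy), OG.mul_app]
      simp only [smul_mul_assoc, smul_smul, mul_assoc, hε, one_smul]
    have hgu : (g * g).1 u = u := h.inj' (hLS _ (L.mul_mem hg hg) u hu) hu (hAi _ _ (hAi _ _ (by
      rw [mul_assoc, ← hA2 u hu, hAu]
      simp only [add_mul, mul_add, smul_mul_assoc, mul_smul_comm, one_mul, mul_one, huu])))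
    obtain ⟨v, hv, h5, h6⟩ := eich_of_unip hQ h2 hS h3 (hL _ (L.mul_mem hg hg))
      (hLS _ (L.mul_mem hg hg)) (by rw [map_mul, Int.units_mul_self]) hu hu0 hq hgu
    refine .inl ⟨u, v, hu0, hq, h5, norm_ne_of_three hS h3 hu hv hu0 hq h5 fun H => ?_,
      h6 ▸ L.mul_mem hg hg⟩
    obtain ⟨s, rfl⟩ := Submodule.mem_span_singleton.1 H
    rw [eich_smul_self] at h6
    obtain ⟨w, hw, w1, w2⟩ := hS.exists_partner hu hu0 hq
    have l0 : l ≠ 0 := fun H => hA (by rw [hAu, H, zero_smul, zero_add, h.det u hu, hq]; simp)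
    have h7 := hA2 w hw
    rw [h6, OG.one_app, hAu] at h7
    simp only [add_mul, mul_add, smul_mul_assoc, mul_smul_comm, one_mul, mul_one, huu,
      add_zero] at h7
    have h8 : (2 * l) • (ψ u * ψ w - ψ w * ψ u) = 0 := by linear_combination (norm := module) h7
    rw [smul_eq_zero, sub_eq_zero] at h8
    have h9 := h.anti hu hw
    rw [w2, ← h8.resolve_left (mul_ne_zero h2 l0)] at h9
    have h10 := congrArg (ψ u * ·) h9
    simp only [mul_add, ← mul_assoc, huu, zero_mul, add_zero, mul_smul_comm, mul_one] at h10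
    exact hu0 (h.inj u hu ((smul_eq_zero.1 h10.symm).resolve_left h.ne))
  right
  have hperp : ∀ m ∈ S, polar Q a m = 0 → polar Q b m = 0 → m ∈ Submodule.span F {d} :=
    fun m hm h1 h5 => by
      rw [hSd] at hm
      obtain ⟨s, t, r, rfl⟩ := Fr.mem_three hm
      simp only [oexp, hab, had, hbd, polar_comm Q b a] at h1 h5
      have s0 : s = 0 := by simpa [h2, ha0] using h1
      have t0 : t = 0 := by simpa [h2, hb0] using h5
      exact Submodule.mem_span_singleton.2 ⟨r, by simp [s0, t0]⟩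
  have hδ : L2.pm (ψ a) * L2.pm (ψ b) = L2.pm (ψ d) := by
    have e1 := h.anti ha hb
    rw [hab, mul_zero, zero_smul] at e1
    have e2 : ψ b * ψ a = -(ψ a * ψ b) := eq_neg_of_add_eq_zero_right e1
    obtain ⟨m, hm, hm1⟩ := h.surj (ψ a * ψ b) (by
      have := congrArg Matrix.trace e1
      rw [trace_add, trace_mul_comm (ψ b), trace_zero] at this
      exact mul_left_cancel₀ h2 (by linear_combination this))
    have key : ∀ x ∈ S, ψ x * ψ m + ψ m * ψ x = 0 → polar Q x m = 0 := fun x hx e => by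
      rw [h.anti hx hm] at e
      simpa [h.ne] using e
    obtain ⟨l, rfl⟩ := Submodule.mem_span_singleton.1 (hperp m hm
      (key a ha (by rw [hm1, mul_assoc (ψ a) (ψ b), e2]; simp))
      (key b hb (by rw [hm1, ← mul_assoc, e2]; simp)))
    have hdet : (ψ a * ψ b).det ≠ 0 := by
      rw [det_mul]; exact mul_ne_zero (h.det_ne ha ha0) (h.det_ne hb hb0)
    rw [← L2.pm_mul (h.det_ne ha ha0) (h.det_ne hb hb0), ← hm1, map_smul, L2.pm_smul]
    rintro rfl
    exact hdet (by rw [← hm1]; simp)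
  have mα := hmem a ha ha0 r1
  have mβ := hmem b hb hb0 r2
  have mχ := hmem c hc hc0 r3
  have mδ : L2.pm (ψ d) ∈ H := hδ ▸ H.mul_mem mα mβ
  have hinv : ∀ x ∈ S, Q x ≠ 0 → L2.pm (ψ x) * L2.pm (ψ x) = 1 := fun x hx h0 => by
    rw [← L2.pm_mul (h.det_ne hx h0) (h.det_ne hx h0), h.sq hx,
      L2.pm_smul (mul_ne_zero h.ne h0), L2.pm_one]
  have hcn : ∀ x y, polar Q y x = 0 → polar Q y c ≠ 0 → c ∉ Submodule.span F {x} :=
    fun x y h1 h5 H => by
      obtain ⟨t, rfl⟩ := Submodule.mem_span_singleton.1 H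
      exact h5 (by rw [o_polar_smul_right, h1, mul_zero])
  have n1 := h.mul_ne_one ha hc ha0 hc0 (hcn a b (by rwa [polar_comm]) hbc)
  have n2 := h.mul_ne_one hb hc hb0 hc0 (hcn b a hab hac)
  have n3 := h.mul_ne_one hd hc hd0 hc0 (hcn d a had hac)
  have t1 := h.tau_mul h2 ha hc ha0 hc0
  have t2 := h.tau_mul h2 hb hc hb0 hc0
  have t3 := h.tau_mul h2 hd hc hd0 hc0
  have hsum : polar Q a c ^ 2 / (Q a * Q c) + polar Q b c ^ 2 / (Q b * Q c) +
      polar Q d c ^ 2 / (Q d * Q c) = 4 := by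
    rw [hSd] at hc
    obtain ⟨s, t, r, rfl⟩ := Fr.mem_three hc
    have e : Q (s • a + t • b + r • d) = s ^ 2 * Q a + t ^ 2 * Q b + r ^ 2 * Q d := by
      simp only [oexp, hab, had, hbd]; ring
    rw [e] at hc0 ⊢
    simp only [oexp, hab, had, hbd, polar_comm Q b a, polar_comm Q d a, polar_comm Q d b]
    field_simp
    ring
  have z1 : polar Q a c ^ 2 / (Q a * Q c) ≠ 0 := div_ne_zero (pow_ne_zero _ hac) (mul_ne_zero ha0 hc0)
  have z2 : polar Q b c ^ 2 / (Q b * Q c) ≠ 0 := div_ne_zero (pow_ne_zero _ hbc) (mul_ne_zero hb0 hc0)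
  have z3 : polar Q d c ^ 2 / (Q d * Q c) ≠ 0 := div_ne_zero (pow_ne_zero _ hdc) (mul_ne_zero hd0 hc0)
  rw [← t1] at z1 hsum ⊢
  rw [← t2] at z2 hsum ⊢
  rw [← t3] at z3 hsum
  have hpow : ∀ {X : Type} [Group X] (e : H ≃* X) (g : H) (k : ℕ), e g ^ k = 1 ↔ g.1 ^ k = 1 :=
    fun e g k => by rw [← map_pow, e.map_eq_one_iff, Subtype.ext_iff]; rfl
  have m1 := H.mul_mem mα mχ
  have m2 := H.mul_mem mβ mχ
  have m3 := H.mul_mem mδ mχ
  have hsq : ∀ g : PGL(2, F), g ≠ 1 → L2.tau g ≠ 0 → g ^ 2 ≠ 1 := fun g h1 h5 H =>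
    h5 ((L2.mul_self_eq_one_iff_tau h1).1 (by rwa [← pow_two]))
  rcases L2.dickson_regular H hreg with ⟨x, hx⟩ | ⟨g, -, hg, hle⟩ | ⟨⟨e⟩⟩ | ⟨⟨e⟩⟩ | ⟨⟨e⟩⟩
  · have := (L2.commutator_mem_uni (hx _ mα) (hx _ mχ)).2
    rw [inv_eq_of_mul_eq_one_right (hinv a ha ha0), inv_eq_of_mul_eq_one_right (hinv c hc hc0),
      mul_assoc] at this
    exact absurd this (hreg _ (H.mul_mem m1 m1) (by rw [← pow_two]; exact hsq _ n1 z1))
  · exfalso
    obtain ⟨A, hA, rfl⟩ := L2.exists_pm g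
    obtain ⟨m, hmS, hAm, hd⟩ := h.exists_decomp h2 A
    have m0 : Q m ≠ 0 := fun H => hg ((L2.tau_pm_eq_iff hA).2 (by
      rw [H] at hd; linear_combination hd))
    generalize A.trace / 2 = l at hAm
    have key : ∀ x ∈ S, Q x ≠ 0 → L2.pm (ψ x) ∈ H → polar Q m x = 0 ∨ x ∈ Submodule.span F {m} :=
      fun x hx h0 hxH => by
        have hxi : ∀ X Y : L2.M2 F, X * ψ x = Y * ψ x → X = Y := fun X Y e =>
          (Matrix.isUnit_iff_isUnit_det _).2 (h.det_ne hx h0).isUnit |>.mul_right_cancel e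
        have hr := h.refl hx h0 hmS
        have hrS : (orefl Q x).1 m ∈ S := by rw [orefl_app]; exact S.sub_mem hmS (S.smul_mem _ hx)
        obtain ⟨s, hs⟩ : ∃ s : F, (orefl Q x).1 m = s • m := by
          rcases L2.ntor_cases hA (h.det_ne hx h0) hg (hle hxH) with e | e
          · refine ⟨-1, h.inj' hrS (S.smul_mem _ hmS) (hxi _ _ ?_)⟩
            rw [hAm, mul_add, add_mul, hr] at e
            simp only [mul_smul_comm, smul_mul_assoc, mul_one, one_mul, map_smul] at e ⊢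
            linear_combination (norm := module) -e
          · refine ⟨1, h.inj' hrS (S.smul_mem _ hmS) (hxi _ _ ?_)⟩
            rw [L2.adjugate_eq_two, hAm, trace_add, h.tr, trace_smul, trace_one, mul_add, sub_mul,
              add_mul, hr] at e
            simp only [mul_smul_comm, smul_mul_assoc, mul_one, one_mul, map_smul, Fintype.card_fin,
              smul_eq_mul, Nat.cast_ofNat] at e ⊢
            linear_combination (norm := module) -e
        by_cases H : polar Q m x = 0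
        · exact .inl H
        · right
          rw [← Submodule.smul_mem_iff _ (mul_ne_zero (inv_ne_zero h0) H)]
          exact Submodule.mem_span_singleton.2 ⟨1 - s, by
            rw [sub_smul, one_smul, ← hs, orefl_app, sub_sub_cancel]⟩
    have k1 : ∀ x y, Q x ≠ 0 → polar Q y x = 0 → polar Q x c ≠ 0 → polar Q y c ≠ 0 →
        x ∉ Submodule.span F {m} := fun x y x0 h1 h5 h6 H => by
      obtain ⟨s, rfl⟩ := Submodule.mem_span_singleton.1 H
      have s0 : s ≠ 0 := by rintro rfl; simp at x0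
      rcases key c hc hc0 mχ with H | H
      · exact h5 (by rw [o_polar_smul_left, H, mul_zero])
      · exact hcn m y (by simpa [s0] using h1) h6 H
    have ma := (key a ha ha0 mα).resolve_right (k1 a b ha0 (by rwa [polar_comm]) hac hbc)
    have mb := (key b hb hb0 mβ).resolve_right (k1 b a hb0 hab hbc hac)
    obtain ⟨l', hl'⟩ := Submodule.mem_span_singleton.1
      (hperp m hmS (by rwa [polar_comm]) (by rwa [polar_comm]))
    have l0 : l' ≠ 0 := by rintro rfl; exact m0 (by rw [← hl']; simp)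
    exact k1 d a hd0 had hdc hac (Submodule.mem_span_singleton.2 ⟨l'⁻¹, by
      rw [← hl', smul_smul, inv_mul_cancel₀ l0, one_smul]⟩)
  · have k := ((L2.A4_pow (e ⟨_, m1⟩)).imp (hpow e _ _).1 (hpow e _ _).1).resolve_left (hsq _ n1 z1)
    rw [L2.pow_three_eq_one_iff n1] at k
    exact ⟨.inl k, fun H => absurd k H⟩
  · have k : ∀ g (hg : g ∈ H), g ≠ 1 → L2.tau g ≠ 0 → L2.tau g = 1 ∨ L2.tau g = 2 :=
      fun g hg h1 h5 => ((L2.S4_pow (e ⟨g, hg⟩)).imp (hpow e _ _).1 (hpow e _ _).1).imp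
        (L2.pow_three_eq_one_iff h1).1 fun H => ((L2.pow_four_eq_one_iff h1).1 H).resolve_left h5
    refine ⟨(k _ m1 n1 z1).imp id .inl, fun a1 a2 => (z3 ?_).elim⟩
    rw [(k _ m1 n1 z1).resolve_left a1, (k _ m2 n2 z2).resolve_left a2] at hsum
    linear_combination hsum
  · have k : ∀ g (hg : g ∈ H), g ≠ 1 → L2.tau g ≠ 0 → L2.tau g ≠ 1 → g ^ 5 = 1 :=
      fun g hg h1 h5 h6 => by
        rcases L2.A5_pow (e ⟨g, hg⟩) with H | H | H <;> rw [hpow] at H
        exacts [absurd H (hsq g h1 h5), absurd ((L2.pow_three_eq_one_iff h1).1 H) h6, H]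
    have k' : ∀ g (hg : g ∈ H), g ≠ 1 → L2.tau g ≠ 0 → L2.tau g ≠ 1 → Gd (L2.tau g) :=
      fun g hg h1 h5 h6 => ⟨(L2.pow_five_eq_one_iff h1).1 (k g hg h1 h5 h6), hreg g hg h1⟩
    refine ⟨by_cases .inl fun H => .inr (.inr (k' _ m1 n1 z1 H)), fun a1 a2 => ⟨k' _ m1 n1 z1 a1, ?_⟩⟩
    by_cases a3 : L2.tau (L2.pm (ψ d) * L2.pm (ψ c)) = 1
    · rw [a3] at hsum; linear_combination hsum
    exfalso
    have i1 : ∀ x (hx : x ∈ S) (h0 : Q x ≠ 0) (m : L2.pm (ψ x) ∈ H), e ⟨_, m⟩ * e ⟨_, m⟩ = 1 :=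
      fun x hx h0 m => by rw [← pow_two, hpow, pow_two]; exact hinv x hx h0
    have i2 : e ⟨_, mα⟩ * e ⟨_, mβ⟩ = e ⟨_, mδ⟩ := by rw [← map_mul]; exact congrArg e (Subtype.ext hδ)
    have i3 : ∀ g (hg : g ∈ H), g ≠ 1 → e ⟨g, hg⟩ ≠ 1 := fun g hg h1 H =>
      h1 (congrArg Subtype.val (e.map_eq_one_iff.1 H))
    rcases A5_three _ (i1 a ha ha0 mα) _ (i1 b hb hb0 mβ) (i2 ▸ i1 d hd hd0 mδ) _ (i1 c hc hc0 mχ)
      (by rw [← map_mul, hpow]; exact k _ m1 n1 z1 a1) (by rw [← map_mul, hpow]; exact k _ m2 n2 z2 a2)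
      (by rw [i2, ← map_mul, hpow]; exact k _ m3 n3 z3 a3) with H | H | H
    · exact i3 _ m1 n1 (by rwa [← map_mul] at H)
    · exact i3 _ m2 n2 (by rwa [← map_mul] at H)
    · exact i3 _ m3 n3 (by rwa [i2, ← map_mul] at H)

end Cfsg.Agent.Cl.MaxO
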