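import Mathlib
import Cfsg.Agent.Cl.LowOD3

/-!
# Frame stabilisers in `Ω₅(p)`, `Ω₆(p)` II: there are no new roots
-/

set_option autoImplicit false
set_option linter.unusedSectionVars false
set_option linter.unusedVariables false

namespace Cfsg.Agent.Cl.MaxO

open Module QuadraticMap

theorem finset_exchange {ι : Type*} [DecidableEq ι] (P : Finset ι → Prop) {k : ℕ}
    (step : ∀ T a z, T.card = k → P T → a ∈ T → z ∉ T → P (insert z (T.erase a))) :
    ∀ (n : ℕ) (T T' : Finset ι), (T \ T').card = n → T.card = k → T'.card = k → P T → P T' := by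
  intro n
  induction n with
  | zero =>
    intro T T' h1 h2 h3 h
    rwa [← Finset.eq_of_subset_of_card_le (Finset.sdiff_eq_empty_iff_subset.1
      (Finset.card_eq_zero.1 h1)) (by omega)]
  | succ n ih =>
    intro T T' h1 h2 h3 h
    obtain ⟨a, ha⟩ := Finset.card_pos.1 (show 0 < (T \ T').card by omega)
    obtain ⟨z, hz⟩ := Finset.card_pos.1 (show 0 < (T' \ T).card by
      rw [← Finset.card_sdiff_comm (h2.trans h3.symm)]; omega)
    rw [Finset.mem_sdiff] at ha hz
    refine ih _ T' ?_ ?_ h3 (step T a z h2 h ha.1 hz.2)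
    · rw [Finset.insert_sdiff_of_mem _ hz.1, Finset.erase_sdiff_comm,
        Finset.card_erase_of_mem (Finset.mem_sdiff.2 ha)]
      omega
    · rw [Finset.card_insert_of_notMem (by simp [hz.2]), Finset.card_erase_of_mem ha.1]
      have := Finset.card_pos.2 ⟨a, ha.1⟩
      omega

variable {F V : Type*} [Field F] [AddCommGroup V] [Module F V] {Q : QuadraticForm F V}
  [FiniteDimensional F V] [Finite F] {ι : Type*} [Fintype ι] [DecidableEq ι]
  {M : Subgroup (OG Q)} {e : ι → V} {κ : F}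

variable (M e) in
/-- The group generated by the reflections in roots. -/
def WR : Subgroup (OG Q) := Subgroup.closure {g | ∃ c, RR M e c ∧ g = orefl Q c}

theorem RR.mem_WR {c : V} (h : RR M e c) : orefl Q c ∈ WR M e := Subgroup.subset_closure ⟨c, h, rfl⟩

theorem pp_sum (h2 : (2 : F) ≠ 0) (h3 : (3 : F) ≠ 0) (T : Finset ι) (τ : ι → F) (h4 : 4 ≤ T.card)
    (h6 : T.card ≤ 6) (hs : ∑ i ∈ T, τ i = 4) (hP : ∀ i ∈ T, ∀ j ∈ T, i ≠ j → PP (τ i) (τ j)) :
    T.card = 4 ∧ ∀ i ∈ T, τ i = 1 := by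
  classical
  have e1 := Finset.sum_filter_add_sum_filter_not T (fun i => τ i = 1) τ
  have e2 := Finset.card_filter_add_card_filter_not (s := T) (fun i => τ i = 1)
  rw [hs, Finset.sum_congr rfl fun i hi => (Finset.mem_filter.1 hi).2, Finset.sum_const,
    nsmul_eq_mul, mul_one] at e1
  generalize (T.filter fun i => τ i = 1).card = n at e1 e2
  set N := T.filter fun i => ¬ τ i = 1 with hN
  have hN' : ∀ i ∈ N, ∀ j ∈ N, i ≠ j → Gd (τ i) ∧ τ i + τ j = 3 := fun i hi j hj hij => by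
    rw [hN, Finset.mem_filter] at hi hj
    exact (hP i hi.1 j hj.1 hij).2 hi.2 hj.2
  by_cases c3 : 2 < N.card
  · obtain ⟨a, ha, b, hb, c, hc, hab, hac, hbc⟩ := Finset.two_lt_card.1 c3
    obtain ⟨⟨g1, g2⟩, a1⟩ := hN' a ha b hb hab
    have a2 := (hN' a ha c hc hac).2
    have a3 := (hN' b hb c hc hbc).2
    exact (g2 (mul_left_cancel₀ h2 (by
      linear_combination 4 * g1 - (2 * τ a - 4) * (a1 + a2 - a3)))).elim
  by_cases c2 : N.card = 2
  · obtain ⟨a, b, hab, H⟩ := Finset.card_eq_two.1 c2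
    rw [H, Finset.sum_pair hab, (hN' a (by simp [H]) b (by simp [H]) hab).2] at e1
    have : n = 2 ∨ n = 3 ∨ n = 4 := by omega
    rcases this with rfl | rfl | rfl <;> push_cast at e1
    exacts [absurd (by linear_combination e1) (one_ne_zero (α := F)),
      absurd (by linear_combination e1) h2, absurd (by linear_combination e1) h3]
  by_cases c1 : N.card = 1
  · obtain ⟨a, H⟩ := Finset.card_eq_one.1 c1
    have ha : a ∈ N := by simp [H]
    rw [H, Finset.sum_singleton] at e1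
    rw [hN, Finset.mem_filter] at ha
    obtain ⟨b, hb, hba⟩ := Finset.exists_mem_ne (by omega : 1 < T.card) a
    have hp := ((hP a ha.1 b hb hba.symm).1).resolve_left ha.2
    have : n = 3 ∨ n = 4 ∨ n = 5 := by omega
    rcases this with rfl | rfl | rfl <;> push_cast at e1
    · exact absurd (by linear_combination e1) ha.2
    · rcases hp with hp | ⟨hp, -⟩
      · exact absurd (by linear_combination e1 - hp) h2
      · exact absurd (by linear_combination hp - (τ a - 3) * e1) (one_ne_zero (α := F))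
    · rcases hp with hp | ⟨hp, hp'⟩
      · exact absurd (by linear_combination e1 - hp) h3
      · exact absurd (by linear_combination (τ a - 3) * e1 - hp) hp'
  have c0 : N = ∅ := Finset.card_eq_zero.1 (by omega)
  rw [c0] at e1 e2
  refine ⟨?_, fun i hi => by_contra fun H => by
    have : i ∈ N := Finset.mem_filter.2 ⟨hi, H⟩
    simp [c0] at this⟩
  have : n = 4 ∨ n = 5 ∨ n = 6 := by simp at e2; omega
  rcases this with rfl | rfl | rfl <;> simp only [Finset.sum_empty, Finset.card_empty] at e1 e2 <;>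
    push_cast at e1
  exacts [e2.symm, absurd (by linear_combination e1) (one_ne_zero (α := F)),
    absurd (by linear_combination e1) h2]

namespace Fs

variable (h : Fs M e κ)
include h

theorem mem_of_WR {g : OG Q} (hg : g ∈ WR M e) (hd : dickson h.nd g = 1) : g ∈ M := by
  obtain ⟨i, -⟩ := h.idx [] (by simp)
  have key : ∀ c, RR M e c → ∀ y, (dickson h.nd y = 1 ∧ y ∈ M) ∨
      (dickson h.nd y = -1 ∧ orefl Q (e i) * y ∈ M) → (dickson h.nd (orefl Q c * y) = 1 ∧
      orefl Q c * y ∈ M) ∨ (dickson h.nd (orefl Q c * y) = -1 ∧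
        orefl Q (e i) * (orefl Q c * y) ∈ M) := by
    rintro c hc y (⟨a, b⟩ | ⟨a, b⟩)
    · exact .inr ⟨by rw [map_mul, a, dickson_orefl _ hc.1, mul_one],
        by rw [← mul_assoc]; exact M.mul_mem (hc.2 i) b⟩
    · exact .inl ⟨by rw [map_mul, a, dickson_orefl _ hc.1]; simp, by
        simpa [mul_assoc, ← mul_assoc (orefl Q (e i))] using M.mul_mem (h.rr_mul hc (h.rr_e i)) b⟩
  have : (dickson h.nd g = 1 ∧ g ∈ M) ∨ (dickson h.nd g = -1 ∧ orefl Q (e i) * g ∈ M) := by
    clear hd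
    induction hg using Subgroup.closure_induction_left with
    | one => exact .inl ⟨map_one _, M.one_mem⟩
    | mul_left x hx y hy ih => obtain ⟨c, hc, rfl⟩ := hx; exact key c hc y ih
    | inv_mul_cancel x hx y hy ih =>
      obtain ⟨c, hc, rfl⟩ := hx; rw [orefl_inv]; exact key c hc y ih
  exact (this.resolve_right fun H => absurd (hd.symm.trans H.1) (by decide)).2

theorem rr_cls {c : V} (hc : RR M e c) : Cls Q κ c := by
  obtain ⟨i, -⟩ := h.idx [] (by simp)
  have := (orefl_mul_orefl_mem_commutator_iff h.nd (not_oExc_of_two_ne_zero h.two) (h.norm_ne i)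
    hc.1).1 (h.sub (hc.2 i))
  exact ⟨hc.1, by rwa [h.norm, mul_comm] at this⟩

theorem swap_app {a b : ι} (hab : a ≠ b) (i : ι) :
    (orefl Q (e a - e b)).1 (e i) = e (Equiv.swap a b i) := by
  have h0 := h.long_ne hab (mul_one 1)
  rw [one_smul] at h0
  have hq : Q (e a) = Q (e b) := by rw [h.norm, h.norm]
  by_cases H : i = a
  · rw [H, Equiv.swap_apply_left, orefl_sub_app hq h0]
  by_cases H' : i = b
  · rw [H', Equiv.swap_apply_right, orefl_sub_app' hq h0]
  · rw [Equiv.swap_apply_of_ne_of_ne H H',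
      orefl_app_of_polar (by simp only [oexp, h.orth H, h.orth H']; ring)]

theorem co_swap {a b : ι} (hab : a ≠ b) (i : ι) (x : V) :
    polar Q (e i) ((orefl Q (e a - e b)).1 x) = polar Q (e (Equiv.swap a b i)) x := by
  rw [← h.swap_app hab, ← OG.polar_app (orefl Q (e a - e b)), orefl_orefl_app]

/-- Even permutations fixing a point act on the roots. -/
theorem rr_perm {c : V} (hc : RR M e c) {a b d f m : ι} (hab : a ≠ b) (hdf : d ≠ f) (h1 : m ≠ a)
    (h2 : m ≠ b) (h3 : m ≠ d) (h4 : m ≠ f) : ∃ c', RR M e c' ∧ Q c' = Q c ∧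
      ∀ i, polar Q (e i) c' = polar Q (e (Equiv.swap d f (Equiv.swap a b i))) c :=
  ⟨_, h.rr_map (h.cyc_mem hab hdf) (x := e m) (by
    rw [OG.mul_app, h.swap_app hdf, h.swap_app hab, Equiv.swap_apply_of_ne_of_ne h3 h4,
      Equiv.swap_apply_of_ne_of_ne h1 h2]
    exact h.rr_e m) (h.rr_e m) hc, OG.map_app _ _, fun i => by
    rw [OG.mul_app, h.co_swap hab, h.co_swap hdf]⟩

theorem eq_prS {T : Finset ι} {c : V} (hT : ∀ i, i ∉ T → polar Q (e i) c = 0) :
    prS Q e κ T c = c := h.ext fun i => by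
  rw [h.co_prS]; split_ifs with H; exacts [rfl, (hT i H).symm]

theorem polar_supp {T : Finset ι} {c : V} (hT : ∀ i, i ∉ T → polar Q (e i) c = 0) (x : V) :
    2 * κ * polar Q x c = ∑ i ∈ T, polar Q (e i) x * polar Q (e i) c := by
  conv_lhs => rw [← h.eq_prS hT, prS, quad_polar_sum_right, Finset.mul_sum]
  refine Finset.sum_congr rfl fun i _ => ?_
  have := h.ne
  have := h.two
  rw [o_polar_smul_right, polar_comm Q x]; field_simp

theorem Q_supp {T : Finset ι} {c : V} (hT : ∀ i, i ∉ T → polar Q (e i) c = 0) :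
    4 * κ * Q c = ∑ i ∈ T, polar Q (e i) c ^ 2 := by rw [← h.Q_prS, h.eq_prS hT]

theorem card_ne_three (h3 : (3 : F) ≠ 0) : Nat.card F ≠ 3 := fun H => h3 (by
  have := Fintype.ofFinite F
  have := FiniteField.cast_card_eq_zero F
  rwa [← Nat.card_eq_fintype_card, H] at this)

/-- The unipotent case. -/
theorem top_of_eich (h3 : (3 : F) ≠ 0) {s a : V} (hs0 : s ≠ 0) (hs : Q s = 0)
    (hsa : polar Q s a = 0) (ha : Q a ≠ 0) (H : eich Q s a ∈ WR M e) : EO Q ≤ M := by
  have hq := h.card_ne_three h3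
  obtain ⟨k, hk⟩ := h.exists_co hs0
  obtain ⟨b, b1, b2, b3, b4⟩ : ∃ b, Q b ≠ 0 ∧ polar Q s b = 0 ∧ polar Q (e k) b = 0 ∧
      eich Q s b ∈ WR M e := ⟨a + (-(polar Q (e k) a / polar Q (e k) s)) • s, by
    simpa [oexp, hs, hsa, polar_comm Q a s] using ha, by simp [oexp, hs, hsa],
    by simp only [oexp]; field_simp; ring, by rwa [eich_add_smul_self hs hsa]⟩
  have hs' : Q ((orefl Q (e k)).1 s) = 0 := by rw [OG.map_app, hs]
  have b5 : (orefl Q (e k)).1 b = b := orefl_app_of_polar (by rwa [polar_comm])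
  have b6 : polar Q ((orefl Q (e k)).1 s) b = 0 := by rw [← b5, OG.polar_app, b2]
  have b7 : eich Q ((orefl Q (e k)).1 s) b ∈ WR M e := by
    rw [← b5, ← conj_eich]
    exact mul_mem (mul_mem (h.rr_e k).mem_WR b4) (inv_mem (h.rr_e k).mem_WR)
  have hβ := mul_ne_zero (inv_ne_zero h.ne) hk
  have hne : polar Q s ((orefl Q (e k)).1 s) ≠ 0 := by
    rw [h.refl_app]; simp only [oexp, hs, polar_comm Q s]; simpa using ⟨h.ne, hk⟩
  have hE := eich_of_hyp (M := M) (nd_span_one h.two b1) hs hs' hne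
    (span_one_le (S := h.EAm hs) ⟨b2, h.mem_of_WR b4 (dickson_eich _ _ _)⟩)
    (span_one_le (S := h.EAm hs') ⟨b6, h.mem_of_WR b7 (dickson_eich _ _ _)⟩)
  have hT : ND Q (Submodule.span F {s, (orefl Q (e k)).1 s}) :=
    nd_span_pair (by simpa [hs] using hne)
  have hTb : ∀ x ∈ Submodule.span F {s, (orefl Q (e k)).1 s}, ∀ y ∈ Submodule.span F {b},
      polar Q x y = 0 := fun x hx y hy => by
    obtain ⟨p, q, rfl⟩ := Submodule.mem_span_pair.1 hx
    obtain ⟨r, rfl⟩ := Submodule.mem_span_singleton.1 hy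
    simp only [oexp, b2, b6]; ring
  have hd : 3 ≤ finrank F ↥(Submodule.span F {s, (orefl Q (e k)).1 s} ⊔ Submodule.span F {b}) := by
    rw [hT.finrank_sup hTb, finrank_span_singleton (o_ne_zero_of_norm b1),
      finrank_span_two hs0 fun H => by
        obtain ⟨r, hr⟩ := Submodule.mem_span_singleton.1 H
        exact hne (by rw [← hr]; simp [oexp, hs])]
  have hk' : e k ∈ Submodule.span F {s, (orefl Q (e k)).1 s} ⊔ Submodule.span F {b} :=
    Submodule.mem_sup_left (by
      rw [← Submodule.smul_mem_iff _ hβ, show _ • e k = s - (orefl Q (e k)).1 s by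
        simp [h.refl_app]]
      exact Submodule.sub_mem _ (mem_span_two_left _ _) (mem_span_two_right _ _))
  have hR : ∀ i, Rt M (e k) (e i) := fun i =>
    ⟨cls_of_eq' (h.norm_ne k) (by rw [h.norm, h.norm]), h.dd_mem k i⟩
  refine grow h.nd h.two hq (hT.sup (nd_span_one h.two b1) hTb) hd hE hk' (h.norm_ne k)
    (fun u hu => ?_) fun S hle hS hES hne => ?_
  · obtain ⟨i, hi⟩ := h.exists_co hu
    exact ⟨_, hR i, hi⟩
  have hd' := hd.trans (Submodule.finrank_mono hle)
  have hkS := hle hk'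
  obtain ⟨z, hz⟩ : ∃ z, e z ∉ S := by
    by_contra H
    push Not at H
    exact hne (eq_top_iff.2 fun x _ => by
      rw [← h.prS_univ x]; exact S.sum_mem fun i _ => S.smul_mem _ (H i))
  by_cases hz' : e z ∈ operp Q S
  swap
  · exact ⟨_, hR z, hz, hz'⟩
  obtain ⟨v, hv, v1, v2, v3⟩ : ∃ v ∈ S, Cls Q (Q (e k)) v ∧ v ∉ Submodule.span F {e k} ∧
      polar Q (e k) v ≠ 0 := by
    by_contra H
    push Not at H
    have hg : Good Q S := by
      have := card_cases h.two hq
      unfold Good; omega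
    rcases conn hS hg (h.norm_ne k) (span_one_le hkS) fun v hv hc =>
      (em _).imp id fun H' => mem_operp.1 (mem_operp_one.2 (H v hv hc H')) with H' | H'
    · exact h.e_ne k (Submodule.span_singleton_eq_bot.1 H')
    · have := finrank_span_one_le (F := F) (e k)
      rw [H'] at this; omega
  obtain ⟨m, hm, hm0⟩ : ∃ m, m ≠ k ∧ polar Q (e m) v ≠ 0 := by
    by_contra H
    push Not at H
    refine v2 ?_
    rw [← h.eq_prS (T := {k}) fun i hi => H i (by simpa using hi), prS, Finset.sum_singleton]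
    exact Submodule.smul_mem _ _ (Submodule.mem_span_singleton_self _)
  have hzv : ∀ y ∈ S, polar Q (e z) y = 0 := fun y hy => by
    rw [polar_comm]; exact mem_operp.1 hz' y hy
  have hmz : m ≠ z := fun H => hm0 (H ▸ hzv v hv)
  have hkz : k ≠ z := fun H => hz (H ▸ hkS)
  obtain ⟨n, hn⟩ := h.idx [k, m, z] (by simp)
  simp only [List.mem_cons, List.not_mem_nil, or_false, not_or] at hn
  have hg := h.cyc_mem hmz (Ne.symm hn.2.2)
  have hgk := h.cyc_fix (h.orth hm) (h.orth hkz.symm) (h.orth hn.1)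
  refine ⟨_, (rt_of_EE h.two hS hd' hES hkS (h.norm_ne k) hv v1).map hg (hR k) (hgk.symm ▸ hR k),
    fun H => hm0 ?_, fun H => v3 ?_⟩
  · rw [← OG.polar_app (orefl Q (e m - e z) * orefl Q (e z - e n)),
      h.cyc_app hmz (Ne.symm hn.2.1) (Ne.symm hn.2.2), hzv _ H]
  · rw [← OG.polar_app (orefl Q (e m - e z) * orefl Q (e z - e n)), hgk, mem_operp.1 H _ hkS]

section Semi

variable (h3 : (3 : F) ≠ 0) (hno : ¬ EO Q ≤ M)
include h3 hno

theorem pair {c : V} (hc : RR M e c) {i j k : ι} (hij : i ≠ j) (hki : k ≠ i) (hkj : k ≠ j)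
    (hi : polar Q (e i) c ≠ 0) (hj : polar Q (e j) c ≠ 0) (hk : polar Q (e k) c ≠ 0) :
    PP (polar Q (e i) c ^ 2 / (κ * Q c)) (polar Q (e j) c ^ 2 / (κ * Q c)) := by
  have ci : polar Q (e i) (prS Q e κ {i, j}ᶜ c) = 0 := by simp [h.co_prS]
  have cj : polar Q (e j) (prS Q e κ {i, j}ᶜ c) = 0 := by simp [h.co_prS]
  have ck : polar Q (e k) (prS Q e κ {i, j}ᶜ c) ≠ 0 := by simpa [h.co_prS, hki, hkj] using hk
  have cc := h.polar_prS' {i, j}ᶜ c
  have cf := h.rr_flip hc {i, j}ᶜ
  have hcS : c ∈ Submodule.span F {e i, e j} ⊔ Submodule.span F {prS Q e κ {i, j}ᶜ c} := by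
    convert Fr.three_mem (e i) (e j) _ (polar Q (e i) c / (2 * κ)) (polar Q (e j) c / (2 * κ)) 1
    rw [h.prS_compl, prS, Finset.sum_pair hij]; simp
  generalize prS Q e κ {i, j}ᶜ c = d at *
  by_cases hd : Q d = 0
  · have hu : Q ((-2 * (Q c)⁻¹) • d) = 0 := by rw [o_qsmul, hd, mul_zero]
    have huc : polar Q ((-2 * (Q c)⁻¹) • d) c = 0 := by rw [o_polar_smul_left, cc, hd]; ring
    refine (hno (h.top_of_eich h3 (smul_ne_zero (mul_ne_zero (neg_ne_zero.2 h.two)
      (inv_ne_zero hc.1)) (o_ne_zero_of_polar_right ck)) hu huc hc.1 ?_)).elim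
    rw [eich_eq_orefl_mul hu huc hc.1, smul_smul, mul_left_comm, mul_inv_cancel₀ hc.1, mul_one,
      neg_smul, ← sub_eq_add_neg]
    exact mul_mem hc.mem_WR cf.mem_WR
  obtain ⟨hS, hS3⟩ := h.nd_three hij hd ci cj
  have hfix : ∀ x ∈ Submodule.span F {e i, e j} ⊔ Submodule.span F {d}, orefl Q x ∈
      fixS Q (operp Q (Submodule.span F {e i, e j} ⊔ Submodule.span F {d})) := fun x hx w hw =>
    orefl_app_of_polar (by rw [polar_comm]; exact mem_operp.1 hw x hx)
  rcases d3 h.nd h.two (h.norm_ne i) (h.norm_ne j) hd hc.1 (h.orth hij) ci cj rfl hS hS3 hcS hi hj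
    (by rw [cc]; exact mul_ne_zero h.two hd) (L := WR M e ⊓ fixS Q (operp Q _))
    (fun g hg z hz => hg.2 z (mem_operp.2 hz))
    ⟨(h.rr_e i).mem_WR, hfix _ (Submodule.mem_sup_left (mem_span_two_left _ _))⟩
    ⟨(h.rr_e j).mem_WR, hfix _ (Submodule.mem_sup_left (mem_span_two_right _ _))⟩
    ⟨hc.mem_WR, hfix _ hcS⟩ with ⟨u, v, u0, u1, u2, v0, H⟩ | H
  · exact (hno (h.top_of_eich h3 u0 u1 u2 v0 H.1)).elim
  · rwa [h.norm, h.norm] at H

theorem supp_big {c : V} (hc : RR M e c) {a b d f : ι} (hab : a ≠ b) (had : a ≠ d) (haf : a ≠ f)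
    (hbd : b ≠ d) (hbf : b ≠ f) (hdf : d ≠ f) (ha : polar Q (e a) c ≠ 0) (hb : polar Q (e b) c ≠ 0)
    (hd : polar Q (e d) c ≠ 0) (hf : polar Q (e f) c ≠ 0) :
    (∀ z, z ∉ ({a, b, d, f} : Finset ι) → polar Q (e z) c = 0) ∧
      ∀ i, polar Q (e i) c ≠ 0 → polar Q (e i) c ^ 2 = κ * Q c := by
  classical
  have N0 := mul_ne_zero h.ne hc.1
  set T := Finset.univ.filter fun i => polar Q (e i) c ≠ 0 with hT
  have hm : ∀ i, i ∈ T ↔ polar Q (e i) c ≠ 0 := fun i => by simp [hT]
  have hsub : ({a, b, d, f} : Finset ι) ⊆ T := by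
    simp [Finset.insert_subset_iff, hm, ha, hb, hd, hf]
  have hc4 : ({a, b, d, f} : Finset ι).card = 4 := Finset.card_eq_four.2
    ⟨a, b, d, f, hab, had, haf, hbd, hbf, hdf, rfl⟩
  have h4 := hc4 ▸ Finset.card_le_card hsub
  obtain ⟨k1, k2⟩ := pp_sum h.two h3 T (fun i => polar Q (e i) c ^ 2 / (κ * Q c)) h4
    ((Finset.card_le_univ T).trans h.card') (by
      rw [← Finset.sum_div, ← h.Q_supp fun i hi => by simpa [hm] using hi, mul_assoc,
        mul_div_cancel_right₀ _ N0])
    fun i hi j hj hij => by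
      obtain ⟨k, hk, hk'⟩ := Finset.exists_mem_notMem_of_card_lt_card (s := {i, j}) (t := T)
        (Finset.card_le_two.trans_lt (by omega))
      simp only [Finset.mem_insert, Finset.mem_singleton, not_or] at hk'
      exact h.pair h3 hno hc hij hk'.1 hk'.2 ((hm i).1 hi) ((hm j).1 hj) ((hm k).1 hk)
  refine ⟨fun z hz => ?_, fun i hi => (div_eq_one_iff_eq N0).1 (k2 i ((hm i).2 hi))⟩
  rw [Finset.eq_of_subset_of_card_le hsub (by omega)] at hz
  simpa [hm] using hz

theorem no_four {c : V} (hc : RR M e c) {a b d f : ι} (hab : a ≠ b) (had : a ≠ d) (haf : a ≠ f)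
    (hbd : b ≠ d) (hbf : b ≠ f) (hdf : d ≠ f) (ha : polar Q (e a) c ≠ 0) (hb : polar Q (e b) c ≠ 0)
    (hd : polar Q (e d) c ≠ 0) (hf : polar Q (e f) c ≠ 0) : False := by
  obtain ⟨k1, k2⟩ := h.supp_big h3 hno hc hab had haf hbd hbf hdf ha hb hd hf
  obtain ⟨z, hz⟩ := h.idx [a, b, d, f] (by simp)
  simp only [List.mem_cons, List.not_mem_nil, or_false, not_or] at hz
  obtain ⟨za, zb, zd, zf⟩ := hz
  have z0 := k1 z (by simp [za, zb, zd, zf])
  obtain ⟨c', c1, -, c2⟩ := h.rr_perm hc hdf (Ne.symm zf) had haf haf (Ne.symm za)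
  have pa : polar Q (e a) c' = polar Q (e a) c := by
    simp [c2, Equiv.swap_apply_of_ne_of_ne, had, haf, Ne.symm za]
  have pb : polar Q (e b) c' = polar Q (e b) c := by
    simp [c2, Equiv.swap_apply_of_ne_of_ne, hbd, hbf, Ne.symm zb]
  have pd : polar Q (e d) c' = 0 := by simp [c2, z0]
  have pf : polar Q (e f) c' = polar Q (e d) c := by
    simp [c2, Equiv.swap_apply_of_ne_of_ne, hdf, Ne.symm zd]
  have pz : polar Q (e z) c' = polar Q (e f) c := by
    simp [c2, Equiv.swap_apply_of_ne_of_ne, zd, zf]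
  have p0 := h.polar_supp k1 c'
  rw [Finset.sum_insert (by simp [hab, had, haf]), Finset.sum_insert (by simp [hbd, hbf]),
    Finset.sum_pair hdf, pa, pb, pd, pf] at p0
  have ka := k2 a ha
  have kb := k2 b hb
  have kd := k2 d hd
  have kf := k2 f hf
  have N0 := mul_ne_zero h.ne hc.1
  have co : ∀ i, polar Q (e i) ((orefl Q c).1 c') =
      polar Q (e i) c' - (Q c)⁻¹ * polar Q c' c * polar Q (e i) c := fun i => by
    rw [orefl_app]; simp only [oexp]
  obtain ⟨t, ht, ht'⟩ : ∃ t, (Q c)⁻¹ * polar Q c' c = t ∧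
      2 * (κ * Q c) * t = 2 * (κ * Q c) + polar Q (e d) c * polar Q (e f) c :=
    ⟨_, rfl, by have := hc.1; field_simp; linear_combination p0 + ka + kb⟩
  rw [ht] at co
  have t1 : 1 - t ≠ 0 := fun H => mul_ne_zero hd hf (by
    linear_combination -ht' - 2 * (κ * Q c) * H)
  have t0 : t ≠ 0 := fun H => mul_ne_zero h3 (mul_ne_zero N0 N0) (by
    rw [H] at ht'
    linear_combination (polar Q (e d) c * polar Q (e f) c - 2 * (κ * Q c)) * ht' +
      polar Q (e f) c ^ 2 * kd + κ * Q c * kf)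
  have := (h.supp_big h3 hno (hc.refl c1) hab had haf hbd hbf hdf
    (by rw [co, pa]; exact fun H => mul_ne_zero t1 ha (by linear_combination H))
    (by rw [co, pb]; exact fun H => mul_ne_zero t1 hb (by linear_combination H))
    (by rw [co, pd]; exact fun H => mul_ne_zero t0 hd (by linear_combination -H)) (by
      rw [co, pf]
      intro H
      refine mul_ne_zero h3 (mul_ne_zero N0 N0) ?_
      have e1 : (κ * Q c) * (polar Q (e d) c - 2 * polar Q (e f) c) = 0 := by
        linear_combination 2 * (κ * Q c) * H + polar Q (e f) c * ht' + polar Q (e d) c * kf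
      have e2 := (mul_eq_zero.1 e1).resolve_left N0
      linear_combination (κ * Q c) * (kd - 4 * kf -
        (polar Q (e d) c + 2 * polar Q (e f) c) * e2))).1 z (by simp [za, zb, zd, zf])
  rw [co, pz, z0] at this
  exact hf (by linear_combination this)

theorem no_three {c : V} (hc : RR M e c) {a b d : ι} (hab : a ≠ b) (had : a ≠ d) (hbd : b ≠ d)
    (ha : polar Q (e a) c ≠ 0) (hb : polar Q (e b) c ≠ 0) (hd : polar Q (e d) c ≠ 0) : False := by
  have N0 := mul_ne_zero h.ne hc.1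
  wlog H : polar Q (e a) c ^ 2 ≠ 2 * (κ * Q c) generalizing a b
  · refine this hab.symm hbd had hb ha fun H' => ?_
    have := h.pair h3 hno hc hab had.symm hbd.symm ha hb hd
    rw [not_not.1 H, H', mul_div_cancel_right₀ _ N0] at this
    have k : (2 : F) ≠ 1 := fun H => one_ne_zero (by linear_combination H)
    exact one_ne_zero (α := F) (by linear_combination -(this.2 k k).1.1)
  have k1 : ∀ z, z ∉ ({a, b, d} : Finset ι) → polar Q (e z) c = 0 := fun z hz => by
    simp only [Finset.mem_insert, Finset.mem_singleton, not_or] at hz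
    by_contra H'
    exact h.no_four h3 hno hc hab had (Ne.symm hz.1) hbd (Ne.symm hz.2.1) (Ne.symm hz.2.2) ha hb hd H'
  obtain ⟨f, hf⟩ := h.idx [a, b, d] (by simp)
  obtain ⟨z, hz⟩ := h.idx [a, b, d, f] (by simp)
  simp only [List.mem_cons, List.not_mem_nil, or_false, not_or] at hz hf
  obtain ⟨za, zb, zd, zf⟩ := hz
  obtain ⟨fa, fb, fd⟩ := hf
  have z0 := k1 z (by simp [za, zb, zd])
  have f0 := k1 f (by simp [fa, fb, fd])
  obtain ⟨c', c1, -, c2⟩ := h.rr_perm hc (Ne.symm fb) (Ne.symm zd) hab (Ne.symm fa) had (Ne.symm za)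
  have pa : polar Q (e a) c' = polar Q (e a) c := by
    simp [c2, Equiv.swap_apply_of_ne_of_ne, had, hab, Ne.symm za, Ne.symm fa]
  have pb : polar Q (e b) c' = 0 := by
    simp [c2, Equiv.swap_apply_of_ne_of_ne, fd, Ne.symm zf, f0]
  have pd : polar Q (e d) c' = 0 := by
    simp [c2, Equiv.swap_apply_of_ne_of_ne, hbd.symm, Ne.symm fd, z0]
  have pf : polar Q (e f) c' = polar Q (e b) c := by
    simp [c2, Equiv.swap_apply_of_ne_of_ne, hbd, Ne.symm zb]
  have p0 := h.polar_supp k1 c'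
  rw [Finset.sum_insert (by simp [hab, had]), Finset.sum_pair hbd, pa, pb, pd] at p0
  have co : ∀ i, polar Q (e i) ((orefl Q c).1 c') =
      polar Q (e i) c' - (Q c)⁻¹ * polar Q c' c * polar Q (e i) c := fun i => by
    rw [orefl_app]; simp only [oexp]
  obtain ⟨t, ht, ht'⟩ : ∃ t, (Q c)⁻¹ * polar Q c' c = t ∧
      2 * (κ * Q c) * t = polar Q (e a) c ^ 2 :=
    ⟨_, rfl, by have := hc.1; field_simp; linear_combination p0⟩
  rw [ht] at co
  have t1 : 1 - t ≠ 0 := fun H' => H (by linear_combination -ht' - 2 * (κ * Q c) * H')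
  have t0 : t ≠ 0 := fun H' => pow_ne_zero 2 ha (by rw [← ht', H', mul_zero])
  exact h.no_four h3 hno (hc.refl c1) hab had (Ne.symm fa) hbd (Ne.symm fb) (Ne.symm fd)
    (by rw [co, pa]; exact fun H => mul_ne_zero t1 ha (by linear_combination H))
    (by rw [co, pb]; exact fun H => mul_ne_zero t0 hb (by linear_combination -H))
    (by rw [co, pd]; exact fun H => mul_ne_zero t0 hd (by linear_combination -H))
    (by rw [co, pf, f0]; simpa using hb)

theorem root_semi {c : V} (hc : RR M e c) : orefl Q c ∈ FS Q e := by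
  by_contra hn
  rcases h.supp_cases hc.1 hn with ⟨a, b, hab, ha, hb, H, k0⟩ | ⟨i, j, k, h1, h2, h4, hi, hj, hk⟩
  swap
  · exact h.no_three h3 hno hc h1 h2.symm h4.symm hi hj hk
  have k1 : ∀ z, z ∉ ({a, b} : Finset ι) → polar Q (e z) c = 0 := fun z hz => by
    simp only [Finset.mem_insert, Finset.mem_singleton, not_or] at hz
    exact k0 z hz.1 hz.2
  obtain ⟨f, hf⟩ := h.idx [a, b] (by simp)
  obtain ⟨z, hz⟩ := h.idx [a, b, f] (by simp)
  simp only [List.mem_cons, List.not_mem_nil, or_false, not_or] at hz hf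
  obtain ⟨za, zb, zf⟩ := hz
  obtain ⟨fa, fb⟩ := hf
  obtain ⟨c', c1, -, c2⟩ := h.rr_perm hc (Ne.symm fb) (Ne.symm zf) hab (Ne.symm fa) (Ne.symm fa)
    (Ne.symm za)
  have pa : polar Q (e a) c' = polar Q (e a) c := by
    simp [c2, Equiv.swap_apply_of_ne_of_ne, hab, Ne.symm za, Ne.symm fa]
  have pb : polar Q (e b) c' = 0 := by simp [c2, k0 z za zb]
  have pf : polar Q (e f) c' = polar Q (e b) c := by
    simp [c2, Equiv.swap_apply_of_ne_of_ne, Ne.symm fb, Ne.symm zb]
  have p0 := h.polar_supp k1 c'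
  have q0 := h.Q_supp k1
  rw [Finset.sum_pair hab] at p0 q0
  rw [pa, pb] at p0
  have co : ∀ i, polar Q (e i) ((orefl Q c).1 c') =
      polar Q (e i) c' - (Q c)⁻¹ * polar Q c' c * polar Q (e i) c := fun i => by
    rw [orefl_app]; simp only [oexp]
  obtain ⟨t, ht, ht'⟩ : ∃ t, (Q c)⁻¹ * polar Q c' c = t ∧
      2 * (κ * Q c) * t = polar Q (e a) c ^ 2 :=
    ⟨_, rfl, by have := hc.1; field_simp; linear_combination p0⟩
  rw [ht] at co
  have t1 : 1 - t ≠ 0 := fun H' => H (by linear_combination 2 * ht' + 4 * (κ * Q c) * H' - q0)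
  have t0 : t ≠ 0 := fun H' => pow_ne_zero 2 ha (by rw [← ht', H', mul_zero])
  exact h.no_three h3 hno (hc.refl c1) hab (Ne.symm fa) (Ne.symm fb)
    (by rw [co, pa]; exact fun H => mul_ne_zero t1 ha (by linear_combination H))
    (by rw [co, pb]; exact fun H => mul_ne_zero t0 hb (by linear_combination -H))
    (by rw [co, pf, k0 f fa fb]; simpa using hb)

end Semi

end Fs

end Cfsg.Agent.Cl.MaxO
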