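import Mathlib
import Cfsg.Agent.Cl.LowOFsB

/-!
# Frame stabilisers in `Ω₅(p)`, `Ω₆(p)` III: characteristic three; dimension five
-/

set_option autoImplicit false
set_option linter.unusedSectionVars false
set_option linter.unusedVariables false

namespace Cfsg.Agent.Cl.MaxO

open Module QuadraticMap

variable {F V : Type*} [Field F] [AddCommGroup V] [Module F V] {Q : QuadraticForm F V}
  [FiniteDimensional F V] [Finite F] {ι : Type*} [Fintype ι] [DecidableEq ι]
  {M : Subgroup (OG Q)} {e : ι → V} {κ : F}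

namespace Fs

variable (h : Fs M e κ)
include h

theorem top_of_all (H : ∀ x, Cls Q κ x → RR M e x) : EO Q ≤ M := by
  refine EO_le_iff.2 fun u v hu huv => ?_
  by_cases hu0 : u = 0
  · rw [hu0, eich_zero_left]; exact M.one_mem
  obtain ⟨u', hu', h1⟩ := o_exists_partner h.nd hu hu0
  have hT : ND Q (Submodule.span F {u, u'}) := nd_span_pair (by simp [hu, h1])
  have h2 := finrank_operp h.nd (Submodule.span F {u, u'})
  have h3 := finrank_span_pair_le (F := F) u u'
  have h4 := h.dim
  have key : operp Q (Submodule.span F {u, u'}) ≤ h.EAm hu := fun x hx => by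
    by_contra hn
    obtain ⟨y, hy, y1, y2⟩ := exists_cls_notMem (hT.perp h.nd) (.inl (by omega)) h.ne hx hn
    have y3 := (mem_operp_two.1 hy).1
    exact y2 (((h.EAm hu).smul_mem_iff (inv_ne_zero y1.1)).1 (mem_EA_of_refl hu y1.1 y3
      (h.rr_mul (H y y1) (H _ (y1.of_eq (by simp [oexp, hu, polar_comm Q y u, y3]))))))
  have h5 := (h.EAm hu).add_mem (key (x := v - polar Q v u' • u) (mem_operp_two.2
    ⟨by simp [oexp, hu, huv], by simp [oexp, polar_comm Q u', h1]⟩))
    (smul_self_mem_EA hu (polar Q v u'))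
  rw [sub_add_cancel] at h5
  exact h5.2

theorem sq_three (h3 : (3 : F) = 0) {x : F} (hx : x ≠ 0) : x ^ 2 = 1 := by
  obtain ⟨k, rfl⟩ := h.prime x
  rw [← Nat.div_add_mod k 3] at hx ⊢
  have : k % 3 < 3 := Nat.mod_lt _ (by omega)
  generalize k % 3 = r at *
  push_cast at hx ⊢
  rw [h3] at hx ⊢
  interval_cases r
  · simp at hx
  · simp
  · push_cast; linear_combination h3

theorem card_supp_three (h3 : (3 : F) = 0) {c : V} (hc : Cls Q κ c) {T : Finset ι}
    (hT : ∀ i, polar Q (e i) c ≠ 0 ↔ i ∈ T) : T.card = 1 ∨ T.card = 4 := by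
  have h1 := h.Q_supp (T := T) (c := c) fun i hi => by simpa [← hT] using hi
  rw [Finset.sum_congr rfl fun i hi => h.sq_three h3 ((hT i).2 hi), Finset.sum_const, nsmul_eq_mul,
    mul_one] at h1
  obtain ⟨h0, r, hr⟩ := hc
  have r0 : r ≠ 0 := fun H => mul_ne_zero h0 h.ne (by rw [hr, H, mul_zero])
  have h4 : (T.card : F) = 1 := by linear_combination -h1 + 4 * hr + 4 * h.sq_three h3 r0 + h3
  have h5 := (Finset.card_le_univ T).trans h.card'
  generalize T.card = n at *
  have k1 : (1 : F) ≠ 0 := one_ne_zero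
  interval_cases n <;> push_cast at h4
  exacts [absurd h4.symm k1, .inl rfl, absurd (by linear_combination h4) k1,
    absurd (by linear_combination h3 - h4) k1, .inr rfl, absurd (by linear_combination h4 - h3) k1,
    absurd (by linear_combination 2 * h3 - h4) k1]

theorem root_three (h3 : (3 : F) = 0) (hno : ¬ EO Q ≤ M) {c : V} (hc : RR M e c) :
    orefl Q c ∈ FS Q e := by
  classical
  by_contra hn
  rcases h.supp_cases hc.1 hn with ⟨i, j, -, hi, hj, H, -⟩ | ⟨i, j, k, h1, h2, h4, hi, hj, hk⟩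
  · exact H (by rw [h.sq_three h3 hi, h.sq_three h3 hj])
  let P : Finset ι → Prop := fun T => ∀ x, (∀ i, polar Q (e i) x ≠ 0 ↔ i ∈ T) → RR M e x
  have base : ∀ c T, RR M e c → (∀ i, polar Q (e i) c ≠ 0 ↔ i ∈ T) → P T := fun c T hc hT x hx => by
    convert h.rr_flip hc (Finset.univ.filter fun i => polar Q (e i) x ≠ polar Q (e i) c) using 1
    refine h.ext fun i => ?_
    simp only [oexp, h.co_prS, Finset.mem_filter, Finset.mem_univ, true_and]
    split_ifs with H
    · have a1 : i ∈ T := by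
        by_contra H'
        exact H (by rw [not_not.1 (mt (hx i).1 H'), not_not.1 (mt (hT i).1 H')])
      have a2 : (polar Q (e i) x - polar Q (e i) c) * (polar Q (e i) x + polar Q (e i) c) = 0 := by
        linear_combination h.sq_three h3 ((hx i).2 a1) - h.sq_three h3 ((hT i).2 a1)
      linear_combination (mul_eq_zero.1 a2).resolve_left (sub_ne_zero.2 H)
    · simpa using H
  have step : ∀ T a z, T.card = 4 → P T → a ∈ T → z ∉ T → P (insert z (T.erase a)) :=
    fun T a z hT hP ha hz => by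
      obtain ⟨b, hb, b', hb', m, hm, h1, h2, h4⟩ := Finset.two_lt_card.1
        (show 2 < (T.erase a).card by rw [Finset.card_erase_of_mem ha]; omega)
      rw [Finset.mem_erase] at hb hb' hm
      have az : a ≠ z := fun H => hz (H ▸ ha)
      have k : ∀ i, polar Q (e i) (∑ i ∈ T, e i) ≠ 0 ↔ i ∈ T := fun i => by
        rw [quad_polar_sum_right]
        by_cases H : i ∈ T
        · rw [Finset.sum_eq_single_of_mem i H fun j _ hj => h.orth hj.symm, h.self]
          simpa [H] using h.two_ne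
        · rw [Finset.sum_eq_zero fun j hj => h.orth fun H' : i = j => H (H' ▸ hj)]
          simp [H]
      obtain ⟨c', c1, -, c2⟩ := h.rr_perm (hP _ k) az h1 hm.1 (fun H => hz (H ▸ hm.2)) h2.symm
        h4.symm
      refine base c' _ c1 fun i => ?_
      rw [c2, k, Finset.mem_insert, Finset.mem_erase]
      simp only [Equiv.swap_apply_def]
      grind
  set T := Finset.univ.filter fun i => polar Q (e i) c ≠ 0 with hT
  have hm : ∀ i, polar Q (e i) c ≠ 0 ↔ i ∈ T := fun i => by simp [hT]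
  have h5 : T.card = 4 := (h.card_supp_three h3 (h.rr_cls hc) hm).resolve_left fun H =>
    h1 (Finset.card_le_one.1 H.le i ((hm i).1 hi) j ((hm j).1 hj))
  refine hno (h.top_of_all fun x hx => ?_)
  set T' := Finset.univ.filter fun i => polar Q (e i) x ≠ 0 with hT'
  have hm' : ∀ i, polar Q (e i) x ≠ 0 ↔ i ∈ T' := fun i => by simp [hT']
  rcases h.card_supp_three h3 hx hm' with H | H
  · obtain ⟨a, ha⟩ := Finset.card_eq_one.1 H
    refine base (e a) T' (h.rr_e a) (fun i => ?_) x hm'
    rw [ha, Finset.mem_singleton]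
    exact ⟨fun H => by_contra fun H' => H (h.orth H'), fun H => by rw [H, h.self]; exact h.two_ne⟩
  · exact finset_exchange P step _ T T' rfl h5 H (base c T hc hm) x hm'

theorem root (hno : ¬ EO Q ≤ M) {c : V} (hc : RR M e c) : orefl Q c ∈ FS Q e :=
  (em ((3 : F) = 0)).elim (fun h3 => h.root_three h3 hno hc) fun h3 => h.root_semi h3 hno hc

/-- An element of `M` mapping a point of the frame to a point of the frame stabilises it. -/
theorem st (hno : ¬ EO Q ≤ M) {g : OG Q} (hg : g ∈ M) {a y : ι}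
    (ha : g.1 (e a) ∈ Submodule.span F {e y}) : g ∈ FS Q e := by
  by_contra hgn
  obtain ⟨s, hs⟩ := Submodule.mem_span_singleton.1 ha
  have s0 : s ≠ 0 := fun H => OG.app_ne_zero g (h.e_ne a) (by rw [← hs, H, zero_smul])
  have ra : RR M e (g.1 (e a)) := hs ▸ (h.rr_e y).smul s0
  obtain ⟨j, hj⟩ : ∃ j, ∀ m, g.1 (e j) ∉ Submodule.span F {e m} := by
    by_contra H
    push Not at H
    exact hgn (h.mem_FS H)
  have hja : j ≠ a := fun H => hj y (H ▸ ha)
  have rj := h.rr_map hg ra (h.rr_e a) (h.rr_e j)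
  obtain ⟨k, l, t, β, hkl, ht, β0, hβ⟩ := h.long_of_mem rj.1 (h.root hno rj) hj
  obtain ⟨c1, c2, c3⟩ := h.co_long hkl ht β0 hβ
  have c4 := h.co_map ha hja
  have ky : k ≠ y := fun H => c1 (H ▸ c4)
  have ly : l ≠ y := fun H => c2 (H ▸ c4)
  have rx := h.rr_map hg ra (h.rr_e a) (h.rr_long (by rw [OG.map_app, h.norm]) hkl ht hβ hja)
  rw [map_sub, ← hs] at rx
  refine h.notMem_of_three rx.1 hkl ky ly ?_ ?_ ?_ (h.root hno rx)
  · simpa [h.orth ky] using c1
  · simpa [h.orth ly] using c2
  · simp only [oexp, c4, h.norm]; simpa using ⟨s0, h.two, h.ne⟩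

theorem st_fix (hno : ¬ EO Q ≤ M) {g : OG Q} (hg : g ∈ M) {a : ι} (ha : g.1 (e a) = e a) :
    g ∈ FS Q e := h.st hno hg (a := a) (y := a) (ha.symm ▸ Submodule.mem_span_singleton_self _)

theorem of_rr (hno : ¬ EO Q ≤ M) {g : OG Q} (hg : g ∈ M) {a : ι} (ha : RR M e (g.1 (e a))) :
    g ∈ FS Q e := by
  by_contra hgn
  have hr := fun j => h.rr_map hg ha (h.rr_e a) (h.rr_e j)
  have hl := fun j => h.long_of_mem (hr j).1 (h.root hno (hr j)) fun i H => hgn (h.st hno hg H)
  obtain ⟨k, l, s, β, hkl, hs, β0, hβ⟩ := hl a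
  obtain ⟨c1, c2, c3⟩ := h.co_long hkl hs β0 hβ
  obtain ⟨z, hz⟩ := h.idx [k, l] (by simp)
  simp only [List.mem_cons, List.not_mem_nil, or_false, not_or] at hz
  obtain ⟨m, hm⟩ := (h.map hg).exists_co (h.e_ne z)
  rw [polar_comm] at hm
  have hma : a ≠ m := fun H => hm (H ▸ c3 z hz.1 hz.2)
  have h1 : polar Q (e k) (g.1 (e m)) = s * polar Q (e l) (g.1 (e m)) := by
    have := congrArg (polar Q · (g.1 (e m))) hβ
    simp only [oexp, OG.polar_app, h.orth hma] at this
    linear_combination -this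
  have h2 : polar Q (e l) (g.1 (e m)) = 0 := by
    by_contra H
    exact h.notMem_of_three (hr m).1 hkl (Ne.symm hz.1) (Ne.symm hz.2) (by
      rw [h1]; exact mul_ne_zero (by rintro rfl; simp at hs) H) H hm (h.root hno (hr m))
  have rx := h.rr_map hg ha (h.rr_e a) (h.rr_long (by rw [OG.map_app, h.norm]) hkl hs hβ hma)
  rw [map_sub] at rx
  exact h.notMem_of_three rx.1 hkl (Ne.symm hz.1) (Ne.symm hz.2) (by simpa [h1, h2] using c1)
    (by simpa [h2] using c2) (by simpa [c3 z hz.1 hz.2] using hm) (h.root hno rx)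

theorem le_of_odd (hno : ¬ EO Q ≤ M) (hodd : Odd (Fintype.card ι)) {g : OG Q} (hg : g ∈ M) :
    g ∈ FS Q e := by
  have h1 : ∀ x, (OG.negOne Q).1 x = x - ∑ i, ((Q (e i))⁻¹ * polar Q x (e i)) • e i := fun x => by
    have := h.ne
    have := h.two
    have h2 : ∑ i, ((Q (e i))⁻¹ * polar Q x (e i)) • e i = (2 : F) • prS Q e κ Finset.univ x := by
      rw [prS, Finset.smul_sum]
      exact Finset.sum_congr rfl fun i _ => by
        rw [h.norm, polar_comm, smul_smul]; congr 1; field_simp
    rw [h2, h.prS_univ, OG.negOne_app]; module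
  have h2 : ∀ i, OG.negOne Q * orefl Q (e i) ∈ M := fun i => by
    refine h.le _ (mul_mem (h.mem_FS fun j => ⟨j, neg_mem (Submodule.mem_span_singleton_self _)⟩)
      (h.refl_mem i)) ((mem_commutator_OG_iff h.nd (not_oExc_of_two_ne_zero h.two) _).2 ⟨?_, ?_⟩)
    · rw [map_mul, quad_dickson_orth h.nd e (fun i j => h.orth) h.norm_ne _ h1,
        dickson_orefl _ (h.norm_ne i), hodd.neg_one_pow]; simp
    · rw [map_mul, quad_ospin_orth h.nd e (fun i j => h.orth) h.norm_ne _ h1,
        ospin_orefl _ (h.norm_ne i)]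
      simp only [h.norm, Finset.prod_const, Finset.card_univ]
      obtain ⟨k, hk⟩ := hodd
      rw [sqSign_pow h.ne, ← pow_succ, hk, show 2 * k + 1 + 1 = 2 * (k + 1) by ring, pow_mul,
        Int.units_sq, one_pow]
  obtain ⟨a, -⟩ := h.idx [] (by simp)
  refine h.of_rr hno hg (h.rr_of_one (by rw [OG.map_app]; exact h.norm_ne a) (i := a) ?_)
  convert M.mul_mem (h2 a) (M.mul_mem (M.mul_mem hg (h2 a)) (M.inv_mem hg)) using 1
  rw [← mul_assoc g, OG.negOne_comm, mul_assoc _ g, mul_assoc (OG.negOne Q) _ g⁻¹, conj_orefl,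
    ← OG.negOne_comm, mul_assoc, ← mul_assoc (OG.negOne Q), OG.negOne_mul_self, one_mul]

end Fs

/-- Frames with five or six points: reduction to the group theoretic statement. -/
theorem omax_frame_low (hQ : (polarBilin Q).Nondegenerate) (h2 : (2 : F) ≠ 0)
    (hp : (Nat.card F).Prime) {D : ι → Submodule F V} (hD : ODec Q D)
    (hiso : ∀ i j, ∃ e : D i ≃ₗ[F] D j, ∀ x : D i, Q (e x : V) = Q (x : V))
    (hk : ∀ i, finrank F (D i) = 1) (h7 : 5 ≤ Fintype.card ι) (h8 : Fintype.card ι ≤ 6)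
    (H : ∀ (M : Subgroup (OG Q)) (e : ι → V) (κ : F), Fs M e κ → ¬ EO Q ≤ M → M ≤ FS Q e) :
    OMax (dstab Q D) := by
  obtain ⟨i₀⟩ : Nonempty ι := Fintype.card_pos_iff.1 (by omega)
  obtain ⟨v, hv, hv0⟩ := (hD.nd i₀).exists_nonsingular (ne_bot_of_finrank (hk i₀).ge)
  choose φ hφ using hiso i₀
  let e : ι → V := fun i => φ i ⟨v, hv⟩
  have he : ∀ i, Q (e i) = Q v := fun i => hφ i _
  have hD' : D = fun i => Submodule.span F {e i} := funext fun i =>
    (Submodule.eq_of_le_of_finrank_eq (span_one_le (φ i _).2) (by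
      rw [finrank_span_singleton (o_ne_zero_of_norm (by rwa [he])), hk])).symm
  have horth : ∀ {i j}, i ≠ j → polar Q (e i) (e j) = 0 := fun hij =>
    hD.orth _ _ hij _ (φ _ _).2 _ (φ _ _).2
  have hn : 5 ≤ finrank F V := by
    have := (show LinearIndependent F e from LinearMap.linearIndependent_of_isOrthoᵢ
      (B := polarBilin Q) (fun i j hij => horth hij) fun i H => mul_ne_zero h2 hv0 (by
        rw [← he i, ← o_polar_self]; exact H)).fintype_card_le_finrank
    omega
  have hFr : ∀ M : Subgroup (OG Q), dstab Q D ⊓ commutator (OG Q) ≤ M →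
      M ≤ commutator (OG Q) → Fs M e (Q v) := fun M hM hM' =>
    { ne := hv0
      two := h2
      norm := he
      orth := horth
      sep := fun x hx => by
        by_contra H
        obtain ⟨i, hi⟩ := hD.exists_pr_ne_zero H
        refine hi (hD.pr_eq_zero_iff.2 fun y hy => ?_)
        rw [hD'] at hy
        obtain ⟨s, rfl⟩ := Submodule.mem_span_singleton.1 hy
        rw [o_polar_smul_left, hx, mul_zero]
      nd := hQ
      card := h7
      card' := h8
      sub := hM'
      dim := hn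
      prime := fun t => by
        have := Fact.mk hp
        obtain ⟨k, hk⟩ := (AddSubmonoid.mem_multiples_iff _ _).1 (mem_multiples_iff_mem_zmultiples.2
          (mem_zmultiples_of_prime_card rfl (one_ne_zero (α := F)) : t ∈ _))
        exact ⟨k, by simpa using hk.symm⟩
      le := fun g hg hg' => hM ⟨hD' ▸ hg, hg'⟩ }
  refine ⟨?_, fun M hM hM' g hgM hgD => ?_⟩
  · have h := hFr _ inf_le_right le_rfl
    obtain ⟨a, ha⟩ := h.idx [i₀] (by simp)
    obtain ⟨b, hb⟩ := h.idx [i₀, a] (by simp)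
    obtain ⟨c, hc⟩ := h.idx [i₀, a, b] (by simp)
    simp only [List.mem_cons, List.not_mem_nil, or_false, not_or] at ha hb hc
    obtain ⟨u, hu, hu0, hq⟩ := exists_singular_mem (Q := Q)
      (h.nd_three hb.2 (h.norm_ne c) (h.orth (Ne.symm hc.2.2)) (h.orth (Ne.symm hc.2.1))).2.ge
    have h1 : polar Q (e i₀) u = 0 := by
      obtain ⟨s, t, r, rfl⟩ := Fr.mem_three hu
      simp only [oexp, h.orth (Ne.symm ha), h.orth (Ne.symm hb.1), h.orth (Ne.symm hc.1)]; ring
    refine ⟨_, eich_mem_omega hQ hn u (e i₀), fun H => ?_⟩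
    obtain ⟨j, s, -, hs⟩ := h.app (hD' ▸ H) i₀
    rw [eich_app_of_polar_left hq (by rwa [polar_comm]) h1, h.self] at hs
    by_cases H' : j = i₀
    · have := congrArg Q hs
      subst H'
      have a1 := congrArg (polar Q (e j)) hs
      simp only [oexp, h1, he] at a1
      have : s = 1 := mul_right_cancel₀ h.two_ne (by linear_combination -a1)
      rw [this, one_smul, sub_eq_self] at hs
      exact smul_ne_zero h.two_ne hu0 hs
    · have a1 := congrArg (polar Q (e i₀)) hs
      simp only [oexp, h1, he, h.orth (Ne.symm H')] at a1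
      exact h.two_ne (by linear_combination a1)
  rw [omega_eq hQ hn]
  by_contra hno
  rw [hD'] at hgD
  exact hgD (H M e _ (hFr M hM hM') hno hgM)

/-- **Frames in dimension five.** -/
theorem omax_frame_five (hQ : (polarBilin Q).Nondegenerate) (h2 : (2 : F) ≠ 0)
    (hp : (Nat.card F).Prime) {D : ι → Submodule F V} (hD : ODec Q D)
    (hiso : ∀ i j, ∃ e : D i ≃ₗ[F] D j, ∀ x : D i, Q (e x : V) = Q (x : V))
    (hk : ∀ i, finrank F (D i) = 1) (h5 : Fintype.card ι = 5) : OMax (dstab Q D) :=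
  omax_frame_low hQ h2 hp hD hiso hk h5.ge (by omega) fun M e κ h hno g hg =>
    h.le_of_odd hno (by rw [h5]; decide) hg

end Cfsg.Agent.Cl.MaxO
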