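import Mathlib

/-!
# Small facts on permutations of six points
-/

set_option autoImplicit false

namespace Cfsg.Agent.Cl.MaxO

open Equiv

theorem six_idx (l : List (Fin 6)) (h : l.length < 6) : ∃ x, x ∉ l := by
  by_contra! H
  have h1 : (Finset.univ : Finset (Fin 6)) ⊆ l.toFinset := fun x _ => List.mem_toFinset.2 (H x)
  have := (Finset.card_le_card h1).trans (List.toFinset_card_le l)
  simp at this
  omega

theorem six_compl {y z : Fin 6} (h : y ≠ z) : ∃ a b c d : Fin 6, [y, z, a, b, c, d].Nodup := by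
  obtain ⟨a, ha⟩ := six_idx [y, z] (by simp)
  obtain ⟨b, hb⟩ := six_idx [y, z, a] (by simp)
  obtain ⟨c, hc⟩ := six_idx [y, z, a, b] (by simp)
  obtain ⟨d, hd⟩ := six_idx [y, z, a, b, c] (by simp)
  refine ⟨a, b, c, d, ?_⟩
  simp only [List.nodup_cons, List.mem_cons, List.not_mem_nil, or_false, not_or] at *
  tauto

theorem six_all {y z a b c d : Fin 6} (h : [y, z, a, b, c, d].Nodup) :
    (Finset.univ : Finset (Fin 6)) = {y, z, a, b, c, d} := by
  have : [y, z, a, b, c, d].toFinset = Finset.univ :=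
    Finset.eq_univ_of_card _ (by rw [List.toFinset_card_of_nodup h]; simp)
  simp [← this]

theorem six_ne {y z a b c d : Fin 6} (h : [y, z, a, b, c, d].Nodup) :
    (y ≠ z ∧ a ≠ y ∧ b ≠ y ∧ c ≠ y ∧ d ≠ y) ∧ (a ≠ z ∧ b ≠ z ∧ c ≠ z ∧ d ≠ z) ∧
      (a ≠ b ∧ a ≠ c ∧ a ≠ d) ∧ (b ≠ c ∧ b ≠ d) ∧ c ≠ d := by
  simp only [List.nodup_cons, List.mem_cons, List.not_mem_nil, or_false, not_or] at h
  tauto

theorem six_sum {R : Type*} [AddCommMonoid R] {y z a b c d : Fin 6}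
    (h : [y, z, a, b, c, d].Nodup) (φ : Fin 6 → R) :
    ∑ i, φ i = φ y + φ z + φ a + φ b + φ c + φ d := by
  rw [six_all h, show ({y, z, a, b, c, d} : Finset (Fin 6)) = [y, z, a, b, c, d].toFinset by simp,
    List.sum_toFinset _ h]
  simp [add_assoc]

/-- The self-map of six points with a given code. -/
def fn6 (n : ℕ) (i : Fin 6) : Fin 6 := ⟨n / 6 ^ i.1 % 6, Nat.mod_lt _ (by norm_num)⟩

theorem fn6_eq (f : Fin 6 → Fin 6) :
    f = fn6 (f 0 + 6 * f 1 + 36 * f 2 + 216 * f 3 + 1296 * f 4 + 7776 * f 5) := by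
  have h := fun i => (f i).2
  have h0 := h 0; have h1 := h 1; have h2 := h 2; have h3 := h 3; have h4 := h 4; have h5 := h 5
  ext i
  fin_cases i <;> simp [fn6] <;> omega

theorem six_rec (P : (Fin 6 → Fin 6) → Prop) (H : ∀ a b : Fin 6, b ≠ a → ∀ c : Fin 6, c ≠ a →
    c ≠ b → ∀ d : Fin 6, d ≠ a → d ≠ b → d ≠ c → ∀ e : Fin 6, e ≠ a → e ≠ b → e ≠ c → e ≠ d →
    ∀ f : Fin 6, f ≠ a → f ≠ b → f ≠ c → f ≠ d → f ≠ e →
    P (fn6 (a + 6 * b + 36 * c + 216 * d + 1296 * e + 7776 * f))) {σ : Fin 6 → Fin 6}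
    (h : Function.Injective σ) : P σ := by
  rw [fn6_eq σ]
  apply H <;> exact h.ne (by decide)

/-- The codes of the permutations of order dividing three. -/
def cubes : List ℕ := [2360, 2535, 3595, 3735, 4310, 4495, 5935, 6020, 6345, 6820, 6970, 7210, 8835, 9020, 11345,
  11470, 11860, 12245, 13685, 13800, 14130, 14390, 14715, 15000, 16485, 16765, 17735, 18040,
  19510, 19685, 21395, 21450, 21930, 22195, 22395, 22830, 23720, 23965, 24785, 25240, 25985,
  26170, 28595, 28830, 29130, 30685, 30710, 30750, 31445, 31595, 31835, 32540, 32865, 33150,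
  33895, 34095, 34530, 36085, 36110, 36150, 39625, 39680, 39825, 40900, 40980, 41130, 42130,
  42180, 42450, 42850, 43080, 43350, 44155, 44180, 44355, 44400, 44505, 44550, 44725, 44750, 44790]

theorem exists_cube {f : Fin 6 → Fin 6} (h : ∀ i, f (f (f i)) = i) : ∃ n ∈ cubes, f = fn6 n := by
  have hi : Function.Injective f := fun a b H => by rw [← h a, H, h]
  have := six_rec (fun f => (∀ i, f (f (f i)) = i) → (f 0 + 6 * f 1 + 36 * f 2 + 216 * f 3 +
    1296 * f 4 + 7776 * f 5 : ℕ) ∈ cubes) (by decide +kernel) hi h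
  exact ⟨_, this, fn6_eq f⟩

theorem six_A4 (p : Fin 6) {A B : Fin 6 → Fin 6} (h1 : A p = p) (h2 : ∀ i, A (A (A i)) = i)
    (h3 : B p = p) (h4 : ∀ i, B (B (B i)) = i) (h5 : ∀ i, A (B (A (B i))) = i) :
    ∃ q, q ≠ p ∧ A q = q ∧ B q = q := by
  obtain ⟨a, ha, rfl⟩ := exists_cube h2
  obtain ⟨b, hb, rfl⟩ := exists_cube h4
  clear h2 h4
  revert b
  revert p a
  decide +kernel

set_option synthInstance.maxSize 1024 in
theorem six_invol {σ : Fin 6 → Fin 6} (h : ∀ i, σ (σ i) = i) : ∀ y z, y ≠ z → σ y = y → σ z = z →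
    (∃ a, ∀ k, k ≠ a → k ≠ σ a → σ k = k) ∨ ∃ a c, [y, z, a, σ a, c, σ c].Nodup :=
  six_rec (fun σ => (∀ i, σ (σ i) = i) → ∀ y, σ y = y → ∀ z, σ z = z → y ≠ z →
    (∃ a, ∀ k, k ≠ a → k ≠ σ a → σ k = k) ∨ ∃ a c, [y, z, a, σ a, c, σ c].Nodup)
    (by decide +kernel) (fun a b H => by rw [← h a, H, h]) h |> fun H y z h1 h2 h3 => H y h2 z h3 h1

set_option synthInstance.maxSize 1024 in
theorem six_odd {σ : Fin 6 → Fin 6} (h : ∀ i, σ^[45] i = i) : (∀ i, σ (σ (σ i)) = i) ∨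
    ∃ a, σ a = a ∧ ∀ b, σ b = b → b = a := by
  have h0 : ∀ i, σ (σ (σ i)) = i ∨ σ (σ (σ (σ (σ i)))) = i := fun i => by
    have h1 : Function.IsPeriodicPt σ 45 i := h i
    have h2 := h1.minimalPeriod_dvd
    have h3 : Function.minimalPeriod σ i ≤ 6 := by
      simpa using Function.minimalPeriod_le_card (f := σ) (x := i)
    have h4 : ∀ n ≤ 6, n ∣ 45 → n ∣ 3 ∨ n ∣ 5 := by decide
    exact (h4 _ h3 h2).imp
      (fun H => show Function.IsPeriodicPt σ 3 i from Function.isPeriodicPt_iff_minimalPeriod_dvd.2 H)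
      fun H => show Function.IsPeriodicPt σ 5 i from Function.isPeriodicPt_iff_minimalPeriod_dvd.2 H
  have hi : Function.Injective σ := fun a b H => by
    rw [← h a, ← h b, Function.iterate_succ_apply σ 44 a, Function.iterate_succ_apply σ 44 b, H]
  exact six_rec (fun σ => (∀ i, σ (σ (σ i)) = i ∨ σ (σ (σ (σ (σ i)))) = i) →
    (∀ i, σ (σ (σ i)) = i) ∨ ∃ a, σ a = a ∧ ∀ b, σ b = b → b = a) (by decide +kernel) hi h0

set_option synthInstance.maxSize 1024 in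
theorem six_fin {A B C : Fin 6 → Fin 6} (h1 : ∀ i, A (A (A i)) = i) (h2 : ∀ i, B (B (B i)) = i)
    (h3 : ∀ i, C (C (C i)) = i) (a0 : A 0 = 0 ∨ A 0 = 2) (a1 : A 1 = 0 ∨ A 1 = 2)
    (b0 : B 0 = 0 ∨ B 0 = 3) (b1 : B 1 = 0 ∨ B 1 = 3) (c0 : C 0 = 1 ∨ C 0 = 2)
    (c1 : C 1 = 1 ∨ C 1 = 2) (ab : ∀ i, B (A (A (B (A (A (B (A (A i)))))))) = i)
    (ac : ∀ i, C (A (A (C (A (A (C (A (A i)))))))) = i) :
    ¬ ∀ i, C (B (B (C (B (B (C (B (B i)))))))) = i := by
  obtain ⟨a, ha, rfl⟩ := exists_cube h1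
  obtain ⟨b, hb, rfl⟩ := exists_cube h2
  obtain ⟨c, hc, rfl⟩ := exists_cube h3
  clear h1 h2 h3
  revert c
  revert b
  revert a
  decide +kernel

theorem six_dd {a b i j : Fin 6} (hab : a ≠ b) (hij : i ≠ j) :
    (∀ k, (k = a ∨ k = b) ↔ (k = i ∨ k = j)) ∨ ∃ p q, p ≠ q ∧
      ((∀ k, ((k = a ∨ k = b) ↔ (k = i ∨ k = j)) ↔ ¬ (k = p ∨ k = q)) ∨
        ∀ k, ((k = a ∨ k = b) ↔ (k = i ∨ k = j)) ↔ (k = p ∨ k = q)) := by
  by_cases h0 : (a = i ∧ b = j) ∨ (a = j ∧ b = i)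
  · exact .inl fun k => by grind
  by_cases h1 : a = i
  · exact .inr ⟨b, j, by grind, .inl fun k => by grind⟩
  by_cases h2 : a = j
  · exact .inr ⟨b, i, by grind, .inl fun k => by grind⟩
  by_cases h3 : b = i
  · exact .inr ⟨a, j, by grind, .inl fun k => by grind⟩
  by_cases h4 : b = j
  · exact .inr ⟨a, i, by grind, .inl fun k => by grind⟩
  obtain ⟨p, hp⟩ := six_idx [a, b, i, j] (by simp)
  obtain ⟨q, hq⟩ := six_idx [a, b, i, j, p] (by simp)
  simp only [List.mem_cons, List.not_mem_nil, or_false, not_or] at hp hq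
  refine .inr ⟨p, q, by grind, .inr fun k => ?_⟩
  have h5 : [a, b, i, j, p, q].Nodup := by
    simp only [List.nodup_cons, List.mem_cons, List.not_mem_nil, or_false, not_or]
    grind
  have : k ∈ ({a, b, i, j, p, q} : Finset (Fin 6)) := six_all h5 ▸ Finset.mem_univ k
  simp only [Finset.mem_insert, Finset.mem_singleton] at this
  grind

theorem swap_cube {α : Type*} [DecidableEq α] {i j k : α} (h1 : i ≠ j) (h2 : j ≠ k) (h3 : i ≠ k)
    (r : α) : (swap i j * swap j k) ((swap i j * swap j k) ((swap i j * swap j k) r)) = r := by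
  simp only [Perm.mul_apply, swap_apply_def]
  grind

theorem swap_klein {α : Type*} [DecidableEq α] {a b c d : α} (h1 : a ≠ b) (h2 : a ≠ c)
    (h3 : b ≠ c) (h4 : a ≠ d) (h5 : b ≠ d) (h6 : c ≠ d) (r : α) :
    (swap a b * swap b c) ((swap a b * swap b d) ((swap a b * swap b c)
      ((swap a b * swap b d) r))) = r := by
  by_cases ha : r = a
  · simp [swap_apply_of_ne_of_ne, *, Ne.symm]
  by_cases hb : r = b
  · simp [swap_apply_of_ne_of_ne, *, Ne.symm]
  by_cases hc : r = c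
  · simp [swap_apply_of_ne_of_ne, *, Ne.symm]
  by_cases hd : r = d
  · simp [swap_apply_of_ne_of_ne, *, Ne.symm]
  · simp [swap_apply_of_ne_of_ne, *]

end Cfsg.Agent.Cl.MaxO
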