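import Mathlib
import Cfsg.Agent.Cl.LowOFsC
import Cfsg.Agent.Cl.LowS6

/-!
# Frame stabilisers in `Ω₆(p)` I: vectors of conjugate frames have at most one zero coordinate
-/

set_option autoImplicit false
set_option linter.unusedSectionVars false
set_option linter.unusedVariables false

namespace Cfsg.Agent.Cl.MaxO

open Module QuadraticMap

variable {F V : Type*} [Field F] [AddCommGroup V] [Module F V] {Q : QuadraticForm F V}
  [FiniteDimensional F V] [Finite F] {M : Subgroup (OG Q)} {e : Fin 6 → V} {κ : F}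

variable (e) in
/-- The monomial element `g` induces the permutation `σ`. -/
def Pm (g : OG Q) (σ : Equiv.Perm (Fin 6)) : Prop :=
  ∀ i, ∃ s : F, s * s = 1 ∧ g.1 (e i) = s • e (σ i)

theorem Pm.mul {g k : OG Q} {σ τ : Equiv.Perm (Fin 6)} (h : Pm e g σ) (h' : Pm e k τ) :
    Pm e (g * k) (σ * τ) := fun i => by
  obtain ⟨s, hs, h1⟩ := h' i
  obtain ⟨t, ht, h2⟩ := h (τ i)
  exact ⟨s * t, by linear_combination t * t * hs + ht, by
    rw [OG.mul_app, h1, map_smul, h2, smul_smul]; rfl⟩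

theorem pm_one : Pm e (1 : OG Q) 1 := fun i => ⟨1, mul_one 1, (one_smul _ _).symm⟩

theorem Pm.pow {g : OG Q} {σ : Equiv.Perm (Fin 6)} (h : Pm e g σ) (n : ℕ) :
    Pm e (g ^ n) (σ ^ n) := by
  induction n with
  | zero => exact pm_one
  | succ n ih => rw [pow_succ, pow_succ]; exact ih.mul h

namespace Fs

variable (h : Fs M e κ)
include h

theorem idx_eq {i j : Fin 6} {s t : F} (hs : s * s = 1) (H : s • e i = t • e j) : i = j := by
  by_contra hij
  have := congrArg (polar Q (e i)) H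
  rw [o_polar_smul_right, o_polar_smul_right, h.self, h.orth hij, mul_zero] at this
  exact mul_ne_zero (left_ne_zero_of_mul_eq_one hs) h.two_ne this

theorem pm_uniq {g : OG Q} {σ τ : Equiv.Perm (Fin 6)} (h1 : Pm e g σ) (h2 : Pm e g τ) : σ = τ :=
  Equiv.ext fun i => by
    obtain ⟨s, hs, a⟩ := h1 i
    obtain ⟨t, -, b⟩ := h2 i
    exact h.idx_eq hs (a.symm.trans b)

theorem exists_pm {g : OG Q} (hg : g ∈ FS Q e) : ∃ σ, Pm e g σ := by
  choose j s hs H using h.app hg
  refine ⟨Equiv.ofBijective j (Finite.injective_iff_bijective.1 fun a b hab => ?_),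
    fun i => ⟨s i, hs i, H i⟩⟩
  refine h.idx_eq (hs b) (t := s a) (g.1.injective ?_)
  rw [map_smul, map_smul, H, H, hab, smul_comm]

theorem sign {ε : Fin 6 → F} (hε : ∀ i, ε i * ε i = 1) :
    Fs M (fun i => ε i • e i) κ ∧ FS Q (fun i => ε i • e i) = FS Q e := by
  have e0 : ∀ i, ε i ≠ 0 := fun i => left_ne_zero_of_mul_eq_one (hε i)
  have e1 : FS Q (fun i => ε i • e i) = FS Q e := by
    simp only [FS, Submodule.span_singleton_smul_eq (e0 _).isUnit]
  exact ⟨{ h with
    norm := fun i => by rw [o_qsmul, h.norm, pow_two, hε, one_mul]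
    orth := fun hij => by simp [oexp, h.orth hij]
    sep := fun x hx => h.sep x fun i => by simpa [oexp, e0] using hx i
    le := e1 ▸ h.le }, e1⟩

theorem sum_sq (c : V) : 4 * κ * Q c = ∑ i, polar Q (e i) c ^ 2 := h.Q_supp (by simp)

section Pair

variable (hno : ¬ EO Q ≤ M) {g : OG Q} (hg : g ∈ M) (hgn : g ∉ FS Q e)
include hno hg hgn

theorem not_refl (m : Fin 6) : orefl Q (g.1 (e m)) ∉ FS Q e := fun H =>
  hgn (h.of_rr hno hg (h.rr_of_one ((h.map hg).norm_ne m) (h.mem_of_refl (h.refl_mem m) H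
    (h.norm_ne m) ((h.map hg).norm_ne m) ⟨κ, by simp [h.norm]⟩)))

theorem inv_notMem : g⁻¹ ∉ FS Q fun i => g.1 (e i) := fun H =>
  hgn (by simpa using mem_FS_map.1 H)

theorem mix {x : OG Q} (hx : x ∈ FS Q fun i => g.1 (e i)) {a m : Fin 6}
    (ha : polar Q (e a) (g.1 (e m)) ≠ 0) (H : x.1 (g.1 (e m)) = (orefl Q (e a)).1 (g.1 (e m))) :
    False := by
  obtain ⟨m', s, hs, h1⟩ := (h.map hg).app hx m
  have hβ := mul_ne_zero (inv_ne_zero h.ne) ha
  have h2 : (κ⁻¹ * polar Q (e a) (g.1 (e m))) • e a = g.1 (e m) - s • g.1 (e m') := by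
    rw [← h1, H, h.refl_app, sub_sub_cancel]
  by_cases hm : m = m'
  · subst hm
    have h3 : 1 - s ≠ 0 := fun H' => smul_ne_zero hβ (h.e_ne a) (by
      rw [h2, ← sub_eq_zero.1 H']; simp)
    refine hgn (h.st hno hg (a := m) (y := a) ?_)
    rw [← Submodule.smul_mem_iff _ h3, sub_smul, one_smul, ← h2]
    exact Submodule.smul_mem _ _ (Submodule.mem_span_singleton_self _)
  · have h3 := (h.map hg).long_mem hm hs
    rw [← h2, orefl_smul hβ] at h3
    exact hgn (h.of_rr hno hg (h.rr_of_one ((h.map hg).norm_ne m) ((h.map hg).mem_of_refl h3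
      ((h.map hg).refl_mem m) (h.norm_ne a) ((h.map hg).norm_ne m) ⟨κ, by simp [h.norm]⟩)))

theorem three {a b d m : Fin 6} (hab : a ≠ b) (had : a ≠ d) (hbd : b ≠ d)
    (h1 : dd Q e a b ∈ FS Q fun i => g.1 (e i)) (h2 : dd Q e a d ∈ FS Q fun i => g.1 (e i))
    (h3 : dd Q e b d ∈ FS Q fun i => g.1 (e i)) (ha : polar Q (e a) (g.1 (e m)) ≠ 0) :
    polar Q (e a) (g.1 (e m)) ^ 2 = κ ^ 2 ∧ polar Q (e b) (g.1 (e m)) ^ 2 = κ ^ 2 ∧
      polar Q (e d) (g.1 (e m)) ^ 2 = κ ^ 2 := by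
  have hb : polar Q (e b) (g.1 (e m)) ≠ 0 := fun H =>
    h.mix hno hg hgn h1 ha (by rw [h.dd_app hab, h.refl_app, H]; simp)
  have hd : polar Q (e d) (g.1 (e m)) ≠ 0 := fun H =>
    h.mix hno hg hgn h2 ha (by rw [h.dd_app had, h.refl_app, H]; simp)
  have key : ∀ p q r, p ≠ q → r ≠ p → r ≠ q → dd Q e p q ∈ FS Q (fun i => g.1 (e i)) →
      polar Q (e p) (g.1 (e m)) ≠ 0 → polar Q (e r) (g.1 (e m)) ≠ 0 →
      polar Q (e p) (g.1 (e m)) ^ 2 + polar Q (e q) (g.1 (e m)) ^ 2 = 2 * κ ^ 2 :=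
    fun p q r a1 a2 a3 a4 a5 a6 => by
      obtain ⟨m', s, -, hs⟩ := (h.map hg).app a4 m
      rw [h.dd_app a1] at hs
      have := h.ne
      by_cases hm : m = m'
      · subst hm
        have b1 := congrArg (polar Q (e r)) hs
        have b2 := congrArg (polar Q (e p)) hs
        simp only [oexp, h.orth a2, h.orth a3, h.orth a1, h.norm] at b1 b2
        have : s = 1 := mul_right_cancel₀ a6 (by linear_combination -b1)
        rw [this] at b2
        field_simp at b2
        exact absurd (by linear_combination -b2) (mul_ne_zero (mul_ne_zero a5 h.ne) h.two)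
      · have b1 := congrArg (polar Q (g.1 (e m))) hs
        simp only [oexp, OG.polar_app, OG.map_app, h.orth (Ne.symm hm), h.norm,
          polar_comm Q (g.1 (e m))] at b1
        field_simp at b1
        linear_combination -b1
  have k1 := key a b d hab had.symm hbd.symm h1 ha hd
  have k2 := key a d b had hab.symm hbd h2 ha hb
  have k3 := key b d a hbd hab had h3 hb ha
  exact ⟨mul_left_cancel₀ h.two (by linear_combination k1 + k2 - k3),
    mul_left_cancel₀ h.two (by linear_combination k1 - k2 + k3),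
    mul_left_cancel₀ h.two (by linear_combination -k1 + k2 + k3)⟩

theorem dd_mem_map {m a b : Fin 6} (hab : a ≠ b) (ha : polar Q (e a) (g.1 (e m)) = 0)
    (hb : polar Q (e b) (g.1 (e m)) = 0) : dd Q e a b ∈ FS Q fun i => g.1 (e i) :=
  (h.map hg).st_fix hno (h.dd_mem a b) (a := m) (by rw [h.dd_app hab, ha, hb]; simp)

omit hno hg hgn in
theorem co_dd {a b : Fin 6} (hab : a ≠ b) (k : Fin 6) (x : V) : polar Q (e k) ((dd Q e a b).1 x) =
    if k = a ∨ k = b then -polar Q (e k) x else polar Q (e k) x := by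
  have := h.ne
  rw [h.dd_app hab]
  split_ifs with H
  · rcases H with rfl | rfl <;> simp only [oexp, h.norm, h.orth hab, h.orth hab.symm] <;>
      field_simp <;> ring
  · push Not at H
    simp [oexp, h.orth H.1, h.orth H.2]

omit hno hg hgn in
theorem polar_sum (x y : V) : 2 * κ * polar Q x y = ∑ i, polar Q (e i) x * polar Q (e i) y :=
  h.polar_supp (by simp) x

/-- No vector of a conjugate frame has support of size at most two. -/
theorem no_two {m y z : Fin 6} (H : ∀ k, k ≠ y → k ≠ z → polar Q (e k) (g.1 (e m)) = 0) :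
    False := by
  wlog yz : y ≠ z generalizing z
  · obtain ⟨z', hz'⟩ := exists_ne y
    exact this (z := z') (fun k h1 h2 => H k h1 (not_not.1 yz ▸ h1)) hz'.symm
  obtain ⟨a, b, c, d, hnd⟩ := six_compl yz
  obtain ⟨⟨-, ya, yb, yc, yd⟩, ⟨za, zb, zc, zd⟩, ⟨ab, ac, ad⟩, ⟨bc, bd⟩, cd⟩ := six_ne hnd
  have hf := h.map hg
  have k := fun p q hpq p1 p2 q1 q2 => h.dd_mem_map hno hg hgn (a := p) (b := q) hpq (H p p1 p2)
    (H q q1 q2)
  obtain ⟨n, hn⟩ := hf.exists_co (h.e_ne a)
  rw [polar_comm] at hn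
  obtain ⟨t1, t2, t3⟩ := h.three hno hg hgn ab ac bc (k _ _ ab ya za yb zb)
    (k _ _ ac ya za yc zc) (k _ _ bc yb zb yc zc) hn
  obtain ⟨-, -, t4⟩ := h.three hno hg hgn ab ad bd (k _ _ ab ya za yb zb)
    (k _ _ ad ya za yd zd) (k _ _ bd yb zb yd zd) hn
  have sm : ∀ φ : Fin 6 → F, _ := six_sum hnd
  have k0 := h.ne
  have q1 := h.sum_sq (g.1 (e n))
  rw [sm, OG.map_app, h.norm] at q1
  obtain ⟨n', s, -, hs⟩ := hf.app (hf.st hno (h.dd_mem y z) (a := m) (y := m) (by
    rw [show (dd Q e y z).1 (g.1 (e m)) = -g.1 (e m) from h.ext fun i => by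
      rw [h.co_dd yz, polar_neg_right]
      split_ifs with H'
      · rfl
      · push Not at H'; simp [H i H'.1 H'.2]]
    exact neg_mem (Submodule.mem_span_singleton_self _))) n
  have c1 : ∀ i, (if i = y ∨ i = z then -polar Q (e i) (g.1 (e n)) else polar Q (e i) (g.1 (e n)))
      = s * polar Q (e i) (g.1 (e n')) := fun i => by rw [← h.co_dd yz, hs, o_polar_smul_right]
  obtain rfl : n' = n := by
    by_contra hn'
    have := h.polar_sum ((dd Q e y z).1 (g.1 (e n))) (g.1 (e n))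
    rw [sm, hs, o_polar_smul_left, hf.orth hn', ← hs] at this
    simp only [h.co_dd yz, ya, za, yb, zb, yc, zc, yd, zd,
      true_or, or_true, if_true, or_self, if_false] at this
    exact mul_ne_zero (mul_ne_zero h.two h.two) (pow_ne_zero 2 k0) (by
      linear_combination -this - q1 - 2 * (t1 + t2 + t3 + t4))
  have s1 : s = 1 := mul_right_cancel₀ hn (by simpa [ya, za] using (c1 a).symm)
  have ny : polar Q (e y) (g.1 (e n')) = 0 :=
    (mul_eq_zero.1 (by have := c1 y; simp only [s1, true_or, if_true] at this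
                       linear_combination -this)).resolve_left h.two
  have nz : polar Q (e z) (g.1 (e n')) = 0 :=
    (mul_eq_zero.1 (by have := c1 z; simp only [s1, or_true, if_true] at this
                       linear_combination -this)).resolve_left h.two
  obtain ⟨t, ht, ht'⟩ : ∃ t : F, t * t = 1 ∧ polar Q (e a - t • e b) (g.1 (e n')) = 0 :=
    ⟨polar Q (e a) (g.1 (e n')) * polar Q (e b) (g.1 (e n')) / κ ^ 2, by
      field_simp; linear_combination polar Q (e b) (g.1 (e n')) ^ 2 * t1 + κ ^ 2 * t2, by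
      simp only [oexp]; field_simp; linear_combination -polar Q (e a) (g.1 (e n')) * t2⟩
  have l1 := h.long_mem yz (mul_one 1)
  have l2 := h.Q_long yz (mul_one 1)
  rw [one_smul] at l1 l2
  obtain ⟨m', r, hr, h5⟩ := hf.app (hf.st_fix hno (h.mem_of_refl (h.long_mem ab ht) l1
    (h.long_ne ab ht) (l2 ▸ h.two_ne) ⟨2 * κ, by rw [h.Q_long ab ht, l2]⟩) (a := n') (by
      rw [OG.mul_app, orefl_app_of_polar (v := e y - e z) (by
        rw [polar_comm]; simp [oexp, ny, nz]), orefl_app_of_polar (by rwa [polar_comm])])) m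
  have c2 : ∀ i, i = y ∨ i = z → r * polar Q (e i) (g.1 (e m')) =
      polar Q (e (Equiv.swap y z i)) (g.1 (e m)) := fun i hi => by
    rw [← o_polar_smul_right, ← h5, OG.mul_app, ← h.co_swap yz, ← OG.polar_app (orefl Q (e a - t • e b)),
      orefl_orefl_app, orefl_app_of_polar]
    rcases hi with rfl | rfl <;> simp [oexp, h.orth, ya.symm, yb.symm, za.symm, zb.symm]
  have c3 := c2 y (.inl rfl)
  have c4 := c2 z (.inr rfl)
  rw [Equiv.swap_apply_left] at c3
  rw [Equiv.swap_apply_right] at c4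
  refine h.not_refl hno hg hgn m ?_
  by_cases hm : m' = m
  · rw [hm] at c3
    exact h.mem_of_two (hf.norm_ne m) yz H (.inr (by
      rw [← c3]; linear_combination polar Q (e y) (g.1 (e m)) ^ 2 * hr))
  have := h.polar_sum (g.1 (e m')) (g.1 (e m))
  rw [hf.orth hm, sm, H a ya za, H b yb zb, H c yc zc,
    H d yd zd] at this
  rcases mul_eq_zero.1 (show polar Q (e z) (g.1 (e m)) * polar Q (e y) (g.1 (e m)) = 0 from
    mul_left_cancel₀ h.two (by
      linear_combination -r * this - polar Q (e y) (g.1 (e m)) * c3 -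
        polar Q (e z) (g.1 (e m)) * c4)) with H' | H'
  · exact h.mem_of_two (hf.norm_ne m) yz H (.inl H')
  · exact h.mem_of_two (hf.norm_ne m) yz.symm (fun l a b => H l b a) (.inl H')

theorem no_two' {m y z : Fin 6} (H : ∀ k, k ≠ y → k ≠ z → polar Q (g.1 (e k)) (e m) = 0) :
    False :=
  (h.map hg).no_two hno (M.inv_mem hg) (h.inv_notMem hno hg hgn) (m := m) (y := y) (z := z)
    fun k h1 h2 => by rw [OG.inv_app_app]; exact H k h1 h2

theorem no_had_aux {p y z a b c d : Fin 6} (hnd : [y, z, a, b, c, d].Nodup)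
    (h1 : ∀ k ∈ [a, b, c, d], polar Q (e k) (g.1 (e p)) = κ)
    (hy : polar Q (e y) (g.1 (e p)) = 0) (hz : polar Q (e z) (g.1 (e p)) = 0) : False := by
  have hall : ∀ k, k ∈ ({y, z, a, b, c, d} : Finset (Fin 6)) := fun k =>
    six_all hnd ▸ Finset.mem_univ k
  simp only [List.mem_cons, List.not_mem_nil, or_false, forall_eq_or_imp, forall_eq,
    Finset.mem_insert, Finset.mem_singleton] at hall h1
  obtain ⟨⟨yz, ya, yb, yc, yd⟩, ⟨za, zb, zc, zd⟩, ⟨ab, ac, ad⟩, ⟨bc, bd⟩, cd⟩ := six_ne hnd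
  obtain ⟨ha, hb, hc, hd⟩ := h1
  have hf := h.map hg
  have app : ∀ {i j k l}, i ≠ j → k ≠ l → ∀ r, (orefl Q (e i - e j) * orefl Q (e k - e l)).1 (e r) =
      e ((Equiv.swap i j * Equiv.swap k l) r) := fun h1 h2 r => by
    rw [OG.mul_app, h.swap_app h2, h.swap_app h1]; rfl
  have mem : ∀ {i j k l}, i ≠ j → k ≠ l → polar Q (e i) (g.1 (e p)) = polar Q (e j) (g.1 (e p)) →
      polar Q (e k) (g.1 (e p)) = polar Q (e l) (g.1 (e p)) →
      ∃ A, A p = p ∧ Pm (fun i => g.1 (e i)) (orefl Q (e i - e j) * orefl Q (e k - e l)) A :=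
    fun {i j k l} h1 h2 h3 h4 => by
      have e1 : (orefl Q (e i - e j) * orefl Q (e k - e l)).1 (g.1 (e p)) = g.1 (e p) := by
        rw [OG.mul_app, orefl_app_of_polar (v := e k - e l) (by rw [polar_comm]; simp [oexp, h4]),
          orefl_app_of_polar (by rw [polar_comm]; simp [oexp, h3])]
      obtain ⟨A, hA⟩ := hf.exists_pm (hf.st_fix hno (h.cyc_mem h1 h2) e1)
      obtain ⟨s, hs, e2⟩ := hA p
      exact ⟨A, hf.idx_eq hs (t := 1) (by rw [← e2, one_smul]; exact e1), hA⟩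
  obtain ⟨A, A1, A2⟩ := mem ab bc (ha.trans hb.symm) (hb.trans hc.symm)
  obtain ⟨B, B1, B2⟩ := mem ab bd (ha.trans hb.symm) (hb.trans hd.symm)
  have cube : ∀ {i j k}, i ≠ j → j ≠ k → i ≠ k → orefl Q (e i - e j) * orefl Q (e j - e k) *
      (orefl Q (e i - e j) * orefl Q (e j - e k)) * (orefl Q (e i - e j) * orefl Q (e j - e k)) = 1 :=
    fun {i j k} h1 h2 h3 => h.og_ext fun r => by
      rw [OG.mul_app, app h1 h2, OG.mul_app, app h1 h2, app h1 h2, OG.one_app, swap_cube h1 h2 h3]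
  have w1 := cube ab bc ac
  have w2 := cube ab bd ad
  have w3 : orefl Q (e a - e b) * orefl Q (e b - e c) * (orefl Q (e a - e b) * orefl Q (e b - e d)) *
      (orefl Q (e a - e b) * orefl Q (e b - e c) * (orefl Q (e a - e b) * orefl Q (e b - e d))) = 1 :=
    h.og_ext fun r => by
      rw [OG.mul_app, OG.mul_app (_ * _) (_ * _) (e r), app ab bd, app ab bc,
        OG.mul_app (_ * _) (_ * _), app ab bd, app ab bc, OG.one_app, swap_klein ab ac bc ad bd cd]
  have v1 : A * A * A = 1 := hf.pm_uniq ((A2.mul A2).mul A2) (w1 ▸ pm_one)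
  have v2 : B * B * B = 1 := hf.pm_uniq ((B2.mul B2).mul B2) (w2 ▸ pm_one)
  have v3 : A * B * (A * B) = 1 := hf.pm_uniq ((A2.mul B2).mul (A2.mul B2)) (w3 ▸ pm_one)
  obtain ⟨q, hq, Aq, Bq⟩ := six_A4 p A1 (Equiv.congr_fun v1) B1 (Equiv.congr_fun v2)
    (Equiv.congr_fun v3)
  have fix : ∀ {w : OG Q} {A}, Pm (fun i => g.1 (e i)) w A → A q = q → w * w * w = 1 →
      w.1 (g.1 (e q)) = g.1 (e q) := fun {w A} h1 h2 h3 => by
    obtain ⟨s, hs, e1⟩ := h1 q
    have e2 := congrArg (fun x : OG Q => x.1 (g.1 (e q))) h3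
    simp only [h2] at e1
    simp only [OG.mul_app, e1, map_smul, smul_smul, OG.one_app, hs, one_mul, mul_one] at e2
    rw [e1, e2]
  have co : ∀ {i j k}, i ≠ j → j ≠ k → i ≠ k → ∀ x,
      (orefl Q (e i - e j) * orefl Q (e j - e k)).1 x = x →
      polar Q (e j) x = polar Q (e i) x ∧ polar Q (e k) x = polar Q (e i) x :=
    fun {i j k} h1 h2 h3 x hx => by
      have k1 := OG.polar_app (orefl Q (e i - e j) * orefl Q (e j - e k)) (e i) x
      have k2 := OG.polar_app (orefl Q (e i - e j) * orefl Q (e j - e k)) (e j) x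
      rw [app h1 h2, hx] at k1 k2
      simp only [Equiv.Perm.mul_apply, Equiv.swap_apply_left, Equiv.swap_apply_of_ne_of_ne h1 h3,
        Equiv.swap_apply_of_ne_of_ne h3.symm h2.symm] at k1 k2
      exact ⟨k1, k2.trans k1⟩
  obtain ⟨k1, k2⟩ := co ab bc ac _ (fix A2 Aq w1)
  obtain ⟨-, k3⟩ := co ab bd ad _ (fix B2 Bq w2)
  have := h.polar_sum (g.1 (e q)) (g.1 (e p))
  rw [hf.orth hq, six_sum hnd, hy, hz, ha, hb, hc, hd, k1, k2, k3] at this
  have k4 : polar Q (e a) (g.1 (e q)) = 0 :=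
    mul_left_cancel₀ (mul_ne_zero h.two h.two_ne) (by linear_combination -this)
  refine h.no_two hno hg hgn (m := q) (y := y) (z := z) fun k h1 h2 => ?_
  rcases hall k with rfl | rfl | rfl | rfl | rfl | rfl <;> simp_all

/-- No vector of a conjugate frame is a Hadamard vector with two zeros. -/
theorem no_had {p y z a b c d : Fin 6} (hnd : [y, z, a, b, c, d].Nodup)
    (h1 : ∀ k ∈ [a, b, c, d], polar Q (e k) (g.1 (e p)) ^ 2 = κ ^ 2)
    (hy : polar Q (e y) (g.1 (e p)) = 0) (hz : polar Q (e z) (g.1 (e p)) = 0) : False := by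
  let ε : Fin 6 → F := fun k => if k ∈ [a, b, c, d] then polar Q (e k) (g.1 (e p)) / κ else 1
  have k0 := h.ne
  have hε : ∀ i, ε i * ε i = 1 := fun i => by
    simp only [ε]
    split_ifs with H
    · field_simp; exact h1 i H
    · exact mul_one 1
  obtain ⟨h', e1⟩ := h.sign hε
  obtain ⟨x, hx, x1, x2⟩ : ∃ x ∈ M, x ∈ FS Q e ∧ x.1 (ε p • e p) = e p := by
    rcases mul_self_eq_one_iff.1 (hε p) with H | H
    · exact ⟨1, M.one_mem, one_mem _, by simp [H]⟩
    · obtain ⟨r, hr⟩ := exists_ne p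
      exact ⟨_, h.dd_mem p r, h.dd_FS p r, by rw [H, map_smul, h.dd_left hr.symm]; simp⟩
  refine h'.no_had_aux hno (M.mul_mem hg hx) (e1 ▸ fun H => hgn ((mul_mem_cancel_right x1).1 H))
    hnd (p := p) (fun k hk => ?_) ?_ ?_ <;> rw [OG.mul_app, x2, o_polar_smul_left]
  · simp only [ε, if_pos hk]; field_simp; exact h1 k hk
  · rw [hy, mul_zero]
  · rw [hz, mul_zero]

end Pair

end Fs

end Cfsg.Agent.Cl.MaxO
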