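import Mathlib
import Cfsg.Agent.Cl.LowOFsD

/-!
# Frame stabilisers in `Ω₆(p)` II: maximality
-/

set_option autoImplicit false
set_option linter.unusedSectionVars false
set_option linter.unusedVariables false

namespace Cfsg.Agent.Cl.MaxO

open Module QuadraticMap

theorem dih' {G : Type*} [Group G] [Finite G] {t s : G} (ht : t * t = 1) (hs : s * s = 1) :
    (Odd (orderOf (t * s)) ∧
      ∃ y ∈ Subgroup.zpowers (t * s), y * t * y⁻¹ * t * (y * t * y⁻¹)⁻¹ = s) ∨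
    ∃ z ∈ Subgroup.zpowers (t * s), z ≠ 1 ∧ Commute z t ∧ Commute z s ∧
      (∃ y ∈ Subgroup.zpowers (t * s), z * t = y * t * y⁻¹ ∨ z * t = y * s * y⁻¹) ∧
      ∃ y ∈ Subgroup.zpowers (t * s), z * s = y * t * y⁻¹ ∨ z * s = y * s * y⁻¹ := by
  set u := t * s with hu
  have ti : t⁻¹ = t := inv_eq_of_mul_eq_one_right ht
  have h1 : s = u ^ (-1 : ℤ) * t := by
    rw [zpow_neg_one, hu, mul_inv_rev, ti, inv_eq_of_mul_eq_one_right hs, mul_assoc, ht, mul_one]
  have h2 : ∀ k : ℤ, t * u ^ k = u ^ (-k) * t := fun k => by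
    have : t * u * t⁻¹ = u⁻¹ := by
      rw [ti, hu, ← mul_assoc, ht, one_mul, mul_inv_rev, ti, inv_eq_of_mul_eq_one_right hs]
    rw [zpow_neg, ← inv_zpow, ← this, conj_zpow, inv_mul_cancel_right]
  have h3 : ∀ a b : ℤ, u ^ a * (u ^ b * t) * (u ^ a)⁻¹ = u ^ (2 * a + b) * t := fun a b => by
    rw [← zpow_neg, mul_assoc, mul_assoc, h2, ← mul_assoc, ← mul_assoc, ← zpow_add, ← zpow_add]
    congr 2; ring
  have h4 : ∀ a : ℤ, u ^ a * t * (u ^ a)⁻¹ = u ^ (2 * a) * t := fun a => by simpa using h3 a 0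
  have h5 : ∀ k : ℤ, ∃ y ∈ Subgroup.zpowers u, u ^ k * t = y * t * y⁻¹ ∨ u ^ k * t = y * s * y⁻¹ :=
    fun k => by
      obtain ⟨a, rfl | rfl⟩ := Int.even_or_odd' k
      · exact ⟨u ^ a, ⟨a, rfl⟩, .inl (h4 a).symm⟩
      · exact ⟨u ^ (a + 1), ⟨_, rfl⟩, .inr (by rw [h1, h3]; congr 2; ring)⟩
  have hn : u ^ (orderOf u : ℤ) = 1 := by rw [zpow_natCast, pow_orderOf_eq_one]
  obtain ⟨m, hm | hm⟩ := Nat.even_or_odd' (orderOf u)
  · have h0 := orderOf_pos u
    have h6 : Commute (u ^ (m : ℤ)) t := by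
      rw [Commute, SemiconjBy, h2, ← mul_one (u ^ (-m : ℤ)), ← hn, ← zpow_add, hm]
      congr 2; push_cast; ring
    refine .inr ⟨u ^ (m : ℤ), ⟨_, rfl⟩, ?_, h6, h1 ▸ (Commute.zpow_zpow_self u _ _).mul_right h6,
      h5 m, ?_⟩
    · rw [zpow_natCast]; exact pow_ne_one_of_lt_orderOf (by omega) (by omega)
    · obtain ⟨y, hy, H⟩ := h5 (m + -1)
      rw [zpow_add, mul_assoc, ← h1] at H
      exact ⟨y, hy, H⟩
  · refine .inl ⟨⟨m, hm⟩, u ^ (-(m + 1) ^ 2 : ℤ), ⟨_, rfl⟩, ?_⟩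
    rw [h4, mul_inv_rev, ti, mul_assoc _ t t, ht, mul_one, ← mul_assoc, h4, h1,
      ← mul_one (u ^ (-1 : ℤ)), ← one_zpow (-(2 * m + 3)), ← hn, ← zpow_mul, ← zpow_add, hm]
    congr 2; push_cast; ring

variable {F V : Type*} [Field F] [AddCommGroup V] [Module F V] {Q : QuadraticForm F V}
  [FiniteDimensional F V] [Finite F] {M : Subgroup (OG Q)} {e : Fin 6 → V} {κ : F}

namespace Fs

variable (h : Fs M e κ)
include h

theorem co_zero {x : OG Q} {u v : V} (h1 : x.1 u = u) (h2 : x.1 v = -v) : polar Q u v = 0 := by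
  have := OG.polar_app x u v
  rw [h1, h2, polar_neg_right] at this
  exact (mul_eq_zero.1 (by linear_combination -this)).resolve_left h.two

theorem dd_right {i j : Fin 6} (hij : i ≠ j) : (dd Q e i j).1 (e j) = -e j := by
  rw [dd, orefl_comm_of_polar (h.orth hij)]; exact h.dd_left hij.symm

theorem dd_app' {i j : Fin 6} (hij : i ≠ j) (k : Fin 6) :
    (dd Q e i j).1 (e k) = if k = i ∨ k = j then -e k else e k := by
  split_ifs with H
  · rcases H with rfl | rfl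
    exacts [h.dd_left hij, h.dd_right hij]
  · push Not at H
    exact h.dd_fix H.1 H.2

theorem dd_mul {a b i j : Fin 6} (hab : a ≠ b) (hij : i ≠ j) : dd Q e a b * dd Q e i j = 1 ∨
    ∃ p q, p ≠ q ∧ (dd Q e a b * dd Q e i j = dd Q e p q ∨
      dd Q e a b * dd Q e i j = OG.negOne Q * dd Q e p q) := by
  have key : ∀ k, (dd Q e a b * dd Q e i j).1 (e k) =
      if (k = a ∨ k = b) ↔ (k = i ∨ k = j) then e k else -e k := fun k => by
    rw [OG.mul_app, h.dd_app' hij]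
    by_cases h1 : k = a ∨ k = b <;> by_cases h2 : k = i ∨ k = j <;>
      simp only [h1, h2, h.dd_app' hab, map_neg, if_true, if_false] <;> simp
  rcases six_dd hab hij with H | ⟨p, q, hpq, H | H⟩
  · exact .inl (h.og_ext fun k => by rw [key, if_pos (H k)]; rfl)
  · exact .inr ⟨p, q, hpq, .inl (h.og_ext fun k => by 
      rw [key, h.dd_app' hpq]; simp only [H k, ite_not])⟩
  · refine .inr ⟨p, q, hpq, .inr (h.og_ext fun k => ?_)⟩
    rw [key, OG.mul_app, h.dd_app' hpq]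
    by_cases H' : k = p ∨ k = q <;> simp [H k, H']

theorem neg_FS : OG.negOne Q ∈ FS Q e :=
  h.mem_FS fun j => ⟨j, neg_mem (Submodule.mem_span_singleton_self _)⟩

variable (hno : ¬ EO Q ≤ M)
include hno

theorem of_conj_dd {g : OG Q} (hg : g ∈ M) {i j : Fin 6} (hij : i ≠ j)
    (H : g * dd Q e i j * g⁻¹ ∈ FS Q e) : g ∈ FS Q e := by
  by_contra hgn
  rw [← dd_map] at H
  have hf := h.map hg
  have hr := finrank_span_pair_le (F := F) (g.1 (e i)) (g.1 (e j))
  obtain ⟨y, -, hy⟩ := h.exists_fix H (refl_sub_mem _ _) [] (by simp; omega)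
  obtain ⟨z, yz, hz⟩ := h.exists_fix H (refl_sub_mem _ _) [y] (by simp; omega)
  replace yz : y ≠ z := by simpa [eq_comm] using yz
  have xi := hf.dd_left hij
  have xj := hf.dd_right hij
  have xm : ∀ m, m ≠ i → m ≠ j → (dd Q (fun i => g.1 (e i)) i j).1 (g.1 (e m)) = g.1 (e m) :=
    fun m a b => hf.dd_fix a b
  have xx := hf.dd_self hij
  generalize dd Q (fun i => g.1 (e i)) i j = x at *
  obtain ⟨σ, hσ⟩ := h.exists_pm H
  have fixσ : ∀ k, x.1 (e k) = e k → σ k = k := fun k hk => by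
    obtain ⟨s, hs, h1⟩ := hσ k
    exact h.idx_eq hs (t := 1) (by rw [← h1, hk, one_smul])
  have σσ : σ * σ = 1 := h.pm_uniq (hσ.mul hσ) (xx ▸ pm_one)
  rcases six_invol (σ := σ) (Equiv.congr_fun σσ) y z yz (fixσ y hy) (fixσ z hz) with
    ⟨a, ha⟩ | ⟨a, c, hnd⟩
  · refine h.no_two hno hg hgn (m := i) (y := a) (z := σ a) fun k h1 h2 => h.co_zero ?_ xi
    obtain ⟨s, hs, h3⟩ := hσ k
    rw [ha k h1 h2] at h3
    rcases mul_self_eq_one_iff.1 hs with rfl | rfl
    · rwa [one_smul] at h3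
    · exact (h.no_two' hno hg hgn (m := k) (y := i) (z := j) fun m a b =>
        h.co_zero (xm m a b) (by rwa [neg_one_smul] at h3)).elim
  obtain ⟨s, hs, xa⟩ := hσ a
  obtain ⟨t, ht, xc⟩ := hσ c
  generalize σ a = b at *
  generalize σ c = d at *
  obtain ⟨⟨-, ya, yb, yc, yd⟩, ⟨za, zb, zc, zd⟩, ⟨ab, ac, ad⟩, ⟨bc, bd⟩, cd⟩ := six_ne hnd
  have sm : ∀ φ : Fin 6 → F, _ := six_sum hnd
  have iy := h.co_zero hy xi
  have iz := h.co_zero hz xi
  obtain ⟨p, hp⟩ := hf.exists_co (h.e_ne y)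
  rw [polar_comm] at hp
  have xp := xm p (fun H => hp (H ▸ iy)) fun H => hp (H ▸ h.co_zero hy xj)
  have ca := OG.polar_app x (e a) (g.1 (e p))
  have cc := OG.polar_app x (e c) (g.1 (e p))
  have ia := OG.polar_app x (e a) (g.1 (e i))
  rw [xa, xp, o_polar_smul_left] at ca
  rw [xc, xp, o_polar_smul_left] at cc
  rw [xa, xi, polar_neg_right, o_polar_smul_left] at ia
  have k0 := h.ne
  have q1 := h.sum_sq (g.1 (e p))
  rw [sm, OG.map_app, h.norm] at q1
  have dF := h.dd_mem_map hno hg hgn yz iy iz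
  obtain ⟨p', r, hr, h1⟩ := hf.app dF p
  have c1 : ∀ k, r * polar Q (e k) (g.1 (e p')) =
      if k = y ∨ k = z then -polar Q (e k) (g.1 (e p)) else polar Q (e k) (g.1 (e p)) :=
    fun k => by rw [← h.co_dd yz, h1, o_polar_smul_right]
  have cy := c1 y; have cz := c1 z; have da := c1 a; have db := c1 b; have dc := c1 c
  have dd' := c1 d
  simp only [true_or, or_true, if_true, ya, za, yb, zb, yc, zc, yd, zd, or_self, if_false]
    at cy cz da db dc dd'
  have pp : p' ≠ p := by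
    rintro rfl
    have : r = -1 := mul_right_cancel₀ hp (by linear_combination cy)
    subst this
    refine h.no_two hno hg hgn (m := p') (y := y) (z := z) fun k a1 a2 => ?_
    have := c1 k
    rw [if_neg (by tauto)] at this
    exact (mul_eq_zero.1 (by linear_combination -this)).resolve_left h.two
  have q2 := h.polar_sum (r • g.1 (e p')) (g.1 (e p))
  simp only [sm, o_polar_smul_left, o_polar_smul_right, hf.orth pp, cy, cz, da, db, dc, dd'] at q2
  have hs' : -s * -s = 1 := by linear_combination hs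
  have l1 := h.long_mem yz (mul_one 1)
  have l2 := h.Q_long yz (mul_one 1)
  have l3 := h.Q_long ab hs'
  rw [one_smul] at l1 l2
  obtain ⟨q, ε, hε, h5⟩ := hf.app (hf.st_fix hno (h.mem_of_refl (h.long_mem ab hs') l1
    (h.long_ne ab hs') (l2 ▸ h.two_ne) ⟨2 * κ, by rw [l3, l2]⟩) (a := i) (by
      rw [OG.mul_app, orefl_app_of_polar (v := e y - e z) (by
        rw [polar_comm]; simp [oexp, iy, iz]), orefl_app_of_polar (by
        rw [polar_comm]; simp only [oexp]; linear_combination -ia)])) p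
  have c2 : ∀ k, ε * polar Q (e k) (g.1 (e q)) = polar Q (e (Equiv.swap y z k)) (g.1 (e p)) -
      κ⁻¹ * polar Q (e a) (g.1 (e p)) * polar Q (e k) (e a - -s • e b) := fun k => by
    rw [← o_polar_smul_right, ← h5, OG.mul_app, orefl_app, l3, polar_sub_right, h.co_swap yz,
      o_polar_smul_right, polar_comm Q _ (e a - -s • e b), polar_sub_left, o_polar_smul_left,
      h.co_swap yz, h.co_swap yz, Equiv.swap_apply_of_ne_of_ne ya za,
      Equiv.swap_apply_of_ne_of_ne yb zb, ← ca]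
    have := h.two
    field_simp; ring
  have ey := c2 y; have ez := c2 z; have ea := c2 a; have eb := c2 b; have ec := c2 c
  have ed := c2 d
  simp only [Equiv.swap_apply_left, Equiv.swap_apply_right, Equiv.swap_apply_of_ne_of_ne, ya, za,
    yb, zb, yc, zc, yd, zd, ne_eq, not_false_eq_true, oexp, h.norm, h.orth ya.symm, h.orth yb.symm,
    h.orth za.symm, h.orth zb.symm, h.orth ab, h.orth ab.symm, h.orth ac.symm, h.orth bc.symm,
    h.orth ad.symm, h.orth bd.symm] at ey ez ea eb ec ed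
  simp only [mul_zero, sub_zero, zero_sub, neg_zero] at ey ez ea eb ec ed
  have ea' : ε * polar Q (e a) (g.1 (e q)) = -polar Q (e a) (g.1 (e p)) := by
    rw [ea]; field_simp; ring
  have eb' : ε * polar Q (e b) (g.1 (e q)) = -polar Q (e b) (g.1 (e p)) := by
    rw [eb, ← ca]; field_simp; linear_combination -2 * polar Q (e b) (g.1 (e p)) * hs
  have ab2 : polar Q (e b) (g.1 (e p)) ^ 2 = polar Q (e a) (g.1 (e p)) ^ 2 := by
    rw [← ca]; linear_combination -polar Q (e b) (g.1 (e p)) ^ 2 * hs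
  have cd2 : polar Q (e d) (g.1 (e p)) ^ 2 = polar Q (e c) (g.1 (e p)) ^ 2 := by
    rw [← cc]; linear_combination -polar Q (e d) (g.1 (e p)) ^ 2 * ht
  have h4 := mul_ne_zero h.two h.two
  have fin : ∀ η θ : F, η * η = 1 → θ * θ = 1 →
      polar Q (e z) (g.1 (e p)) = θ * polar Q (e y) (g.1 (e p)) →
      η * polar Q (e a) (g.1 (e p)) = -polar Q (e a) (g.1 (e p)) →
      η * polar Q (e c) (g.1 (e p)) = polar Q (e c) (g.1 (e p)) → False := fun η θ a1 a2 a3 a4 a5 => by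
    have z2 : polar Q (e z) (g.1 (e p)) ^ 2 = polar Q (e y) (g.1 (e p)) ^ 2 := by
      rw [a3]; linear_combination polar Q (e y) (g.1 (e p)) ^ 2 * a2
    have y2 : polar Q (e y) (g.1 (e p)) ^ 2 = κ ^ 2 :=
      mul_left_cancel₀ h4 (by linear_combination q2 - q1 - 2 * z2)
    rcases mul_self_eq_one_iff.1 a1 with rfl | rfl
    · have a0 : polar Q (e a) (g.1 (e p)) = 0 :=
        mul_left_cancel₀ h.two (by linear_combination a4)
      have c2 : polar Q (e c) (g.1 (e p)) ^ 2 = κ ^ 2 := mul_left_cancel₀ h4 (by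
        linear_combination -q2 - q1 - 2 * ab2 - 2 * cd2 - 4 * polar Q (e a) (g.1 (e p)) * a0)
      refine h.no_had hno hg hgn (p := p) (y := a) (z := b) (a := y) (b := z) (c := c) (d := d)
        (by simp [*, Ne.symm]) (by simp [y2, z2, c2, cd2]) a0 (by simpa [a0] using ab2)
    · have c0 : polar Q (e c) (g.1 (e p)) = 0 :=
        mul_left_cancel₀ h.two (by linear_combination -a5)
      have a2 : polar Q (e a) (g.1 (e p)) ^ 2 = κ ^ 2 := mul_left_cancel₀ h4 (by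
        linear_combination -q2 - q1 - 2 * ab2 - 2 * cd2 - 4 * polar Q (e c) (g.1 (e p)) * c0)
      refine h.no_had hno hg hgn (p := p) (y := c) (z := d) (a := y) (b := z) (c := a) (d := b)
        (by simp [*, Ne.symm]) (by simp [y2, z2, a2, ab2]) c0 (by simpa [c0] using cd2)
  by_cases qp : q = p
  · subst qp
    exact fin ε ε hε hε ey.symm ea' ec
  by_cases qp' : q = p'
  · subst qp'
    exact fin (ε * r) (-(ε * r)) (by linear_combination r * r * hε + hr)
      (by linear_combination r * r * hε + hr)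
      (by linear_combination -ey + ε * r * cy - ε * polar Q (e y) (g.1 (e q)) * hr)
      (by linear_combination ea' - ε * r * da + ε * polar Q (e a) (g.1 (e q)) * hr)
      (by linear_combination ec - ε * r * dc + ε * polar Q (e c) (g.1 (e q)) * hr)
  have q3 := h.polar_sum (ε • g.1 (e q)) (g.1 (e p))
  have q4 := h.polar_sum (ε • g.1 (e q)) (r • g.1 (e p'))
  simp only [sm, o_polar_smul_left, o_polar_smul_right, hf.orth qp, hf.orth qp', cy, cz, da, db, dc,
    dd', ey, ez, ea', eb', ec, ed] at q3 q4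
  have z0 : polar Q (e z) (g.1 (e p)) = 0 :=
    mul_left_cancel₀ (mul_ne_zero h4 hp) (by linear_combination q4 - q3)
  have h6 : (κ⁻¹ * polar Q (e y) (g.1 (e p))) • e y = g.1 (e p) - r • g.1 (e p') := by
    rw [← h1, h.dd_app yz, z0]; simp
  refine h.no_two' hno hg hgn (m := y) (y := p) (z := p') fun k a1 a2 => ?_
  have := congrArg (polar Q (g.1 (e k))) h6
  simp only [oexp, hf.orth a1, hf.orth a2] at this
  simpa [k0, hp] using this

theorem eq_dd {x : OG Q} (hx : IsD M e x) (H : x ∈ FS Q e) : ∃ i j, i ≠ j ∧ x = dd Q e i j := by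
  obtain ⟨g, hg, i, j, hij, rfl⟩ := hx
  obtain ⟨a, b, -, -, h0, -, -, -, -, h1⟩ := h.conj_dd (h.of_conj_dd hno hg hij H) hij
  exact ⟨a, b, h0, h1⟩

theorem eq_dd_mul {z : OG Q} (hz : z ∈ M) {i j : Fin 6} (hij : i ≠ j) (H : Commute z (dd Q e i j))
    (hD : IsD M e (z * dd Q e i j)) : ∃ a b, a ≠ b ∧ z = dd Q e a b * dd Q e i j := by
  obtain ⟨a, b, h0, h1⟩ := h.eq_dd hno hD (mul_mem (h.of_conj_dd hno hz hij (by
    rw [H.eq, mul_inv_cancel_right]; exact h.dd_FS i j)) (h.dd_FS i j))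
  exact ⟨a, b, h0, by rw [← h1, mul_assoc, h.dd_self hij, mul_one]⟩

theorem eq_one_of_diag {g : OG Q} (hg : g ∈ M) (hgn : g ∉ FS Q e) {a b i j : Fin 6} (hab : a ≠ b)
    (hij : i ≠ j) (H : dd Q (fun i => g.1 (e i)) a b * dd Q (fun i => g.1 (e i)) i j ∈ FS Q e) :
    dd Q (fun i => g.1 (e i)) a b * dd Q (fun i => g.1 (e i)) i j = 1 := by
  rcases (h.map hg).dd_mul hab hij with H' | ⟨p, q, hpq, H' | H'⟩
  · exact H'
  · exact (hgn (h.of_conj_dd hno hg hpq (by rwa [← dd_map, ← H']))).elim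
  · exact (hgn (h.of_conj_dd hno hg hpq (by
      rwa [← dd_map, ← mul_mem_cancel_left h.neg_FS, ← H']))).elim

theorem exists_swap {g : OG Q} (hg : g ∈ M) (hgn : g ∉ FS Q e) {i j k l : Fin 6} (hij : i ≠ j)
    (hkl : k ≠ l) : Odd (orderOf (dd Q e i j * dd Q (fun i => g.1 (e i)) k l)) ∧
      ∃ y ∈ M, y * dd Q e i j * y⁻¹ * dd Q e i j * (y * dd Q e i j * y⁻¹)⁻¹ =
        g * dd Q e k l * g⁻¹ := by
  have := finite_OG (Q := Q)
  have h1 : Subgroup.zpowers (dd Q e i j * dd Q (fun i => g.1 (e i)) k l) ≤ M :=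
    Subgroup.zpowers_le.2 (M.mul_mem (h.dd_mem i j) ((h.map hg).dd_mem k l))
  have d1 : IsD M e (dd Q e i j) := ⟨1, M.one_mem, i, j, hij, by simp⟩
  have d2 : IsD M e (dd Q (fun i => g.1 (e i)) k l) := ⟨g, hg, k, l, hkl, dd_map _ _ _⟩
  rcases dih' (h.dd_self hij) ((h.map hg).dd_self hkl) with ⟨h0, y, hy, H⟩ |
    ⟨z, hz, z0, z1, z2, ⟨y, hy, H⟩, ⟨y', hy', H'⟩⟩
  · exact ⟨h0, y, h1 hy, H.trans (dd_map _ _ _)⟩
  obtain ⟨a, b, -, h2⟩ := h.eq_dd_mul hno (h1 hz) hij z1 (by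
    rcases H with H | H <;> rw [H]
    exacts [d1.conj (h1 hy), d2.conj (h1 hy)])
  obtain ⟨c, d, hcd, h3⟩ := (h.map hg).eq_dd_mul hno (h1 hz) hkl z2 (by
    rcases H' with H | H <;> rw [H]
    exacts [(d1.conj (h1 hy')).map hg, (d2.conj (h1 hy')).map hg])
  exact (z0 (h3 ▸ h.eq_one_of_diag hno hg hgn hcd hkl
    (h3 ▸ h2 ▸ mul_mem (h.dd_FS a b) (h.dd_FS i j)))).elim

theorem cube {s y y' : OG Q} (hs : s ∉ FS Q e) (hy : y ∈ M) (hy' : y' ∈ M) {i j k l : Fin 6}
    (hij : i ≠ j) (hkl : k ≠ l)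
    (h1 : y * dd Q e i j * y⁻¹ * dd Q e i j * (y * dd Q e i j * y⁻¹)⁻¹ = s)
    (h2 : y' * dd Q e k l * y'⁻¹ * dd Q e k l * (y' * dd Q e k l * y'⁻¹)⁻¹ = s) :
    ∃ σ, Pm e (y * dd Q e i j * y⁻¹ * (y' * dd Q e k l * y'⁻¹)) σ ∧ σ * σ * σ = 1 ∧
      (σ k = i ∨ σ k = j) ∧ (σ l = i ∨ σ l = j) := by
  have := finite_OG (Q := Q)
  rw [← dd_map y] at h1 ⊢
  rw [← dd_map y'] at h2 ⊢
  have hx : dd Q (fun i => y.1 (e i)) i j ∈ M := (h.map hy).dd_mem i j
  have hx' : dd Q (fun i => y'.1 (e i)) k l ∈ M := (h.map hy').dd_mem k l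
  have xx := (h.map hy).dd_self hij
  have xx' := (h.map hy').dd_self hkl
  have hP : ∀ v, (dd Q (fun i => y.1 (e i)) i j).1 v - v ∈
    Submodule.span F {y.1 (e i), y.1 (e j)} := refl_sub_mem _ _
  have hP' : ∀ v, (dd Q (fun i => y'.1 (e i)) k l).1 v - v ∈
    Submodule.span F {y'.1 (e k), y'.1 (e l)} := refl_sub_mem _ _
  have r1 := finrank_span_pair_le (F := F) (y.1 (e i)) (y.1 (e j))
  have r2 := finrank_span_pair_le (F := F) (y'.1 (e k)) (y'.1 (e l))
  have xn : dd Q (fun i => y.1 (e i)) i j ∉ FS Q e := fun H => hs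
    (h1 ▸ mul_mem (mul_mem H (h.dd_FS i j)) (inv_mem H))
  have yn : y ∉ FS Q e := fun H => xn (by
    rw [dd_map]; exact mul_mem (mul_mem H (h.dd_FS i j)) (inv_mem H))
  have hdk : dickson h.nd (dd Q (fun i => y.1 (e i)) i j * dd Q (fun i => y'.1 (e i)) k l) = 1 := by
    simp only [map_mul, dickson_orefl h.nd ((h.map hy).norm_ne _),
      dickson_orefl h.nd ((h.map hy').norm_ne _)]
    decide
  have h3 : dd Q (fun i => y.1 (e i)) i j * dd Q (fun i => y'.1 (e i)) k l * dd Q e k l *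
      (dd Q (fun i => y.1 (e i)) i j * dd Q (fun i => y'.1 (e i)) k l)⁻¹ = dd Q e i j := by
    generalize dd Q (fun i => y.1 (e i)) i j = x at *
    generalize dd Q (fun i => y'.1 (e i)) k l = x' at *
    rw [mul_inv_rev, mul_assoc x x', mul_assoc x, ← mul_assoc (x' * _), h2, ← h1,
      inv_eq_of_mul_eq_one_right xx]
    simp only [← mul_assoc, xx, one_mul]
    rw [mul_assoc, xx, mul_one]
  have hw := h.of_conj_dd hno (M.mul_mem hx hx') hkl (h3 ▸ h.dd_FS i j)
  have hodd : Odd (orderOf (dd Q (fun i => y.1 (e i)) i j * dd Q (fun i => y'.1 (e i)) k l)) := by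
    have e1 : (fun i => (y' * y⁻¹).1 (y.1 (e i))) = fun i => y'.1 (e i) := by ext; simp
    by_cases H : y' * y⁻¹ ∈ FS Q fun i => y.1 (e i)
    · obtain ⟨a, b, hab, H'⟩ := (h.map hy).eq_dd hno (IsD.map ⟨y', hy', k, l, hkl, dd_map _ _ _⟩ hy)
        (by rw [← e1, dd_map (e := fun i => y.1 (e i))]
            exact mul_mem (mul_mem H ((h.map hy).dd_FS k l)) (inv_mem H))
      rw [H'] at hw ⊢
      rw [h.eq_one_of_diag hno hy yn hij hab hw, orderOf_one]
      exact odd_one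
    · simpa only [e1] using
        ((h.map hy).exists_swap hno (M.mul_mem hy' (M.inv_mem hy)) H hij hkl).1
  generalize dd Q (fun i => y.1 (e i)) i j = x at *
  generalize dd Q (fun i => y'.1 (e i)) k l = x' at *
  generalize Submodule.span F {y.1 (e i), y.1 (e j)} = P at *
  generalize Submodule.span F {y'.1 (e k), y'.1 (e l)} = P' at *
  obtain ⟨σ, hσ⟩ := h.exists_pm hw
  have idx : ∀ {a b : Fin 6} {t : F}, (x * x').1 (e a) = t • e b → σ a = b := fun {a b t} H => by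
    obtain ⟨s, hs, h4⟩ := hσ a
    exact h.idx_eq hs (h4.symm.trans H)
  refine ⟨σ, hσ, ?_, ?_⟩
  swap
  · obtain ⟨p, q, s, t, hpq, -, -, w1, w2, h5⟩ := h.conj_dd hw hkl
    have key : ∀ r, (dd Q e i j).1 (e r) = -e r → r = i ∨ r = j := fun r hr => by
      by_contra H
      rw [h.dd_app' hij, if_neg H, eq_neg_iff_add_eq_zero, ← two_smul F] at hr
      exact smul_ne_zero h.two (h.e_ne r) hr
    rw [idx w1, idx w2]
    exact ⟨key p (by rw [← h3, h5, h.dd_left hpq]), key q (by rw [← h3, h5, h.dd_right hpq])⟩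
  have o1 : σ ^ orderOf (x * x') = 1 := h.pm_uniq (hσ.pow _) (by rw [pow_orderOf_eq_one]; exact pm_one)
  have o2 : orderOf σ ∣ 45 := by
    have a1 : orderOf σ ∣ 2 ^ 4 * 45 := by simpa [Fintype.card_perm, Nat.factorial] using orderOf_dvd_card (x := σ)
    exact (Nat.Coprime.pow_right 4 (Nat.coprime_two_right.2
      (hodd.of_dvd_nat (orderOf_dvd_of_pow_eq_one o1)))).dvd_of_dvd_mul_left a1
  rcases six_odd (σ := σ) (fun i => by
    rw [← Equiv.Perm.coe_pow, orderOf_dvd_iff_pow_eq_one.1 o2]; rfl) with H | ⟨a, ha, ha'⟩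
  · exact Equiv.ext H
  exfalso
  have w0 : (x * x').1 (e a) = e a := by
    obtain ⟨s, hs, h4⟩ := hσ a
    rw [ha] at h4
    have h5 : ∀ n : ℕ, ((x * x') ^ n).1 (e a) = s ^ n • e a := fun n => by
      induction n with
      | zero => simp
      | succ n ih => rw [pow_succ, OG.mul_app, h4, map_smul, ih, smul_smul, pow_succ']
    obtain ⟨m, hm⟩ := hodd
    have h6 := h5 (orderOf (x * x'))
    rw [pow_orderOf_eq_one, hm, pow_succ, pow_mul, pow_two, hs, one_pow, one_mul, OG.one_app] at h6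
    rw [h4, ← h6]
  have hU : ∀ v, (x * x').1 v - v ∈ P ⊔ P' := fun v => by
    rw [OG.mul_app, ← sub_add_sub_cancel _ (x'.1 v)]
    exact Submodule.add_mem_sup (hP _) (hP' _)
  have r3 := Submodule.finrank_sup_add_finrank_inf_eq P P'
  have h4 : x'.1 (e a) = x.1 (e a) := by
    rw [OG.mul_app] at w0
    rw [← inv_eq_of_mul_eq_one_right xx, eq_comm, OG.inv_app_eq_iff, w0]
  have r4 : P ⊓ P' ≠ ⊥ := fun H => xn (h.st_fix hno hx (a := a) (sub_eq_zero.1
    ((Submodule.mem_bot F).1 (H ▸ (⟨hP _, h4 ▸ hP' _⟩ : x.1 (e a) - e a ∈ P ⊓ P')))))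
  have r5 := Submodule.one_le_finrank_iff.2 r4
  have r6 : finrank F (ocomm (x * x')) ≤ finrank F ↥(P ⊔ P') :=
    Submodule.finrank_mono fun v hv => by obtain ⟨z, rfl⟩ := mem_ocomm.1 hv; exact hU z
  obtain ⟨n, hn⟩ := (dickson_eq_one_iff h.nd _).1 hdk
  change finrank F (ocomm (x * x')) = _ at hn
  obtain ⟨b, hb, hb'⟩ := h.exists_fix hw (sub_mem_ocomm (x * x')) [a] (by simp; omega)
  exact hb (by simpa using ha' b (idx (t := 1) (by rw [hb', one_smul])))

theorem le_six : M ≤ FS Q e := fun g hg => by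
  by_contra hgn
  have hs : g * dd Q e 0 1 * g⁻¹ ∉ FS Q e := fun H => hgn (h.of_conj_dd hno hg (by decide) H)
  have key := fun i j (hij : i ≠ j) => (h.exists_swap hno hg hgn hij (by decide : (0 : Fin 6) ≠ 1)).2
  obtain ⟨y0, hy0, e0⟩ := key 0 1 (by decide)
  obtain ⟨y1, hy1, e1⟩ := key 0 2 (by decide)
  obtain ⟨y2, hy2, e2⟩ := key 0 3 (by decide)
  obtain ⟨y3, hy3, e3⟩ := key 1 2 (by decide)
  obtain ⟨A, A1, A2, A3, A4⟩ := h.cube hno hs hy1 hy0 (by decide) (by decide) e1 e0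
  obtain ⟨B, B1, B2, B3, B4⟩ := h.cube hno hs hy2 hy0 (by decide) (by decide) e2 e0
  obtain ⟨C, C1, C2, C3, C4⟩ := h.cube hno hs hy3 hy0 (by decide) (by decide) e3 e0
  have tri : ∀ {x x' x0 : OG Q} {A B D : Equiv.Perm (Fin 6)}, Pm e (x * x0) A → Pm e (x' * x0) B →
      Pm e (x' * x) D → x * x = 1 → x0 * x0 = 1 → A * A * A = 1 → D * D * D = 1 →
      ∀ i, B (A (A (B (A (A (B (A (A i)))))))) = i := fun {x x' x0 A B D} a1 a2 a3 a4 a5 a6 a7 => by
    have a8 : D * A = B := h.pm_uniq (a3.mul a1) (by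
      rwa [mul_assoc, ← mul_assoc x, a4, one_mul])
    have a9 : D = B * A * A := by rw [← a8, mul_assoc, mul_assoc, ← mul_assoc A, a6, mul_one]
    exact Equiv.congr_fun (a9 ▸ a7 : B * A * A * (B * A * A) * (B * A * A) = 1)
  have sq : ∀ (y : OG Q) {i j : Fin 6}, i ≠ j →
      y * dd Q e i j * y⁻¹ * (y * dd Q e i j * y⁻¹) = 1 := fun y i j hij => by
    rw [conj_mul, h.dd_self hij]; simp
  obtain ⟨D, D1, D2, -⟩ := h.cube hno hs hy2 hy1 (by decide) (by decide) e2 e1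
  obtain ⟨E, E1, E2, -⟩ := h.cube hno hs hy3 hy1 (by decide) (by decide) e3 e1
  obtain ⟨G, G1, G2, -⟩ := h.cube hno hs hy3 hy2 (by decide) (by decide) e3 e2
  exact six_fin (A := A) (B := B) (C := C) (Equiv.congr_fun A2) (Equiv.congr_fun B2)
    (Equiv.congr_fun C2) A3 A4 B3 B4 C3 C4
    (tri A1 B1 D1 (sq _ (by decide)) (sq _ (by decide)) A2 D2)
    (tri A1 C1 E1 (sq _ (by decide)) (sq _ (by decide)) A2 E2)
    (tri B1 C1 G1 (sq _ (by decide)) (sq _ (by decide)) B2 G2)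

end Fs

/-- **Frames in dimension six.** -/
theorem omax_frame_six (hQ : (polarBilin Q).Nondegenerate) (h2 : (2 : F) ≠ 0)
    (hp : (Nat.card F).Prime) {D : Fin 6 → Submodule F V} (hD : ODec Q D)
    (hiso : ∀ i j, ∃ e : D i ≃ₗ[F] D j, ∀ x : D i, Q (e x : V) = Q (x : V))
    (hk : ∀ i, finrank F (D i) = 1) : OMax (dstab Q D) :=
  omax_frame_low hQ h2 hp hD hiso hk (by simp) (by simp) fun M e κ h hno => h.le_six hno

end Cfsg.Agent.Cl.MaxO
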