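import Mathlib
import Cfsg.Agent.Cl.LowOSmall
import Cfsg.Agent.Cl.OrthWedge
import Cfsg.Agent.Cl.Bridge

/-!
# Plücker vectors; pairs of complementary planes in `SL₄(q)` and `SU₄(q)`
-/

set_option autoImplicit false
set_option linter.unusedSectionVars false
set_option linter.unusedVariables false

namespace Cfsg.Agent.Cl.Low

open Module QuadraticMap Matrix MaxO Cfsg.Geo

variable {K : Type*} [Field K]

/-- The Plücker vector of two vectors. -/
def plk (a b : Fin 4 → K) : Fin 3 ⊕ Fin 3 → K := ounalt K (vecMulVec a b - vecMulVec b a)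

theorem oalt_plk (a b : Fin 4 → K) : oalt K (plk a b) = vecMulVec a b - vecMulVec b a :=
  oalt_ounalt (fun i j => by simp [vecMulVec_apply, mul_comm]) fun i => by
    simp [vecMulVec_apply, mul_comm]

theorem owedge_plk (A : Matrix (Fin 4) (Fin 4) K) (a b : Fin 4 → K) :
    owedge K A (plk a b) = plk (A *ᵥ a) (A *ᵥ b) := oalt_injective (by
  rw [oalt_owedge, oalt_plk, oalt_plk, Matrix.mul_sub, Matrix.sub_mul, mul_vecMulVec, mul_vecMulVec,
    vecMulVec_mul, vecMulVec_mul, vecMul_transpose, vecMul_transpose])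

theorem quad_plk (a b : Fin 4 → K) : quad_plus 3 K (plk a b) = 0 := by
  simp [quad_plus_apply, plk, ounalt_apply, Fin.sum_univ_three, vecMulVec_apply]; ring

theorem polar_plk (v : Fin 4 → Fin 4 → K) :
    polar (quad_plus 3 K) (plk (v 0) (v 1)) (plk (v 2) (v 3)) = (Matrix.of v).det := by
  simp [o_polar_plus, plk, ounalt_apply, Fin.sum_univ_three, vecMulVec_apply, o_det_fin_four]; ring

theorem plk_of_mem {a b x y : Fin 4 → K} (hx : x ∈ Submodule.span K {a, b})
    (hy : y ∈ Submodule.span K {a, b}) : ∃ t : K, plk x y = t • plk a b := by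
  obtain ⟨s, t, rfl⟩ := Submodule.mem_span_pair.1 hx
  obtain ⟨u, v, rfl⟩ := Submodule.mem_span_pair.1 hy
  refine ⟨s * v - t * u, oalt_injective ?_⟩
  rw [map_smul, oalt_plk, oalt_plk]
  ext i j
  simp [vecMulVec_apply]; ring

theorem mem_of_plk {a b x y : Fin 4 → K} {t : K} (h : plk x y = t • plk a b) (h0 : plk x y ≠ 0) :
    x ∈ Submodule.span K {a, b} ∧ y ∈ Submodule.span K {a, b} := by
  have e : ∀ i j, x i * y j - y i * x j = t * (a i * b j - b i * a j) := fun i j => by
    have := congrFun (congrFun (congrArg (oalt K) h) i) j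
    rw [map_smul, oalt_plk, oalt_plk] at this
    simpa [vecMulVec_apply] using this
  obtain ⟨i, j, hij⟩ : ∃ i j, x i * y j - y i * x j ≠ 0 := by
    by_contra! H
    refine h0 (oalt_injective ?_)
    rw [oalt_plk, map_zero]
    ext i j
    simpa [vecMulVec_apply] using H i j
  constructor
  · refine Submodule.mem_span_pair.2 ⟨t * (x i * b j - x j * b i) / (x i * y j - y i * x j),
      t * (x j * a i - x i * a j) / (x i * y j - y i * x j), funext fun k => ?_⟩
    simp only [Pi.add_apply, Pi.smul_apply, smul_eq_mul]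
    rw [div_mul_eq_mul_div, div_mul_eq_mul_div, ← add_div, div_eq_iff hij]
    linear_combination x j * e k i - x i * e k j
  · refine Submodule.mem_span_pair.2 ⟨t * (y i * b j - y j * b i) / (x i * y j - y i * x j),
      t * (y j * a i - y i * a j) / (x i * y j - y i * x j), funext fun k => ?_⟩
    simp only [Pi.add_apply, Pi.smul_apply, smul_eq_mul]
    rw [div_mul_eq_mul_div, div_mul_eq_mul_div, ← add_div, div_eq_iff hij]
    linear_combination y j * e k i - y i * e k j

theorem exists_plk {D : Fin 2 → Submodule K (Fin 4 → K)} (hD : IsMDecomposition 2 D) :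
    ∃ a b : Fin 2 → Fin 4 → K, (∀ i, D i = Submodule.span K {a i, b i}) ∧
      polar (quad_plus 3 K) (plk (a 0) (b 0)) (plk (a 1) (b 1)) ≠ 0 := by
  have h : ∀ i, ∃ a b, D i = Submodule.span K {a, b} := fun i => by
    let B := Module.finBasisOfFinrankEq K (D i) (hD.finrank_eq i)
    refine ⟨B 0, B 1, ?_⟩
    have := congrArg (Submodule.map (D i).subtype) B.span_eq
    rw [Submodule.map_span, Submodule.map_top, Submodule.range_subtype] at this
    refine this.symm.trans ?_
    rw [← Set.range_comp]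
    congr 1
    ext x
    simp [eq_comm]
  choose a b h using h
  refine ⟨a, b, h, ?_⟩
  have := polar_plk ![a 0, b 0, a 1, b 1]
  simp only [cons_val_zero, cons_val_one, cons_val_two, cons_val_three, head_cons, tail_cons,
    cons_val] at this
  rw [this]
  refine ((Matrix.isUnit_iff_isUnit_det _).1 (Matrix.linearIndependent_rows_iff_isUnit.1
    (linearIndependent_of_top_le_span_of_card_eq_finrank ?_ (by simp)))).ne_zero
  rw [← hD.iSup_eq_top]
  refine iSup_le (Fin.forall_fin_two.2 ⟨?_, ?_⟩) <;> rw [h] <;> refine span_two_le ?_ ?_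
  exacts [Submodule.subset_span ⟨0, rfl⟩, Submodule.subset_span ⟨1, rfl⟩,
    Submodule.subset_span ⟨2, rfl⟩, Submodule.subset_span ⟨3, rfl⟩]

section Model

variable {F V : Type*} [Field F] [Finite F] [Algebra F K] [AddCommGroup V] [Module F V]
  [FiniteDimensional F V] {Q : QuadraticForm F V}

/-- A form of the Klein correspondence: `G₀` acts on the `F`-form `V` of the exterior square. -/
structure Kl {G₀ : Type*} [Group G₀] (ι : G₀ →* GL (Fin 4) K) (φ : G₀ →* OG Q)
    (j : V →ₗ[F] (Fin 3 ⊕ Fin 3 → K)) : Prop where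
  nd : (polarBilin Q).Nondegenerate
  dim : finrank F V = 6
  range : φ.range = commutator (OG Q)
  inj : Function.Injective j
  quad : ∀ v, quad_plus 3 K (j v) = algebraMap F K (Q v)
  act : ∀ g v, j ((φ g).1 v) = owedge K (ι g).1 (j v)

variable {G₀ : Type*} [Group G₀] {ι : G₀ →* GL (Fin 4) K} {φ : G₀ →* OG Q}
  {j : V →ₗ[F] (Fin 3 ⊕ Fin 3 → K)}

theorem Kl.polar (h : Kl ι φ j) (u v : V) :
    polar (quad_plus 3 K) (j u) (j v) = algebraMap F K (polar Q u v) := by
  simp only [QuadraticMap.polar, ← map_add j, h.quad, map_sub]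

/-- Proportional rational vectors are rationally proportional. -/
theorem Kl.smul (h : Kl ι φ j) {u v : V} {t : K} (e : j u = t • j v) : ∃ c : F, u = c • v := by
  by_cases hv : v = 0
  · exact ⟨0, h.inj (by simp [e, hv])⟩
  obtain ⟨w, hw⟩ := o_exists_polar_eq h.nd hv 1
  have := h.polar u w
  rw [e, o_polar_smul_left, h.polar, hw, map_one, mul_one] at this
  exact ⟨_, h.inj (by rw [e, this, map_smul, algebraMap_smul])⟩

theorem Kl.max_pair (h : Kl ι φ j) (hq : 4 ≤ Nat.card F) {G : Subgroup (GL (Fin 4) K)}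
    (hG : ι.range = G) {D : Fin 2 → Submodule K (Fin 4 → K)} (hD : IsMDecomposition 2 D)
    (hrat : ∀ i a b a' b', D i = Submodule.span K {a, b} →
      QuadraticMap.polar (quad_plus 3 K) (plk a b) (plk a' b') ≠ 0 →
      ∃ s, ∃ c : K, c ≠ 0 ∧ j s = c • plk a b) :
    IsMaximalIn G (decompositionStabilizer D ⊓ G) := by
  obtain ⟨a, b, hab, hp⟩ := exists_plk hD
  have hr : ∀ i, ∃ s, ∃ c : K, c ≠ 0 ∧ j s = c • plk (a i) (b i) := Fin.forall_fin_two.2
    ⟨hrat 0 _ _ _ _ (hab 0) hp, hrat 1 _ _ _ _ (hab 1) (by rwa [polar_comm])⟩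
  choose s c c0 hs using hr
  have q0 : ∀ i, Q (s i) = 0 := fun i => (algebraMap F K).injective (by
    rw [← h.quad, hs, o_qsmul, quad_plk, mul_zero, map_zero])
  have p0 : QuadraticMap.polar Q (s 0) (s 1) ≠ 0 := fun H => by
    have := h.polar (s 0) (s 1)
    rw [H, hs, hs, o_polar_smul_left, o_polar_smul_right, map_zero] at this
    simp [c0, hp] at this
  have s0 : ∀ i, s i ≠ 0 := Fin.forall_fin_two.2
    ⟨o_ne_zero_of_polar_left p0, o_ne_zero_of_polar_right p0⟩
  have hm : ∀ i, s i ∈ Submodule.span F {s 0, s 1} :=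
    Fin.forall_fin_two.2 ⟨mem_span_two_left _ _, mem_span_two_right _ _⟩
  have act : ∀ g i, j ((φ g).1 (s i)) = c i • plk ((ι g).1 *ᵥ a i) ((ι g).1 *ᵥ b i) :=
    fun g i => by rw [h.act, hs, map_smul, owedge_plk]
  refine isMaximalIn_of_hom ι hG φ h.range (omax_four_two h.nd h.dim hq
    (W := Submodule.span F {s 0, s 1}) (nd_span_pair (by simpa [q0] using p0))
    (finrank_span_two (s0 0) fun H => ?_)) fun g => ⟨fun ⟨σ, hσ⟩ => ?_, fun H => ?_⟩
  · obtain ⟨t, ht⟩ := Submodule.mem_span_singleton.1 H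
    exact p0 (by rw [← ht]; simp [oexp, q0])
  · have key : ∀ i, (φ g).1 (s i) ∈ Submodule.span F {s 0, s 1} := fun i => by
      have k : ∀ x ∈ D i, (ι g).1 *ᵥ x ∈ Submodule.span K {a (σ i), b (σ i)} := fun x hx => by
        rw [← hab, ← hσ]; exact ⟨x, hx, rfl⟩
      obtain ⟨t, ht⟩ := plk_of_mem (k _ (hab i ▸ mem_span_two_left _ _))
        (k _ (hab i ▸ mem_span_two_right _ _))
      obtain ⟨u, hu⟩ := h.smul (u := (φ g).1 (s i)) (v := s (σ i)) (t := c i * t / c (σ i)) (by
        rw [act, ht, hs, smul_smul, smul_smul, div_mul_cancel₀ _ (c0 _)])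
      rw [hu]; exact Submodule.smul_mem _ _ (hm _)
    refine quad_mem_stab_of_le fun x hx => ?_
    obtain ⟨u, v, rfl⟩ := Submodule.mem_span_pair.1 hx
    rw [map_add, map_smul, map_smul]
    exact Submodule.add_mem _ (Submodule.smul_mem _ _ (key 0)) (Submodule.smul_mem _ _ (key 1))
  · refine Max.mem_decompositionStabilizer_of_maps hD fun i => ?_
    obtain ⟨l, u, hu⟩ : ∃ l, ∃ u : F, (φ g).1 (s i) = u • s l := by
      obtain ⟨u, v, e⟩ := Submodule.mem_span_pair.1 (stab_app H (hm i))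
      have := (φ g).2 (s i)
      erw [← e] at this
      simp only [oexp, q0] at this
      rcases mul_eq_zero.1 (show u * v = 0 from mul_right_cancel₀ p0 (by linear_combination this))
        with H | H
      · exact ⟨1, v, by simp [← e, H]⟩
      · exact ⟨0, u, by simp [← e, H]⟩
    have e := act g i
    have n0 : plk ((ι g).1 *ᵥ a i) ((ι g).1 *ᵥ b i) ≠ 0 := fun H =>
      OG.app_ne_zero (φ g) (s0 i) (h.inj (by rw [e, H, smul_zero, map_zero]))
    rw [hu, map_smul, hs, ← algebraMap_smul K, smul_smul] at e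
    obtain ⟨k1, k2⟩ := mem_of_plk (t := (c i)⁻¹ * (algebraMap F K u * c l)) (a := a l) (b := b l)
      (by rw [mul_smul, e, inv_smul_smul₀ (c0 i)]) n0
    refine ⟨l, fun v hv => ?_⟩
    rw [hab] at hv ⊢
    obtain ⟨x, y, rfl⟩ := Submodule.mem_span_pair.1 hv
    rw [mulVec_add, mulVec_smul, mulVec_smul]
    exact Submodule.add_mem _ (Submodule.smul_mem _ _ k1) (Submodule.smul_mem _ _ k2)

end Model

theorem kl_sl [Finite K] : Kl (SpecialLinearGroup.toGL : SpecialLinearGroup (Fin 4) K →* _)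
    (owedgeSL K) (LinearMap.id (R := K)) :=
  ⟨quad_plus_nondeg, by simp, range_owedgeSL, fun _ _ h => h, fun _ => rfl, fun _ _ => rfl⟩

theorem max_sl4_planes [Fintype K] (hq : 4 ≤ Fintype.card K)
    {D : Fin 2 → Submodule K (Fin 4 → K)} (hD : IsMDecomposition 2 D) :
    IsMaximalIn (specialLinear (Fin 4) K) (decompositionStabilizer D ⊓ specialLinear (Fin 4) K) :=
  kl_sl.max_pair (by rwa [Nat.card_eq_fintype_card]) range_toGL hD
    fun _ a b _ _ _ _ => ⟨plk a b, 1, one_ne_zero, (one_smul _ _).symm⟩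

theorem swap_plk {v : Fin 4 → Fin 4 → K} (hv : (Matrix.of v).det ≠ 0) {u w : Fin 4 → K}
    (h1 : v 0 ⬝ᵥ u = 0) (h2 : v 0 ⬝ᵥ w = 0) (h3 : v 1 ⬝ᵥ u = 0) (h4 : v 1 ⬝ᵥ w = 0) :
    ∃ t : K, plk u w ∘ Sum.swap = t • plk (v 0) (v 1) := by
  have e : plk (v 0) (v 1) = owedge K (Matrix.of v)ᵀ (plk (Pi.single 0 1) (Pi.single 1 1)) := by
    rw [owedge_plk]; simp
  refine ⟨plk (Matrix.of v *ᵥ u) (Matrix.of v *ᵥ w) (.inr 0) / (Matrix.of v).det,
    o_eq_of_polar quad_plus_nondeg fun z => ?_⟩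
  obtain ⟨z, rfl⟩ : ∃ y, z = owedge K (Matrix.of v)ᵀ y := ⟨owedge K (Matrix.of v)ᵀ⁻¹ z, by
    rw [← Module.End.mul_apply, ← map_mul, mul_nonsing_inv _ (by simpa using hv), map_one]; rfl⟩
  rw [e, o_polar_smul_left, polar_owedge, det_transpose, ← mul_assoc, div_mul_cancel₀ _ hv,
    polar_comm, o_polar_plus_eq_dotProduct,
    show (plk u w ∘ Sum.swap) ∘ Sum.swap = plk u w from funext fun i => by simp,
    owedge_dotProduct, transpose_transpose, owedge_plk]
  have a1 : (Matrix.of v *ᵥ u) 0 = 0 := h1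
  have a2 : (Matrix.of v *ᵥ w) 0 = 0 := h2
  have a3 : (Matrix.of v *ᵥ u) 1 = 0 := h3
  have a4 : (Matrix.of v *ᵥ w) 1 = 0 := h4
  generalize Matrix.of v *ᵥ u = x at *
  generalize Matrix.of v *ᵥ w = y at *
  simp [o_polar_plus, plk, ounalt_apply, Fin.sum_univ_three, vecMulVec_apply, dotProduct, a1, a2,
    a3, a4, mul_comm]

variable {σ : K →+* K} {q : ℕ}

theorem oQuadExt_uFix (hq : UField σ q) : OQuadExt (uFix σ) σ :=
  ⟨hq.invol, fun x => ⟨fun h => ⟨⟨x, h⟩, rfl⟩, fun ⟨c, hc⟩ => hc ▸ c.2⟩⟩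

variable (K q) in
/-- The embedding of `SU₄` in `GL₄`. -/
def suι : SU 4 K q →* GL (Fin 4) K := SpecialLinearGroup.toGL.comp (SU 4 K q).subtype

theorem range_suι : (suι K q).range = GU 4 K q ⊓ specialLinear (Fin 4) K := by
  ext g
  constructor
  · rintro ⟨a, rfl⟩
    exact ⟨a.2, range_toGL.le ⟨a.1, rfl⟩⟩
  · rintro ⟨h1, h2⟩
    obtain ⟨a, rfl⟩ := range_toGL.ge h2
    exact ⟨⟨a, h1⟩, rfl⟩

theorem kl_su (hq : UField σ q) : have := hq.finite
    ∃ φ : SU 4 K q →* OG (oQuadExt_uFix hq).norm3, Kl (suι K q) φ (oQuadExt_uFix hq).j6 := by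
  have := hq.finite
  obtain ⟨φ, h1, h2, -⟩ := (oQuadExt_uFix hq).exists_hom_SU_four_minus hq hq.card_uFix
  exact ⟨φ, (oQuadExt_uFix hq).norm3_nondeg, (oQuadExt_uFix hq).finrank_norm3, h2,
    (oQuadExt_uFix hq).j6_injective, (oQuadExt_uFix hq).quad_plus_j6, h1⟩

/-- A line that is stable under the semilinear involution contains a rational vector. -/
theorem exists_rat (hq : UField σ q) {p : Fin 3 ⊕ Fin 3 → K} {t : K} (hp0 : p ≠ 0)
    (hp : (σ ∘ p) ∘ Sum.swap = t • p) : ∃ s, ∃ c : K, c ≠ 0 ∧ (oQuadExt_uFix hq).j6 s = c • p := by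
  obtain ⟨l, hl⟩ : ∃ l, l + σ l * t ≠ 0 := by
    by_contra! H
    obtain ⟨a, ha⟩ := hq.invol.exists_ne
    have := H 1
    rw [map_one] at this
    exact ha (by linear_combination σ a * this - H a)
  refine ⟨((l + σ l * t) • p) ∘ Sum.inl, _, hl, ?_⟩
  ext (i | i)
  · rfl
  · have e1 := congrFun hp (.inr i)
    have e2 := congrArg σ (congrFun hp (.inl i))
    simp only [Function.comp_apply, Sum.swap_inr, Sum.swap_inl, Pi.smul_apply, smul_eq_mul,
      map_mul, hq.invol.invol] at e1 e2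
    simp only [OQuadExt.j6_apply, Sum.elim_inr, Function.comp_apply, Pi.smul_apply, smul_eq_mul,
      map_mul, map_add, hq.invol.invol]
    linear_combination σ l * e1 - l * e2

theorem max_su4_planes (hq : UField σ q) (h4 : 4 ≤ q) {D : Fin 2 → Submodule K (Fin 4 → K)}
    (hD : IsMDecomposition 2 D) (hts : ∀ i, IsTotallySingularFor (hermForm 4 K q) (D i)) :
    IsMaximalIn (GU 4 K q ⊓ specialLinear (Fin 4) K)
      (decompositionStabilizer D ⊓ (GU 4 K q ⊓ specialLinear (Fin 4) K)) := by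
  have := hq.finite
  have := (oQuadExt_uFix hq).finiteDimensional
  obtain ⟨φ, h⟩ := kl_su hq
  refine h.max_pair (by rwa [hq.card_uFix]) range_suι hD fun i a b a' b' hab hp => ?_
  have k : ∀ x ∈ D i, ∀ y ∈ D i, x ⬝ᵥ (σ ∘ y) = 0 := fun x hx y hy => by
    simpa [hermForm, dotProduct, hq.pow] using hts i x hx y hy
  have ha : a ∈ D i := hab ▸ mem_span_two_left _ _
  have hb : b ∈ D i := hab ▸ mem_span_two_right _ _
  obtain ⟨t, ht⟩ := swap_plk (v := ![a, b, a', b']) (by rw [← polar_plk]; exact hp)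
    (k a ha a ha) (k a ha b hb) (k b hb a ha) (k b hb b hb)
  refine exists_rat hq (t := t) (o_ne_zero_of_polar_left hp) (Eq.trans ?_ ht)
  ext (i | i) <;> fin_cases i <;> simp [plk, ounalt_apply, vecMulVec_apply]

end Cfsg.Agent.Cl.Low
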