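import Mathlib
import Cfsg.Agent.Cl.LowOSmall
import Cfsg.Agent.Cl.OrthWedge
import Cfsg.Agent.Cl.Bridge
import Cfsg.Agent.Cl.MaxSpGU

/-!
# `Sp₄(q)` acting on the self-adjoint matrices of trace zero

The model `sX` of the orthogonal 5-space; the stabilisers of a pair of Lagrangians and of a
unitary structure are maximal in `Sp₄(q)`, `q ≥ 5` odd.
-/

set_option autoImplicit false
set_option linter.unusedSectionVars false
set_option linter.unusedVariables false

namespace Cfsg.Agent.Cl.Low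

open Module QuadraticMap Matrix MaxO

variable {F : Type*} [Field F]

/-- `4 × 4` matrices in symplectic coordinates. -/
abbrev M4 (F : Type*) := Matrix (Fin 2 ⊕ Fin 2) (Fin 2 ⊕ Fin 2) F

/-- The orthogonal 5-space. -/
abbrev V5 (F : Type*) := Unit ⊕ (Fin 2 ⊕ Fin 2) → F

variable (F) in
/-- The self-adjoint matrices of trace zero. -/
def sX : V5 F →ₗ[F] M4 F where
  toFun v := fromBlocks !![v (.inl ()), v (.inr (.inl 1)); v (.inr (.inr 1)), -v (.inl ())]
    !![0, -v (.inr (.inl 0)); v (.inr (.inl 0)), 0] !![0, v (.inr (.inr 0)); -v (.inr (.inr 0)), 0]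
    !![v (.inl ()), v (.inr (.inr 1)); v (.inr (.inl 1)), -v (.inl ())]
  map_add' u v := by
    ext (i | i) (j | j) <;> fin_cases i <;> fin_cases j <;> simp [add_comm]
  map_smul' c v := by ext (i | i) (j | j) <;> fin_cases i <;> fin_cases j <;> simp

theorem sX_apply (v : V5 F) : sX F v =
    fromBlocks !![v (.inl ()), v (.inr (.inl 1)); v (.inr (.inr 1)), -v (.inl ())]
    !![0, -v (.inr (.inl 0)); v (.inr (.inl 0)), 0] !![0, v (.inr (.inr 0)); -v (.inr (.inr 0)), 0]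
    !![v (.inl ()), v (.inr (.inr 1)); v (.inr (.inl 1)), -v (.inl ())] := rfl

theorem sX_sq (v : V5 F) : sX F v * sX F v = quad_odd 2 F v • (1 : M4 F) := by
  ext (i | i) (j | j) <;> fin_cases i <;> fin_cases j <;>
    simp [sX_apply, quad_odd_apply, Matrix.mul_apply] <;> ring

theorem sX_anti (u v : V5 F) :
    sX F u * sX F v + sX F v * sX F u = polar (quad_odd 2 F) u v • (1 : M4 F) := by
  have := sX_sq (u + v)
  rw [map_add, add_mul, mul_add, mul_add, sX_sq, sX_sq, o_qadd] at this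
  linear_combination (norm := module) this

theorem sX_inj : Function.Injective (sX F) := fun u v h => by
  ext (_ | i | i)
  · exact congrFun (congrFun h (.inl 0)) (.inl 0)
  · fin_cases i
    · exact congrFun (congrFun h (.inl 1)) (.inr 0)
    · exact congrFun (congrFun h (.inl 0)) (.inl 1)
  · fin_cases i
    · exact congrFun (congrFun h (.inr 0)) (.inl 1)
    · exact congrFun (congrFun h (.inl 1)) (.inl 0)

theorem sX_trace (v : V5 F) : (sX F v).trace = 0 := by
  simp [sX_apply, Matrix.trace]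

theorem sX_adj (v : V5 F) : (sX F v)ᵀ * J (Fin 2) F = J (Fin 2) F * sX F v := by
  ext (i | i) (j | j) <;> fin_cases i <;> fin_cases j <;>
    simp [sX_apply, Matrix.mul_apply, Matrix.J, Matrix.one_apply]

theorem sX_surj (h2 : (2 : F) ≠ 0) {A : M4 F} (h : Aᵀ * J (Fin 2) F = J (Fin 2) F * A)
    (ht : A.trace = 0) : ∃ v, sX F v = A := by
  simp only [← Matrix.ext_iff, Sum.forall, Fin.forall_fin_two] at h
  simp [Matrix.mul_apply, Matrix.J, Matrix.one_apply, Matrix.trace] at h ht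
  refine ⟨Sum.elim (fun _ => A (.inl 0) (.inl 0)) (Sum.elim ![A (.inl 1) (.inr 0), A (.inl 0) (.inl 1)]
    ![A (.inr 0) (.inl 1), A (.inl 1) (.inl 0)]), ?_⟩
  ext (i | i) (j | j) <;> fin_cases i <;> fin_cases j <;> simp [sX_apply] <;> grind

theorem comm_all {Y : M4 F} (h2 : (2 : F) ≠ 0) (h : ∀ v, Y * sX F v = sX F v * Y) :
    ∃ c : F, Y = c • 1 := by
  have h0 := h (Pi.single (.inl ()) 1)
  have h1 := h (Pi.single (.inr (.inl 0)) 1)
  have h3 := h (Pi.single (.inr (.inl 1)) 1)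
  have h4 := h (Pi.single (.inr (.inr 0)) 1)
  have h5 := h (Pi.single (.inr (.inr 1)) 1)
  simp only [← Matrix.ext_iff, Sum.forall, Fin.forall_fin_two] at h0 h1 h3 h4 h5
  simp [Matrix.mul_apply, sX_apply] at h0 h1 h3 h4 h5
  refine ⟨Y (.inl 0) (.inl 0), ?_⟩
  ext (i | i) (j | j) <;> fin_cases i <;> fin_cases j <;> simp <;> grind

theorem anti_all {Y : M4 F} (h2 : (2 : F) ≠ 0) (h : ∀ v, Y * sX F v = -(sX F v * Y)) : Y = 0 := by
  have h0 := h (Pi.single (.inl ()) 1)
  have h1 := h (Pi.single (.inr (.inl 0)) 1)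
  have h3 := h (Pi.single (.inr (.inl 1)) 1)
  have h4 := h (Pi.single (.inr (.inr 0)) 1)
  have h5 := h (Pi.single (.inr (.inr 1)) 1)
  simp only [← Matrix.ext_iff, Sum.forall, Fin.forall_fin_two] at h0 h1 h3 h4 h5
  simp [Matrix.mul_apply, sX_apply] at h0 h1 h3 h4 h5
  ext (i | i) (j | j) <;> fin_cases i <;> fin_cases j <;> simp <;> grind

theorem reindex_sX (v : V5 F) : Matrix.reindex finSumFinEquiv finSumFinEquiv (sX F v) =
    oalt F (oJ5 F v) * Matrix.reindex finSumFinEquiv finSumFinEquiv (J (Fin 2) F) := by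
  rw [← oalt_oJvec]
  ext i j
  fin_cases i <;> fin_cases j <;>
    simp [oalt_apply, oJvec, oJ5_apply, Matrix.mul_apply, Fin.sum_univ_four] <;> first | rfl | exact neg_zero.symm

/-- **`Sp₄(q) → Ω₅(q)`** as conjugation of self-adjoint matrices. -/
theorem sp4_model [Finite F] (h2 : (2 : F) ≠ 0) : ∃ φ : spGL 2 F →* OG (quad_odd 2 F),
    φ.range = commutator (OG (quad_odd 2 F)) ∧ ∀ g v, sX F ((φ g).1 v) = Max.cj g.1 (sX F v) := by
  obtain ⟨φ, h1, h3, -⟩ := exists_hom_Sp_four_odd (K := F) h2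
  refine ⟨φ.comp (symplecticEquivSpGL 2).symm.toMonoidHom, ?_, fun g v => ?_⟩
  · rw [← h3, MonoidHom.range_comp, MonoidHom.range_eq_top.2 (symplecticEquivSpGL 2).symm.surjective,
      ← MonoidHom.range_eq_map]
  · set A := (symplecticEquivSpGL 2).symm g with hA
    have e : g.1.1 = A.1 := rfl
    have hJ : A.1ᵀ * J (Fin 2) F * A.1 = J (Fin 2) F := SymplecticGroup.mem_iff'.1 A.2
    rw [eq_comm, Max.cj_eq_iff, e]
    apply (Matrix.reindexAlgEquiv F F finSumFinEquiv).injective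
    have hJ' := congrArg (Matrix.reindexAlgEquiv F F finSumFinEquiv) hJ
    simp only [map_mul, Matrix.reindexAlgEquiv_apply] at hJ' ⊢
    rw [reindex_sX, reindex_sX]
    change _ = oalt F (oJ5 F ((φ A).1 v)) * _ * _
    rw [h1, oalt_owedge, coe_oSpToSL, transpose_reindex]
    simp only [mul_assoc] at hJ' ⊢
    rw [hJ']

theorem adj_iff {A B : M4 F} : (∀ u v, sympForm 2 F (A *ᵥ u) v = sympForm 2 F u (B *ᵥ v)) ↔
    Aᵀ * J (Fin 2) F = J (Fin 2) F * B := by
  have key : ∀ u v, sympForm 2 F (A *ᵥ u) v = u ⬝ᵥ ((Aᵀ * J (Fin 2) F) *ᵥ v) := fun u v => by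
    rw [sympForm, ← mulVec_mulVec, dotProduct_mulVec u, vecMul_transpose]
  simp only [key]
  simp only [sympForm, mulVec_mulVec]
  refine ⟨fun h => ?_, fun h u v => by rw [h]⟩
  ext i j
  simpa using h (Pi.single i 1) (Pi.single j 1)

/-- The normaliser of a skew element with scalar square. -/
theorem max_skew [Finite F] (h2 : (2 : F) ≠ 0) (hq : Nat.card F ≠ 3) {Ω : M4 F} {δ : F}
    (hΩ : Ωᵀ * J (Fin 2) F = -(J (Fin 2) F * Ω)) (hδ : Ω * Ω = δ • 1) (hδ0 : δ ≠ 0)
    {H : Subgroup (GL (Fin 2 ⊕ Fin 2) F)}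
    (hH : ∀ g ∈ spGL 2 F, g ∈ H ↔ ∃ ε : F, ε * ε = 1 ∧ Max.cj g Ω = ε • Ω) :
    Geo.IsMaximalIn (spGL 2 F) (H ⊓ spGL 2 F) := by
  obtain ⟨φ, hφ, hX⟩ := sp4_model h2
  have hQ := quad_odd_nondeg (m := 2) h2
  have hn : finrank F (V5 F) = 5 := by simp
  let S : F → Submodule F (V5 F) := fun ε =>
    LinearMap.ker ((LinearMap.mulLeft F Ω - ε • LinearMap.mulRight F Ω) ∘ₗ sX F)
  have hS : ∀ ε v, v ∈ S ε ↔ Ω * sX F v = ε • (sX F v * Ω) := fun ε v => by
    simp [S, sub_eq_zero]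
  have hcan : ∀ Y : M4 F, Ω * Y = 0 → Y = 0 := fun Y h => by
    have := congrArg (Ω * ·) h
    simpa [← mul_assoc, hδ, hδ0] using this
  have hΩ0 : Ω ≠ 0 := fun h => one_ne_zero (hcan 1 (by simp [h]))
  have hdec : ∀ v, ∃ u ∈ S 1, ∃ w ∈ S (-1), v = u + w := fun v => by
    obtain ⟨v', hv'⟩ := sX_surj h2 (A := δ⁻¹ • (Ω * sX F v * Ω)) (by
      rw [transpose_smul, transpose_mul, transpose_mul, smul_mul_assoc, mul_smul_comm, mul_assoc,
        mul_assoc, hΩ, mul_neg, mul_neg, ← mul_assoc (sX F v)ᵀ, sX_adj, ← mul_assoc, ← mul_assoc,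
        hΩ]
      simp [mul_assoc]) (by
      rw [trace_smul, trace_mul_cycle, hδ, smul_mul_assoc, one_mul, trace_smul, sX_trace]; simp)
    have e1 : Ω * sX F v' = sX F v * Ω := by
      rw [hv', mul_smul_comm, ← mul_assoc, ← mul_assoc, hδ]; simp [smul_smul, hδ0]
    have e2 : sX F v' * Ω = Ω * sX F v := by
      rw [hv', smul_mul_assoc, mul_assoc, hδ]; simp [smul_smul, hδ0]
    refine ⟨(2 : F)⁻¹ • (v + v'), (hS _ _).2 ?_, (2 : F)⁻¹ • (v - v'), (hS _ _).2 ?_, ?_⟩
    · simp only [map_smul, map_add, mul_smul_comm, smul_mul_assoc, mul_add, add_mul, e1, e2]; module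
    · simp only [map_smul, map_sub, mul_smul_comm, smul_mul_assoc, mul_sub, sub_mul, e1, e2]; module
    · match_scalars <;> field_simp <;> ring
  have horth : ∀ u ∈ S 1, ∀ w ∈ S (-1), polar (quad_odd 2 F) u w = 0 := fun u hu w hw => by
    have a := (hS _ _).1 hu
    have b := (hS _ _).1 hw
    have e := sX_anti u w
    have e1 := congrArg (Ω * ·) e
    have e2 := congrArg (· * Ω) e
    simp only [mul_add, add_mul, ← mul_assoc, a, b, smul_mul_assoc, mul_smul_comm, mul_one,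
      one_mul] at e1 e2
    simp only [mul_assoc, a, b, mul_smul_comm] at e1 e2
    have : (2 * polar (quad_odd 2 F) u w) • Ω = 0 := by linear_combination (norm := module) -e1 - e2
    simpa [h2, hΩ0] using this
  have hU : ND (quad_odd 2 F) (S 1) := fun x hx h => o_eq_zero hQ fun y => by
    obtain ⟨u, hu, w, hw, rfl⟩ := hdec y
    rw [polar_add_right, h u hu, horth x hx w hw, add_zero]
  have hW : operp (quad_odd 2 F) (S 1) = S (-1) := le_antisymm (fun x hx => by
    obtain ⟨u, hu, w, hw, rfl⟩ := hdec x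
    rw [hU u hu fun y hy => by
      have := mem_operp.1 hx y hy
      rwa [polar_add_right, horth y hy w hw, add_zero, polar_comm] at this, zero_add]
    exact hw) fun w hw => mem_operp.2 fun u hu => horth u hu w hw
  have hd := finrank_operp hQ (S 1)
  have hWn := hU.perp hQ
  rw [hW] at hd hWn
  replace hd : finrank F (S (-1)) + finrank F (S 1) = 5 := hd.trans hn
  have hskew : ∀ v, Ω ≠ sX F v := fun v h => by
    have := sX_adj v
    rw [← h, hΩ] at this
    have h3 : (2 : F) • (J (Fin 2) F * Ω) = 0 := by linear_combination (norm := module) -this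
    have h4 := congrArg (J (Fin 2) F * ·) ((smul_eq_zero.1 h3).resolve_left h2)
    simp [← mul_assoc, J_squared, hΩ0] at h4
  have hone : ∀ T, ND (quad_odd 2 F) T → finrank F T = 1 → ∃ v ∈ T, quad_odd 2 F v ≠ 0 ∧
      ∀ x ∈ T, sX F v * sX F x = sX F x * sX F v := fun T hT h1 => by
    obtain ⟨v, hv, h0⟩ := hT.exists_nonsingular (ne_bot_of_finrank h1.ge)
    refine ⟨v, hv, h0, fun x hx => ?_⟩
    rw [← Submodule.eq_of_le_of_finrank_eq (span_one_le hv)
      (by rw [finrank_span_singleton (o_ne_zero_of_norm h0), h1])] at hx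
    obtain ⟨t, rfl⟩ := Submodule.mem_span_singleton.1 hx
    simp
  have hanti : ∀ v x, polar (quad_odd 2 F) v x = 0 → sX F v * sX F x = -(sX F x * sX F v) :=
    fun v x h => by have := sX_anti v x; rw [h, zero_smul] at this; exact eq_neg_of_add_eq_zero_left this
  have hmax : OMax (quad_stab (quad_odd 2 F) (S 1)) := by
    by_cases h3 : finrank F (S 1) = 3
    · exact omax_three_two hQ hn hq hU h3
    by_cases h4 : finrank F (S 1) = 2
    · rw [← stab_perp hQ, hW]; exact omax_three_two hQ hn hq hWn (Nat.add_right_cancel (hd.trans (by rw [h4])))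
    exfalso
    by_cases h5 : finrank F (S 1) = 0
    · refine hΩ0 (anti_all h2 fun v => ?_)
      obtain ⟨u, hu, w, hw, rfl⟩ := hdec v
      rw [Submodule.finrank_eq_zero.1 h5] at hu
      simpa [(Submodule.mem_bot F).1 hu] using (hS _ _).1 hw
    by_cases h6 : finrank F (S (-1)) = 0
    · obtain ⟨c, hc⟩ := comm_all (Y := Ω) h2 fun v => by
        obtain ⟨u, hu, w, hw, rfl⟩ := hdec v
        rw [Submodule.finrank_eq_zero.1 h6] at hw
        simpa [(Submodule.mem_bot F).1 hw] using (hS _ _).1 hu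
      have h7 : (2 * c) • J (Fin 2) F = 0 := by
        rw [hc] at hΩ
        simp only [transpose_smul, transpose_one, smul_mul_assoc, mul_smul_comm, one_mul,
          mul_one] at hΩ
        linear_combination (norm := module) hΩ
      have h8 := congrArg (· * J (Fin 2) F) h7
      simp only [smul_mul_assoc, J_squared, zero_mul, smul_neg, neg_eq_zero, smul_eq_zero,
        one_ne_zero, or_false, mul_eq_zero, h2, false_or] at h8
      exact hΩ0 (by rw [hc, h8, zero_smul])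
    by_cases h7 : finrank F (S 1) = 1
    · obtain ⟨v, hv, v0, hc⟩ := hone _ hU h7
      obtain ⟨c, hc⟩ := comm_all (Y := Ω * sX F v) h2 fun x => by
        obtain ⟨u, hu, w, hw, rfl⟩ := hdec x
        rw [map_add, mul_add, add_mul, mul_assoc, mul_assoc, hc u hu, hanti v w (horth v hv w hw),
          mul_neg, ← mul_assoc, ← mul_assoc, (hS _ _).1 hu, (hS _ _).1 hw]
        simp [mul_assoc]
      refine hskew ((c / quad_odd 2 F v) • v) ?_
      have := congrArg (· * sX F v) hc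
      simp only [mul_assoc, sX_sq, mul_smul_comm, mul_one, smul_mul_assoc, one_mul] at this
      rw [map_smul, div_eq_inv_mul, ← smul_smul, ← this, smul_smul, inv_mul_cancel₀ v0, one_smul]
    · have h8 : finrank F (S (-1)) = 1 := by
        generalize finrank F (S (-1)) = a at *
        generalize finrank F (S 1) = b at *
        omega
      obtain ⟨v, hv, v0, hc⟩ := hone _ hWn h8
      have := anti_all (Y := Ω * sX F v) h2 fun x => by
        obtain ⟨u, hu, w, hw, rfl⟩ := hdec x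
        rw [map_add, mul_add, add_mul, mul_assoc, mul_assoc, hc w hw,
          hanti v u (by rw [polar_comm]; exact horth u hu v hv),
          mul_neg, ← mul_assoc, ← mul_assoc, (hS _ _).1 hu, (hS _ _).1 hw]
        simp [mul_assoc, add_comm]
      exact o_ne_zero_of_norm v0 (sX_inj (by rw [hcan _ this, map_zero]))
  refine isMaximalIn_of_hom (spGL 2 F).subtype (Subgroup.range_subtype _) φ hφ hmax fun g => ?_
  rw [Subgroup.subtype_apply, hH _ g.2]
  have hcj : ∀ ε v, v ∈ S ε ↔ Max.cj g.1 Ω * sX F ((φ g).1 v) =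
      ε • (sX F ((φ g).1 v) * Max.cj g.1 Ω) := fun ε v => by
    rw [hX, ← map_mul, ← map_mul, ← map_smul, (Max.cj g.1).injective.eq_iff, hS]
  constructor
  · rintro ⟨ε, hε, h⟩
    refine quad_mem_stab_of_le fun v hv => (hS _ _).2 ?_
    have := congrArg (ε • ·) ((hcj 1 v).1 hv)
    simpa [h, smul_smul, hε] using this
  · intro h
    have h' : φ g ∈ quad_stab (quad_odd 2 F) (S (-1)) := by rwa [← hW, stab_perp hQ]
    have key : ∀ ε, φ g ∈ quad_stab (quad_odd 2 F) (S ε) → ∀ v ∈ S ε, Max.cj g.1 Ω * sX F v =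
        ε • (sX F v * Max.cj g.1 Ω) := fun ε h v hv => by
      have := (hcj ε _).1 (stab_app ((quad_stab _ _).inv_mem h) hv)
      rwa [OG.app_inv_app] at this
    obtain ⟨c, hc⟩ := comm_all (Y := Max.cj g.1 Ω * Ω) h2 fun x => by
      obtain ⟨u, hu, w, hw, rfl⟩ := hdec x
      rw [map_add, mul_add, add_mul, mul_assoc, mul_assoc, (hS _ _).1 hu, (hS _ _).1 hw,
        mul_smul_comm, mul_smul_comm, ← mul_assoc, ← mul_assoc, key 1 h u hu, key _ h' w hw]
      simp [mul_assoc]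
    have e : Max.cj g.1 Ω = (c / δ) • Ω := by
      have := congrArg (· * Ω) hc
      simp only [mul_assoc, hδ, mul_smul_comm, mul_one, smul_mul_assoc, one_mul] at this
      rw [div_eq_inv_mul, ← smul_smul, ← this, smul_smul, inv_mul_cancel₀ hδ0, one_smul]
    refine ⟨_, ?_, e⟩
    have := map_mul (Max.cj g.1) Ω Ω
    rw [hδ, map_smul, map_one, e, smul_mul_assoc, mul_smul_comm, hδ, smul_smul, smul_smul] at this
    exact mul_right_cancel₀ hδ0 (by
      rw [one_mul]; exact (smul_left_injective F (one_ne_zero (α := M4 F)) this).symm)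

open Cfsg.Geo

theorem max_glm4 [Fintype F] (hq : 5 ≤ Fintype.card F) (hodd : Odd (Fintype.card F))
    (D : Fin 2 → Submodule F (Fin 2 ⊕ Fin 2 → F)) (hD : IsMDecomposition 2 D)
    (hts : ∀ i, IsTotallySingularFor (sympForm 2 F) (D i)) :
    IsMaximalIn (spGL 2 F) (decompositionStabilizer D ⊓ spGL 2 F) := by
  have h2 := MaxSp.two_ne_zero_of_odd hodd
  have hc : IsCompl (D 0) (D 1) := ⟨hD.indep.pairwiseDisjoint (by simp), codisjoint_iff.2 (by
    rw [← hD.iSup_eq_top]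
    exact le_antisymm (sup_le (le_iSup D 0) (le_iSup D 1))
      (iSup_le (Fin.forall_fin_two.2 ⟨le_sup_left, le_sup_right⟩)))⟩
  obtain ⟨Ω, h0, h1⟩ : ∃ Ω : M4 F, (∀ x ∈ D 0, Ω *ᵥ x = x) ∧ ∀ x ∈ D 1, Ω *ᵥ x = -x :=
    ⟨LinearMap.toMatrix' (LinearMap.ofIsCompl hc (D 0).subtype (-(D 1).subtype)),
      fun x hx => by
        rw [LinearMap.toMatrix'_mulVec]; exact LinearMap.ofIsCompl_apply_left hc ⟨x, hx⟩,
      fun x hx => by
        rw [LinearMap.toMatrix'_mulVec]; exact LinearMap.ofIsCompl_apply_right hc ⟨x, hx⟩⟩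
  have hdec : ∀ x, ∃ a ∈ D 0, ∃ b ∈ D 1, a + b = x := fun x =>
    Submodule.mem_sup.1 (hc.sup_eq_top.ge Submodule.mem_top)
  have e0 : ∀ y, Ω *ᵥ y = y → y ∈ D 0 := fun y hy => by
    obtain ⟨a, ha, b, hb, rfl⟩ := hdec y
    rw [mulVec_add, h0 a ha, h1 b hb] at hy
    have : (2 : F) • b = 0 := by linear_combination (norm := module) -hy
    simpa [(smul_eq_zero.1 this).resolve_left h2] using ha
  have e1 : ∀ y, Ω *ᵥ y = -y → y ∈ D 1 := fun y hy => by
    obtain ⟨a, ha, b, hb, rfl⟩ := hdec y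
    rw [mulVec_add, h0 a ha, h1 b hb] at hy
    have : (2 : F) • a = 0 := by linear_combination (norm := module) hy
    simpa [(smul_eq_zero.1 this).resolve_left h2] using hb
  refine max_skew h2 (by rw [Nat.card_eq_fintype_card]; omega) (Ω := Ω) (δ := 1) ?_
    (Matrix.ext_iff_mulVec.2 fun x => ?_) one_ne_zero fun g _ => ⟨?_, ?_⟩
  · rw [← mul_neg, ← adj_iff]
    intro u v
    obtain ⟨a, ha, b, hb, rfl⟩ := hdec u
    obtain ⟨c, hc, d, hd, rfl⟩ := hdec v
    have k0 := hts 0 a ha c hc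
    have k1 := hts 1 b hb d hd
    simp only [← spB_apply] at k0 k1 ⊢
    simp [neg_mulVec, mulVec_add, h0 a ha, h1 b hb, h0 c hc, h1 d hd, k0, k1]
  · obtain ⟨a, ha, b, hb, rfl⟩ := hdec x
    simp [← mulVec_mulVec, mulVec_add, mulVec_neg, h0 a ha, h1 b hb]
  · rintro ⟨σ, hσ⟩
    have k : ∀ i, ∀ x ∈ D i, g.1 *ᵥ x ∈ D (σ i) := fun i x hx => by
      rw [← hσ]; exact ⟨x, hx, rfl⟩
    have hs : (σ 0 = 0 ∧ σ 1 = 1) ∨ (σ 0 = 1 ∧ σ 1 = 0) := by clear hσ k; revert σ; decide
    rcases hs with ⟨s0, s1⟩ | ⟨s0, s1⟩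
    · refine ⟨1, one_mul 1, (Max.cj_eq_iff _ _ _).2 (Matrix.ext_iff_mulVec.2 fun x => ?_)⟩
      obtain ⟨a, ha, b, hb, rfl⟩ := hdec x
      simp [← mulVec_mulVec, mulVec_add, mulVec_neg, h0 a ha, h1 b hb, h0 _ (s0 ▸ k 0 a ha),
        h1 _ (s1 ▸ k 1 b hb)]
    · refine ⟨-1, by simp, (Max.cj_eq_iff _ _ _).2 (Matrix.ext_iff_mulVec.2 fun x => ?_)⟩
      obtain ⟨a, ha, b, hb, rfl⟩ := hdec x
      simp [← mulVec_mulVec, mulVec_add, mulVec_neg, neg_mulVec, h0 a ha, h1 b hb,
        h1 _ (s0 ▸ k 0 a ha), h0 _ (s1 ▸ k 1 b hb)]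
  · rintro ⟨ε, hε, e⟩
    have k : ∀ x, g.1 *ᵥ (Ω *ᵥ x) = ε • Ω *ᵥ (g.1 *ᵥ x) := fun x => by
      rw [← Max.cj_mulVec, e, smul_mulVec]
    refine Max.mem_decompositionStabilizer_of_maps hD (Fin.forall_fin_two.2 ?_)
    rcases mul_self_eq_one_iff.1 hε with rfl | rfl
    · exact ⟨⟨0, fun x hx => e0 _ (by simpa [h0 x hx] using (k x).symm)⟩,
        ⟨1, fun x hx => e1 _ (by simpa [h1 x hx, mulVec_neg] using (k x).symm)⟩⟩
    · exact ⟨⟨1, fun x hx => e1 _ (by simpa [h0 x hx, neg_eq_iff_eq_neg] using (k x).symm)⟩,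
        ⟨0, fun x hx => e0 _ (by simpa [h1 x hx, mulVec_neg] using (k x).symm)⟩⟩

theorem max_gu4 [Fintype F] (hq : 5 ≤ Fintype.card F) (hodd : Odd (Fintype.card F))
    (K : Subalgebra F (M4 F)) (hK : IsFieldSubalgebra 2 K)
    (hac : IsAdjointClosedFor (sympForm 2 F) K) (hnsa : ¬ IsSelfAdjointFor (sympForm 2 F) K) :
    IsMaximalIn (spGL 2 F) (subalgebraNormalizer K ⊓ spGL 2 F) := by
  have h2 := MaxSp.two_ne_zero_of_odd hodd
  have hA : (spB 2 F).IsAlt := spB_isAlt
  have hB : (spB 2 F).Nondegenerate := spB_nondegenerate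
  obtain ⟨Ω, hΩK, hΩ0, hadj⟩ : ∃ Ω ∈ K, Ω ≠ 0 ∧ ∀ u v, spB 2 F (Ω *ᵥ u) v = -spB 2 F u (Ω *ᵥ v) := by
    simp only [IsSelfAdjointFor, not_forall] at hnsa
    obtain ⟨k, hk, u, v, huv⟩ := hnsa
    obtain ⟨k', hk', h⟩ := hac k hk
    simp only [← spB_apply] at h huv
    refine ⟨k - k', K.sub_mem hk hk', fun H => huv (by rw [h, sub_eq_zero.1 H]), fun x y => ?_⟩
    have e : spB 2 F (k' *ᵥ x) y = spB 2 F x (k *ᵥ y) := by rw [← hA.neg_eq y, ← h, hA.neg_eq]
    rw [sub_mulVec, sub_mulVec, map_sub, map_sub, LinearMap.sub_apply, h, e]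
    ring
  have hne : Nonempty (Fin 2 ⊕ Fin 2) := ⟨Sum.inl ⟨0, by omega⟩⟩
  have zero_of : ∀ (x : M4 F),
      (∀ u v, spB 2 F (x *ᵥ u) v = 0) → x = 0 := fun x hx =>
    Matrix.ext_iff_mulVec.2 fun u => by rw [zero_mulVec]; exact hB.1 _ (hx u)
  have sc : ∀ a b : F, (∀ u v, spB 2 F ((a • 1 + b • Ω) *ᵥ u) v =
      -spB 2 F u ((a • 1 + b • Ω) *ᵥ v)) → a = 0 := fun a b H => by
    have := zero_of ((2 * a) • 1) fun u v => by
      have := H u v
      simp only [add_mulVec, smul_mulVec, one_mulVec, map_add, map_smul, LinearMap.add_apply,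
        LinearMap.smul_apply, hadj, smul_eq_mul] at this ⊢
      linear_combination this
    simpa [h2] using this
  have hspan : ∀ k ∈ K, ∃ a b : F, a • 1 + b • Ω = k := fun k hk => by
    have hli : LinearIndependent F ![(1 : K), ⟨Ω, hΩK⟩] := by
      rw [LinearIndependent.pair_iff]
      intro a b hab
      have e : a • (1 : M4 F) + b • Ω = 0 :=
        congrArg Subtype.val hab
      have ha := sc a b (by simp [e])
      exact ⟨ha, by simpa [ha, hΩ0] using e⟩
    have := hli.span_eq_top_of_card_eq_finrank' (by simp [hK.finrank_eq])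
    have h1 : (⟨k, hk⟩ : K) ∈ Submodule.span F {(1 : K), ⟨Ω, hΩK⟩} := by
      rw [show ({(1 : K), ⟨Ω, hΩK⟩} : Set K) = Set.range ![(1 : K), ⟨Ω, hΩK⟩] by
        simp [Set.pair_comm], this]
      trivial
    obtain ⟨a, b, hab⟩ := Submodule.mem_span_pair.1 h1
    exact ⟨a, b, congrArg Subtype.val hab⟩
  obtain ⟨δ, hδ⟩ : ∃ δ : F, Ω * Ω = δ • 1 := by
    obtain ⟨a, b, hab⟩ := hspan _ (K.mul_mem hΩK hΩK)
    have := zero_of ((2 * b) • Ω) fun u v => by
      have e : spB 2 F ((Ω * Ω) *ᵥ u) v = spB 2 F u ((Ω * Ω) *ᵥ v) := by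
        rw [← mulVec_mulVec, ← mulVec_mulVec, hadj, hadj, neg_neg]
      simp only [← hab, add_mulVec, smul_mulVec, one_mulVec, map_add, map_smul,
        LinearMap.add_apply, LinearMap.smul_apply, hadj, smul_eq_mul] at e ⊢
      linear_combination e
    exact ⟨a, by rw [← hab, show b = 0 by simpa [h2, hΩ0] using this]; simp⟩
  have hnsq : ∀ a : F, a ^ 2 ≠ δ := fun a ha => by
    have e : (a • 1 + (1 : F) • Ω) * ((-a) • 1 + (1 : F) • Ω) = 0 := by
      simp only [one_smul, add_mul, mul_add, smul_mul_assoc, mul_smul_comm, one_mul, mul_one, hδ,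
        ← ha]
      module
    have mem : ∀ c : F, c • 1 + (1 : F) • Ω ∈ K := fun c =>
      K.add_mem (K.smul_mem K.one_mem c) (K.smul_mem hΩK 1)
    have ne : ∀ c : F, c • 1 + (1 : F) • Ω ≠ 0 := fun c H => by
      have := sc c 1 (by rw [H]; simp)
      exact hΩ0 (by simpa [this] using H)
    exact ne _ ((Max.IsFieldSubalgebra.isUnit hK (mem a) (ne a)).mul_right_eq_zero.1 e)
  have hδ0 : δ ≠ 0 := fun H => hnsq 0 (by simp [H])
  refine max_skew h2 (by rw [Nat.card_eq_fintype_card]; omega) (Ω := Ω) (by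
    rw [← mul_neg, ← adj_iff]
    intro u v
    rw [← spB_apply, ← spB_apply, hadj, neg_mulVec, map_neg]) hδ hδ0 fun x hx => ?_
  obtain ⟨g, rfl⟩ := MaxSp.range_spι.ge hx
  refine ⟨fun H => ?_, fun ⟨ε, hε, e⟩ => ?_⟩
  · obtain ⟨a, b, hab⟩ := hspan _ ((H Ω).1 hΩK)
    replace hab : a • 1 + b • Ω = Max.cj (MaxSp.spι 2 F g) Ω := hab
    have e : ∀ x, g.1 (Ω *ᵥ x) = (a • 1 + b • Ω) *ᵥ g.1 x := fun x => by
      rw [hab, ← MaxSp.spι_mulVec g x, Max.cj_mulVec, MaxSp.spι_mulVec]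
    have ha := sc a b fun u v => by
      rw [← MaxSp.sp_apply_inv_apply g u, ← MaxSp.sp_apply_inv_apply g v, ← e, ← e, spG_form, spG_form, hadj]
    have hb : b ^ 2 = 1 := by
      have e1 : Max.cj (MaxSp.spι 2 F g) (Ω * Ω) = (b ^ 2 * δ) • 1 := by
        rw [map_mul, ← hab, ha]
        simp only [zero_smul, zero_add, smul_mul_assoc, mul_smul_comm, hδ]
        module
      rw [hδ, map_smul, map_one] at e1
      have e2 := smul_left_injective F (one_ne_zero (α := M4 F)) e1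
      exact mul_right_cancel₀ hδ0 (by rw [← e2, one_mul])
    exact ⟨b, by rw [← hb, pow_two], by rw [← hab, ha]; simp⟩
  · have e' : Max.cj (MaxSp.spι 2 F g)⁻¹ Ω = ε • Ω := by
      have := congrArg (fun x => ε • Max.cj (MaxSp.spι 2 F g)⁻¹ x) e
      simpa only [Max.cj_inv_cj, map_smul, smul_smul, hε, one_smul] using this.symm
    have key : ∀ x : GL (Fin 2 ⊕ Fin 2) F, Max.cj x Ω = ε • Ω → ∀ k ∈ K, Max.cj x k ∈ K :=
      fun x hx k hk => by
        obtain ⟨a, b, rfl⟩ := hspan k hk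
        rw [map_add, map_smul, map_smul, map_one, hx]
        exact K.add_mem (K.smul_mem K.one_mem a) (K.smul_mem (K.smul_mem hΩK ε) b)
    refine Max.mem_subalgebraNormalizer.2 fun k => ⟨key _ e k, fun hk => ?_⟩
    simpa only [Max.cj_inv_cj] using key _ e' _ hk

end Cfsg.Agent.Cl.Low
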