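import Mathlib
import Cfsg.Agent.Cl.LowSp4
import Cfsg.Agent.Cl.LowOFsC
import Cfsg.Agent.Cl.DerSix4

/-!
# Clifford generators of groups of symplectic type; the normaliser of `2^{1+4}_-` in `Sp₄(p)`
-/

set_option autoImplicit false
set_option linter.unusedSectionVars false
set_option linter.unusedVariables false

namespace Cfsg.Agent.Cl.Low

open Module QuadraticMap Matrix MaxO Cfsg.Geo Der

variable {F : Type*} [Field F] [Fintype F]

section Gam

variable {ι : Type} [Fintype ι] [DecidableEq ι] [Nonempty ι] {R : Subgroup (GL ι F)}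

/-- Five anticommuting involutions which generate `R` together with their centraliser. -/
structure Gam (R : Subgroup (GL ι F)) (γ : Fin 5 → GL ι F) : Prop where
  two : (2 : F) ≠ 0
  mem : ∀ k, γ k ∈ R
  sq : ∀ k, (γ k).1 * (γ k).1 = 1
  anti : ∀ k l, k ≠ l → (γ l).1 * (γ k).1 = -((γ k).1 * (γ l).1)
  pm : ∀ x ∈ R, ∀ y ∈ R, y.1 * x.1 = x.1 * y.1 ∨ y.1 * x.1 = -(x.1 * y.1)
  gen : ∀ K : Subgroup (GL ι F), (∀ k, γ k ∈ K) →
    (∀ x ∈ R, (∀ k, x.1 * (γ k).1 = (γ k).1 * x.1) → x ∈ K) → R ≤ K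

theorem toLin_eq_iff {x y : Matrix ι ι F} : Matrix.toLinAlgEquiv' x = Matrix.toLinAlgEquiv' y ↔
    x = y := (Matrix.toLinAlgEquiv' (R := F) (n := ι)).injective.eq_iff

theorem quad_five {V : Type*} [AddCommGroup V] [Module F V] [FiniteDimensional F V]
    {S : Submonoid (End F V)}
    {a b c d : End F V} (H : Quad S a b c d) (a1 : a * a = 1) (b1 : b * b = 1) (c1 : c * c = -1)
    (d1 : d * d = -1) : let γ : Fin 5 → End F V := ![a, b, a * b * c, a * b * d, a * b * (c * d)]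
    (∀ i, γ i * γ i = 1) ∧ ∀ i j, i ≠ j → γ j * γ i = -(γ i * γ j) := by
  intro γ
  refine ⟨fun i => ?_, fun i j e => ?_⟩
  · fin_cases i <;> simp [γ, mul_assoc, a1, b1, c1, d1, sw' H.ba, sw' H.dc, sw H.ca, sw H.cb,
      sw H.da, sw H.db]
  · fin_cases i <;> fin_cases j <;> first
      | exact absurd rfl e
      | simp [γ, mul_assoc, d1, sw' H.ba, sw' H.dc, sw H.ca, sw H.cb, sw H.da, sw H.db,
          sq1 a1, sq1 b1, sq2 c1, H.ba, H.dc, H.ca, H.cb, H.da, H.db]

theorem exists_gam {B : (ι → F) →ₗ[F] (ι → F) →ₗ[F] F} (h : Pau (Sm R) B) {a b c d : GL ι F}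
    (H : Quad (Sm R) (glRep a) (glRep b) (glRep c) (glRep d)) (a1 : glRep a * glRep a = 1)
    (b1 : glRep b * glRep b = 1) (c1 : glRep c * glRep c = -1) (d1 : glRep d * glRep d = -1) :
    ∃ γ, Gam R γ := by
  let γ : Fin 5 → GL ι F := ![a, b, a * b * c, a * b * d, a * b * (c * d)]
  have e : ∀ x : GL ι F, glRep x = Matrix.toLinAlgEquiv' x.1 := fun x => rfl
  have ha := mem_Sm.1 H.ha
  have hb := mem_Sm.1 H.hb
  have hc := mem_Sm.1 H.hc
  have hd := mem_Sm.1 H.hd
  have h0 : ∀ i, γ i ∈ R := fun i => by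
    have := R.mul_mem ha hb
    fin_cases i
    exacts [ha, hb, R.mul_mem this hc, R.mul_mem this hd, R.mul_mem this (R.mul_mem hc hd)]
  have h3 : ∀ i, glRep (γ i) = ![glRep a, glRep b, glRep a * glRep b * glRep c,
      glRep a * glRep b * glRep d, glRep a * glRep b * (glRep c * glRep d)] i := fun i => by
    fin_cases i <;> simp [γ]
  obtain ⟨h1, h2⟩ := quad_five H a1 b1 c1 d1
  simp only [← h3] at h1 h2
  refine ⟨γ, h.two, h0, fun k => toLin_eq_iff.1 ?_, fun k l hkl => toLin_eq_iff.1 ?_,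
    fun x hx y hy => ?_, fun K hK hK' x hx => ?_⟩
  · simpa only [e, map_mul, map_one] using h1 k
  · simpa only [e, map_mul, map_neg] using h2 k l hkl
  · simpa only [e, ← map_mul, ← map_neg, toLin_eq_iff] using h.pm _ (mem_Sm.2 hx) _ (mem_Sm.2 hy)
  have ka : a ∈ K := hK 0
  have kb : b ∈ K := hK 1
  have kc : c ∈ K := (K.mul_mem_cancel_left (K.mul_mem ka kb)).1 (hK 2)
  have kd : d ∈ K := (K.mul_mem_cancel_left (K.mul_mem ka kb)).1 (hK 3)
  have key : ∀ {u v : GL ι F}, u ∈ K ⊓ R → v ∈ K ⊓ R → ∀ m ∈ ({1, glRep u, glRep v,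
      glRep u * glRep v} : Set (End F (ι → F))), ∃ y ∈ K ⊓ R, glRep y = m := by
    rintro u v hu hv m (rfl | rfl | rfl | rfl)
    exacts [⟨1, one_mem _, map_one _⟩, ⟨u, hu, rfl⟩, ⟨v, hv, rfl⟩, ⟨_, mul_mem hu hv, map_mul _ _ _⟩]
  obtain ⟨m, hm, e1, e2⟩ := h.exists_fix H.ha H.hb H.ba (mem_Sm.2 hx)
  obtain ⟨y, hy, rfl⟩ := key ⟨ka, ha⟩ ⟨kb, hb⟩ m hm
  obtain ⟨n, hn, e3, e4⟩ := h.exists_fix H.hc H.hd H.dc (mem_Sm.2 (R.mul_mem hx hy.2))
  obtain ⟨z, hz, hz'⟩ := key ⟨kc, hc⟩ ⟨kd, hd⟩ n hn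
  have e5 : n * glRep a = glRep a * n ∧ n * glRep b = glRep b * n := by
    rcases hn with rfl | rfl | rfl | rfl
    · simp
    · exact ⟨H.ca, H.cb⟩
    · exact ⟨H.da, H.db⟩
    · exact ⟨by rw [mul_assoc, H.da, sw H.ca], by rw [mul_assoc, H.db, sw H.cb]⟩
  subst hz'
  rw [← map_mul] at e1 e2 e3 e4
  have f1 : Commute (glRep (x * y * z)) (glRep a) := by
    rw [map_mul]; exact Commute.mul_left e1 e5.1
  have f2 : Commute (glRep (x * y * z)) (glRep b) := by
    rw [map_mul]; exact Commute.mul_left e2 e5.2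
  have f3 : Commute (glRep (x * y * z)) (glRep c) := e3
  have f4 : Commute (glRep (x * y * z)) (glRep d) := e4
  have f5 := f1.mul_right f2
  refine (K.mul_mem_cancel_right hy.1).1 ((K.mul_mem_cancel_right hz.1).1 (hK' _
    (R.mul_mem (R.mul_mem hx hy.2) hz.2) fun k => toLin_eq_iff.1 ?_))
  rw [map_mul, map_mul, ← e, ← e]
  fin_cases k
  exacts [f1, f2, by simpa [γ] using (f5.mul_right f3).eq, by simpa [γ] using (f5.mul_right f4).eq,
    by simpa [γ] using (f5.mul_right (f3.mul_right f4)).eq]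

theorem pau_zero (hR : IsSymplecticTypeGroup 2 R) (hA : ActsAbsolutelyIrreducibly (matrixSet R))
    (hn : 2 ≤ Fintype.card ι) : Pau (Sm R) (0 : (ι → F) →ₗ[F] (ι → F) →ₗ[F] F) :=
  pau_of (Mx.extraData_of_sympl hR (Mx.spans_of_acts hA)) hn (pow_four_of_sympl hR)
    fun x _ u v => by simp

theorem exists_gam_minus (hR : IsSymplecticTypeGroup 2 R)
    (hA : ActsAbsolutelyIrreducibly (matrixSet R)) (hn : 3 ≤ Fintype.card ι)
    (hc : Nat.card R = 32) (hm : IsOfMinusType 2 R) : ∃ γ, Gam R γ := by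
  have h := pau_zero hR hA (by omega)
  obtain ⟨_, _, _, _, H, a1, b1, c1, d1⟩ := h.exists_quad_minus (by simpa using hn)
    (minus_of h hm hc)
  obtain ⟨a, -, rfl⟩ := H.ha
  obtain ⟨b, -, rfl⟩ := H.hb
  obtain ⟨c, -, rfl⟩ := H.hc
  obtain ⟨d, -, rfl⟩ := H.hd
  exact exists_gam h H a1 b1 c1 d1

theorem exists_gam_four (hR : IsSymplecticTypeGroup 2 R)
    (hA : ActsAbsolutelyIrreducibly (matrixSet R)) (hn : 3 ≤ Fintype.card ι)
    (hc : Nat.card (Subgroup.center R) = 4) :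
    ∃ γ, Gam R γ ∧ ∃ i : Fˣ, (i : F) * i = -1 ∧ Max.sc ι i ∈ R := by
  have h := pau_zero hR hA (by omega)
  obtain ⟨i, hi, z, hz, hz'⟩ := exists_i (Mx.spans_of_acts hA) hc
  have hS : i • (1 : End F (ι → F)) ∈ Sm R := ⟨z, hz, hz'⟩
  obtain ⟨_, _, _, _, H, a1, b1, c1, d1⟩ := h.exists_quad_neg (by simpa using hn) hi hS
  replace H := H.smul hS hS
  obtain ⟨a, -, ha⟩ := H.ha
  obtain ⟨b, -, hb⟩ := H.hb
  obtain ⟨c, -, rfl⟩ := H.hc
  obtain ⟨d, -, rfl⟩ := H.hd
  have i0 : i ≠ 0 := by rintro rfl; simp at hi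
  obtain ⟨γ, hγ⟩ := exists_gam h (a := a) (b := b) (by rwa [ha, hb])
    (by simp [ha, smul_smul, hi, a1]) (by simp [hb, smul_smul, hi, b1]) c1 d1
  refine ⟨γ, hγ, Units.mk0 i i0, hi, ?_⟩
  rwa [← mem_Sm, glRep_sc]

variable {γ : Fin 5 → GL ι F}

theorem Gam.trace (h : Gam R γ) (k : Fin 5) : (γ k).1.trace = 0 := by
  obtain ⟨l, hl⟩ := exists_ne k
  have e := congrArg (fun x => (x * (γ l).1).trace) (h.anti k l hl.symm)
  simp only [trace_mul_cycle (γ l).1, neg_mul, mul_assoc (γ k).1, h.sq, one_mul, mul_one,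
    trace_neg] at e
  exact (mul_eq_zero.1 (by linear_combination e)).resolve_left h.two

theorem Gam.mem_normalizer (h : Gam R γ) {g : GL ι F}
    (hc : ∀ x : Matrix ι ι F, (∀ k, x * (γ k).1 = (γ k).1 * x) → ∃ c : F, x = c • 1)
    (hg : ∀ k, g * γ k * g⁻¹ ∈ R) : g ∈ subgroupNormalizer R :=
  Subgroup.mem_normalizer_fintype fun y hy => h.gen (R.comap (MulAut.conj g).toMonoidHom) hg
    (fun x hx e => by
      obtain ⟨c, hc⟩ := hc _ e
      change g * x * g⁻¹ ∈ R
      rwa [Max.conj_of_mem_scalars (Max.mem_scalars_of_eq_smul hc)]) hy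

end Gam

/-- An orthogonal family of non-singular vectors of full size. -/
theorem odec_of_frame {V : Type*} [AddCommGroup V] [Module F V] [FiniteDimensional F V]
    {Q : QuadraticForm F V} (h2 : (2 : F) ≠ 0) {κ : Type} [Fintype κ] [Nonempty κ] {e : κ → V}
    {t : F} (ht : t ≠ 0) (he : ∀ i, Q (e i) = t) (ho : ∀ i j, i ≠ j → polar Q (e i) (e j) = 0)
    (hn : Fintype.card κ = finrank F V) : ODec Q (fun i => Submodule.span F {e i}) ∧
      (∀ i j, ∃ f : Submodule.span F {e i} ≃ₗ[F] Submodule.span F {e j},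
        ∀ x, Q (f x : V) = Q (x : V)) ∧ (∀ i, finrank F (Submodule.span F {e i}) = 1) ∧
      Submodule.span F (Set.range e) = ⊤ := by
  have e0 : ∀ i, e i ≠ 0 := fun i => o_ne_zero_of_norm (Q := Q) (by rwa [he])
  have hp : ∀ i, polar Q (e i) (e i) ≠ 0 := fun i => by
    rw [o_polar_self, he]; exact mul_ne_zero h2 ht
  have hs := (show LinearIndependent F e from LinearMap.linearIndependent_of_isOrthoᵢ
      (B := polarBilin Q) (fun i j hij => ho i j hij) hp).span_eq_top_of_card_eq_finrank hn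
  refine ⟨⟨fun i x hx H => ?_, fun i j hij x hx y hy => ?_, ?_⟩, fun i j => ?_,
    fun i => finrank_span_singleton (e0 i), hs⟩
  · obtain ⟨s, rfl⟩ := Submodule.mem_span_singleton.1 hx
    have := H _ (Submodule.mem_span_singleton_self _)
    rw [o_polar_smul_left] at this
    rw [(mul_eq_zero.1 this).resolve_right (hp i), zero_smul]
  · obtain ⟨s, rfl⟩ := Submodule.mem_span_singleton.1 hx
    obtain ⟨t, rfl⟩ := Submodule.mem_span_singleton.1 hy
    simp only [oexp, ho i j hij, mul_zero]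
  · rw [← hs, Submodule.span_range_eq_iSup]
  · refine ⟨(LinearEquiv.toSpanNonzeroSingleton F V _ (e0 i)).symm.trans
      (LinearEquiv.toSpanNonzeroSingleton F V _ (e0 j)), fun x => ?_⟩
    obtain ⟨s, rfl⟩ := (LinearEquiv.toSpanNonzeroSingleton F V _ (e0 i)).surjective x
    rw [LinearEquiv.trans_apply, LinearEquiv.symm_apply_apply]
    simp [QuadraticMap.map_smul, he]

theorem max_c6_sp4 {p : ℕ} (hp : p.Prime) (hq : Fintype.card F = p)
    {R : Subgroup (GL (Fin 2 ⊕ Fin 2) F)} (hR : IsSymplecticTypeGroup 2 R)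
    (hA : ActsAbsolutelyIrreducibly (matrixSet R)) (hle : R ≤ spGL 2 F) (hc : Nat.card R = 32)
    (hm : IsOfMinusType 2 R) : IsMaximalIn (spGL 2 F) (subgroupNormalizer R ⊓ spGL 2 F) := by
  obtain ⟨γ, h⟩ := exists_gam_minus hR hA (by simp) hc hm
  have h2 := h.two
  obtain ⟨φ, hφ, hX⟩ := sp4_model h2
  have hQ := quad_odd_nondeg (m := 2) h2
  have hs : ∀ k, ∃ v, sX F v = (γ k).1 := fun k => sX_surj h2 (adj_iff.1 fun u v => by
    have := hle (h.mem k) u ((γ k).1 *ᵥ v)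
    change sympForm 2 F ((γ k).1 *ᵥ u) ((γ k).1 *ᵥ ((γ k).1 *ᵥ v)) = _ at this
    rwa [mulVec_mulVec, h.sq, one_mulVec] at this) (h.trace k)
  choose e he using hs
  have one0 : (1 : M4 F) ≠ 0 := one_ne_zero
  have hn : ∀ k, quad_odd 2 F (e k) = 1 := fun k =>
    smul_left_injective F one0 (by simp only [← sX_sq, he, h.sq, one_smul])
  have hz : ∀ u v, sX F v * sX F u = -(sX F u * sX F v) → polar (quad_odd 2 F) u v = 0 :=
    fun u v H => smul_left_injective F one0 (by simp only [← sX_anti, H, add_neg_cancel, zero_smul])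
  obtain ⟨hD, hiso, hk, hsp⟩ := odec_of_frame (Q := quad_odd 2 F) h2 one_ne_zero hn
    (fun i j hij => hz _ _ (by rw [he, he, h.anti i j hij])) (by simp)
  have hall : ∀ P : V5 F →ₗ[F] M4 F, (∀ k, P (e k) = 0) → ∀ v, P v = 0 := fun P hP v =>
    (show ⊤ ≤ LinearMap.ker P from hsp ▸ Submodule.span_le.2 (Set.range_subset_iff.2 hP)) trivial
  have hneg : ∀ x ∈ R, ∀ y : GL (Fin 2 ⊕ Fin 2) F, y.1 = -x.1 → y ∈ R := fun x hx y hy => by
    have := R.mul_mem (R.mul_mem (R.mul_mem (R.mul_mem (h.mem 1) (h.mem 0)) (h.mem 1)) (h.mem 0)) hx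
    convert this using 1
    ext1
    simp only [Units.val_mul, hy, h.anti 0 1 (by decide), neg_mul, mul_assoc (γ 0).1, h.sq]
    simp [← mul_assoc, h.sq]
  refine isMaximalIn_of_hom (spGL 2 F).subtype (Subgroup.range_subtype _) φ hφ
    (omax_frame_five hQ h2 (by rwa [Nat.card_eq_fintype_card, hq]) hD hiso hk (by simp))
    fun g => ⟨fun hg => ?_, fun ⟨σ, hσ⟩ => ?_⟩
  · refine mem_dstab_of_maps (fun i j hij => ?_) (fun i j => by rw [hk, hk]) fun k => ?_
    · by_contra H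
      have := hD.orth i j H (e i) (Submodule.mem_span_singleton_self _) (e i)
        (by rw [← hij]; exact Submodule.mem_span_singleton_self _)
      rw [o_polar_self, hn, mul_one] at this
      exact h2 this
    have hx : g.1 * γ k * g.1⁻¹ ∈ R := Max.normsG_subgroupNormalizer R _ hg _ (h.mem k)
    have ex : sX F ((φ g).1 (e k)) = (g.1 * γ k * g.1⁻¹).1 := by rw [hX, he, Max.cj_coe]
    suffices ∃ j, (φ g).1 (e k) ∈ Submodule.span F {e j} from this.imp fun j hj x hx => by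
      obtain ⟨s, rfl⟩ := Submodule.mem_span_singleton.1 hx
      rw [map_smul]; exact Submodule.smul_mem _ _ hj
    by_contra! H
    have : ∀ j, polar (quad_odd 2 F) (e j) ((φ g).1 (e k)) = 0 := fun j => by
      rcases h.pm _ (h.mem j) _ hx with e1 | e1
      · refine absurd (Submodule.mem_span_singleton.2 ⟨2⁻¹ * polar (quad_odd 2 F) (e j)
          ((φ g).1 (e k)), sX_inj ?_⟩) (H j)
        have := congrArg ((γ j).1 * ·) (sX_anti (e j) ((φ g).1 (e k)))
        simp only [he, ex] at this ⊢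
        rw [e1] at this
        simp only [mul_add, ← mul_assoc, h.sq, one_mul, mul_smul_comm, mul_one] at this
        rw [map_smul, he, ← smul_smul, ← this, ← two_smul F, smul_smul, inv_mul_cancel₀ h2, one_smul]
      · exact hz _ _ (by rw [he, ex]; exact e1)
    have h0 : (φ g).1 (e k) = 0 := o_eq_zero hQ fun y => by
      have := hall (LinearMap.smulRight (polarBilin (quad_odd 2 F) ((φ g).1 (e k))) (1 : M4 F))
        (fun j => by simp [polar_comm, this]) y
      simpa using this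
    have := (φ g).2 (e k)
    rw [h0, hn, map_zero] at this
    exact zero_ne_one this
  · refine h.mem_normalizer (fun x hx => comm_all h2 fun v => ?_) fun k => ?_
    · have := hall ((LinearMap.mulLeft F x - LinearMap.mulRight F x) ∘ₗ sX F)
        (fun k => by simp [he, hx]) v
      simpa [sub_eq_zero] using this
    obtain ⟨s, hs⟩ := Submodule.mem_span_singleton.1 ((hσ k).le
      ⟨e k, Submodule.mem_span_singleton_self _, rfl⟩)
    have e1 : s * s = 1 := by
      have := (φ g).2 (e k)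
      erw [← hs] at this
      simpa [QuadraticMap.map_smul, hn] using this
    have ex : (g.1 * γ k * g.1⁻¹).1 = s • (γ (σ k)).1 := by
      rw [← Max.cj_coe, ← he, ← hX, ← he, ← map_smul, hs]; rfl
    rcases mul_self_eq_one_iff.1 e1 with rfl | rfl
    · rw [one_smul] at ex
      exact (Units.ext ex : g.1 * γ k * g.1⁻¹ = _) ▸ h.mem _
    · exact hneg _ (h.mem _) _ (by simpa using ex)

end Cfsg.Agent.Cl.Low
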