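import Mathlib
import Cfsg.Agent.Cl.LowSp4C6
import Cfsg.Agent.Cl.LowPlk
import Cfsg.Agent.Cl.LowOFsE

/-!
# The normaliser of `4 ∘ 2^{1+4}` in `SL₄(p)` and `SU₄(p)`
-/

set_option autoImplicit false
set_option linter.unusedSectionVars false
set_option linter.unusedVariables false

namespace Cfsg.Agent.Cl.Low

open Module QuadraticMap Matrix MaxO Cfsg.Geo Der

variable {K : Type*} [Field K] [Fintype K] {R : Subgroup (GL (Fin 4) K)}
  {γ : Fin 5 → GL (Fin 4) K} {i : Kˣ}

theorem plk_smul (s t : K) (a b : Fin 4 → K) : plk (s • a) (t • b) = (s * t) • plk a b :=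
  oalt_injective (by
    rw [map_smul, oalt_plk, oalt_plk]; ext i j; simp [vecMulVec_apply]; ring)

theorem plk_comm (a b : Fin 4 → K) : plk b a = -plk a b :=
  oalt_injective (by rw [map_neg, oalt_plk, oalt_plk, neg_sub])

theorem det_oalt (v : Fin 3 ⊕ Fin 3 → K) : (oalt K v).det = quad_plus 3 K v ^ 2 := by
  simp [o_det_fin_four, oalt_apply, quad_plus_apply, Fin.sum_univ_three]; ring

theorem oalt_mul_swap (v : Fin 3 ⊕ Fin 3 → K) :
    oalt K v * oalt K (v ∘ Sum.swap) = -quad_plus 3 K v • 1 := by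
  ext i j
  fin_cases i <;> fin_cases j <;>
    simp [oalt_apply, quad_plus_apply, Fin.sum_univ_three, Matrix.mul_apply, Fin.sum_univ_four] <;>
    ring

theorem oalt_transpose (v : Fin 3 ⊕ Fin 3 → K) : (oalt K v)ᵀ = -oalt K v := by
  ext i j
  fin_cases i <;> fin_cases j <;> simp [oalt_apply]

theorem owedge_smul (c : K) (A : Matrix (Fin 4) (Fin 4) K) (v : Fin 3 ⊕ Fin 3 → K) :
    owedge K (c • A) v = (c * c) • owedge K A v := oalt_injective (by
  rw [oalt_owedge, map_smul, oalt_owedge]; simp [smul_smul])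

theorem Gam.anti' (h : Gam R γ) (k l : Fin 5) (H : k ≠ l) (x : Matrix (Fin 4) (Fin 4) K) :
    (γ l).1 * ((γ k).1 * x) = -((γ k).1 * ((γ l).1 * x)) := by
  rw [← mul_assoc, h.anti k l H, neg_mul, mul_assoc]

theorem Gam.sq' (h : Gam R γ) (k : Fin 5) (x : Matrix (Fin 4) (Fin 4) K) :
    (γ k).1 * ((γ k).1 * x) = x := by rw [← mul_assoc, h.sq, one_mul]

theorem Gam.four (h : Gam R γ) : ∃ γ', Gam R γ' ∧ γ' 4 = γ' 0 * γ' 1 * γ' 2 * γ' 3 := by
  have a := h.anti
  have s := h.sq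
  refine ⟨![γ 0, γ 1, γ 2, γ 3, γ 0 * γ 1 * γ 2 * γ 3], ⟨h.two, fun k => ?_, fun k => ?_,
    fun k l hkl => ?_, h.pm, fun L h1 h2 => h.gen L (fun k => ?_) fun x hx e => h2 x hx fun k => ?_⟩,
    rfl⟩
  · fin_cases k
    exacts [h.mem 0, h.mem 1, h.mem 2, h.mem 3,
      R.mul_mem (R.mul_mem (R.mul_mem (h.mem 0) (h.mem 1)) (h.mem 2)) (h.mem 3)]
  · fin_cases k
    exacts [s 0, s 1, s 2, s 3, by
      simp [mul_assoc, h.anti' 0 1, h.anti' 0 2, h.anti' 0 3,
        h.anti' 1 2, h.anti' 1 3, h.anti' 2 3, h.sq', s]]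
  · fin_cases k <;> fin_cases l <;> first
      | exact absurd rfl hkl
      | exact a _ _ (by decide)
      | simp [mul_assoc, h.anti' 0 1, h.anti' 0 2, h.anti' 0 3,
        h.anti' 1 2, h.anti' 1 3, h.anti' 2 3, h.sq', s,
        a 0 1, a 0 2, a 0 3, a 1 2, a 1 3, a 2 3]
  · fin_cases k
    exacts [h1 0, h1 1, h1 2, h1 3, (L.mul_mem_cancel_left (h1 4)).1 (h2 _ (R.mul_mem
      (R.mul_mem (R.mul_mem (R.mul_mem (h.mem 0) (h.mem 1)) (h.mem 2)) (h.mem 3)) (h.mem 4))
      fun k => by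
        fin_cases k <;>
        simp [mul_assoc, h.anti' 0 1, h.anti' 0 2, h.anti' 0 3,
        h.anti' 1 2, h.anti' 1 3, h.anti' 2 3, h.sq', s,
        a 0 1, a 0 2, a 0 3, a 1 2, a 1 3, a 2 3, a 0 4, a 1 4, a 2 4, a 3 4,
        h.anti' 0 4, h.anti' 1 4, h.anti' 2 4,
        h.anti' 3 4])]
  · fin_cases k
    exacts [e 0, e 1, e 2, e 3, (((show Commute x.1 _ from e 0).mul_right (e 1)).mul_right
      (e 2)).mul_right (e 3)]

theorem exists_eig {a b : Matrix (Fin 4) (Fin 4) K} {x : Fin 4 → K} (aa : a * a = 1)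
    (ab : b * a = -(a * b)) (hb : b *ᵥ x ≠ 0) :
    ∃ y, y ≠ 0 ∧ a *ᵥ y = y ∧ (y = x + a *ᵥ x ∨ y = b *ᵥ x) := by
  by_cases H : x + a *ᵥ x = 0
  · refine ⟨_, hb, ?_, .inr rfl⟩
    rw [mulVec_mulVec, ← neg_neg (a * b), ← ab, neg_mulVec, ← mulVec_mulVec,
      eq_neg_of_add_eq_zero_right H, mulVec_neg, neg_neg]
  · exact ⟨_, H, by rw [mulVec_add, mulVec_mulVec, aa, one_mulVec, add_comm], .inl rfl⟩

theorem quad_plk_add (h2 : (2 : K) ≠ 0) {a u : Matrix (Fin 4) (Fin 4) K} {w x y z : Fin 4 → K}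
    (w0 : w ≠ 0) (x0 : x ≠ 0) (y0 : y ≠ 0) (z0 : z ≠ 0) (a1 : a *ᵥ w = w) (a2 : a *ᵥ x = x)
    (a3 : a *ᵥ y = -y) (a4 : a *ᵥ z = -z) (u1 : u *ᵥ w = w) (u2 : u *ᵥ x = -x) (u3 : u *ᵥ y = y)
    (u4 : u *ᵥ z = -z) : quad_plus 3 K (plk w x + plk y z) ≠ 0 := by
  have e := polar_plk ![w, x, y, z]
  simp only [cons_val_zero, cons_val_one, cons_val_two, cons_val_three, head_cons, tail_cons,
    cons_val] at e
  rw [o_qadd, quad_plk, quad_plk, e, zero_add, zero_add]
  suffices LinearIndependent K ![w, x, y, z] from ((Matrix.isUnit_iff_isUnit_det _).1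
    (Matrix.linearIndependent_rows_iff_isUnit.1 this)).ne_zero
  rw [Fintype.linearIndependent_iff]
  intro c hc
  replace hc : c 0 • w + c 1 • x + c 2 • y + c 3 • z = 0 := by
    rw [Fin.sum_univ_four] at hc; exact hc
  have h1 := congrArg (a *ᵥ ·) hc
  have h2' := congrArg (u *ᵥ ·) hc
  have h3 := congrArg (u *ᵥ ·) h1
  simp only [mulVec_add, mulVec_smul, mulVec_neg, mulVec_zero, a1, a2, a3, a4, u1, u2, u3, u4]
    at h1 h2' h3
  have h4 := mul_ne_zero h2 h2
  have key : ∀ (t : K) (v : Fin 4 → K), v ≠ 0 → (2 * 2 * t) • v = 0 → t = 0 := fun t v hv H =>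
    (mul_eq_zero.1 ((smul_eq_zero.1 H).resolve_right hv)).resolve_left h4
  intro k
  fin_cases k
  exacts [key (c 0) _ w0 (by linear_combination (norm := module) hc + h1 + h2' + h3),
    key (c 1) _ x0 (by linear_combination (norm := module) hc + h1 - h2' - h3),
    key (c 2) _ y0 (by linear_combination (norm := module) hc - h1 + h2' - h3),
    key (c 3) _ z0 (by linear_combination (norm := module) hc - h1 - h2' + h3)]

theorem Gam.exists_fix (h : Gam R γ) (hi : (i : K) * i = -1) :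
    ∃ p, quad_plus 3 K p ≠ 0 ∧ ∀ k : Fin 4, owedge K (γ k.castSucc).1 p = p := by
  have a := fun k l H x => congrArg (· *ᵥ x) (h.anti k l H)
  have s := fun k x => congrArg (· *ᵥ x) (h.sq k)
  simp only [← mulVec_mulVec, neg_mulVec, one_mulVec] at a s
  have n : ∀ k (x : Fin 4 → K), x ≠ 0 → (γ k).1 *ᵥ x ≠ 0 := fun k x hx H =>
    hx (by rw [← s k x, H, mulVec_zero])
  obtain ⟨x, x0, x1, -⟩ := exists_eig (h.sq 0) (h.anti 0 1 (by decide))
    (n 1 (fun _ => 1) (fun H => one_ne_zero (congrFun H 0)))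
  obtain ⟨v, v0, v1, v2⟩ := exists_eig (a := (i : K) • ((γ 2).1 * (γ 3).1))
    (b := (γ 1).1 * (γ 2).1) (x := x) (by
      simp [smul_smul, hi, mul_assoc, h.anti' 2 3, h.sq', h.sq])
    (by simp [mul_assoc, h.anti' 1 2, h.anti' 1 3,
      h.sq', h.anti 2 3, h.anti 1 3])
    (by rw [← mulVec_mulVec]; exact n _ _ (n _ _ x0))
  have v3 : (γ 0).1 *ᵥ v = v := by
    rcases v2 with rfl | rfl <;> simp [smul_mulVec, ← mulVec_mulVec, mulVec_add, mulVec_smul,
      mulVec_neg, x1, a 1 0, a 2 0, a 3 0]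
  have v4 : (γ 3).1 *ᵥ v = -(i : K) • (γ 2).1 *ᵥ v := by
    conv_rhs => rw [← v1]
    simp [smul_mulVec, ← mulVec_mulVec, mulVec_smul, s, smul_smul, hi]
  have v5 : (γ 3).1 *ᵥ (γ 2).1 *ᵥ v = (i : K) • v := by simp [a 2 3, v4, mulVec_smul, s, mulVec_neg]
  refine ⟨plk v ((γ 1).1 *ᵥ (γ 2).1 *ᵥ v) + plk ((γ 1).1 *ᵥ v) ((γ 2).1 *ᵥ v), ?_, fun k => ?_⟩
  · refine quad_plk_add h.two (a := (γ 0).1) (u := (i : K) • ((γ 2).1 * (γ 3).1)) v0
      (n 1 _ (n 2 _ v0)) (n 1 _ v0) (n 2 _ v0) v3 ?_ ?_ ?_ v1 ?_ ?_ ?_ <;>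
    simp [smul_mulVec, ← mulVec_mulVec, mulVec_smul, mulVec_neg, a 1 0, a 2 0, v3, a 1 3, a 1 2,
      v4, v5, s, smul_smul, hi]
  have p1 : ∀ a b : Fin 4 → K, plk (-a) b = plk b a := fun a b => by
    simpa [plk_comm a b] using plk_smul (-1) 1 a b
  have p2 : ∀ a b : Fin 4 → K, plk a (-b) = plk b a := fun a b => by
    simpa [plk_comm a b] using plk_smul 1 (-1) a b
  rw [map_add, owedge_plk, owedge_plk]
  fin_cases k
  · simp [-mulVec_mulVec, a 1 0, a 2 0, v3, mulVec_neg, p1, p2]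
  · simp [-mulVec_mulVec, s, add_comm]
  · simp [-mulVec_mulVec, a 1 2, s, p1, p2, add_comm]
  · simp [-mulVec_mulVec, a 1 3, v4, v5, mulVec_neg, mulVec_smul, p1, p2, plk_smul, hi, add_comm,
      plk_comm v, plk_comm ((γ 1).1 *ᵥ v)]

variable (γ i) in
/-- The six elements attached to the points of the frame. -/
def rho : Fin 6 → GL (Fin 4) K := Fin.cons 1 fun k => Max.sc (Fin 4) i * γ k

/-- The signs by which the generators act on the frame. -/
def chi (l : Fin 5) : Fin 6 → ℤ := Fin.cons 1 fun k => if l = k then 1 else -1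

theorem chi_sep : ∀ k m : Fin 6, k ≠ m → ∃ l, chi l k * chi l m = -1 := by decide

variable (R γ i) in
/-- The frame of the exterior square attached to `R`. -/
structure CF (E : Fin 6 → Fin 3 ⊕ Fin 3 → K) : Prop where
  gam : Gam R γ
  hi : (i : K) * i = -1
  mem : Max.sc (Fin 4) i ∈ R
  ne : quad_plus 3 K (E 0) ≠ 0
  fix : ∀ l, owedge K (γ l).1 (E 0) = E 0
  eq : ∀ k, oalt K (E k) = (rho γ i k).1 * oalt K (E 0)

theorem Gam.exists_CF (h : Gam R γ) (hi : (i : K) * i = -1) (hm : Max.sc (Fin 4) i ∈ R)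
    {p : Fin 3 ⊕ Fin 3 → K} (h0 : quad_plus 3 K p ≠ 0) (hp : ∀ l, owedge K (γ l).1 p = p) :
    ∃ E, E 0 = p ∧ CF R γ i E := by
  have e : ∀ k, oalt K (ounalt K ((rho γ i k).1 * oalt K p)) = (rho γ i k).1 * oalt K p := fun k => by
    have e1 : ((rho γ i k).1 * oalt K p)ᵀ = -((rho γ i k).1 * oalt K p) := by
      refine Fin.cases (by simp [rho, oalt_transpose]) (fun k => ?_) k
      have := congrArg ((γ k).1 * oalt K ·) (hp k)
      simp only [oalt_owedge, mul_assoc, h.sq'] at this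
      simp [rho, Max.coe_sc, oalt_transpose, this]
    refine oalt_ounalt (fun a b => congrFun₂ e1 a b) fun a => ?_
    have := congrFun₂ e1 a a
    rw [transpose_apply, Matrix.neg_apply] at this
    exact (mul_eq_zero.1 (by linear_combination this)).resolve_left h.two
  have e0 : ounalt K ((rho γ i 0).1 * oalt K p) = p := by simp [rho, ounalt_oalt]
  exact ⟨fun k => ounalt K ((rho γ i k).1 * oalt K p), e0, h, hi, hm, by rwa [e0], by rwa [e0],
    fun k => by rw [e, e0]⟩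

theorem exists_CF (hR : IsSymplecticTypeGroup 2 R) (hA : ActsAbsolutelyIrreducibly (matrixSet R))
    (hc : Nat.card (Subgroup.center R) = 4) : ∃ γ i E, CF R γ i E := by
  obtain ⟨γ, h, i, hi, hm⟩ := exists_gam_four hR hA (by simp) hc
  obtain ⟨γ, h, h4⟩ := h.four
  obtain ⟨p, h0, hp⟩ := h.exists_fix hi
  obtain ⟨E, -, H⟩ := h.exists_CF hi hm h0 fun l => by
    refine Fin.lastCases ?_ hp l
    have h5 : ∀ k : Fin 4, owedge K (γ k.castSucc).1 p = p := hp
    change owedge K (γ 4).1 p = p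
    simp only [h4, Units.val_mul, map_mul, Module.End.mul_apply]
    erw [h5 3, h5 2, h5 1, h5 0]
  exact ⟨γ, i, E, H⟩

namespace CF

variable {E : Fin 6 → Fin 3 ⊕ Fin 3 → K} (h : CF R γ i E)
include h

theorem rho_mem (k : Fin 6) : rho γ i k ∈ R :=
  Fin.cases R.one_mem (fun k => R.mul_mem h.mem (h.gam.mem k)) k

theorem det (l : Fin 5) : (γ l).1.det = 1 := by
  have := quad_plus_owedge (γ l).1 (E 0)
  rw [h.fix] at this
  exact mul_right_cancel₀ h.ne (by rw [← this, one_mul])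

theorem act_of {x : Matrix (Fin 4) (Fin 4) K} {s t : K} {k : Fin 6}
    (h1 : x * (rho γ i k).1 = s • ((rho γ i k).1 * x)) (h2 : owedge K x (E 0) = t • E 0) :
    owedge K x (E k) = (s * t) • E k := oalt_injective (by
  rw [oalt_owedge, h.eq, ← mul_assoc, h1, smul_mul_assoc, smul_mul_assoc, mul_assoc, mul_assoc,
    ← mul_assoc x, ← oalt_owedge, h2, map_smul, map_smul, h.eq k, mul_smul_comm, smul_smul])

theorem act (l : Fin 5) (k : Fin 6) : owedge K (γ l).1 (E k) = (chi l k : K) • E k := by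
  rw [← mul_one (chi l k : K)]
  refine h.act_of ?_ (by rw [h.fix, one_smul])
  refine Fin.cases (by simp [rho, chi]) (fun k => ?_) k
  by_cases H : l = k
  · simp [rho, chi, H, Max.coe_sc]
  · simp [rho, chi, H, Max.coe_sc, h.gam.anti k l (Ne.symm H)]

theorem co {Y : Fin 3 ⊕ Fin 3 → K} {l : Fin 5} {m : Fin 6} {c : K}
    (hY : owedge K (γ l).1 Y = c • Y) :
    (chi l m : K) * c * polar (quad_plus 3 K) (E m) Y = polar (quad_plus 3 K) (E m) Y := by
  have := polar_owedge (γ l).1 (E m) Y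
  rw [h.act, hY, h.det, o_polar_smul_left, o_polar_smul_right] at this
  linear_combination this

theorem orth {k m : Fin 6} (H : k ≠ m) : polar (quad_plus 3 K) (E k) (E m) = 0 := by
  obtain ⟨l, hl⟩ := chi_sep k m H
  have := h.co (m := k) (h.act l m)
  rw [← Int.cast_mul, hl] at this
  exact (mul_eq_zero.1 (by push_cast at this; linear_combination -this)).resolve_left h.gam.two

theorem norm (k : Fin 6) : quad_plus 3 K (E k) = quad_plus 3 K (E 0) := by
  refine Fin.cases rfl (fun k => ?_) k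
  have h1 : ((i : K) • (1 + (γ k).1)).det = 0 := by
    by_contra H
    have e : (i : K) • (1 + (γ k).1) * (1 - (γ k).1) = 0 := by
      simp [add_mul, mul_sub, h.gam.sq, add_comm]
    have := h.gam.trace k
    rw [← sub_eq_zero.1 ((Matrix.isUnit_iff_isUnit_det _).2 (IsUnit.mk0 _ H)
      |>.mul_right_eq_zero.1 e)] at this
    exact mul_ne_zero h.gam.two h.gam.two (by simp at this; linear_combination this)
  have h2 := det_oalt ((i : K) • E 0 + E k.succ)
  rw [map_add, map_smul, h.eq k.succ, show (i : K) • oalt K (E 0) + (rho γ i k.succ).1 * oalt K (E 0)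
    = (i : K) • (1 + (γ k).1) * oalt K (E 0) by simp [rho, Max.coe_sc, add_mul], det_mul, h1,
    zero_mul, o_qadd, o_qsmul, o_polar_smul_left, h.orth (Fin.succ_ne_zero k).symm] at h2
  linear_combination (pow_eq_zero_iff two_ne_zero).1 h2.symm - quad_plus 3 K (E 0) * h.hi

theorem span : Submodule.span K (Set.range E) = ⊤ :=
  (odec_of_frame h.gam.two h.ne h.norm (fun _ _ => h.orth) (by simp)).2.2.2

theorem eq_smul {Y : Fin 3 ⊕ Fin 3 → K} {k : Fin 6}
    (H : ∀ m, m ≠ k → polar (quad_plus 3 K) (E m) Y = 0) : ∃ t : K, Y = t • E k := by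
  refine ⟨polar (quad_plus 3 K) (E k) Y / (2 * quad_plus 3 K (E 0)),
    o_eq_of_polar quad_plus_nondeg fun z => ?_⟩
  refine LinearMap.congr_fun (LinearMap.ext_on_range h.span (f := polarBilin _ Y)
    (g := polarBilin _ _) fun m => ?_) z
  simp only [polarBilin_apply_apply, o_polar_smul_left, polar_comm _ Y]
  by_cases e : m = k
  · rw [e, o_polar_self, h.norm k, div_mul_cancel₀ _ (mul_ne_zero h.gam.two h.ne)]
  · rw [H m e, h.orth (Ne.symm e), mul_zero]

theorem eig {Y : Fin 3 ⊕ Fin 3 → K} (H : ∀ l, ∃ c : K, owedge K (γ l).1 Y = c • Y) :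
    ∃ k, ∃ t : K, Y = t • E k := by
  by_cases H0 : ∀ k, polar (quad_plus 3 K) (E k) Y = 0
  · exact ⟨0, h.eq_smul fun m _ => H0 m⟩
  obtain ⟨k, hk⟩ := not_forall.1 H0
  refine ⟨k, h.eq_smul fun m hm => ?_⟩
  obtain ⟨l, hl⟩ := chi_sep m k hm
  obtain ⟨c, hc⟩ := H l
  have h1 : (chi l k : K) * c = 1 := mul_right_cancel₀ hk (by rw [h.co hc, one_mul])
  have h2 := h.co (m := m) hc
  have h3 : (chi l m : K) * chi l k = -1 := by exact_mod_cast congrArg (Int.cast : ℤ → K) hl
  have h4 : (chi l k : K) * chi l k = 1 := by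
    refine Fin.cases (by simp [chi]) (fun k => ?_) k
    simp only [chi, Fin.cons_succ]; split_ifs <;> simp
  exact (mul_eq_zero.1 (by
    linear_combination -h2 + polar (quad_plus 3 K) (E m) Y * ((chi l m : K) * chi l k * h1 + h3 -
      chi l m * c * h4))).resolve_left h.gam.two

theorem fix_smul {Y : Fin 3 ⊕ Fin 3 → K} (H : ∀ l, owedge K (γ l).1 Y = Y) : ∃ t : K, Y = t • E 0 :=
  h.eq_smul fun m hm => by
    obtain ⟨l, hl⟩ := chi_sep m 0 hm
    have := h.co (m := m) (c := 1) (l := l) (by rw [H, one_smul])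
    rw [show chi l m = -1 by simpa [chi] using hl] at this
    exact (mul_eq_zero.1 (by push_cast at this; linear_combination -this)).resolve_left h.gam.two

theorem act_zero {x : GL (Fin 4) K} (hx : x ∈ R) : ∃ t : K, owedge K x.1 (E 0) = t • E 0 :=
  h.fix_smul fun l => by
    rw [← Module.End.mul_apply, ← map_mul]
    rcases h.gam.pm x hx _ (h.gam.mem l) with e | e
    · rw [e, map_mul, Module.End.mul_apply, h.fix]
    · rw [e, ← neg_one_smul K, owedge_smul, map_mul, Module.End.mul_apply, h.fix]; simp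

theorem act_mem {x : GL (Fin 4) K} (hx : x ∈ R) (k : Fin 6) :
    ∃ t : K, owedge K x.1 (E k) = t • E k := by
  obtain ⟨t, ht⟩ := h.act_zero hx
  rcases h.gam.pm _ (h.rho_mem k) x hx with e | e
  · exact ⟨_, h.act_of (s := 1) (by rw [e, one_smul]) ht⟩
  · exact ⟨_, h.act_of (s := -1) (by rw [e, neg_one_smul]) ht⟩

theorem maps {x : GL (Fin 4) K} (hx : x ∈ subgroupNormalizer R) (k : Fin 6) :
    ∃ m, ∃ t : K, owedge K x.1 (E k) = t • E m := h.eig fun l => by
  obtain ⟨t, ht⟩ := h.act_mem (Max.normsG_subgroupNormalizer R _ (inv_mem hx) _ (h.gam.mem l)) k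
  refine ⟨t, ?_⟩
  rw [← map_smul, ← ht, ← Module.End.mul_apply, ← Module.End.mul_apply, ← map_mul, ← map_mul,
    ← Units.val_mul, ← Units.val_mul]
  congr 3; group

theorem mem_normalizer {x : GL (Fin 4) K}
    (H : ∀ k, ∃ m, ∃ s : K, s * s = 1 ∧ owedge K x.1 (E k) = s • E m) :
    x ∈ subgroupNormalizer R := by
  have hJ : IsUnit (oalt K (E 0)) := (Matrix.isUnit_iff_isUnit_det _).2 (by
    rw [det_oalt]; exact (IsUnit.mk0 _ h.ne).pow 2)
  have key : ∀ k, x * rho γ i k * x⁻¹ ∈ R := fun k => by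
    obtain ⟨a, s, hs, h1⟩ := H 0
    obtain ⟨b, t, ht, h2⟩ := H k
    replace h1 := congrArg (oalt K) h1
    replace h2 := congrArg (oalt K) h2
    rw [oalt_owedge, map_smul, h.eq a] at h1
    rw [oalt_owedge, map_smul, h.eq k, h.eq b] at h2
    have h3 : (x * rho γ i k * x⁻¹ * rho γ i a).1 = (s * t) • (rho γ i b).1 :=
      hJ.mul_right_cancel (by
        rw [smul_mul_assoc, mul_smul, ← h2, Units.val_mul, mul_assoc, ← one_smul K (_ * oalt K _),
          ← hs, mul_smul, ← h1]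
        simp [mul_assoc])
    rw [← R.mul_mem_cancel_right (h.rho_mem a)]
    rcases mul_self_eq_one_iff.1 (show s * t * (s * t) = 1 by linear_combination t * t * hs + ht)
      with e | e <;> rw [e] at h3
    · exact (Units.ext (by rw [h3, one_smul]) : _ = rho γ i b) ▸ h.rho_mem b
    · exact (Units.ext (by rw [h3]; simp [Max.coe_sc, smul_smul, h.hi]) : _ = Max.sc (Fin 4) i *
        (Max.sc (Fin 4) i * rho γ i b)) ▸ R.mul_mem h.mem (R.mul_mem h.mem (h.rho_mem b))
  refine Subgroup.mem_normalizer_fintype fun y hy => h.gam.gen (R.comap (MulAut.conj x).toMonoidHom)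
    (fun k => ?_) (fun z hz e => ?_) hy
  · have := key k.succ
    rwa [show rho γ i k.succ = Max.sc (Fin 4) i * γ k from rfl, ← conj_mul,
      Max.conj_of_mem_scalars (Max.sc_mem i), R.mul_mem_cancel_left h.mem] at this
  obtain ⟨t, ht⟩ := h.act_zero hz
  have t0 : t ≠ 0 := by
    rintro rfl
    have := quad_plus_owedge z.1 (E 0)
    rw [ht, zero_smul, map_zero] at this
    exact mul_ne_zero (Matrix.GeneralLinearGroup.det_ne_zero z) h.ne this.symm
  obtain ⟨c, -, hc⟩ := o_scalar_of_owedge t0 (A := z.1) (LinearMap.congr_fun (LinearMap.ext_on_range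
    h.span (g := t • LinearMap.id) fun k => by
      rw [h.act_of (s := 1) (by
        refine Fin.cases (by simp [rho]) (fun k => by simp [rho, Max.coe_sc, e]) k) ht]
      simp))
  change x * z * x⁻¹ ∈ R
  rwa [Max.conj_of_mem_scalars (Max.mem_scalars_of_eq_smul hc)]

end CF

theorem Kl.max_c6 {F V : Type*} [Field F] [Finite F] [Algebra F K] [AddCommGroup V] [Module F V]
    [FiniteDimensional F V] {Q : QuadraticForm F V} {G₀ : Type*} [Group G₀]
    {ι : G₀ →* GL (Fin 4) K} {φ : G₀ →* OG Q} {j : V →ₗ[F] (Fin 3 ⊕ Fin 3 → K)} (h : Kl ι φ j)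
    (hp : (Nat.card F).Prime) {G : Subgroup (GL (Fin 4) K)} (hG : ι.range = G) {s : Fin 6 → V}
    (hs : CF R γ i fun k => j (s k)) : IsMaximalIn G (subgroupNormalizer R ⊓ G) := by
  have inj := (algebraMap F K).injective
  have := Fintype.ofFinite F
  have h2 : (2 : F) ≠ 0 := fun H => hs.gam.two (by rw [← map_ofNat (algebraMap F K), H, map_zero])
  have hn : ∀ k, Q (s k) = Q (s 0) := fun k => inj (by rw [← h.quad, ← h.quad]; exact hs.norm k)
  have h0 : Q (s 0) ≠ 0 := fun H => hs.ne (by rw [h.quad, H, map_zero])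
  obtain ⟨hD, hiso, hk, -⟩ := odec_of_frame h2 h0 hn
    (fun a b H => inj (by rw [← h.polar, map_zero]; exact hs.orth H)) (by simp [h.dim])
  refine isMaximalIn_of_hom ι hG φ h.range (omax_frame_six h.nd h2 hp hD hiso hk)
    fun g => ⟨fun hg => ?_, fun ⟨σ, hσ⟩ => hs.mem_normalizer fun k => ?_⟩
  · refine mem_dstab_of_maps (fun a b hab => ?_) (fun a b => by rw [hk, hk]) fun k => ?_
    · by_contra H
      have := hD.orth a b H (s a) (Submodule.mem_span_singleton_self _) (s a)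
        (by rw [← hab]; exact Submodule.mem_span_singleton_self _)
      rw [o_polar_self, hn] at this
      exact mul_ne_zero h2 h0 this
    obtain ⟨m, t, ht⟩ := hs.maps hg k
    obtain ⟨c, hc⟩ := h.smul ((h.act g (s k)).trans ht)
    refine ⟨m, fun x hx => ?_⟩
    obtain ⟨r, rfl⟩ := Submodule.mem_span_singleton.1 hx
    rw [map_smul, hc]
    exact Submodule.smul_mem _ _ (Submodule.smul_mem _ _ (Submodule.mem_span_singleton_self _))
  obtain ⟨c, hc⟩ := Submodule.mem_span_singleton.1 ((hσ k).le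
    ⟨s k, Submodule.mem_span_singleton_self _, rfl⟩)
  have e1 : c * c = 1 := by
    have := (φ g).2 (s k)
    erw [← hc] at this
    rw [o_qsmul, hn, hn k] at this
    exact mul_right_cancel₀ h0 (by linear_combination this)
  exact ⟨σ k, algebraMap F K c, by rw [← map_mul, e1, map_one], by
    rw [← h.act, algebraMap_smul, ← map_smul, hc]; rfl⟩

theorem max_c6_sl4 (hp : (Fintype.card K).Prime) (hR : IsSymplecticTypeGroup 2 R)
    (hA : ActsAbsolutelyIrreducibly (matrixSet R)) (hc : Nat.card (Subgroup.center R) = 4) :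
    IsMaximalIn (specialLinear (Fin 4) K) (subgroupNormalizer R ⊓ specialLinear (Fin 4) K) := by
  obtain ⟨γ, i, E, h⟩ := exists_CF hR hA hc
  exact kl_sl.max_c6 (by rwa [Nat.card_eq_fintype_card]) range_toGL (s := E) h

theorem max_c6_su4 {σ : K →+* K} {q : ℕ} (hq : UField σ q) (hp : q.Prime) (h3 : q % 4 = 3)
    (hR : IsSymplecticTypeGroup 2 R) (hA : ActsAbsolutelyIrreducibly (matrixSet R))
    (hle : R ≤ GU 4 K q) (hc : Nat.card (Subgroup.center R) = 4) :
    IsMaximalIn (GU 4 K q ⊓ specialLinear (Fin 4) K)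
      (subgroupNormalizer R ⊓ (GU 4 K q ⊓ specialLinear (Fin 4) K)) := by
  have := (oQuadExt_uFix hq).finiteDimensional
  obtain ⟨φ, hK⟩ := kl_su hq
  obtain ⟨γ, i, E, h⟩ := exists_CF hR hA hc
  have u1 : ∀ l, (γ l).1 * ((γ l).1.map σ)ᵀ = 1 := fun l => by
    have := congrArg transpose ((hq.mem_GU_iff _).1 (hle (h.gam.mem l)))
    rwa [transpose_mul, transpose_transpose, transpose_one, mul_eq_one_comm] at this
  obtain ⟨t, ht⟩ := h.fix_smul (Y := (σ ∘ E 0) ∘ Sum.swap) fun l => by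
    rw [owedge_swap (A := (γ l).1.map σ) (by
      rw [← RingHom.mapMatrix_apply, ← RingHom.map_det, h.det, map_one]) (u1 l), owedge_map, h.fix]
  obtain ⟨s, c, c0, hs⟩ := exists_rat hq (o_ne_zero_of_norm h.ne) ht
  obtain ⟨E', e0, h'⟩ := h.gam.exists_CF h.hi h.mem (p := c • E 0)
    (by rw [o_qsmul]; exact mul_ne_zero (pow_ne_zero 2 c0) h.ne) fun l => by rw [map_smul, h.fix]
  have om : ∀ v, oalt K (σ ∘ v) = (oalt K v).map σ := fun v => by
    ext a b; fin_cases a <;> fin_cases b <;> simp [oalt_apply]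
  have r0 : E' 0 ∘ Sum.swap = σ ∘ E' 0 := by
    rw [e0, ← hs]; ext (a | a) <;> simp [OQuadExt.j6_apply, hq.invol.invol]
  have si : σ i = -i := by
    rw [hq.pow, ← Nat.div_add_mod q 4, h3, pow_add, pow_mul]
    have : (i : K) ^ 4 = 1 := by linear_combination (i * i - 1) * h.hi
    rw [this, one_pow]; linear_combination i * h.hi
  have r : ∀ k, E' k ∘ Sum.swap = σ ∘ E' k := fun k => by
    refine Fin.cases r0 (fun k => oalt_injective ?_) k
    have hJ : IsUnit (oalt K (E' k.succ)) := (Matrix.isUnit_iff_isUnit_det _).2 (by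
      rw [det_oalt, h'.norm]; exact (IsUnit.mk0 _ h'.ne).pow 2)
    have a1 := oalt_mul_swap (E' 0)
    have a2 := congrArg (oalt K ·) (h'.fix k)
    have a3 : (γ k).1.map σ = (γ k).1ᵀ := by
      rw [← transpose_inj, transpose_transpose, ← h.gam.sq' k (_ᵀ), u1, mul_one]
    simp only [oalt_owedge] at a2
    refine hJ.mul_left_cancel ?_
    rw [r0, om] at a1
    have a4 : (rho γ i k.succ).1 = (i : K) • (γ k).1 := by simp [rho, Max.coe_sc]
    rw [oalt_mul_swap, om, h'.norm, h'.eq k.succ, Matrix.map_mul, a4,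
      Matrix.map_smul' _ _ _ (map_mul σ), a3, si, ← a1]
    simp only [smul_mul_assoc, mul_smul_comm, smul_smul, ← mul_assoc, a2]
    simp [h.hi]
  refine hK.max_c6 (by rwa [hq.card_uFix]) range_suι (s := fun k => E' k ∘ Sum.inl) (γ := γ) (i := i) ?_
  convert h' with k
  ext (a | a)
  · rfl
  · exact (congrFun (r k) (.inl a)).symm

end Cfsg.Agent.Cl.Low
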