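import Mathlib
import Cfsg.Agent.Cl.MaxSLMonB

/-!
# Maximality of the monomial group in `SL₄(q)`, `q ≥ 7`
-/

set_option autoImplicit false
set_option linter.unusedSectionVars false
set_option linter.unusedVariables false

namespace Cfsg.Agent.Cl.MSL

open Module Cfsg.Agent.Cl.Mx

variable {F : Type*} {ι : Type} [Field F] [Fintype ι] [DecidableEq ι]

theorem perm_of_comp {σ τ ρ : Equiv.Perm ι} {a b c : ι → F} (ha : ∀ i, a i ≠ 0) (hb : ∀ i, b i ≠ 0)
    (h : ∀ x, mo σ a (mo τ b x) = mo ρ c x) : σ * τ = ρ := Equiv.ext fun i => by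
  have := congrFun (h (ev i)) (σ (τ i))
  rw [mo_single, mo_single, mo_single] at this
  by_contra H
  rw [Pi.single_eq_of_ne (show σ (τ i) ≠ ρ i from H)] at this
  simp [ha, hb] at this

theorem exists_pow_four_ne_one [Fintype F] (hq : 7 ≤ Fintype.card F) :
    ∃ a : F, a ≠ 0 ∧ a ^ 4 ≠ 1 := by
  classical
  obtain ⟨a, ha⟩ := exists_pow_ne_one_of_isCyclic (G := Fˣ) (k := 4) (by norm_num)
    (by rw [Nat.card_units, Nat.card_eq_fintype_card]; omega)
  exact ⟨a, a.ne_zero, fun H => ha (Units.ext H)⟩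

theorem perm_klein : ∀ σ τ : Equiv.Perm (Option (Fin 3)), σ none = none → τ none = none →
    σ * σ = 1 → τ * τ = 1 → σ * τ * (σ * τ) = 1 → σ = 1 ∨ τ = 1 ∨ σ * τ = 1 := by
  decide +kernel

variable {M : Subgroup ((Option (Fin 3) → F) ≃ₗ[F] (Option (Fin 3) → F))}
  (hM : ∀ T : (Option (Fin 3) → F) →ₗ[F] (Option (Fin 3) → F), LinearMap.det T = 1 → PB T →
    Has M T)
include hM

theorem exists_fix_of_diag [Fintype F] (hq : 7 ≤ Fintype.card F)
    (hd : ∀ g ∈ M, LinearMap.det (g : (Option (Fin 3) → F) →ₗ[F] (Option (Fin 3) → F)) = 1)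
    {g : (Option (Fin 3) → F) ≃ₗ[F] (Option (Fin 3) → F)} (hg : g ∈ M)
    {π : Equiv.Perm (Option (Fin 3))} (h1 : ∀ i, π (π i) = i) (h2 : ∀ i, π i ≠ i)
    {c e : Option (Fin 3) → F} (hc : ∀ i, c (π i) * c i = 1) (hs : Has M (mo π c))
    (e0 : e none = 1) (he : ∀ x, mo π c (g x) = g (mo 1 e x)) :
    ∃ m ∈ M, m (ev none) = ev none ∧ ¬ PB (m : (Option (Fin 3) → F) →ₗ[F] _) := by
  have c0 : ∀ i, c i ≠ 0 := fun i => right_ne_zero_of_mul_eq_one (hc i)
  have ss : ∀ x, mo π c (mo π c x) = x := fun x => funext fun i => by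
    conv_lhs => rw [← h1 i, mo_apply, mo_apply, ← mul_assoc, hc, one_mul]
  have e1 : ∀ i, e i = 1 ∨ e i = -1 := fun i => mul_self_eq_one_iff.1 (by
    have := ss (g (ev i))
    rw [he, he] at this
    simpa [mo_single] using congrFun (g.injective this) i)
  have e2 : ∏ i, e i = 1 := by
    obtain ⟨k, hk, hk'⟩ := ((has_symm hg).comp hs).comp (has_of_mem hg)
    have := hd k hk
    rwa [show (k : _ →ₗ[F] _) = mo 1 e from LinearMap.ext fun x => (hk' x).trans (by
      simp only [he, g.symm_apply_apply]), det_mo, map_one, Units.val_one, Int.cast_one,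
      one_mul] at this
  have e3 : ¬ ∀ i, e i = 1 := fun H => by
    have := he (g.symm (ev none))
    rw [show mo 1 e (g.symm (ev none)) = g.symm (ev none) from funext fun i => by
      rw [mo_one_apply, H, one_mul], g.apply_symm_apply, mo_single] at this
    simpa [c0, h2] using congrFun this (π none)
  have t0 : (2 : F) ≠ 0 := fun H => e3 fun i => (e1 i).elim id fun h => by
    linear_combination h - H
  obtain ⟨a, a0, a4⟩ := exists_pow_four_ne_one hq
  obtain ⟨α, β, p1, p2⟩ : ∃ α β : F, α + β = a ∧ α - β = a⁻¹ :=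
    ⟨(a + a⁻¹) / 2, (a - a⁻¹) / 2, by field_simp; ring, by field_simp; ring⟩
  have p3 : α ^ 2 - β ^ 2 = 1 := by
    linear_combination (α - β) * p1 + a * p2 + mul_inv_cancel₀ a0
  have hk : Has M fun x => α • x + β • mo π c x := by
    refine (((has_of_mem hg).comp (hM (mo 1 fun i => α + β * e i) ?_ (pb_mo _ _))).comp
      (has_symm hg)).congr fun x => ?_
    · rw [det_mo, map_one, Units.val_one, Int.cast_one, one_mul]
      simp only [Fintype.prod_option, Fin.prod_univ_three, e0, Option.forall, Fin.forall_fin_succ,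
        Fin.succ_zero_eq_one, Fin.succ_one_eq_two, IsEmpty.forall_iff] at e2 e3 ⊢
      have n1 : (-1 : F) ≠ 1 := fun H => t0 (by linear_combination -H)
      rcases e1 (some 0) with a1 | a1 <;> rcases e1 (some 1) with a2 | a2 <;>
        rcases e1 (some 2) with a3 | a3 <;> simp only [a1, a2, a3] at e2 e3 ⊢ <;>
        first
        | linear_combination (α ^ 2 - β ^ 2 + 1) * p3
        | exact absurd (by linear_combination e2) n1
        | simp at e3
    · obtain ⟨x, rfl⟩ := g.surjective x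
      rw [he, g.symm_apply_apply, ← map_smul, ← map_smul, ← map_add]
      congr 1
      ext i
      simp only [mo_one_apply, Pi.add_apply, Pi.smul_apply, smul_eq_mul]; ring
  have hk' : Has M fun x => α • x - β • mo π c x := hk.inv fun x => by
    simp only [map_sub, map_smul, ss]
    linear_combination (norm := module) p3 • x
  obtain ⟨l, l1, l2⟩ := exists_ne_two (α := Option (Fin 3)) (by simp) none (π none)
  have l3 : π l ≠ none := fun H => l2 (by rw [← H, h1])
  have l4 : π l ≠ π none := π.injective.ne l1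
  obtain ⟨m, hm, hm'⟩ := (hk'.comp (has_dil hM (χ := LinearMap.id) (χ' := LinearMap.id) (u := 1)
    (u' := 1) rfl rfl a0 (h2 l).symm)).comp hk
  have α0 : α ≠ 0 := fun H => a4 (by
    rw [H] at p1 p2 p3
    linear_combination (β ^ 2 - 1) * (-p3) - (a ^ 3 + a ^ 2 * β + a * β ^ 2 + β ^ 3) * p1)
  have β0 : β ≠ 0 := fun H => a4 (by
    rw [H] at p1 p2 p3
    linear_combination (α ^ 2 + 1) * p3 - (a ^ 3 + a ^ 2 * α + a * α ^ 2 + α ^ 3) * p1)
  have a2 : a⁻¹ - a ≠ 0 := fun H => a4 (by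
    linear_combination (-a ^ 3 - a) * H + (a ^ 2 + 1) * mul_inv_cancel₀ a0)
  have sm : ∀ i, mo π c (ev i) = c i • ev (π i) := fun i => by rw [mo_single, single_eq_smul, mul_one]
  refine ⟨m, hm, ?_, fun H => ?_⟩
  · rw [hm']
    simp only [sm, map_add, map_smul, h1, Pi.add_apply, Pi.smul_apply, Pi.single_eq_of_ne l1,
      Pi.single_eq_of_ne l2, Pi.single_eq_of_ne l3, Pi.single_eq_of_ne l4]
    simp only [smul_zero, add_zero, map_zero, mul_zero, zero_smul]
    linear_combination (norm := module) p3 • ev none - (β ^ 2 * hc none) • ev none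
  have q1 : m (ev l) = (a * α ^ 2 - a⁻¹ * β ^ 2) • ev l + (α * β * c l * (a⁻¹ - a)) • ev (π l) := by
    rw [hm']
    simp only [sm, map_add, map_smul, h1, Pi.add_apply, Pi.smul_apply, Pi.single_eq_same,
      Pi.single_eq_of_ne (h2 l), Pi.single_eq_of_ne (h2 l).symm, LinearMap.id_apply, smul_eq_mul]
    linear_combination (norm := module) - (a⁻¹ * β ^ 2 * hc l) • ev l
  have q2 : m (ev (π l)) = (a⁻¹ * α ^ 2 - a * β ^ 2) • ev (π l) -
      (α * β * c (π l) * (a⁻¹ - a)) • ev l := by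
    rw [hm']
    simp only [sm, map_add, map_smul, h1, Pi.add_apply, Pi.smul_apply, Pi.single_eq_same,
      Pi.single_eq_of_ne (h2 l), Pi.single_eq_of_ne (h2 l).symm, LinearMap.id_apply, smul_eq_mul]
    linear_combination (norm := module) - (a * β ^ 2 * hc l) • ev (π l)
  have two : ∀ i j k, j ≠ k → m (ev i) j ≠ 0 → m (ev i) k = 0 := fun i j k hjk hj => by
    obtain ⟨r, hr⟩ := H i
    by_cases H : k = r
    · exact absurd (hr 1 j (H ▸ hjk)) hj
    · exact hr 1 k H
  have r1 := two l (π l) l (h2 l) (by simp [q1, h2, α0, β0, c0, a2])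
  have r2 := two (π l) l (π l) (h2 l).symm (by simp [q2, (h2 l).symm, α0, β0, c0, a2])
  simp only [q1, q2, Pi.add_apply, Pi.sub_apply, Pi.smul_apply, Pi.single_eq_same, smul_eq_mul,
    Pi.single_eq_of_ne (h2 l), Pi.single_eq_of_ne (h2 l).symm] at r1 r2
  refine a4 (mul_right_cancel₀ (pow_ne_zero 2 α0) ?_)
  have i1 := mul_inv_cancel₀ a0
  linear_combination a ^ 3 * r1 - a * r2 + (a ^ 2 * β ^ 2 + α ^ 2) * i1

theorem exists_fix_not_pb4 [Fintype F] (hq : 7 ≤ Fintype.card F)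
    (hd : ∀ g ∈ M, LinearMap.det (g : (Option (Fin 3) → F) →ₗ[F] (Option (Fin 3) → F)) = 1)
    {x : Option (Fin 3) → F} (hx : Og M x) (h0 : ∀ i, x i ≠ 0) :
    ∃ m ∈ M, m (ev none) = ev none ∧ ¬ PB (m : (Option (Fin 3) → F) →ₗ[F] _) := by
  obtain ⟨g, hg, rfl⟩ : ∃ g ∈ M, x = g (ev none) := by
    obtain ⟨g, hg, i, rfl⟩ := hx
    obtain ⟨c, -, h1, k, hk, h2⟩ := exists_mo hM (Equiv.swap none i) (c := 1)
      (fun _ => one_ne_zero) (some 0)
    exact ⟨g * k, M.mul_mem hg hk, by simp [h2, mo_single, h1 none (by simp)]⟩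
  by_contra! H
  let c : Equiv.Perm (Option (Fin 3)) → Option (Fin 3) → F := fun π l =>
    g (ev none) (π l) / g (ev none) l
  have hs : ∀ π, Equiv.Perm.sign π = 1 → Has M (mo π (c π)) := fun π hπ => hM _ (by
    rw [det_mo, hπ, Finset.prod_div_distrib, Equiv.prod_comp π (g (ev none)),
      div_self (Finset.prod_ne_zero_iff.2 fun l _ => h0 l)]
    simp) (pb_mo _ _)
  have mul : ∀ π τ y, mo π (c π) (mo τ (c τ) y) = mo (π * τ) (c (π * τ)) y := fun π τ y => by
    ext l
    obtain ⟨l, rfl⟩ := (π * τ).surjective l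
    rw [mo_apply, Equiv.Perm.mul_apply, mo_apply, mo_apply]
    have := h0 (τ l)
    simp only [c, Equiv.Perm.mul_apply]
    field_simp
  have key : ∀ π, Equiv.Perm.sign π = 1 → ∃ σ e, (∀ i, e i ≠ 0) ∧ σ none = none ∧ e none = 1 ∧
      ∀ y, mo π (c π) (g y) = g (mo σ e y) := fun π hπ => by
    obtain ⟨k, hk, hk'⟩ := ((has_symm hg).comp (hs π hπ)).comp (has_of_mem hg)
    have e1 : k (ev none) = ev none := by
      rw [hk']
      beta_reduce
      rw [g.symm_apply_eq]
      ext l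
      rw [mo_apply', div_mul_cancel₀ _ (h0 _), π.apply_symm_apply]
    obtain ⟨σ, e, e0, he⟩ := exists_mo_of_pb (H k hk e1)
    rw [he, mo_single] at e1
    have e2 : σ none = none := by
      by_contra H
      simpa [e0, H] using congrFun e1 (σ none)
    refine ⟨σ, e, e0, e2, by simpa [e2] using congrFun e1 none, fun y => ?_⟩
    rw [← he, hk']
    exact (g.apply_symm_apply _).symm
  have fin : ∀ π, Equiv.Perm.sign π = 1 → (∀ i, π (π i) = i) → (∀ i, π i ≠ i) → ∀ e, e none = 1 →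
      ¬ ∀ y, mo π (c π) (g y) = g (mo 1 e y) := fun π h1 h2 h3 e e0 he => by
    obtain ⟨m, hm, m1, m2⟩ := exists_fix_of_diag hM hq hd hg h2 h3 (fun i => by
      have := h0 i
      have := h0 (π i)
      simp only [c, h2]
      field_simp) (hs π h1) e0 he
    exact m2 (H m hm m1)
  have one : ∀ y, mo 1 (c 1) y = mo 1 1 y := fun y => by
    congr 2
    ext l
    exact div_self (h0 l)
  have one' : ∀ y : Option (Fin 3) → F, mo 1 1 y = y := fun y => funext fun l => by
    simp [mo_one_apply]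
  let π : Equiv.Perm (Option (Fin 3)) := Equiv.swap none (some 0) * Equiv.swap (some 1) (some 2)
  let τ : Equiv.Perm (Option (Fin 3)) := Equiv.swap none (some 1) * Equiv.swap (some 0) (some 2)
  obtain ⟨σ₁, e₁, a1, a2, a3, a4⟩ := key π (by decide)
  obtain ⟨σ₂, e₂, b1, b2, b3, b4⟩ := key τ (by decide)
  obtain ⟨σ₃, e₃, c1, c2, c3, c4⟩ := key (π * τ) (by decide)
  have sq : ∀ π σ e, (∀ i, e i ≠ 0) → (∀ y, mo π (c π) (g y) = g (mo σ e y)) → π * π = 1 →
      σ * σ = 1 := fun π σ e h1 h2 h3 => perm_of_comp h1 h1 (c := 1) fun y => g.injective (by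
    rw [← h2, ← h2, mul, h3, one, one', one'])
  have p3 : σ₁ * σ₂ = σ₃ := perm_of_comp a1 b1 fun y => g.injective (by rw [← a4, ← b4, mul, c4])
  rcases perm_klein σ₁ σ₂ a2 b2 (sq _ _ _ a1 a4 (by decide)) (sq _ _ _ b1 b4 (by decide))
    (p3 ▸ sq _ _ _ c1 c4 (by decide)) with h | h | h
  · exact fin π (by decide) (by decide) (by decide) e₁ a3 (h ▸ a4)
  · exact fin τ (by decide) (by decide) (by decide) e₂ b3 (h ▸ b4)
  · exact fin (π * τ) (by decide) (by decide) (by decide) e₃ c3 (h ▸ p3 ▸ c4)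

theorem cen_eq_top_of_mon4 [Fintype F] (hq7 : 7 ≤ Fintype.card F)
    (hd : ∀ g ∈ M, LinearMap.det (g : (Option (Fin 3) → F) →ₗ[F] (Option (Fin 3) → F)) = 1)
    {g : (Option (Fin 3) → F) ≃ₗ[F] (Option (Fin 3) → F)} (hg : g ∈ M)
    (hn : ¬ PB (g : (Option (Fin 3) → F) →ₗ[F] (Option (Fin 3) → F))) : cen M = ⊤ := by
  have hq : 5 ≤ Fintype.card F := by omega
  have h4 : 3 ≤ Fintype.card (Fin 3) := by simp
  obtain ⟨a, ha0, ha1, ha2, -⟩ := exists_ne_four hq 0 1 (-1) 0
  suffices h : ∃ i φ, TV M (ev i) φ ∧ φ ≠ 0 by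
    obtain ⟨i, φ, h1, h2⟩ := h
    exact cen_eq_top_of_tv_ev hM (by simp) ha0 ha1 h1 h2
  obtain ⟨i, j, k, hjk, hj, hk⟩ := exists_two_of_not_pb hn
  obtain ⟨x, hx, h0⟩ := exists_full hM hq ⟨g, hg, i, rfl⟩ (Finset.one_lt_card.2
    ⟨j, mem_supp.2 hj, k, mem_supp.2 hk, hjk⟩)
  obtain ⟨m, hm, h1, h2⟩ := exists_fix_not_pb4 hM hq7 hd hx h0
  obtain ⟨s, hs, h3⟩ := exists_quo hm h1
  by_cases h5 : PB (s : (Fin 3 → F) →ₗ[F] (Fin 3 → F))
  · obtain ⟨σ, c, hc, h6⟩ := exists_mo_of_pb h5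
    obtain ⟨f, hf, h7, h8⟩ := exists_mo_lift hM σ hc
    obtain ⟨r, h9, h10⟩ := exists_lift hd (M.mul_mem (M.inv_mem hf) hm) (ψ := 0) (w := 0) rfl rfl
      fun x => s.injective (by
        rw [h6, ← h8, smul_zero, add_zero, ← h3]
        exact congrArg res (f.apply_symm_apply _))
    refine ⟨none, r, ⟨h9, _, M.mul_mem (M.inv_mem hf) hm, fun x => by simpa using h10 x⟩,
      fun e => h2 ?_⟩
    have : f⁻¹ * m = 1 := LinearEquiv.ext fun x => by simpa [e] using h10 x
    rwa [← inv_mul_eq_one.1 this]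
  obtain ⟨j, k, c, hjk, ⟨-, t, ⟨u, hu, h6⟩, h7⟩, hc⟩ := exists_tv_of_gl (N := quo M) hq (by omega)
    (fun σ c hc => by
      obtain ⟨f, hf, -, h8⟩ := exists_mo_lift hM σ hc
      exact ⟨(mo σ c).equivOfDetNeZero (det_mo_ne σ hc), ⟨f, hf, h8⟩, fun _ => rfl⟩) hs h5
  obtain ⟨r, h9, h10⟩ := exists_lift hd hu (ψ := c • LinearMap.proj (some k)) (w := ev (some j))
    (by simp [hjk.symm]) (by simp) fun x => by
      rw [h6, h7]; simp [res_ev_some, res_apply]
  by_cases hr : r = 0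
  · refine ⟨some j, c • LinearMap.proj (some k), ⟨by simp [hjk.symm], u, hu, fun x => by
      simpa [hr] using h10 x⟩, fun e => hc ?_⟩
    simpa using LinearMap.congr_fun e (ev (some k))
  obtain ⟨l, hlj, hlk⟩ := exists_ne_two (by omega) j k
  have hd := fun (b : F) (hb : b ≠ 0) => has_dil hM (χ := LinearMap.id) (χ' := LinearMap.id)
    (u := 1) (u' := 1) (j := none) (k := some l) rfl rfl hb (by simp)
  refine ⟨none, (a - 1) • r + (a * (a - 1) * r (ev (some l))) • LinearMap.proj (some l),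
    ⟨by simp [h9], (has_of_mem hu).cancel (((hd a ha0).comp (has_of_mem hu)).comp
      (hd a⁻¹ (inv_ne_zero ha0))) fun x => ?_⟩, fun e => hr (dual_ext fun o => ?_)⟩
  · simp only [h10, map_add, map_smul, h9, LinearMap.add_apply, LinearMap.smul_apply,
      LinearMap.proj_apply, LinearMap.id_apply, Pi.add_apply, Pi.smul_apply, smul_eq_mul, inv_inv]
    simp [hlj, hlk.symm]
    match_scalars <;> field_simp <;> ring
  · have := LinearMap.congr_fun e (ev o)
    by_cases ho : o = some l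
    · subst ho
      have h11 : (a - 1) * (a + 1) * r (ev (some l)) = 0 := by
        simp at this; linear_combination this
      simpa [sub_eq_zero, ha1, add_eq_zero_iff_eq_neg, ha2] using h11
    · simpa [Ne.symm ho, sub_eq_zero, ha1] using this

omit hM

open Matrix Cfsg.Geo Cfsg.Agent.Cl.Max in
theorem isMaximalIn_frame4 [Fintype F] (hq : 7 ≤ Fintype.card F)
    {D : Fin 4 → Submodule F (ι → F)} (hD : IsMDecomposition 1 D) :
    IsMaximalIn (specialLinear ι F) (decompositionStabilizer D ⊓ specialLinear ι F) := by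
  obtain ⟨e, P, hB⟩ := exists_isFrame hD
  let s : Option (Fin 3) ≃ Fin 4 := (finSuccEquiv 3).symm
  let L := (trV e P).symm.trans (LinearEquiv.funCongrLeft F F s)
  have hL : ∀ i x, x ∈ D (s i) ↔ ∀ k, k ≠ i → L x k = 0 := fun i x => by
    obtain ⟨x, rfl⟩ := (trV e P).surjective x
    rw [hB _ x, s.surjective.forall]
    simp only [L, LinearEquiv.trans_apply, LinearEquiv.symm_apply_apply, ne_eq, s.apply_eq_iff_eq]
    rfl
  have hL' : ∀ i y, L.symm (Pi.single i y) ∈ D (s i) := fun i y =>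
    (hL _ _).2 fun k hk => by simp [hk]
  refine isMaximalIn_of_abs' L _ PB (fun g => ⟨fun hg i => ?_, fun hg => ?_⟩)
    (sl_not_le_decomp hD) fun M hM hd g hg hn =>
      cen_eq_top_of_mon4 hM hq hd hg hn
  · obtain ⟨σ, hσ⟩ := mem_decompositionStabilizer.1 hg
    refine ⟨s.symm (σ (s i)), fun y => (hL _ _).1 ?_⟩
    rw [s.apply_symm_apply, ← hσ]
    exact Submodule.mem_map_of_mem (hL' i y)
  · refine mem_decompositionStabilizer_of_maps hD fun i => ?_
    obtain ⟨i, rfl⟩ := s.surjective i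
    obtain ⟨j, hj⟩ := hg i
    refine ⟨s j, fun v hv => (hL _ _).2 fun k hk => ?_⟩
    have := hj (L v i) k hk
    rwa [← eq_single_of ((hL _ _).1 hv), LinearEquiv.coe_coe, toE_apply_e] at this

end Cfsg.Agent.Cl.MSL
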