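import Mathlib
import Cfsg.Agent.Cl.MaxSUFrameB

/-!
# Maximality of the monomial group in `SU_n(q)`, `n ≥ 7`
-/

set_option autoImplicit false

namespace Cfsg.Agent.Cl

open Module Cfsg.Geo

variable {F : Type*} [Field F] {σ : F →+* F} {V : Type*} [AddCommGroup V] [Module F V]
  {B : V →ₗ[F] V →ₛₗ[σ] F} {q n : ℕ} {M : Subgroup (V ≃ₗ[F] V)}
  {ι : Type*} [Fintype ι] [DecidableEq ι] {e : ι → V} [FiniteDimensional F V]

namespace UFrame

variable (h : UFrame B e) (hq : UField σ q) (hn : 7 ≤ Fintype.card ι)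
  (hH : USG B ⊓ uMon F e ≤ M) (hM : M ≤ USG B)
  (hS : ∀ m ∈ M, ∀ i j, ∀ c : F, m (e i) = c • e j → m ∈ uMon F e)
include h hH hM hS hn hq

theorem add_one_le {g : V ≃ₗ[F] V} (hg : g ∈ M) (hg' : g ∉ uMon F e) :
    q + 1 ≤ Fintype.card ι := by
  have := hq.finite
  refine Nat.le_of_dvd (by omega) ?_
  rw [← hq.card_uNormOne, ← IsCyclic.exponent_eq_card, Monoid.exponent_dvd_iff_forall_pow_eq_one]
  rintro ⟨z, hz⟩
  by_contra H
  obtain ⟨o⟩ : Nonempty ι := Fintype.card_pos_iff.1 (by omega)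
  have ha : ((z ^ Fintype.card ι : Fˣ) : F) * σ (z ^ Fintype.card ι : Fˣ) = 1 := pow_mem hz _
  have h1 := h.refl_mem o ha
  have h2 : uRefl B (e o) _ * uScalar F V z⁻¹ ∈ M := hH ⟨mem_USG.2 ⟨mul_mem h1.1
    (uScalar_mem_UG (inv_mem hz)), by
      rw [map_mul, det_uScalar, h.finrank_eq, inv_pow, mul_inv_eq_one, ← Units.val_inj,
        det_uRefl_unit (h.unit o) ha]⟩, mul_mem h1.2 (h.mem_uMon fun i => ⟨i, _, rfl⟩)⟩
  refine h.not_refl_mul_mem hq hn hH hM hS hg hg' (c := o) (o := o) ha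
    (fun e' => H (Subtype.ext (Units.ext e'))) ?_
  rw [← uRefl_conj (hM hg).1]
  convert mul_mem (mul_mem (mul_mem h2 hg) (inv_mem h2)) (inv_mem hg) using 1
  rw [mul_assoc _ _ g, ← uScalar_comm]
  group

omit hH hM hS hn [Fintype ι] [FiniteDimensional F V] in
theorem exists_perp_swap {f : V} {s : Finset ι} (hs : q ≤ s.card) (H : ∀ k ∈ s, B f (e k) ≠ 0) :
    ∃ k ∈ s, ∃ l ∈ s, k ≠ l ∧ ∃ t : F, t * σ t = 1 ∧ B f (e k - t • e l) = 0 := by
  classical
  have := hq.finite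
  have := Fintype.ofFinite F
  have h1 := hq.two_le
  obtain ⟨k, hk, l, hl, hkl, e'⟩ := Finset.exists_ne_map_eq_of_card_lt_of_maps_to
    (t := Finset.univ.filter fun a : F => a ≠ 0 ∧ σ a = a) (s := s) (by
      rw [← Fintype.card_subtype, ← Nat.card_eq_fintype_card, hq.card_fixed_ne_zero]; omega)
    (f := fun k => B f (e k) * σ (B f (e k))) fun k hk => by
      simpa [H k hk] using h.herm.norm_fixed (B f (e k))
  have h2 := H l hl
  refine ⟨k, hk, l, hl, hkl, σ (B f (e k) / B f (e l)), ?_, by simp [h.herm.invol, h2]⟩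
  rw [h.herm.invol, map_div₀, div_mul_div_comm, mul_comm, e', mul_comm, div_self (by simpa)]

theorem mem_of_odd (h2 : (2 : F) ≠ 0) {g : V ≃ₗ[F] V} (hg : g ∈ M) : g ∈ uMon F e := by
  by_contra hg'
  have hB := h.herm
  have hn' := h.add_one_le hq hn hH hM hS hg hg'
  have h1 : (-1 : F) * σ (-1) = 1 := by simp
  obtain ⟨c⟩ : Nonempty ι := Fintype.card_pos_iff.1 (by omega)
  obtain ⟨o, p, γ, h3, h4, h5, h6, h7, h8⟩ : ∃ o p γ, URefl B p γ ∧
      uRefl B p γ ∈ UG B ⊓ uMon F e ∧ LinearEquiv.det (uRefl B p γ) = -1 ∧ B (g (e c)) p = 0 ∧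
      B p (e o) ≠ 0 ∧ ∀ k, k ≠ o → B (g (e c)) (e k) ≠ 0 := by
    obtain ⟨o, ho⟩ := h.exists_ne_zero hn hH hM hS hg hg' c
    by_cases h0 : B (g (e c)) (e o) = 0
    · exact ⟨o, e o, _, uRefl_unit (h.unit o) h1, h.refl_mem o h1, det_uRefl_neg (h.unit o), h0,
        by simp [h.unit], ho⟩
    have h3 : ∀ k, B (g (e c)) (e k) ≠ 0 := fun k => by
      by_cases e' : k = o
      · rwa [e']
      · exact ho k e'
    obtain ⟨i, -, j, -, hij, t, ht, h4⟩ := h.exists_perp_swap hq (s := Finset.univ)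
      (by simpa using by omega) fun k _ => h3 k
    exact ⟨i, _, _, uRefl_two (h.swap_norm hij ht), h.swap_mem hij ht,
      det_uRefl_two (h.swap_norm hij ht), h4, by simp [h.orth, hij.symm], fun k _ => h3 k⟩
  obtain ⟨k, hk, l, hl, hkl, t, ht, h9⟩ := h.exists_perp_swap hq (s := Finset.univ.erase o)
    (by simp; omega) fun k hk => h8 k (Finset.mem_erase.1 hk).1
  have h10 := hH (u_mul_mem_of_det h4 (h.swap_mem hkl ht) h5 (det_uRefl_two (h.swap_norm hkl ht)))
  have h11 := h.swap_apply hkl ht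
  have h12 : B (e k - t • e l) (e o) = 0 := by
    simp [h.orth, (Finset.mem_erase.1 hk).1, (Finset.mem_erase.1 hl).1]
  have h13 : ∀ m ∈ M, m (e k - t • e l) = e k - t • e l → m ∈ uMon F e := fun m hm e' => by
    by_contra hm'
    have h13 := hH (u_mul_mem_of_det (h.refl_mem c h1) (h.swap_mem hkl ht)
      (det_uRefl_neg (h.unit c)) (det_uRefl_two (h.swap_norm hkl ht)))
    refine h.not_refl_mul_mem hq hn hH hM hS hm hm' (c := c) (o := c) h1
      (fun e' => h2 (by linear_combination -e')) ?_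
    rw [← uRefl_conj (hM hm).1]
    convert mul_mem (mul_mem (mul_mem h13 hm) (inv_mem h13)) (inv_mem hm) using 1
    rw [mul_assoc _ _ m, ← e', ← mul_uRefl (hM hm).1, e']
    group
  have h14 := h.swap_norm hkl ht
  generalize e k - t • e l = φ at h9 h10 h11 h12 h13 h14
  have h15 : ∀ x, (g⁻¹ * (uRefl B p γ * uRefl B φ (-1)) * g) x - x =
      (γ * B (g x - B (g x) φ • φ) p) • g⁻¹ p - B (g x) φ • g⁻¹ φ := fun x => by
    simp only [LinearEquiv.mul_apply, h11, h3.apply, map_add, map_sub g⁻¹, map_smul g⁻¹,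
      u_inv_apply]
    abel
  obtain ⟨π, hπ⟩ := exists_perm_of_mem_uMon (hS _ (mul_mem (mul_mem (inv_mem hg) h10) hg) c c 1
    (by rw [one_smul, ← sub_eq_zero, h15]; simp [h6, h9]))
  have h16 := h.card_moved_le hπ (u_finrank_span_pair_le (g⁻¹ p) (g⁻¹ φ)) fun x => by
    rw [h15, sub_eq_add_neg, ← neg_smul]
    exact Submodule.mem_span_pair.2 ⟨_, _, rfl⟩
  obtain ⟨a, ha, b, hb, hab⟩ := Finset.one_lt_card.1 (show 1 < (uMoved e
    (g⁻¹ * (uRefl B p γ * uRefl B φ (-1)) * g))ᶜ.card by rw [Finset.card_compl]; omega)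
  have h17 : ∀ a, (g⁻¹ * (uRefl B p γ * uRefl B φ (-1)) * g) (e a) = e a → B φ (g (e a)) = 0 :=
    fun a ha => by
      rw [← sub_eq_zero, h15, ← map_smul, ← map_smul, ← map_sub, map_eq_zero_iff _ g⁻¹.injective,
        sub_eq_zero] at ha
      have h17 := congrArg (B · (e o)) ha
      simp only [map_smul, LinearMap.smul_apply, h12, smul_eq_mul, mul_zero, mul_eq_zero (b := B p _),
        h7, or_false] at h17
      rw [h17, zero_smul, eq_comm, smul_eq_zero] at ha
      exact hB.eq_zero_symm (ha.resolve_right fun e' => h2 (by simpa [e'] using h14.symm))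
  obtain ⟨β, hβ, hβ'⟩ := hB.exists_norm_one_ne
  have h18 := (hM hg).1
  have h19 : B (g (e b)) (g (e a)) = 0 := by simp [UG_map h18, h.orth, hab.symm]
  have h20 : ∀ a, B (g (e a)) (g (e a)) = 1 := fun a => by rw [UG_map h18, h.unit]
  refine h.not_card_supp_le hn hH hM hS hg hg' a ((Finset.card_le_card
    Finset.subset_union_left).trans ((h.card_supp_le (h20 a) (h20 b) h19 hβ hβ' (h13 _ ?_ ?_)).trans
      (by decide)))
  · rw [← uRefl_conj h18, ← uRefl_conj h18]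
    convert mul_mem (mul_mem hg (hH (h.d_mem a b hβ))) (inv_mem hg) using 1
    group
  · rw [uRefl_mul_inv_apply (h20 a) (h20 b) h19 hβ, h17 a (by simpa using ha),
      h17 b (by simpa using hb)]
    simp

theorem mem_of_even (h2 : (2 : F) = 0) {g : V ≃ₗ[F] V} (hg : g ∈ M) : g ∈ uMon F e := by
  by_contra hg'
  have hB := h.herm
  have h1 : ∀ {i j : ι} {t : F}, i ≠ j → t * σ t = 1 → uRefl B (e i - t • e j) (-1) ∈ M :=
    fun hij ht => hH ⟨hB.uRefl_mem_USG (by rw [h.swap_norm hij ht, h2])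
      (by rw [map_neg, map_one]; linear_combination -h2), (h.swap_mem hij ht).2⟩
  have h3 : ∀ ψ, B ψ ψ = 0 → uRefl B ψ (-1) ∈ M → ∀ o, B ψ (e o) = 0 →
      (uSupp B e ψ).card ≤ 2 := fun ψ h3 h4 o h5 => by
    obtain ⟨π, hπ⟩ := exists_perm_of_mem_uMon (hS _ h4 o o 1 (by
      rw [uRefl_apply_of_perp _ (hB.eq_zero_symm h5), one_smul]))
    rcases (uSupp B e ψ).eq_empty_or_nonempty with e' | ⟨k, hk⟩
    · simp [e']
    refine (Finset.card_le_card (t := {k, π k}) fun m hm => ?_).trans Finset.card_le_two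
    by_contra h6
    simp only [Finset.mem_insert, Finset.mem_singleton, not_or] at h6
    have := h.coord_zero hπ h6.1 h6.2
    rw [uRefl_apply_of_isotropic h3, add_sub_cancel_left] at this
    simp [mem_uSupp.1 hm, mt hB.eq_zero_symm (mem_uSupp.1 hk)] at this
  have h4 : ∀ ψ, B ψ ψ = 0 ∧ uRefl B ψ (-1) ∈ M → ∀ k ∈ M,
      B (k ψ) (k ψ) = 0 ∧ uRefl B (k ψ) (-1) ∈ M := fun ψ h4 k hk =>
    ⟨by rw [USG_map (hM hk), h4.1],
      uRefl_conj (hM hk).1 ψ _ ▸ mul_mem (mul_mem hk h4.2) (inv_mem hk)⟩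
  obtain ⟨b, hb, hb'⟩ := hB.exists_norm_one_ne
  have hb1 : b - 1 ≠ 0 := sub_ne_zero.2 (by rintro rfl; simp at hb')
  obtain ⟨o⟩ : Nonempty ι := Fintype.card_pos_iff.1 (by omega)
  obtain ⟨x, hx, -⟩ := u_exists_seq hn o
  have hx' : ∀ i j, x i = x j ↔ i = j := fun i j => hx.eq_iff
  have h12 : x 1 ≠ x 2 := by simp [hx']
  obtain ⟨ψ, h5, h6⟩ : ∃ ψ, (B ψ ψ = 0 ∧ uRefl B ψ (-1) ∈ M) ∧ ∀ k, B ψ (e k) ≠ 0 := by
    by_contra! H
    have key : ∀ t, t * σ t = 1 → (uSupp B e (g (e (x 1) - t • e (x 2)))).card ≤ 2 := fun t ht => by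
      have := h4 _ ⟨by rw [h.swap_norm h12 ht, h2], h1 h12 ht⟩ g hg
      obtain ⟨k, hk⟩ := H _ this
      exact h3 _ this.1 this.2 k hk
    refine h.not_card_supp_le hn hH hM hS hg hg' (x 2) ((Finset.card_le_card fun k hk => ?_).trans
      ((Finset.card_union_le _ _).trans ((add_le_add (key 1 (by simp)) (key b hb)).trans
        (by decide))))
    by_contra H
    simp only [Finset.mem_union, mem_uSupp, not_or, not_not, map_sub, map_smul,
      LinearMap.sub_apply, LinearMap.smul_apply, smul_eq_mul] at H hk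
    exact hk (mul_left_cancel₀ hb1 (by linear_combination H.1 - H.2))
  have h7 : ∀ k ∈ M, ∀ y, k ψ = ψ + y → B y ψ = -1 → B y (e (x 0)) = 0 → ∀ i j l : Fin 7, i ≠ j →
      i ≠ l → j ≠ l → B y (e (x i)) ≠ 0 → B y (e (x j)) ≠ 0 → B y (e (x l)) = 0 :=
    fun k hk y e1 e2 e3 i j l hij hil hjl hi hj => by
      have := h4 _ (h4 ψ h5 k hk) _ h5.2
      rw [e1, uRefl_apply_of_isotropic h5.1, show ψ + y + (-1 * B (ψ + y) ψ) • ψ = y by
        rw [map_add, LinearMap.add_apply, h5.1, e2]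
        match_scalars
        · linear_combination h2
        · ring] at this
      by_contra hl
      exact (h3 y this.1 this.2 _ e3).not_gt (Finset.two_lt_card.2 ⟨x i, mem_uSupp.2 hi, x j,
        mem_uSupp.2 hj, x l, mem_uSupp.2 hl, hx.ne hij, hx.ne hil, hx.ne hjl⟩)
  have h8 : ∀ k l : Fin 7, 3 ≤ k → k < l → B ψ (e (x k)) * σ (B ψ (e (x k))) =
      B ψ (e (x l)) * σ (B ψ (e (x l))) ∧ ∃ t, t * σ t = 1 ∧
        B ψ (e (x 1) - t • e (x 2)) * σ (B ψ (e (x 1) - t • e (x 2))) = 1 := fun k l hk hl => by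
    obtain ⟨t, t', ht, ht', h8, h9⟩ := h.exists_swaps hq (h6 (x 1)) (h6 (x 2)) (h6 (x k)) (h6 (x l))
      (map_one σ)
    have hkl : x k ≠ x l := hx.ne hl.ne
    have e1 : ∀ i : Fin 7, i < 3 → x k ≠ x i ∧ x l ≠ x i ∧ x i ≠ x k ∧ x i ≠ x l := fun i hi =>
      ⟨hx.ne (by omega), hx.ne (by omega), hx.ne (by omega), hx.ne (by omega)⟩
    have ht0 : t ≠ 0 := left_ne_zero_of_mul_eq_one ht
    have h10 := h7 _ (mul_mem (h1 h12 ht) (h1 hkl ht'))
      (-(B ψ (e (x 1) - t • e (x 2)) • (e (x 1) - t • e (x 2)) +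
        B ψ (e (x k) - t' • e (x l)) • (e (x k) - t' • e (x l)))) (by
        rw [LinearEquiv.mul_apply, h.swap_apply hkl ht', h.swap_apply h12 ht, map_sub B, map_smul,
          LinearMap.sub_apply, LinearMap.smul_apply, show B (e (x k) - t' • e (x l))
            (e (x 1) - t • e (x 2)) = 0 by simp [h.orth, e1]]
        module) (by
        rw [← h9, ← hB.symm, map_neg, map_add, map_smulₛₗ, map_smulₛₗ]
        simp only [map_neg, map_add, smul_eq_mul, map_mul, hB.invol]) (by simp [h.orth, e1, hx'])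
      1 2 k (by decide) (by omega) (by omega)
    generalize hα : B ψ (e (x 1) - t • e (x 2)) = α at h8 h9 h10 ⊢
    generalize hβ : B ψ (e (x k) - t' • e (x l)) = β at h9 h10
    obtain rfl : β = 0 := by
      simpa [h.orth, e1, hkl.symm] using h10 (by simp [h.orth, e1, hx', h8])
        (by simp [h.orth, e1, hx', h8, ht0])
    refine ⟨?_, t, ht, by simpa [hα] using h9⟩
    rw [map_sub, map_smulₛₗ, sub_eq_zero, smul_eq_mul] at hβ
    rw [hβ, map_mul, hB.invol]
    linear_combination B ψ (e (x l)) * σ (B ψ (e (x l))) * ht'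
  obtain ⟨h9, t, ht, h10⟩ := h8 3 4 (by decide) (by decide)
  obtain ⟨h11, -⟩ := h8 5 6 (by decide) (by decide)
  have h13 := fun i j (hij : i ≠ j) =>
    uRefl_mul_inv_apply (h.unit (x i)) (h.unit (x j)) (by simp [h.orth, hx', hij.symm]) hb
  have := h7 _ (mul_mem (h1 h12 ht) (mul_mem (hH (h.d_mem (x 3) (x 5) hb))
    (hH (h.d_mem (x 4) (x 6) hb))))
    (-(B ψ (e (x 1) - t • e (x 2)) • (e (x 1) - t • e (x 2))) +
      ((b - 1) * B ψ (e (x 3))) • e (x 3) + ((b - 1) * B ψ (e (x 4))) • e (x 4) +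
      ((σ b - 1) * B ψ (e (x 5))) • e (x 5) + ((σ b - 1) * B ψ (e (x 6))) • e (x 6)) (by
      rw [LinearEquiv.mul_apply, LinearEquiv.mul_apply, h13 4 6 (by decide), h13 3 5 (by decide),
        h.swap_apply h12 ht]
      simp [h.orth, hx']
      module) (by
      simp only [map_add, map_neg, map_smul, LinearMap.add_apply, LinearMap.neg_apply,
        LinearMap.smul_apply, smul_eq_mul, ← hB.symm ψ]
      linear_combination -h10 + (b - 1) * h9 + (σ b - 1) * h11 +
        ((b - 1) * B ψ (e (x 4)) * σ (B ψ (e (x 4))) +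
          (σ b - 1) * B ψ (e (x 6)) * σ (B ψ (e (x 6)))) * h2)
    (by simp [h.orth, hx']) 3 4 5 (by decide) (by decide) (by decide)
    (by simp [h.orth, hx', hb1, h6]) (by simp [h.orth, hx', hb1, h6])
  simp [h.orth, hx', h6, show σ b - 1 ≠ 0 by simpa using (map_ne_zero σ).2 hb1] at this

omit hH hM hS in
/-- The monomial group is maximal in `SU_n(q)`, `n ≥ 7`. -/
theorem uMax : UMax B (uMon F e) := by
  have hB := h.herm
  have := hq.finite
  obtain ⟨o⟩ : Nonempty ι := Fintype.card_pos_iff.1 (by omega)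
  constructor
  · intro H
    obtain ⟨x, hx, -⟩ := u_exists_seq hn o
    have hx' : ∀ i j, x i = x j ↔ i = j := fun i j => hx.eq_iff
    obtain ⟨γ, hγ⟩ := hq.exists_norm_eq (a := -1) (by simp)
    obtain ⟨g, hg, e'⟩ := hB.exists_USG_nonisotropic (p := e o)
      (p' := e (x 0) + e (x 1) + γ • e (x 2)) (by rw [h.finrank_eq]; omega) (by simp [h.unit])
      (by simp [h.orth, hx']; linear_combination -hγ)
    obtain ⟨π, hπ⟩ := exists_perm_of_mem_uMon (H hg)
    obtain ⟨c, hc⟩ := hπ o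
    have e1 := congrArg (B · (e (x 0))) (e'.symm.trans hc)
    have e2 := congrArg (B · (e (x 1))) (e'.symm.trans hc)
    by_cases e3 : π o = x 0
    · simp [h.orth, hx', e3] at e2
    · simp [h.orth, hx', e3] at e1
  intro M hH hM h1
  have hu : ∀ a : uNormOne σ, (a.1 : F) * σ a.1 = 1 := fun a => a.2
  let ρ : uNormOne σ →* (V ≃ₗ[F] V) := MonoidHom.mk' (fun a => uRefl B (e o) (a.1 - 1))
    fun a b => (uRefl_unit_mul (h.unit o) a.1.ne_zero b.1.ne_zero).symm
  have hρ : ∀ a, ρ a ∈ UG B ⊓ uMon F e := fun a => h.refl_mem o (hu a)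
  have hρ' : ∀ a, LinearEquiv.det (ρ a) = a := fun a => Units.ext (det_uRefl_unit (h.unit o) (hu a))
  let N : Subgroup (V ≃ₗ[F] V) :=
    { carrier := {g | ∃ b, ∀ a, ρ a * g * (ρ a)⁻¹ * (ρ b)⁻¹ ∈ M}
      one_mem' := ⟨1, fun a => by simp⟩
      mul_mem' := fun {g k} ⟨b, hb⟩ ⟨b', hb'⟩ => ⟨b * b', fun a => by
        have e1 : ρ (b * b') * ρ a = ρ b' * (ρ b * ρ a) := by
          rw [mul_comm b, map_mul, mul_assoc]
        convert mul_mem (hb a) (hb' (b * a)) using 1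
        rw [mul_assoc _ (ρ a)⁻¹, ← mul_inv_rev, e1, map_mul]
        group⟩
      inv_mem' := fun {g} ⟨b, hb⟩ => ⟨b⁻¹, fun a => by
        convert inv_mem (hb (b⁻¹ * a)) using 1
        simp only [map_mul, map_inv]
        group⟩ }
  have h2 : ∀ g ∈ N, g ∈ USG B → g ∈ M := fun g ⟨b, hb⟩ hg => by
    have h2 := hb 1
    have h3 := (mem_USG.1 (hM h2)).2
    rw [map_mul, map_mul, map_mul, map_inv, map_inv, (mem_USG.1 hg).2, hρ', hρ'] at h3
    obtain rfl : b = 1 := Subtype.ext (by simpa using h3)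
    simpa using h2
  by_cases h3 : N ≤ uMon F e
  swap
  · exact fun g hg => h2 g (h.USG_le (N := N) (fun g hg => ⟨⟨_, hB.det_mem_uNormOne hg.1⟩, fun a =>
      hH (by
        have := mul_mem (mul_mem (mul_mem (hρ a) hg) (inv_mem (hρ a)))
          (inv_mem (hρ ⟨_, hB.det_mem_uNormOne hg.1⟩))
        exact ⟨mem_USG.2 ⟨this.1, by simp [hρ']⟩, this.2⟩)⟩) (fun g ⟨b, hb⟩ => by
      simpa using mul_mem (hM (hb 1)).1 (hρ b).1) hq (by omega) h3 hg) hg
  have h4 : ∀ i, ∃ s ∈ USG B ⊓ uMon F e, ∃ c : F, s (e i) = c • e o ∧ c ≠ 0 := fun i => by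
    by_cases hi : i = o
    · exact ⟨1, one_mem _, 1, by simp [hi], one_ne_zero⟩
    have h4 : (1 : F) * σ 1 = 1 := by simp
    exact ⟨_, u_mul_mem_of_det (h.swap_mem hi h4) (h.refl_mem i (a := -1) (by simp))
      (det_uRefl_two (h.swap_norm hi h4)) (det_uRefl_neg (h.unit i)), -1, by
      rw [LinearEquiv.mul_apply, (uRefl_unit (h.unit i) (by simp)).apply, h.swap_apply hi h4]
      simp [h.orth, hi]
      module, by simp⟩
  have hS : ∀ m ∈ M, ∀ i j, ∀ c : F, m (e i) = c • e j → m ∈ uMon F e := fun m hm i j c e' => by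
    obtain ⟨s, hs, a, ha, ha0⟩ := h4 i
    obtain ⟨s', hs', a', ha', -⟩ := h4 j
    have h5 := mul_mem (mul_mem (hH hs') hm) (inv_mem (hH hs))
    have h6 : (s' * m * s⁻¹) (e o) = (a⁻¹ * c * a') • e o := by
      rw [show e o = a⁻¹ • s (e i) by rw [ha, inv_smul_smul₀ ha0], map_smul,
        LinearEquiv.mul_apply, u_inv_apply, LinearEquiv.mul_apply, e', map_smul, ha', ha,
        inv_smul_smul₀ ha0, smul_smul, smul_smul]
    have h7 := USG_map (hM h5) (e o) (e o)
    have h8 : s' * m * s⁻¹ ∈ N := ⟨1, fun b => by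
      have e1 := mul_uRefl (hM h5).1 (e o) (b.1 - 1)
      rw [h6, uRefl_smul, show a⁻¹ * c * a' * σ (a⁻¹ * c * a') = 1 by
        simpa [h6, h.unit, -map_mul, mul_comm] using h7, mul_one] at e1
      rw [show ρ b * (s' * m * s⁻¹) = s' * m * s⁻¹ * ρ b from e1.symm]
      simpa using h5⟩
    simpa [mul_assoc] using mul_mem (mul_mem (inv_mem (Subgroup.mem_inf.1 hs').2) (h3 h8)) hs.2
  by_cases h5 : (2 : F) = 0
  · exact absurd (fun g hg => h.mem_of_even hq hn hH hM hS h5 hg) h1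
  · exact absurd (fun g hg => h.mem_of_odd hq hn hH hM hS h5 hg) h1

end UFrame

omit [Fintype ι] [FiniteDimensional F V] in
theorem UDec.exists_uFrame [Finite F] {D : ι → Submodule F V} (h : UDec B D 1) :
    ∃ e : ι → V, UFrame B e ∧ D = fun i => F ∙ e i := by
  have hB := h.herm
  have key : ∀ i, ∃ p, B p p = 1 ∧ D i = F ∙ p := fun i => by
    obtain ⟨x, hx, hx0⟩ := h.exists_ne_zero i
    obtain ⟨p, hp, h1⟩ := hB.exists_mem_norm_one (W := D i) fun e =>
      hx0 (Submodule.disjoint_def.1 (h.nondeg i) x hx (e hx))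
    have : FiniteDimensional F (D i) := Module.finite_of_finrank_eq_succ (h.rank i)
    exact ⟨p, h1, (Submodule.eq_of_le_of_finrank_le ((Submodule.span_singleton_le_iff_mem _ _).2 hp)
      (by rw [h.rank, finrank_span_singleton fun e => by simp [e] at h1])).symm⟩
  choose e h1 h2 using key
  refine ⟨e, ⟨hB, fun i j => ?_, fun x hx => h.eq_zero fun i => ?_⟩, funext h2⟩
  · split_ifs with hij
    · rw [hij, h1]
    · exact h.orth i j hij (h2 j ▸ Submodule.mem_span_singleton_self _) _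
        (h2 i ▸ Submodule.mem_span_singleton_self _)
  · rw [h2, mem_uPerp_span_singleton, hB.eq_zero_symm (hx i)]

theorem UField.isMaximalIn_frame (hq : UField σ q) {t : ℕ} (ht : 7 ≤ t)
    {D : Fin t → Submodule F (Fin n → F)}
    (hD : IsNondegenerateMDecomposition (hermForm n F q) 1 D) :
    IsMaximalIn (GU n F q ⊓ specialLinear (Fin n) F)
      (decompositionStabilizer D ⊓ (GU n F q ⊓ specialLinear (Fin n) F)) := by
  have := hq.finite
  obtain ⟨e, h, rfl⟩ := (hq.uDec hD).exists_uFrame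
  exact hq.isMaximalIn (H := uMon F e) (fun _ _ => Iff.rfl) (h.uMax hq (by simpa))

end Cfsg.Agent.Cl
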