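import Mathlib
import Cfsg.Agent.Cl.MaxSUFrameC
import Cfsg.Agent.Cl.MaxSUExtA

/-!
# Maximality of the monomial group in `SU_6(q)`, `q ≥ 3`
-/

set_option autoImplicit false

namespace Cfsg.Agent.Cl

open Module Cfsg.Geo

variable {F : Type*} [Field F] {σ : F →+* F} {V : Type*} [AddCommGroup V] [Module F V]
  {B : V →ₗ[F] V →ₛₗ[σ] F} {q n : ℕ} {M : Subgroup (V ≃ₗ[F] V)}
  {ι : Type*} [Fintype ι] [DecidableEq ι] {e : ι → V} [FiniteDimensional F V]

namespace UFrame

variable (h : UFrame B e) (hq : UField σ q) (h3 : 3 ≤ q) (hn : Fintype.card ι = 6)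
  (hH : USG B ⊓ uMon F e ≤ M) (hM : M ≤ USG B)
  (hS : ∀ m ∈ M, ∀ i j, ∀ c : F, m (e i) = c • e j → m ∈ uMon F e)
include h hH hM hS hq h3

theorem supp_subset {g : V ≃ₗ[F] V} (hg : g ∈ M) {c i j : ι} (hij : i ≠ j)
    (hi : B (g (e c)) (e i) = 0) (hj : B (g (e c)) (e j) = 0) {a : ι} (ha : B (g (e a)) (e i) ≠ 0)
    {k : ι} (hki : k ≠ i) (hkj : k ≠ j) : B (g (e a)) (e k) = 0 := by
  classical
  have := hq.finite
  have := Fintype.ofFinite F
  have hB := h.herm
  have h1 := h.card_supp_inv_le hH hM hS hg hij hi hj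
  have h2 := fun b (hb : b * σ b = 1) =>
    uRefl_mul_inv_apply (h.unit i) (h.unit j) (by simp [h.orth, hij.symm]) hb
  have h4 : ∀ b : F, ∃ a', b * σ b = 1 → ∃ γ : F, g (e a) + ((b - 1) * B (g (e a)) (e i)) • e i +
      ((σ b - 1) * B (g (e a)) (e j)) • e j = γ • g (e a') := fun b => by
    by_cases hb : b * σ b = 1
    swap
    · exact ⟨a, fun e => absurd e hb⟩
    obtain ⟨π, hπ⟩ := exists_perm_of_mem_uMon (hS _ (mul_mem (mul_mem (inv_mem hg)
      (hH (h.d_mem i j hb))) hg) c c 1 (by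
        rw [LinearEquiv.mul_apply, LinearEquiv.mul_apply, h2 b hb, hi, hj]
        simp))
    obtain ⟨γ, hγ⟩ := hπ a
    refine ⟨π a, fun _ => ⟨γ, ?_⟩⟩
    rw [← h2 b hb, ← map_smul, ← hγ, LinearEquiv.mul_apply _ g, LinearEquiv.mul_apply g⁻¹,
      u_apply_inv]
  choose f hf using h4
  obtain ⟨b, hb, b', hb', hbb, e'⟩ := Finset.exists_ne_map_eq_of_card_lt_of_maps_to
    (s := Finset.univ.filter fun t : F => t * σ t = 1) (f := f)
    (t := uSupp B e (g⁻¹ (e i)) ∪ uSupp B e (g⁻¹ (e j))) (by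
      rw [← Fintype.card_subtype, ← Nat.card_eq_fintype_card,
        hq.card_norm_eq one_ne_zero (map_one σ)]
      omega) fun b hb => by
      replace hb : b * σ b = 1 := by simpa using hb
      obtain ⟨γ, hγ⟩ := hf b hb
      have := congrArg (B · (e i)) hγ
      simp only [map_add, map_smul, LinearMap.add_apply, LinearMap.smul_apply, h.orth,
        if_neg hij.symm, if_true, smul_eq_mul] at this
      refine Finset.mem_coe.2 (Finset.mem_union_left _ (mem_uSupp.2 fun e => ?_))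
      rw [LinearEquiv.coe_inv, ← UG_apply_right (hM hg).1] at e
      rw [hB.eq_zero_symm e] at this
      exact mul_ne_zero (left_ne_zero_of_mul_eq_one hb) ha (by linear_combination this)
  obtain ⟨γ, hγ⟩ := hf b (by simpa using hb)
  obtain ⟨γ', hγ'⟩ := hf b' (by simpa using hb')
  rw [← e'] at hγ'
  have e1 := congrArg (B · (e i)) hγ
  have e2 := congrArg (B · (e i)) hγ'
  have e3 := congrArg (B · (e k)) hγ
  have e4 := congrArg (B · (e k)) hγ'
  simp only [map_add, map_smul, LinearMap.add_apply, LinearMap.smul_apply, h.orth,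
    if_neg hij.symm, if_neg hki.symm, if_neg hkj.symm, if_true, smul_eq_mul] at e1 e2 e3 e4
  refine (mul_eq_zero.1 (?_ : (b - b') * B (g (e a)) (e i) * _ = 0)).resolve_left
    (mul_ne_zero (sub_ne_zero.2 hbb) ha)
  linear_combination B (g (e a)) (e k) * (e1 - e2) + B (g (e (f b))) (e i) * (γ * e4 - γ' * e3)

include hn

theorem not_two_zero' {g : V ≃ₗ[F] V} (hg : g ∈ M) (hg' : g ∉ uMon F e) {c i j : ι} (hij : i ≠ j)
    (hi : B (g (e c)) (e i) = 0) (hj : B (g (e c)) (e j) = 0) : False := by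
  have h1 : ∀ i, ∃ a, B (g (e a)) (e i) ≠ 0 := fun i => by
    by_contra! H
    have := h.ext (g⁻¹ (e i)) fun a => by
      rw [LinearEquiv.coe_inv, ← UG_apply_right (hM hg).1, h.herm.eq_zero_symm (H a)]
    simpa [show e i = 0 by simpa using this] using h.unit i
  obtain ⟨a, ha⟩ := h1 i
  obtain ⟨k, hk, l, hl, m, hm, hkl, hkm, hlm⟩ := Finset.two_lt_card.1
    (show 2 < ({i, j}ᶜ : Finset ι).card by rw [Finset.card_compl, Finset.card_pair hij]; omega)
  simp only [Finset.mem_compl, Finset.mem_insert, Finset.mem_singleton, not_or] at hk hl hm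
  have h2 := fun k => h.supp_subset hq h3 hH hM hS hg hij hi hj ha (k := k)
  obtain ⟨a', ha'⟩ := h1 k
  refine hg' (hS g hg a' k _ (h.eq_smul fun x hx => ?_))
  by_cases e' : x = l
  · exact h.supp_subset hq h3 hH hM hS hg hkm (h2 k hk.1 hk.2) (h2 m hm.1 hm.2) ha' hx (e' ▸ hlm)
  · exact h.supp_subset hq h3 hH hM hS hg hkl (h2 k hk.1 hk.2) (h2 l hl.1 hl.2) ha' hx e'

theorem exists_ne_zero' {g : V ≃ₗ[F] V} (hg : g ∈ M) (hg' : g ∉ uMon F e) (c : ι) :
    ∃ o, ∀ k, k ≠ o → B (g (e c)) (e k) ≠ 0 := by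
  by_contra! H
  obtain ⟨i, -, hi⟩ := H c
  obtain ⟨j, hij, hj⟩ := H i
  exact h.not_two_zero' hq h3 hn hH hM hS hg hg' hij hj hi

omit hH hM hq h3 hn [FiniteDimensional F V] [Fintype ι] in
theorem notMem_uYadd {u y : V} (hu : B u u = 0) (hu0 : u ≠ 0) {o k : ι} (h1 : B (e o) u = 0)
    (h2 : B (e k) u = 0) (h4 : B y (e o) = 0) (h5 : B y (e k) ≠ 0) : y ∉ uYadd h.herm M hu := by
  have hB := h.herm
  rintro ⟨h6, s, -, H⟩
  have h7 := hB.uEich0 hu h6
  obtain ⟨π, hπ⟩ := exists_perm_of_mem_uMon (hS _ H o o 1 (by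
    rw [h7.apply_of_perp _ h1, hB.eq_zero_symm h4]; simp))
  obtain ⟨γ, hγ⟩ := hπ k
  rw [h7.apply_of_perp _ h2] at hγ
  have h8 := congrArg (B · (e k)) hγ
  simp only [map_add, map_smul, LinearMap.add_apply, LinearMap.smul_apply, h.orth,
    hB.eq_zero_symm h2, smul_eq_mul, mul_zero, add_zero, if_true, mul_ite, mul_one] at h8
  split_ifs at h8 with e'
  · rw [e', ← h8, one_smul, add_eq_left, smul_eq_zero] at hγ
    exact hγ.elim (mt hB.eq_zero_symm h5) hu0
  · exact one_ne_zero h8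

omit hH hM hS hq h3 hn in
theorem refl_mul_mem (o : ι) {z : Fˣ} (hz : z ∈ uNormOne σ) :
    uRefl B (e o) ((z ^ Fintype.card ι : Fˣ) - 1) * uScalar F V z⁻¹ ∈ USG B ⊓ uMon F e := by
  have ha : ((z ^ Fintype.card ι : Fˣ) : F) * σ (z ^ Fintype.card ι : Fˣ) = 1 := pow_mem hz _
  have h1 := h.refl_mem o ha
  exact ⟨mem_USG.2 ⟨mul_mem h1.1 (uScalar_mem_UG (inv_mem hz)), by
    rw [map_mul, det_uScalar, h.finrank_eq, inv_pow, mul_inv_eq_one, ← Units.val_inj,
      det_uRefl_unit (h.unit o) ha]⟩, mul_mem h1.2 (h.mem_uMon fun i => ⟨i, _, rfl⟩)⟩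

theorem not_refl_mul_mem' {g : V ≃ₗ[F] V} (hg : g ∈ M) (hg' : g ∉ uMon F e) {c o : ι} {a : F}
    (ha : a * σ a = 1) (ha1 : a ≠ 1) :
    uRefl B (e o) (a - 1) * (uRefl B (g (e c)) (a - 1))⁻¹ ∉ M := fun H => by
  have hB := h.herm
  obtain ⟨o', h1⟩ := h.exists_ne_zero' hq h3 hn hH hM hS hg hg' c
  obtain ⟨x, hx, rfl⟩ := u_exists_seq (m := 5) hn.ge o'
  have h2 : B (g (e c)) (g (e c)) = 1 := by rw [USG_map (hM hg), h.unit]
  generalize g (e c) = f at H h1 h2
  replace H := mul_mem (hH (h.d_mem (x 0) o ha)) H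
  rw [mul_assoc, inv_mul_cancel_left] at H
  have h3' : ∀ k ∈ M, k (e (x 0)) = e (x 0) →
      uRefl B (k f) (a - 1) * (uRefl B f (a - 1))⁻¹ ∈ M := fun k hk e' => by
    have := mul_mem (inv_mem (mul_mem (mul_mem hk H) (inv_mem hk))) H
    rw [← uRefl_conj (hM hk).1]
    have e1 := uRefl_conj (hM hk).1 (e (x 0)) (a - 1)
    rw [e'] at e1
    nth_rewrite 2 [← e1] at this
    convert this using 1
    group
  have hx' : ∀ i j, x i = x j ↔ i = j := fun i j => hx.eq_iff
  have h4 : ∀ i : Fin 6, i ≠ 0 → B f (e (x i)) ≠ 0 := fun i hi => h1 _ (hx.ne hi)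
  obtain ⟨t, t', ht, ht', u, h5, h6, h7, h8, h9⟩ := h.exists_degenerate hq (i := x 1) (j := x 2)
    (k := x 3) (l := x 4) (by simp [hx']) (by simp [hx']) (by simp [hx']) (by simp [hx'])
    (by simp [hx']) (by simp [hx']) (h4 1 (by decide)) (h4 2 (by decide)) (h4 3 (by decide))
    (h4 4 (by decide))
  have h10 : x 1 ≠ x 2 := by simp [hx']
  have h11 : x 3 ≠ x 4 := by simp [hx']
  have h12 := h3' _ (hH (u_mul_mem_of_det (h.swap_mem h10 ht) (h.swap_mem h11 ht')
    (det_uRefl_two (h.swap_norm h10 ht)) (det_uRefl_two (h.swap_norm h11 ht')))) (by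
      rw [LinearEquiv.mul_apply, h.swap_apply h11 ht', h.swap_apply h10 ht]
      simp [h.orth, hx'])
  rw [h9, hB.uRefl_mul_inv_eq_uEich h2 h6 h7 ha] at h12
  have h13 : -(a - 1) • f ∈ uYadd hB M h6 := ⟨by simp [h7], a - 1, by
    simp only [map_smul, map_smulₛₗ, LinearMap.smul_apply, h2, map_neg, map_sub, map_one,
      smul_eq_mul]
    linear_combination ha, h12⟩
  have h15 : ∀ i : Fin 6, i = 0 ∨ i = 5 → B (e (x i)) u = 0 := by
    rintro _ (rfl | rfl) <;> apply h8 <;> simp [hx']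
  have h16 := fun y => h.notMem_uYadd hS (y := y) h6 h5 (h15 0 (by simp)) (h15 5 (by simp))
  have h17 : B (-(a - 1) • f) (e (x 5)) ≠ 0 := by simp [h4, sub_eq_zero, ha1.symm]
  generalize -(a - 1) • f = w at h13 h17
  have hM' : M ≤ UG B := fun _ hg => (hM hg).1
  by_cases h18 : (2 : F) = 0
  · obtain ⟨z, hz, hz'⟩ := u_exists_pow_ne_one (P := fun a : F => a * σ a = 1) (n := 3) (by omega)
      (by rw [hq.card_norm_eq one_ne_zero (map_one σ)]; omega)
    have hz0 := left_ne_zero_of_mul_eq_one hz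
    have h19 := hH (h.refl_mul_mem (x 5) (z := Units.mk0 z hz0) hz)
    have h20 : z ^ 6 * σ (z ^ 6) = 1 := by rw [map_pow, ← mul_pow, hz, one_pow]
    have h21 : z ^ 6 - 1 ≠ 0 := fun e => hz' (sub_eq_zero.1 (pow_eq_zero_iff two_ne_zero |>.1
      (by linear_combination e + (1 - z ^ 3) * h18)))
    simp only [hn, Units.val_pow_eq_pow_val, Units.val_mk0] at h19
    have h22 : ∀ v, (uRefl B (e (x 5)) (z ^ 6 - 1) * uScalar F V (Units.mk0 z hz0)⁻¹) v =
        z⁻¹ • (v + ((z ^ 6 - 1) * B v (e (x 5))) • e (x 5)) := fun v => by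
      rw [← (uRefl_unit (h.unit _) h20).apply, ← map_smul, LinearEquiv.mul_apply,
        uScalar_apply, Units.val_inv_eq_inv_val, Units.val_mk0]
    refine h16 _ ?_ ?_ (sub_mem (hB.uYadd_map hM' h13 h19 (inv_ne_zero hz0) (by
      rw [h22, hB.eq_zero_symm (h15 5 (by simp))]; simp)) h13)
    all_goals
      rw [h22, smul_smul, map_inv₀, ← mul_inv, mul_comm, hz]
      simp [h.orth, hx', h17, h21]
  · have h19 : -t * σ (-t) = 1 := by simpa using ht
    have h20 : (-1 : F) * σ (-1) = 1 := by simp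
    have h21 := hH (u_mul_mem_of_det (h.swap_mem h10 h19) (h.refl_mem (x 5) h20)
      (det_uRefl_two (h.swap_norm h10 h19)) (det_uRefl_neg (h.unit _)))
    have h22 : B u (e (x 1) - -t • e (x 2)) = 0 := by
      have := congrArg (B · (e (x 1) - -t • e (x 2))) h9
      rw [LinearEquiv.mul_apply, h.swap_apply h11 ht', h.swap_apply h10 ht] at this
      simp only [map_add, map_sub B, map_smul, LinearMap.add_apply, LinearMap.sub_apply,
        LinearMap.smul_apply] at this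
      simp [h.orth, hx', ht] at this ⊢
      linear_combination this
    refine h16 _ ?_ ?_ (sub_mem (hB.uYadd_map' hM' h13 h21 (by
      rw [LinearEquiv.mul_apply, uRefl_apply_of_perp _ (hB.eq_zero_symm (h15 5 (by simp))),
        uRefl_apply_of_perp _ h22])) h13)
    all_goals
      rw [LinearEquiv.mul_apply, h.swap_apply h10 h19, (uRefl_unit (h.unit _) h20).apply]
      simp [h.orth, hx', h17]
    exact fun e => h18 (by linear_combination -e)

theorem add_one_dvd {g : V ≃ₗ[F] V} (hg : g ∈ M) (hg' : g ∉ uMon F e) :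
    q + 1 ∣ Fintype.card ι := by
  have := hq.finite
  rw [← hq.card_uNormOne, ← IsCyclic.exponent_eq_card, Monoid.exponent_dvd_iff_forall_pow_eq_one]
  rintro ⟨z, hz⟩
  by_contra H
  obtain ⟨o⟩ : Nonempty ι := Fintype.card_pos_iff.1 (by omega)
  have ha : ((z ^ Fintype.card ι : Fˣ) : F) * σ (z ^ Fintype.card ι : Fˣ) = 1 := pow_mem hz _
  have h2 := hH (h.refl_mul_mem o hz)
  refine h.not_refl_mul_mem' hq h3 hn hH hM hS hg hg' (c := o) (o := o) ha
    (fun e' => H (Subtype.ext (Units.ext e'))) ?_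
  rw [← uRefl_conj (hM hg).1]
  convert mul_mem (mul_mem (mul_mem h2 hg) (inv_mem h2)) (inv_mem hg) using 1
  rw [mul_assoc _ _ g, ← uScalar_comm]
  group

theorem mem_of_six {g : V ≃ₗ[F] V} (hg : g ∈ M) : g ∈ uMon F e := by
  by_contra hg'
  have hB := h.herm
  obtain rfl : q = 5 := by
    have := h.add_one_dvd hq h3 hn hH hM hS hg hg'
    rw [hn] at this
    have : q ≤ 5 := Nat.le_of_succ_le_succ (Nat.le_of_dvd (by omega) this)
    interval_cases q <;> omega
  have h2 : (2 : F) ≠ 0 := fun e => one_ne_zero (α := F) (by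
    have := hq.cast_eq_zero
    push_cast at this
    linear_combination this - 2 * e)
  rename' h3 => h35
  have h1 : (-1 : F) * σ (-1) = 1 := by simp
  obtain ⟨c⟩ : Nonempty ι := Fintype.card_pos_iff.1 (by omega)
  obtain ⟨o, p, γ, h3, h4, h5, h6, h7, h8⟩ : ∃ o p γ, URefl B p γ ∧
      uRefl B p γ ∈ UG B ⊓ uMon F e ∧ LinearEquiv.det (uRefl B p γ) = -1 ∧ B (g (e c)) p = 0 ∧
      B p (e o) ≠ 0 ∧ ∀ k, k ≠ o → B (g (e c)) (e k) ≠ 0 := by
    obtain ⟨o, ho⟩ := h.exists_ne_zero' hq h35 hn hH hM hS hg hg' c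
    by_cases h0 : B (g (e c)) (e o) = 0
    · exact ⟨o, e o, _, uRefl_unit (h.unit o) h1, h.refl_mem o h1, det_uRefl_neg (h.unit o), h0,
        by simp [h.unit], ho⟩
    have h3 : ∀ k, B (g (e c)) (e k) ≠ 0 := fun k => by
      by_cases e' : k = o
      · rwa [e']
      · exact ho k e'
    obtain ⟨i, -, j, -, hij, t, ht, h4⟩ := h.exists_perp_swap hq (s := Finset.univ)
      (by simpa using by omega) fun k _ => h3 k
    exact ⟨i, _, _, uRefl_two (h.swap_norm hij ht), h.swap_mem hij ht,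
      det_uRefl_two (h.swap_norm hij ht), h4, by simp [h.orth, hij.symm], fun k _ => h3 k⟩
  obtain ⟨k, hk, l, hl, hkl, t, ht, h9⟩ := h.exists_perp_swap hq (s := Finset.univ.erase o)
    (by simp; omega) fun k hk => h8 k (Finset.mem_erase.1 hk).1
  have h10 := hH (u_mul_mem_of_det h4 (h.swap_mem hkl ht) h5 (det_uRefl_two (h.swap_norm hkl ht)))
  have h11 := h.swap_apply hkl ht
  have h12 : B (e k - t • e l) (e o) = 0 := by
    simp [h.orth, (Finset.mem_erase.1 hk).1, (Finset.mem_erase.1 hl).1]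
  have h13 : ∀ m ∈ M, m (e k - t • e l) = e k - t • e l → m ∈ uMon F e := fun m hm e' => by
    by_contra hm'
    have h13 := hH (u_mul_mem_of_det (h.refl_mem c h1) (h.swap_mem hkl ht)
      (det_uRefl_neg (h.unit c)) (det_uRefl_two (h.swap_norm hkl ht)))
    refine h.not_refl_mul_mem' hq h35 hn hH hM hS hm hm' (c := c) (o := c) h1
      (fun e' => h2 (by linear_combination -e')) ?_
    rw [← uRefl_conj (hM hm).1]
    convert mul_mem (mul_mem (mul_mem h13 hm) (inv_mem h13)) (inv_mem hm) using 1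
    rw [mul_assoc _ _ m, ← e', ← mul_uRefl (hM hm).1, e']
    group
  have h14 := h.swap_norm hkl ht
  generalize e k - t • e l = φ at h9 h10 h11 h12 h13 h14
  have h15 : ∀ x, (g⁻¹ * (uRefl B p γ * uRefl B φ (-1)) * g) x - x =
      (γ * B (g x - B (g x) φ • φ) p) • g⁻¹ p - B (g x) φ • g⁻¹ φ := fun x => by
    simp only [LinearEquiv.mul_apply, h11, h3.apply, map_add, map_sub g⁻¹, map_smul g⁻¹,
      u_inv_apply]
    abel
  obtain ⟨π, hπ⟩ := exists_perm_of_mem_uMon (hS _ (mul_mem (mul_mem (inv_mem hg) h10) hg) c c 1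
    (by rw [one_smul, ← sub_eq_zero, h15]; simp [h6, h9]))
  have h16 := h.card_moved_le hπ (u_finrank_span_pair_le (g⁻¹ p) (g⁻¹ φ)) fun x => by
    rw [h15, sub_eq_add_neg, ← neg_smul]
    exact Submodule.mem_span_pair.2 ⟨_, _, rfl⟩
  obtain ⟨a, ha, b, hb, hab⟩ := Finset.one_lt_card.1 (show 1 < (uMoved e
    (g⁻¹ * (uRefl B p γ * uRefl B φ (-1)) * g))ᶜ.card by rw [Finset.card_compl]; omega)
  have h17 : ∀ a, (g⁻¹ * (uRefl B p γ * uRefl B φ (-1)) * g) (e a) = e a → B φ (g (e a)) = 0 :=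
    fun a ha => by
      rw [← sub_eq_zero, h15, ← map_smul, ← map_smul, ← map_sub, map_eq_zero_iff _ g⁻¹.injective,
        sub_eq_zero] at ha
      have h17 := congrArg (B · (e o)) ha
      simp only [map_smul, LinearMap.smul_apply, h12, smul_eq_mul, mul_zero, mul_eq_zero (b := B p _),
        h7, or_false] at h17
      rw [h17, zero_smul, eq_comm, smul_eq_zero] at ha
      exact hB.eq_zero_symm (ha.resolve_right fun e' => h2 (by simpa [e'] using h14.symm))
  obtain ⟨β, hβ, hβ'⟩ := hB.exists_norm_one_ne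
  have h18 := (hM hg).1
  have h19 : B (g (e b)) (g (e a)) = 0 := by simp [UG_map h18, h.orth, hab.symm]
  have h20 : ∀ a, B (g (e a)) (g (e a)) = 1 := fun a => by rw [UG_map h18, h.unit]
  obtain ⟨i, hi, j, hj, hij⟩ := Finset.one_lt_card.1 (show 1 < (uSupp B e (g (e a)))ᶜ.card by
    have := (Finset.card_le_card Finset.subset_union_left).trans
      (h.card_supp_le (h20 a) (h20 b) h19 hβ hβ' (h13 _ ?_ ?_))
    · rw [Finset.card_compl]; omega
    · rw [← uRefl_conj h18, ← uRefl_conj h18]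
      convert mul_mem (mul_mem hg (hH (h.d_mem a b hβ))) (inv_mem hg) using 1
      group
    · rw [uRefl_mul_inv_apply (h20 a) (h20 b) h19 hβ, h17 a (by simpa using ha),
        h17 b (by simpa using hb)]
      simp)
  exact h.not_two_zero' hq h35 hn hH hM hS hg hg' hij (by simpa using hi) (by simpa using hj)

omit hH hM hS in
/-- The monomial group is maximal in `SU_6(q)`, `q ≥ 3`. -/
theorem uMax_six : UMax B (uMon F e) := by
  have hB := h.herm
  rename' h3 => h35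
  have := hq.finite
  obtain ⟨o⟩ : Nonempty ι := Fintype.card_pos_iff.1 (by omega)
  constructor
  · intro H
    obtain ⟨x, hx, -⟩ := u_exists_seq (m := 5) hn.ge o
    have hx' : ∀ i j, x i = x j ↔ i = j := fun i j => hx.eq_iff
    obtain ⟨γ, hγ⟩ := hq.exists_norm_eq (a := -1) (by simp)
    obtain ⟨g, hg, e'⟩ := hB.exists_USG_nonisotropic (p := e o)
      (p' := e (x 0) + e (x 1) + γ • e (x 2)) (by rw [h.finrank_eq]; omega) (by simp [h.unit])
      (by simp [h.orth, hx']; linear_combination -hγ)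
    obtain ⟨π, hπ⟩ := exists_perm_of_mem_uMon (H hg)
    obtain ⟨c, hc⟩ := hπ o
    have e1 := congrArg (B · (e (x 0))) (e'.symm.trans hc)
    have e2 := congrArg (B · (e (x 1))) (e'.symm.trans hc)
    by_cases e3 : π o = x 0
    · simp [h.orth, hx', e3] at e2
    · simp [h.orth, hx', e3] at e1
  intro M hH hM h1
  have hu : ∀ a : uNormOne σ, (a.1 : F) * σ a.1 = 1 := fun a => a.2
  let ρ : uNormOne σ →* (V ≃ₗ[F] V) := MonoidHom.mk' (fun a => uRefl B (e o) (a.1 - 1))
    fun a b => (uRefl_unit_mul (h.unit o) a.1.ne_zero b.1.ne_zero).symm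
  have hρ : ∀ a, ρ a ∈ UG B ⊓ uMon F e := fun a => h.refl_mem o (hu a)
  have hρ' : ∀ a, LinearEquiv.det (ρ a) = a := fun a => Units.ext (det_uRefl_unit (h.unit o) (hu a))
  let N : Subgroup (V ≃ₗ[F] V) :=
    { carrier := {g | ∃ b, ∀ a, ρ a * g * (ρ a)⁻¹ * (ρ b)⁻¹ ∈ M}
      one_mem' := ⟨1, fun a => by simp⟩
      mul_mem' := fun {g k} ⟨b, hb⟩ ⟨b', hb'⟩ => ⟨b * b', fun a => by
        have e1 : ρ (b * b') * ρ a = ρ b' * (ρ b * ρ a) := by
          rw [mul_comm b, map_mul, mul_assoc]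
        convert mul_mem (hb a) (hb' (b * a)) using 1
        rw [mul_assoc _ (ρ a)⁻¹, ← mul_inv_rev, e1, map_mul]
        group⟩
      inv_mem' := fun {g} ⟨b, hb⟩ => ⟨b⁻¹, fun a => by
        convert inv_mem (hb (b⁻¹ * a)) using 1
        simp only [map_mul, map_inv]
        group⟩ }
  have h2 : ∀ g ∈ N, g ∈ USG B → g ∈ M := fun g ⟨b, hb⟩ hg => by
    have h2 := hb 1
    have h3 := (mem_USG.1 (hM h2)).2
    rw [map_mul, map_mul, map_mul, map_inv, map_inv, (mem_USG.1 hg).2, hρ', hρ'] at h3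
    obtain rfl : b = 1 := Subtype.ext (by simpa using h3)
    simpa using h2
  by_cases h3 : N ≤ uMon F e
  swap
  · exact fun g hg => h2 g (h.USG_le (N := N) (fun g hg => ⟨⟨_, hB.det_mem_uNormOne hg.1⟩, fun a =>
      hH (by
        have := mul_mem (mul_mem (mul_mem (hρ a) hg) (inv_mem (hρ a)))
          (inv_mem (hρ ⟨_, hB.det_mem_uNormOne hg.1⟩))
        exact ⟨mem_USG.2 ⟨this.1, by simp [hρ']⟩, this.2⟩)⟩) (fun g ⟨b, hb⟩ => by
      simpa using mul_mem (hM (hb 1)).1 (hρ b).1) hq (by omega) h3 hg) hg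
  have h4 : ∀ i, ∃ s ∈ USG B ⊓ uMon F e, ∃ c : F, s (e i) = c • e o ∧ c ≠ 0 := fun i => by
    by_cases hi : i = o
    · exact ⟨1, one_mem _, 1, by simp [hi], one_ne_zero⟩
    have h4 : (1 : F) * σ 1 = 1 := by simp
    exact ⟨_, u_mul_mem_of_det (h.swap_mem hi h4) (h.refl_mem i (a := -1) (by simp))
      (det_uRefl_two (h.swap_norm hi h4)) (det_uRefl_neg (h.unit i)), -1, by
      rw [LinearEquiv.mul_apply, (uRefl_unit (h.unit i) (by simp)).apply, h.swap_apply hi h4]
      simp [h.orth, hi]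
      module, by simp⟩
  have hS : ∀ m ∈ M, ∀ i j, ∀ c : F, m (e i) = c • e j → m ∈ uMon F e := fun m hm i j c e' => by
    obtain ⟨s, hs, a, ha, ha0⟩ := h4 i
    obtain ⟨s', hs', a', ha', -⟩ := h4 j
    have h5 := mul_mem (mul_mem (hH hs') hm) (inv_mem (hH hs))
    have h6 : (s' * m * s⁻¹) (e o) = (a⁻¹ * c * a') • e o := by
      rw [show e o = a⁻¹ • s (e i) by rw [ha, inv_smul_smul₀ ha0], map_smul,
        LinearEquiv.mul_apply, u_inv_apply, LinearEquiv.mul_apply, e', map_smul, ha', ha,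
        inv_smul_smul₀ ha0, smul_smul, smul_smul]
    have h7 := USG_map (hM h5) (e o) (e o)
    have h8 : s' * m * s⁻¹ ∈ N := ⟨1, fun b => by
      have e1 := mul_uRefl (hM h5).1 (e o) (b.1 - 1)
      rw [h6, uRefl_smul, show a⁻¹ * c * a' * σ (a⁻¹ * c * a') = 1 by
        simpa [h6, h.unit, -map_mul, mul_comm] using h7, mul_one] at e1
      rw [show ρ b * (s' * m * s⁻¹) = s' * m * s⁻¹ * ρ b from e1.symm]
      simpa using h5⟩
    simpa [mul_assoc] using mul_mem (mul_mem (inv_mem (Subgroup.mem_inf.1 hs').2) (h3 h8)) hs.2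
  exact absurd (fun g hg => h.mem_of_six hq h35 hn hH hM hS hg) h1

end UFrame

theorem UField.isMaximalIn_frame_six (hq : UField σ q) (h3 : 3 ≤ q)
    {D : Fin 6 → Submodule F (Fin n → F)}
    (hD : IsNondegenerateMDecomposition (hermForm n F q) 1 D) :
    IsMaximalIn (GU n F q ⊓ specialLinear (Fin n) F)
      (decompositionStabilizer D ⊓ (GU n F q ⊓ specialLinear (Fin n) F)) := by
  have := hq.finite
  obtain ⟨e, h, rfl⟩ := (hq.uDec hD).exists_uFrame
  exact hq.isMaximalIn (H := uMon F e) (fun _ _ => Iff.rfl) (h.uMax_six hq h3 (by simp))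

end Cfsg.Agent.Cl
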