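import Mathlib
import Cfsg.Agent.Cl.MaxSUFrameD

/-!
# Maximality of the monomial group in `SU_4(q)`, `q ≠ 3`
-/

set_option autoImplicit false

namespace Cfsg.Agent.Cl

open Module Cfsg.Geo

variable {F : Type*} [Field F] {σ : F →+* F} {V : Type*} [AddCommGroup V] [Module F V]
  {B : V →ₗ[F] V →ₛₗ[σ] F} {q n : ℕ} {M N : Subgroup (V ≃ₗ[F] V)}
  {e : Fin 4 → V} [FiniteDimensional F V]

namespace UFrame

section Full

variable (h : UFrame B e) (hN : UG B ⊓ uMon F e ≤ N) (hN' : N ≤ UG B)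
include h hN hN'

theorem exists_deg_four (hq : UField σ q) {g : V ≃ₗ[F] V} (hg : g ∈ N) (hg' : g ∉ uMon F e) :
    ∃ v, (B v v = 1 ∧ ∀ a, a * σ a = 1 → uRefl B v (a - 1) ∈ N) ∧ ∃ k ∈ N, ∃ u, u ≠ 0 ∧
      B u u = 0 ∧ B v u = 0 ∧ k v = v + u := by
  have hB := h.herm
  let X : Set V := {v | B v v = 1 ∧ ∀ a, a * σ a = 1 → uRefl B v (a - 1) ∈ N}
  have hX : ∀ v ∈ X, ∀ g ∈ N, g v ∈ X := fun v hv g hg => ⟨by rw [UG_map (hN' hg), hv.1],
    fun a ha => uRefl_conj (hN' hg) v _ ▸ mul_mem (mul_mem hg (hv.2 a ha)) (inv_mem hg)⟩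
  obtain ⟨i, hi⟩ := h.exists_two_le hg'
  obtain ⟨v, hv, hmax⟩ := Set.Finite.exists_maximalFor' (fun v => (uSupp B e v).card) X
    ((Set.finite_Iic (Fintype.card (Fin 4))).subset (by
      rintro _ ⟨v, -, rfl⟩; exact Finset.card_le_univ _))
    ⟨_, hX _ ⟨h.unit i, fun a ha => hN (h.refl_mem i ha)⟩ g hg⟩
  refine ⟨v, hv, ?_⟩
  by_cases h4 : ∀ i, B v (e i) ≠ 0
  · obtain ⟨t, t', ht, ht', u, h4, h5, h6, -, h7⟩ := h.exists_degenerate hq (i := 0) (j := 1)
      (k := 2) (l := 3) (by decide) (by decide) (by decide) (by decide) (by decide) (by decide)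
      (h4 _) (h4 _) (h4 _) (h4 _)
    exact ⟨_, mul_mem (hN (h.swap_mem (by decide) ht)) (hN (h.swap_mem (by decide) ht')), u, h4,
      h5, h6, h7⟩
  push Not at h4
  obtain ⟨l, hl⟩ := h4
  have h2 : 2 ≤ (uSupp B e v).card := by
    by_contra h2
    have := hmax (hX _ ⟨h.unit i, fun a ha => hN (h.refl_mem i ha)⟩ g hg) (by simp only; omega)
    simp only at this
    omega
  obtain ⟨a, ha, ha'⟩ := hB.exists_norm_one_ne
  have key : ∀ v' ∈ X, σ (B v v') = B v v' → B v v' ≠ 0 →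
      (∀ m, B v' (e m) = B v (e m) ∨ B v' (e m) = 0 ∨ B v (e m) = 0) →
      ∀ l, B v (e l) = 0 → B v' (e l) = 0 := fun v' hv' h5 h6 h7 l hl => by
    by_contra h8
    have h9 := hmax (hX v hv _ (hv'.2 a ha))
    have h10 : insert l (uSupp B e v) ⊆ uSupp B e (uRefl B v' (a - 1) v) := fun m hm => by
      rw [mem_uSupp, (uRefl_unit hv'.1 ha).apply, map_add, map_smul, LinearMap.add_apply,
        LinearMap.smul_apply, smul_eq_mul]
      have h11 : a - 1 ≠ 0 := sub_ne_zero.2 (by rintro rfl; simp at ha')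
      rcases Finset.mem_insert.1 hm with rfl | hm
      · simp [hl, h11, h6, h8]
      rw [mem_uSupp] at hm
      rcases h7 m with e | e | e
      · rw [e, ← one_add_mul]
        refine mul_ne_zero (fun e => ha' (mul_right_cancel₀ h6 ?_)) hm
        have := congrArg σ e
        rw [map_add, map_one, map_mul, map_sub, map_one, h5, map_zero] at this
        linear_combination this - e
      · simpa [e]
      · exact absurd e hm
    have h11 := Finset.card_le_card h10
    rw [Finset.card_insert_of_notMem (by simpa)] at h11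
    have := h9 (by simp only; omega)
    simp only at this
    omega
  obtain ⟨j, hj, k, hk, hjk⟩ := Finset.one_lt_card.1 h2
  simp only [mem_uSupp] at hj hk
  have h1 : (1 : F) * σ 1 = 1 := by simp
  have step : ∀ {k l : Fin 4}, B v (e k) ≠ 0 → B v (e l) = 0 → k ≠ l ∧ ∀ w, B w (e k) = B v (e k) →
      B w (e l) = 0 → uRefl B (e k - (1 : F) • e l) (-1) w = w - B v (e k) • e k + B v (e k) • e l :=
    fun {k l} hk hl => by
      have hkl : k ≠ l := by rintro rfl; exact hk hl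
      refine ⟨hkl, fun w h2 h3 => ?_⟩
      rw [h.swap_apply hkl h1, one_smul, map_sub, h2, h3]
      module
  have one : ∀ k, B v (e k) ≠ 0 → B v (e k) * σ (B v (e k)) = 1 := fun k hk => by
    obtain ⟨hkl, e1⟩ := step hk hl
    have h5 := hX v hv _ (hN (h.swap_mem hkl h1))
    rw [e1 v rfl hl] at h5
    have h6 : B v (v - B v (e k) • e k + B v (e k) • e l) = 1 - B v (e k) * σ (B v (e k)) := by
      simp [hv.1, hl, mul_comm]
    by_contra h7
    have := key _ h5 (by rw [h6, map_sub, map_one, hB.norm_fixed])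
      (by rw [h6]; exact sub_ne_zero.2 (Ne.symm h7)) (fun m => by
        by_cases e1 : m = k
        · simp [e1, h.orth, hkl.symm]
        by_cases e2 : m = l
        · simp [e2, hl]
        · simp [h.orth, Ne.symm e1, Ne.symm e2]) l hl
    simp [h.orth, hkl, hl, hk] at this
  have h5 : ((uSupp B e v).card : F) = 1 := by
    rw [← hv.1, h.form_eq, ← Finset.sum_subset (Finset.subset_univ (uSupp B e v))
      (fun x _ hx => by simp [not_not.1 (mt mem_uSupp.2 hx)]), Finset.card_eq_sum_ones]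
    push_cast
    exact Finset.sum_congr rfl fun x hx => (one x (mem_uSupp.1 hx)).symm
  have h6 : (uSupp B e v).card < 4 := by
    simpa using Finset.card_lt_card (Finset.ssubset_univ_iff.2
      fun e' : uSupp B e v = _ => mem_uSupp.1 (e'.ge (Finset.mem_univ l)) hl)
  have h7 : (2 : F) = 0 := by
    interval_cases (uSupp B e v).card
    · exact absurd (by push_cast at h5; linear_combination h5) (one_ne_zero (α := F))
    · push_cast at h5; linear_combination h5
  have h8 : a - 1 ≠ 0 := sub_ne_zero.2 (by rintro rfl; simp at ha')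
  refine ⟨_, mul_mem (hN (h.refl_mem j ha)) (hN (h.refl_mem k ha)),
    ((a - 1) * B v (e j)) • e j + ((a - 1) * B v (e k)) • e k, fun e' => ?_, ?_, ?_, ?_⟩
  · simpa [h.orth, hjk.symm, h8, hj] using congrArg (B · (e j)) e'
  · simp only [map_add, map_smul, map_smulₛₗ, LinearMap.add_apply, LinearMap.smul_apply, h.orth,
      if_neg hjk, if_neg hjk.symm, if_true, smul_eq_mul, map_mul]
    linear_combination (a - 1) * σ (a - 1) * (one j hj + one k hk + h7)
  · simp only [map_add, map_smulₛₗ, smul_eq_mul, map_mul]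
    linear_combination σ (a - 1) * (one j hj + one k hk + h7)
  · rw [LinearEquiv.mul_apply, (uRefl_unit (h.unit j) ha).apply, (uRefl_unit (h.unit k) ha).apply]
    simp only [map_add, map_smul, LinearMap.add_apply, LinearMap.smul_apply, h.orth,
      if_neg hjk.symm]
    module

/-- A proper overgroup of the full monomial group contains `SU`. -/
theorem USG_le_four (hq : UField σ q) (H : ¬ N ≤ uMon F e) : USG B ≤ N := by
  have hB := h.herm
  obtain ⟨g, hg, hg'⟩ := SetLike.not_le_iff_exists.1 H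
  obtain ⟨v, ⟨h1, h2⟩, k, h8, u, h4, h5, h6, h7⟩ := h.exists_deg_four hN hN' hq hg hg'
  obtain ⟨a, ha, ha'⟩ := hB.exists_norm_one_ne
  have h9 : -(a - 1) • v ∈ uYadd hB N h5 := ⟨by simp [h6], a - 1, by
      simp only [map_smul, map_smulₛₗ, LinearMap.smul_apply, h1, map_neg, map_sub, map_one,
        smul_eq_mul]
      linear_combination ha, by
    rw [← hB.uRefl_mul_inv_eq_uEich h1 h5 h6 ha, ← h7, ← uRefl_conj (hN' h8)]
    exact mul_mem (mul_mem (mul_mem h8 (h2 a ha)) (inv_mem h8)) (inv_mem (h2 a ha))⟩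
  have h10 : v ∈ uYsub hB N h5 := fun c => (hq.addSubgroup_eq_top
    (A := (uYadd hB N h5).comap (LinearMap.toSpanSingleton F V v).toAddMonoidHom)
    (fun b hb c hc => by
      have := hB.uYadd_map' (hz := h5) hN' hc (h2 b hb) (uRefl_apply_of_perp _ (hB.eq_zero_symm h6))
      change uRefl B v (b - 1) (c • v) ∈ _ at this
      rw [map_smul, uRefl_apply_self (uRefl_unit h1 hb).ne_zero, h1, smul_smul] at this
      simpa [mul_comm] using this) h9
    (neg_ne_zero.2 (sub_ne_zero.2 (by rintro rfl; simp at ha')))).ge (AddSubgroup.mem_top c)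
  have hT := hB.uTv_of_uYsub h10 (hB.uYadd_of_uYsub h10) (by simp [h1])
  obtain ⟨k, hk, h11⟩ := UIrr.exists_ne_zero hB
    (fun U hU => h.small_irr hN U fun g hg _ => hU g hg) h4 h4
  have h12 : B (k u) (k u) = 0 := by rw [UG_map (hN' hk), h5]
  have hp := hB.uHypPair_smul h5 h12 fun e => h11 (hB.eq_zero_symm e)
  have h13 := (hT.map hN' hk).smul hB (B (k u) u)⁻¹
  generalize (B (k u) u)⁻¹ • k u = w at hp h13
  have h14 : B (v - B v w • u) (v - B v w • u) = 1 := by simp [h1, h5, h6, hB.eq_zero_symm h6]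
  have h15 : (F ∙ (v - B v w • u)) ≤ uPerp B (Submodule.span F {u, w}) :=
    (Submodule.span_singleton_le_iff_mem _ _).2 (mem_uPerp_span_pair.2
      ⟨by simp [h5, hB.eq_zero_symm h6], by simp [hp.pair', hB.symm]⟩)
  have h16 := hB.disjoint_span_pair hp.left hp.right hp.pair
  have h17 := hB.disjoint_sup h16 (hB.disjoint_span_singleton (h14 ▸ one_ne_zero)) h15
  obtain ⟨c, hc, hc'⟩ := hB.exists_trace_zero
  refine hB.USG_le_of_USub hq hN' (h.small_irr hN) h17 (by
    rw [hB.finrank_sup_of_perp h16 h15, hB.finrank_span_pair hp.left hp.right hp.pair,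
      finrank_span_singleton fun e => by simp [e] at h14])
    (hB.uSub_of_uEich hq hN' h17 (Submodule.mem_sup_left (Submodule.subset_span (by simp))) h5 hT
      (fun y hy h18 => ?_) (Submodule.mem_sup_left (Submodule.subset_span (by simp))) hp.right hc
      (h13 c (by simp [hc'])) (by simp [hp.pair]))
  obtain ⟨x, hx, y, hy', rfl⟩ := Submodule.mem_sup.1 hy
  obtain ⟨α, β, rfl⟩ := Submodule.mem_span_pair.1 hx
  obtain ⟨γ, rfl⟩ := Submodule.mem_span_singleton.1 hy'
  obtain rfl : β = 0 := by simpa [h5, h6, hp.pair'] using h18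
  have h19 := hB.self_mem_uYsub (M := N) h5
  simpa using hB.uYadd_of_uYsub (add_mem (Submodule.smul_mem _ α h19)
    (Submodule.smul_mem _ γ (sub_mem h10 (Submodule.smul_mem _ (B v w) h19))))

end Full

omit [FiniteDimensional F V] in
/-- The centre of a monomial homology or elation. -/
theorem supp_of_mem_uMon (h : UFrame B e) {d : V ≃ₗ[F] V} (hd : d ∈ uMon F e) {φ : V} {z γ : F}
    (hz : z ≠ 0) (hγ : γ ≠ 0) (H : ∀ x, d x = z • (x + (γ * B x φ) • φ)) {k l : Fin 4} (hkl : k ≠ l)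
    (hk : B φ (e k) ≠ 0) (hl : B φ (e l) ≠ 0) : 1 + γ * (B φ (e k) * σ (B φ (e k))) = 0 ∧
      ∀ m, m ≠ k → m ≠ l → B φ (e m) = 0 := by
  obtain ⟨π, hπ⟩ := exists_perm_of_mem_uMon hd
  obtain ⟨c, hc⟩ := hπ k
  have h1 := fun m => congrArg (B · (e m)) ((H _).symm.trans hc)
  simp only [map_add, map_smul, LinearMap.add_apply, LinearMap.smul_apply, h.orth, smul_eq_mul,
    ← h.herm.symm φ] at h1
  have h2 : ∀ m, m ≠ k → B φ (e m) ≠ 0 → π k = m := fun m h2 h3 => by
    by_contra h4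
    simpa [h2.symm, h4, hz, hγ, hk, h3] using h1 m
  refine ⟨?_, fun m h3 h4 => by_contra fun h5 => h4 ((h2 m h3 h5).symm.trans (h2 l hkl.symm hl))⟩
  have := h1 k
  rw [h2 l hkl.symm hl, if_pos rfl, if_neg hkl.symm, mul_zero, mul_eq_zero] at this
  linear_combination this.resolve_left hz

variable (h : UFrame B e) (hq : UField σ q) (hH : USG B ⊓ uMon F e ≤ M) (hM : M ≤ USG B)
  (hS : ∀ m ∈ M, ∀ i j, ∀ c : F, m (e i) = c • e j → m ∈ uMon F e)
  {z : Fˣ} (hz : z ∈ uNormOne σ) {a : F} (hza : (z : F) ^ 4 = a)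

omit [FiniteDimensional F V] in
theorem _root_.Cfsg.Agent.Cl.URefl.mul_uScalar_apply {φ : V} {γ : F} (hφ : URefl B φ γ) (x : V) :
    (uRefl B φ γ * uScalar F V z⁻¹) x = (z : F)⁻¹ • (x + (γ * B x φ) • φ) := by
  rw [← hφ.apply, ← map_smul, LinearEquiv.mul_apply, uScalar_apply, Units.val_inv_eq_inv_val]

include hM in
omit [FiniteDimensional F V] in
theorem _root_.Cfsg.Agent.Cl.u_conj_mul_uScalar {φ : V} {γ : F} {g : V ≃ₗ[F] V} (hg : g ∈ M)
    (H : uRefl B φ γ * uScalar F V z⁻¹ ∈ M) : uRefl B (g φ) γ * uScalar F V z⁻¹ ∈ M := by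
  rw [← uRefl_conj (hM hg).1]
  convert mul_mem (mul_mem hg H) (inv_mem hg) using 1
  rw [mul_assoc, uScalar_comm]
  group

include h hM hS

omit [FiniteDimensional F V] in
theorem supp_of_zero {φ : V} {γ : F} (hφ : URefl B φ γ) (hγ : γ ≠ 0)
    (H : uRefl B φ γ * uScalar F V z⁻¹ ∈ M) {o k l : Fin 4} (ho : B φ (e o) = 0) (hkl : k ≠ l)
    (hk : B φ (e k) ≠ 0) (hl : B φ (e l) ≠ 0) : 1 + γ * (B φ (e k) * σ (B φ (e k))) = 0 ∧
      ∀ m, m ≠ k → m ≠ l → B φ (e m) = 0 :=
  h.supp_of_mem_uMon (hS _ H o o (z : F)⁻¹ (by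
    rw [hφ.mul_uScalar_apply, h.herm.eq_zero_symm ho]; simp)) (inv_ne_zero z.ne_zero) hγ
    hφ.mul_uScalar_apply hkl hk hl

omit [FiniteDimensional F V] hM in
theorem exists_two_ne {g : V ≃ₗ[F] V} (hg : g ∈ M) (hg' : g ∉ uMon F e) (c : Fin 4) :
    ∃ k l, k ≠ l ∧ B (g (e c)) (e k) ≠ 0 ∧ B (g (e c)) (e l) ≠ 0 := by
  by_contra H
  obtain ⟨j, γ, e'⟩ := h.exists_eq_smul (x := g (e c)) c (by
    by_contra! H'
    obtain ⟨k, hk, l, hl, hkl⟩ := Finset.one_lt_card.1 H'
    exact H ⟨k, l, hkl, mem_uSupp.1 hk, mem_uSupp.1 hl⟩)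
  exact hg' (hS g hg c j γ e')

include hH hz hza

omit hM hS in
theorem refl_mem_four (o : Fin 4) : a * σ a = 1 ∧ uRefl B (e o) (a - 1) * uScalar F V z⁻¹ ∈ M := by
  subst hza
  exact ⟨pow_mem hz 4, by simpa using hH (h.refl_mul_mem o hz)⟩

include hq

theorem exists_uYadd_four (ha1 : a ≠ 1) {g : V ≃ₗ[F] V} (hg : g ∈ M)
    (H : ∀ k, B (g (e 0)) (e k) ≠ 0) : ∃ u, ∃ hu : B u u = 0, B (e 0) u = 0 ∧
      (1 - a) • e 0 ∈ uYadd h.herm M hu ∧ ∀ m, m ≠ 0 → B u (e m) ≠ 0 := by
  have hB := h.herm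
  obtain ⟨ha, h1⟩ := h.refl_mem_four hH hz hza 0
  obtain ⟨t, t', ht, ht', u, h4, h5, h6, -, h7⟩ := h.exists_degenerate hq (i := 0) (j := 1)
    (k := 2) (l := 3) (by decide) (by decide) (by decide) (by decide) (by decide) (by decide)
    (H _) (H _) (H _) (H _)
  have h8 := hH (u_mul_mem_of_det (h.swap_mem (by decide) ht) (h.swap_mem (by decide) ht')
    (det_uRefl_two (h.swap_norm (show (0 : Fin 4) ≠ 1 by decide) ht))
    (det_uRefl_two (h.swap_norm (show (2 : Fin 4) ≠ 3 by decide) ht')))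
  have h9 := mul_mem (u_conj_mul_uScalar hM (mul_mem (inv_mem hg) (mul_mem h8 hg)) h1) (inv_mem h1)
  have h10 : B (g⁻¹ u) (g⁻¹ u) = 0 := by rw [USG_map (hM (inv_mem hg)), h5]
  have h11 : B (e 0) (g⁻¹ u) = 0 := by rw [← USG_map (hM hg), u_apply_inv, h6]
  rw [LinearEquiv.mul_apply, LinearEquiv.mul_apply, h7, map_add, u_inv_apply, mul_inv_rev,
    mul_assoc, mul_inv_cancel_left, hB.uRefl_mul_inv_eq_uEich (h.unit 0) h10 h11 ha,
    neg_sub] at h9
  have h13 : g⁻¹ u ≠ 0 := by simpa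
  generalize g⁻¹ u = u' at h9 h10 h11 h13
  have h12 : (1 - a) • e 0 ∈ uYadd hB M h10 := ⟨by simp [h11], a - 1, by
    simp only [map_smul, map_smulₛₗ, LinearMap.smul_apply, h.unit, map_sub, map_one, smul_eq_mul]
    linear_combination ha, h9⟩
  exact ⟨_, h10, h11, h12, fun m hm e' => h.notMem_uYadd hS h10 h13 (hB.eq_zero_symm e') h11
    (by simp [h.orth, hm.symm]) (by simp [h.unit, sub_eq_zero, ha1.symm]) h12⟩

theorem mem_of_pow_ne (ha2 : a ^ 2 ≠ 1) {g : V ≃ₗ[F] V} (hg : g ∈ M) : g ∈ uMon F e := by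
  by_contra hg'
  have hB := h.herm
  obtain ⟨ha, h1⟩ := h.refl_mem_four hH hz hza 0
  have ha1 : a ≠ 1 := by rintro rfl; simp at ha2
  have ha3 : σ a ≠ a := fun e => ha2 (by rw [e] at ha; rw [pow_two, ha])
  have h0 := uRefl_unit (h.unit 0) ha
  obtain ⟨u, hu, h2, h3, h4⟩ := h.exists_uYadd_four hq hH hM hS hz hza ha1 hg fun o ho => by
    obtain ⟨k, l, hkl, hk, hl⟩ := h.exists_two_ne hS hg hg' 0
    have h2 := (h.supp_of_zero hM hS (h0.map (hM hg).1) (sub_ne_zero.2 ha1)
      (u_conj_mul_uScalar hM hg h1) ho hkl hk hl).1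
    have h3 := congrArg σ h2
    rw [map_add, map_one, map_mul, hB.norm_fixed, map_sub, map_one, map_zero] at h3
    exact ha3 (mul_right_cancel₀ (mul_ne_zero hk ((map_ne_zero σ).2 hk))
      (by linear_combination h3 - h2))
  have h5 := hB.uRefl_mem_of_uYadd (hB.uYadd_map (fun g hg => (hM hg).1) h3 h1
    (inv_ne_zero z.ne_zero) (by rw [h0.mul_uScalar_apply, hB.eq_zero_symm h2]; simp)) h3
  have h6 : σ (z : F)⁻¹ * (z : F)⁻¹ = 1 := by
    rw [map_inv₀, ← mul_inv, mul_comm, show (z : F) * σ z = 1 from hz, inv_one]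
  rw [h0.mul_uScalar_apply, smul_smul, h6, one_smul] at h5
  have key : ∀ c, uRefl B u c ∈ M → c + σ c = 0 → c ≠ 0 → False := fun c h5 h7 h8 =>
    h4 3 (by decide) ((h.supp_of_zero (z := 1) hM hS (uRefl_of_isotropic hu h7) h8
      (by simpa using h5) (hB.eq_zero_symm h2) (show 1 ≠ 2 by decide) (h4 1 (by decide))
      (h4 2 (by decide))).2 3 (by decide) (by decide))
  refine key _ h5 (by rw [map_sub, hB.symm, hB.symm]; ring) ?_
  simp only [map_add, map_smul, map_smulₛₗ, LinearMap.add_apply, LinearMap.smul_apply, h.unit,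
    smul_eq_mul, map_mul, map_sub, map_one, hB.invol]
  intro e'
  exact mul_ne_zero (mul_ne_zero (sub_ne_zero.2 ha1.symm) (sub_ne_zero.2
    (by rintro e; rw [← e, mul_one] at ha; exact ha1 ha : 1 ≠ σ a))) (sub_ne_zero.2 ha3.symm)
    (by linear_combination e')

omit hq hz hza in
theorem not_two_zero_four (c2 : (2 : F) ≠ 0) {b : F} (hb : b * σ b = 1) (hb' : b ^ 4 ≠ 1) {g : V ≃ₗ[F] V} (hg : g ∈ M)
    (hg' : g ∉ uMon F e) {c i j : Fin 4} (hij : i ≠ j) (hi : B (g (e c)) (e i) = 0)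
    (hj : B (g (e c)) (e j) = 0) : False := by
  have hB := h.herm
  obtain ⟨p, hp⟩ : ∃ p, B (g (e p)) (e i) ≠ 0 := by
    by_contra! H
    have := h.ext (g⁻¹ (e i)) fun a => by
      rw [LinearEquiv.coe_inv, ← UG_apply_right (hM hg).1, hB.eq_zero_symm (H a)]
    simpa [show e i = 0 by simpa using this] using h.unit i
  have key : ∀ b, b * σ b = 1 → b ^ 4 ≠ 1 → 1 + (b - 1) * B (g (e p)) (e i) * B (e i) (g (e p)) +
      (σ b - 1) * B (g (e p)) (e j) * B (e j) (g (e p)) = 0 := fun b hb hb' => by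
    have h2 := uRefl_mul_inv_apply (h.unit i) (h.unit j) (by simp [h.orth, hij.symm]) hb
    obtain ⟨π, hπ⟩ := exists_perm_of_mem_uMon (hS _ (mul_mem (mul_mem (inv_mem hg)
      (hH (h.d_mem i j hb))) hg) c c 1 (by
        rw [LinearEquiv.mul_apply, LinearEquiv.mul_apply, h2, hi, hj]
        simp))
    obtain ⟨γ, hγ⟩ := hπ p
    have h3 := congrArg g hγ
    rw [LinearEquiv.mul_apply _ g, LinearEquiv.mul_apply g⁻¹, u_apply_inv, h2, map_smul] at h3
    by_cases h4 : π p = p
    · exfalso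
      have h5 := fun m => congrArg (B · (e m)) h3
      simp only [h4, map_add, map_smul, LinearMap.add_apply, LinearMap.smul_apply, h.orth,
        smul_eq_mul] at h5
      have h6 := h5 i
      rw [if_pos rfl, if_neg hij.symm] at h6
      obtain rfl : γ = b := mul_right_cancel₀ hp (by linear_combination -h6)
      refine hg' (hS g hg p i _ (h.eq_smul fun m hm => by_contra fun h7 => hb' ?_))
      have h8 := h5 m
      rw [if_neg hm.symm] at h8
      split_ifs at h8 with h9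
      · subst h9
        have : σ γ = γ := mul_right_cancel₀ h7 (by linear_combination h8)
        rw [this] at hb
        linear_combination (γ ^ 2 + 1) * hb
      · obtain rfl : γ = 1 := mul_right_cancel₀ h7 (by linear_combination -h8)
        simp
    · simpa [USG_map (hM hg), h.orth, h4] using congrArg (B · (g (e p))) h3
  have h1 := key b hb hb'
  have h2 := key (-b) (by simpa) (by rwa [Even.neg_pow (by decide)])
  have h3 := key (σ b) (by rw [hB.invol, mul_comm, hb]) fun e' => hb' (by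
    rw [← hB.invol b, ← map_pow, e', map_one])
  have h4 := key (-σ b) (by rw [map_neg, hB.invol, neg_mul_neg, mul_comm, hb]) fun e' => hb' (by
    rw [← hB.invol b, ← map_pow, ← Even.neg_pow (by decide), e', map_one])
  rw [map_neg] at h2 h4
  rw [hB.invol] at h3 h4
  have h5 : b ^ 2 = σ b ^ 2 := mul_left_cancel₀ (mul_ne_zero (mul_ne_zero c2 hp)
    (mt hB.eq_zero_symm hp)) (by linear_combination b * (h1 - h2) - σ b * (h3 - h4))
  exact hb' (by linear_combination b ^ 2 * h5 + (b * σ b + 1) * hb)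

theorem mem_of_seven (h7 : q = 7) (ha : a = -1) {g : V ≃ₗ[F] V} (hg : g ∈ M) : g ∈ uMon F e := by
  by_contra hg'
  subst h7 ha
  have hB := h.herm
  have c7 : (7 : F) = 0 := by simpa using hq.cast_eq_zero
  have c2 : (2 : F) ≠ 0 := fun e => one_ne_zero (α := F) (by linear_combination c7 - 3 * e)
  have c2' : (-1 : F) - 1 ≠ 0 := fun e => c2 (by linear_combination -e)
  have ha1 : (-1 : F) ≠ 1 := fun e => c2 (by linear_combination -e)
  have hr := fun o => h.refl_mem_four hH hz hza o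
  have h0 := fun o => uRefl_unit (h.unit o) (hr o).1
  have full : ∀ g ∈ M, g ∉ uMon F e → ∀ c o, B (g (e c)) (e o) ≠ 0 := fun g hg hg' c o ho => by
    obtain ⟨k, l, hkl, hk, hl⟩ := h.exists_two_ne hS hg hg' c
    obtain ⟨m, h1, h2, h3⟩ : ∃ m, m ≠ k ∧ m ≠ l ∧ o ≠ m := by
      clear * -; revert k l o; decide
    exact h.not_two_zero_four hH hM hS c2 hz (by rw [hza]; exact ha1) hg hg' h3 ho
      ((h.supp_of_zero hM hS ((h0 c).map (hM hg).1) c2' (u_conj_mul_uScalar hM hg (hr c).2) ho hkl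
        hk hl).2 m h1 h2)
  obtain ⟨u, hu, h1, h2, h3⟩ := h.exists_uYadd_four hq hH hM hS hz hza ha1 hg (full g hg hg' 0)
  have h4 : ∀ k : ℕ, ∃ m ∈ M, m (e 0) = e 0 + (k : F) • u := fun k => by
    obtain ⟨h4, s, -, h5⟩ := nsmul_mem h2 (4 * k)
    refine ⟨_, h5, ?_⟩
    rw [(hB.uEich0 hu h4).apply_of_perp _ h1, ← Nat.cast_smul_eq_nsmul F]
    simp only [map_smulₛₗ, h.unit, map_natCast, map_sub, map_neg, map_one, smul_eq_mul]
    congr 2
    push_cast
    linear_combination (k : F) * c7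
  have h5 : ∀ m ∈ M, (∀ k, B (m (e 0)) (e k) ≠ 0) → ∀ φ γ, URefl B φ γ → γ ≠ 0 →
      uRefl B φ γ * uScalar F V z⁻¹ ∈ M → ∀ i k l, B φ (e k) = 0 → B φ (e l) = 0 → k ≠ l →
      B φ (m (e 0)) ≠ 0 → B φ (e i) = 2 * B φ (m (e 0)) * B (m (e 0)) (e i) →
      ∀ j, j ≠ k → j ≠ l → B φ (e j) = 2 * B φ (m (e 0)) * B (m (e 0)) (e j) :=
    fun m hm H φ γ h5 h6 h8 i k l hk hl hkl h9 hi j hjk hjl => by
      have h10 := u_conj_mul_uScalar hM hm (hr 0).2
      have h11 : ∀ j, B ((uRefl B (m (e 0)) (-1 - 1) * uScalar F V z⁻¹) φ) (e j) =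
          (z : F)⁻¹ * (B φ (e j) - 2 * B φ (m (e 0)) * B (m (e 0)) (e j)) := fun j => by
        rw [((h0 0).map (hM hm).1).mul_uScalar_apply]
        simp only [map_add, map_smul, LinearMap.add_apply, LinearMap.smul_apply, smul_eq_mul]
        ring
      have := (h.supp_of_zero hM hS (h5.map (hM h10).1) h6 (u_conj_mul_uScalar hM h10 h8) (o := i)
        (by rw [h11, hi, sub_self, mul_zero]) hkl (by rw [h11]; simp [hk, c2, h9, H])
        (by rw [h11]; simp [hl, c2, h9, H])).2 j hjk hjl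
      rw [h11, mul_eq_zero, sub_eq_zero] at this
      exact this.resolve_left (inv_ne_zero z.ne_zero)
  have h6 : ∀ k : ℕ, (k : F) ≠ 0 → ∀ i, B (e 0 + (k : F) • u) (e i) ≠ 0 := fun k hk i => by
    by_cases hi : i = 0
    · simp [hi, h.unit, hB.eq_zero_symm h1]
    · simp [h.orth, Ne.symm hi, hk, h3 i hi]
  have h8 : ∀ k : ℕ, (k : F) ≠ 0 → ∀ i, i ≠ 0 →
      2 * (k : F) ^ 2 * (B u (e i) * σ (B u (e i))) ≠ 1 := fun k hk i hi e' => by
    obtain ⟨m, hm, e1⟩ := h4 k
    obtain ⟨a, b, j, h9, h10, h11, h12, h13, h14⟩ : ∃ a b j, i ≠ a ∧ i ≠ b ∧ i ≠ j ∧ a ≠ b ∧ j ≠ a ∧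
        j ≠ b := by clear * -; revert i; decide
    have h15 := mt hB.eq_zero_symm (h6 k hk i)
    have := h5 m hm (e1 ▸ h6 k hk) _ _ (h0 i) c2' (hr i).2 i a b (by simp [h.orth, h9])
      (by simp [h.orth, h10]) h12 (e1 ▸ h15) (by
        rw [e1, ← hB.symm (e 0 + _)]
        simp only [map_add, map_smul, LinearMap.add_apply, LinearMap.smul_apply, h.orth,
          if_neg hi.symm, smul_eq_mul, map_mul, map_natCast, map_zero, if_true]
        linear_combination -e') j h13 h14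
    rw [e1, h.orth, if_neg h11] at this
    exact mul_ne_zero (mul_ne_zero c2 h15) (h6 k hk j) this.symm
  have c3 : (3 : F) ≠ 0 := fun e => one_ne_zero (α := F) (by linear_combination c7 - 2 * e)
  have h9 : ∀ i, i ≠ 0 → (B u (e i) * σ (B u (e i))) ^ 3 = -1 := fun i hi => by
    have h9 := (hq.fixed_iff (mul_ne_zero (h3 i hi) ((map_ne_zero σ).2 (h3 i hi)))).1
      (hB.norm_fixed _)
    have e1 := h8 1 (by simp) i hi
    have e2 := h8 2 (by simpa) i hi
    have e3 := h8 3 (by simpa) i hi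
    generalize B u (e i) * σ (B u (e i)) = x at h9 e1 e2 e3
    push_cast at e1 e2 e3
    refine mul_left_cancel₀ (mul_ne_zero (mul_ne_zero (a := x - 1) (b := x - 2) (fun e => e2 ?_)
      fun e => e3 ?_) fun e : x - 4 = 0 => e1 ?_) ?_
    · linear_combination 8 * e + c7
    · linear_combination 18 * e + 5 * c7
    · linear_combination 2 * e + c7
    · linear_combination h9 - (x ^ 3 + 1) * (x - 1) ^ 2 * c7
  have fin : ∀ k : ℕ, (k : F) ≠ 0 → ∀ i j l, i ≠ 0 → j ≠ 0 → l ≠ 0 → i ≠ j → i ≠ l → j ≠ l →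
      (k : F) ^ 2 * (B u (e i) * σ (B u (e i))) = 3 →
      (k : F) ^ 2 * (B u (e j) * σ (B u (e j))) = 5 → False :=
    fun k hk i j l hi hj hl hij hil hjl e1 e2 => by
      obtain ⟨m, hm, e3⟩ := h4 k
      obtain ⟨t, ht⟩ : ∃ t, t * ((k : F) ^ 2 * σ (B u (e j)) * B u (e i)) = -1 :=
        ⟨-_⁻¹, by rw [neg_mul, inv_mul_cancel₀ (by simp [hk, h3 i hi, h3 j hj])]⟩
      have ht' := congrArg σ ht
      simp only [map_mul, map_pow, map_natCast, hB.invol, map_neg, map_one] at ht'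
      have h10 : t * σ t = 1 := by
        linear_combination σ t * (k : F) ^ 2 * B u (e j) * σ (B u (e i)) * ht - ht' -
          t * σ t * ((k : F) ^ 2 * (B u (e j) * σ (B u (e j))) * e1 + 3 * e2 + 2 * c7)
      have h11 := h.swap_mem hij h10
      have h12 : B (e i - t • e j) (e 0 + (k : F) • u) =
          k * (σ (B u (e i)) - t * σ (B u (e j))) := by
        simp [h.orth, hi, hj, hB.symm]; ring
      have := h5 m hm (e3 ▸ h6 k hk) _ _ (uRefl_two (h.swap_norm hij h10)) (by simp)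
        (hH ⟨mem_USG.2 ⟨mul_mem h11.1 (uScalar_mem_UG (inv_mem hz)), by
          rw [map_mul, det_uScalar, h.finrank_eq, det_uRefl_two (h.swap_norm hij h10),
            Fintype.card_fin, inv_pow, mul_inv_eq_one, ← Units.val_inj]
          simp [hza]⟩, mul_mem h11.2 (h.mem_uMon fun i => ⟨i, _, rfl⟩)⟩) i 0 l
        (by simp [h.orth, hi, hj]) (by simp [h.orth, hil, hjl]) hl.symm (by
          rw [e3, h12]
          intro e'
          exact c2 (by linear_combination 4 * k * B u (e i) * e' - 4 * e1 + 4 * ht - 2 * c7)) (by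
          rw [e3, h12]
          simp only [map_add, map_sub, map_smul, LinearMap.add_apply, LinearMap.sub_apply,
            LinearMap.smul_apply, h.orth, if_neg hi.symm, if_neg hij.symm, smul_eq_mul, if_true]
          linear_combination -2 * e1 + 2 * ht - c7) j hj hjl
      rw [e3, h12] at this
      simp only [map_add, map_sub, map_smul, LinearMap.add_apply, LinearMap.sub_apply,
        LinearMap.smul_apply, h.orth, if_neg hj.symm, if_neg hij, smul_eq_mul, if_true] at this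
      exact one_ne_zero (α := F) (by
        linear_combination 2 * σ t * this + 4 * ht' - 4 * t * σ t * e2 - 18 * h10 - 3 * c7)
  have h10 := h.form_eq u u
  rw [hu, Fin.sum_univ_four, hB.eq_zero_symm h1, zero_mul, zero_add] at h10
  have a1 := h9 1 (by decide)
  have a2 := h9 2 (by decide)
  have a3 := h9 3 (by decide)
  have f1 := fun k hk => fin k hk 1 2 3 (by decide) (by decide) (by decide) (by decide) (by decide)
    (by decide)
  have f2 := fun k hk => fin k hk 1 3 2 (by decide) (by decide) (by decide) (by decide) (by decide)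
    (by decide)
  generalize B u (e 1) * σ (B u (e 1)) = x at *
  generalize B u (e 2) * σ (B u (e 2)) = y at *
  generalize B u (e 3) * σ (B u (e 3)) = w at *
  obtain ⟨k, hk, e1⟩ : ∃ k : ℕ, (k : F) ≠ 0 ∧ (k : F) ^ 2 * x = 3 := by
    rcases mul_eq_zero.1 (show (x - 3) * (x - 5) * (x - 6) = 0 by
      linear_combination a1 - (2 * x ^ 2 - 9 * x + 13) * c7) with e | e
    · rcases mul_eq_zero.1 e with e | e
      · exact ⟨1, by simp, by push_cast; linear_combination e⟩
      · exact ⟨3, by simpa, by push_cast; linear_combination 9 * e + 6 * c7⟩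
    · exact ⟨2, by simpa, by push_cast; linear_combination 4 * e + 3 * c7⟩
  rcases mul_eq_zero.1 (show (y - x) * ((y - 2 * x) * (y - 4 * x)) = 0 by
    linear_combination a2 - a1 - x * (y - x) ^ 2 * c7) with e | e
  · rw [show w = -2 * x by linear_combination -h10 - e] at a3
    exact c2 (by linear_combination a3 + 8 * a1 - c7)
  rcases mul_eq_zero.1 e with e | e
  · exact f2 k hk e1 (by linear_combination -(k : F) ^ 2 * (h10 + e) - 3 * e1 - 2 * c7)
  · exact f1 k hk e1 (by linear_combination (k : F) ^ 2 * e + 4 * e1 + c7)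

omit hz hza in
theorem mem_of_four (h3 : q ≠ 3) {g : V ≃ₗ[F] V} (hg : g ∈ M) : g ∈ uMon F e := by
  have := hq.finite
  by_cases H : q + 1 ∣ 8
  · have h1 := hq.two_le
    have h2 := Nat.le_of_dvd (by decide) H
    obtain rfl : q = 7 := by
      obtain h4 : q ≤ 7 := by omega
      interval_cases q <;> omega
    obtain ⟨z, hz, hz'⟩ := u_exists_pow_ne_one (P := fun a : F => a * σ a = 1) (n := 4) (by omega)
      (by rw [hq.card_norm_eq one_ne_zero (map_one σ)]; omega)
    refine h.mem_of_seven hq hH hM hS (z := Units.mk0 z (left_ne_zero_of_mul_eq_one hz)) hz rfl rfl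
      (mul_left_cancel₀ (sub_ne_zero.2 hz') ?_) hg
    rw [hq.pow] at hz
    rw [Units.val_mk0]
    linear_combination hz
  rw [← hq.card_uNormOne, ← IsCyclic.exponent_eq_card, Monoid.exponent_dvd_iff_forall_pow_eq_one,
    not_forall] at H
  obtain ⟨⟨z, hz⟩, H⟩ := H
  exact h.mem_of_pow_ne hq hH hM hS hz rfl (fun e' => H (Subtype.ext (Units.ext (by
    rw [← pow_mul] at e'; exact e')))) hg

omit hH hM hS hz hza in
/-- The monomial group is maximal in `SU_4(q)`, `q ≠ 3`. -/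
theorem uMax_four (h35 : q ≠ 3) : UMax B (uMon F e) := by
  have hB := h.herm
  have := hq.finite
  obtain ⟨o⟩ : Nonempty (Fin 4) := inferInstance
  constructor
  · intro H
    obtain ⟨x, hx, -⟩ := u_exists_seq (m := 3) (by simp) o
    have hx' : ∀ i j, x i = x j ↔ i = j := fun i j => hx.eq_iff
    obtain ⟨γ, hγ⟩ := hq.exists_norm_eq (a := -1) (by simp)
    obtain ⟨g, hg, e'⟩ := hB.exists_USG_nonisotropic (p := e o)
      (p' := e (x 0) + e (x 1) + γ • e (x 2)) (by rw [h.finrank_eq]; simp) (by simp [h.unit])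
      (by simp [h.orth, hx']; linear_combination -hγ)
    obtain ⟨π, hπ⟩ := exists_perm_of_mem_uMon (H hg)
    obtain ⟨c, hc⟩ := hπ o
    have e1 := congrArg (B · (e (x 0))) (e'.symm.trans hc)
    have e2 := congrArg (B · (e (x 1))) (e'.symm.trans hc)
    by_cases e3 : π o = x 0
    · simp [h.orth, hx', e3] at e2
    · simp [h.orth, hx', e3] at e1
  intro M hH hM h1
  have hu : ∀ a : uNormOne σ, (a.1 : F) * σ a.1 = 1 := fun a => a.2
  let ρ : uNormOne σ →* (V ≃ₗ[F] V) := MonoidHom.mk' (fun a => uRefl B (e o) (a.1 - 1))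
    fun a b => (uRefl_unit_mul (h.unit o) a.1.ne_zero b.1.ne_zero).symm
  have hρ : ∀ a, ρ a ∈ UG B ⊓ uMon F e := fun a => h.refl_mem o (hu a)
  have hρ' : ∀ a, LinearEquiv.det (ρ a) = a := fun a => Units.ext (det_uRefl_unit (h.unit o) (hu a))
  let N : Subgroup (V ≃ₗ[F] V) :=
    { carrier := {g | ∃ b, ∀ a, ρ a * g * (ρ a)⁻¹ * (ρ b)⁻¹ ∈ M}
      one_mem' := ⟨1, fun a => by simp⟩
      mul_mem' := fun {g k} ⟨b, hb⟩ ⟨b', hb'⟩ => ⟨b * b', fun a => by
        have e1 : ρ (b * b') * ρ a = ρ b' * (ρ b * ρ a) := by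
          rw [mul_comm b, map_mul, mul_assoc]
        convert mul_mem (hb a) (hb' (b * a)) using 1
        rw [mul_assoc _ (ρ a)⁻¹, ← mul_inv_rev, e1, map_mul]
        group⟩
      inv_mem' := fun {g} ⟨b, hb⟩ => ⟨b⁻¹, fun a => by
        convert inv_mem (hb (b⁻¹ * a)) using 1
        simp only [map_mul, map_inv]
        group⟩ }
  have h2 : ∀ g ∈ N, g ∈ USG B → g ∈ M := fun g ⟨b, hb⟩ hg => by
    have h2 := hb 1
    have h3 := (mem_USG.1 (hM h2)).2
    rw [map_mul, map_mul, map_mul, map_inv, map_inv, (mem_USG.1 hg).2, hρ', hρ'] at h3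
    obtain rfl : b = 1 := Subtype.ext (by simpa using h3)
    simpa using h2
  by_cases h3 : N ≤ uMon F e
  swap
  · exact fun g hg => h2 g (h.USG_le_four (N := N) (fun g hg => ⟨⟨_, hB.det_mem_uNormOne hg.1⟩, fun a =>
      hH (by
        have := mul_mem (mul_mem (mul_mem (hρ a) hg) (inv_mem (hρ a)))
          (inv_mem (hρ ⟨_, hB.det_mem_uNormOne hg.1⟩))
        exact ⟨mem_USG.2 ⟨this.1, by simp [hρ']⟩, this.2⟩)⟩) (fun g ⟨b, hb⟩ => by
      simpa using mul_mem (hM (hb 1)).1 (hρ b).1) hq h3 hg) hg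
  have h4 : ∀ i, ∃ s ∈ USG B ⊓ uMon F e, ∃ c : F, s (e i) = c • e o ∧ c ≠ 0 := fun i => by
    by_cases hi : i = o
    · exact ⟨1, one_mem _, 1, by simp [hi], one_ne_zero⟩
    have h4 : (1 : F) * σ 1 = 1 := by simp
    exact ⟨_, u_mul_mem_of_det (h.swap_mem hi h4) (h.refl_mem i (a := -1) (by simp))
      (det_uRefl_two (h.swap_norm hi h4)) (det_uRefl_neg (h.unit i)), -1, by
      rw [LinearEquiv.mul_apply, (uRefl_unit (h.unit i) (by simp)).apply, h.swap_apply hi h4]
      simp [h.orth, hi]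
      module, by simp⟩
  have hS : ∀ m ∈ M, ∀ i j, ∀ c : F, m (e i) = c • e j → m ∈ uMon F e := fun m hm i j c e' => by
    obtain ⟨s, hs, a, ha, ha0⟩ := h4 i
    obtain ⟨s', hs', a', ha', -⟩ := h4 j
    have h5 := mul_mem (mul_mem (hH hs') hm) (inv_mem (hH hs))
    have h6 : (s' * m * s⁻¹) (e o) = (a⁻¹ * c * a') • e o := by
      rw [show e o = a⁻¹ • s (e i) by rw [ha, inv_smul_smul₀ ha0], map_smul,
        LinearEquiv.mul_apply, u_inv_apply, LinearEquiv.mul_apply, e', map_smul, ha', ha,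
        inv_smul_smul₀ ha0, smul_smul, smul_smul]
    have h7 := USG_map (hM h5) (e o) (e o)
    have h8 : s' * m * s⁻¹ ∈ N := ⟨1, fun b => by
      have e1 := mul_uRefl (hM h5).1 (e o) (b.1 - 1)
      rw [h6, uRefl_smul, show a⁻¹ * c * a' * σ (a⁻¹ * c * a') = 1 by
        simpa [h6, h.unit, -map_mul, mul_comm] using h7, mul_one] at e1
      rw [show ρ b * (s' * m * s⁻¹) = s' * m * s⁻¹ * ρ b from e1.symm]
      simpa using h5⟩
    simpa [mul_assoc] using mul_mem (mul_mem (inv_mem (Subgroup.mem_inf.1 hs').2) (h3 h8)) hs.2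
  exact absurd (fun g hg => h.mem_of_four hq hH hM hS h35 hg) h1

end UFrame

theorem UField.isMaximalIn_frame_four (hq : UField σ q) (h3 : q ≠ 3)
    {D : Fin 4 → Submodule F (Fin n → F)}
    (hD : IsNondegenerateMDecomposition (hermForm n F q) 1 D) :
    IsMaximalIn (GU n F q ⊓ specialLinear (Fin n) F)
      (decompositionStabilizer D ⊓ (GU n F q ⊓ specialLinear (Fin n) F)) := by
  have := hq.finite
  obtain ⟨e, h, rfl⟩ := (hq.uDec hD).exists_uFrame
  exact hq.isMaximalIn (H := uMon F e) (fun _ _ => Iff.rfl) (h.uMax_four hq h3)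

end Cfsg.Agent.Cl
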