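import Mathlib
import Cfsg.Agent.Cl.LowSUOrthA

/-!
# Maximality of the orthogonal subfield subgroups of `SU_4(q)`, `q ≥ 5` odd
-/

set_option autoImplicit false

namespace Cfsg.Agent.Cl

open Module Cfsg.Geo Matrix

variable {F : Type*} [Field F] {σ : F →+* F} {V : Type*} [AddCommGroup V] [Module F V]
  {B : V →ₗ[F] V →ₛₗ[σ] F} {q n : ℕ} {M : Subgroup (V ≃ₗ[F] V)} {V₀ : AddSubgroup V}

theorem u_re_im {κ a b : F} (h2 : (2 : F) ≠ 0) (h0 : κ ≠ 0) (hκ : σ κ = -κ) (ha : σ a = a)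
    (hb : σ b = b) (e : a + κ * b = 0) : a = 0 ∧ b = 0 := by
  have e' := congrArg σ e
  rw [map_add, map_mul, ha, hb, hκ, map_zero] at e'
  exact ⟨mul_left_cancel₀ h2 (by linear_combination e + e'),
    mul_left_cancel₀ (mul_ne_zero h2 h0) (by linear_combination e - e')⟩

namespace URat

variable [FiniteDimensional F V] (h : URat B (uFix σ) 1 V₀) (h2 : (2 : F) ≠ 0)
include h h2

theorem exists_torus {a b : V} (ha : a ∈ V₀) (hb : b ∈ V₀) (hp : UHypPair B a b) {l : F}
    (hl : σ l = l) (hl0 : l ≠ 0) : ∃ t ∈ USG B, (∀ x ∈ V₀, t x ∈ V₀) ∧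
      ∀ z, t z = z + ((l - 1) * B z b) • a + ((l⁻¹ - 1) * B z a) • b := by
  obtain ⟨h3, h4⟩ := h.uOR_swap h2 ha hb hp.left hp.right (by simp [hp.pair])
  obtain ⟨h5, h6⟩ := h.uOR_swap h2 ha (h.smul' hl hb) hp.left (by simp [hp.right])
    (by simp [hp.pair, hl0])
  refine ⟨_, h.herm.uOR_mul_mem h3 h5, fun x hx => h.uOR_map (sub_mem ha hb) h3
    (h.uOR_map (sub_mem ha (h.smul' hl hb)) h5 hx), fun z => ?_⟩
  rw [LinearEquiv.mul_apply, h4, h6]
  simp only [map_add, map_sub, map_smul, map_smulₛₗ, LinearMap.add_apply, LinearMap.sub_apply,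
    LinearMap.smul_apply, hp.left, hp.right, hp.pair, hp.pair', hl, smul_eq_mul]
  match_scalars <;> field_simp <;> ring

variable [Finite V] (hH : USG B ⊓ uRatStab F V₀ ≤ M) (hM : M ≤ USG B) (hD : URatD B M (uFix σ) V₀)
  {v : V} (hv : v ∈ V₀) (hv0 : v ≠ 0) (hv1 : B v v = 0) {g : V ≃ₗ[F] V} (hg : g ∈ M)
  (hc : B (g v) (g v) = 0)
include hH hM hv hv1 hg

omit [FiniteDimensional F V] in
theorem map_mem_uYadd {z : V} (hz : z ∈ V₀) (h3 : B z v = 0) : g z ∈ uYadd h.herm M hc := by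
  obtain ⟨-, s, hs, h4⟩ := (h.uRatB h2).mem_uYadd hH hv hz hv1 h3
  refine ⟨by rw [USG_map (hM hg), h3], s, by rwa [USG_map (hM hg)], ?_⟩
  rw [← (h.herm.uEich0 hv1 h3).conj (hM hg).1]
  exact mul_mem (mul_mem hg h4) (inv_mem hg)

include hD hv0

omit [FiniteDimensional F V] in
theorem exists_of_mem_uYadd {u : V} (hu : u ∈ uYadd h.herm M hc) :
    ∃ z ∈ V₀, B z v = 0 ∧ ∃ t : F, u = g z + t • g v := by
  have hB := h.herm
  obtain ⟨w, hw, hp⟩ := (h.uRatB h2).exists_partner' hv hv0 hv1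
  obtain ⟨h3, s, hs, h4⟩ := hu
  have h5 := (hM (inv_mem hg)).1
  have h6 : B (g⁻¹ u) v = 0 := by rw [← h3, ← UG_map h5 u, u_inv_apply]
  obtain ⟨z, hz, t, e⟩ := (h.uRatB h2).exists_of_uYadd hH hD hv hw hp (u := g⁻¹ u) ⟨h6, s, by
    rwa [UG_map h5], by
      have := mul_mem (mul_mem (inv_mem hg) h4) (inv_mem (inv_mem hg))
      rwa [(hB.uEich0 hc h3).conj h5, u_inv_apply] at this⟩
  refine ⟨z, hz, by simpa [e, hv1] using h6, t, ?_⟩
  rw [← map_smul, ← map_add, ← e]
  exact (g.apply_symm_apply u).symm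

omit [FiniteDimensional F V] in
theorem smul_mem_uYadd {u : V} (hu : u ∈ uYadd h.herm M hc) {k : F} (hk : σ k = k) :
    k • u ∈ uYadd h.herm M hc := by
  obtain ⟨z, hz, h3, t, rfl⟩ := h.exists_of_mem_uYadd h2 hH hM hD hv hv0 hv1 hg hc hu
  rw [smul_add, smul_smul, ← map_smul]
  exact add_mem (h.map_mem_uYadd h2 hH hM hv hv1 hg hc (h.smul' hk hz) (by simp [h3]))
    (h.herm.smul_self_mem_uYadd hc _)

omit [FiniteDimensional F V] in
theorem fix_of_mem_uYadd {u u' : V} (hu : u ∈ uYadd h.herm M hc) (hu' : u' ∈ uYadd h.herm M hc) :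
    σ (B u u') = B u u' := by
  obtain ⟨z, hz, h3, t, rfl⟩ := h.exists_of_mem_uYadd h2 hH hM hD hv hv0 hv1 hg hc hu
  obtain ⟨z', hz', h4, t', rfl⟩ := h.exists_of_mem_uYadd h2 hH hM hD hv hv0 hv1 hg hc hu'
  simp [USG_map (hM hg), h3, hv1, h.herm.eq_zero_symm h4, h.fix hz hz']

omit hD hv0 in
theorem exists_uYadd_ne (hr : ¬ URatPt F V₀ (g v)) {b : V} (hb : b ∈ V₀) (hb0 : b ≠ 0) :
    ∃ u ∈ uYadd h.herm M hc, B u b ≠ 0 := by
  obtain ⟨y, hy, h3, h4⟩ := h.exists_perp_one hv (x := g⁻¹ b) fun e => by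
    obtain ⟨a, ha⟩ := Submodule.mem_span_singleton.1 e
    have h3 : a • g v = b := by rw [← map_smul, ha]; exact g.apply_symm_apply b
    exact hr (uRatPt_of_smul_mem (by rintro rfl; exact hb0 (by simpa using h3.symm)) (h3 ▸ hb))
  refine ⟨g y, h.map_mem_uYadd h2 hH hM hv hv1 hg hc hy (h.herm.eq_zero_symm h3), fun e => h4 ?_⟩
  rw [← USG_map (hM hg), h.herm.eq_zero_symm]
  exact (g.apply_symm_apply b).symm ▸ e

variable (hq : UField σ q) (h5 : 5 ≤ q) (hn : finrank F V = 4)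
include hq h5 hn

omit hc in
/-- A non-rational point of the orbit is orthogonal to no rational isotropic point. -/
theorem not_perp (hg' : g ∉ uRatStab F V₀) {a : V} (ha : a ∈ V₀) (ha0 : a ≠ 0) (ha1 : B a a = 0) :
    B (g v) a ≠ 0 := fun h3 => by
  have hB := h.herm
  have h' := h.uRatB h2
  have hM' : M ≤ UG B := fun g hg => (hM hg).1
  have hc : B (g v) (g v) = 0 := by rw [USG_map (hM hg), hv1]
  have hr : ¬ URatPt F V₀ (g v) := fun e =>
    hg' (h'.mem_of_uRatPt hH hM hD (by omega) (h.tr_orth h2 (by omega)) hg hv hv0 hv1 e)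
  have key : ∀ a ∈ V₀, a ≠ 0 → B a a = 0 → B a (g v) = 0 → ∀ α : F, α • a ∈ uYadd hB M hc →
      ∃ s, s + σ s = 0 ∧ ∀ z ∈ V₀, (σ α * B z a + s * B z (g v)) • g v - (B z (g v) * α) • a ∈ V₀ :=
    fun a ha ha0 ha1 h3 α ⟨h4, s, hs, h6⟩ => ⟨s, by simpa [ha1] using hs, fun z hz => by
      convert sub_mem (h'.map_mem_of_fix' hH hM hD (by omega) h6 ha ha0 ha1 (by
        rw [(hB.uEich0 hc h4).apply_of_perp _ h3]; simp [ha1]) z hz) hz using 1
      rw [(hB.uEich0 hc h4).apply, map_smulₛₗ, smul_eq_mul]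
      module⟩
  obtain ⟨κ, hκ0, hκ⟩ := hB.exists_trace_zero
  obtain ⟨x, hx, y, hy, e⟩ := h.decomp (hB.exists_decomp (θ := κ) fun e =>
    hκ0 (mul_left_cancel₀ h2 (by linear_combination hκ - e))) (g v)
  obtain ⟨h6, h7⟩ := u_re_im h2 hκ0 hκ (h.fix hx ha) (h.fix hy ha) (by simpa [e] using h3)
  have hY := fun u hu k hk => h.smul_mem_uYadd h2 hH hM hD hv hv0 hv1 hg hc (u := u) hu (k := k) hk
  have hne := fun b => h.exists_uYadd_ne h2 hH hM hv hv1 hg hc hr (b := b)
  by_cases h8 : a ∈ Submodule.span F {x, y}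
  swap
  · obtain ⟨b, hb, h9, h10⟩ := h.exists_perp (h.perp_span (Set.toFinite _)
      (by rintro _ (rfl | rfl) <;> assumption)) h8
    obtain ⟨h11, h12⟩ := mem_uPerp_span_pair.1 h9
    obtain ⟨b', hb', hp, h13⟩ := h'.exists_partner ha hb ha1 h10
    have h14 : B (g v) b' = 0 := h13 _ h3 (by simp [e, h11, h12])
    obtain ⟨l, ⟨hl0, hl⟩, hl'⟩ := u_exists_pow_ne_one (P := fun a : F => a ≠ 0 ∧ σ a = a) (n := 2)
      two_pos (by rw [hq.card_fixed_ne_zero]; omega)
    obtain ⟨t, ht, h15, h16⟩ := h.exists_torus h2 ha hb' hp hl hl0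
    have h17 : ∀ u ∈ uYadd hB M hc, t u ∈ uYadd hB M hc := fun u hu =>
      hB.uYadd_map' hM' hu (hH ⟨ht, mem_uRatStab_of' h15⟩) (by simp [h16, h3, h14])
    obtain ⟨u, hu, h18⟩ := hne b' hb' hp.right_ne_zero
    have h19 := sub_mem (h17 u hu) hu
    obtain ⟨s, -, h20⟩ := key a ha ha0 ha1 (hB.eq_zero_symm h3) ((l - l⁻¹) * (l - 1) * B u b') (by
      convert sub_mem (h17 _ h19) (hY _ h19 l⁻¹ (by rw [map_inv₀, hl])) using 1
      simp only [h16, map_add, map_sub, map_smul, LinearMap.add_apply, LinearMap.sub_apply,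
        LinearMap.smul_apply, hp.left, hp.right, hp.pair, hp.pair', smul_eq_mul]
      match_scalars <;> ring)
    have := h20 b' hb'
    rw [hB.eq_zero_symm h14, hp.pair', mul_zero, zero_mul, zero_smul, add_zero, sub_zero,
      mul_one] at this
    refine hr (uRatPt_of_smul_mem ((map_ne_zero σ).2 (mul_ne_zero (mul_ne_zero (fun e => hl' ?_)
      fun e => hl' ?_) h18)) this)
    · field_simp at e
      linear_combination e
    · linear_combination (l + 1) * e
  have h9 : B x x = κ ^ 2 * B y y := by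
    rw [e] at hc
    simp only [map_add, map_smul, map_smulₛₗ, LinearMap.add_apply, LinearMap.smul_apply, hκ,
      h.comm hx hy, smul_eq_mul] at hc
    linear_combination hc
  obtain ⟨h10, h11⟩ : B y y = 0 ∧ B x y = 0 := by
    obtain ⟨α, β, rfl⟩ := Submodule.mem_span_pair.1 h8
    simp only [map_add, map_smulₛₗ, h9, h.comm hx hy, smul_eq_mul] at h6 h7
    have h10 : B y y = 0 := by
      by_contra h10
      have h11 : κ ^ 2 * B y y ^ 2 - B x y ^ 2 ≠ 0 := fun e' => u_sq_ne_of_trace h2 hκ0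
        (by rw [hκ, add_neg_cancel]) (B x y / B y y) (by rw [map_div₀, h.fix hx hy, hB.fixed])
        (by field_simp; linear_combination -e')
      obtain rfl : α = 0 := (map_eq_zero σ).1 (mul_right_cancel₀ h11
        (by linear_combination B y y * h6 - B x y * h7))
      obtain rfl : β = 0 := by simpa [h10] using h7
      simp at ha0
    refine ⟨h10, by_contra fun h11 => ha0 ?_⟩
    obtain rfl : α = 0 := by simpa [h10, h11] using h7
    obtain rfl : β = 0 := by simpa [h10, h11] using h6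
    simp
  rw [h10, mul_zero] at h9
  have h12 := hB.eq_zero_symm h11
  have hy0 : y ≠ 0 := by rintro rfl; exact hr (uRatPt_of_mem (by simpa [e] using hx))
  have h13 : x ∉ F ∙ y := fun e' => by
    obtain ⟨a, rfl⟩ := Submodule.mem_span_singleton.1 e'
    exact hr ⟨a + κ, y, hy, by rw [e, add_smul]⟩
  obtain ⟨u, hu, h14⟩ := hne y hy hy0
  have h15 : B u x = κ * B u y := by
    have := hu.1
    simp only [e, map_add, map_smulₛₗ, hκ, smul_eq_mul] at this
    linear_combination this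
  have h16 := hB.uEich0 h9 h12
  obtain ⟨s, hs, h17⟩ := key y hy hy0 h10 (by simp [e, h10, h12]) (2 * κ * B u y) (by
    convert sub_mem (add_mem (hB.smul_self_mem_uYadd hc (B u y)) hu) (hB.uYadd_map' hM' hu
      (h'.uEich_mem hH hx hy h9 h12 (zero_mem _) (by simp [h10])) (by
        simp [h16.apply, e, h9, h10, h11, h12])) using 1
    rw [h16.apply, h15, e]
    module)
  obtain ⟨z, hz, h18, h19⟩ := h.exists_perp_one hy h13
  obtain ⟨z', hz', h20, h21⟩ := h.exists_perp_one hx (x := y) fun e' => by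
    obtain ⟨a, rfl⟩ := Submodule.mem_span_singleton.1 e'
    exact hy0 (by simp [show a = 0 by simpa [h19] using h18])
  have h22 : 2 * κ * B u y ≠ 0 := mul_ne_zero (mul_ne_zero h2 hκ0) h14
  generalize 2 * κ * B u y = α at h17 h22
  have e1 := h.fix (h17 z hz) hz
  have e2 := h.fix (h17 z hz) hz'
  have e3 := h.fix (h17 z' hz') hz'
  simp only [e, map_add, map_sub, map_smul, map_smulₛₗ, LinearMap.add_apply, LinearMap.sub_apply,
    LinearMap.smul_apply, smul_eq_mul, h.comm hx hz, h.comm hy hz, h.comm hx hz', h.comm hy hz',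
    h18, h20, map_mul, h.fix hx hz, h.fix hy hz', hκ, hB.invol, map_neg, map_zero] at e1 e2 e3
  have e4 : s = 0 := mul_left_cancel₀ (mul_ne_zero h2 (pow_ne_zero 2 h19))
    (by linear_combination B x z ^ 2 * hs - e1)
  have e5 : σ α = α := mul_left_cancel₀ (mul_ne_zero h19 h21) (by
    rw [e4, map_zero] at e2; linear_combination -e2)
  rw [e4, e5, map_zero] at e3
  exact mul_ne_zero (mul_ne_zero (mul_ne_zero h2 h2) (mul_ne_zero h22 hκ0)) (pow_ne_zero 2 h21)
    (by linear_combination -e3)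

omit h2 hH hM hD hv hv0 hv1 hg hc hq h5 [Finite V] in
theorem exists_comb {p p' x y z : V} (hp : B p p ≠ 0) (hp' : B p' p' ≠ 0) (h3 : B p p' = 0)
    (hx : B x p = 0 ∧ B x p' = 0) (hy : B y p = 0 ∧ B y p' = 0) (hz : B z p = 0 ∧ B z p' = 0)
    (hy0 : y ≠ 0) (hxy : x ∉ F ∙ y) : ∃ a b : F, a • x + b • y = z := by
  have hB := h.herm
  have h4 : ∀ x, B x p = 0 ∧ B x p' = 0 → x ∈ uPerp B (Submodule.span F {p, p'}) := fun x hx =>
    mem_uPerp_span_pair.2 ⟨hB.eq_zero_symm hx.1, hB.eq_zero_symm hx.2⟩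
  refine u_mem_span_pair ?_ (h4 x hx) (h4 y hy) (h4 z hz) hy0 hxy
  have := u_two_le_finrank_span_pair (F := F) (x := p) (y := p') (by rintro rfl; simp at hp')
    fun e => by
      obtain ⟨a, rfl⟩ := Submodule.mem_span_singleton.1 e
      exact hp (by simp [show a = 0 by simpa [hp'] using h3])
  rw [hB.finrank_uPerp]
  omega

theorem mem_span_of_isotropic (hg' : g ∉ uRatStab F V₀) {p p' : V} (hp : p ∈ V₀) (hp' : p' ∈ V₀)
    (h0 : p ≠ 0) (h0' : p' ≠ 0) (h3 : B p p' = 0) (h4 : B (g v) p = 0) (h4' : B (g v) p' = 0)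
    {u : V} (hu : u ∈ uYadd h.herm M hc) (hu' : B u u = 0) : u ∈ F ∙ g v := by
  have hB := h.herm
  have an : ∀ a ∈ V₀, B (g v) a = 0 → B a a = 0 → a = 0 := fun a ha e e' => by_contra fun e'' =>
    h.not_perp h2 hH hM hD hv hv0 hv1 hg hq h5 hn hg' ha e'' e' e
  have h6 : B p p ≠ 0 := fun e => h0 (an p hp h4 e)
  have h7 : B p' p' ≠ 0 := fun e => h0' (an p' hp' h4' e)
  have h8 := hB.eq_zero_symm h3
  have h9 : B (p + p') (p + p') ≠ 0 := fun e => h6 (by
    simpa [h8] using congrArg (B · p) (an _ (add_mem hp hp') (by simp [h4, h4']) e))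
  have h10 : u - (B u p / B p p) • p - (B u p' / B p' p') • p' ∈ F ∙ g v := by
    by_contra h10
    refine (by simpa : g v ≠ 0) (hB.nondeg' _ fun t => ?_)
    obtain ⟨a, b, e⟩ := h.exists_comb hn h6 h7 h3 (by simp [h6, h7, h3, h8]) ⟨h4, h4'⟩
      (z := t - (B t p / B p p) • p - (B t p' / B p' p') • p') (by simp [h6, h7, h3, h8])
      (by simpa) h10
    simpa [hu.1, hc, hB.eq_zero_symm h4, hB.eq_zero_symm h4'] using (congrArg (B · (g v)) e).symm
  have h11 := h.fix_of_mem_uYadd h2 hH hM hD hv hv0 hv1 hg hc (hB.uYadd_map' (fun g hg => (hM hg).1)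
    hu (hH ⟨hB.uOR_mul_mem h6 h9, mem_uRatStab_of' fun x hx =>
      h.uOR_map hp h6 (h.uOR_map (add_mem hp hp') h9 hx)⟩) (by
        rw [LinearEquiv.mul_apply, uOR_apply_of_perp (p := p + p') (by simp [h4, h4']),
          uOR_apply_of_perp h4])) hu
  obtain ⟨γ, h12⟩ := Submodule.mem_span_singleton.1 h10
  have h13 := congrArg (B · u) h12
  rw [LinearEquiv.mul_apply, hB.uOR_apply h6, hB.uOR_apply h9] at h11
  simp only [map_add, map_sub, map_smul, LinearMap.add_apply, LinearMap.sub_apply,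
    LinearMap.smul_apply, smul_eq_mul, hu', hB.eq_zero_symm hu.1, h3, h8, ← hB.symm u, map_mul,
    map_div₀, hB.invol, hB.fixed, map_ofNat, map_zero, add_zero, zero_add] at h9 h11 h13
  have h14 : B u p' * σ (B u p) = σ (B u p') * B u p := by
    field_simp at h11
    exact mul_left_cancel₀ (mul_ne_zero (mul_ne_zero h2 h2) h6) (by linear_combination -h11)
  have h15 : B u p = 0 := by
    have := an ((B u p * σ (B u p) / B p p) • p + (B u p' * σ (B u p) / B p' p') • p')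
      (add_mem (h.smul' (by rw [map_div₀, hB.norm_fixed, hB.fixed]) hp)
        (h.smul' (by rw [map_div₀, map_mul, hB.invol, hB.fixed, h14]) hp')) (by simp [h4, h4']) (by
        simp only [map_add, map_smul, map_smulₛₗ, LinearMap.add_apply, LinearMap.smul_apply, h3, h8,
          smul_eq_mul, map_div₀, map_mul, hB.invol, hB.fixed]
        field_simp at h13 ⊢
        linear_combination σ (B u p) * B u p * h13)
    simpa [h6, h8] using congrArg (B · p) this
  have h16 : B u p' = 0 := by simpa [h15, h7] using h13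
  simpa [h15, h16] using h10

omit hg hc hD in
/-- The overgroups without transvections at rational points. -/
theorem le_of_D (hD : URatD B M (uFix σ) V₀) : M ≤ uRatStab F V₀ := fun g hg => by
  by_contra hg'
  have hB := h.herm
  have h' := h.uRatB h2
  have hc : B (g v) (g v) = 0 := by rw [USG_map (hM hg), hv1]
  have an : ∀ a ∈ V₀, B (g v) a = 0 → B a a = 0 → a = 0 := fun a ha e e' => by_contra fun e'' =>
    h.not_perp h2 hH hM hD hv hv0 hv1 hg hq h5 hn hg' ha e'' e' e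
  obtain ⟨κ, hκ0, hκ⟩ := hB.exists_trace_zero
  obtain ⟨x, hx, y, hy, e⟩ := h.decomp (hB.exists_decomp (θ := κ) fun e =>
    hκ0 (mul_left_cancel₀ h2 (by linear_combination hκ - e))) (g v)
  obtain ⟨p, hp, p0, h6⟩ := h.exists_perp_ne (s := {x, y}) (Set.toFinite _)
    (by rintro _ (rfl | rfl) <;> assumption) ((u_finrank_span_pair_le x y).trans_lt (by omega))
  obtain ⟨p', hp', p0', h7⟩ := h.exists_perp_ne (s := {p, x, y}) (Set.toFinite _)
    (by rintro _ (rfl | rfl | rfl) <;> assumption) ((u_finrank_span_insert_le p _).trans_lt (by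
      have := u_finrank_span_pair_le (F := F) x y; omega))
  simp only [Set.mem_insert_iff, Set.mem_singleton_iff, forall_eq_or_imp, forall_eq] at h6 h7
  obtain ⟨h6, h6'⟩ := h6
  obtain ⟨h3, h7, h7'⟩ := h7
  have h3' := hB.eq_zero_symm h3
  have h4 : B (g v) p = 0 := by simp [e, h6, h6']
  have h4' : B (g v) p' = 0 := by simp [e, h7, h7']
  have n1 : B p p ≠ 0 := fun e => p0 (an p hp h4 e)
  have n2 : B p' p' ≠ 0 := fun e => p0' (an p' hp' h4' e)
  have h8 : ∀ a ∈ V₀, B a v = 0 → B a a = 0 → a ∈ F ∙ v := fun a ha e1 e2 => by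
    obtain ⟨t, ht⟩ := Submodule.mem_span_singleton.1 (h.mem_span_of_isotropic h2 hH hM hD hv hv0
      hv1 hg hc hq h5 hn hg' hp hp' p0 p0' h3 h4 h4' (h.map_mem_uYadd h2 hH hM hv hv1 hg hc ha e1)
      (by rw [USG_map (hM hg), e2]))
    exact Submodule.mem_span_singleton.2 ⟨t, g.injective (by rw [map_smul, ht])⟩
  have h9 : ∀ k, σ k = k → k ^ 2 ≠ -(B p p * B p' p') := fun k hk e' => n1 (by
    simpa [h3, n2] using congrArg (B · p') (an (k • p + B p p • p')
      (add_mem (h.smul' hk hp) (h.smul' (hB.fixed p) hp')) (by simp [h4, h4']) (by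
        simp only [map_add, map_smul, map_smulₛₗ, LinearMap.add_apply, LinearMap.smul_apply, h3,
          h3', smul_eq_mul, hk, hB.fixed]
        linear_combination B p p * e')))
  have h9' : σ (-(B p p * B p' p')) = -(B p p * B p' p') := by
    rw [map_neg, map_mul, hB.fixed, hB.fixed]
  have plane : ∀ n, σ n = n → ∃ w ∈ V₀, ∃ w' ∈ V₀, B w w = n ∧ B w' w' = B p p * B p' p' * n ∧
      B w w' = 0 ∧ B w' w = 0 ∧ ∀ z, B z p = 0 → B z p' = 0 →
        B z w = 0 ∧ B z w' = 0 ∧ B w z = 0 ∧ B w' z = 0 := fun n hn => by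
    obtain ⟨a, b, ha, hb, e⟩ := hq.exists_sq_add_sq h2 (hB.fixed p) (hB.fixed p') hn n1 n2
    refine ⟨a • p + b • p', add_mem (h.smul' ha hp) (h.smul' hb hp'),
      (a * B p p) • p' - (b * B p' p') • p, sub_mem (h.smul' (by rw [map_mul, ha, hB.fixed]) hp')
        (h.smul' (by rw [map_mul, hb, hB.fixed]) hp), ?_, ?_, ?_, ?_, fun z h1 h2 => by
          simp [h1, h2, hB.eq_zero_symm h1, hB.eq_zero_symm h2]⟩
    all_goals simp only [map_add, map_sub, map_smul, map_smulₛₗ, LinearMap.add_apply,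
      LinearMap.sub_apply, LinearMap.smul_apply, h3, h3', smul_eq_mul, ha, hb, map_mul, hB.fixed]
    · linear_combination e
    · linear_combination B p p * B p' p' * e
    · ring
    · ring
  obtain ⟨a, ha, a0, a1, a2, a3⟩ : ∃ a ∈ V₀, a ≠ 0 ∧ B a a = 0 ∧ B a p = 0 ∧ B a p' = 0 := by
    by_contra! H
    have H' : ∀ a ∈ V₀, B a p = 0 → B a p' = 0 → B a a = 0 → a = 0 := fun a ha e1 e2 e3 =>
      by_contra fun e => H a ha e e3 e1 e2
    have hr : ¬ URatPt F V₀ (g v) := fun e =>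
      hg' (h'.mem_of_uRatPt hH hM hD (by omega) (h.tr_orth h2 (by omega)) hg hv hv0 hv1 e)
    have m1 : B y y ≠ 0 := fun e' => hr (uRatPt_of_mem (by simpa [e, H' y hy h6' h7' e'] using hx))
    obtain ⟨x', hx', m2, m3, m4, m5⟩ : ∃ x' ∈ V₀, B x' x' ≠ 0 ∧ B x' y = 0 ∧ B x' p = 0 ∧
        B x' p' = 0 := by
      have h10 := sub_mem hx (h.smul' (c := B x y / B y y)
        (by rw [map_div₀, h.fix hx hy, hB.fixed]) hy)
      refine ⟨_, h10, fun e' => hr ⟨B x y / B y y + κ, y, hy, ?_⟩, by simp [m1],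
        by simp [h6, h6'], by simp [h7, h7']⟩
      rw [e, add_smul, ← sub_eq_zero.1 (H' _ h10 (by simp [h6, h6']) (by simp [h7, h7']) e')]
    have m3' := hB.eq_zero_symm m3
    obtain ⟨k, hk, -, m6⟩ := hq.exists_sq_mul (a := -(B y y * B x' x'))
      (by rw [map_neg, map_mul, hB.fixed, hB.fixed]) h9' (fun k hk e' => m1 (by
        simpa [m3', m2] using congrArg (B · x') (H' (k • y + B y y • x')
          (add_mem (h.smul' hk hy) (h.smul' (hB.fixed y) hx')) (by simp [h6', m4])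
          (by simp [h7', m5]) (by
            simp only [map_add, map_smul, map_smulₛₗ, LinearMap.add_apply, LinearMap.smul_apply,
              m3, m3', smul_eq_mul, hk, hB.fixed]
            linear_combination B y y * e')))) h9
    obtain ⟨w, hw, w', hw', w1, w2, w3, w4, w5⟩ := plane (-B y y) (by rw [map_neg, hB.fixed])
    obtain ⟨y1, y2, y3, y4⟩ := w5 y h6' h7'
    obtain ⟨x1, x2, x3, x4⟩ := w5 x' m4 m5
    obtain ⟨t, ht, t1, t2⟩ := h.tr_orth h2 (by omega) _ (add_mem hy hw) v hv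
      (fun e => m1 (by simpa [y3] using congrArg (B · y) e)) hv0 (by simp [y1, y3, w1]) hv1
    obtain ⟨b, hb⟩ := Submodule.mem_span_singleton.1 (h8 _ (t1 _ (add_mem
      (h.smul' (hB.fixed y) hx') (h.smul' hk hw'))) (by
        rw [← t2, USG_map ht]; simp [m3, x1, y4, w4]) (by
        rw [USG_map ht]
        simp only [map_add, map_smul, map_smulₛₗ, LinearMap.add_apply, LinearMap.smul_apply,
          x2, x4, w2, smul_eq_mul, hk, hB.fixed]
        linear_combination -B y y * m6))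
    rw [← t2, ← map_smul, t.injective.eq_iff] at hb
    simpa [m3', x3, x4, m1, m2] using congrArg (B · x') hb
  obtain ⟨y', hy', y1, y2, y3⟩ : ∃ y' ∈ V₀, B a y' ≠ 0 ∧ B y' p = 0 ∧ B y' p' = 0 := by
    by_cases e' : B a x = 0
    · exact ⟨y, hy, fun e'' => a0 (an a ha (hB.eq_zero_symm (by simp [e, e', e''])) a1), h6', h7'⟩
    · exact ⟨x, hx, e', h6, h7⟩
  obtain ⟨f, hf, hp1, f1⟩ := h'.exists_partner ha hy' a1 y1
  have f2 := hB.eq_zero_symm (f1 p (hB.eq_zero_symm a2) (hB.eq_zero_symm y2))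
  have f3 := hB.eq_zero_symm (f1 p' (hB.eq_zero_symm a3) (hB.eq_zero_symm y3))
  obtain ⟨α, β, e1⟩ := h.exists_comb hn n1 n2 h3 ⟨a2, a3⟩ ⟨f2, f3⟩ ⟨h4, h4'⟩ hp1.right_ne_zero
    fun e' => by
      obtain ⟨t, rfl⟩ := Submodule.mem_span_singleton.1 e'
      simpa [hp1.right] using hp1.pair
  have hα : α ≠ 0 := fun e' => hp1.right_ne_zero (an f hf (by simp [← e1, e', hp1.right]) hp1.right)
  have hβ : β ≠ 0 := fun e' => a0 (an a ha (by simp [← e1, e', a1]) a1)
  obtain ⟨μ, rfl⟩ : ∃ μ, β = α * μ := ⟨β / α, by field_simp⟩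
  have hμ0 : μ ≠ 0 := right_ne_zero_of_mul hβ
  have hμ : σ μ = -μ := by
    rw [← e1] at hc
    simp only [map_add, map_smul, map_smulₛₗ, LinearMap.add_apply, LinearMap.smul_apply, a1,
      hp1.right, hp1.pair, hp1.pair', smul_eq_mul, map_mul] at hc
    exact mul_left_cancel₀ (mul_ne_zero hα ((map_ne_zero σ).2 hα)) (by linear_combination hc)
  obtain ⟨k, hk, hk0, e2⟩ := hq.exists_sq_mul h9' (b := μ ^ 2) (by rw [map_pow, hμ]; ring) h9
    (u_sq_ne_of_trace h2 hμ0 (by rw [hμ, add_neg_cancel]))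
  obtain ⟨r, s, hr, hs, hr0, e3⟩ : ∃ r s : F, σ r = r ∧ σ s = s ∧ r ≠ 0 ∧
      r ^ 2 - μ ^ 2 * s ^ 2 = μ ^ 2 := by
    obtain ⟨z, hz, hz'⟩ : ∃ z : F, z * σ z = μ ^ 2 ∧ z + σ z ≠ 0 := by
      obtain ⟨z, hz⟩ := hq.exists_norm_eq (a := μ ^ 2) (by rw [map_pow, hμ]; ring)
      by_cases hz' : z + σ z = 0
      swap
      · exact ⟨z, hz, hz'⟩
      obtain ⟨t, ht, ht'⟩ := hB.exists_norm_one_ne
      refine ⟨t * z, by rw [map_mul]; linear_combination z * σ z * ht + hz, fun e' => ht' ?_⟩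
      rw [map_mul] at e'
      exact mul_left_cancel₀ (a := z) (by rintro rfl; exact pow_ne_zero 2 hμ0 (by simpa using hz.symm))
        (by linear_combination σ t * hz' - e')
    refine ⟨(z + σ z) / 2, (z - σ z) / (2 * μ), by simp [hB.invol, add_comm, map_ofNat], by
      rw [map_div₀, map_sub, map_mul, hB.invol, hμ, map_ofNat]; field_simp; ring,
      div_ne_zero hz' h2, by field_simp; linear_combination 4 * hz⟩
  obtain ⟨w, hw, w', hw', w1, w2, w3, w4, w5⟩ := plane (4 * r / μ ^ 2) (by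
    rw [map_div₀, map_mul, map_pow, hμ, hr, map_ofNat]; ring)
  obtain ⟨b1, b2, b3, b4⟩ := w5 a a2 a3
  obtain ⟨c1, c2, c3, c4⟩ := w5 f f2 f3
  have h10 : r • w + (s / k) • w' ∈ V₀ := add_mem (h.smul' hr hw)
    (h.smul' (by rw [map_div₀, hs, hk]) hw')
  have h11 : B (r • w + (s / k) • w') (r • w + (s / k) • w') = 4 * r := by
    simp only [map_add, map_smul, map_smulₛₗ, LinearMap.add_apply, LinearMap.smul_apply, w1, w2,
      w3, w4, smul_eq_mul, map_div₀, hr, hs, hk]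
    field_simp
    linear_combination 4 * k ^ 2 * e3 - 4 * s ^ 2 * e2
  have h12 : B (r • w + (s / k) • w') w = 4 * r ^ 2 / μ ^ 2 := by simp [w1, w4]; ring
  have h13 : B (r • w + (s / k) • w') a = 0 := by simp [b3, b4]
  have h14 : B (r • w + (s / k) • w') f = 0 := by simp [c3, c4]
  generalize r • w + (s / k) • w' = u at h10 h11 h12 h13 h14
  have h15 := mul_mem (h'.uEich_mem hH ha hw a1 b3 (s := -2 * r / μ ^ 2) (by
      rw [mem_uFix, map_div₀, map_mul, map_pow, hμ, hr, map_neg, map_ofNat]; ring) (by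
      rw [map_div₀, map_mul, map_pow, hμ, hr, map_neg, map_ofNat, w1]; ring))
    (h'.uEich_mem hH hf h10 hp1.right h14 (s := -2 * r) (by
      rw [mem_uFix, map_mul, hr, map_neg, map_ofNat]) (by
      rw [map_mul, hr, map_neg, map_ofNat, h11]; ring))
  have h16 : ∀ z, B ((uEich B a w (-2 * r / μ ^ 2) * uEich B f u (-2 * r)) (g v)) z =
      α * ((1 - 4 * r ^ 2 / μ ^ 2 - 2 * r / μ ^ 2 * (μ - 2 * r)) * B a z + (μ - 2 * r) * B f z -
        B u z - (μ - 2 * r) * B w z) := fun z => by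
    rw [LinearEquiv.mul_apply, (hB.uEich0 a1 b3).apply, (hB.uEich0 hp1.right h14).apply, ← e1]
    simp only [map_add, map_sub, map_smul, LinearMap.add_apply, LinearMap.sub_apply,
      LinearMap.smul_apply, a1, hp1.right, hp1.pair, hp1.pair', b1, c1, h12, h13,
      hB.eq_zero_symm h13, hB.eq_zero_symm h14, smul_eq_mul]
    ring
  generalize uEich B a w (-2 * r / μ ^ 2) * uEich B f u (-2 * r) = t at h15 h16
  have h17 := mul_mem (mul_mem (inv_mem hg) h15) hg
  have h18 : B ((g⁻¹ * t * g) v) v = 0 := by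
    rw [← USG_map (hM hg), LinearEquiv.mul_apply, LinearEquiv.mul_apply, LinearEquiv.coe_inv,
      LinearEquiv.apply_symm_apply, h16, ← e1]
    simp only [map_add, map_smulₛₗ, a1, hp1.right, hp1.pair, hp1.pair', h13, h14, b3, c3,
      smul_eq_mul, map_mul, hμ]
    field_simp
    ring
  obtain ⟨γ, z, hz, e4⟩ := (uRatPt_of_mem hv).map (by_contra fun e' =>
    h.not_perp h2 hH hM hD hv hv0 hv1 h17 hq h5 hn e' hv hv0 hv1 h18)
  have hγ : γ ≠ 0 := by rintro rfl; exact hv0 (by simpa using e4)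
  obtain ⟨d, rfl⟩ := Submodule.mem_span_singleton.1 (h8 z hz (by simpa [e4, hγ] using h18)
    (by simpa [e4, hγ, hv1] using USG_map (hM h17) v v))
  have h19 := h16 w
  rw [show t (g v) = (γ * d) • g v by
    rw [← map_smul, mul_smul, ← e4]; exact (g.apply_symm_apply _).symm, ← e1] at h19
  simp only [map_add, map_smul, LinearMap.add_apply, LinearMap.smul_apply, b1, c1, h12, w1,
    smul_eq_mul] at h19
  refine one_ne_zero (u_re_im h2 hμ0 hμ (a := -r) (b := 1) (by rw [map_neg, hr]) (map_one σ) ?_).2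
  field_simp at h19
  exact mul_left_cancel₀ (mul_ne_zero (mul_ne_zero h2 h2) hr0) (by linear_combination h19)

omit hH hM hD hv hv0 hv1 hg hc [Finite V] in
theorem uMax_orthogonal_four : UMax B (uRatStab F V₀) := by
  have := hq.finite
  have : Finite V := Module.finite_of_finite F
  obtain ⟨θ, hθ⟩ := h.herm.exists_ne
  obtain ⟨v, hv, hv0, hv1⟩ := h.exists_sing hq h2 (by omega)
  exact ⟨(h.uRatB h2).not_USG_le (fun e => hθ (mem_uFix.1 (e ▸ Subfield.mem_top θ))) hv hv0 hv1,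
    fun M hH hM h3 => h.le_of_not_D hq h2 (by omega) hH hM fun hD =>
      h3 (h.le_of_D h2 hH hM hv hv0 hv1 hq h5 hn hD)⟩

end URat

theorem UField.isMaximalIn_orthogonal_four [Fintype F] (hq : UField σ q) (hodd : Odd q)
    (h5 : 5 ≤ q) {F₀ : Subfield F} (hcard : Fintype.card F = Nat.card F₀ ^ 2) {P : GL (Fin 4) F}
    (hP : IsFormRationalStructure (hermForm 4 F q) F₀ 1 P) :
    IsMaximalIn (GU 4 F q ⊓ specialLinear (Fin 4) F)
      (subfieldSubgroup F₀ P ⊓ (GU 4 F q ⊓ specialLinear (Fin 4) F)) := by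
  obtain rfl := hq.eq_uFix hcard
  rw [hq.hermForm_eq'] at hP
  refine hq.isMaximalIn_subfield (((hq.isHerm_uStd _).uRat_uRatSpan one_ne_zero
    hP).uMax_orthogonal_four (fun e => ?_) hq h5 (by simp))
  obtain ⟨k, rfl⟩ := hodd
  simpa [e] using hq.cast_eq_zero

end Cfsg.Agent.Cl
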