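import Mathlib
import Cfsg.Agent.Cl.LowSURat

/-!
# Maximality of the unitary subfield subgroups of `SU_4(q)`
-/

set_option autoImplicit false

namespace Cfsg.Agent.Cl

open Module Cfsg.Geo Matrix

variable {F : Type*} [Field F] {σ : F →+* F} {V : Type*} [AddCommGroup V] [Module F V]
  {B : V →ₗ[F] V →ₛₗ[σ] F} {q n : ℕ} {M : Subgroup (V ≃ₗ[F] V)} {F₀ : Subfield F}
  {V₀ : AddSubgroup V}

/-- Any two rational vectors are orthogonal to a rational isotropic vector. -/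
def URatIso (B : V →ₗ[F] V →ₛₗ[σ] F) (V₀ : AddSubgroup V) : Prop :=
  ∀ a ∈ V₀, ∀ b ∈ V₀, ∃ d ∈ V₀, d ≠ 0 ∧ B d d = 0 ∧ B a d = 0 ∧ B b d = 0

namespace URatB

variable [FiniteDimensional F V]

theorem tr_of_iso (h : URatB B F₀ V₀) (iso : URatIso B V₀) : URatTr B V₀ := by
  have hB := h.herm
  have key : ∀ x ∈ V₀, ∀ x' ∈ V₀, B x x = 0 → B x' x' = 0 → B x x' ≠ 0 →
      ∃ g ∈ USG B, (∀ y ∈ V₀, g y ∈ V₀) ∧ g x = x' := fun x hx x' hx' h1 h2 h3 => by
    obtain ⟨d, hd, h5, h6, h7, h8⟩ := iso x hx x' hx'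
    obtain ⟨g, hg, h11, h12⟩ := h.exists_move hx hd (by rintro rfl; simp at h3) h1 h6
      (hB.eq_zero_symm h7) fun e => by
        obtain ⟨a, rfl⟩ := Submodule.mem_span_singleton.1 e
        exact h5 (by simp [show a = 0 by simpa [h3] using hB.eq_zero_symm h8])
    obtain ⟨k, hk, h13, h14⟩ := h.exists_move hd hx' h5 h6 h2 h8 fun e => by
      obtain ⟨a, rfl⟩ := Submodule.mem_span_singleton.1 e
      simp [h7] at h3
    exact ⟨k * g, mul_mem hk hg, fun y hy => h13 _ (h11 y hy), by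
      rw [LinearEquiv.mul_apply, h12, h14]⟩
  intro x hx x' hx' h0 h0' h1 h2
  by_cases h3 : B x x' = 0
  swap
  · exact key x hx x' hx' h1 h2 h3
  by_cases h4 : x' ∈ F ∙ x
  swap
  · exact h.exists_move hx hx' h0 h1 h2 (hB.eq_zero_symm h3) h4
  obtain ⟨w, hw, hp⟩ := h.exists_partner' hx h0 h1
  obtain ⟨g, hg, h5, h6⟩ := key x hx w hw h1 hp.right (by simp [hp.pair])
  obtain ⟨k, hk, h7, h8⟩ := key w hw x' hx' hp.right h2 (by
    obtain ⟨a, rfl⟩ := Submodule.mem_span_singleton.1 h4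
    simpa [hp.pair'] using fun e : a = 0 => h0' (by simp [e]))
  exact ⟨k * g, mul_mem hk hg, fun y hy => h7 _ (h5 y hy), by rw [LinearEquiv.mul_apply, h6, h8]⟩

theorem exists_uHypPair (h : URatB B F₀ V₀) (iso : URatIso B V₀) :
    ∃ v ∈ V₀, ∃ w ∈ V₀, UHypPair B v w := by
  obtain ⟨v, hv, h0, h1, -⟩ := iso 0 (zero_mem _) 0 (zero_mem _)
  exact ⟨v, hv, h.exists_partner' hv h0 h1⟩

variable [Finite V] (h : URatB B F₀ V₀) (hH : USG B ⊓ uRatStab F V₀ ≤ M) (hM : M ≤ USG B)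
  (iso : URatIso B V₀)
include h hH hM iso

theorem le_of_uRatR (hq : UField σ q) (hR : ∀ l, URatR B M V₀ l) : USG B ≤ M := by
  have hB := h.herm
  obtain ⟨v, hv, w, hw, hp⟩ := h.exists_uHypPair iso
  obtain ⟨e, he, h1, h2, h3, h4⟩ := iso v hv w hw
  obtain ⟨y, hy, h5, h6⟩ := h.exists_perp_one hv (x := e) fun e => by
    obtain ⟨a, rfl⟩ := Submodule.mem_span_singleton.1 e
    exact h1 (by simp [show a = 0 by simpa [hp.pair'] using h4])
  obtain ⟨f, hf, hp', h7⟩ := h.exists_partner he hy h2 h6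
  have h8 : uPerp B (F ∙ v) ≤ uYsub hB M hp.left :=
    (h.perp_span (Set.finite_singleton v) (by simpa)).le (h.mem_of_isotropic he hf
      (mem_uPerp_span_singleton.2 h3) (mem_uPerp_span_singleton.2 (h7 v h3 h5)) hp'
      fun z hz h8 h9 => by
        have h10 := hB.eq_zero_symm (mem_uPerp_span_singleton.1 h8)
        by_cases h11 : z ∈ F ∙ v
        · obtain ⟨a, rfl⟩ := Submodule.mem_span_singleton.1 h11
          exact Submodule.smul_mem _ _ (hB.self_mem_uYsub hp.left)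
        · exact fun c => ⟨by simp [h10], 0, by simp [h9],
            hR c v hv z hz hp.left_ne_zero hp.left h9 h10 h11⟩)
  obtain ⟨g, hg, h9, h10⟩ := h.tr_of_iso iso v hv w hw hp.left_ne_zero
    hp.right_ne_zero hp.left hp.right
  refine hB.USG_le_of_uEich' hq (fun g hg => (hM hg).1) hp.left (hB.uQ_of_uYadd
    (hB.uTv_of_uYsub (h8 (mem_uPerp_span_singleton.2 h3)) (hB.uYadd_of_uYsub
      (h8 (mem_uPerp_span_singleton.2 (h7 v h3 h5)))) (by simp [hp'.pair])) fun u hu =>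
    hB.uYadd_of_uYsub (h8 (mem_uPerp_span_singleton.2 (hB.eq_zero_symm hu))))
    (hH ⟨hg, mem_uRatStab_of' h9⟩) (by simp [h10, hp.pair])


omit hH iso [Finite V] in
theorem uRatR_mul {l c a : F} (hl : URatR B M V₀ l) (hc : c + σ c = 0)
    (hT : ∀ x ∈ V₀, B x x = 0 → uRefl B x c ∈ M) (ha : a ∈ F₀) (ha1 : a * σ a = 1) (ha' : a ≠ 1) :
    URatR B M V₀ (l * c) := by
  have hB := h.herm
  suffices H : URatR B M V₀ (l * c * (a - 1)) by
    simpa [sub_ne_zero.2 ha'] using H.mul_of_mem h.toURat (F₀.inv_mem (sub_mem ha (one_mem _)))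
  intro e he g hg h0 h1 h2 h3 h4
  obtain ⟨y, hy, h5, h6⟩ := h.exists_perp_one he h4
  obtain ⟨f, hf, hp, h7⟩ := h.exists_partner hg hy h2 h6
  have h8 := hB.eq_zero_symm (h7 e (hB.eq_zero_symm h3) h5)
  have key : ∀ m, URatR B M V₀ m → uEich B e ((m * c) • g) (-(m * σ m * c)) ∈ M := fun m hm => by
    have h9 := hm e he f hf h0 h1 hp.right h8 fun e => by
      obtain ⟨b, rfl⟩ := Submodule.mem_span_singleton.1 e
      simpa [h3] using hp.pair
    have h10 := (hB.uEich0 h1 h8).smul m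
    have := mul_mem (mul_mem (mul_mem (hT g hg h2) h9) (inv_mem (hT g hg h2))) (inv_mem h9)
    rw [h10.conj (hM (hT g hg h2)).1, uRefl_apply_of_perp _ (hB.eq_zero_symm h3),
      uRefl_apply_of_isotropic h2, h10.inv,
      (hB.uEich0 h1 (by simp [h8, h3])).mul h10.neg] at this
    convert this using 2
    · simp [hp.pair']
      module
    · simp [hp.pair', hp.right, show σ c = -c by linear_combination hc]
      ring
  have h9 := (hB.uEich0 h1 h3).smul (l * c)
  have := mul_mem (key _ (hl.mul_of_mem h.toURat ha)) (inv_mem (key l hl))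
  rw [h9.inv, ((hB.uEich0 h1 h3).smul _).mul h9.neg] at this
  convert this using 2
  · module
  · simp [h2]
    linear_combination l * σ l * c * ha1

variable (hD : URatD B M F₀ V₀) (hn : 3 ≤ finrank F V)
  (hrat : ∀ g ∈ USG B, g ∈ uRatStab F V₀ → ∀ x ∈ V₀, g x ∈ V₀)
include hD hn hrat

omit hH hM hD [Finite V] hn hrat in
theorem exists_perp_of_rank {k : V ≃ₗ[F] V} (hk : ∀ x ∈ V₀, k x ∈ V₀) {a a' : V}
    (H : ∀ x, k x - x ∈ Submodule.span F {a, a'}) :
    ∃ w ∈ V₀, w ≠ 0 ∧ B w w = 0 ∧ ∀ x, B (k x - x) w = 0 := by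
  obtain ⟨_, ⟨x, hx, rfl⟩, _, ⟨y, hy, rfl⟩, h1⟩ := u_exists_span_pair
    (S := (fun x => k x - x) '' V₀) ⟨0, zero_mem _, by simp⟩ (u_finrank_span_pair_le a a')
    (by rintro _ ⟨x, -, rfl⟩; exact H x)
  obtain ⟨w, hw, h2, h3, h4, h5⟩ := iso _ (sub_mem (hk x hx) hx) _ (sub_mem (hk y hy) hy)
  refine ⟨w, hw, h2, h3, fun z => h.top.le (U' := LinearMap.ker
    (B.flip w ∘ₗ ((k : V →ₗ[F] V) - LinearMap.id))) (fun z hz _ => ?_) Submodule.mem_top⟩
  obtain ⟨α, β, e⟩ := Submodule.mem_span_pair.1 (h1 ⟨z, hz, rfl⟩)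
  change B (k z - z) w = 0
  dsimp only at e
  rw [← e, map_add, map_smul, map_smul, LinearMap.add_apply, LinearMap.smul_apply,
    LinearMap.smul_apply, h4, h5, smul_zero, smul_zero, add_zero]

/-- The case of a unitary subfield structure. -/
theorem le_of_iso {c : F} (hc : c ∈ F₀) (hc0 : c ≠ 0) (hc' : c + σ c = 0) :
    M ≤ uRatStab F V₀ := by
  have hB := h.herm
  have tr := h.tr_of_iso iso
  have : Finite (V ≃ₗ[F] V) := Finite.of_injective _ DFunLike.coe_injective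
  have hT : ∀ v ∈ V₀, B v v = 0 → ∀ g ∈ M, uRefl B (g v) c ∈ M := fun v hv h1 g hg => by
    rw [← uRefl_conj (hM hg).1, ← uEich_zero h1]
    exact mul_mem (mul_mem hg (h.uEich_mem hH hv (zero_mem _) h1 (by simp) hc (by simpa)))
      (inv_mem hg)
  have h1 : ∀ v ∈ V₀, v ≠ 0 → B v v = 0 → ∀ g ∈ M, g ∉ uRatStab F V₀ → ∀ k ∈ M, k ∈ uRatStab F V₀ →
      ∀ a' x, (∀ x, k x - x ∈ Submodule.span F {g v, a'}) → k x - x ≠ (-c) • g v :=
    fun v hv h0 h1 g hg hgH k hkM hk a' x H e => by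
      obtain ⟨w, hw, h2, h3, h4⟩ := h.exists_perp_of_rank iso (hrat k (hM hkM) hk) H
      have h5 : B (g v) w = 0 := by simpa [e, hc0] using h4 x
      obtain ⟨y, hy, h6⟩ := h.exists_ne (x := g v) (by simpa)
      have := h.map_mem_of_fix' hH hM hD hn (hT v hv h1 g hg) hw h2 h3
        (uRefl_apply_of_perp _ (hB.eq_zero_symm h5)) y hy
      rw [uRefl_apply_of_isotropic (by rw [USG_map (hM hg), h1]), V₀.add_mem_cancel_left hy] at this
      exact hgH (h.mem_of_uRatPt hH hM hD hn tr hg hv h0 h1 (uRatPt_of_smul_mem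
        (mul_ne_zero hc0 fun e => h6 (hB.eq_zero_symm e)) this))
  obtain ⟨v, hv, w, hw, hp⟩ := h.exists_uHypPair iso
  let p : Bool → V := fun i => cond i v w
  have hp1 : ∀ i, p i ∈ V₀ := fun i => by cases i <;> assumption
  have hp2 : ∀ i, p i ≠ 0 := fun i => by
    cases i; exacts [hp.right_ne_zero, hp.left_ne_zero]
  have hp3 : ∀ i, B (p i) (p i) = 0 := fun i => by cases i; exacts [hp.right, hp.left]
  have hp4 : ∀ i, ∀ g ∈ M, B (g (p i)) (g (p i)) = 0 := fun i g hg => by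
    rw [USG_map (hM hg), hp3]
  by_contra H
  obtain ⟨g₀, hg₀, hg₀'⟩ := SetLike.not_le_iff_exists.1 H
  let X := {x : (V ≃ₗ[F] V) ⧸ uRatStab F V₀ // ∃ g ∈ M, g ∉ uRatStab F V₀ ∧ (g : _ ⧸ _) = x}
  choose r hr hr' hr'' using fun x : X => x.2
  have h2 : ∀ (x : X) (i : Bool), uRefl B (r x (p i)) c ∉ uRatStab F V₀ := fun x i e => by
    obtain ⟨y, -, hy⟩ := hB.exists_perp_eq_one (W := ⊥) (u := r x (p i)) (by simpa using hp2 i)
    refine h1 _ (hp1 i) (hp2 i) (hp3 i) _ (hr x) (hr' x) _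
      (inv_mem (hT _ (hp1 _) (hp3 _) _ (hr _))) (inv_mem e) 0 y (fun z => ?_) ?_
    all_goals
      rw [uRefl_inv_of_isotropic (hp4 i _ (hr x)), uRefl_apply_of_isotropic (hp4 i _ (hr x)),
        add_sub_cancel_left]
    · exact Submodule.smul_mem _ _ (Submodule.subset_span (by simp))
    · rw [hB.eq_one_symm hy, mul_one]
  let φ : X × Bool → X := fun y => ⟨(uRefl B (r y.1 (p y.2)) c : _ ⧸ _), _,
    hT _ (hp1 _) (hp3 _) _ (hr _), h2 _ _, rfl⟩
  have h3 : Function.Injective φ := by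
    rintro ⟨x, i⟩ ⟨x', j⟩ e
    have h3 := QuotientGroup.eq.1 (congrArg Subtype.val e)
    have h4 : r x (p i) ∈ F ∙ r x' (p j) := by
      by_contra h4
      obtain ⟨y, hy, hy'⟩ := hB.exists_perp_eq_one h4
      refine h1 _ (hp1 i) (hp2 i) (hp3 i) _ (hr x) (hr' x) _ (mul_mem (inv_mem (hT _ (hp1 _) (hp3 _)
        _ (hr _))) (hT _ (hp1 _) (hp3 _) _ (hr _))) h3 (r x' (p j)) y (fun z => ?_) ?_
      all_goals
        rw [uRefl_inv_of_isotropic (hp4 i _ (hr x)), LinearEquiv.mul_apply,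
          uRefl_apply_of_isotropic (hp4 i _ (hr x)), uRefl_apply_of_isotropic (hp4 j _ (hr x'))]
      · rw [add_assoc, add_sub_cancel_left]
        exact add_mem (Submodule.smul_mem _ _ (Submodule.subset_span (by simp)))
          (Submodule.smul_mem _ _ (Submodule.subset_span (by simp)))
      · simp [hB.eq_one_symm hy', hB.eq_zero_symm (mem_uPerp_span_singleton.1 hy)]
    obtain ⟨a, ha⟩ := Submodule.mem_span_singleton.1 h4
    have h5 := h.mem_of_uRatPt hH hM hD hn tr (mul_mem (inv_mem (hr x')) (hr x)) (hp1 i) (hp2 i) (hp3 i)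
      ⟨a, _, hp1 j, by simp [← ha]⟩
    obtain rfl : x' = x := Subtype.ext (by rw [← hr'' x', ← hr'' x]; exact QuotientGroup.eq.2 h5)
    rw [← map_smul, (r x').injective.eq_iff] at ha
    refine Prod.ext rfl ?_
    have h6 := congrArg (B · (p j)) ha
    cases i <;> cases j <;> first | rfl | simp [p, hp.left, hp.right, hp.pair, hp.pair'] at h6
  have h4 := Nat.card_le_card_of_injective φ h3
  have : Nonempty X := ⟨⟨_, g₀, hg₀, hg₀', rfl⟩⟩
  have h5 : 0 < Nat.card X := Nat.card_pos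
  simp only [Nat.card_prod, Nat.card_eq_fintype_card, Fintype.card_bool] at h4
  omega

end URatB

variable [FiniteDimensional F V]

theorem u_mem_of_sq_mem [Fintype F] {r : ℕ} (hr : r.Prime) (hro : Odd r)
    (hcard : Fintype.card F = Nat.card F₀ ^ r) {x : F} (hx : x * x ∈ F₀) : x ∈ F₀ := by
  by_contra h
  let R : Subring F :=
    { carrier := {y | ∃ a ∈ F₀, ∃ b ∈ F₀, y = a + b * x}
      mul_mem' := by
        rintro _ _ ⟨a, ha, b, hb, rfl⟩ ⟨a', ha', b', hb', rfl⟩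
        exact ⟨a * a' + b * b' * (x * x), add_mem (mul_mem ha ha') (mul_mem (mul_mem hb hb') hx),
          a * b' + b * a', add_mem (mul_mem ha hb') (mul_mem hb ha'), by ring⟩
      one_mem' := ⟨1, one_mem _, 0, zero_mem _, by ring⟩
      add_mem' := by
        rintro _ _ ⟨a, ha, b, hb, rfl⟩ ⟨a', ha', b', hb', rfl⟩
        exact ⟨a + a', add_mem ha ha', b + b', add_mem hb hb', by ring⟩
      zero_mem' := ⟨0, zero_mem _, 0, zero_mem _, by ring⟩
      neg_mem' := by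
        rintro _ ⟨a, ha, b, hb, rfl⟩
        exact ⟨-a, neg_mem ha, -b, neg_mem hb, by ring⟩ }
  have h1 := MSL.subring_eq_top hr hcard R (fun a ha => ⟨a, ha, 0, zero_mem _, by ring⟩)
    (a := x) ⟨0, zero_mem _, 1, one_mem _, by ring⟩ h
  have h2 := Nat.card_le_card_of_surjective (fun p : F₀ × F₀ => p.1.1 + p.2.1 * x) fun y => by
    obtain ⟨a, ha, b, hb, e⟩ := h1.ge (Subring.mem_top y)
    exact ⟨(⟨a, ha⟩, ⟨b, hb⟩), e.symm⟩
  rw [Nat.card_prod, Nat.card_eq_fintype_card, hcard, ← pow_two,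
    Nat.pow_le_pow_iff_right Finite.one_lt_card] at h2
  have := hr.two_le
  obtain ⟨k, rfl⟩ := hro
  omega

theorem URat.uMax_unitary_four [Fintype F] (h : URat B F₀ 1 V₀) (hq : UField σ q) {r : ℕ}
    (hr : r.Prime) (hro : Odd r) (hcard : Fintype.card F = Nat.card F₀ ^ r)
    (hn : 4 ≤ finrank F V)
    (hrat : ∀ g ∈ USG B, g ∈ uRatStab F V₀ → ∀ x ∈ V₀, g x ∈ V₀) : UMax B (uRatStab F V₀) := by
  have hB := h.herm
  have : Finite V := Module.finite_of_finite F
  let τ : F₀ →+* F₀ := (σ.comp F₀.subtype).codRestrict F₀ fun a => Max.map_mem_subfield σ a.2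
  have hτ : UInvol τ := ⟨fun a => Subtype.ext (hB.invol a), by
    by_contra! H
    obtain ⟨m, -, hm⟩ := L2.card_pow_of_subfield_le (show F₀ ≤ uFix σ from fun a ha =>
      congrArg Subtype.val (H ⟨a, ha⟩))
    rw [← Nat.card_eq_fintype_card, hq.card, ← hq.card_uFix, ← hm, ← pow_mul] at hcard
    exact (Nat.not_even_iff_odd.2 hro)
      (Nat.pow_right_injective Finite.one_lt_card hcard ▸ Nat.even_mul.2 (Or.inr even_two))⟩
  have hf : ∀ x ∈ V₀, ∀ y ∈ V₀, B x y ∈ F₀ := fun x hx y hy => by simpa using h.form x hx y hy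
  have iso : URatIso B V₀ := fun a ha b hb => by
    have hU := h.perp_span (s := {a, b}) (Set.toFinite _) (by rintro _ (rfl | rfl) <;> assumption)
    suffices ∃ d ∈ V₀, d ∈ uPerp B (Submodule.span F {a, b}) ∧ d ≠ 0 ∧ B d d = 0 by
      obtain ⟨d, hd, h1, h3, h4⟩ := this
      exact ⟨d, hd, h3, h4, mem_uPerp_span_pair.1 h1⟩
    by_contra! H
    obtain ⟨x, hx, x1, x2, x3, x4⟩ := h.exists_perp_mem hU (k := 1) (by
      have := u_finrank_span_pair_le (F := F) a b
      rw [hB.finrank_uPerp]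
      omega)
    obtain ⟨y, hy, ⟨y1, y1'⟩, y2, -⟩ := h.exists_perp_mem x3 x4
    replace y1' := mem_uPerp_span_singleton.1 y1'
    obtain ⟨α, e⟩ := hτ.exists_norm_eq (a := ⟨-(B y y / B x x), neg_mem (h.div_mem hy hy hx hx)⟩)
      (Subtype.ext (by simp [τ, hB.fixed]))
    have e' : α.1 * σ α = -(B y y / B x x) := congrArg Subtype.val e
    have h1 := H x hx x1 x2
    refine H (α.1 • x + y) (add_mem (h.smul _ α.2 x hx) hy)
      (add_mem (Submodule.smul_mem _ _ x1) y1)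
      (fun e => H y hy y1 y2 (by simpa [y1'] using congrArg (B · y) e)) ?_
    simp only [map_add, map_smul, map_smulₛₗ, LinearMap.add_apply, LinearMap.smul_apply, y1',
      hB.eq_zero_symm y1', smul_eq_mul]
    field_simp at e'
    linear_combination e'
  have h' : URatB B F₀ V₀ := by
    refine ⟨h, fun a ha => Max.map_mem_subfield σ ha, ?_, fun l hl => ?_⟩
    · obtain ⟨ε, hε⟩ := hτ.exists_trace_one
      exact ⟨ε, ε.2, congrArg Subtype.val hε⟩
    · by_contra! H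
      obtain ⟨b, hb⟩ := hτ.exists_ne
      refine hl (u_mem_of_mul_mem ?_ (sub_mem b.2 (τ b).2)
        (sub_ne_zero.2 fun e => hb (Subtype.ext e.symm)))
      convert sub_mem (H b b.2) (F₀.mul_mem (H 1 (one_mem _)) (τ b).2) using 1
      simp [τ]
      ring
  obtain ⟨v, hv, hv0, hv1, -⟩ := iso 0 (zero_mem _) 0 (zero_mem _)
  refine ⟨h'.not_USG_le (Max.ne_top_of_prime_index hr hcard) hv hv0 hv1, fun M hH hM h3 => ?_⟩
  obtain ⟨c₀, hc₀, hc₀'⟩ := hτ.exists_trace_zero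
  have hD : ¬ URatD B M F₀ V₀ := fun hD => h3 (h'.le_of_iso hH hM iso hD (by omega) hrat c₀.2
    (fun e => hc₀ (Subtype.ext e))
    (by rw [show σ c₀ = -c₀.1 from congrArg Subtype.val hc₀', add_neg_cancel]))
  simp only [URatD, not_forall] at hD
  obtain ⟨v, hv, h0, h1, c, hc, hT, hc'⟩ := hD
  obtain ⟨a, ha, ha'⟩ := hτ.exists_norm_one_ne
  let R : Subring F :=
    { carrier := {x | ∀ l, URatR B M V₀ l → URatR B M V₀ (l * x)}
      mul_mem' := fun hx hy l hl => mul_assoc l _ _ ▸ hy _ (hx l hl)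
      one_mem' := fun l hl => by rwa [mul_one]
      add_mem' := fun hx hy l hl => mul_add l _ _ ▸ (hx l hl).add hB (hy l hl)
      zero_mem' := fun l hl => hl.mul_of_mem h (zero_mem _)
      neg_mem' := fun hx l hl => by simpa using (hx l hl).mul_of_mem h (neg_mem (one_mem F₀)) }
  refine h'.le_of_uRatR hH hM iso hq fun l => ?_
  simpa using (MSL.subring_eq_top hr hcard R (fun a ha l hl => hl.mul_of_mem h ha) (a := c)
    (fun l hl => h'.uRatR_mul hM hl hc (h'.uRefl_mem hH (h'.tr_of_iso iso) hv h0 h1 hT) a.2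
      (congrArg Subtype.val ha) fun e => ha' (by rw [show a = 1 from Subtype.ext e, map_one])) hc').ge
    (Subring.mem_top l) 1 (h'.uRatR_of_mem hH (one_mem _))

theorem UField.isMaximalIn_unitary_subfield_four [Fintype F] (hq : UField σ q) {r : ℕ}
    (hr : r.Prime) (hro : Odd r) (hcard : Fintype.card F = Nat.card F₀ ^ r) {P : GL (Fin 4) F}
    (hP : IsFormRationalStructure (hermForm 4 F q) F₀ 1 P) :
    IsMaximalIn (GU 4 F q ⊓ specialLinear (Fin 4) F)
      (subfieldSubgroup F₀ P ⊓ (GU 4 F q ⊓ specialLinear (Fin 4) F)) := by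
  rw [hq.hermForm_eq'] at hP
  have h := (hq.isHerm_uStd _).uRat_uRatSpan one_ne_zero hP
  refine hq.isMaximalIn_subfield (h.uMax_unitary_four hq hr hro hcard (by simp) fun g hg hg' => ?_)
  obtain ⟨g, rfl⟩ := (glEquiv (Fin 4) F).surjective g
  obtain ⟨c, hc, h1⟩ := Max.mem_subfieldSubgroup_iff.1 (mem_subfieldSubgroup_iff_uRatStab.2 hg')
  have h2 : (c • (g : Matrix (Fin 4) (Fin 4) F)).det ∈ F₀ := by
    obtain ⟨Y, e⟩ := Max.rat_iff.1 h1
    rw [e, Max.cj_apply, Matrix.det_units_conj, ← RingHom.mapMatrix_apply, ← RingHom.map_det]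
    exact Subtype.property _
  have h3 : (g : Matrix (Fin 4) (Fin 4) F).det = 1 := by
    have := congrArg Units.val (mem_USG.1 hg).2
    rwa [det_glEquiv] at this
  rw [Matrix.det_smul, h3, mul_one, Fintype.card_fin, show c ^ 4 = (c * c) * (c * c) by ring] at h2
  have h4 := h1.smul (F₀.inv_mem (u_mem_of_sq_mem hr hro hcard (u_mem_of_sq_mem hr hro hcard h2)))
  rw [inv_smul_smul₀ hc] at h4
  rintro _ ⟨u, hu, rfl⟩
  exact h4.mulVec hu

end Cfsg.Agent.Cl
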