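import Mathlib
import Cfsg.Agent.Cl.MaxOBasic
import Cfsg.Agent.Cl.MaxAlg

/-!
# Normalisers of extension fields in orthogonal groups; the unitary case

`KN Q K` is the group of the isometries which are semilinear over the field `K`.  If `Q` is the
norm form of a hermitian form over a quadratic extension `K`, the transvections of the unitary
group are long root elements of `Ω`, and `KN Q K ⊓ Ω` is maximal in `Ω` (`HStr.omax`).
-/

set_option autoImplicit false
set_option linter.unusedSectionVars false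
set_option linter.unusedVariables false

namespace Cfsg.Agent.Cl.MaxO

open Module QuadraticMap

variable {F V : Type*} [Field F] [AddCommGroup V] [Module F V] {Q : QuadraticForm F V}

/-- The singular vectors generate the additive group. -/
theorem singular_ind {u u' : V} (hu : Q u = 0) (hu' : Q u' = 0) (huu' : polar Q u u' = 1)
    (A : AddSubgroup V) (h : ∀ x, Q x = 0 → x ∈ A) (x : V) : x ∈ A := by
  obtain ⟨h1, h2⟩ := o_hyp_decomp hu hu' huu' x
  have h3 : ∀ c : F, c • u ∈ A := fun c => h _ (by rw [o_qsmul, hu, mul_zero])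
  have h4 : ∀ c : F, c • u' ∈ A := fun c => h _ (by rw [o_qsmul, hu', mul_zero])
  set w := x - polar Q x u' • u - polar Q x u • u' with hw
  have h5 := h (w + u - Q w • u') (by
    simp only [oexp, hu, hu', huu', polar_comm Q w, h1, h2]; ring)
  convert A.add_mem (A.add_mem h5 (h3 (polar Q x u' - 1))) (h4 (polar Q x u + Q w)) using 1
  rw [hw]; module

variable {K : Type*} [Field K] [Algebra F K] [Module K V] [IsScalarTower F K V]

variable (Q K) in
/-- The isometries normalising `K`. -/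
def KN : Subgroup (OG Q) where
  carrier := {g | (∀ k : K, ∃ l : K, ∀ x, g.1 (k • x) = l • g.1 x) ∧
    ∀ l : K, ∃ k : K, ∀ x, g.1 (k • x) = l • g.1 x}
  mul_mem' {a b} ha hb := ⟨fun k => by
    obtain ⟨l, h1⟩ := hb.1 k
    obtain ⟨m, h2⟩ := ha.1 l
    exact ⟨m, fun x => by rw [OG.mul_app, h1, h2, OG.mul_app]⟩, fun m => by
    obtain ⟨l, h2⟩ := ha.2 m
    obtain ⟨k, h1⟩ := hb.2 l
    exact ⟨k, fun x => by rw [OG.mul_app, h1, h2, OG.mul_app]⟩⟩
  one_mem' := ⟨fun k => ⟨k, fun _ => rfl⟩, fun k => ⟨k, fun _ => rfl⟩⟩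
  inv_mem' {a} ha := ⟨fun l => by
    obtain ⟨k, h1⟩ := ha.2 l
    exact ⟨k, fun x => by rw [OG.inv_app_eq_iff, h1, OG.app_inv_app]⟩, fun k => by
    obtain ⟨l, h1⟩ := ha.1 k
    exact ⟨l, fun x => by rw [OG.inv_app_eq_iff, h1, OG.app_inv_app]⟩⟩

theorem mem_KN_of_lin {g : OG Q} (h : ∀ (k : K) x, g.1 (k • x) = k • g.1 x) : g ∈ KN Q K :=
  ⟨fun k => ⟨k, h k⟩, fun k => ⟨k, h k⟩⟩

theorem mem_KN [Finite K] [Nontrivial V] {g : OG Q}
    (h : ∀ k : K, ∃ l : K, ∀ x, g.1 (k • x) = l • g.1 x) : g ∈ KN Q K := by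
  refine ⟨h, fun l => ?_⟩
  choose f hf using h
  obtain ⟨x, hx⟩ := exists_ne (0 : V)
  obtain ⟨k, rfl⟩ := Finite.surjective_of_injective (f := f) (fun a b e =>
    smul_left_injective K hx (g.1.injective (by simp only [hf, e]))) l
  exact ⟨k, hf k⟩

/-- `Q` is the norm form of the hermitian form `h`. -/
structure HStr (Q : QuadraticForm F V) (s : K →+* K) (h : V →ₗ[K] V →+ K) : Prop where
  nd : (polarBilin Q).Nondegenerate
  symm : ∀ x y, h y x = s (h x y)
  ss : ∀ k, s (s k) = k
  alg : ∀ a, s (algebraMap F K a) = algebraMap F K a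
  tr : ∀ x y, algebraMap F K (polar Q x y) = h x y + s (h x y)
  norm : ∀ x, algebraMap F K (Q x) = h x x
  fix : ∀ k, s k = k → ∃ a, algebraMap F K a = k
  ne : ∃ k, s k ≠ k
  dim : 5 ≤ finrank K V

namespace HStr

variable [Finite F] [FiniteDimensional F V] [FiniteDimensional F K] [FiniteDimensional K V]
  {s : K →+* K} {h : V →ₗ[K] V →+ K} (H : HStr Q s h) {M : Subgroup (OG Q)}
include H

theorem smul_right (k : K) (x y : V) : h x (k • y) = s k * h x y := by
  rw [H.symm y x, H.symm (k • y) x, map_smul, AddMonoidHom.smul_apply, smul_eq_mul, map_mul]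

theorem smul_left (k : K) (x y : V) : h (k • x) y = k * h x y := by
  rw [map_smul, AddMonoidHom.smul_apply, smul_eq_mul]

theorem s_ne {k : K} (hk : k ≠ 0) : s k ≠ 0 := (map_ne_zero s).2 hk

theorem zero_symm {x y : V} (e : h x y = 0) : h y x = 0 := by rw [H.symm, e, map_zero]

theorem ne_symm {x y : V} (e : h x y ≠ 0) : h y x ≠ 0 := fun e' => e (H.zero_symm e')

theorem polar_zero {x y : V} (e : h x y = 0) : polar Q x y = 0 :=
  (algebraMap F K).injective (by rw [H.tr, e]; simp)

theorem Q_zero {x : V} : Q x = 0 ↔ h x x = 0 := by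
  rw [← H.norm, map_eq_zero_iff _ (algebraMap F K).injective]

theorem Q_smul {x : V} (hx : Q x = 0) (k : K) : Q (k • x) = 0 := by
  rw [H.Q_zero] at hx ⊢
  rw [H.smul_left, H.smul_right, hx, mul_zero, mul_zero]

theorem exists_tr {c : K} (hc : c ≠ 0) {d : K} (hd : s d = d) : ∃ k, k * c + s (k * c) = d := by
  obtain ⟨k, hk⟩ := H.ne
  have h1 : k - s k ≠ 0 := sub_ne_zero.2 hk.symm
  have h2 : s k - k ≠ 0 := sub_ne_zero.2 hk
  refine ⟨d * k / (k - s k) / c, ?_⟩
  rw [div_mul_cancel₀ _ hc]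
  simp only [map_div₀, map_mul, map_sub, H.ss, hd]
  field_simp
  ring

theorem eq_zero {x : V} (e : ∀ y, h x y = 0) : x = 0 := o_eq_zero H.nd fun y => H.polar_zero (e y)

theorem trans_app {u : V} (hu : Q u = 0) (k : K) (x : V) :
    (eich Q u (k • u)).1 x = x + ((k - s k) * h x u) • u := by
  have h1 := H.Q_zero.1 hu
  rw [eich_app hu (H.polar_zero (by rw [H.smul_right, h1, mul_zero])), H.Q_smul hu, zero_mul,
    add_zero, ← algebraMap_smul K (polar Q x u), ← algebraMap_smul K (polar Q x (k • u)), H.tr, H.tr,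
    H.smul_right, map_mul, H.ss]
  module

theorem dimF : 10 ≤ finrank F V := by
  have h1 := Module.finrank_mul_finrank F K V
  have h2 : finrank F K ≠ 1 := fun e => by
    obtain ⟨k, hk⟩ := H.ne
    obtain ⟨a, rfl⟩ := Algebra.mem_bot.1
      (Subalgebra.bot_eq_top_iff_finrank_eq_one.2 e ▸ Algebra.mem_top : k ∈ (⊥ : Subalgebra F K))
    exact hk (H.alg a)
  have h3 := Module.finrank_pos (R := F) (M := K)
  have := H.dim
  nlinarith [show 2 ≤ finrank F K by omega]

omit H in
variable (h) in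
/-- The orthogonal complement of two vectors. -/
def PP (a b : V) : Submodule K V where
  carrier := {x | h x a = 0 ∧ h x b = 0}
  add_mem' hx hy := by simp [hx.1, hx.2, hy.1, hy.2]
  zero_mem' := by simp
  smul_mem' k x hx := by simp [hx.1, hx.2]

omit H in
variable (h) in
/-- Non-degenerate subspaces. -/
def KND (W : Submodule K V) : Prop := ∀ x ∈ W, (∀ y ∈ W, h x y = 0) → x = 0

omit H in
theorem finrank_inf (W : Submodule K V) (a b : V) : finrank K W ≤ finrank K ↥(W ⊓ PP h a b) + 2 := by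
  let l : V →ₗ[K] K × K :=
    { toFun := fun x => (h x a, h x b), map_add' := by simp, map_smul' := by simp }
  have h1 := (l.domRestrict W).finrank_range_add_finrank_ker
  have h2 : finrank K (LinearMap.range (l.domRestrict W)) ≤ 2 :=
    (Submodule.finrank_le _).trans (by simp)
  have h3 : finrank K (LinearMap.ker (l.domRestrict W)) ≤ finrank K ↥(W ⊓ PP h a b) := by
    rw [← Submodule.finrank_map_subtype_eq]
    refine Submodule.finrank_mono ?_
    rintro _ ⟨x, hx, rfl⟩
    exact ⟨x.2, Prod.ext_iff.1 (LinearMap.mem_ker.1 hx)⟩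
  omega

theorem sub_mem {a b : V} (ha : Q a = 0) (hb : Q b = 0) (hab : h a b ≠ 0) (x : V) :
    x - (h x b / h a b) • a - (h x a / h b a) • b ∈ PP h a b := by
  have := H.ne_symm hab
  constructor <;> simp [H.Q_zero.1 ha, H.Q_zero.1 hb, *]

theorem KND.inf {W : Submodule K V} (hW : KND h W) {a b : V} (haW : a ∈ W) (hbW : b ∈ W)
    (ha : Q a = 0) (hb : Q b = 0) (hab : h a b ≠ 0) : KND h (W ⊓ PP h a b) := fun x hx e =>
  hW x hx.1 fun y hy => by
    have := e _ ⟨W.sub_mem (W.sub_mem hy (W.smul_mem _ haW)) (W.smul_mem _ hbW), H.sub_mem ha hb hab y⟩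
    simpa [H.smul_right, hx.2.1, hx.2.2] using this

theorem exists_sing {x y : V} (hx : Q x = 0) (e : h x y ≠ 0) : ∃ k : K, Q (y + k • x) = 0 := by
  obtain ⟨k, hk⟩ := H.exists_tr e (d := -h y y) (by rw [map_neg, ← H.symm])
  refine ⟨k, H.Q_zero.2 ?_⟩
  simp only [map_add, AddMonoidHom.add_apply, H.smul_left, H.smul_right, H.Q_zero.1 hx]
  rw [map_mul, ← H.symm] at hk
  linear_combination hk

theorem KND.partner {W : Submodule K V} (hW : KND h W) {a : V} (haW : a ∈ W) (ha : Q a = 0)
    (h0 : a ≠ 0) : ∃ b ∈ W, Q b = 0 ∧ h a b ≠ 0 := by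
  obtain ⟨y, hy, e⟩ : ∃ y ∈ W, h a y ≠ 0 := by
    by_contra! H'
    exact h0 (hW a haW H')
  obtain ⟨k, hk⟩ := H.exists_sing ha e
  exact ⟨_, W.add_mem hy (W.smul_mem k haW), hk, by simpa [H.smul_right, H.Q_zero.1 ha] using e⟩

theorem KND.nonsing {W : Submodule K V} (hW : KND h W) (h0 : 1 ≤ finrank K W) :
    ∃ y ∈ W, Q y ≠ 0 := by
  by_contra! H'
  obtain ⟨a, ha, h1⟩ := Submodule.exists_mem_ne_zero_of_ne_bot (Submodule.one_le_finrank_iff.1 h0)
  obtain ⟨b, hb, h2, h3⟩ := hW.partner H ha (H' a ha) h1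
  obtain ⟨k, hk⟩ := H.exists_tr h3 (map_one s)
  have := H.Q_zero.1 (H' _ (W.add_mem hb (W.smul_mem k ha)))
  simp only [map_add, AddMonoidHom.add_apply, H.smul_left, H.smul_right, H.Q_zero.1 h2,
    H.Q_zero.1 (H' a ha)] at this
  rw [map_mul, ← H.symm] at hk
  exact one_ne_zero (by linear_combination this - hk : (1 : K) = 0)

theorem exists_singK {W : Submodule K V} (h2 : 2 ≤ finrank K W) : ∃ y ∈ W, y ≠ 0 ∧ Q y = 0 := by
  have h1 := Module.finrank_mul_finrank F K W
  have h3 := Module.finrank_mul_finrank F K V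
  have h4 := H.dimF
  have h5 : finrank F K ≠ 1 := fun e => by
    obtain ⟨k, hk⟩ := H.ne
    obtain ⟨a, rfl⟩ := Algebra.mem_bot.1
      (Subalgebra.bot_eq_top_iff_finrank_eq_one.2 e ▸ Algebra.mem_top : k ∈ (⊥ : Subalgebra F K))
    exact hk (H.alg a)
  have h6 := Module.finrank_pos (R := F) (M := K)
  exact exists_singular_mem (S := W.restrictScalars F) (by
    change 3 ≤ finrank F W
    nlinarith [show 2 ≤ finrank F K by omega])

/-- An additive group invariant under the unitary transvections of `W` contains `W`. -/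
theorem le_of_trans {W : Submodule K V} (hW : KND h W) (h3 : 3 ≤ finrank K W) (A : AddSubgroup V)
    (hA : ∀ u ∈ W, Q u = 0 → ∀ x ∈ A, ∀ k : K, ((k - s k) * h x u) • u ∈ A) {x u : V} (hx : x ∈ A)
    (huW : u ∈ W) (hu : Q u = 0) (hxu : h x u ≠ 0) : ∀ w ∈ W, w ∈ A := by
  obtain ⟨k, hk⟩ := H.ne
  have k0 : k - s k ≠ 0 := sub_ne_zero.2 hk.symm
  have u0 : u ≠ 0 := by rintro rfl; simp at hxu
  have a1 := hA u huW hu x hx k
  have a2 := H.Q_smul hu ((k - s k) * h x u)
  have a3 := W.smul_mem ((k - s k) * h x u) huW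
  have a4 := smul_ne_zero (mul_ne_zero k0 hxu) u0
  generalize ((k - s k) * h x u) • u = a at a1 a2 a3 a4
  obtain ⟨u', hu'W, hu', e⟩ := hW.partner H a3 a2 a4
  have b1 := hA u' hu'W hu' a a1 k
  have b2 := H.Q_smul hu' ((k - s k) * h a u')
  have b3 := W.smul_mem ((k - s k) * h a u') hu'W
  have b4 : h a (((k - s k) * h a u') • u') ≠ 0 := by
    rw [H.smul_right]; exact mul_ne_zero (H.s_ne (mul_ne_zero k0 e)) e
  have b5 : s (h a (((k - s k) * h a u') • u')) = -h a (((k - s k) * h a u') • u') := by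
    simp only [H.smul_right, map_mul, map_sub, H.ss]; ring
  generalize ((k - s k) * h a u') • u' = b at b1 b2 b3 b4 b5
  obtain ⟨y, hy, y0⟩ := (hW.inf H a3 b3 a2 b2 b4).nonsing H (by
    have := finrank_inf (h := h) W a b; omega)
  have y1 := H.zero_symm hy.2.1
  have y2 := H.zero_symm hy.2.2
  obtain ⟨α, hα⟩ := H.exists_sing a2 (y := y + b) (by simpa [y1] using b4)
  have c3 : y + b + α • a ∈ W := W.add_mem (W.add_mem hy.1 b3) (W.smul_mem _ a3)
  have c4 : h a (y + b + α • a) = h a b := by simp [H.smul_right, H.Q_zero.1 a2, y1]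
  have c5 : h b (y + b + α • a) = -(s α * h a b) := by
    simp [H.smul_right, H.Q_zero.1 b2, y2, H.symm a b, b5]
  have c6 : α - s α ≠ 0 := fun e' => y0 (H.Q_zero.2 (by
    have := H.Q_zero.1 hα
    simp only [map_add, AddMonoidHom.add_apply, H.smul_left, H.smul_right, H.Q_zero.1 a2,
      H.Q_zero.1 b2, y1, y2, hy.2.1, hy.2.2, H.symm a b, b5] at this
    linear_combination this - h a b * e'))
  have c7 : y + b + α • a ≠ 0 := fun e' => b4 (by rw [← c4, e', map_zero])
  generalize y + b + α • a = c at hα c3 c4 c5 c7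
  have c8 : ∀ l : K, l • c ∈ A := fun l => by
    obtain ⟨m, rfl⟩ : ∃ m, l = m * h a b := ⟨l / h a b, by field_simp⟩
    have : s α - α ≠ 0 := fun e' => c6 (by linear_combination -e')
    convert A.add_mem (hA c c3 hα a a1 (m * α / (α - s α))) (hA c c3 hα b b1 (m / (α - s α))) using 1
    rw [← add_smul, c4, c5]
    congr 1
    simp only [map_div₀, map_mul, map_sub, H.ss]
    field_simp
    ring
  have d1 : ∀ z ∈ W, Q z = 0 → h c z ≠ 0 → z ∈ A := fun z hz z0 z1 => by
    have := hA z hz z0 _ (c8 ((k - s k) * h c z)⁻¹) k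
    rwa [H.smul_left, ← mul_assoc, mul_right_comm, mul_inv_cancel₀ (mul_ne_zero k0 z1),
      one_smul] at this
  obtain ⟨d, hd, d2, d3⟩ := hW.partner H c3 hα c7
  intro w hw
  have w1 := H.sub_mem hα d2 d3 w
  have w2 := W.sub_mem (W.sub_mem hw (W.smul_mem (h w d / h c d) c3)) (W.smul_mem (h w c / h d c) hd)
  have w3 : ∀ l : K, l • d ∈ A := fun l => by
    by_cases l0 : l = 0
    · simp [l0]
    exact d1 _ (W.smul_mem l hd) (H.Q_smul d2 l) (by
      rw [H.smul_right]; exact mul_ne_zero (H.s_ne l0) d3)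
  set w' := w - (h w d / h c d) • c - (h w c / h d c) • d with hw'
  have w4 : h c (w' + d) ≠ 0 := by rwa [map_add, H.zero_symm w1.1, zero_add]
  obtain ⟨l, hl⟩ := H.exists_sing hα w4
  have w5 := d1 _ (W.add_mem (W.add_mem w2 hd) (W.smul_mem l c3)) hl (by
    rwa [map_add, H.smul_right, H.Q_zero.1 hα, mul_zero, add_zero])
  convert A.add_mem (A.add_mem w5 (c8 (h w d / h c d - l))) (w3 (h w c / h d c - 1)) using 1
  rw [hw']; module

theorem knd_top : KND h ⊤ := fun x _ e => H.eq_zero fun y => e y trivial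

theorem trans_mem_KN {u : V} (hu : Q u = 0) (k : K) : eich Q u (k • u) ∈ KN Q K :=
  mem_KN_of_lin fun l x => by rw [H.trans_app hu, H.trans_app hu, H.smul_left]; module

section Over

variable (hM : KN Q K ⊓ commutator (OG Q) ≤ M)
include hM

theorem trans_mem {u : V} (hu : Q u = 0) (k : K) : eich Q u (k • u) ∈ M :=
  hM ⟨H.trans_mem_KN hu k, eich_mem_omega H.nd (by have := H.dimF; omega) _ _⟩

theorem smul_mem_EA {u : V} (hu : Q u = 0) (k : K) : k • u ∈ EA M hu :=
  ⟨H.polar_zero (by rw [H.smul_right, H.Q_zero.1 hu, mul_zero]), H.trans_mem hM hu k⟩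

theorem full {v z : V} (hv : Q v = 0) (v0 : v ≠ 0) (hz : z ∈ EA M hv) (hz' : ∀ k : K, z ≠ k • v) :
    Full M v := by
  obtain ⟨k, hk⟩ := H.ne
  have k0 : k - s k ≠ 0 := sub_ne_zero.2 hk.symm
  obtain ⟨v', -, hv', e⟩ := H.knd_top.partner H trivial hv v0
  have hW := H.knd_top.inf H trivial trivial hv hv' e
  have hd := finrank_inf (h := h) ⊤ v v'
  rw [top_inf_eq] at hW hd
  rw [finrank_top] at hd
  have hdim := H.dim
  have tr : ∀ u, Q u = 0 → h v u = 0 → ∀ x ∈ EA M hv, ∀ k : K, ((k - s k) * h x u) • u ∈ EA M hv :=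
    fun u hu e' x hx k => by
      have := (EA M hv).sub_mem (EA_fix (H.trans_mem hM hu k) (by
        rw [H.trans_app hu, e', mul_zero, zero_smul, add_zero]) hx) hx
      rwa [H.trans_app hu, add_sub_cancel_left] at this
  obtain ⟨w, hw, w0, hwq⟩ : ∃ w ∈ PP h v v', w ≠ 0 ∧ w ∈ EA M hv := by
    by_cases e1 : h z v = 0
    · have := H.sub_mem hv hv' e z
      rw [e1, zero_div, zero_smul, sub_zero] at this
      exact ⟨_, this, sub_ne_zero.2 (hz' _), (EA M hv).sub_mem hz (H.smul_mem_EA hM hv _)⟩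
    obtain ⟨w, hw, w0, hwq⟩ := H.exists_singK (W := PP h v v') (by omega)
    obtain ⟨l, hl⟩ : ∃ l : K, h z (w + l • v) = 1 :=
      ⟨s ((1 - h z w) / h z v), by rw [map_add, H.smul_right, H.ss]; field_simp; ring⟩
    have := tr (w + l • v) (H.Q_zero.2 (by
      simp [H.smul_right, H.Q_zero.1 hwq, H.Q_zero.1 hv, hw.1, H.zero_symm hw.1]))
      (by simp [H.smul_right, H.Q_zero.1 hv, H.zero_symm hw.1]) z hz k
    rw [hl, mul_one, smul_add, smul_smul] at this
    exact ⟨_, Submodule.smul_mem _ _ hw, smul_ne_zero k0 w0,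
      (AddSubgroup.add_mem_cancel_right _ (H.smul_mem_EA hM hv _)).1 this⟩
  have hWA : ∀ w ∈ PP h v v', w ∈ EA M hv := by
    obtain ⟨u, hu, hu0, hu1⟩ : ∃ u ∈ PP h v v', Q u = 0 ∧ h w u ≠ 0 := by
      by_contra! H'
      obtain ⟨a, ha, a0, a1⟩ := H.exists_singK (W := PP h v v') (by omega)
      obtain ⟨b, hb, b1, b2⟩ := hW.partner H ha a1 a0
      refine w0 (hW w hw fun y hy => ?_)
      obtain ⟨l, hl⟩ := H.exists_sing a1 (y := y + (1 - s (h a y / h a b)) • b) (by
        rw [map_add, H.smul_right, map_sub, map_one, H.ss, sub_mul, div_mul_cancel₀ _ b2]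
        simpa using b2)
      have := H' _ (Submodule.add_mem _ (Submodule.add_mem _ hy (Submodule.smul_mem _ _ hb))
        (Submodule.smul_mem _ _ ha)) hl
      simpa [H.smul_right, H' a ha a1, H' b hb b1] using this
    exact H.le_of_trans hW (by omega) _ (fun u hu hu0 => tr u hu0 (H.zero_symm hu.1)) hwq hu hu0 hu1
  have hP : ∀ x, h x v = 0 → x ∈ EA M hv := fun x hx => by
    have := H.sub_mem hv hv' e x
    rw [hx, zero_div, zero_smul, sub_zero] at this
    simpa using (EA M hv).add_mem (hWA _ this) (H.smul_mem_EA hM hv (h x v' / h v v'))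
  have g1 := H.trans_app hv' k v
  have g2 : Q (v + ((k - s k) * h v v') • v') = 0 := by rw [← g1, OG.map_app, hv]
  have g3 : h (v + ((k - s k) * h v v') • v') v = (k - s k) * h v v' * h v' v := by
    simp [H.Q_zero.1 hv]
  have g4 : s ((k - s k) * h v v' * h v' v) = -((k - s k) * h v v' * h v' v) := by
    simp only [map_mul, map_sub, H.ss, ← H.symm]; ring
  have g5 : polar Q v (v + ((k - s k) * h v v') • v') = 0 := (algebraMap F K).injective (by
    rw [polar_comm, H.tr, g3, g4]; simp)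
  have g6 : ∀ w ∈ PP h v v', w ∈ EA M g2 := fun w hw => by
    have := EA_map g2 (H.trans_mem hM hv' k) g1 (hWA w hw)
    rwa [H.trans_app hv', hw.2, mul_zero, zero_smul, add_zero] at this
  have g7 := mul_ne_zero (mul_ne_zero k0 e) (H.ne_symm e)
  generalize v + ((k - s k) * h v v') • v' = u at g2 g3 g5 g6
  have g8 : ∀ a : F, a • u ∈ EA M hv := fun a => by
    obtain ⟨y, hy, e1⟩ : ∃ y ∈ PP h v v', h w y ≠ 0 := by
      by_contra! H'
      exact w0 (hW w hw H')
    obtain ⟨l, hl⟩ := H.exists_tr e1 (H.alg a)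
    have hlw := Submodule.smul_mem _ l hw
    have := (EA M hv).sub_mem (hWA _ hlw) (EA_fix (g6 y hy).2
      (eich_app_of_polar g5 (H.polar_zero (H.zero_symm hy.1))) (hWA _ hlw))
    rwa [eich_app_of_polar_left g2 (g6 y hy).1 (by rw [polar_comm]; exact (g6 _ hlw).1),
      sub_sub_cancel, (algebraMap F K).injective ((H.tr _ _).trans (H.smul_left l w y ▸ hl))] at this
  refine full_of_EA hv fun x hx => ?_
  have x1 := H.tr x v
  rw [polar_comm, hx, map_zero] at x1
  obtain ⟨a, ha⟩ := H.fix (h x v / h u v) (by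
    rw [map_div₀, g3, g4, show s (h x v) = -h x v by linear_combination -x1, neg_div_neg_eq])
  have := (EA M hv).add_mem (hP (x - a • u) (by
    rw [← algebraMap_smul K, map_sub, AddMonoidHom.sub_apply, H.smul_left, ha,
      div_mul_cancel₀ _ (g3 ▸ g7), sub_self])) (g8 a)
  rwa [sub_add_cancel] at this

theorem EO_le {v : V} (hv : Q v = 0) (v0 : v ≠ 0) (hF : Full M v) : EO Q ≤ M := by
  by_contra hno
  let A : AddSubgroup V :=
    { carrier := {x | ∀ g ∈ M, polar Q v (g.1 x) = 0}
      add_mem' := fun ha hb g hg => by rw [map_add, polar_add_right, ha g hg, hb g hg, add_zero]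
      zero_mem' := fun g _ => by simp
      neg_mem' := fun ha g hg => by rw [map_neg, polar_neg_right, ha g hg, neg_zero] }
  obtain ⟨v', -, hv', e⟩ := H.knd_top.partner H trivial hv v0
  refine v0 (o_eq_zero H.nd fun y => H.le_of_trans H.knd_top (by
    have := H.dim; rw [finrank_top]; omega) A (fun u _ hu x hx k g hg => ?_) (x := v)
    (fun g hg => by_contra fun H' => hno (EO_le_of_full_move H.nd hF hg H')) trivial hv' e y trivial 1
    M.one_mem)
  have := hx _ (M.mul_mem hg (H.trans_mem hM hu k))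
  rwa [OG.mul_app, H.trans_app hu, map_add, polar_add_right, hx g hg, zero_add] at this

theorem mem_KN_of_EA (hE : ∀ v (hv : Q v = 0), v ≠ 0 → ∀ z ∈ EA M hv, ∃ k : K, z = k • v) {g : OG Q}
    (hg : g ∈ M) : g ∈ KN Q K := by
  have := Module.finite_of_finite F (M := K)
  have hd := H.dimF
  have hd' := H.dim
  have : Nontrivial V := Module.nontrivial_of_finrank_pos (R := F) (by omega)
  refine mem_KN fun k => ?_
  have h1 : ∀ y, Q y = 0 → ∃ c : K, g.1 (k • (g⁻¹).1 y) = c • y := fun y hy => by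
    by_cases y0 : y = 0
    · exact ⟨0, by simp [y0]⟩
    exact hE y hy y0 _ (EA_map hy hg (OG.app_inv_app g y) (H.smul_mem_EA hM (by rwa [OG.map_app]) k))
  choose! c hc using h1
  have h2 : ∀ y z, Q y = 0 → Q z = 0 → y ≠ 0 → h y z = 0 → ∀ t, h y t = 0 → h z t ≠ 0 →
      c y = c z := fun y z hy hz y0 e t t1 t2 => by
    have a1 := hc (y + z) (by rw [o_qadd, hy, hz, H.polar_zero e]; simp)
    rw [map_add, smul_add, map_add, hc y hy, hc z hz] at a1
    have a2 := congrArg (h · t) a1
    simp only [map_add, AddMonoidHom.add_apply, H.smul_left, t1, mul_zero, zero_add] at a2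
    rw [← mul_right_cancel₀ t2 a2, smul_add, add_left_inj] at a1
    exact smul_left_injective K y0 a1
  have h3 : ∀ y y', Q y = 0 → Q y' = 0 → h y y' ≠ 0 → c y = c y' := fun y y' hy hy' e => by
    have hW := H.knd_top.inf H trivial trivial hy hy' e
    have := finrank_inf (h := h) ⊤ y y'
    rw [finrank_top] at this
    obtain ⟨z, hz, z0, z1⟩ := H.exists_singK (W := ⊤ ⊓ PP h y y') (by omega)
    rw [← h2 z y z1 hy z0 hz.2.1 y' hz.2.2 e, h2 z y' z1 hy' z0 hz.2.2 y hz.2.1 (H.ne_symm e)]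
  have h4 : ∀ y y', Q y = 0 → Q y' = 0 → polar Q y y' ≠ 0 → c y = c y' := fun y y' hy hy' e =>
    h3 y y' hy hy' fun e' => e (H.polar_zero e')
  obtain ⟨u, u0, hu⟩ := quad_exists_singular Q (by omega)
  obtain ⟨u', hu', huu'⟩ := o_exists_partner H.nd hu u0
  refine ⟨c u, fun x => ?_⟩
  let A : AddSubgroup V :=
    { carrier := {y | g.1 (k • (g⁻¹).1 y) = c u • y}
      add_mem' := fun {a b} ha hb => by
        simp only [Set.mem_ofPred_eq, map_add, smul_add] at ha hb ⊢; rw [ha, hb]
      zero_mem' := by simp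
      neg_mem' := fun {a} ha => by
        simp only [Set.mem_ofPred_eq, map_neg, smul_neg] at ha ⊢; rw [ha] }
  have := singular_ind hu hu' huu' A (fun y hy => ?_) (g.1 x)
  · simpa [A] using this
  by_cases y0 : y = 0
  · simp [y0]
  change _ = _
  rw [hc y hy]
  by_cases e : polar Q u y = 0
  · obtain ⟨z, z1, z2, z3⟩ := o_exists_common_partner H.nd hu u0 y0 e
    rw [h4 u z hu z1 z2, h4 y z hy z1 z3]
  · rw [h4 u y hu hy e]

end Over

/-- **The unitary subgroups.** -/
theorem omax : OMax (KN Q K) := by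
  have hd := H.dimF
  have hd' := H.dim
  refine ⟨?_, fun M hM _ g hg hgn => ?_⟩
  · obtain ⟨v, v0, hv⟩ := quad_exists_singular Q (by omega)
    obtain ⟨v', hv', e⟩ := o_exists_partner H.nd hv v0
    have e' : h v v' ≠ 0 := fun e' => one_ne_zero (e ▸ H.polar_zero e')
    have := finrank_inf (h := h) ⊤ v v'
    rw [finrank_top, top_inf_eq] at this
    obtain ⟨w, hw, w0, hwq⟩ := H.exists_singK (W := PP h v v') (by omega)
    have w1 := H.zero_symm hw.1
    refine ⟨_, eich_mem_omega H.nd (by omega) v w, fun H' => ?_⟩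
    obtain ⟨k, hk⟩ := H.ne
    obtain ⟨l, hl⟩ := H'.1 k
    have a1 := hl v
    rw [eich_app_self, eich_app_of_polar (H.polar_zero (by rw [H.smul_left, H.Q_zero.1 hv, mul_zero]))
      (H.polar_zero (by rw [H.smul_left, w1, mul_zero]))] at a1
    obtain rfl := smul_left_injective K v0 a1
    have a2 := hl v'
    simp only [eich_app hv (H.polar_zero w1), hwq, zero_mul, add_zero, polar_comm Q v' v, e,
      H.polar_zero (H.zero_symm hw.2), H.polar_zero (x := k • v') (y := w) (by
        rw [H.smul_left, H.zero_symm hw.2, mul_zero]), zero_smul, sub_zero, one_smul, smul_add,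
      add_right_inj] at a2
    rw [← algebraMap_smul K] at a2
    exact hk (smul_left_injective K w0 a2 ▸ H.alg _)
  rw [omega_eq H.nd (by omega)]
  by_contra hno
  refine hgn (H.mem_KN_of_EA hM (fun v hv v0 z hz => ?_) hg)
  by_contra! H'
  exact hno (H.EO_le hM hv v0 (H.full hM hv v0 hz H'))

end HStr

theorem omax_gu [Finite F] [FiniteDimensional F V] [FiniteDimensional F K]
    (hQ : (polarBilin Q).Nondegenerate) (hr : finrank F K = 2) (hn : 10 ≤ finrank F V)
    (hac : ∀ k : K, ∃ l : K, ∀ x y, polar Q (k • x) y = polar Q x (l • y))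
    (hns : ¬ ∀ (k : K) x y, polar Q (k • x) y = polar Q x (k • y))
    (hsc : ∀ k : K, ∃ c : F, ∀ x, Q (k • x) = c * Q x) : OMax (KN Q K) := by
  have : FiniteDimensional K V := Module.Finite.of_restrictScalars_finite F K V
  obtain ⟨v, v0⟩ := Module.finrank_pos_iff_exists_ne_zero.1 (show 0 < finrank F V by omega)
  have ext : ∀ a b : K, (∀ x y, polar Q x (a • y) = polar Q x (b • y)) → a = b := fun a b e =>
    smul_left_injective K v0 (o_eq_of_polar hQ fun y => by rw [polar_comm, e, polar_comm])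
  choose f hf using hac
  let s : K →+* K :=
    { toFun := f
      map_one' := ext _ _ fun x y => by rw [← hf, one_smul, one_smul]
      map_mul' := fun a b => ext _ _ fun x y => by rw [← hf, mul_smul, hf, hf, mul_comm, mul_smul]
      map_zero' := ext _ _ fun x y => by rw [← hf]; simp
      map_add' := fun a b => ext _ _ fun x y => by
        rw [← hf, add_smul, add_smul, polar_add_left, polar_add_right, hf, hf] }
  have hs : ∀ (k : K) x y, polar Q (k • x) y = polar Q x (s k • y) := hf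
  have ss : ∀ k, s (s k) = k := fun k => ext _ _ fun x y => by
    rw [← hs, polar_comm, ← hs, polar_comm]
  have alg : ∀ a, s (algebraMap F K a) = algebraMap F K a := fun a => ext _ _ fun x y => by
    rw [← hs, algebraMap_smul, algebraMap_smul, o_polar_smul_left, o_polar_smul_right]
  obtain ⟨k, hk⟩ : ∃ k, s k ≠ k := by
    by_contra! H
    exact hns fun k x y => by rw [hs, H]
  have k0 : k - s k ≠ 0 := sub_ne_zero.2 hk.symm
  have k1 : s k - k ≠ 0 := sub_ne_zero.2 hk
  have fix : ∀ l, s l = l → ∃ a, algebraMap F K a = l := fun l hl => by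
    let E : Subalgebra F K := { s.eqLocus (RingHom.id K) with algebraMap_mem' := alg }
    have hE : E = ⊥ := ((Subalgebra.isSimpleOrder_of_finrank_prime F K (hr ▸ Nat.prime_two)).eq_bot_or_eq_top
      E).resolve_right fun H => hk (show k ∈ E from H ▸ Algebra.mem_top)
    exact Algebra.mem_bot.1 (hE ▸ hl : l ∈ (⊥ : Subalgebra F K))
  let b : V → V → K := fun x y =>
    (algebraMap F K (polar Q (k • x) y) - s k * algebraMap F K (polar Q x y)) / (k - s k)
  obtain ⟨t, ht⟩ := fix (k + s k) (by rw [map_add, ss, add_comm])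
  obtain ⟨n, hn'⟩ := fix (k * s k) (by rw [map_mul, ss, mul_comm])
  have b1 : ∀ x y, b (k • x) y = k * b x y := fun x y => by
    have : k • k • x = t • k • x - n • x := by
      rw [← algebraMap_smul K t, ← algebraMap_smul K n, ht, hn']; module
    simp only [b, this, oexp, map_sub, map_mul, ht, hn']
    field_simp
    ring
  have b2 : ∀ x x' y, b (x + x') y = b x y + b x' y := fun x x' y => by
    simp only [b, smul_add, polar_add_left, map_add]; ring
  have b3 : ∀ (a : F) x y, b (a • x) y = algebraMap F K a * b x y := fun a x y => by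
    simp only [b, smul_comm k a, o_polar_smul_left, map_mul]; ring
  have b4 : ∀ (l : K) x y, b (l • x) y = l * b x y := fun l x y => by
    obtain ⟨α, hα⟩ := fix ((l - s l) / (k - s k)) (by
      simp only [map_div₀, map_sub, ss]; field_simp; ring)
    obtain ⟨β, hβ⟩ := fix (l - algebraMap F K α * k) (by
      rw [map_sub, map_mul, alg, hα]; field_simp; ring)
    have e : l = algebraMap F K α * k + algebraMap F K β := by rw [hβ]; ring
    rw [e, add_smul, mul_smul, algebraMap_smul, algebraMap_smul, b2, b3, b3, b1]; ring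
  let h : V →ₗ[K] V →+ K :=
    { toFun := fun x =>
        { toFun := b x
          map_zero' := by simp [b]
          map_add' := fun y y' => by simp only [b, polar_add_right, map_add]; ring }
      map_add' := fun x x' => AddMonoidHom.ext (b2 x x')
      map_smul' := fun l x => AddMonoidHom.ext (b4 l x) }
  have hc : ∀ l : K, ∀ x, algebraMap F K (Q (l • x)) = l * s l * algebraMap F K (Q x) := fun l x => by
    obtain ⟨c, hc⟩ := hsc l
    rw [hc, map_mul, ext (algebraMap F K c) (l * s l) fun x y => by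
      rw [mul_comm, mul_smul, ← hs, algebraMap_smul, o_polar_smul_right]
      simp only [polar, ← smul_add, hc]; ring]
  refine HStr.omax (s := s) (h := h) ⟨hQ, fun x y => ?_, ss, alg, fun x y => ?_, fun x => ?_, fix,
    ⟨k, hk⟩, ?_⟩
  · change b y x = s (b x y)
    have : s k • y = t • y - k • y := by rw [← algebraMap_smul K t, ht]; module
    simp only [b, map_div₀, map_sub, map_mul, alg, ss, hs k x y, this, oexp, polar_comm Q y x,
      polar_comm Q (k • y) x, ht, map_add]
    field_simp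
    ring
  · change _ = b x y + s (b x y)
    simp only [b, map_div₀, map_sub, map_mul, alg, ss]
    field_simp
    ring
  · change _ = b x x
    have := hc (k + 1) x
    rw [add_smul, one_smul, o_qadd, map_add, map_add, hc, map_add, map_one] at this
    simp only [b, o_polar_self, map_mul, map_ofNat]
    field_simp
    linear_combination -this
  · have := Module.finrank_mul_finrank F K V
    rw [hr] at this
    omega

section Mat

open Matrix Cfsg.Geo

universe u

variable {F : Type u} [Field F] {ι : Type} [Fintype ι] [DecidableEq ι]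

theorem isMaximalIn_field [Nonempty ι] (P : QuadraticForm F (ι → F)) {r : ℕ}
    {K : Subalgebra F (Matrix ι ι F)} (hK : IsFieldSubalgebra r K)
    (H : ∀ (L : Type u) [Field L] [Algebra F L] [Module L (ι → F)] [IsScalarTower F L (ι → F)]
      [FiniteDimensional F L], finrank F L = r → (∀ l : L, ∃ k ∈ K, ∀ x, l • x = k *ᵥ x) →
      (∀ k ∈ K, ∃ l : L, ∀ x, l • x = k *ᵥ x) → OMax (KN P L)) :
    IsMaximalIn (omegaGL ⇑P) (subalgebraNormalizer K ⊓ omegaGL ⇑P) := by
  letI := (Max.IsFieldSubalgebra.isField hK).toField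
  letI : Module K (ι → F) := Module.compHom (ι → F)
    (((Matrix.toLinAlgEquiv' : Matrix ι ι F ≃ₐ[F] Module.End F (ι → F)) :
      Matrix ι ι F →+* Module.End F (ι → F)).comp (K.val : K →+* Matrix ι ι F))
  have hT : IsScalarTower F K (ι → F) := ⟨fun c z v => smul_mulVec _ _ _⟩
  refine isMaximalIn_omega P _ (KN P K) (fun g => ⟨fun H => ⟨fun k => ⟨⟨_, (H k).1 k.2⟩, fun x => ?_⟩,
    fun k => ⟨⟨Max.cj g.1⁻¹ k, (Max.mem_subalgebraNormalizer.1 H _).2 (by
      rw [Max.cj_cj_inv]; exact k.2)⟩, fun x => ?_⟩⟩, fun H k => ⟨fun hk => ?_, fun hk => ?_⟩⟩)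
    (@H K _ _ _ hT _ hK.finrank_eq (fun l => ⟨l, l.2, fun _ => rfl⟩) fun k hk => ⟨⟨k, hk⟩, fun _ => rfl⟩)
  · exact (Max.cj_mulVec g.1 k x).symm
  · change g.1.1 *ᵥ (Max.cj g.1⁻¹ k *ᵥ x) = k.1 *ᵥ (g.1.1 *ᵥ x)
    rw [← Max.cj_mulVec, Max.cj_cj_inv]
  · obtain ⟨l, hl⟩ := H.1 ⟨k, hk⟩
    change Max.cj g.1 k ∈ K
    rw [(Max.cj_eq_iff _ _ l.1).2 (Matrix.ext_iff_mulVec.2 fun x => by
      rw [← mulVec_mulVec, ← mulVec_mulVec]; exact hl x)]
    exact l.2
  · obtain ⟨l, hl⟩ := H.2 ⟨_, hk⟩
    rw [(Max.cj g.1).injective ((Max.cj_eq_iff _ l.1 (Max.cj g.1 k)).2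
      (Matrix.ext_iff_mulVec.2 fun x => by
        rw [← mulVec_mulVec, ← mulVec_mulVec]; exact hl x)).symm]
    exact l.2

theorem isMaximalIn_gu [Finite F] (P : QuadraticForm F (ι → F)) (hP : (polarBilin P).Nondegenerate)
    (hn : 10 ≤ Fintype.card ι) {K : Subalgebra F (Matrix ι ι F)} (hK : IsFieldSubalgebra 2 K)
    (hac : IsAdjointClosedFor (polar ⇑P) K) (hns : ¬ IsSelfAdjointFor (polar ⇑P) K)
    (hsc : ∀ k ∈ K, ∃ c : F, ∀ v, P (k *ᵥ v) = c * P v) :
    IsMaximalIn (omegaGL ⇑P) (subalgebraNormalizer K ⊓ omegaGL ⇑P) := by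
  have : Nonempty ι := Fintype.card_pos_iff.1 (by omega)
  refine isMaximalIn_field P hK fun L _ _ _ _ _ hr h1 h2 => omax_gu hP hr (by simpa using hn)
    (fun l => ?_) (fun H => hns fun k hk x y => ?_) fun l => ?_
  · obtain ⟨k, hk, e⟩ := h1 l
    obtain ⟨k', hk', e'⟩ := hac k hk
    obtain ⟨l', e''⟩ := h2 k' hk'
    exact ⟨l', fun x y => by rw [e, e', e'']⟩
  · obtain ⟨l, e⟩ := h2 k hk
    rw [← e, ← e, H]
  · obtain ⟨k, hk, e⟩ := h1 l
    simpa only [e] using hsc k hk

end Mat

end Cfsg.Agent.Cl.MaxO
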