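import Mathlib
import Cfsg.Agent.Cl.MaxFormT

/-!
# Tensor slots

A slot is an algebra homomorphism `ψ : Matrix κ κ F →ₐ A`; `A = E ⊗ C` with `E` the range of `ψ`
and `C` its centraliser (`InC`).  `pj ψ l X` is the `E`-component of `X` along a functional `l`.
Criteria for membership in `E`, `C`, `E + C`; lower bounds for the rank of `c ψ(h) - 1`.
-/

set_option autoImplicit false
set_option linter.unusedSectionVars false
set_option linter.unusedVariables false

namespace Cfsg.Agent.Cl.Max

open Matrix Cfsg.Geo Module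

variable {F : Type*} [Field F] {κ : Type} [Fintype κ] [DecidableEq κ]

/-- A scalar element. -/
def IsSc (F : Type*) [Field F] {A : Type*} [Ring A] [Algebra F A] (x : A) : Prop :=
  ∃ c : F, x = c • (1 : A)

section Alg

variable {A : Type*} [Ring A] [Algebra F A]

theorem isSc_smul_one (c : F) : IsSc F (c • (1 : A)) := ⟨c, rfl⟩
theorem isSc_zero : IsSc F (0 : A) := ⟨0, by simp⟩
theorem isSc_one : IsSc F (1 : A) := ⟨1, by simp⟩
theorem IsSc.add {x y : A} (hx : IsSc F x) (hy : IsSc F y) : IsSc F (x + y) := by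
  obtain ⟨a, rfl⟩ := hx; obtain ⟨b, rfl⟩ := hy; exact ⟨a + b, (add_smul _ _ _).symm⟩
theorem IsSc.smul {x : A} (hx : IsSc F x) (c : F) : IsSc F (c • x) := by
  obtain ⟨a, rfl⟩ := hx; exact ⟨c * a, smul_smul _ _ _⟩
theorem IsSc.neg {x : A} (hx : IsSc F x) : IsSc F (-x) := by
  simpa using hx.smul (-1)
theorem IsSc.sub {x y : A} (hx : IsSc F x) (hy : IsSc F y) : IsSc F (x - y) := by
  rw [sub_eq_add_neg]; exact hx.add hy.neg
theorem IsSc.of_smul {x : A} {c : F} (hx : IsSc F (c • x)) (hc : c ≠ 0) : IsSc F x := by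
  simpa [hc] using hx.smul c⁻¹
theorem IsSc.comm {x : A} (hx : IsSc F x) (y : A) : x * y = y * x := by
  obtain ⟨a, rfl⟩ := hx; simp
theorem IsSc.mul {x y : A} (hx : IsSc F x) (hy : IsSc F y) : IsSc F (x * y) := by
  obtain ⟨a, rfl⟩ := hx; simpa using hy.smul a
theorem IsSc.map {B : Type*} [Ring B] [Algebra F B] {G : Type*} [FunLike G A B]
    [AlgHomClass G F A B] (φ : G) {x : A} (hx : IsSc F x) : IsSc F (φ x) := by
  obtain ⟨a, rfl⟩ := hx; exact ⟨a, by rw [map_smul, map_one]⟩
theorem IsSc.eq_zero {x : A} (hx : IsSc F x) (hn : IsNilpotent x) : x = 0 := by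
  obtain ⟨a, rfl⟩ := hx
  obtain ⟨n, hn⟩ := hn
  rw [_root_.smul_pow, one_pow] at hn
  by_cases ha : a = 0
  · simp [ha]
  · have h1 : (1 : A) = 0 := by simpa [ha] using congrArg ((a ^ n)⁻¹ • ·) hn
    rw [h1, smul_zero]

theorem exists_dual_of_not_isSc {x : A} (hx : ¬ IsSc F x) : ∃ l : Dual F A, l 1 = 0 ∧ l x = 1 := by
  have : x ∉ Submodule.span F {(1 : A)} := fun H => by
    obtain ⟨c, hc⟩ := Submodule.mem_span_singleton.1 H
    exact hx ⟨c, hc.symm⟩
  obtain ⟨l, h1, h2⟩ := Submodule.exists_dual_map_eq_bot_of_notMem this inferInstance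
  refine ⟨(l x)⁻¹ • l, ?_, by simp [h1]⟩
  have : l 1 = 0 := (Submodule.eq_bot_iff _).1 h2 _
    (Submodule.mem_map_of_mem (Submodule.mem_span_singleton_self _))
  simp [this]

theorem isSc_of_dual {x : A} (h : ∀ l : Dual F A, l 1 = 0 → l x = 0) : IsSc F x := by
  by_contra H
  obtain ⟨l, h1, h2⟩ := exists_dual_of_not_isSc H
  exact one_ne_zero (h2.symm.trans (h l h1))

variable (ψ : Matrix κ κ F →ₐ[F] A)

/-- The element commutes with the slot. -/
def InC (c : A) : Prop := ∀ Y, c * ψ Y = ψ Y * c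

/-- The element lies in the slot. -/
def InE (x : A) : Prop := ∃ Y, ψ Y = x

/-- The element lies in `E + C`. -/
def InEC (x : A) : Prop := ∃ Y c, InC ψ c ∧ x = ψ Y + c

/-- The matrix coefficient, an element of the centraliser. -/
def coef (a b : κ) : A →ₗ[F] A where
  toFun X := ∑ i, ψ (single i a 1) * X * ψ (single b i 1)
  map_add' X Y := by simp only [mul_add, add_mul, Finset.sum_add_distrib]
  map_smul' c X := by simp only [mul_smul_comm, smul_mul_assoc, Finset.smul_sum, RingHom.id_apply]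

theorem coef_apply (a b : κ) (X : A) :
    coef ψ a b X = ∑ i, ψ (single i a 1) * X * ψ (single b i 1) := rfl

/-- The component in the slot along a functional. -/
def pj (l : Dual F A) : A →ₗ[F] Matrix κ κ F where
  toFun X := Matrix.of fun a b => l (coef ψ a b X)
  map_add' X Y := by ext a b; simp
  map_smul' c X := by ext a b; simp

theorem pj_apply (l : Dual F A) (X : A) (a b : κ) : pj ψ l X a b = l (coef ψ a b X) := rfl

variable {ψ}

theorem InC.add {c d : A} (hc : InC ψ c) (hd : InC ψ d) : InC ψ (c + d) := fun Y => by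
  rw [add_mul, mul_add, hc, hd]
theorem InC.mul {c d : A} (hc : InC ψ c) (hd : InC ψ d) : InC ψ (c * d) := fun Y => by
  rw [mul_assoc, hd, ← mul_assoc, hc, mul_assoc]
theorem InC.smul {c : A} (hc : InC ψ c) (a : F) : InC ψ (a • c) := fun Y => by
  rw [smul_mul_assoc, mul_smul_comm, hc]
theorem InC.neg {c : A} (hc : InC ψ c) : InC ψ (-c) := fun Y => by rw [neg_mul, mul_neg, hc]
theorem InC.sub {c d : A} (hc : InC ψ c) (hd : InC ψ d) : InC ψ (c - d) := fun Y => by
  rw [sub_mul, mul_sub, hc, hd]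
theorem inC_one : InC ψ 1 := fun Y => by rw [one_mul, mul_one]
theorem inC_zero : InC ψ 0 := fun Y => by rw [zero_mul, mul_zero]
theorem IsSc.inC {c : A} (hc : IsSc F c) : InC ψ c := fun Y => hc.comm _
theorem InC.pow {c : A} (hc : InC ψ c) (n : ℕ) : InC ψ (c ^ n) := fun Y =>
  (Commute.pow_left (hc Y) n).eq
theorem inC_sum {α : Type*} (s : Finset α) {c : α → A} (h : ∀ i ∈ s, InC ψ (c i)) :
    InC ψ (∑ i ∈ s, c i) := fun Y => by
  rw [Finset.sum_mul, Finset.mul_sum]
  exact Finset.sum_congr rfl fun i hi => h i hi Y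
theorem inC_of_single {c : A} (h : ∀ a b, c * ψ (single a b 1) = ψ (single a b 1) * c) :
    InC ψ c := fun Y => by
  simp only [algHom_matrix_apply ψ Y, Finset.mul_sum, Finset.sum_mul, mul_smul_comm,
    smul_mul_assoc, h]

theorem inE_map (Y : Matrix κ κ F) : InE ψ (ψ Y) := ⟨Y, rfl⟩
theorem InE.add {c d : A} (hc : InE ψ c) (hd : InE ψ d) : InE ψ (c + d) := ψ.range.add_mem hc hd
theorem InE.mul {c d : A} (hc : InE ψ c) (hd : InE ψ d) : InE ψ (c * d) := ψ.range.mul_mem hc hd
theorem InE.sub {c d : A} (hc : InE ψ c) (hd : InE ψ d) : InE ψ (c - d) := ψ.range.sub_mem hc hd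
theorem InE.smul {c : A} (hc : InE ψ c) (a : F) : InE ψ (a • c) := ψ.range.smul_mem hc a
theorem IsSc.inE {c : A} (hc : IsSc F c) : InE ψ c := by
  obtain ⟨a, rfl⟩ := hc; exact ⟨a • 1, by rw [map_smul, map_one]⟩
theorem InE.comm {x c : A} (hx : InE ψ x) (hc : InC ψ c) : c * x = x * c := by
  obtain ⟨Y, rfl⟩ := hx; exact hc Y
theorem InE.inEC {x : A} (hx : InE ψ x) : InEC ψ x := by
  obtain ⟨Y, rfl⟩ := hx; exact ⟨Y, 0, inC_zero, (add_zero _).symm⟩
theorem InC.inEC {x : A} (hx : InC ψ x) : InEC ψ x := ⟨0, x, hx, by simp⟩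
theorem InEC.add {x y : A} (hx : InEC ψ x) (hy : InEC ψ y) : InEC ψ (x + y) := by
  obtain ⟨X, c, hc, rfl⟩ := hx
  obtain ⟨Y, d, hd, rfl⟩ := hy
  exact ⟨X + Y, c + d, hc.add hd, by rw [map_add]; abel⟩
theorem InEC.smul {x : A} (hx : InEC ψ x) (a : F) : InEC ψ (a • x) := by
  obtain ⟨X, c, hc, rfl⟩ := hx
  exact ⟨a • X, a • c, hc.smul a, by rw [map_smul, smul_add]⟩
theorem InEC.neg {x : A} (hx : InEC ψ x) : InEC ψ (-x) := by simpa using hx.smul (-1)
theorem InEC.sub {x y : A} (hx : InEC ψ x) (hy : InEC ψ y) : InEC ψ (x - y) := by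
  rw [sub_eq_add_neg]; exact hx.add hy.neg
theorem InEC.of_smul {x : A} {c : F} (hx : InEC ψ (c • x)) (hc : c ≠ 0) : InEC ψ x := by
  simpa [hc] using hx.smul c⁻¹
theorem InE.of_smul {x : A} {c : F} (hx : InE ψ (c • x)) (hc : c ≠ 0) : InE ψ x := by
  simpa [hc] using hx.smul c⁻¹

theorem single_mul_single' (a b c d : κ) :
    ψ (single a b 1) * ψ (single c d 1) = if b = c then ψ (single a d 1) else 0 :=
  (isMU_of_ringHom (ψ : Matrix κ κ F →+* A)).mul a b c d

theorem sum_single' : ∑ i, ψ (single i i 1) = 1 :=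
  (isMU_of_ringHom (ψ : Matrix κ κ F →+* A)).sum

theorem single_mul_coef (a b c d : κ) (X : A) :
    ψ (single c d 1) * coef ψ a b X = ψ (single c a 1) * X * ψ (single b d 1) := by
  simp only [coef_apply, Finset.mul_sum, ← mul_assoc, single_mul_single', ite_mul, zero_mul,
    Finset.sum_ite_eq, Finset.mem_univ, if_true]

theorem coef_mul_single (a b c d : κ) (X : A) :
    coef ψ a b X * ψ (single c d 1) = ψ (single c a 1) * X * ψ (single b d 1) := by
  simp only [coef_apply, Finset.sum_mul, mul_assoc, single_mul_single', mul_ite, mul_zero,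
    Finset.sum_ite_eq', Finset.mem_univ, if_true]

theorem inC_coef (a b : κ) (X : A) : InC ψ (coef ψ a b X) :=
  inC_of_single fun c d => by rw [single_mul_coef, coef_mul_single]

theorem sum_coef (X : A) : ∑ a, ∑ b, ψ (single a b 1) * coef ψ a b X = X := by
  simp only [single_mul_coef, ← Finset.mul_sum, ← Finset.sum_mul, sum_single', one_mul, mul_one]

theorem coef_mul_inC {c : A} (hc : InC ψ c) (a b : κ) (X : A) :
    coef ψ a b (c * X) = c * coef ψ a b X := by
  simp only [coef_apply, Finset.mul_sum, ← mul_assoc, hc _]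

theorem coef_inC_mul {c : A} (hc : InC ψ c) (a b : κ) (X : A) :
    coef ψ a b (X * c) = coef ψ a b X * c := by
  simp only [coef_apply, Finset.sum_mul, mul_assoc, hc _]

theorem coef_map_mul (a b : κ) (Y : Matrix κ κ F) (X : A) :
    coef ψ a b (ψ Y * X) = ∑ d, Y a d • coef ψ d b X := by
  have : ∀ i, ψ (single i a 1) * ψ Y = ∑ d, Y a d • ψ (single i d 1) := fun i => by
    simp only [algHom_matrix_apply ψ Y, Finset.mul_sum, mul_smul_comm, single_mul_single']
    rw [Finset.sum_eq_single a (fun x _ hx => by simp [Ne.symm hx]) (by simp)]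
    simp
  simp only [coef_apply, ← mul_assoc, this, Finset.sum_mul, smul_mul_assoc, Finset.smul_sum]
  exact Finset.sum_comm

theorem coef_mul_map (a b : κ) (Y : Matrix κ κ F) (X : A) :
    coef ψ a b (X * ψ Y) = ∑ d, Y d b • coef ψ a d X := by
  have : ∀ i, ψ Y * ψ (single b i 1) = ∑ d, Y d b • ψ (single d i 1) := fun i => by
    simp only [algHom_matrix_apply ψ Y, Finset.sum_mul, smul_mul_assoc, single_mul_single']
    simp
  simp only [coef_apply, mul_assoc, this, Finset.mul_sum, mul_smul_comm, Finset.smul_sum]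
  exact Finset.sum_comm

theorem coef_one (a b : κ) : coef ψ a b 1 = if a = b then 1 else 0 := by
  simp only [coef_apply, mul_one, single_mul_single']
  split_ifs
  · exact sum_single'
  · simp

theorem coef_map_mul_inC {c : A} (hc : InC ψ c) (a b : κ) (Y : Matrix κ κ F) :
    coef ψ a b (ψ Y * c) = Y a b • c := by
  rw [coef_inC_mul hc, ← mul_one (ψ Y), coef_map_mul]
  simp [coef_one]

theorem pj_map_mul (l : Dual F A) (Y : Matrix κ κ F) (X : A) :
    pj ψ l (ψ Y * X) = Y * pj ψ l X := by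
  ext a b
  simp [pj_apply, coef_map_mul, Matrix.mul_apply]

theorem pj_mul_map (l : Dual F A) (Y : Matrix κ κ F) (X : A) :
    pj ψ l (X * ψ Y) = pj ψ l X * Y := by
  ext a b
  simp [pj_apply, coef_mul_map, Matrix.mul_apply, mul_comm]

theorem pj_map_mul_inC (l : Dual F A) (Y : Matrix κ κ F) {c : A} (hc : InC ψ c) :
    pj ψ l (ψ Y * c) = l c • Y := by
  ext a b
  simp [pj_apply, coef_map_mul_inC hc, mul_comm]

theorem pj_inC_mul_map (l : Dual F A) (Y : Matrix κ κ F) {c : A} (hc : InC ψ c) :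
    pj ψ l (c * ψ Y) = l c • Y := by rw [hc, pj_map_mul_inC l Y hc]

theorem pj_map (l : Dual F A) (Y : Matrix κ κ F) : pj ψ l (ψ Y) = l 1 • Y := by
  rw [← pj_map_mul_inC l Y inC_one, mul_one]

theorem pj_inC (l : Dual F A) {c : A} (hc : InC ψ c) : pj ψ l c = l c • 1 := by
  rw [← pj_map_mul_inC l 1 hc, map_one, one_mul]

theorem pj_inC_mul (l : Dual F A) {c : A} (hc : InC ψ c) (X : A) :
    pj ψ l (c * X) = pj ψ (l ∘ₗ LinearMap.mulLeft F c) X := by
  ext a b
  simp [pj_apply, coef_mul_inC hc]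

theorem eq_zero_of_pj {X : A} (h : ∀ l, pj ψ l X = 0) : X = 0 := by
  rw [← sum_coef (ψ := ψ) X]
  refine Finset.sum_eq_zero fun a _ => Finset.sum_eq_zero fun b _ => ?_
  rw [(forall_dual_apply_eq_zero_iff F _).1 fun l => congrFun (congrFun (h l) a) b, mul_zero]

theorem eq_of_pj {X Y : A} (h : ∀ l, pj ψ l X = pj ψ l Y) : X = Y :=
  sub_eq_zero.1 (eq_zero_of_pj (ψ := ψ) fun l => by rw [map_sub, h, sub_self])

theorem inC_of_pj {X : A} (h : ∀ l, IsSc F (pj ψ l X)) : InC ψ X := fun Y =>
  eq_of_pj fun l => by rw [pj_mul_map, pj_map_mul, (h l).comm]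

theorem exists_dual_one [Nontrivial A] : ∃ l : Dual F A, l 1 = 1 := by
  obtain ⟨l, hl⟩ : ∃ l : Dual F A, l 1 ≠ 0 := by
    by_contra! H
    exact one_ne_zero ((forall_dual_apply_eq_zero_iff F (1 : A)).1 H)
  exact ⟨(l 1)⁻¹ • l, by simp [hl]⟩

theorem pj_sub_dual (l m : Dual F A) (c : F) (X : A) :
    pj ψ (l - c • m) X = pj ψ l X - c • pj ψ m X := by
  ext a b; simp [pj_apply]

theorem inE_of_pj [Nontrivial A] {X : A} (h : ∀ l : Dual F A, l 1 = 0 → pj ψ l X = 0) :
    InE ψ X := by
  obtain ⟨m, hm⟩ := exists_dual_one (F := F) (A := A)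
  refine ⟨pj ψ m X, eq_of_pj (ψ := ψ) fun l => ?_⟩
  have := h (l - l 1 • m) (by simp [hm])
  rw [pj_sub_dual, sub_eq_zero] at this
  rw [pj_map, this]

theorem inEC_of_pj [Nontrivial A] {X : A} (h : ∀ l : Dual F A, l 1 = 0 → IsSc F (pj ψ l X)) :
    InEC ψ X := by
  obtain ⟨m, hm⟩ := exists_dual_one (F := F) (A := A)
  refine ⟨pj ψ m X, X - ψ (pj ψ m X), inC_of_pj fun l => ?_, by abel⟩
  have := h (l - l 1 • m) (by simp [hm])
  rwa [map_sub, pj_map, ← pj_sub_dual]

theorem InEC.isSc_pj {X : A} (h : InEC ψ X) {l : Dual F A} (hl : l 1 = 0) : IsSc F (pj ψ l X) := by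
  obtain ⟨Y, c, hc, rfl⟩ := h
  rw [map_add, pj_map, hl, zero_smul, zero_add, pj_inC l hc]
  exact ⟨_, rfl⟩

theorem InE.pj_eq_zero {X : A} (h : InE ψ X) {l : Dual F A} (hl : l 1 = 0) : pj ψ l X = 0 := by
  obtain ⟨Y, rfl⟩ := h
  rw [pj_map, hl, zero_smul]

/-- An element whose commutators with the slot lie in the slot is in `E + C`. -/
theorem inEC_of_lie [Nontrivial A] {X : A} (h : ∀ Y, InE ψ (X * ψ Y - ψ Y * X)) : InEC ψ X :=
  inEC_of_pj fun l hl => eq_smul_one_of_commute fun Y => by
    have := (h Y).pj_eq_zero hl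
    rwa [map_sub, pj_mul_map, pj_map_mul, sub_eq_zero] at this

/-- The cross term of a product. -/
theorem InEC.cross {a a' : Matrix κ κ F} {c c' : A} (hc : InC ψ c) (hc' : InC ψ c')
    (h : InEC ψ (ψ a * c' + ψ a' * c)) {l : Dual F A} (hl : l 1 = 0) :
    IsSc F (l c' • a + l c • a') := by
  have := h.isSc_pj hl
  rwa [map_add, pj_map_mul_inC l a hc', pj_map_mul_inC l a' hc] at this

theorem InEC.cross_of_mul {a a' : Matrix κ κ F} {c c' : A} (hc : InC ψ c) (hc' : InC ψ c')
    (h : InEC ψ ((ψ a + c) * (ψ a' + c'))) {l : Dual F A} (hl : l 1 = 0) :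
    IsSc F (l c' • a + l c • a') := by
  refine InEC.cross hc hc' ?_ hl
  have := (h.sub (inE_map (a * a')).inEC).sub (hc.mul hc').inEC
  convert this using 1
  rw [map_mul, ← hc a']; noncomm_ring

theorem inE_add_isSc (a : Matrix κ κ F) {c : A} (hc : IsSc F c) : InE ψ (ψ a + c) :=
  (inE_map a).add hc.inE

theorem inC_add_isSc {a : Matrix κ κ F} (ha : IsSc F a) {c : A} (hc : InC ψ c) :
    InC ψ (ψ a + c) := (ha.map ψ).inC.add hc

/-- In odd characteristic an element of `E + C` whose square is in `E + C` lies in `E` or `C`. -/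
theorem InEC.or_of_sq (h2 : (2 : F) ≠ 0) {X : A} (h : InEC ψ X) (h' : InEC ψ (X * X)) :
    InE ψ X ∨ InC ψ X := by
  obtain ⟨a, c, hc, rfl⟩ := h
  by_cases hs : IsSc F c
  · exact Or.inl (inE_add_isSc a hs)
  · obtain ⟨l, h1, h3⟩ := exists_dual_of_not_isSc hs
    have := h'.cross_of_mul hc hc h1
    rw [h3, one_smul, ← two_smul F] at this
    exact Or.inr (inC_add_isSc (this.of_smul h2) hc)

/-- Two elements of `E + C` with product in `E + C`. -/
theorem InEC.or_of_mul {X X' : A} (h : InEC ψ X) (h' : InEC ψ X') (hm : InEC ψ (X * X')) :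
    InE ψ X ∨ InC ψ X ∨ ∃ (μ : F) (a : Matrix κ κ F) (c : A), InC ψ c ∧ X = ψ a + c ∧
      IsSc F (X' - μ • (ψ a - c)) := by
  obtain ⟨a, c, hc, rfl⟩ := h
  obtain ⟨a', c', hc', rfl⟩ := h'
  by_cases hs : IsSc F c
  · exact Or.inl (inE_add_isSc a hs)
  by_cases hs' : IsSc F a
  · exact Or.inr (Or.inl (inC_add_isSc hs' hc))
  obtain ⟨l, h1, h3⟩ := exists_dual_of_not_isSc hs
  have e1 := hm.cross_of_mul hc hc' h1
  rw [h3, one_smul] at e1
  have e2 : IsSc F (c' - l c' • c) := isSc_of_dual fun m hm1 => by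
    have e3 := (hm.cross_of_mul hc hc' hm1).sub (e1.smul (m c))
    by_contra H
    refine hs' (IsSc.of_smul ?_ H)
    convert e3 using 1
    simp only [map_sub, map_smul, smul_eq_mul]
    module
  refine Or.inr (Or.inr ⟨-l c', a, c, hc, rfl, ?_⟩)
  convert (e1.map ψ).add e2 using 1
  simp only [map_add, map_smul]
  module

theorem isSc_of_inE_of_inC [Nontrivial A] {X : A} (h : InE ψ X) (h' : InC ψ X) : IsSc F X := by
  obtain ⟨Y, rfl⟩ := h
  exact IsSc.map ψ (eq_smul_one_of_commute fun Z => algHom_matrix_injective ψ (by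
    rw [map_mul, map_mul, h' Z]))

/-- An element commuting with the centraliser lies in the slot. -/
theorem inE_of_comm [Nontrivial A] (hA : ∀ x : A, (∀ y, x * y = y * x) → IsSc F x) {X : A}
    (h : ∀ c, InC ψ c → X * c = c * X) : InE ψ X := by
  refine inE_of_pj fun l hl => ?_
  ext a b
  obtain ⟨s, hs⟩ := hA (coef ψ a b X) fun y => by
    rw [← sum_coef (ψ := ψ) y]
    simp only [Finset.mul_sum, Finset.sum_mul]
    refine Finset.sum_congr rfl fun c _ => Finset.sum_congr rfl fun d _ => ?_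
    rw [← mul_assoc, inC_coef, mul_assoc, mul_assoc, ← coef_inC_mul (inC_coef c d y),
      h _ (inC_coef c d y), coef_mul_inC (inC_coef c d y)]
  rw [pj_apply, hs, map_smul, hl, smul_zero, Matrix.zero_apply]

/-- If the off-diagonal matrix units of a second slot lie in `E` or `C`, the slot does. -/
theorem inE_or_inC_of_single {β : Type} [Fintype β] [DecidableEq β] [Nontrivial β] [Nontrivial A]
    (φ : Matrix β β F →ₐ[F] A)
    (h : ∀ i j, i ≠ j → InE ψ (φ (single i j 1)) ∨ InC ψ (φ (single i j 1))) :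
    (∀ X, InE ψ (φ X)) ∨ ∀ X, InC ψ (φ X) := by
  have key : ∀ P R : A → Prop, (∀ x y, P x → R y → x * y = y * x) →
      (∀ i j, i ≠ j → P (φ (single i j 1)) ∨ R (φ (single i j 1))) →
      (∀ x y, P x → P y → P (x * y)) → ∀ i j, i ≠ j → P (φ (single i j 1)) →
      ∀ k l, P (φ (single k l 1)) := by
    intro P R hPR hh hm i j hij hP
    have nz : ∀ a b, φ (single a b 1) ≠ 0 := fun a b e => by
      have := algHom_matrix_injective φ (e.trans (map_zero φ).symm)
      simpa using congrFun (congrFun this a) b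
    have s1 : ∀ a b c, a ≠ b → b ≠ c → P (φ (single a b 1)) → P (φ (single b c 1)) :=
      fun a b c hab hbc H => (hh b c hbc).resolve_right fun H' => by
        have := hPR _ _ H H'
        rw [single_mul_single', single_mul_single', if_pos rfl] at this
        split_ifs at this with e
        · have := algHom_matrix_injective φ this
          subst e
          simpa [hab, hbc] using congrFun (congrFun this c) c
        · exact nz _ _ this
    have s2 : ∀ a b c, a ≠ b → c ≠ a → P (φ (single a b 1)) → P (φ (single c a 1)) :=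
      fun a b c hab hca H => (hh c a hca).resolve_right fun H' => by
        have := hPR _ _ H H'
        rw [single_mul_single', single_mul_single', if_pos rfl] at this
        split_ifs at this with e
        · have := algHom_matrix_injective φ this
          subst e
          simpa [hab, hca] using congrFun (congrFun this a) a
        · exact nz _ _ this.symm
    have hji := s1 i j i hij hij.symm hP
    have r1 : ∀ l, P (φ (single i l 1)) := fun l => by
      by_cases e : i = l
      · have := hm _ _ hP hji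
        rw [single_mul_single', if_pos rfl] at this
        exact e ▸ this
      · exact s1 j i l hij.symm e hji
    have r2 : ∀ l, P (φ (single l i 1)) := fun l => by
      by_cases e : l = i
      · exact e ▸ r1 l
      · exact s2 i j l hij e hP
    intro k l
    have := hm _ _ (r2 k) (r1 l)
    rwa [single_mul_single', if_pos rfl] at this
  obtain ⟨i, j, hij⟩ := exists_pair_ne β
  rcases h i j hij with H | H
  · left
    intro X
    have := key (InE ψ) (InC ψ) (fun x y hx hy => (hx.comm hy).symm) h (fun x y => InE.mul) i j hij H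
    rw [algHom_matrix_apply φ X]
    exact ψ.range.sum_mem fun a _ => ψ.range.sum_mem fun b _ => ψ.range.smul_mem (this a b) _
  · right
    intro X
    have := key (InC ψ) (InE ψ) (fun x y hx hy => hy.comm hx) (fun i j e => (h i j e).symm)
      (fun x y => InC.mul) i j hij H
    rw [algHom_matrix_apply φ X]
    exact inC_sum _ fun a _ => inC_sum _ fun b _ => (this a b).smul _

/-- If the off-diagonal units of a second slot lie in `E + C`, the slot lies in `E` or in `C`. -/
theorem inE_or_inC_of_inEC {β : Type} [Fintype β] [DecidableEq β] [Nontrivial β] [Nontrivial A]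
    (h23 : (2 : F) ≠ 0 ∨ 3 ≤ Fintype.card β) (φ : Matrix β β F →ₐ[F] A)
    (h : ∀ i j, i ≠ j → InEC ψ (φ (single i j 1))) :
    (∀ X, InE ψ (φ X)) ∨ ∀ X, InC ψ (φ X) := by
  refine inE_or_inC_of_single φ fun i j hij => ?_
  by_cases h2 : (2 : F) = 0
  · obtain ⟨k, hk⟩ : ∃ k, k ∉ ({i, j} : Finset β) := by
      by_contra! H
      have := Finset.card_le_card (fun x _ => H x : Finset.univ ⊆ ({i, j} : Finset β))
      have h4 := Finset.card_le_two (a := i) (b := j)
      rw [Finset.card_univ] at this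
      have := h23.resolve_left (not_not.2 h2)
      omega
    simp only [Finset.mem_insert, Finset.mem_singleton, not_or] at hk
    rcases (h i j hij).or_of_mul (h i k (Ne.symm hk.1)) (by
      rw [single_mul_single', if_neg hij.symm]; exact inC_zero.inEC) with H | H | ⟨μ, a, c, -, e, s, hs⟩
    · exact Or.inl H
    · exact Or.inr H
    · have e2 : ψ a - c = φ (single i j 1) := by
        rw [e, sub_eq_add_neg, ← neg_one_smul F c, show (-1 : F) = 1 by linear_combination -h2,
          one_smul]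
      rw [e2, ← map_smul, ← map_sub, ← map_one φ, ← map_smul] at hs
      have := congrFun (congrFun (algHom_matrix_injective φ hs) i) k
      simp [Ne.symm hk.1, Ne.symm hk.2] at this
  · exact (h i j hij).or_of_sq h2 (by
      rw [single_mul_single', if_neg hij.symm]; exact inC_zero.inEC)

end Alg

end Cfsg.Agent.Cl.Max
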