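import Mathlib
import Cfsg.Agent.Cl.MaxSlot

/-!
# The transfer argument for tensor slots

For a slot `ψ` of `End V` and a group `M ≤ GL(V)` put `Φ = ∑ Φ_T`, the sum over the `M`-conjugates
`T` of the slot of the trace-form maps `Φ_T : End V → T`.  `Φ` commutes with `M`.  On an element
fixed by an abelian `p`-group inside the slot the conjugates which are moved cancel
(`transfer_step`, `mem_DK`).  If this happens on all traceless elements, every conjugate of the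
slot equals the slot or commutes with it (`transfer_rigid`).
-/

set_option autoImplicit false
set_option linter.unusedSectionVars false
set_option linter.unusedVariables false

namespace Cfsg.Agent.Cl.Max

open Matrix Cfsg.Geo Module

section Orbit

variable {P Ω N : Type*} [AddCommGroup P] [AddCommGroup N] (act : P → Ω → Ω)
  (h0 : ∀ ω, act 0 ω = ω) (hadd : ∀ s t ω, act (s + t) ω = act s (act t ω))
include h0 hadd

/-- The orbits of a subgroup. -/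
def orbSetoid (R : AddSubgroup P) : Setoid Ω where
  r a b := ∃ t ∈ R, act t b = a
  iseqv := ⟨fun a => ⟨0, R.zero_mem, h0 a⟩,
    fun ⟨t, ht, e⟩ => ⟨-t, R.neg_mem ht, by rw [← e, ← hadd, neg_add_cancel, h0]⟩,
    fun ⟨t, ht, e⟩ ⟨s, hs, e'⟩ => ⟨t + s, R.add_mem ht hs, by rw [hadd, e', e]⟩⟩

theorem sum_eq_zero_of_orbits (f : Ω → N) (s : Finset Ω) (hs : ∀ t, ∀ ω ∈ s, act t ω ∈ s)
    (h : ∀ ω ∈ s, ∃ (R : AddSubgroup P) (B : Finset P), (∀ t, t ∈ B ↔ t ∈ R) ∧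
      (∀ t ∈ R, act t ω = ω → t = 0) ∧ ∀ r, ∑ t ∈ B, f (act t (act r ω)) = 0) :
    ∑ ω ∈ s, f ω = 0 := by
  classical
  refine Finset.sum_cancels_of_partition_cancels (orbSetoid act h0 hadd ⊤) fun ω hω => ?_
  obtain ⟨R, B, hB, h1, h2⟩ := h ω hω
  refine Finset.sum_cancels_of_partition_cancels (orbSetoid act h0 hadd R) fun ω' hω' => ?_
  obtain ⟨hω's, r, -, rfl⟩ := Finset.mem_filter.1 hω'
  rw [← h2 r]
  symm
  refine Finset.sum_bij (fun t _ => act t (act r ω)) (fun t ht => ?_) (fun t ht t' ht' e => ?_)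
    (fun b hb => ?_) fun _ _ => rfl
  · exact Finset.mem_filter.2 ⟨Finset.mem_filter.2 ⟨hs _ _ hω's, t + r, trivial, hadd _ _ _⟩,
      t, (hB t).1 ht, rfl⟩
  · refine sub_eq_zero.1 (h1 _ (R.sub_mem ((hB t).1 ht) ((hB t').1 ht')) ?_)
    have e2 := congrArg (act (-(t' + r))) e
    simp only [← hadd] at e2
    rw [show -(t' + r) + (t + r) = t - t' by abel, neg_add_cancel, h0] at e2
    exact e2
  · obtain ⟨-, t, ht, e⟩ := Finset.mem_filter.1 hb
    exact ⟨t, (hB t).2 ht, e⟩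

end Orbit

variable {F : Type*} [Field F] {κ : Type} [Fintype κ] [DecidableEq κ]
  {ι : Type} [Fintype ι] [DecidableEq ι]

/-- The conjugate slot. -/
def cjH (g : GL ι F) (ψ : Matrix κ κ F →ₐ[F] Matrix ι ι F) : Matrix κ κ F →ₐ[F] Matrix ι ι F :=
  (cj g : Matrix ι ι F →ₐ[F] Matrix ι ι F).comp ψ

theorem cjH_apply (g : GL ι F) (ψ : Matrix κ κ F →ₐ[F] Matrix ι ι F) (X : Matrix κ κ F) :
    cjH g ψ X = cj g (ψ X) := rfl

theorem cjH_mul (g h : GL ι F) (ψ : Matrix κ κ F →ₐ[F] Matrix ι ι F) :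
    cjH (g * h) ψ = cjH g (cjH h ψ) := AlgHom.ext fun X => cj_mul _ _ _

theorem cjH_one (ψ : Matrix κ κ F →ₐ[F] Matrix ι ι F) : cjH 1 ψ = ψ :=
  AlgHom.ext fun X => cj_one _

theorem cj_homG (ψ : Matrix κ κ F →ₐ[F] Matrix ι ι F) (a : GL κ F) (X : Matrix κ κ F) :
    cj (homG ψ a) (ψ X) = ψ (cj a X) := by
  rw [cj_apply, cj_apply, ← map_inv, coe_homG, coe_homG, map_mul, map_mul]

theorem cj_homG_inC {ψ : Matrix κ κ F →ₐ[F] Matrix ι ι F} (a : GL κ F) {c : Matrix ι ι F}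
    (hc : InC ψ c) : cj (homG ψ a) c = c := by
  rw [cj_eq_iff, coe_homG, hc]

theorem pj_cj_homG (ψ : Matrix κ κ F →ₐ[F] Matrix ι ι F) (l : Dual F (Matrix ι ι F))
    (a : GL κ F) (X : Matrix ι ι F) : pj ψ l (cj (homG ψ a) X) = cj a (pj ψ l X) := by
  rw [cj_apply, cj_apply, ← map_inv, coe_homG, coe_homG, pj_mul_map, pj_map_mul]

theorem inC_cjH {ψ : Matrix κ κ F →ₐ[F] Matrix ι ι F} {g : GL ι F} {c : Matrix ι ι F} :
    InC (cjH g ψ) (cj g c) ↔ InC ψ c := by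
  simp only [InC, cjH_apply, ← map_mul, (cj g).injective.eq_iff]

theorem inE_cjH {ψ : Matrix κ κ F →ₐ[F] Matrix ι ι F} {g : GL ι F} {c : Matrix ι ι F} :
    InE (cjH g ψ) (cj g c) ↔ InE ψ c := by
  simp only [InE, cjH_apply, (cj g).injective.eq_iff]

theorem inEC_cjH {ψ : Matrix κ κ F →ₐ[F] Matrix ι ι F} {g : GL ι F} {x : Matrix ι ι F} :
    InEC (cjH g ψ) (cj g x) ↔ InEC ψ x := by
  constructor
  · rintro ⟨Y, c, hc, e⟩
    rw [← cj_cj_inv g c] at hc e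
    exact ⟨Y, _, inC_cjH.1 hc, (cj g).injective (by rw [e, map_add, cjH_apply])⟩
  · rintro ⟨Y, c, hc, rfl⟩
    exact ⟨Y, _, inC_cjH.2 hc, by rw [map_add, cjH_apply]⟩

variable (ψ : Matrix κ κ F →ₐ[F] Matrix ι ι F)

/-- The normaliser of the slot. -/
abbrev NE : Subgroup (GL ι F) := subalgebraNormalizer ψ.range

/-- The adjoint of `ψ` for the trace forms. -/
def th : Matrix ι ι F →ₗ[F] Matrix κ κ F where
  toFun X := Matrix.of fun a b => (X * ψ (single b a 1)).trace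
  map_add' X Y := by ext a b; simp [add_mul]
  map_smul' c X := by ext a b; simp

/-- The trace-form map onto the slot. -/
def Phi : Matrix ι ι F →ₗ[F] Matrix ι ι F := ψ.toLinearMap ∘ₗ th ψ

theorem Phi_apply (X : Matrix ι ι F) : Phi ψ X = ψ (th ψ X) := rfl

/-- The conjugate by `g` equals the slot or commutes with it. -/
def Good (g : GL ι F) : Prop := g ∈ NE ψ ∨ ∀ X, InC ψ (cj g (ψ X))

variable {ψ}

theorem NE_maps {g : GL ι F} (hg : g ∈ NE ψ) (X : Matrix κ κ F) : InE ψ (cj g (ψ X)) :=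
  (mem_subalgebraNormalizer.1 hg _).1 ⟨X, rfl⟩

theorem exists_cj_of_NE [Nonempty ι] {g : GL ι F} (hg : g ∈ NE ψ) :
    ∃ a : GL κ F, ∀ X, cj g (ψ X) = ψ (cj a X) := exists_cj_of_maps ψ ψ g (NE_maps hg)

theorem mem_NE_of_cj {g : GL ι F} {a : GL κ F} (h : ∀ X, cj g (ψ X) = ψ (cj a X)) : g ∈ NE ψ :=
  mem_subalgebraNormalizer.2 fun k => ⟨by rintro ⟨X, rfl⟩; exact ⟨_, (h X).symm⟩, fun ⟨Y, hY⟩ =>
    ⟨cj a⁻¹ Y, (cj g).injective (by
      change cj g (ψ _) = _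
      rw [h, cj_cj_inv]; exact hY)⟩⟩

theorem mem_NE [Nonempty ι] {g : GL ι F} (h : ∀ X, InE ψ (cj g (ψ X))) : g ∈ NE ψ := by
  obtain ⟨a, ha⟩ := exists_cj_of_maps ψ ψ g h
  exact mem_NE_of_cj ha

theorem homG_mem_NE (a : GL κ F) : homG ψ a ∈ NE ψ := mem_NE_of_cj (cj_homG ψ a)

theorem mem_NE_of_inC {g : GL ι F} (h : InC ψ (g : Matrix ι ι F)) : g ∈ NE ψ :=
  mem_NE_of_cj (a := 1) fun X => by rw [cj_one, cj_eq_iff, h]

theorem InC.cj_NE [Nonempty ι] {g : GL ι F} (hg : g ∈ NE ψ) {c : Matrix ι ι F} (hc : InC ψ c) :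
    InC ψ (cj g c) := fun Y => by
  obtain ⟨a, ha⟩ := exists_cj_of_NE hg
  rw [← cj_cj_inv a Y, ← ha, ← map_mul, ← map_mul, hc]

theorem mem_NE_cjH {g x : GL ι F} : x ∈ NE (cjH g ψ) ↔ g⁻¹ * x * g ∈ NE ψ := by
  have e : ∀ k, k ∈ (cjH g ψ).range ↔ cj g⁻¹ k ∈ ψ.range := fun k => by
    have := inE_cjH (ψ := ψ) (g := g) (c := cj g⁻¹ k)
    rw [cj_cj_inv] at this
    exact this
  simp only [mem_subalgebraNormalizer, e]
  refine ⟨fun H k => ?_, fun H k => ?_⟩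
  · have := H (cj g k)
    rwa [cj_inv_cj, ← cj_mul, ← cj_mul] at this
  · have := H (cj g⁻¹ k)
    rwa [← cj_mul, mul_inv_cancel_right, cj_mul] at this

theorem trace_th (X : Matrix ι ι F) (Y : Matrix κ κ F) : (th ψ X * Y).trace = (X * ψ Y).trace := by
  rw [algHom_matrix_apply ψ Y]
  simp only [Finset.mul_sum, mul_smul_comm, trace_sum, trace_smul, smul_eq_mul]
  rw [Finset.sum_comm]
  simp only [Matrix.trace, diag_apply, Matrix.mul_apply, th, LinearMap.coe_mk, AddHom.coe_mk,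
    of_apply]
  exact Finset.sum_congr rfl fun a _ => Finset.sum_congr rfl fun b _ => mul_comm _ _

theorem th_eq {X : Matrix ι ι F} {Z : Matrix κ κ F}
    (h : ∀ Y, (X * ψ Y).trace = (Z * Y).trace) : th ψ X = Z :=
  Matrix.ext_iff_trace_mul_right.2 fun Y => by rw [trace_th, h]

theorem th_map_mul (Y : Matrix κ κ F) (X : Matrix ι ι F) : th ψ (ψ Y * X) = Y * th ψ X :=
  th_eq fun Z => by
    rw [mul_assoc, trace_mul_comm, mul_assoc, ← map_mul, ← trace_th, mul_assoc Y, trace_mul_comm Y,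
      mul_assoc]

theorem th_mul_map (Y : Matrix κ κ F) (X : Matrix ι ι F) : th ψ (X * ψ Y) = th ψ X * Y :=
  th_eq fun Z => by rw [mul_assoc, ← map_mul, ← trace_th, mul_assoc]

theorem th_cjH (g : GL ι F) (X : Matrix ι ι F) : th (cjH g ψ) (cj g X) = th ψ X :=
  th_eq fun Y => by rw [cjH_apply, ← map_mul, trace_cj, trace_th]

theorem Phi_cjH (g : GL ι F) (X : Matrix ι ι F) : Phi (cjH g ψ) (cj g X) = cj g (Phi ψ X) := by
  rw [Phi_apply, th_cjH, cjH_apply, Phi_apply]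

theorem Phi_cjH_NE [Nonempty ι] {g : GL ι F} (hg : g ∈ NE ψ) : Phi (cjH g ψ) = Phi ψ := by
  obtain ⟨a, ha⟩ := exists_cj_of_NE hg
  ext1 X
  rw [Phi_apply, Phi_apply, cjH_apply, ha]
  congr 1
  rw [show th (cjH g ψ) X = cj a⁻¹ (th ψ X) from th_eq fun Y => by
    rw [cjH_apply, ha, ← trace_th, ← trace_cj a⁻¹, map_mul, cj_inv_cj], cj_cj_inv]

theorem trace_Phi (X Y : Matrix ι ι F) : (Phi ψ X * Y).trace = (X * Phi ψ Y).trace := by
  rw [Phi_apply, Phi_apply, trace_mul_comm, ← trace_th, ← trace_th, trace_mul_comm]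

theorem isSc_th {c : Matrix ι ι F} (hc : InC ψ c) : IsSc F (th ψ c) :=
  eq_smul_one_of_commute fun Y => by rw [← th_mul_map, ← th_map_mul, hc]

theorem trace_map_mul_inC {z : Matrix κ κ F} (hz : z.trace = 0) {c : Matrix ι ι F}
    (hc : InC ψ c) : (ψ z * c).trace = 0 := by
  obtain ⟨s, hs⟩ := isSc_th hc
  rw [trace_mul_comm, ← trace_th, hs, smul_mul_assoc, one_mul, trace_smul, hz, smul_zero]

theorem exists_th_eq_one [Nonempty ι] [Nonempty κ] : ∃ c, InC ψ c ∧ th ψ c = 1 := by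
  obtain ⟨c, hc, h⟩ : ∃ c, InC ψ c ∧ th ψ c ≠ 0 := by
    by_contra! H
    have h1 : (1 : Matrix ι ι F) = 0 := Matrix.ext_iff_trace_mul_left.2 fun X => by
      rw [← map_one ψ, ← trace_th, ← sum_coef (ψ := ψ) X]
      simp only [map_sum, th_map_mul, H _ (inC_coef _ _ _), mul_zero, Finset.sum_const_zero,
        zero_mul, trace_zero]
    exact one_ne_zero h1
  obtain ⟨s, hs⟩ := isSc_th hc
  have hs0 : s ≠ 0 := fun e => h (by rw [hs, e, zero_smul])
  exact ⟨s⁻¹ • c, hc.smul _, by rw [map_smul, hs, inv_smul_smul₀ hs0]⟩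

/-- A slot commuting with `ψ` does not see the traceless part of `ψ`. -/
theorem Phi_eq_zero_of_inC {φ : Matrix κ κ F →ₐ[F] Matrix ι ι F} (h : ∀ X, InC ψ (φ X))
    {z : Matrix κ κ F} (hz : z.trace = 0) {c : Matrix ι ι F} (hc : InC ψ c) :
    Phi φ (ψ z * c) = 0 := by
  rw [Phi_apply, th_eq (Z := 0) fun Y => by
    rw [mul_assoc, trace_map_mul_inC hz (hc.mul (h Y)), zero_mul, trace_zero], map_zero]

theorem inC_of_trace {D : Matrix ι ι F}
    (h : ∀ z : Matrix κ κ F, z.trace = 0 → ∀ c, InC ψ c → (D * (ψ z * c)).trace = 0) : InC ψ D :=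
  fun Y => Matrix.ext_iff_trace_mul_right.2 fun Z => by
    rw [← sub_eq_zero, mul_assoc (ψ Y), trace_mul_comm (ψ Y), mul_assoc D, mul_assoc D,
      ← trace_sub, ← mul_sub, ← sum_coef (ψ := ψ) Z]
    simp only [Finset.mul_sum, Finset.sum_mul, ← Finset.sum_sub_distrib, trace_sum]
    refine Finset.sum_eq_zero fun a _ => Finset.sum_eq_zero fun b _ => ?_
    rw [mul_assoc (ψ _), inC_coef, ← mul_assoc (ψ _), ← mul_assoc (ψ _), ← sub_mul, ← map_mul,
      ← map_mul, ← map_sub]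
    exact h _ (by rw [trace_sub, trace_mul_comm, sub_self]) _ (inC_coef a b Z)

theorem Good.mul_right [Nonempty ι] {g n : GL ι F} (h : Good ψ g) (hn : n ∈ NE ψ) :
    Good ψ (g * n) := h.imp (fun H => mul_mem H hn) fun H X => by
  obtain ⟨Y, hY⟩ := NE_maps hn X
  rw [cj_mul, ← hY]; exact H Y

theorem Good.mul_left [Nonempty ι] {g n : GL ι F} (h : Good ψ g) (hn : n ∈ NE ψ) :
    Good ψ (n * g) := h.imp (fun H => mul_mem hn H) fun H X => by
  rw [cj_mul]; exact (H X).cj_NE hn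

theorem Good.inv {g : GL ι F} (h : Good ψ g) : Good ψ g⁻¹ := h.imp inv_mem fun H X Y =>
  (cj g).injective (by rw [map_mul, map_mul, cj_cj_inv, H Y X])

section Sum

variable [Finite F] [Nonempty ι] (ψ) (M : Subgroup (GL ι F))

/-- The conjugates of the slot. -/
abbrev SlotQ : Type _ := M ⧸ (NE ψ).subgroupOf M

noncomputable instance instFintypeSlotQ : Fintype (SlotQ ψ M) := Fintype.ofFinite _

variable {M}

/-- The trace-form map onto a conjugate of the slot. -/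
noncomputable def PhiQ (ω : SlotQ ψ M) : Matrix ι ι F →ₗ[F] Matrix ι ι F :=
  Phi (cjH (ω.out : M) ψ)

variable (M)

/-- The sum of the trace-form maps. -/
noncomputable def PhiM : Matrix ι ι F →ₗ[F] Matrix ι ι F := ∑ ω : SlotQ ψ M, PhiQ ψ ω

open Classical in
/-- The sum over the conjugates which neither equal the slot nor commute with it. -/
noncomputable def Delta : Matrix ι ι F →ₗ[F] Matrix ι ι F :=
  ∑ ω : SlotQ ψ M with ¬ Good ψ (ω.out : M), PhiQ ψ ω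

/-- The elements of the slot which are not seen by the bad conjugates. -/
noncomputable def DK : Submodule F (Matrix κ κ F) where
  carrier := {z | ∀ c, InC ψ c → Delta ψ M (ψ z * c) = 0}
  add_mem' {a b} ha hb c hc := by rw [map_add, add_mul, map_add, ha c hc, hb c hc, add_zero]
  zero_mem' c hc := by simp
  smul_mem' s a ha c hc := by rw [map_smul, smul_mul_assoc, map_smul, ha c hc, smul_zero]

variable {ψ M}

theorem exists_out_eq (g : M) : ∃ n ∈ NE ψ, (((g : SlotQ ψ M).out : M) : GL ι F) = g * n := by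
  obtain ⟨k, hk⟩ := QuotientGroup.mk_out_eq_mul ((NE ψ).subgroupOf M) g
  exact ⟨_, k.2, by rw [hk]; rfl⟩

theorem PhiQ_mk (g : M) : PhiQ ψ (g : SlotQ ψ M) = Phi (cjH g ψ) := by
  obtain ⟨n, hn, e⟩ := exists_out_eq (ψ := ψ) g
  ext1 X
  rw [PhiQ, e, cjH_mul, ← cj_cj_inv (g : GL ι F) X, Phi_cjH, Phi_cjH, Phi_cjH_NE hn]

theorem good_out (g : M) : Good ψ ((g : SlotQ ψ M).out : M) ↔ Good ψ g := by
  obtain ⟨n, hn, e⟩ := exists_out_eq (ψ := ψ) g
  rw [e]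
  exact ⟨fun H => by simpa using H.mul_right (inv_mem hn), fun H => H.mul_right hn⟩

theorem smul_eq_mk (m : M) (ω : SlotQ ψ M) : m • ω = ((m * ω.out : M) : SlotQ ψ M) := by
  conv_lhs => rw [← ω.out_eq']
  rfl

theorem PhiQ_smul (m : M) (ω : SlotQ ψ M) (X : Matrix ι ι F) :
    PhiQ ψ (m • ω) (cj (m : GL ι F) X) = cj (m : GL ι F) (PhiQ ψ ω X) := by
  rw [smul_eq_mk, PhiQ_mk, Subgroup.coe_mul, cjH_mul, Phi_cjH, PhiQ]

theorem smul_eq_iff (m : M) (ω : SlotQ ψ M) :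
    m • ω = ω ↔ (m : GL ι F) ∈ NE (cjH (ω.out : M) ψ) := by
  rw [mem_NE_cjH, eq_comm, smul_eq_mk]
  conv_lhs => lhs; rw [← ω.out_eq']
  rw [QuotientGroup.eq, Subgroup.mem_subgroupOf, ← mul_assoc]
  rfl

theorem good_smul {m : M} (hm : (m : GL ι F) ∈ NE ψ) (ω : SlotQ ψ M) :
    Good ψ ((m • ω).out : M) ↔ Good ψ (ω.out : M) := by
  rw [smul_eq_mk, good_out, Subgroup.coe_mul]
  exact ⟨fun H => by simpa using H.mul_left (inv_mem hm), fun H => H.mul_left hm⟩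

theorem sum_PhiQ_cj (m : M) (s : Finset (SlotQ ψ M)) (hs : ∀ ω, m • ω ∈ s ↔ ω ∈ s)
    (X : Matrix ι ι F) :
    ∑ ω ∈ s, PhiQ ψ ω (cj (m : GL ι F) X) = cj (m : GL ι F) (∑ ω ∈ s, PhiQ ψ ω X) := by
  rw [map_sum]
  exact (Finset.sum_equiv (MulAction.toPerm m) (fun ω => (hs ω).symm)
    fun ω _ => (PhiQ_smul m ω X).symm).symm

theorem PhiM_cj {g : GL ι F} (hg : g ∈ M) (X : Matrix ι ι F) :
    PhiM ψ M (cj g X) = cj g (PhiM ψ M X) := by
  simp only [PhiM, LinearMap.sum_apply]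
  exact sum_PhiQ_cj ⟨g, hg⟩ _ (by simp) X

theorem Delta_cj {g : GL ι F} (hg : g ∈ M) (hg' : g ∈ NE ψ) (X : Matrix ι ι F) :
    Delta ψ M (cj g X) = cj g (Delta ψ M X) := by
  simp only [Delta, LinearMap.sum_apply]
  exact sum_PhiQ_cj ⟨g, hg⟩ _ (fun ω => by simp [good_smul (m := ⟨g, hg⟩) hg']) X

theorem trace_PhiM (X Y : Matrix ι ι F) : (PhiM ψ M X * Y).trace = (X * PhiM ψ M Y).trace := by
  simp only [PhiM, LinearMap.sum_apply, Finset.sum_mul, Finset.mul_sum, trace_sum, PhiQ, trace_Phi]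

theorem cj_mem_DK {a : GL κ F} (ha : homG ψ a ∈ M) {z : Matrix κ κ F} (hz : z ∈ DK ψ M) :
    cj a z ∈ DK ψ M := fun c hc => by
  rw [← cj_homG, ← cj_homG_inC a hc, ← map_mul, Delta_cj ha (homG_mem_NE a), hz c hc, map_zero]

/-- The transfer step: `x` is an abelian group in the slot, `X₀` is fixed by it. -/
theorem transfer_step {P : Type*} [AddCommGroup P] (x : P → GL κ F)
    (hx : ∀ s t, x (s + t) = x s * x t) (hM : ∀ t, homG ψ (x t) ∈ M) (s : Finset (SlotQ ψ M))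
    (hs : ∀ t, ∀ ω ∈ s, (⟨_, hM t⟩ : M) • ω ∈ s) (J : Submodule F (Matrix κ κ F))
    (h : ∀ ω ∈ s, ∃ (R : AddSubgroup P) (B : Finset P), (∀ t, t ∈ B ↔ t ∈ R) ∧
      (∀ t ∈ R, homG ψ (x t) ∈ NE (cjH (ω.out : M) ψ) → t = 0) ∧
      ∀ η, (∀ t, homG ψ (x t) ∈ NE (cjH (ω.out : M) ψ) → cj (x t) η = η) →
        ∑ t ∈ B, cj (x t) η ∈ J)
    {X₀ : Matrix ι ι F} (hX : ∀ t, cj (homG ψ (x t)) X₀ = X₀) (l : Dual F (Matrix ι ι F)) :
    pj ψ l (∑ ω ∈ s, PhiQ ψ ω X₀) ∈ J := by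
  have x0 : x 0 = 1 := by
    have := hx 0 0
    rw [add_zero] at this
    exact left_eq_mul.1 this
  obtain ⟨act, hact⟩ : ∃ act : P → SlotQ ψ M → SlotQ ψ M,
      ∀ t ω, act t ω = (⟨_, hM t⟩ : M) • ω := ⟨_, fun _ _ => rfl⟩
  have hadd : ∀ s t ω, act (s + t) ω = act s (act t ω) := fun s t ω => by
    rw [hact, hact, hact, ← mul_smul]
    exact congrArg (· • ω) (Subtype.ext (by simp [hx]))
  have eqv : ∀ t ω, pj ψ l (PhiQ ψ (act t ω) X₀) = cj (x t) (pj ψ l (PhiQ ψ ω X₀)) := fun t ω => by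
    have := PhiQ_smul (⟨_, hM t⟩ : M) ω X₀
    rw [hX t] at this
    rw [← pj_cj_homG, hact, this]
  have fx : ∀ t ω, act t ω = ω ↔ homG ψ (x t) ∈ NE (cjH (ω.out : M) ψ) := fun t ω => by
    rw [hact, smul_eq_iff]
  rw [← Submodule.Quotient.mk_eq_zero, ← Submodule.mkQ_apply, map_sum, map_sum]
  refine sum_eq_zero_of_orbits act (fun ω => ?_) hadd
    (fun ω => J.mkQ (pj ψ l (PhiQ ψ ω X₀))) s (fun t ω hω => by rw [hact]; exact hs t ω hω)
    fun ω hω => ?_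
  · rw [hact]
    exact (congrArg (· • ω) (Subtype.ext (by simp [x0]))).trans (one_smul M ω)
  obtain ⟨R, B, h1, h2, h3⟩ := h ω hω
  refine ⟨R, B, h1, fun t ht e => h2 t ht ((fx _ _).1 e), fun r => ?_⟩
  rw [← map_sum, Submodule.mkQ_apply, Submodule.Quotient.mk_eq_zero]
  simp only [eqv _ (act r ω)]
  refine h3 _ fun t ht => ?_
  rw [← eqv, ← hadd, add_comm, hadd, (fx t ω).2 ht]

/-- The transfer step for the bad conjugates. -/
theorem pj_Delta_mem {P : Type*} [AddCommGroup P] (x : P → GL κ F)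
    (hx : ∀ s t, x (s + t) = x s * x t) (hM : ∀ t, homG ψ (x t) ∈ M)
    (J : Submodule F (Matrix κ κ F))
    (h : ∀ g ∈ M, ¬ Good ψ g → ∃ (R : AddSubgroup P) (B : Finset P), (∀ t, t ∈ B ↔ t ∈ R) ∧
      (∀ t ∈ R, homG ψ (x t) ∈ NE (cjH g ψ) → t = 0) ∧
      ∀ η, (∀ t, homG ψ (x t) ∈ NE (cjH g ψ) → cj (x t) η = η) → ∑ t ∈ B, cj (x t) η ∈ J)
    {z : Matrix κ κ F} (hz : ∀ t, cj (x t) z = z) {c : Matrix ι ι F} (hc : InC ψ c)
    (l : Dual F (Matrix ι ι F)) : pj ψ l (Delta ψ M (ψ z * c)) ∈ J := by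
  classical
  simp only [Delta, LinearMap.sum_apply]
  refine transfer_step x hx hM _ (fun t ω hω => ?_) J
    (fun ω hω => h _ (ω.out : M).2 (Finset.mem_filter.1 hω).2) (fun t => ?_) l
  · simpa [good_smul (m := ⟨_, hM t⟩) (homG_mem_NE _)] using hω
  · rw [map_mul, cj_homG, hz, cj_homG_inC _ hc]

theorem mem_DK {P : Type*} [AddCommGroup P] (x : P → GL κ F)
    (hx : ∀ s t, x (s + t) = x s * x t) (hM : ∀ t, homG ψ (x t) ∈ M)
    (h : ∀ g ∈ M, ¬ Good ψ g → ∃ (R : AddSubgroup P) (B : Finset P), (∀ t, t ∈ B ↔ t ∈ R) ∧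
      (∀ t ∈ R, homG ψ (x t) ∈ NE (cjH g ψ) → t = 0) ∧
      ∀ η, (∀ t, homG ψ (x t) ∈ NE (cjH g ψ) → cj (x t) η = η) → ∑ t ∈ B, cj (x t) η = 0)
    {z : Matrix κ κ F} (hz : ∀ t, cj (x t) z = z) : z ∈ DK ψ M := fun c hc =>
  eq_zero_of_pj fun l => (Submodule.mem_bot F).1 (pj_Delta_mem x hx hM ⊥ h hz hc l)

theorem PhiM_eq_add {z : Matrix κ κ F} (hz : z.trace = 0) {c : Matrix ι ι F} (hc : InC ψ c) :
    PhiM ψ M (ψ z * c) = Phi ψ (ψ z * c) + Delta ψ M (ψ z * c) := by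
  classical
  simp only [PhiM, Delta, LinearMap.sum_apply]
  rw [← Finset.sum_filter_add_sum_filter_not _ fun ω : SlotQ ψ M => Good ψ (ω.out : M)]
  congr 1
  rw [Finset.sum_eq_single ((1 : M) : SlotQ ψ M), PhiQ_mk, Subgroup.coe_one, cjH_one]
  · intro ω hω hne
    rcases (Finset.mem_filter.1 hω).2 with H | H
    · refine absurd ?_ hne
      rw [← ω.out_eq', eq_comm, QuotientGroup.eq, inv_one, one_mul]
      exact H
    · exact Phi_eq_zero_of_inC (φ := cjH _ ψ) H hz hc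
  · intro H
    refine absurd (Finset.mem_filter.2 ⟨Finset.mem_univ _, ?_⟩) H
    exact (good_out 1).2 (Or.inl (one_mem _))

theorem inEC_PhiM (h : ∀ z : Matrix κ κ F, z.trace = 0 → z ∈ DK ψ M) (X : Matrix ι ι F) :
    InEC ψ (PhiM ψ M X) :=
  ⟨th ψ X, PhiM ψ M X - Phi ψ X, inC_of_trace fun z hz c hc => by
    rw [sub_mul, trace_sub, trace_PhiM, trace_Phi, PhiM_eq_add hz hc, h z hz c hc, add_zero,
      sub_self], by rw [Phi_apply]; abel⟩

/-- **Rigidity by transfer.** -/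
theorem transfer_rigid [Nontrivial κ] (h23 : (2 : F) ≠ 0 ∨ 3 ≤ Fintype.card κ)
    (h : ∀ z : Matrix κ κ F, z.trace = 0 → z ∈ DK ψ M) {g : GL ι F} (hg : g ∈ M) : Good ψ g := by
  obtain ⟨c, hc, h1⟩ := exists_th_eq_one (ψ := ψ)
  refine (inE_or_inC_of_inEC (ψ := ψ) h23 (cjH g ψ) fun i j hij => ?_).imp mem_NE id
  have hz : (single i j (1 : F)).trace = 0 := trace_single_eq_of_ne _ _ _ hij
  have := inEC_PhiM h (cj g (ψ (single i j 1) * c))
  rwa [PhiM_cj hg, PhiM_eq_add hz hc, h _ hz c hc, add_zero, Phi_apply, th_map_mul, h1,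
    mul_one] at this

end Sum

end Cfsg.Agent.Cl.Max
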