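import Mathlib
import Cfsg.Agent.Cl.MaxOGU
import Cfsg.Agent.Cl.MaxTrans

/-!
# Extension field subgroups `O_m(q^r)` of `Ω_{mr}(q)`, `q` odd: the transfer argument

`OK Q q τ`: the form `Q` over `F` is `τ ∘ q` for a form `q` over `K`.  Let `M` be an overgroup of
the normaliser of `K`.  Either `M` meets the centre of the radical of the stabiliser of a singular
`K`-point (`ZM`), or a transfer argument shows that `M` normalises `K` (`OK.mem_KN_or`).
-/

set_option autoImplicit false
set_option linter.unusedSectionVars false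
set_option linter.unusedVariables false

namespace Cfsg.Agent.Cl.MaxO

open Module QuadraticMap

section Field

variable {K : Type*} [Field K] [Finite K]

theorem der_eq_zero (D : K →+ K) (h : ∀ x y, D (x * y) = x * D y + y * D x) (x : K) : D x = 0 := by
  have := Fintype.ofFinite K
  have h1 : ∀ n : ℕ, D (x ^ (n + 1)) = (n + 1 : ℕ) * x ^ n * D x := fun n => by
    induction n with
    | zero => simp
    | succ n ih => rw [pow_succ, h, ih]; push_cast; ring
  have h2 := h1 (Fintype.card K - 1)
  rwa [Nat.sub_add_cancel Fintype.card_pos, FiniteField.pow_card, FiniteField.cast_card_eq_zero,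
    zero_mul, zero_mul] at h2

omit [Finite K] in
theorem sum_zero_of_neg (h2 : (2 : K) ≠ 0) {ι : Type*} [Fintype ι] (e : ι ≃ ι) {f : ι → K}
    (h : ∀ i, f (e i) = -f i) : ∑ i, f i = 0 := mul_left_cancel₀ h2 (by
  have := Equiv.sum_comp e f
  rw [Finset.sum_congr rfl fun i _ => h i, Finset.sum_neg_distrib] at this
  linear_combination -this)

theorem eq_zero_of_even (h2 : (2 : K) ≠ 0) (A C O : K →+ K) (a1 : A 1 = 0) (c1 : C 1 = 0)
    (o1 : O 1 = 0) (E : ∀ b k, k ^ 2 * A b + C (b * k ^ 2) - b * C (k ^ 2) =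
      k * (O (b * k) - b * O k)) (x : K) : A x = 0 := by
  have s1 : ∀ b, O b = A b + C b := fun b => by
    have := E b 1
    simp only [one_pow, mul_one, one_mul, c1, o1] at this
    linear_combination -this
  have s2 : ∀ b, A b = C b := fun b => sub_eq_zero.1 (der_eq_zero (A - C) (fun b k => by
    have e := E b (k + 1)
    rw [show b * (k + 1) ^ 2 = b * k ^ 2 + b * k + b * k + b by ring,
      show C ((k + 1) ^ 2) = C (k ^ 2 + k + k + 1) by congr 1; ring, mul_add b k, mul_one] at e
    have e' := E b k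
    simp only [map_add, c1, s1, a1, AddMonoidHom.sub_apply] at e e' ⊢
    linear_combination e' - e) b)
  refine der_eq_zero A (fun b k => ?_) x
  let Δ : K →+ K := A.comp (AddMonoidHom.mulLeft b) - (AddMonoidHom.mulLeft b).comp A -
    AddMonoidHom.mulRight (A b)
  have hΔ : ∀ k, Δ k = A (b * k) - b * A k - k * A b := fun _ => rfl
  have s3 : ∀ k, Δ (k ^ 2) = 2 * k * Δ k := fun k => by
    have := E b k
    simp only [s1, ← s2] at this
    rw [hΔ, hΔ]; linear_combination this
  have := der_eq_zero Δ (fun k l => mul_left_cancel₀ h2 (by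
    have := s3 (k + l)
    rw [show (k + l) ^ 2 = k ^ 2 + k * l + k * l + l ^ 2 by ring] at this
    simp only [map_add, s3] at this
    linear_combination this)) k
  rw [hΔ] at this
  linear_combination this

theorem comm_of_comm_comm {R : Type*} [Ring R] [Algebra K R] {y n : R} (hy : y ^ Nat.card K = y)
    (h : y * (y * n - n * y) = (y * n - n * y) * y) : y * n = n * y := by
  have := Fintype.ofFinite K
  have h1 : ∀ j : ℕ, y ^ (j + 1) * n - n * y ^ (j + 1) = ((j + 1 : ℕ) : K) • (y ^ j * (y * n - n * y)) :=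
    fun j => by
      induction j with
      | zero => simp
      | succ j ih =>
        rw [show y ^ (j + 1 + 1) * n - n * y ^ (j + 1 + 1) = (y ^ (j + 1) * n - n * y ^ (j + 1)) * y +
          y ^ (j + 1) * (y * n - n * y) by rw [pow_succ y (j + 1)]; noncomm_ring, ih, smul_mul_assoc,
          mul_assoc, ← h, ← mul_assoc, ← pow_succ]
        push_cast; module
  have h2 := h1 (Fintype.card K - 1)
  rwa [Nat.sub_add_cancel Fintype.card_pos, ← Nat.card_eq_fintype_card, hy, Nat.card_eq_fintype_card,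
    FiniteField.cast_card_eq_zero, zero_smul, sub_eq_zero] at h2

end Field

variable {F V : Type*} [Field F] [AddCommGroup V] [Module F V] {Q : QuadraticForm F V}

section Levels

variable [Fintype F] (L : ℕ → Submodule F V) (L0 : L 0 = ⊥) {P : Type*} [AddCommGroup P] [Module F P]
  (a : P → V →ₗ[F] V)

/-- `G` vanishes on the pairs of total level at most `s`. -/
def Van (s : ℕ) (G : V →ₗ[F] V →ₗ[F] F) : Prop :=
  ∀ i l, i + l ≤ s ∨ i = 0 ∨ l = 0 → ∀ x ∈ L i, ∀ y ∈ L l, G x y = 0

include L0

theorem van_of {s : ℕ} {G : V →ₗ[F] V →ₗ[F] F}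
    (h : ∀ i l, i + l ≤ s → i ≠ 0 → l ≠ 0 → ∀ x ∈ L i, ∀ y ∈ L l, G x y = 0) : Van L s G := by
  intro i l e x hx y hy
  by_cases hi : i = 0
  · rw [hi, L0] at hx; rw [(Submodule.mem_bot F).1 hx]; simp
  by_cases hl : l = 0
  · rw [hl, L0] at hy; rw [(Submodule.mem_bot F).1 hy]; simp
  exact h i l (by omega) hi hl x hx y hy

theorem sum_levels (h2 : (2 : F) ≠ 0) (a0 : ∀ x, a 0 x = x)
    (hadd : ∀ s t x, a (s + t) x = a s (a t x))
    (ha : ∀ w, ∃ n m : V → V, (∀ (t : F) x, a (t • w) x = x + t • n x + t ^ 2 • m x) ∧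
      ∀ i, ∀ x ∈ L i, n x ∈ L (i - 1) ∧ m x ∈ L (i - 2))
    (j : ℕ) (b : Fin j → P) {s : ℕ} {G : V →ₗ[F] V →ₗ[F] F} (hG : Van L s G) {i l : ℕ}
    (e : i + l ≤ s + 2 * j) {x y : V} (hx : x ∈ L i) (hy : y ∈ L l) :
    ∑ c : Fin j → F, G (a (∑ k, c k • b k) x) (a (∑ k, c k • b k) y) = 0 := by
  induction j generalizing s G with
  | zero => simpa [a0] using hG i l (.inl e) x hx y hy
  | succ j ih =>
    rw [← (Fin.consEquiv fun _ => F).sum_comp, Fintype.sum_prod_type_right]
    have := ih (fun k => b k.succ) (s := s + 2)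
      (G := ∑ t : F, G.compl₁₂ (a (t • b 0)) (a (t • b 0))) (van_of L L0 ?_) (by omega)
    · simpa [Fin.sum_univ_succ, hadd] using this
    intro i l e hi hl x hx y hy
    obtain ⟨n, m, h1, h3⟩ := ha (b 0)
    obtain ⟨x1, x2⟩ := h3 i x hx
    obtain ⟨y1, y2⟩ := h3 l y hy
    have s0 : ∑ t : F, t = 0 := sum_zero_of_neg h2 (Equiv.neg F) fun _ => rfl
    simp only [LinearMap.sum_apply, LinearMap.compl₁₂_apply, h1, map_add, map_smul,
      LinearMap.add_apply, LinearMap.smul_apply, hG _ _ (by omega) _ x1 _ y1,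
      hG _ _ (by omega) _ x2 _ hy, hG _ _ (by omega) _ hx _ y2, hG _ _ (by omega) _ x1 _ y2,
      hG _ _ (by omega) _ x2 _ y1, hG _ _ (by omega) _ x2 _ y2, smul_eq_mul, mul_zero, add_zero,
      Finset.sum_add_distrib, ← Finset.sum_mul, s0]
    simp

end Levels

variable {K : Type*} [Field K] [Algebra F K] [Module K V] [IsScalarTower F K V]

/-- The form `Q` is the trace of the form `q`. -/
structure OK (Q : QuadraticForm F V) (q : QuadraticForm K V) (τ : K →ₗ[F] F) : Prop where
  nd : (polarBilin Q).Nondegenerate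
  ndK : (polarBilin q).Nondegenerate
  tr : ∀ x, τ (q x) = Q x
  one : ∀ c : K, c ≠ 0 → ∃ k, τ (k * c) = 1
  two : (2 : F) ≠ 0
  prime : (finrank F K).Prime
  dim : 3 ≤ finrank K V
  dim' : finrank F K = 2 → 4 ≤ finrank K V

variable (K) in
/-- The conjugates of the elements of `K`. -/
def IsC (M : Subgroup (OG Q)) (z : V ≃ₗ[F] V) : Prop :=
  ∃ g ∈ M, ∃ k : K, ∀ x, z (g.1 x) = g.1 (k • x)

/-- The elements of `M` in the centre of the radical of the stabiliser of `K v`. -/
def ZM (q : QuadraticForm K V) (M : Subgroup (OG Q)) {v : V} (hv : q v = 0) :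
    AddSubgroup (K →ₗ[F] K) where
  carrier := {C | ∃ u ∈ M, ∀ x, u.1 x = x + C (polar q x v) • v}
  add_mem' := fun {C D} ⟨u, hu, e⟩ ⟨u', hu', e'⟩ => ⟨u * u', M.mul_mem hu hu', fun x => by
    rw [OG.mul_app, e', e]; simp only [oexp, hv, mul_zero, add_zero, LinearMap.add_apply]; module⟩
  zero_mem' := ⟨1, M.one_mem, by simp⟩
  neg_mem' := fun {C} ⟨u, hu, e⟩ => ⟨u⁻¹, M.inv_mem hu, fun x => by
    rw [OG.inv_app_eq_iff, e]
    simp only [oexp, hv, mul_zero, add_zero, LinearMap.neg_apply]; module⟩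

variable (F) in
/-- The flag `0 < K v < v^⊥ < V`. -/
def Lv (q : QuadraticForm K V) (v : V) (i : ℕ) : Submodule F V where
  carrier := {x | (i = 0 → x = 0) ∧ (i ≤ 1 → ∃ k : K, x = k • v) ∧ (i ≤ 2 → polar q x v = 0)}
  add_mem' ha hb := ⟨fun e => by simp [ha.1 e, hb.1 e], fun e => by
    obtain ⟨k, rfl⟩ := ha.2.1 e
    obtain ⟨l, rfl⟩ := hb.2.1 e
    exact ⟨k + l, (add_smul _ _ _).symm⟩, fun e => by simp [ha.2.2 e, hb.2.2 e]⟩
  zero_mem' := ⟨fun _ => rfl, fun _ => ⟨0, by simp⟩, fun _ => by simp⟩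
  smul_mem' c x hx := ⟨fun e => by simp [hx.1 e], fun e => by
    obtain ⟨k, rfl⟩ := hx.2.1 e
    exact ⟨c • k, (smul_assoc _ _ _).symm⟩, fun e => by
      rw [← algebraMap_smul K, o_polar_smul_left, hx.2.2 e, mul_zero]⟩

variable (F V) in
/-- The multiplication by a unit of `K`. -/
def sc (l : Kˣ) : V ≃ₗ[F] V := DistribMulAction.toLinearEquiv F V l

theorem sc_app (l : Kˣ) (x : V) : sc F V l x = (l : K) • x := rfl

theorem sc_inv (l : Kˣ) (x : V) : (sc F V l)⁻¹ x = (↑l⁻¹ : K) • x := rfl

theorem IsC.conj {M : Subgroup (OG Q)} {z : V ≃ₗ[F] V} (hz : IsC K M z) {g : OG Q} (hg : g ∈ M) :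
    IsC K M (g.1 * z * g.1⁻¹) := by
  obtain ⟨a, ha, k, e⟩ := hz
  exact ⟨g * a, M.mul_mem hg ha, k, fun x => by
    rw [OG.mul_app, OG.mul_app, ← e]; exact congrArg (fun y => g.1 (z y)) (OG.inv_app_app g _)⟩

theorem isC_sc (M : Subgroup (OG Q)) (l : Kˣ) : IsC K M (sc F V l) := ⟨1, M.one_mem, l, fun _ => rfl⟩

namespace OK

variable [Finite F] [FiniteDimensional F V] [FiniteDimensional F K] [FiniteDimensional K V]
  {q : QuadraticForm K V} {τ : K →ₗ[F] F} (h : OK Q q τ) {M : Subgroup (OG Q)}
include h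

theorem finK : Finite K := Module.finite_of_finite F

theorem polar_tr (x y : V) : τ (polar q x y) = polar Q x y := by
  simp only [polar, map_sub, h.tr]

theorem adj (k : K) (x y : V) : polar Q (k • x) y = polar Q x (k • y) := by
  rw [← h.polar_tr, ← h.polar_tr, o_polar_smul_left, o_polar_smul_right]

theorem polar_zero {x y : V} (e : polar q x y = 0) : polar Q x y = 0 := by
  rw [← h.polar_tr, e, map_zero]

theorem Q_zero {x : V} (e : q x = 0) : Q x = 0 := by rw [← h.tr, e, map_zero]

theorem Q_smul {x : V} (e : q x = 0) (k : K) : Q (k • x) = 0 :=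
  h.Q_zero (by rw [o_qsmul, e, mul_zero])

theorem ext {a b : K} (e : ∀ k, τ (k * a) = τ (k * b)) : a = b := by
  by_contra hne
  obtain ⟨k, hk⟩ := h.one _ (sub_ne_zero.2 hne)
  rw [mul_sub, map_sub, e, sub_self] at hk
  exact zero_ne_one hk

theorem twoK : (2 : K) ≠ 0 := by
  rw [← map_ofNat (algebraMap F K) 2]; exact (map_ne_zero _).2 h.two

theorem dimF : 8 ≤ finrank F V := by
  have h1 := Module.finrank_mul_finrank F K V
  have h2 := h.prime.two_le
  have h3 := h.dim
  have h4 := h.dim'
  by_cases e : finrank F K = 2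
  · have := h4 e
    nlinarith
  · nlinarith [show 3 ≤ finrank F K by omega]

theorem bot_or_top (E : Subalgebra F K) : E = ⊥ ∨ E = ⊤ :=
  (Subalgebra.isSimpleOrder_of_finrank_prime F K h.prime).eq_bot_or_eq_top E

theorem of_notMem {E : Subalgebra F K} {k : K} (hk : k ∈ E) (h0 : k ∉ (⊥ : Subalgebra F K))
    (l : K) : l ∈ E := by
  rw [(h.bot_or_top E).resolve_left fun e => h0 (e ▸ hk)]; trivial

/-- The restriction of scalars. -/
def res : OG q →* OG Q where
  toFun g := ⟨g.1.restrictScalars F, fun x => by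
    rw [← h.tr, ← h.tr]; exact congrArg τ (OG.map_app g x)⟩
  map_one' := rfl
  map_mul' _ _ := rfl

@[simp] theorem res_app (g : OG q) (x : V) : (h.res g).1 x = g.1 x := rfl

theorem sq_mem (g : OG Q) : g * g ∈ commutator (OG Q) :=
  sq_mem_commutator_OG h.nd (not_oExc_of_two_ne_zero h.two) g

theorem exists_zel {v : V} (hv : q v = 0) {C : K →ₗ[F] K} (hC : ∀ t, τ (t * C t) = 0) :
    ∃ u ∈ commutator (OG Q), ∀ x, u.1 x = x + C (polar q x v) • v := by
  have key : ∀ C : K →ₗ[F] K, (∀ t, τ (t * C t) = 0) →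
      ∃ u : OG Q, ∀ x, u.1 x = x + C (polar q x v) • v := fun C hC => by
    let j : V →ₗ[F] V := ((LinearMap.toSpanSingleton K V v).restrictScalars F) ∘ₗ C ∘ₗ
      ((polarBilin q).flip v).restrictScalars F
    have hj : ∀ x, j x = C (polar q x v) • v := fun _ => rfl
    have jj : ∀ x, j (j x) = 0 := fun x => by rw [hj, hj]; simp [hv]
    refine ⟨OG.ofLinear (LinearMap.id + j) (LinearMap.id - j) (fun x => by simp [jj])
      (fun x => by simp [jj]) fun x => ?_, fun _ => rfl⟩
    change Q (x + j x) = _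
    rw [o_qadd, hj, h.Q_smul hv, ← h.polar_tr, o_polar_smul_right, mul_comm, hC, add_zero, add_zero]
  obtain ⟨u, hu⟩ := key ((2 : F)⁻¹ • C) fun t => by simp [hC]
  refine ⟨u * u, h.sq_mem u, fun x => ?_⟩
  rw [OG.mul_app, hu, hu]
  simp only [oexp, hv, mul_zero, add_zero]
  rw [add_assoc, ← add_smul, ← LinearMap.add_apply, ← two_smul F, smul_inv_smul₀ h.two]

theorem skew {v : V} {hv : q v = 0} (v0 : v ≠ 0) {C : K →ₗ[F] K} (hC : C ∈ ZM q M hv) (s t : K) :
    τ (s * C t) = -τ (t * C s) := by
  obtain ⟨u, -, e⟩ := hC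
  obtain ⟨x, hx⟩ := o_exists_polar_eq h.ndK v0 s
  obtain ⟨y, hy⟩ := o_exists_polar_eq h.ndK v0 t
  have := OG.polar_app u x y
  rw [e, e, ← h.polar_tr, ← h.polar_tr] at this
  simp only [oexp, hv, polar_comm q x v, polar_comm q y v, hx, hy, map_add, mul_zero,
    add_zero] at this
  rw [mul_comm s, mul_comm t]
  linear_combination this

/-- A self-adjoint map commuting with the Eichler transformations with centre `v`. -/
theorem cent {v : V} (hv : q v = 0) (v0 : v ≠ 0) {X : V →ₗ[F] V}
    (hX : ∀ x y, polar Q (X x) y = polar Q x (X y))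
    (hc : ∀ w, polar q v w = 0 → ∀ x, X ((eich q v w).1 x) = (eich q v w).1 (X x)) :
    ∃ κ : K, (∀ x, polar q x v = 0 → X x = κ • x) ∧ ∀ x, ∃ k : K, X x = κ • x + k • v := by
  obtain ⟨v', hv', e⟩ := o_exists_partner h.ndK hv v0
  have h1 : ∀ w, polar q v w = 0 → ∀ x, X (polar q x v • w - polar q x w • v) =
      polar q (X x) v • w - polar q (X x) w • v := fun w hw x => by
    have key : ∀ x, (2 : F) • (polar q x v • w - polar q x w • v) =
        (eich q v w).1 x - (eich q v (-w)).1 x := fun x => by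
      rw [eich_app hv hw, eich_app hv (by simp [hw]), ← algebraMap_smul K, map_ofNat]
      simp only [oexp]; module
    refine smul_right_injective V h.two ?_
    simp only
    rw [← map_smul, key, key, map_sub, hc w hw, hc (-w) (by simp [hw])]
  have h2 : ∀ w, polar q v w = 0 → polar q v' w = 0 → ∀ t : K, X (t • w) =
      polar q (X (t • v')) v • w - polar q (X (t • v')) w • v := fun w hw hw' t => by
    have := h1 w hw (t • v')
    simpa only [oexp, polar_comm q v' v, e, hw', mul_one, mul_zero, zero_smul, sub_zero] using this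
  set κ := polar q (X v') v with hκ
  have h3 : ∀ w, polar q v w = 0 → polar q v' w = 0 → X w = κ • w - polar q (X v') w • v :=
    fun w hw hw' => by simpa only [one_smul] using h2 w hw hw' 1
  have h4 : ∀ w, polar q v w = 0 → polar q v' w = 0 → X w = κ • w := fun w hw hw' => by
    have : polar q (X v') w = 0 := h.ext fun t => mul_left_cancel₀ h.two (by
      have a1 := congrArg (polar q v') ((h2 w hw hw' t).symm.trans
        (h3 _ (by simp [hw]) (by simp [hw'])))
      have a2 := hX w (t • v')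
      rw [← h.polar_tr, ← h.polar_tr, h3 w hw hw'] at a2
      simp only [oexp, hw', polar_comm q v' v, e, polar_comm q w, mul_zero, mul_one, zero_sub,
        neg_inj] at a1 a2
      rw [a1, mul_neg, map_neg] at a2
      rw [mul_zero, map_zero]; linear_combination -a2)
    rw [h3 w hw hw', this, zero_smul, sub_zero]
  have h5 : ∀ s : K, X (s • v) = κ • s • v := fun s => by
    obtain ⟨w, w0, w1, w2⟩ := o_exists_nonsingular_perp_hyp hv hv' e h.ndK h.dim
    have := h1 w w1 ((-s / (2 * q w)) • w)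
    rw [h4 ((-s / (2 * q w)) • w) (by simp [w1]) (by simp [w2])] at this
    simp only [oexp, polar_comm q w v, w1, mul_zero, zero_smul, zero_sub,
      div_mul_cancel₀ _ (mul_ne_zero h.twoK w0), neg_smul, neg_neg, mul_neg] at this
    rw [this, mul_smul]
  have h6 : ∀ x, polar q x v = 0 → X x = κ • x := fun x hx => by
    obtain ⟨a1, a2⟩ := o_hyp_decomp hv hv' e x
    rw [hx, zero_smul, sub_zero] at a1 a2
    have := h4 _ a1 a2
    rwa [map_sub, h5, smul_sub, sub_left_inj] at this
  refine ⟨κ, h6, fun x => ⟨polar q (X x - κ • x) v', ?_⟩⟩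
  have h7 : ∀ y, polar q y v = 0 → polar q (X x - κ • x) y = 0 := fun y hy => h.ext fun t => by
    rw [← o_polar_smul_right, h.polar_tr, polar_sub_left, hX, h6 _ (by simp [hy]), h.adj]; simp
  rw [← sub_eq_iff_eq_add', ← sub_eq_zero]
  refine o_eq_zero h.ndK fun y => ?_
  have := h7 (y - polar q y v • v') (by simp [polar_comm q v' v, e])
  simp only [polar_sub_right, o_polar_smul_right] at this
  rw [polar_sub_left, o_polar_smul_left, polar_comm q v y]
  linear_combination this

theorem exists_hyp : ∃ u u' : V, q u = 0 ∧ q u' = 0 ∧ polar q u u' = 1 := by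
  have := h.finK
  obtain ⟨u, u0, hu⟩ := quad_exists_singular q h.dim
  obtain ⟨u', hu', e⟩ := o_exists_partner h.ndK hu u0
  exact ⟨u, u', hu, hu', e⟩

theorem lin_of_sing {y : V →ₗ[F] V}
    (H : ∀ x, q x = 0 → ∀ b : K, polar q (y (b • x)) x = b * polar q (y x) x) (t : K) (x : V) :
    y (t • x) = t • y x := by
  have := h.finK
  have key : ∀ e f, q e = 0 → q f = 0 → polar q e f = 1 →
      polar q (y (t • f)) e = t * polar q (y f) e := fun e f he hf hef => by
    obtain ⟨w, w0, w1, w2⟩ := o_exists_nonsingular_perp_hyp he hf hef h.ndK h.dim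
    let D : V → V → K →+ K := fun a b =>
      { toFun := fun s => polar q (y (s • a)) b - s * polar q (y a) b
        map_zero' := by simp
        map_add' := fun s s' => by simp only [add_smul, map_add, polar_add_left]; ring }
    have hD : ∀ a b s, D a b s = polar q (y (s • a)) b - s * polar q (y a) b := fun _ _ _ => rfl
    have := eq_zero_of_even h.twoK (D f (q w • e)) (D (q w • e) f) (D w w) (by simp [hD])
      (by simp [hD]) (by simp [hD]) (fun b k => mul_left_cancel₀ h.twoK (by
        have a1 := fun k : K => H (f + k • w - (k ^ 2 * q w) • e) (by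
          simp only [oexp, he, hf, hef, w1, w2, polar_comm q f e, polar_comm q w e]; ring) b
        have a2 := a1 k
        have a3 := a1 (-k)
        simp only [hD, smul_add, smul_sub, smul_smul, map_add, map_sub, oexp, even_two.neg_pow,
          neg_smul, smul_neg, map_neg, H e he, H f hf, mul_assoc] at a2 a3 ⊢
        linear_combination -a2 - a3)) t
    rw [hD, o_polar_smul_right, o_polar_smul_right] at this
    exact mul_left_cancel₀ w0 (by linear_combination this)
  obtain ⟨u, u', hu, hu', e⟩ := h.exists_hyp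
  let A : AddSubgroup V :=
    { carrier := {x | y (t • x) = t • y x}
      add_mem' := fun {a b} ha hb => by
        simp only [Set.mem_ofPred_eq, map_add, smul_add] at ha hb ⊢; rw [ha, hb]
      zero_mem' := by simp
      neg_mem' := fun {a} ha => by
        simp only [Set.mem_ofPred_eq, map_neg, smul_neg] at ha ⊢; rw [ha] }
  refine singular_ind hu hu' e A (fun f hf => ?_) x
  by_cases f0 : f = 0
  · simp [f0]
  obtain ⟨e, he, hfe⟩ := o_exists_partner h.ndK hf f0
  have hef := polar_comm q f e ▸ hfe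
  refine o_eq_of_polar h.ndK fun z => ?_
  obtain ⟨z1, z2⟩ := o_hyp_decomp hf he hfe z
  set w := z - polar q z e • f - polar q z f • e with hw
  have a1 := key (e + w - q w • f) f (by
    simp only [oexp, he, hf, hef, z2, polar_comm q w f, z1]; ring) hf (by
    simp only [oexp, hf, hef, polar_comm q w f, z1]; ring)
  have a2 := key e f he hf hef
  rw [show z = w + polar q z e • f + polar q z f • e by rw [hw]; abel]
  simp only [oexp, a2, H f hf] at a1 ⊢
  linear_combination a1

theorem IsC.adj {z : V ≃ₗ[F] V} (hz : IsC K M z) (x y : V) : polar Q (z x) y = polar Q x (z y) := by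
  obtain ⟨g, -, k, e⟩ := hz
  rw [← OG.app_inv_app g x, ← OG.app_inv_app g y, e, e, OG.polar_app, OG.polar_app, h.adj]

section Over

variable (hM : KN Q K ⊓ commutator (OG Q) ≤ M)
include hM

theorem res_sq (g : OG q) : h.res (g * g) ∈ M :=
  hM ⟨mem_KN_of_lin fun k x => (g * g).1.map_smul k x, by rw [map_mul]; exact h.sq_mem _⟩

theorem eich_mem (u w : V) : h.res (eich q u w) ∈ M := by
  by_cases e : q u = 0 ∧ polar q u w = 0
  · have := h.res_sq hM (eich q u ((2 : K)⁻¹ • w))
    rwa [eich_mul e.1 (by simp [e.2]) (by simp [e.2]), ← two_smul K, smul_inv_smul₀ h.twoK] at this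
  · rw [eich_of_not e, map_one]; exact M.one_mem

theorem scalar_of_cent (hΩ : M ≤ commutator (OG Q)) {v : V} (hv : q v = 0) (v0 : v ≠ 0)
    (hZ : ∀ C ∈ ZM q M hv, C = 0) {z : V ≃ₗ[F] V} (hz : IsC K M z)
    (hc : ∀ w, polar q v w = 0 → ∀ x, z ((eich q v w).1 x) = (eich q v w).1 (z x)) :
    ∃ k : K, ∀ x, z x = k • x := by
  have := h.finK
  have := Fintype.ofFinite K
  have : Nontrivial V := ⟨v, 0, v0⟩
  classical
  obtain ⟨g, hg, k, e⟩ := hz
  let θ : K → V →ₗ[F] V := fun l =>
    g.1.toLinearMap ∘ₗ (LinearMap.lsmul K V l).restrictScalars F ∘ₗ (g⁻¹).1.toLinearMap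
  have hθ : ∀ l x, θ l x = g.1 (l • (g⁻¹).1 x) := fun _ _ => rfl
  have ez : ∀ x, z x = θ k x := fun x => by rw [hθ, ← e, OG.app_inv_app]
  have θm : ∀ l m x, θ (l * m) x = θ l (θ m x) := fun l m x => by
    simp only [hθ, OG.inv_app_app, mul_smul]
  by_cases hk : k ∈ (⊥ : Subalgebra F K)
  · obtain ⟨a, rfl⟩ := Algebra.mem_bot.1 hk
    exact ⟨algebraMap F K a, fun x => by
      rw [ez, hθ, algebraMap_smul, map_smul, OG.app_inv_app, algebraMap_smul]⟩
  let E : Subalgebra F K :=
    { carrier := {l | ∀ w, polar q v w = 0 → ∀ x, θ l ((eich q v w).1 x) = (eich q v w).1 (θ l x)}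
      mul_mem' := fun ha hb w hw x => by rw [θm, θm, hb w hw, ha w hw]
      add_mem' := fun {a b} ha hb w hw x => by
        have := congrArg₂ (· + ·) (ha w hw x) (hb w hw x)
        simpa only [hθ, add_smul, map_add] using this
      algebraMap_mem' := fun a w hw x => by
        simp only [hθ, algebraMap_smul, map_smul, OG.app_inv_app]
        rw [← algebraMap_smul K a x, map_smul, algebraMap_smul] }
  have θa : ∀ l x y, polar Q (θ l x) y = polar Q x (θ l y) := fun l x y => by
    rw [hθ, hθ, ← OG.polar_inv_right, h.adj, OG.polar_inv_left]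
  choose ρ ρ1 ρ2 using fun l => h.cent hv v0 (θa l)
    (h.of_notMem (E := E) (fun w hw x => by rw [← ez, ← ez, hc w hw]) hk l)
  have vv : ∀ s : K, polar q (s • v) v = 0 := fun s => by simp [hv]
  have ρm : ∀ l m, ρ (l * m) = ρ l * ρ m := fun l m => smul_left_injective K v0 (by
    have := vv 1
    rw [one_smul] at this
    simp only
    rw [← ρ1 _ _ this, θm, ρ1 m _ this, ρ1 l _ (vv _), mul_smul])
  have θ1 : ∀ x, θ 1 x = x := fun x => by rw [hθ, one_smul, OG.app_inv_app]
  have ρi : ∀ l : Kˣ, ρ l * ρ ↑l⁻¹ = 1 := fun l => smul_left_injective K v0 (by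
    simp only
    rw [← ρm, l.mul_inv, ← one_smul K v, ← ρ1 _ _ (vv 1), θ1, one_smul, one_smul])
  have card : (Fintype.card Kˣ : F) = -1 := (algebraMap F K).injective (by
    rw [Fintype.card_units, map_natCast, Nat.cast_pred Fintype.card_pos,
      FiniteField.cast_card_eq_zero]; simp)
  let u : V →ₗ[F] V := -∑ l : Kˣ, θ l ∘ₗ (LinearMap.lsmul K V (ρ ↑l⁻¹)).restrictScalars F
  have hu : ∀ x, u x = -∑ l : Kˣ, θ l (ρ ↑l⁻¹ • x) := fun x => by simp [u]
  have u1 : ∀ (m : Kˣ) x, u (ρ m • x) = θ m (u x) := fun m x => by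
    rw [hu, hu, map_neg, map_sum, ← Equiv.sum_comp (Equiv.mulLeft m)]
    simp only [Equiv.coe_mulLeft, Units.val_mul, θm, mul_inv_rev, ρm, smul_smul, mul_assoc,
      mul_comm (ρ ↑m⁻¹), ρi, mul_one]
  have u2 : ∀ x, u x - x = -∑ l : Kˣ, (θ l (ρ ↑l⁻¹ • x) - x) := fun x => by
    rw [hu, Finset.sum_sub_distrib, Finset.sum_const, Finset.card_univ,
      ← Nat.cast_smul_eq_nsmul F, card]
    module
  have u3 : ∀ x, polar q x v = 0 → u x = x := fun x hx => by
    rw [← sub_eq_zero, u2, neg_eq_zero]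
    exact Finset.sum_eq_zero fun l _ => by
      rw [ρ1 _ _ (by simp [hx]), smul_smul, ρi, one_smul, sub_self]
  have u4 : ∀ x, u x - x ∈ Submodule.span K {v} := fun x => by
    rw [u2]
    refine neg_mem (Submodule.sum_mem _ fun l _ => ?_)
    obtain ⟨s, hs⟩ := ρ2 l (ρ ↑l⁻¹ • x)
    rw [hs, smul_smul, ρi, one_smul, add_sub_cancel_left]
    exact Submodule.smul_mem _ _ (Submodule.mem_span_singleton_self v)
  have u5 : ∀ x, polar Q x (u x - x) = 0 := fun x => by
    rw [u2, polar_neg_right, ← polarBilin_apply_apply, map_sum, neg_eq_zero]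
    refine sum_zero_of_neg h.two (Equiv.inv Kˣ) fun l => ?_
    obtain ⟨s, hs⟩ := ρ2 l x
    have a1 : θ ↑l⁻¹ (ρ l • x) = x - ρ ↑l⁻¹ • s • v := by
      rw [← ρ1 _ _ (vv s), eq_sub_iff_add_eq, ← map_add, ← hs, ← θm, l.inv_mul, θ1]
    rw [Equiv.inv_apply, inv_inv, a1, polarBilin_apply_apply, polarBilin_apply_apply,
      polar_sub_right (y' := x), polar_sub_right (y' := x), ← θa, ← h.adj _ (θ l x), hs, smul_add,
      smul_smul _ _ x, mul_comm _ (ρ l), ρi, one_smul]
    simp [polar_comm Q x]
  obtain ⟨v', hv', e'⟩ := o_exists_partner h.ndK hv v0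
  let C : K →ₗ[F] K := ((polarBilin q).flip v').restrictScalars F ∘ₗ (u - LinearMap.id) ∘ₗ
    (LinearMap.toSpanSingleton K V v').restrictScalars F
  have hC : ∀ t, C t • v = u (t • v') - t • v' := fun t => by
    obtain ⟨s, hs⟩ := Submodule.mem_span_singleton.1 (u4 (t • v'))
    change polar q (u (t • v') - t • v') v' • v = _
    rw [← hs, o_polar_smul_left, e', mul_one]
  have u6 : ∀ x, u x = x + C (polar q x v) • v := fun x => by
    have := u3 (x - polar q x v • v') (by simp [polar_comm q v' v, e'])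
    rw [map_sub] at this
    rw [hC]; linear_combination (norm := module) this
  obtain ⟨u', hu', e''⟩ := h.exists_zel hv (C := C) fun t => by
    have := u5 (t • v')
    rwa [← hC, ← h.polar_tr, o_polar_smul_left, o_polar_smul_right, polar_comm, e', mul_one] at this
  have u7 : u'⁻¹ * g ∈ M := hM ⟨mem_KN fun l => ?_, Subgroup.mul_mem _ (Subgroup.inv_mem _ hu') (hΩ hg)⟩
  · have C0 := hZ C ⟨u', by simpa using M.mul_mem hg (M.inv_mem u7), e''⟩
    have k0 : k ≠ 0 := fun H => hk (H ▸ zero_mem _)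
    refine ⟨ρ k, fun x => ?_⟩
    have := u1 (Units.mk0 k k0) x
    simp only [u6, C0, LinearMap.zero_apply, zero_smul, add_zero, Units.val_mk0] at this
    rw [ez, this]
  · by_cases l0 : l = 0
    · exact ⟨0, by simp [l0]⟩
    refine ⟨ρ l, fun x => ?_⟩
    rw [OG.mul_app, OG.inv_app_eq_iff, e'', ← u6, ← Units.val_mk0 l0, u1, u6, ← e'', OG.mul_app,
      OG.app_inv_app, hθ, OG.inv_app_app]

theorem transfer (hΩ : M ≤ commutator (OG Q)) {v : V} (hv : q v = 0) (v0 : v ≠ 0)
    (hZ : ∀ C ∈ ZM q M hv, C = 0) [Fintype Kˣ] (s : Finset (V ≃ₗ[F] V)) (hs : ∀ z, z ∈ s ↔ IsC K M z)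
    (f : (V ≃ₗ[F] V) → F) (G : V →ₗ[F] V →ₗ[F] F) (x y : (V ≃ₗ[F] V) → V)
    (h1 : ∀ z (a : OG q), a.1 v = v → (∀ u, z (a.1 u) = a.1 (z u)) → a.1 (x z) = x z ∧ a.1 (y z) = y z)
    (h2 : ∀ z (a : OG q), a.1 v = v →
      f ((h.res a).1 * z * (h.res a).1⁻¹) = G (a.1 (x z)) (a.1 (y z))) :
    ∑ z ∈ s, f z = ∑ l : Kˣ, f (sc F V l) := by
  classical
  have := Fintype.ofFinite F
  obtain ⟨v', hv', e⟩ := o_exists_partner h.ndK hv v0
  let W := operp q (Submodule.span K {v, v'})
  have hW : ∀ w : W, polar q v w = 0 ∧ polar q v' w = 0 := fun w => by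
    simpa using mem_operp_span.1 w.2
  have hWd : Module.Finite F W := Module.Finite.trans K W
  have hWf : Finite W := Module.finite_of_finite F
  have := Fintype.ofFinite W
  let a : W → OG Q := fun w => h.res (eich q v w)
  have am : ∀ s t, a (s + t) = a s * a t := fun s t => by
    simp only [a, ← map_mul, eich_mul hv (hW s).1 (hW t).1, Submodule.coe_add]
  have a0 : a 0 = 1 := by simp [a]
  let act : W → (V ≃ₗ[F] V) → V ≃ₗ[F] V := fun w z => (a w).1 * z * (a w).1⁻¹
  have hact : ∀ w z, act w z = z ↔ ∀ u, z ((a w).1 u) = (a w).1 (z u) := fun w z => by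
    rw [mul_inv_eq_iff_eq_mul, eq_comm, LinearEquiv.ext_iff]; rfl
  have act0 : ∀ z, act 0 z = z := fun z => by simp [act, a0]
  have actm : ∀ s t z, act (s + t) z = act s (act t z) := fun s t z => by
    simp [act, am, mul_assoc]
  have ha : ∀ w : W, ∃ n m : V → V, (∀ (t : F) x, (a (t • w)).1 x = x + t • n x + t ^ 2 • m x) ∧
      ∀ i, ∀ x ∈ Lv F q v i, n x ∈ Lv F q v (i - 1) ∧ m x ∈ Lv F q v (i - 2) := fun w => by
    refine ⟨fun x => polar q x v • w - polar q x w • v, fun x => -((q w * polar q x v) • v),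
      fun t x => ?_, fun i x hx => ⟨⟨fun e => ?_, fun e => ⟨-polar q x w, ?_⟩, fun e => ?_⟩,
        fun e => ?_, fun e => ⟨_, (neg_smul _ _).symm⟩, fun e => by simp [hv]⟩⟩
    · change (eich q v (t • w : V)).1 x = _
      rw [← algebraMap_smul K t, ← algebraMap_smul K t, ← algebraMap_smul K (t ^ 2),
        eich_app hv (by simp [(hW w).1]), map_pow]
      simp only [oexp]; module
    · obtain ⟨k, rfl⟩ := hx.2.1 (by omega)
      simp [hv, (hW w).1]
    · simp [hx.2.2 (by omega)]
    · simp [hv, polar_comm q w, (hW w).1]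
    · simp [hx.2.2 (by omega)]
  rw [← Finset.sum_filter_add_sum_filter_not s fun z => ∀ w, act w z = z,
    Max.sum_eq_zero_of_orbits act act0 actm f (s.filter fun z => ¬ ∀ w, act w z = z)
      (fun t z hz => ?_) fun z hz => ?_, add_zero]
  · symm
    refine Finset.sum_bij (fun l _ => sc F V l) (fun l _ => Finset.mem_filter.2 ⟨(hs _).2 (isC_sc M l),
      fun w => (hact _ _).2 fun u => ((eich q v w).1.map_smul _ _).symm⟩) (fun l _ m _ e => ?_)
      (fun z hz => ?_) fun _ _ => rfl
    · exact Units.ext (smul_left_injective K v0 (LinearEquiv.congr_fun e v))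
    obtain ⟨hz, hz'⟩ := Finset.mem_filter.1 hz
    obtain ⟨k, hk⟩ := h.scalar_of_cent hM hΩ hv v0 hZ ((hs z).1 hz) fun w hw => by
      have := (hact ⟨w - polar q w v' • v, mem_operp_span.2 (by
        simp [hw, hv, polar_comm q v', e])⟩ z).1 (hz' _)
      simp only [a, res_app, sub_eq_add_neg, ← neg_smul, eich_add_smul_self hv hw] at this
      exact this
    exact ⟨Units.mk0 k fun H => v0 (z.injective (by simp [hk, H])), Finset.mem_univ _,
      LinearEquiv.ext fun u => (hk u).symm⟩
  · obtain ⟨hz, hz'⟩ := Finset.mem_filter.1 hz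
    refine Finset.mem_filter.2 ⟨(hs _).2 (((hs _).1 hz).conj (h.eich_mem hM _ _)), fun H => hz' fun w => ?_⟩
    have := congrArg (act (-t)) (H w)
    rwa [← actm, ← actm, ← actm, neg_add_cancel, act0, show -t + w + t = w by abel] at this
  let S : Submodule F W :=
    { carrier := {w | act w z = z}
      add_mem' := fun {s t} hs ht => by
        change act _ z = z
        rw [actm, ht, hs]
      zero_mem' := act0 z
      smul_mem' := fun c w hw => by
        have hw' : act (-w) z = z := by
          nth_rw 1 [← show act w z = z from hw]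
          rw [← actm, neg_add_cancel, act0]
        obtain ⟨n, m, e1, -⟩ := ha w
        refine (hact _ _).2 fun u => ?_
        have b1 := (hact _ _).1 hw u
        have b2 := (hact _ _).1 hw' u
        rw [← one_smul F w, e1, e1] at b1
        rw [← neg_one_smul F w, e1, e1] at b2
        rw [e1, e1]
        simp only [map_add, map_smul] at b1 b2 ⊢
        refine smul_right_injective V h.two ?_
        linear_combination (norm := module) (c + c ^ 2) • b1 + (c ^ 2 - c) • b2 }
  obtain ⟨R, hR⟩ := S.exists_isCompl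
  have r1 := Submodule.finrank_add_eq_of_isCompl hR
  have r2 : finrank F R ≠ 0 := fun H => (Finset.mem_filter.1 hz).2 fun w =>
    (Submodule.eq_top_of_finrank_eq (S := S) (by omega) ▸ Submodule.mem_top : w ∈ S)
  have lv : ∀ u, (∀ w ∈ S, (a w).1 u = u) → u ∈ Lv F q v (finrank F R) := fun u hu => by
    have b1 : finrank F R ≤ 2 → polar q u v = 0 := fun e' => by
      by_contra H
      have b2 : S = ⊥ := eq_bot_iff.2 fun w hw => by
        have := hu w hw
        rw [res_app, eich_app hv (hW w).1, add_sub_assoc, add_eq_left, sub_eq_zero] at this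
        have b3 := congrArg (polar q v') this
        simp only [oexp, (hW w).2, polar_comm q v' v, e, mul_zero, mul_one] at b3
        rw [← b3, zero_smul] at this
        exact Subtype.ext ((smul_eq_zero.1 this).resolve_left H)
      have b3 := Module.finrank_mul_finrank F K W
      have b4 := finrank_operp h.ndK (Submodule.span K {v, v'})
      have b5 := finrank_span_pair_le (F := K) v v'
      have b6 := h.prime.two_le
      have b7 := h.dim
      have b8 := h.dim'
      rw [b2, finrank_bot] at r1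
      change finrank K W + _ = _ at b4
      by_cases e2 : finrank F K = 2
      · have := b8 e2
        nlinarith [show 2 ≤ finrank K W by omega]
      · nlinarith [show 1 ≤ finrank K W by omega, show 3 ≤ finrank F K by omega]
    refine ⟨fun e' => absurd e' r2, fun e' => ⟨polar q u v', ?_⟩, b1⟩
    have b2 := b1 (by omega)
    by_contra H
    obtain ⟨y, hy⟩ := o_exists_polar_eq h.ndK (sub_ne_zero.2 H) 1
    let φ : W →ₗ[F] K := ((polarBilin q u) ∘ₗ W.subtype).restrictScalars F
    have b3 := φ.finrank_range_add_finrank_ker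
    have b4 : LinearMap.range φ = ⊤ := LinearMap.range_eq_top.2 fun k =>
      ⟨k • ⟨y - polar q y v' • v - polar q y v • v', mem_operp_span.2 (by
        rintro _ (rfl | rfl)
        exacts [(o_hyp_decomp hv hv' e y).1, (o_hyp_decomp hv hv' e y).2])⟩, by
        simp only [polar_sub_left, o_polar_smul_left, polar_comm q v y] at hy
        simp [φ, b2, mul_comm (polar q y v), hy]⟩
    have b5 : S ≤ LinearMap.ker φ := fun w hw => by
      have := hu w hw
      rw [res_app, eich_app_of_polar_left hv (hW w).1 b2, sub_eq_self] at this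
      exact (smul_eq_zero.1 this).resolve_right v0
    have b6 := Submodule.finrank_mono b5
    have b7 := h.prime.two_le
    rw [b4, finrank_top] at b3
    omega
  refine ⟨R.toAddSubgroup, Finset.univ.filter (· ∈ R), by simp, fun t ht e' =>
    (Submodule.mem_bot F).1 (hR.inf_eq_bot ▸ ⟨e', ht⟩), fun r => ?_⟩
  have fx : ∀ w ∈ S, (a w).1 (x z) = x z ∧ (a w).1 (y z) = y z := fun w hw =>
    h1 z _ (eich_app_self _ _) ((hact _ _).1 hw)
  have cm : ∀ w u, (a w).1 ((a r).1 u) = (a r).1 ((a w).1 u) := fun w u => by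
    rw [← OG.mul_app, ← am, add_comm, am, OG.mul_app]
  have := sum_levels (Lv F q v) (eq_bot_iff.2 fun x hx => hx.1 rfl) (fun w => (a w).1.toLinearMap)
    h.two (by simp [a0]) (by simp [am]) ha _ (fun i => (Module.finBasis F R i : W)) (s := 0) (G := G)
    (van_of (Lv F q v) (eq_bot_iff.2 fun x hx => hx.1 rfl) fun i l _ _ _ => by omega) (by omega)
    (lv ((a r).1 (x z)) fun w hw => by rw [cm, (fx w hw).1])
    (lv ((a r).1 (y z)) fun w hw => by rw [cm, (fx w hw).2])
  rw [← this, Finset.sum_subtype (F := inferInstance) (p := (· ∈ R)) _ (by simp),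
    ← Equiv.sum_comp (Module.finBasis F R).equivFun.symm.toEquiv]
  refine Finset.sum_congr rfl fun c _ => ?_
  rw [← actm, h2 z _ (eich_app_self _ _), Submodule.coe_add, ← eich_mul hv (hW _).1 (hW r).1]
  simp [a]

theorem lin_of_isC (hΩ : M ≤ commutator (OG Q))
    (hZ : ∀ v (hv : q v = 0), v ≠ 0 → ∀ C ∈ ZM q M hv, C = 0) {y : V ≃ₗ[F] V} (hy : IsC K M y)
    (t : K) (x : V) : y (t • x) = t • y x := by
  classical
  have := h.finK
  have := Fintype.ofFinite K
  have : Finite V := Module.finite_of_finite F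
  have : Finite (V ≃ₗ[F] V) := DFunLike.finite _
  have := Fintype.ofFinite (V ≃ₗ[F] V)
  let s := Finset.univ.filter (IsC K M)
  have hs : ∀ z, z ∈ s ↔ IsC K M z := by simp [s]
  have card : (Fintype.card Kˣ : F) = -1 := (algebraMap F K).injective (by
    rw [Fintype.card_units, map_natCast, Nat.cast_pred Fintype.card_pos,
      FiniteField.cast_card_eq_zero]; simp)
  have inv : ∀ (z : V ≃ₗ[F] V) (a : OG q) {u : V}, a.1 u = u → (∀ u, z (a.1 u) = a.1 (z u)) →
      a.1 (z⁻¹ u) = z⁻¹ u := fun z a u e H => z.injective (by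
    rw [H]; change a.1 (z (z.symm u)) = z (z.symm u); rw [z.apply_symm_apply, e])
  have ai : ∀ (a : OG q) {u : V}, a.1 u = u → (h.res a).1⁻¹ u = u := fun a u e =>
    (OG.inv_app_eq_iff (h.res a)).2 e.symm
  have h1 : ∀ (k : K) x, ∑ z ∈ s, z (k • z⁻¹ x) = -(k • x) := fun k x => by
    obtain ⟨u, u', hu, hu', e⟩ := h.exists_hyp
    let A : AddSubgroup V :=
      { carrier := {x | ∑ z ∈ s, z (k • z⁻¹ x) = -(k • x)}
        add_mem' := fun {a b} ha hb => by
          simp only [Set.mem_ofPred_eq, map_add, smul_add, Finset.sum_add_distrib] at ha hb ⊢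
          rw [ha, hb, neg_add]
        zero_mem' := by simp
        neg_mem' := fun {a} ha => by
          simp only [Set.mem_ofPred_eq, map_neg, smul_neg, Finset.sum_neg_distrib] at ha ⊢
          rw [ha] }
    refine singular_ind hu hu' e A (fun v hv => ?_) x
    by_cases v0 : v = 0
    · simp [v0]
    refine o_eq_of_polar h.nd fun u => ?_
    obtain ⟨v', e'⟩ := o_exists_polar_eq h.nd v0 1
    have := h.transfer hM hΩ hv v0 (hZ v hv v0) s hs (fun z => polar Q (z (k • z⁻¹ v)) u)
      (((polarBilin Q).flip u).smulRight ((polarBilin Q).flip v')) (fun z => z (k • z⁻¹ v))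
      (fun _ => v) (fun z a e H => ⟨by rw [← H, map_smul, inv z a e H], e⟩) fun z a e => by
        simp only [mul_inv_rev, inv_inv, LinearEquiv.mul_apply, ai a e, res_app, e]
        rw [← a.1.map_smul, show (h.res a).1⁻¹ (a.1 _) = _ from OG.inv_app_app (h.res a) _]
        simp [e']
    rw [← polarBilin_apply_apply, map_sum, LinearMap.sum_apply]
    simp only [polarBilin_apply_apply, this, sc_app, sc_inv, smul_smul, mul_left_comm _ k,
      Units.mul_inv, mul_one, Finset.sum_const, Finset.card_univ, nsmul_eq_mul, card]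
    simp
  have h2 : ∀ x, ∑ z ∈ s, z (y (z⁻¹ x)) = -y x := fun x => by
    obtain ⟨g, hg, k, e⟩ := hy
    rw [← OG.app_inv_app g x, e, ← map_neg, ← h1, map_sum]
    symm
    refine Finset.sum_equiv (MulAut.conj g.1).toEquiv (fun z => ?_) fun z _ => ?_
    · rw [hs, hs]
      exact ⟨fun H => H.conj hg, fun H => by simpa [mul_assoc] using H.conj (M.inv_mem hg)⟩
    · simp [e]
  refine h.lin_of_sing (y := y.toLinearMap) (fun v hv b => ?_) t x
  by_cases v0 : v = 0
  · simp [v0]
  have h3 : ∀ a b : K, polar Q (y (b • v)) (a • v) =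
      -∑ l : Kˣ, polar Q (y ((↑l⁻¹ * b) • v)) ((l * a) • v) := fun a b => by
    have := h.transfer hM hΩ hv v0 (hZ v hv v0) s hs (fun z => polar Q (y (z⁻¹ (b • v))) (z (a • v)))
      ((polarBilin Q).comp y.toLinearMap) (fun z => z⁻¹ (b • v)) (fun z => z (a • v))
      (fun z c e H => ⟨inv z c (by rw [map_smul, e]) H, by rw [← H, map_smul, e]⟩) fun z c e => by
        have := fun d : K => ai c (u := d • v) (by rw [map_smul, e])
        simp only [mul_inv_rev, inv_inv, LinearEquiv.mul_apply, this, res_app]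
        rfl
    simp only [sc_app, sc_inv, smul_smul] at this
    rw [← this, ← Finset.sum_congr rfl fun z hz => IsC.adj h ((hs z).1 hz) _ _, ← neg_neg (y _), ← h2,
      polar_neg_left, ← polarBilin_apply_apply, map_sum, LinearMap.sum_apply]
    rfl
  by_cases b0 : b = 0
  · simp [b0]
  refine h.ext fun a => ?_
  have h4 := h3 (b * a) 1
  rw [← Equiv.sum_comp (Equiv.mulRight (Units.mk0 b b0)⁻¹)] at h4
  rw [← mul_assoc, ← o_polar_smul_right, ← o_polar_smul_right, h.polar_tr, h.polar_tr]
  simp only [LinearEquiv.coe_coe]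
  rw [h3, mul_comm a, ← one_smul K v, smul_smul, mul_one, h4]
  simp [mul_comm _ b, b0, mul_assoc]

/-- If `M` has no elements in the centres of the radicals, then it normalises `K`. -/
theorem mem_KN_of (hΩ : M ≤ commutator (OG Q))
    (hZ : ∀ v (hv : q v = 0), v ≠ 0 → ∀ C ∈ ZM q M hv, C = 0) {g : OG Q} (hg : g ∈ M) :
    g ∈ KN Q K := by
  have := h.finK
  obtain ⟨v, v', hv, hv', e⟩ := h.exists_hyp
  have v0 : v ≠ 0 := o_ne_zero_of_polar_left (Q := q) (e ▸ one_ne_zero)
  have : Nontrivial V := ⟨v, 0, v0⟩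
  refine mem_KN fun k => ?_
  by_cases k0 : k = 0
  · exact ⟨0, by simp [k0]⟩
  have hy := (isC_sc M (Units.mk0 k k0)).conj hg
  have ey : ∀ x, (g.1 * sc F V (Units.mk0 k k0) * g.1⁻¹) (g.1 x) = g.1 (k • x) := fun x => by
    simp [sc_app]
  generalize g.1 * sc F V (Units.mk0 k k0) * g.1⁻¹ = y at hy ey
  suffices H : ∃ l : K, ∀ x, y x = l • x from H.imp fun l H x => by rw [← ey, H]
  refine h.scalar_of_cent hM hΩ hv v0 (hZ v hv v0) hy fun w hw => ?_
  let Y : Module.End K V := { toFun := y, map_add' := y.map_add, map_smul' := h.lin_of_isC hM hΩ hZ hy }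
  let N : Module.End K V := ((polarBilin q).flip v).smulRight w - ((polarBilin q).flip w).smulRight v
  let N' : Module.End K V := -(q w • ((polarBilin q).flip v).smulRight v)
  have ha : ∀ (t : K) x, (eich q v (t • w)).1 x = (1 + t • N + t ^ 2 • N') x := fun t x => by
    rw [eich_app hv (by simp [hw])]
    simp only [N, N', oexp, LinearMap.add_apply, LinearMap.smul_apply, LinearMap.sub_apply,
      LinearMap.neg_apply, LinearMap.smulRight_apply, LinearMap.flip_apply, polarBilin_apply_apply,
      Module.End.one_apply]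
    module
  have c1 : ∀ t : K, Y * ((1 + t • N + t ^ 2 • N') * Y * (1 + (-t) • N + (-t) ^ 2 • N')) =
      (1 + t • N + t ^ 2 • N') * Y * (1 + (-t) • N + (-t) ^ 2 • N') * Y := fun t => by
    ext x
    have a1 := h.lin_of_isC hM hΩ hZ ((hy.conj (h.eich_mem hM v (t • w))).conj (M.inv_mem hg)) k
      ((g⁻¹).1 x)
    simp only [Module.End.mul_apply, ← ha]
    change y ((eich q v (t • w)).1 (y _)) = (eich q v (t • w)).1 (y ((eich q v (-t • w)).1 (y x)))
    rw [neg_smul, ← eich_inv]
    have a2 := congrArg g.1 a1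
    simp only [Subgroup.coe_inv, inv_inv, LinearEquiv.mul_apply, ← ey] at a2
    simp only [← Subgroup.coe_inv, OG.app_inv_app, ← map_inv, res_app] at a2
    exact a2.symm
  obtain ⟨t, t0, t1⟩ := o_exists_sq_ne_one (F := K) (by
    have := Module.natCard_eq_pow_finrank (K := F) (V := K)
    have h1 := Finite.one_lt_card (α := F)
    have h2 := Nat.pow_le_pow_right (n := Nat.card F) (by omega) h.prime.two_le
    nlinarith)
  have c2 : Y * N = N * Y := comm_of_comm_comm (K := K) ?_ (smul_right_injective _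
    (mul_ne_zero (mul_ne_zero h.twoK t0) (sub_ne_zero.2 t1)) (by
      have a1 := c1 1
      have a2 := c1 (-1)
      have a3 := c1 t
      have a4 := c1 (-t)
      simp only [mul_add, add_mul, mul_sub, sub_mul, smul_mul_assoc, mul_smul_comm, mul_assoc,
        mul_one, one_mul] at a1 a2 a3 a4 ⊢
      linear_combination (norm := module) t ^ 3 • a2 - t ^ 3 • a1 + a3 - a4))
  · have c3 : N * N = (2 : K) • N' := by
      ext x
      simp only [N, N', oexp, hv, hw, polar_comm q w v, Module.End.mul_apply, LinearMap.smul_apply,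
        LinearMap.sub_apply, LinearMap.neg_apply, LinearMap.smulRight_apply, LinearMap.flip_apply,
        polarBilin_apply_apply]
      module
    have c4 : Y * N' = N' * Y := smul_right_injective _ h.twoK (by
      simp only
      rw [← mul_smul_comm, ← smul_mul_assoc, ← c3, ← mul_assoc, c2, mul_assoc, c2, mul_assoc])
    intro x
    rw [← one_smul K w, ha, ha]
    exact LinearMap.congr_fun (show Y * (1 + (1 : K) • N + (1 : K) ^ 2 • N') =
      (1 + (1 : K) • N + (1 : K) ^ 2 • N') * Y by simp [mul_add, add_mul, c2, c4]) x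
  have := Fintype.ofFinite K
  have c3 : ∀ (n : ℕ) x, (Y ^ n) (g.1 x) = g.1 (k ^ n • x) := fun n => by
    induction n with
    | zero => simp
    | succ n ih => exact fun x => by rw [pow_succ, Module.End.mul_apply, pow_succ, mul_smul, ← ih]; exact congrArg _ (ey x)
  ext x
  rw [← OG.app_inv_app g x, c3, Nat.card_eq_fintype_card, FiniteField.pow_card]
  exact (ey _).symm

end Over

end OK

end Cfsg.Agent.Cl.MaxO
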