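import Mathlib
import Cfsg.Agent.Cl.MaxOExtA
import Cfsg.Agent.Cl.SpForm

/-!
# Extension field subgroups `O_m(q^r)` of `Ω_{mr}(q)`, `q` odd

If an overgroup `M` of the normaliser of `K` meets the centre of the radical of the stabiliser of a
singular `K`-point, then it contains long root elements, and it is everything.
-/

set_option autoImplicit false
set_option linter.unusedSectionVars false
set_option linter.unusedVariables false

namespace Cfsg.Agent.Cl.MaxO

open Module QuadraticMap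

theorem exists_mul_eq {R K : Type*} [Field R] [Field K] [Algebra R K] [FiniteDimensional R K]
    {T : K →ₗ[R] R} (ext : ∀ a, (∀ k, T (k * a) = 0) → a = 0) (φ : K →ₗ[R] R) :
    ∃ a, ∀ k, T (k * a) = φ k := by
  let P : LinearMap.BilinForm R K := (LinearMap.mul R K).compr₂ T
  have hP : P.Nondegenerate := ⟨fun a h => ext a fun k => by simpa [P, mul_comm] using h k,
    fun a h => ext a fun k => by simpa [P] using h k⟩
  obtain ⟨b, hb⟩ := (LinearMap.BilinForm.toDual P hP).surjective φ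
  exact ⟨b, fun k => by rw [mul_comm]; exact LinearMap.congr_fun hb k⟩

variable {F V : Type*} [Field F] [AddCommGroup V] [Module F V] {Q : QuadraticForm F V}
  {K : Type*} [Field K] [Algebra F K] [Module K V] [IsScalarTower F K V]

/-- The twisted conjugate `t ↦ l C (l t)`. -/
def tw (l : K) (C : K →ₗ[F] K) : K →ₗ[F] K := LinearMap.mulLeft F l ∘ₗ C ∘ₗ LinearMap.mulLeft F l

theorem tw_app (l : K) (C : K →ₗ[F] K) (t : K) : tw l C t = l * C (l * t) := rfl

/-- The coordinates of the images of the vectors of `K v`. -/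
def co (q : QuadraticForm K V) (g : OG Q) (v z : V) : K →ₗ[F] K :=
  ((polarBilin q).flip z).restrictScalars F ∘ₗ g.1.toLinearMap ∘ₗ
    (LinearMap.toSpanSingleton K V v).restrictScalars F

theorem co_app (q : QuadraticForm K V) (g : OG Q) (v z : V) (k : K) :
    co q g v z k = polar q (g.1 (k • v)) z := rfl

namespace OK

variable [Finite F] [FiniteDimensional F V] [FiniteDimensional F K] [FiniteDimensional K V]
  {q : QuadraticForm K V} {τ : K →ₗ[F] F} (h : OK Q q τ) {M : Subgroup (OG Q)}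
include h

theorem dual (φ : K →ₗ[F] F) : ∃ a, ∀ k, τ (k * a) = φ k :=
  exists_mul_eq (fun a e => h.ext fun k => by rw [e, mul_zero, map_zero]) φ

theorem exists_notMem : ∃ k : K, k ∉ (⊥ : Subalgebra F K) := by
  by_contra! H
  have := Subalgebra.bot_eq_top_iff_finrank_eq_one.1 (eq_top_iff.2 fun k _ => H k)
  exact h.prime.ne_one this

theorem lin_of_comm {N : K →ₗ[F] K} {c : K} (hc : c ∉ (⊥ : Subalgebra F K))
    (e : ∀ x, N (c * x) = c * N x) (l x : K) : N (l * x) = l * N x :=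
  h.of_notMem (E :=
    { carrier := {l | ∀ x, N (l * x) = l * N x}
      mul_mem' := fun ha hb x => by rw [mul_assoc, ha, hb, mul_assoc]
      add_mem' := fun ha hb x => by rw [add_mul, map_add, ha, hb, add_mul]
      algebraMap_mem' := fun a x => by
        rw [← Algebra.smul_def, ← Algebra.smul_def, map_smul] }) e hc l x

theorem dense (B : Subring (Module.End F K)) (h1 : ∀ l : K, l ≠ 0 → LinearMap.mulLeft F (l ^ 2) ∈ B)
    {N : Module.End F K} (hN : N ∈ B) (hl : ¬ ∀ l x, N (l * x) = l * N x) (D : Module.End F K) :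
    D ∈ B := by
  have := h.finK
  have := Fintype.ofFinite K
  have h2 : ∀ l : K, LinearMap.mulLeft F (l ^ 2) ∈ B := fun l => by
    by_cases l0 : l = 0
    · convert B.zero_mem; simp [l0]
    · exact h1 l l0
  have h3 : ∀ l : K, LinearMap.mulLeft F l ∈ B := fun l => by
    convert B.sub_mem (h2 ((l + 1) / 2)) (h2 ((l - 1) / 2))
    ext x
    have := h.twoK
    simp only [LinearMap.mulLeft_apply, LinearMap.sub_apply]
    field_simp
    ring
  have : IsSimpleModule B K := isSimpleModule_iff_toSpanSingleton_surjective.2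
    ⟨inferInstance, fun x x0 y => ⟨⟨_, h3 (y / x)⟩, div_mul_cancel₀ y x0⟩⟩
  suffices H : ∀ (e : Module.End B K) x, D (e x) = e (D x) by
    obtain ⟨r, hr⟩ := jacobson_density (R := B)
      { toFun := D, map_add' := D.map_add, map_smul' := H } Finset.univ
    rw [show D = r from LinearMap.ext fun x => hr x (Finset.mem_univ _)]; exact r.2
  intro e x
  have e1 : ∀ x, e x = e 1 * x := fun x => by
    have : e (x * 1) = x * e 1 := e.map_smul ⟨_, h3 x⟩ 1
    rwa [mul_one, mul_comm] at this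
  obtain ⟨a, ha⟩ := Algebra.mem_bot.1 (by_contra fun H => hl (h.lin_of_comm H fun x => by
    rw [← e1, ← e1]; exact (e.map_smul ⟨N, hN⟩ x).symm))
  rw [e1, e1 (D x), ← ha, ← Algebra.smul_def, ← Algebra.smul_def, map_smul]

theorem exists_sep (A : AddSubgroup K) {d : K} (hd : d ∉ A) :
    ∃ (G : Type) (_ : Field G) (ψ : F →+ G) (s : K), (∀ a, (∀ k, ψ (τ (k * a)) = 0) → a = 0) ∧
      (∀ a ∈ A, ψ (τ (a * s)) = 0) ∧ ψ (τ (d * s)) ≠ 0 := by
  have := h.finK
  obtain ⟨p, hp⟩ := CharP.exists F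
  have := Fact.mk (CharP.char_is_prime F p)
  let _ := ZMod.algebra F p
  let _ : Algebra (ZMod p) K := ((algebraMap F K).comp (algebraMap (ZMod p) F)).toAlgebra
  obtain ⟨ψ, hψ, -⟩ := Submodule.exists_le_ker_of_notMem (p := (⊥ : Submodule (ZMod p) F))
    (v := 1) (by simp)
  have ext : ∀ a, (∀ k, ψ (τ (k * a)) = 0) → a = 0 := fun a e => by
    by_contra a0
    obtain ⟨k, hk⟩ := h.one a a0
    exact hψ (hk ▸ e k)
  obtain ⟨φ, h1, h2⟩ := Submodule.exists_le_ker_of_notMem (p := A.toZModSubmodule p) (v := d) hd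
  obtain ⟨s, hs⟩ := exists_mul_eq (T := ψ ∘ₗ τ.toAddMonoidHom.toZModLinearMap p) ext φ
  exact ⟨ZMod p, inferInstance, ψ, s, ext, fun a ha => (hs a).trans (h2 ha), hs d ▸ h1⟩

theorem exists_eval (Z : AddSubgroup (K →ₗ[F] K)) (h1 : ∀ l, l ≠ 0 → ∀ C ∈ Z, tw (l ^ 2) C ∈ Z)
    {C : K →ₗ[F] K} (hC : C ∈ Z) (C0 : C ≠ 0) (sk : ∀ s t, τ (s * C t) = -τ (t * C s)) {t d : K}
    (t0 : t ≠ 0) (hd : τ (d * t) = 0) : ∃ E ∈ Z, E t = d := by
  have := h.finK
  have := Fintype.ofFinite K
  by_contra H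
  obtain ⟨G, _, ψ, s, ext, a1, a2⟩ := h.exists_sep (Z.map (LinearMap.applyₗ t).toAddMonoidHom) H
  let D : K → K := fun y => s * C (t * y) - t * C (s * y)
  have sy : ∀ x y, ψ (τ (x * D y)) = ψ (τ (s * x * C (t * y))) + ψ (τ (s * y * C (t * x))) :=
    fun x y => by
      rw [sk (s * y), ← map_add, ← sub_eq_add_neg, ← map_sub]; congr 2; simp only [D]; ring
  have a3 : ∀ l, ψ (τ (s * l ^ 2 * C (t * l ^ 2))) = 0 := fun l => by
    by_cases l0 : l = 0
    · simp [l0]
    · rw [← a1 _ ⟨_, h1 l l0 C hC, rfl⟩]; congr 2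
      change _ = l ^ 2 * C (l ^ 2 * t) * s
      rw [mul_comm t]; ring
  let f : K →+ K →+ G := (AddMonoidHom.mul.compl₂ (C.toAddMonoidHom.comp (AddMonoidHom.mulLeft t))
    |>.comp (AddMonoidHom.mulLeft s)).compr₂ (ψ.comp τ.toAddMonoidHom)
  have hf : ∀ x y, f x y = ψ (τ (s * x * C (t * y))) := fun _ _ => rfl
  simp only [← hf] at sy a3
  have a4 : ∀ a, 2 * (f (a ^ 2) 1 + f 1 (a ^ 2)) + 8 * f a a = 0 := fun a => by
    have b1 := a3 (1 + a)
    have b2 := a3 (1 - a)
    have b3 := a3 1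
    rw [show (1 + a) ^ 2 = 1 + a + a + a ^ 2 by ring] at b1
    rw [show (1 - a) ^ 2 = 1 - a - a + a ^ 2 by ring] at b2
    simp only [map_add, map_sub, AddMonoidHom.add_apply, AddMonoidHom.sub_apply, a3, one_pow] at b1 b2 b3
    linear_combination b1 + b2 - 2 * b3
  have a5 : ∀ b, 2 * D b + b * D 1 = 0 := fun b => mul_left_cancel₀ (pow_ne_zero 2 h.twoK)
    ((ext _ fun a => by
      have b1 := a4 (a + b)
      rw [show (a + b) ^ 2 = a ^ 2 + a * b + a * b + b ^ 2 by ring] at b1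
      rw [show a * (2 ^ 2 * (2 * D b + b * D 1)) = 8 • (a * D b) + 4 • (a * b * D 1) by ring]
      simp only [map_add, AddMonoidHom.add_apply, map_nsmul, sy] at b1 ⊢
      linear_combination b1 - a4 a - a4 b).trans (mul_zero _).symm)
  obtain ⟨c, hc⟩ : ∃ c, ∀ x, C (s / t * x) = s / t * C x + c * x := ⟨D 1 / (2 * t ^ 2), fun x => by
    have b1 := a5 (x / t)
    have := h.twoK
    generalize D 1 = e at b1
    simp only [D, mul_div_cancel₀ _ t0, show s * (x / t) = s / t * x by ring] at b1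
    field_simp at b1 ⊢
    linear_combination -b1⟩
  have a6 : ∀ (n : ℕ) x, C ((s / t) ^ (n + 1) * x) =
      (s / t) ^ (n + 1) * C x + (n + 1 : ℕ) * c * (s / t) ^ n * x := fun n x => by
    induction n with
    | zero => simpa using hc x
    | succ n ih => rw [pow_succ', mul_assoc, hc, ih]; push_cast; ring
  have a7 := a6 (Fintype.card K - 1)
  simp only [Nat.sub_add_cancel Fintype.card_pos, FiniteField.pow_card,
    FiniteField.cast_card_eq_zero, zero_mul, add_zero] at a7
  obtain ⟨a, ha⟩ := Algebra.mem_bot.1 (by_contra fun H => C0 (LinearMap.ext fun x => h.ext fun k =>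
    mul_left_cancel₀ h.two (by
      have b1 := sk k x
      have b2 := h.lin_of_comm H a7 x 1
      have b3 := h.lin_of_comm H a7 k 1
      rw [mul_one] at b2 b3
      rw [b2, b3, mul_left_comm x] at b1
      simp only [b2, LinearMap.zero_apply, mul_zero, map_zero]
      linear_combination b1)))
  refine a2 ?_
  rw [show d * s = a • (d * t) by rw [Algebra.smul_def, ha]; field_simp, map_smul, hd]; simp

theorem perp2 (hr : finrank F K = 2) {a b c : K} (ha : a ≠ 0) (hb : b / a ∉ (⊥ : Subalgebra F K))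
    (h1 : τ (a * c) = 0) (h2 : τ (b * c) = 0) : c = 0 := by
  by_contra c0
  let S := LinearMap.ker (τ ∘ₗ LinearMap.mulRight F c)
  have b1 : finrank F S < finrank F K := Submodule.finrank_lt fun H => by
    obtain ⟨k, hk⟩ := h.one c c0
    exact one_ne_zero (hk.symm.trans (H ▸ Submodule.mem_top : k ∈ S))
  have b2 : (⟨a, h1⟩ : S) ≠ 0 := fun H => ha (congrArg Subtype.val H)
  have b3 : 0 < finrank F S := finrank_pos_iff_exists_ne_zero.2 ⟨_, b2⟩
  obtain ⟨t, ht⟩ := (finrank_eq_one_iff_of_nonzero' (K := F) _ b2).1 (by omega) ⟨b, h2⟩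
  exact hb (Algebra.mem_bot.2 ⟨t, by
    rw [eq_div_iff ha, ← Algebra.smul_def]; exact congrArg Subtype.val ht⟩)

theorem skew_self {C : K →ₗ[F] K} (sk : ∀ s t, τ (s * C t) = -τ (t * C s)) (t : K) :
    τ (t * C t) = 0 := mul_left_cancel₀ h.two (by linear_combination sk t t)

theorem sub_perp (g : OG Q) {p : V} (hp : ∀ k : K, g.1 (k • p) = k • p) (x : V) :
    polar q (g.1 x - x) p = 0 := h.ext fun k => by
  rw [← o_polar_smul_right, h.polar_tr, polar_sub_left, ← hp, OG.polar_app, hp]; simp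

theorem ZM_map {v v₂ : V} {hv : q v = 0} (hv₂ : q v₂ = 0) {g : OG q} (hg : h.res g ∈ M) {l : K}
    (e : g.1 v = l • v₂) {C : K →ₗ[F] K} (hC : C ∈ ZM q M hv) : tw l C ∈ ZM q M hv₂ := by
  obtain ⟨u, hu, e'⟩ := hC
  refine ⟨h.res g * u * (h.res g)⁻¹, M.mul_mem (M.mul_mem hg hu) (M.inv_mem hg), fun x => ?_⟩
  rw [← map_inv, OG.mul_app, OG.mul_app, e', res_app, res_app, map_add, OG.app_inv_app, map_smul,
    OG.polar_inv_left, e, tw_app, o_polar_smul_right, smul_smul, mul_comm _ l]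

section Pair

variable {v v' : V} (hv : q v = 0) (hv' : q v' = 0) (e : polar q v v' = 1)
include hv hv' e

theorem eq_of_perp {y : V} (hy : ∀ w, polar q v w = 0 → polar q v' w = 0 → polar q y w = 0) :
    y = polar q y v' • v + polar q y v • v' := by
  obtain ⟨a1, a2⟩ := o_hyp_decomp hv hv' e y
  rw [← sub_eq_zero, ← sub_sub]
  refine o_eq_zero h.ndK fun z => ?_
  obtain ⟨b1, b2⟩ := o_hyp_decomp hv hv' e z
  have := hy _ b1 b2
  rw [polar_comm] at a1 a2
  simp only [oexp, hv, hv', e, polar_comm q v' v, polar_comm q v z, polar_comm q v' z] at this a1 a2 ⊢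
  linear_combination this

theorem app_eq {g : OG Q} (hg : ∀ w, polar q v w = 0 → polar q v' w = 0 → g.1 w = w) (k : K) :
    g.1 (k • v) = co q g v v' k • v + co q g v v k • v' :=
  h.eq_of_perp hv hv' e fun w h1 h2 => by
    have := h.sub_perp g (p := w) (fun k => hg _ (by simp [h1]) (by simp [h2])) (k • v)
    simpa [h1] using this

variable (hM : KN Q K ⊓ commutator (OG Q) ≤ M)
include hM

theorem exists_Z {C : K →ₗ[F] K} (hC : C ∈ ZM q M hv) (C0 : C ≠ 0) {t d : K}
    (t0 : t ≠ 0) (hd : τ (d * t) = 0) : ∃ E ∈ ZM q M hv, E t = d :=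
  h.exists_eval _ (fun l l0 C hC => h.ZM_map hv (h.res_sq hM (otor q v v' l)) (by
    rw [OG.mul_app, otor_left hv hv' e l0, map_smul, otor_left hv hv' e l0, smul_smul, pow_two]) hC)
    hC C0 (h.skew (o_ne_zero_of_polar_left (Q := q) (e ▸ one_ne_zero)) hC) t0 hd

theorem exists_levi (hr : finrank F K ≠ 2) {C C' : K →ₗ[F] K} (hC : C ∈ ZM q M hv) (C0 : C ≠ 0)
    (hC' : C' ∈ ZM q M hv') (C0' : C' ≠ 0) :
    ∃ n ∈ M, (∀ w, polar q v w = 0 → polar q v' w = 0 → n.1 w = w) ∧ ∃ N : K →ₗ[F] K,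
      (∀ k, n.1 (k • v) = N k • v) ∧ ¬ ∀ l x, N (l * x) = l * N x := by
  have v0 : v ≠ 0 := o_ne_zero_of_polar_left (Q := q) (e ▸ one_ne_zero)
  have v0' : v' ≠ 0 := o_ne_zero_of_polar_right (Q := q) (e ▸ one_ne_zero)
  obtain ⟨_, ⟨U0, g, hg, gW, g0, rfl⟩, hmax⟩ := (wellFounded_gt (α := Submodule F K)).has_min
    {U | U ≠ ⊥ ∧ ∃ g ∈ M, (∀ w, polar q v w = 0 → polar q v' w = 0 → g.1 w = w) ∧
      co q g v v ≠ 0 ∧ U = LinearMap.ker (co q g v v)} (by
    have sk := h.skew v0' hC'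
    obtain ⟨u, hu, eu⟩ := hC'
    have : co q u v v = C' := LinearMap.ext fun k => by
      simp [co_app, eu, hv, e, polar_comm q v' v]
    refine ⟨_, fun H => ?_, u, hu, fun w h1 h2 => by simp [eu, polar_comm q w, h2], this ▸ C0', rfl⟩
    rw [this, LinearMap.ker_eq_bot'] at H
    let B : LinearMap.BilinForm F K := ((LinearMap.mul F K).compl₂ C').compr₂ τ
    have hB : ∀ s t, B s t = τ (s * C' t) := fun _ _ => rfl
    have a1 : ∀ t, (∀ s, B s t = 0) → t = 0 := fun t ht => H t (h.ext fun k => by simpa [hB] using ht k)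
    exact hr ((h.prime.even_iff).1 (sp_even_finrank (B := B) ⟨fun s hs => a1 s fun t => by
      rw [hB, sk, ← hB, hs, neg_zero], a1⟩ (h.skew_self sk))))
  obtain ⟨k₀, hk₀, k0⟩ := Submodule.exists_mem_ne_zero_of_ne_bot U0
  obtain ⟨k₁, k1⟩ := DFunLike.ne_iff.1 g0
  have a1 := h.app_eq hv hv' e gW k₀
  rw [LinearMap.mem_ker.1 hk₀, zero_smul, add_zero] at a1
  obtain ⟨E, ⟨u, hu, eu⟩, hE⟩ := h.exists_Z hv hv' e hM hC C0 (d := co q g v v' k₀) k1 (by
    rw [co_app q g v v, ← o_polar_smul_right, ← a1, h.polar_tr, OG.polar_app, ← h.polar_tr]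
    simp [hv])
  have nW : ∀ w, polar q v w = 0 → polar q v' w = 0 → (g⁻¹ * u * g).1 w = w := fun w h1 h2 => by
    rw [OG.mul_app, OG.mul_app, gW w h1 h2, eu, polar_comm, h1, OG.inv_app_eq_iff, gW w h1 h2]; simp
  have n1 : ∀ k, (g⁻¹ * u * g).1 (k • v) = k • v + (g⁻¹).1 (E (co q g v v k) • v) := fun k => by
    rw [OG.mul_app, OG.mul_app, eu, map_add, OG.inv_app_app, co_app]
  have n2 : (g⁻¹ * u * g).1 (k₁ • v) = (k₁ + k₀) • v := by
    rw [n1, hE, ← a1, OG.inv_app_app, add_smul]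
  have n3 : ∀ k ∈ LinearMap.ker (co q g v v), (g⁻¹ * u * g).1 (k • v) = k • v := fun k hk => by
    rw [n1, LinearMap.mem_ker.1 hk]; simp
  have hn := M.mul_mem (M.mul_mem (M.inv_mem hg) hu) hg
  generalize g⁻¹ * u * g = n at nW n2 n3 hn
  have n4 : LinearMap.ker (co q g v v) < LinearMap.ker (co q n v v) := lt_of_le_of_ne
    (fun k hk => by simp [co_app, n3 k hk, hv]) fun H => k1 (by
      change k₁ ∈ LinearMap.ker (co q g v v)
      simp [H, co_app, n2, hv])
  have n5 : co q n v v = 0 := by_contra fun H => hmax _ ⟨ne_bot_of_gt n4, n, hn, nW, H, rfl⟩ n4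
  refine ⟨n, hn, nW, co q n v v', fun k => by simpa [n5] using h.app_eq hv hv' e nW k, fun H => k0 ?_⟩
  have b1 := H k₁ k₀
  rw [mul_comm, H] at b1
  simp only [co_app, n2, n3 k₀ hk₀, oexp, e] at b1
  exact pow_eq_zero_iff two_ne_zero |>.1 (by linear_combination b1)

theorem eich_pair {n : OG Q} (hn : n ∈ M) (nW : ∀ w, polar q v w = 0 → polar q v' w = 0 → n.1 w = w)
    {N : K →ₗ[F] K} (hN : ∀ k, n.1 (k • v) = N k • v) (hl : ¬ ∀ l x, N (l * x) = l * N x) (a b : K) :
    eich Q (a • v) (b • v) ∈ M := by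
  have v0 : v ≠ 0 := o_ne_zero_of_polar_left (Q := q) (e ▸ one_ne_zero)
  let R : (V → K) → Prop := fun φ => ∃ g ∈ M, (∀ k : K, g.1 (k • v) = k • v) ∧
    ∀ w, polar q v w = 0 → polar q v' w = 0 → g.1 w = w - φ w • v
  let B : Subring (Module.End F K) :=
    { carrier := {D | ∀ φ, R φ → R (D ∘ φ)}
      mul_mem' := fun ha hb φ H => ha _ (hb _ H)
      one_mem' := fun φ H => H
      add_mem' := fun ha hb φ H => by
        obtain ⟨g, hg, g1, g2⟩ := ha φ H
        obtain ⟨g', hg', g1', g2'⟩ := hb φ H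
        exact ⟨g * g', M.mul_mem hg hg', fun k => by rw [OG.mul_app, g1', g1], fun w h1 h2 => by
          rw [OG.mul_app, g2' w h1 h2, map_sub, g2 w h1 h2, g1]; simp [add_smul, sub_sub]⟩
      zero_mem' := fun φ _ => ⟨1, M.one_mem, fun _ => rfl, fun w _ _ => by simp⟩
      neg_mem' := fun ha φ H => by
        obtain ⟨g, hg, g1, g2⟩ := ha φ H
        exact ⟨g⁻¹, M.inv_mem hg, fun k => by rw [OG.inv_app_eq_iff, g1], fun w h1 h2 => by
          rw [OG.inv_app_eq_iff, map_sub, g2 w h1 h2, g1]; simp⟩ }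
  have key : ∀ n ∈ M, (∀ w, polar q v w = 0 → polar q v' w = 0 → n.1 w = w) → ∀ N : K →ₗ[F] K,
      (∀ k, n.1 (k • v) = N k • v) → N ∈ B := fun n hn nW N hN φ ⟨g, hg, g1, g2⟩ =>
    ⟨n * g * n⁻¹, M.mul_mem (M.mul_mem hn hg) (M.inv_mem hn), fun k => by
      obtain ⟨k, rfl⟩ := LinearMap.injective_iff_surjective.1 (show Function.Injective N from
        fun a b H => smul_left_injective K v0 (n.1.injective (by simp only [hN, H]))) k
      rw [OG.mul_app, OG.mul_app, ← hN, OG.inv_app_app, g1], fun w h1 h2 => by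
      rw [OG.mul_app, OG.mul_app, (OG.inv_app_eq_iff n).2 (nW w h1 h2).symm, g2 w h1 h2, map_sub,
        nW w h1 h2, hN]; rfl⟩
  have k2 : ∀ (b : K) w₀, polar q v w₀ = 0 → R fun w => polar Q w w₀ • b := fun b w₀ h0 => by
    simpa [h.polar_tr, Function.comp_def] using h.dense B (fun l l0 => key _ (h.res_sq hM (otor q v v' l))
      (fun w h1 h2 => by rw [res_app, OG.mul_app, otor_perp l h1 h2, otor_perp l h1 h2]) _ fun k => by
        simp [otor_left hv hv' e l0, smul_smul, pow_two, mul_comm]) (key n hn nW N hN) hl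
      (τ.smulRight b) (polar q · w₀) ⟨_, h.eich_mem hM v w₀, fun k => by
        simp [eich_app_self], fun w h1 _ => eich_app_of_polar_left hv h0 (polar_comm q w v ▸ h1)⟩
  obtain ⟨w, w0, w1, w2⟩ := o_exists_nonsingular_perp_hyp hv hv' e h.ndK h.dim
  obtain ⟨κ, hκ⟩ := h.one _ (mul_ne_zero h.twoK w0)
  obtain ⟨g, hg, g1, g2⟩ := k2 (-b) (κ • w) (by simp [w1])
  obtain ⟨g', hg', g1', g2'⟩ := k2 a w w1
  have a1 : ∀ {y}, polar q v y = 0 → polar Q (a • v) y = 0 := fun hy => h.polar_zero (by simp [hy])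
  have fx : ∀ {z : OG Q}, (∀ k : K, z.1 (k • v) = k • v) → (∀ w, polar q v w = 0 →
      polar q v' w = 0 → z.1 w = w) → ∀ y, polar q y v = 0 → z.1 y = y := fun z1 z2 y hy => by
    obtain ⟨b1, b2⟩ := o_hyp_decomp hv hv' e y
    have := z2 _ b1 b2
    rwa [hy, zero_smul, sub_zero, map_sub, z1, sub_left_inj] at this
  obtain ⟨z, hz⟩ : ∃ z, g' = eich Q (a • v) w * z := ⟨_, (mul_inv_cancel_left _ _).symm⟩
  have z1 : ∀ y, polar q y v = 0 → z.1 y = y := by
    refine fx (fun k => ?_) fun y h1 h2 => ?_ <;> apply (eich Q (a • v) w).1.injective <;>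
      rw [← OG.mul_app, ← hz]
    · rw [g1', eich_app_of_polar (h.polar_zero (by simp [hv])) (h.polar_zero (by simp [w1]))]
    · rw [g2' y h1 h2, eich_app_of_polar_left (h.Q_smul hv a) (a1 w1) (polar_comm Q y _ ▸ a1 h1),
        smul_assoc]
  have z2 : g * z = z * g := OG.ext fun x => by
    have b1 := z1 _ (h.sub_perp g g1 x)
    have b2 := fun y (hy : polar q y v = 0) => h.sub_perp z (p := y) (fun k => z1 _ (by simp [hy])) x
    have b3 := h.eq_of_perp hv hv' e fun y hy _ => b2 y (polar_comm q y v ▸ hy)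
    rw [b2 v (by simp [hv]), zero_smul, add_zero] at b3
    have b4 := g1 (polar q (z.1 x - x) v')
    rw [← b3] at b4
    simp only [map_sub] at b1 b4
    rw [OG.mul_app, OG.mul_app]
    linear_combination (norm := module) b4 - b1
  have := M.mul_mem (M.mul_mem (M.mul_mem hg hg') (M.inv_mem hg)) (M.inv_mem hg')
  rw [hz, show g * (eich Q (a • v) w * z) * g⁻¹ * (eich Q (a • v) w * z)⁻¹ =
    g * eich Q (a • v) w * g⁻¹ * (g * z * (z * g)⁻¹) * (eich Q (a • v) w)⁻¹ by group, z2,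
    mul_inv_cancel, mul_one, conj_eich, g1, g2 w w1 w2, eich_inv, eich_mul (h.Q_smul hv a)
      (a1 (by simp [w1, hv])) (a1 (by simp [w1]))] at this
  simpa [← h.polar_tr, hκ] using this

theorem full_odd (hr : finrank F K ≠ 2) (h1 : ∀ a : K, eich Q v (a • v) ∈ M)
    (h2 : ∀ a b : K, eich Q (a • v') (b • v') ∈ M) : Full M v := by
  have hq := h.Q_zero hv
  have a1 : ∀ k : K, k • v ∈ EA M hq := fun k => ⟨h.polar_zero (by simp [hv]), h1 k⟩
  have a0 : ∀ s : K, ∃ k, k ∉ (⊥ : Subalgebra F K) ∧ τ (k * s) = 0 := fun s => by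
    by_contra! H
    have b1 := (τ ∘ₗ LinearMap.mulRight F s).finrank_range_add_finrank_ker
    have b2 := (LinearMap.range (τ ∘ₗ LinearMap.mulRight F s)).finrank_le
    have b3 := Submodule.finrank_mono (show LinearMap.ker (τ ∘ₗ LinearMap.mulRight F s) ≤
      Subalgebra.toSubmodule ⊥ from fun k hk => by_contra fun H' => H k H' hk)
    have b4 := h.prime.two_le
    rw [Subalgebra.finrank_toSubmodule, Subalgebra.finrank_bot] at b3
    rw [finrank_self] at b2
    omega
  have a2 : ∀ s : K, τ s = 0 → s • v' ∈ EA M hq := fun s hs => by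
    obtain ⟨k, k0, hk⟩ := a0 s
    obtain ⟨f, f1, f2⟩ := Submodule.exists_le_ker_of_notMem (p := Subalgebra.toSubmodule (⊥ : Subalgebra F K))
      (v := k) k0
    obtain ⟨a, ha⟩ := h.dual ((f k)⁻¹ • f)
    have b1 : ∀ t : K, (eich Q (a • v') (s • v')).1 (t • v) =
        t • v + τ (t * a) • s • v' - τ (t * s) • a • v' := fun t => by
      rw [eich_app (h.Q_smul hv' a) (h.polar_zero (by simp [hv'])), h.Q_smul hv']
      simp [← h.polar_tr, e, mul_comm t]
    have b2 := b1 1
    rw [ha, one_mul, hs, one_smul, LinearMap.smul_apply, f2 (Subalgebra.one_mem _)] at b2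
    have := (EA M hq).sub_mem (EA_fix (h2 a s) (by simpa using b2) (a1 k)) (a1 k)
    simpa [b1, ha, hk, f1] using this
  have a3 : ∀ w, polar q v w = 0 → polar q v' w = 0 → w ∈ EA M hq := fun w w1 w2 => by
    obtain ⟨s, s0, hs⟩ := a0 1
    have s1 : s ≠ 0 := fun H => s0 (H ▸ zero_mem _)
    rw [mul_one] at hs
    have := (EA M hq).add_mem ((EA M hq).sub_mem (EA_fix (h.eich_mem hM v (s⁻¹ • w))
      (eich_app_self _ _) (a2 s hs)) (a2 s hs)) (a1 (q (s⁻¹ • w) * s))
    rw [res_app, eich_app hv (by simp [w1])] at this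
    convert this using 1
    simp [w2, polar_comm q v' v, e, s1]; abel
  refine full_of_EA hq fun y hy => ?_
  obtain ⟨b1, b2⟩ := o_hyp_decomp hv hv' e y
  convert (EA M hq).add_mem ((EA M hq).add_mem (a3 _ b1 b2)
    (a2 (polar q y v) (by rw [h.polar_tr, polar_comm, hy]))) (a1 (polar q y v')) using 1
  abel

theorem full_two (hr : finrank F K = 2) {C C' : K →ₗ[F] K} (hC : C ∈ ZM q M hv) (C0 : C ≠ 0)
    (hC' : C' ∈ ZM q M hv') (C0' : C' ≠ 0) : ∃ x, x ≠ 0 ∧ Full M x := by
  have := h.finK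
  have inj : ∀ {C : K →ₗ[F] K}, (∀ s t, τ (s * C t) = -τ (t * C s)) → C ≠ 0 → ∀ d, d ≠ 0 →
      C d ≠ 0 := fun {C} sk C0 d d0 H => by
    obtain ⟨k, hk⟩ := h.exists_notMem
    have b1 : ∀ x, τ (d * C x) = 0 := fun x => by rw [sk, H]; simp
    have b2 := fun c => h.perp2 hr d0 (b := k * d) (c := c) (by simpa [d0] using hk)
    exact C0 (LinearMap.ext fun x => b2 _ (b1 x) (by rw [sk, b2 _ (b1 _) (h.skew_self sk _)]; simp))
  have sk := h.skew (o_ne_zero_of_polar_left (Q := q) (e ▸ one_ne_zero)) hC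
  have sk' := h.skew (o_ne_zero_of_polar_right (Q := q) (e ▸ one_ne_zero)) hC'
  have d0 := inj sk C0 1 one_ne_zero
  obtain ⟨s, hs⟩ := h.one _ d0
  have d1 := h.skew_self sk 1
  have y1 := sk 1 s
  rw [one_mul] at d1 y1
  rw [hs] at y1
  have nb : ∀ {a b : K}, τ a = 0 → τ b ≠ 0 → a ≠ 0 → b / a ∉ (⊥ : Subalgebra F K) :=
    fun {a b} ha hb a0 H => by
      obtain ⟨t, ht⟩ := Algebra.mem_bot.1 H
      rw [eq_div_iff a0, ← Algebra.smul_def] at ht
      exact hb (by rw [← ht, map_smul, ha, smul_zero])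
  obtain ⟨u, hu, eu⟩ := hC
  obtain ⟨u', hu', eu'⟩ := hC'
  have a1 : eich Q (C 1 • v) (C s • v) = u := OG.ext fun x => by
    rw [eich_app (h.Q_smul hv _) (h.polar_zero (by simp [hv])), h.Q_smul hv, eu, add_sub_assoc,
      ← smul_assoc, ← smul_assoc, ← sub_smul]
    congr 2
    simp only [← h.polar_tr, o_polar_smul_right, zero_mul, add_zero]
    generalize polar q x v = t
    refine sub_eq_zero.1 (h.perp2 hr one_ne_zero (b := s) ?_ ?_ ?_)
    · simpa [d0] using nb d1 (b := s * C 1) (hs ▸ one_ne_zero) d0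
    · have := sk 1 t
      simp only [one_mul, map_sub, map_smul, y1, d1, smul_eq_mul] at this ⊢
      rw [this, mul_comm t]; ring
    · simp only [mul_sub, mul_smul_comm, map_sub, map_smul, hs, h.skew_self sk s, sk s t, smul_eq_mul]
      rw [mul_comm t]; ring
  have a2 : ∀ k : K, u'.1 (k • v) = k • v + C' k • v' := fun k => by simp [eu', e]
  have hq : Q (C 1 • v + C' (C 1) • v') = 0 := by rw [← a2, OG.map_app, h.Q_smul hv]
  have a3 := EA_map (hu := h.Q_smul hv _) hq hu' (a2 _) ⟨h.polar_zero (by simp [hv]), a1 ▸ hu⟩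
  have a4 : q (C 1 • v + C' (C 1) • v') ≠ 0 := by
    simpa [o_norm_hyp hv hv' e, d0] using inj sk' C0' _ d0
  have a5 : polar q (C 1 • v + C' (C 1) • v') (C 1 • v - C' (C 1) • v') = 0 := by
    simp only [oexp, hv, hv', e, polar_comm q v' v]; ring
  have a6 : polar q (u'.1 (C s • v)) (C 1 • v - C' (C 1) • v') ≠ 0 := fun H => by
    simp only [a2, oexp, hv, hv', e, polar_comm q v' v] at H
    refine inj sk' C0' _ d0 (h.perp2 hr d0 (nb d1 (y1 ▸ neg_ne_zero.2 one_ne_zero) d0)
      (h.skew_self sk' _) (mul_left_cancel₀ h.two ?_))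
    have := sk' (C 1) (C s)
    rw [show C 1 * C' (C s) = C s * C' (C 1) by linear_combination H] at this
    linear_combination this
  generalize C 1 • v + C' (C 1) • v' = x at hq a3 a4 a5
  have hx : ∀ {y}, y ∈ operp q (Submodule.span K {x}) ↔ polar q x y = 0 :=
    mem_operp_span.trans (by simp)
  have a7 := le_of_eich_invariant ((nd_span_one h.twoK a4).perp h.ndK) (by
    have := finrank_operp h.ndK (Submodule.span K {x})
    have := finrank_span_one_le (F := K) x
    have := h.dim' hr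
    omega) (EA M hq) (fun p hp w hw _ _ y hy => EA_fix (h.eich_mem hM p w)
      (eich_app_of_polar (hx.1 hp) (hx.1 hw)) hy) a3 (hx.2 a5) a6
  refine ⟨x, fun H => a4 (by simp [H]), full_of_EA hq fun z hz => ?_⟩
  have a8 := mul_ne_zero h.twoK a4
  obtain ⟨t, ht⟩ := Algebra.mem_bot.1 (show polar q x z / (2 * q x) ∈ ⊥ from by_contra fun H =>
    a8 (h.perp2 hr one_ne_zero (by rwa [div_one]) (by
      rw [one_mul, ← o_polar_self, h.polar_tr, o_polar_self, hq, mul_zero])
      (by rw [div_mul_cancel₀ _ a8, h.polar_tr, hz])))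
  simpa using (EA M hq).add_mem (a7 (z - t • x) (hx.2 (by
    rw [← algebraMap_smul K, polar_sub_right, o_polar_smul_right, ht, o_polar_self,
      div_mul_cancel₀ _ a8, sub_self]))) (smul_self_mem_EA hq t)

end Pair

theorem EO_le (hM : KN Q K ⊓ commutator (OG Q) ≤ M) {v : V} (hv : q v = 0) (v0 : v ≠ 0)
    {C : K →ₗ[F] K} (hC : C ∈ ZM q M hv) (C0 : C ≠ 0) : EO Q ≤ M := by
  have := h.finK
  obtain ⟨x, x0, hx⟩ : ∃ x, x ≠ 0 ∧ Full M x := by
    obtain ⟨u, hu, e⟩ := o_exists_partner h.ndK hv v0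
    obtain ⟨w, w0, w1, w2⟩ := o_exists_nonsingular_perp_hyp hv hu e h.ndK h.dim
    have a1 : polar q v ((eich q u w).1 v) = -q w := by simp [eich_app hu w2, e, w1, hv]
    have hv' : q ((-q w)⁻¹ • (eich q u w).1 v) = 0 := by simp [o_qsmul, hv]
    have e' : polar q v ((-q w)⁻¹ • (eich q u w).1 v) = 1 := by simp [a1, w0]
    have hC' := h.ZM_map hv' (h.eich_mem hM u w) (smul_inv_smul₀ (neg_ne_zero.2 w0) _).symm hC
    have C0' : tw (-q w) C ≠ 0 := fun H => C0 (LinearMap.ext fun t => by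
      simpa [tw_app, mul_div_cancel₀, w0] using LinearMap.congr_fun H (-(t / q w)))
    by_cases hr : finrank F K = 2
    · exact h.full_two hv hv' e' hM hr hC C0 hC' C0'
    obtain ⟨n, hn, nW, N, hN, hl⟩ := h.exists_levi hv hv' e' hM hr hC C0 hC' C0'
    obtain ⟨n', hn', nW', N', hN', hl'⟩ :=
      h.exists_levi hv' hv (polar_comm q v _ ▸ e') hM hr hC' C0' hC C0
    exact ⟨v, v0, h.full_odd hv hv' e' hM hr
      (fun a => by simpa using h.eich_pair hv hv' e' hM hn nW hN hl 1 a)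
      (h.eich_pair hv' hv (polar_comm q v _ ▸ e') hM hn' nW' hN' hl')⟩
  by_contra hno
  let A : AddSubgroup V :=
    { carrier := {y | ∀ g ∈ M, polar Q x (g.1 y) = 0}
      add_mem' := fun ha hb g hg => by rw [map_add, polar_add_right, ha g hg, hb g hg, add_zero]
      zero_mem' := fun g _ => by simp
      neg_mem' := fun ha g hg => by rw [map_neg, polar_neg_right, ha g hg, neg_zero] }
  obtain ⟨y, hy⟩ := o_exists_polar_eq h.ndK x0 1
  exact x0 (o_eq_zero h.nd fun z => le_of_eich_invariant (Q := q) (W := ⊤)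
    (fun a _ H => o_eq_zero h.ndK fun b => H b trivial) (by rw [finrank_top]; exact h.dim) A
    (fun u _ w _ _ _ z hz g hg => hz _ (M.mul_mem hg (h.eich_mem hM u w))) (x := x)
    (fun g hg => by_contra fun H => hno (EO_le_of_full_move h.nd hx hg H)) trivial
    (hy ▸ one_ne_zero) z trivial 1 M.one_mem)

/-- **The extension field subgroups.** -/
theorem omax : OMax (KN Q K) := by
  have hd := h.dimF
  refine ⟨?_, fun M hM hΩ g hg hgn => ?_⟩
  · obtain ⟨v, v', hv, hv', e⟩ := h.exists_hyp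
    obtain ⟨w, w0, w1, w2⟩ := o_exists_nonsingular_perp_hyp hv hv' e h.ndK h.dim
    refine ⟨_, eich_mem_omega h.nd (by omega) v w, fun H => ?_⟩
    obtain ⟨k, hk⟩ := h.exists_notMem
    obtain ⟨l, hl⟩ := H.1 k
    obtain ⟨s, hs⟩ := h.one 1 one_ne_zero
    have a1 := hl v
    rw [eich_app_self, eich_app_of_polar (h.polar_zero (by simp [hv]))
      (h.polar_zero (by simp [w1]))] at a1
    obtain rfl := smul_left_injective K (o_ne_zero_of_polar_left (Q := q) (e ▸ one_ne_zero)) a1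
    have a2 := congrArg (polar q w) (hl (s • v'))
    have a3 : ∀ (c : F) x, polar q w (c • x) = algebraMap F K c * polar q w x := fun c x => by
      rw [← algebraMap_smul K, o_polar_smul_right]
    simp only [eich_app (h.Q_zero hv) (h.polar_zero w1), a3, oexp, polar_comm q w v,
      polar_comm q w v', w1, w2, ← h.polar_tr, polar_comm q v' v, e, hs, map_one] at a2
    exact hk (Algebra.mem_bot.2 ⟨τ (k * (s * 1)), mul_right_cancel₀ (mul_ne_zero h.twoK w0)
      (by linear_combination a2)⟩)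
  rw [omega_eq h.nd (by omega)]
  by_contra hno
  exact hgn (h.mem_KN_of hM hΩ (fun v hv v0 C hC => by_contra fun C0 =>
    hno (h.EO_le hM hv v0 hC C0)) hg)

end OK

theorem omax_ext [Finite F] [FiniteDimensional F V] [FiniteDimensional F K]
    (hQ : (polarBilin Q).Nondegenerate) (h2 : (2 : F) ≠ 0) (hr : (finrank F K).Prime)
    (hn : 3 * finrank F K ≤ finrank F V) (hn' : finrank F K = 2 → 8 ≤ finrank F V)
    (hsa : ∀ (k : K) x y, polar Q (k • x) y = polar Q x (k • y)) : OMax (KN Q K) := by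
  have : FiniteDimensional K V := Module.Finite.of_restrictScalars_finite F K V
  obtain ⟨τ, hτ, -⟩ := Submodule.exists_le_ker_of_notMem (p := (⊥ : Submodule F K)) (v := (1 : K))
    (by simp)
  have one : ∀ c : K, c ≠ 0 → ∃ k, τ (k * c) = 1 := fun c hc =>
    ⟨(τ 1)⁻¹ • c⁻¹, by rw [smul_mul_assoc, inv_mul_cancel₀ hc, map_smul, smul_eq_mul,
      inv_mul_cancel₀ hτ]⟩
  have ext : ∀ a b : K, (∀ k, τ (k * a) = τ (k * b)) → a = b := fun a b h => by
    by_contra hne
    obtain ⟨k, hk⟩ := one _ (sub_ne_zero.2 hne)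
    rw [mul_sub, map_sub, h, sub_self] at hk
    exact zero_ne_one hk
  choose b hb using fun x y : V => exists_mul_eq (T := τ) (fun a h => ext a 0 (by simpa using h))
    (((2 : F)⁻¹ • (polarBilin Q).flip y) ∘ₗ (LinearMap.toSpanSingleton K V x).restrictScalars F)
  replace hb : ∀ x y k, τ (k * b x y) = 2⁻¹ * polar Q (k • x) y := hb
  let β : LinearMap.BilinForm K V := LinearMap.mk₂ K b
    (fun x x' y => ext _ _ fun k => by simp [mul_add, hb])
    (fun c x y => ext _ _ fun k => by rw [smul_eq_mul, ← mul_assoc, hb, hb, mul_smul])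
    (fun x y y' => ext _ _ fun k => by simp [mul_add, hb])
    (fun c x y => ext _ _ fun k => by
      rw [smul_eq_mul, ← mul_assoc, hb, hb, ← hsa, mul_comm k, mul_smul])
  have tr : ∀ x, τ (β.toQuadraticMap x) = Q x := fun x => by
    have := hb x x 1
    rwa [one_mul, one_smul, o_polar_self, inv_mul_cancel_left₀ h2] at this
  have nd : ∀ x, (∀ y, polar β.toQuadraticMap x y = 0) → x = 0 := fun x h =>
    o_eq_zero hQ fun y => by
      have := congrArg τ (h y)
      simpa only [polar, map_sub, tr, map_zero] using this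
  have hd := Module.finrank_mul_finrank F K V
  have := hr.two_le
  exact OK.omax (q := β.toQuadraticMap) ⟨hQ, ⟨nd, fun x h => nd x fun y => (polar_comm _ x y).trans (h y)⟩,
    tr, one, h2, hr, by nlinarith, fun e => by have := hn' e; rw [e] at hd; omega⟩

theorem isMaximalIn_ext {ι : Type} [Fintype ι] [DecidableEq ι] [Finite F]
    (P : QuadraticForm F (ι → F)) (hP : (polarBilin P).Nondegenerate) (h2 : (2 : F) ≠ 0) {r : ℕ}
    (hr : r.Prime) (hn : 3 * r ≤ Fintype.card ι) (hn' : r = 2 → 8 ≤ Fintype.card ι)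
    {K : Subalgebra F (Matrix ι ι F)} (hK : Geo.IsFieldSubalgebra r K)
    (hsa : Geo.IsSelfAdjointFor (polar ⇑P) K) :
    Geo.IsMaximalIn (Geo.omegaGL ⇑P) (Geo.subalgebraNormalizer K ⊓ Geo.omegaGL ⇑P) := by
  have : Nonempty ι := Fintype.card_pos_iff.1 (by have := hr.two_le; omega)
  refine isMaximalIn_field P hK fun L _ _ _ _ _ e h1 _ => omax_ext hP h2 (e ▸ hr)
    (by simpa [e] using hn) (by simpa [e] using hn') fun l x y => ?_
  obtain ⟨k, hk, e⟩ := h1 l
  rw [e, e, hsa k hk]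

end Cfsg.Agent.Cl.MaxO
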