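import Mathlib
import Cfsg.Agent.Cl.MaxOBasic
import Cfsg.Agent.Cl.MaxSLSub

/-!
# Rational structures on an orthogonal space over a finite field

`OSub Q Q₀ j φ`: the quadratic space `(V, Q)` over `F` arises from `(V₀, Q₀)` over a subfield `K`
of prime index, `φ` is the Frobenius map.  Galois descent for subspaces (`OSub.le_span`), the
group `subK` of the isometries which are rational up to a scalar.
-/

set_option autoImplicit false
set_option linter.unusedSectionVars false
set_option linter.unusedVariables false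

namespace Cfsg.Agent.Cl.MaxO

open Module QuadraticMap

variable {F V : Type*} [Field F] [AddCommGroup V] [Module F V] {Q : QuadraticForm F V}

theorem eich_eigen {u w x : V} {μ : F} (h : (eich Q u w).1 x = μ • x) (hx : x ≠ 0) : μ = 1 := by
  by_contra hμ
  have hμ' : μ - 1 ≠ 0 := sub_ne_zero.2 hμ
  by_cases hc : Q u = 0 ∧ polar Q u w = 0
  · obtain ⟨hu, hw⟩ := hc
    have hw' : polar Q w u = 0 := by rw [polar_comm, hw]
    rw [eich_app hu hw] at h
    have h1 := congrArg (fun v => polar Q v u) h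
    simp only [oexp, hu, hw'] at h1
    have h2 : polar Q x u = 0 := by
      refine (mul_eq_zero.1 (?_ : (μ - 1) * polar Q x u = 0)).resolve_left hμ'
      linear_combination -h1
    rw [h2] at h
    have h3 : x = (-(polar Q x w) / (μ - 1)) • u := by
      refine smul_right_injective V hμ' ?_
      simp only [smul_smul, mul_div_cancel₀ _ hμ']
      linear_combination (norm := module) -h
    have h4 : polar Q x w = 0 := by rw [h3, o_polar_smul_left, hw, mul_zero]
    rw [h4] at h3
    exact hx (by rw [h3]; simp)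
  · rw [eich_of_not hc, OG.one_app] at h
    exact hx (smul_right_injective V hμ' (by linear_combination (norm := module) -h))

theorem exists_EO_map [FiniteDimensional F V] (hQ : (polarBilin Q).Nondegenerate)
    (hn : 5 ≤ finrank F V) {x z : V} (hx : Q x = 0) (hx0 : x ≠ 0) (hz : Q z = 0) (hz0 : z ≠ 0) :
    ∃ n ∈ EO Q, ∃ c : F, c ≠ 0 ∧ n.1 x = c • z :=
  o_normal_transitive hQ (by omega) (not_oHyp4_of_finrank (by omega)) ⟨x, hx0, hx⟩
    (fun g hg n hn => (EO_normal).conj_mem n hn g)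
    (exists_mem_EO_not_scalar hQ (by omega) ⟨x, hx0, hx⟩) hx hx0 hz hz0

/-- A subspace orthogonal to at most `k` vectors. -/
theorem finrank_perp_ge [FiniteDimensional F V] (hQ : (polarBilin Q).Nondegenerate) (s : Finset V) :
    finrank F V ≤ finrank F (operp Q (Submodule.span F (s : Set V))) + s.card := by
  have h1 := finrank_operp hQ (Submodule.span F (s : Set V))
  have h2 := finrank_span_finset_le_card (R := F) s
  unfold Set.finrank at h2
  omega

theorem nd_perp_pair [FiniteDimensional F V] (hQ : (polarBilin Q).Nondegenerate) {u u' : V}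
    (hu : Q u = 0) (hu' : Q u' = 0) (huu' : polar Q u u' = 1) :
    ND Q (operp Q (Submodule.span F {u, u'})) ∧
      finrank F V ≤ finrank F (operp Q (Submodule.span F {u, u'})) + 2 := by
  refine ⟨(nd_span_pair (by rw [huu', hu]; simp)).perp hQ, ?_⟩
  have h1 := finrank_operp hQ (Submodule.span F {u, u'})
  have h2 := finrank_span_pair_le (F := F) u u'
  omega

theorem mem_perp_pair {u u' x : V} :
    x ∈ operp Q (Submodule.span F {u, u'}) ↔ polar Q u x = 0 ∧ polar Q u' x = 0 := by
  rw [mem_operp_span]; simp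

variable {K : Type*} [Field K] [Algebra K F] [Module K V] [IsScalarTower K F V]
  {V₀ : Type*} [AddCommGroup V₀] [Module K V₀]

/-- A rational structure with its Frobenius map. -/
structure OSub (Q : QuadraticForm F V) (Q₀ : QuadraticForm K V₀) (j : V₀ →ₗ[K] V)
    (φ : V →+ V) : Prop where
  nondeg : (polarBilin Q).Nondegenerate
  nondeg₀ : (polarBilin Q₀).Nondegenerate
  form : ∀ x, Q (j x) = algebraMap K F (Q₀ x)
  span : Submodule.span F (Set.range j) = ⊤
  dim : 7 ≤ finrank K V₀
  dim' : 7 ≤ finrank F V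
  prime : (finrank K F).Prime
  smul : ∀ (a : F) x, φ (a • x) = a ^ Nat.card K • φ x
  fix : ∀ x, φ (j x) = j x

variable (Q) in
/-- The isometries which are rational up to a scalar. -/
def subK (j : V₀ →ₗ[K] V) : Subgroup (OG Q) where
  carrier := {g | ∃ c : F, c ≠ 0 ∧ ∀ x, x ∈ Set.range j ↔ c • g.1 x ∈ Set.range j}
  mul_mem' {a b} ha hb := by
    obtain ⟨c, hc, h⟩ := ha
    obtain ⟨d, hd, h'⟩ := hb
    refine ⟨c * d, mul_ne_zero hc hd, fun x => ?_⟩
    rw [h', h, OG.mul_app, map_smul, smul_smul]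
  one_mem' := ⟨1, one_ne_zero, fun x => by simp⟩
  inv_mem' {a} ha := by
    obtain ⟨c, hc, h⟩ := ha
    refine ⟨c⁻¹, inv_ne_zero hc, fun x => ?_⟩
    rw [h (c⁻¹ • _), map_smul, smul_inv_smul₀ hc, OG.app_inv_app]

namespace OSub

variable [Finite F] [FiniteDimensional F V] [FiniteDimensional K V₀]
  {Q₀ : QuadraticForm K V₀} {j : V₀ →ₗ[K] V} {φ : V →+ V}

theorem j_smul (k : K) (x : V₀) : j (k • x) = algebraMap K F k • j x := by
  rw [map_smul, algebraMap_smul]

theorem finK (h : OSub Q Q₀ j φ) : Finite K := Finite.of_injective _ (algebraMap K F).injective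

theorem polar_j (h : OSub Q Q₀ j φ) (x y : V₀) :
    polar Q (j x) (j y) = algebraMap K F (polar Q₀ x y) := by
  simp only [polar, ← map_add, h.form, map_sub]

theorem ne (h : OSub Q Q₀ j φ) {x : V₀} (hx : x ≠ 0) : j x ≠ 0 := by
  obtain ⟨y, hy⟩ := o_exists_polar_ne h.nondeg₀ hx
  refine o_ne_zero_of_polar_left (Q := Q) (y := j y) ?_
  rwa [h.polar_j, map_ne_zero]

theorem inj (h : OSub Q Q₀ j φ) : Function.Injective j := fun x y e => by
  by_contra H
  exact h.ne (sub_ne_zero.2 H) (by rw [map_sub, e, sub_self])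

theorem ind (h : OSub Q Q₀ j φ) {P : V → Prop} (h0 : P 0) (h1 : ∀ (a : F) x, P (a • j x))
    (h2 : ∀ x y, P x → P y → P (x + y)) (v : V) : P v := by
  have hv : v ∈ Submodule.span F (Set.range j) := h.span ▸ Submodule.mem_top
  have : ∀ a : F, P (a • v) := by
    induction hv using Submodule.span_induction with
    | mem x hx => obtain ⟨y, rfl⟩ := hx; exact fun a => h1 a y
    | zero => simpa using h0
    | add x y _ _ hx hy => exact fun a => by rw [smul_add]; exact h2 _ _ (hx a) (hy a)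
    | smul b x _ hx => exact fun a => by rw [smul_smul]; exact hx _
  simpa using this 1

/-- The Frobenius automorphism of `F` over `K`. -/
noncomputable def fr (h : OSub Q Q₀ j φ) : F →+* F :=
  have := h.finK
  have := Fintype.ofFinite K
  (FiniteField.frobeniusAlgHom K F).toRingHom

theorem fr_apply (h : OSub Q Q₀ j φ) (a : F) : h.fr a = a ^ Nat.card K := by
  have := h.finK
  simp [fr, @Nat.card_eq_fintype_card K (Fintype.ofFinite K)]

theorem fr_alg (h : OSub Q Q₀ j φ) (k : K) : h.fr (algebraMap K F k) = algebraMap K F k := by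
  have := h.finK
  have := Fintype.ofFinite K
  rw [h.fr_apply, ← map_pow, Nat.card_eq_fintype_card, FiniteField.pow_card]

theorem φ_smul (h : OSub Q Q₀ j φ) (a : F) (x : V) : φ (a • x) = h.fr a • φ x := by
  rw [h.smul, h.fr_apply]

theorem polar_φ (h : OSub Q Q₀ j φ) (x y : V) : polar Q (φ x) (φ y) = h.fr (polar Q x y) := by
  induction x using h.ind with
  | h0 => simp
  | h2 x x' hx hx' => rw [map_add, polar_add_left, polar_add_left, hx, hx', map_add]
  | h1 a x =>
    induction y using h.ind with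
    | h0 => simp
    | h2 y y' hy hy' => rw [map_add φ, polar_add_right, polar_add_right, hy, hy', map_add]
    | h1 b y => simp only [h.φ_smul, h.fix, oexp, h.polar_j, map_mul, h.fr_alg]

theorem Q_φ (h : OSub Q Q₀ j φ) (x : V) : Q (φ x) = h.fr (Q x) := by
  induction x using h.ind with
  | h0 => simp
  | h2 x x' hx hx' => rw [map_add, o_qadd, o_qadd, hx, hx', h.polar_φ, map_add, map_add]
  | h1 a x => simp only [h.φ_smul, h.fix, oexp, h.form, map_mul, map_pow, h.fr_alg]

theorem φ_surj (h : OSub Q Q₀ j φ) (x : V) : ∃ y, φ y = x := by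
  induction x using h.ind with
  | h0 => exact ⟨0, map_zero _⟩
  | h2 x x' hx hx' =>
    obtain ⟨y, rfl⟩ := hx
    obtain ⟨y', rfl⟩ := hx'
    exact ⟨y + y', map_add _ _ _⟩
  | h1 a x =>
    obtain ⟨b, rfl⟩ := Finite.surjective_of_injective h.fr.injective a
    exact ⟨b • j x, by rw [h.φ_smul, h.fix]⟩

theorem φ_ne (h : OSub Q Q₀ j φ) {x : V} (hx : x ≠ 0) : φ x ≠ 0 := by
  obtain ⟨y, hy⟩ := o_exists_polar_ne h.nondeg hx
  refine o_ne_zero_of_polar_left (Q := Q) (y := φ y) ?_
  rwa [h.polar_φ, map_ne_zero]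

theorem iter_smul_j (h : OSub Q Q₀ j φ) (i : ℕ) (a : F) (x : V₀) :
    φ^[i] (a • j x) = a ^ Nat.card K ^ i • j x := by
  induction i with
  | zero => simp
  | succ i ih => rw [Function.iterate_succ_apply', ih, h.smul, h.fix, ← pow_mul, ← pow_succ]

theorem iter_add (i : ℕ) (x y : V) : φ^[i] (x + y) = φ^[i] x + φ^[i] y := by
  induction i with
  | zero => simp
  | succ i ih => simp only [Function.iterate_succ_apply', ih, map_add]

/-- The trace map. -/
noncomputable def trv (K F : Type*) [Field K] [Field F] [Algebra K F] (φ : V →+ V) (x : V) : V :=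
  ∑ i ∈ Finset.range (finrank K F), φ^[i] x

theorem trv_add (x y : V) : trv K F φ (x + y) = trv K F φ x + trv K F φ y := by
  simp only [trv, iter_add, Finset.sum_add_distrib]

theorem trv_zero : trv K F φ 0 = 0 := by
  have := trv_add (K := K) (F := F) (φ := φ) 0 0
  rw [add_zero] at this
  exact left_eq_add.1 this

theorem trv_j (h : OSub Q Q₀ j φ) (a : F) (x : V₀) :
    trv K F φ (a • j x) = j (Algebra.trace K F a • x) := by
  simp only [trv, h.iter_smul_j, ← Finset.sum_smul, j_smul (F := F),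
    FiniteField.algebraMap_trace_eq_sum_pow]

theorem trv_mem (h : OSub Q Q₀ j φ) (x : V) : ∃ y, trv K F φ x = j y := by
  induction x using h.ind with
  | h0 => exact ⟨0, by rw [trv_zero, map_zero]⟩
  | h2 x x' hx hx' =>
    obtain ⟨y, e⟩ := hx
    obtain ⟨y', e'⟩ := hx'
    exact ⟨y + y', by rw [trv_add, e, e', map_add]⟩
  | h1 a x => exact ⟨_, h.trv_j a x⟩

theorem trv_sum (h : OSub Q Q₀ j φ) {ι : Type*} [Fintype ι] [DecidableEq ι] (b : Basis ι K F)
    (x : V) : x = ∑ i, b.traceDual i • trv K F φ (b i • x) := by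
  have := h.finK
  induction x using h.ind with
  | h0 => simp [trv_zero]
  | h2 x x' hx hx' => simp only [smul_add, trv_add, Finset.sum_add_distrib, ← hx, ← hx']
  | h1 a x =>
    simp only [smul_smul, h.trv_j, j_smul (F := F), ← Finset.sum_smul]
    congr 1
    conv_lhs => rw [← b.traceDual.sum_repr a]
    refine Finset.sum_congr rfl fun i _ => ?_
    rw [Basis.traceDual_repr_apply, Algebra.traceForm_apply, Algebra.smul_def, mul_comm a,
      mul_comm]

/-- Galois descent for subspaces. -/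
theorem le_span (h : OSub Q Q₀ j φ) {U : Submodule F V} (hU : ∀ x ∈ U, φ x ∈ U) {x : V}
    (hx : x ∈ U) : x ∈ Submodule.span F (j '' {y | j y ∈ U}) := by
  classical
  have := h.finK
  rw [h.trv_sum (Module.finBasis K F) x]
  refine Submodule.sum_mem _ fun i _ => Submodule.smul_mem _ _ (Submodule.subset_span ?_)
  obtain ⟨y, hy⟩ := h.trv_mem ((Module.finBasis K F) i • x)
  refine ⟨y, ?_, hy.symm⟩
  change j y ∈ U
  rw [← hy]
  refine U.sum_mem fun k _ => ?_
  induction k with
  | zero => exact U.smul_mem _ hx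
  | succ k ih => rw [Function.iterate_succ_apply']; exact hU _ (ih (by simp_all; omega))

theorem exists_ne_zero (h : OSub Q Q₀ j φ) {U : Submodule F V} (hU : ∀ x ∈ U, φ x ∈ U) {x : V}
    (hx : x ∈ U) (h0 : x ≠ 0) : ∃ y, y ≠ 0 ∧ j y ∈ U := by
  by_contra! H
  refine h0 ((Submodule.mem_bot F).1 (Submodule.span_le.2 ?_ (h.le_span hU hx)))
  rintro _ ⟨y, hy, rfl⟩
  by_cases e : y = 0
  · simp [e]
  · exact absurd hy (H y e)

theorem exists_of_eigen (h : OSub Q Q₀ j φ) {x : V} {c : F} (hx : φ x = c • x) (h0 : x ≠ 0) :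
    ∃ (a : F) (y : V₀), a ≠ 0 ∧ y ≠ 0 ∧ x = a • j y := by
  obtain ⟨y, hy, H⟩ := h.exists_ne_zero (U := F ∙ x) (fun z hz => by
    obtain ⟨a, rfl⟩ := Submodule.mem_span_singleton.1 hz
    rw [h.φ_smul, hx, smul_smul]
    exact Submodule.smul_mem _ _ (Submodule.mem_span_singleton_self x))
    (Submodule.mem_span_singleton_self x) h0
  obtain ⟨a, ha⟩ := Submodule.mem_span_singleton.1 H
  have ha0 : a ≠ 0 := fun e => h.ne hy (by rw [← ha, e, zero_smul])
  exact ⟨a⁻¹, y, inv_ne_zero ha0, hy, by rw [← ha, inv_smul_smul₀ ha0]⟩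

theorem exists_singular (h : OSub Q Q₀ j φ) {U : Submodule F V} (hU : ∀ x ∈ U, φ x ∈ U)
    (h3 : 3 ≤ finrank F U) : ∃ y, y ≠ 0 ∧ Q₀ y = 0 ∧ j y ∈ U := by
  have := h.finK
  let U₀ : Submodule K V₀ := (U.restrictScalars K).comap j
  have h1 : 3 ≤ finrank K U₀ := by
    let b := Module.finBasis K U₀
    have h2 : U ≤ Submodule.span F (Set.range fun i => j (b i)) := fun x hx => by
      refine Submodule.span_le.2 ?_ (h.le_span hU hx)
      rintro _ ⟨y, hy, rfl⟩
      have e := congrArg (fun z : U₀ => j z) (b.sum_repr ⟨y, hy⟩)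
      simp only [Submodule.coe_sum, Submodule.coe_smul, map_sum, j_smul (F := F)] at e
      rw [← e]
      exact Submodule.sum_mem _ fun i _ => Submodule.smul_mem _ _ (Submodule.subset_span ⟨i, rfl⟩)
    have h4 := (Submodule.finrank_mono h2).trans (finrank_range_le_card _)
    simp only [Fintype.card_fin] at h4
    omega
  obtain ⟨y, hy, h0, hq⟩ := exists_singular_mem (Q := Q₀) h1
  exact ⟨y, h0, hq, hy⟩

theorem exists_of_fix (h : OSub Q Q₀ j φ) {x : V} (hx : φ x = x) : ∃ y, x = j y := by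
  have := h.finK
  obtain ⟨ω, hω⟩ := Algebra.trace_surjective K F 1
  obtain ⟨y, hy⟩ := h.trv_mem (ω • x)
  refine ⟨y, ?_⟩
  have e : ∀ i, φ^[i] (ω • x) = ω ^ Nat.card K ^ i • x := fun i => by
    induction i with
    | zero => simp
    | succ i ih => rw [Function.iterate_succ_apply', ih, h.smul, hx, ← pow_mul, ← pow_succ]
  rw [← hy, trv]
  simp only [e, ← Finset.sum_smul, ← FiniteField.algebraMap_trace_eq_sum_pow, hω, map_one,
    one_smul]

theorem exists_of_fr (h : OSub Q Q₀ j φ) {a : F} (ha : h.fr a = a) : ∃ k, algebraMap K F k = a := by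
  have : Nontrivial V₀ := Module.nontrivial_of_finrank_pos (R := K) (by have := h.dim; omega)
  obtain ⟨x, hx⟩ := exists_ne (0 : V₀)
  obtain ⟨z, hz⟩ := o_exists_polar_eq h.nondeg₀ hx 1
  obtain ⟨y, hy⟩ := h.exists_of_fix (x := a • j x) (by rw [h.φ_smul, ha, h.fix])
  refine ⟨polar Q₀ y z, ?_⟩
  rw [← h.polar_j, ← hy, o_polar_smul_left, h.polar_j, hz, map_one, mul_one]

/-- A vector with rational products with all rational vectors is rational. -/
theorem exists_of_polar (h : OSub Q Q₀ j φ) {x : V}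
    (hx : ∀ y, ∃ k, algebraMap K F k = polar Q x (j y)) : ∃ y, x = j y := by
  refine h.exists_of_fix (o_eq_of_polar h.nondeg fun z => ?_)
  induction z using h.ind with
  | h0 => simp
  | h2 y y' hy hy' => rw [polar_add_right, polar_add_right, hy, hy']
  | h1 b y =>
    obtain ⟨k, hk⟩ := hx y
    rw [o_polar_smul_right, o_polar_smul_right, ← hk, ← h.fr_alg, hk, ← h.polar_φ, h.fix]

theorem mem_subK (h : OSub Q Q₀ j φ) {g : OG Q} {c : F} (hc : c ≠ 0)
    (H : ∀ x, ∃ y, c • g.1 (j x) = j y) : g ∈ subK Q j := by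
  have := h.finK
  have : Finite V₀ := Module.finite_of_finite K
  choose f hf using H
  have hi : Function.Injective f := fun x y e =>
    h.inj (g.1.injective (smul_right_injective V hc (by simp only [hf, e])))
  refine ⟨c, hc, fun x => ⟨?_, ?_⟩⟩
  · rintro ⟨y, rfl⟩
    exact ⟨_, (hf y).symm⟩
  · rintro ⟨y, hy⟩
    obtain ⟨z, rfl⟩ := Finite.surjective_of_injective hi y
    exact ⟨z, g.1.injective (smul_right_injective V hc (by simp only [hf, hy]))⟩

theorem φ_of_mem (h : OSub Q Q₀ j φ) {g : OG Q} (hg : g ∈ subK Q j) :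
    ∃ c : F, c ≠ 0 ∧ ∀ x, φ (g.1 x) = c • g.1 (φ x) := by
  obtain ⟨c, hc, H⟩ := hg
  have hc' : h.fr c ≠ 0 := (map_ne_zero _).2 hc
  refine ⟨c / h.fr c, div_ne_zero hc hc', fun x => ?_⟩
  induction x using h.ind with
  | h0 => simp
  | h2 x x' hx hx' => simp only [map_add, hx, hx', smul_add]
  | h1 a x =>
    obtain ⟨y, hy⟩ := (H _).1 ⟨x, rfl⟩
    have e := h.fix y
    rw [hy, h.φ_smul] at e
    rw [map_smul, h.φ_smul, h.φ_smul, h.fix, map_smul, smul_comm]
    congr 1
    rw [div_eq_inv_mul, mul_smul, ← e, inv_smul_smul₀ hc']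

theorem eich_j (h : OSub Q Q₀ j φ) (a b x : V₀) :
    (eich Q (j a) (j b)).1 (j x) = j ((eich Q₀ a b).1 x) := by
  by_cases hc : Q₀ a = 0 ∧ polar Q₀ a b = 0
  · rw [eich_app (by rw [h.form, hc.1, map_zero]) (by rw [h.polar_j, hc.2, map_zero]),
      eich_app hc.1 hc.2]
    simp only [map_add, map_sub, j_smul (F := F), h.polar_j, h.form, map_mul]
  · rw [eich_of_not hc, eich_of_not (by simpa only [h.form, h.polar_j, map_eq_zero] using hc)]
    rfl

theorem eich_mem_subK (h : OSub Q Q₀ j φ) (a b : V₀) : eich Q (j a) (j b) ∈ subK Q j :=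
  h.mem_subK one_ne_zero fun x => ⟨_, by rw [one_smul, h.eich_j]⟩

theorem φ_eich (h : OSub Q Q₀ j φ) {a b : V} (ha : a ≠ 0) (hg : eich Q a b ∈ subK Q j) (x : V) :
    φ ((eich Q a b).1 x) = (eich Q a b).1 (φ x) := by
  obtain ⟨c, hc, H⟩ := h.φ_of_mem hg
  have e := H a
  rw [eich_app_self] at e
  have := eich_eigen (Q := Q) (u := a) (w := b) (μ := c⁻¹) (x := φ a)
    (by rw [eq_inv_smul_iff₀ hc, ← e]) (h.φ_ne ha)
  rw [H, inv_eq_one.1 this, one_smul]

theorem exists_lift (h : OSub Q Q₀ j φ) {g₀ : OG Q₀} (hg : g₀ ∈ EO Q₀) :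
    ∃ g ∈ subK Q j ⊓ EO Q, ∀ x, g.1 (j x) = j (g₀.1 x) := by
  induction hg using Subgroup.closure_induction with
  | mem g hg =>
    obtain ⟨a, b, -, -, rfl⟩ := hg
    exact ⟨_, ⟨h.eich_mem_subK a b, eich_mem_EO _ _⟩, h.eich_j a b⟩
  | one => exact ⟨1, one_mem _, fun _ => rfl⟩
  | mul a b _ _ ha hb =>
    obtain ⟨g, hg, e⟩ := ha
    obtain ⟨g', hg', e'⟩ := hb
    exact ⟨g * g', mul_mem hg hg', fun x => by rw [OG.mul_app, e', e, OG.mul_app]⟩
  | inv a _ ha =>
    obtain ⟨g, hg, e⟩ := ha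
    exact ⟨g⁻¹, inv_mem hg, fun x => by rw [OG.inv_app_eq_iff, e, OG.app_inv_app]⟩

end OSub

end Cfsg.Agent.Cl.MaxO
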