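import Mathlib
import Cfsg.Agent.Cl.MaxOSubA
import Cfsg.Agent.Cl.MaxSubfield

/-!
# Maximality of the subfield subgroups of prime index in `Ω_n(q)`, `n ≥ 7`

Either an overgroup contains an Eichler transformation with rational centre and irrational
parameter, and then it is everything, or the stabilisers of rational points lie in the subfield
group; then a long root element lies in at most one conjugate of the subfield group, and a
counting argument finishes the proof.
-/

set_option autoImplicit false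
set_option linter.unusedSectionVars false
set_option linter.unusedVariables false

namespace Cfsg.Agent.Cl.MaxO

open Module QuadraticMap

variable {F V : Type*} [Field F] [AddCommGroup V] [Module F V] {Q : QuadraticForm F V}

/-- A pair of vectors spanning a totally singular line. -/
structure RootP (Q : QuadraticForm F V) (a y : V) : Prop where
  l : Q a = 0
  r : Q y = 0
  perp : polar Q a y = 0
  ne : a ≠ 0
  notMem : y ∉ Submodule.span F {a}

theorem RootP.map {a y : V} (h : RootP Q a y) (g : OG Q) : RootP Q (g.1 a) (g.1 y) where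
  l := by rw [OG.map_app, h.l]
  r := by rw [OG.map_app, h.r]
  perp := by rw [OG.polar_app, h.perp]
  ne := OG.app_ne_zero g h.ne
  notMem H := by
    obtain ⟨c, hc⟩ := Submodule.mem_span_singleton.1 H
    exact h.notMem (Submodule.mem_span_singleton.2 ⟨c, g.1.injective (by rw [map_smul, hc])⟩)

theorem RootP.app {a y : V} (h : RootP Q a y) (x : V) :
    (eich Q a y).1 x = x + polar Q x a • y - polar Q x y • a := by
  rw [eich_app h.l h.perp, h.r, zero_mul, add_zero]

theorem RootP.exists_eq {a y z : V} (h : RootP Q a y) (hz : z ∈ Submodule.span F {a, y})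
    (h0 : z ≠ 0) : ∃ w, Q z = 0 ∧ polar Q z w = 0 ∧ eich Q a y = eich Q z w := by
  obtain ⟨α, β, rfl⟩ := Submodule.mem_span_pair.1 hz
  have h1 : polar Q y a = 0 := by rw [polar_comm, h.perp]
  have hq : Q (α • a + β • y) = 0 := by simp only [oexp, h.l, h.r, h.perp]; ring
  by_cases hα : α = 0
  · subst hα
    have hβ : β ≠ 0 := fun e => h0 (by simp [e])
    have hp : polar Q ((0 : F) • a + β • y) ((-β⁻¹) • a) = 0 := by
      simp only [oexp, h.l, h1]; ring
    refine ⟨(-β⁻¹) • a, hq, hp, OG.ext fun x => ?_⟩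
    rw [h.app, eich_app hq hp]
    simp only [oexp, h.l]
    match_scalars <;> field_simp <;> ring
  · have hp : polar Q (α • a + β • y) (α⁻¹ • y) = 0 := by
      simp only [oexp, h.r, h.perp]; ring
    refine ⟨α⁻¹ • y, hq, hp, OG.ext fun x => ?_⟩
    rw [h.app, eich_app hq hp]
    simp only [oexp, h.r]
    match_scalars <;> field_simp <;> ring

theorem RootP.comm {a y a' y' : V} (h : RootP Q a y) (h' : RootP Q a' y')
    (H : Submodule.span F {a, y} ⊓ Submodule.span F {a', y'} ≠ ⊥) :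
    eich Q a y * eich Q a' y' = eich Q a' y' * eich Q a y := by
  obtain ⟨z, hz, h0⟩ := Submodule.exists_mem_ne_zero_of_ne_bot H
  obtain ⟨w, h1, h2, e⟩ := h.exists_eq hz.1 h0
  obtain ⟨w', -, h3, e'⟩ := h'.exists_eq hz.2 h0
  rw [e, e', eich_comm h1 h2 h3]

variable {K : Type*} [Field K] [Algebra K F] [Module K V] [IsScalarTower K F V]
  {V₀ : Type*} [AddCommGroup V₀] [Module K V₀]

namespace OSub

variable [Finite F] [FiniteDimensional F V] [FiniteDimensional K V₀]
  {Q₀ : QuadraticForm K V₀} {j : V₀ →ₗ[K] V} {φ : V →+ V} {M : Subgroup (OG Q)}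

theorem Q_j (h : OSub Q Q₀ j φ) {x : V₀} (hx : Q₀ x = 0) : Q (j x) = 0 := by
  rw [h.form, hx, map_zero]

theorem polar_j_zero (h : OSub Q Q₀ j φ) {x y : V₀} (hx : polar Q₀ x y = 0) :
    polar Q (j x) (j y) = 0 := by
  rw [h.polar_j, hx, map_zero]

theorem polar_eq_zero (h : OSub Q Q₀ j φ) {x y : V₀} (hx : polar Q (j x) (j y) = 0) :
    polar Q₀ x y = 0 := by
  rwa [h.polar_j, map_eq_zero] at hx

section Case1

variable (h : OSub Q Q₀ j φ) (hM : subK Q j ⊓ EO Q ≤ M) {u u' : V₀} (hu : Q₀ u = 0)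
  (hu' : Q₀ u' = 0) (huu' : polar Q₀ u u' = 1)
include h hM

theorem eich_mem (a b : V₀) : eich Q (j a) (j b) ∈ M := hM ⟨h.eich_mem_subK a b, eich_mem_EO _ _⟩

include hu hu' huu'

theorem spread {c : F} {a : V₀} (ha0 : a ≠ 0) (ha : polar Q₀ u a = 0) (ha' : polar Q₀ u' a = 0)
    (H : c • j a ∈ EA M (h.Q_j hu)) {w : V₀} (hw : polar Q₀ u w = 0) (hw' : polar Q₀ u' w = 0) :
    c • j w ∈ EA M (h.Q_j hu) := by
  have := h.finK
  obtain ⟨hW, hd⟩ := nd_perp_pair h.nondeg₀ hu hu' huu'
  have hd' := h.dim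
  let A : AddSubgroup V₀ := (EA M (h.Q_j hu)).comap
    ((DistribSMul.toAddMonoidHom V c).comp j.toAddMonoidHom)
  obtain ⟨y, hy, hay⟩ := hW.exists_polar_ne (mem_perp_pair.2 ⟨ha, ha'⟩) ha0
  refine le_of_eich_invariant hW (by omega) A (fun s hs t ht _ _ x hx => ?_) (x := a) H hy hay w
    (mem_perp_pair.2 ⟨hw, hw'⟩)
  change c • j _ ∈ EA M (h.Q_j hu)
  rw [← h.eich_j, ← map_smul]
  exact EA_fix (h.eich_mem hM s t) (eich_app_of_polar (h.polar_j_zero (mem_perp_pair.1 hs).1)
    (h.polar_j_zero (mem_perp_pair.1 ht).1)) hx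

theorem mul_mem_S {c d : F}
    (hc : ∀ w, polar Q₀ u w = 0 → polar Q₀ u' w = 0 → c • j w ∈ EA M (h.Q_j hu))
    (hd : ∀ w, polar Q₀ u w = 0 → polar Q₀ u' w = 0 → d • j w ∈ EA M (h.Q_j hu))
    {w : V₀} (hw : polar Q₀ u w = 0) (hw' : polar Q₀ u' w = 0) :
    (c * d) • j w ∈ EA M (h.Q_j hu) := by
  classical
  have := h.finK
  obtain ⟨hW, hdW⟩ := nd_perp_pair h.nondeg₀ hu hu' huu'
  have hd' := h.dim
  obtain ⟨a, ha, ha0, haq⟩ := exists_singular_mem (Q := Q₀) (S := operp Q₀ (Submodule.span K {u, u'}))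
    (by omega)
  obtain ⟨a', ha', haq', haa'⟩ := hW.exists_partner ha ha0 haq
  have h4 := finrank_perp_ge h.nondeg₀ {u, u', a, a'}
  have h5 : ({u, u', a, a'} : Finset V₀).card ≤ 4 := Finset.card_le_four
  obtain ⟨b, hb, hb0, hbq⟩ := exists_singular_mem (Q := Q₀)
    (S := operp Q₀ (Submodule.span K (({u, u', a, a'} : Finset V₀) : Set V₀))) (by omega)
  rw [mem_operp_span] at hb
  have b1 := hb u (by simp)
  have b2 := hb u' (by simp)
  have b3 := hb a (by simp)
  have b4 := hb a' (by simp)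
  obtain ⟨a1, a2⟩ := mem_perp_pair.1 ha
  obtain ⟨a3, a4⟩ := mem_perp_pair.1 ha'
  have e1 : (eich Q₀ a (-u)).1 ((eich Q₀ u' a').1 u) = a' := by
    rw [eich_app hu' a4, eich_app haq (by rw [polar_neg_right, polar_comm, a1, neg_zero])]
    simp only [oexp, huu', a1, a2, a3, hu, haq', polar_comm Q₀ a' a, haa', polar_comm Q₀ a' u,
      polar_comm Q₀ u' u]
    module
  have e2 : (eich Q₀ a (-u)).1 ((eich Q₀ u' a').1 b) = b := by
    rw [eich_app_of_polar (u := u') (by rw [polar_comm, b2]) (by rw [polar_comm, b4]),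
      eich_app_of_polar (by rw [polar_comm, b3]) (by rw [polar_neg_right, polar_comm, b1, neg_zero])]
  have m1 := EA_map (h.Q_j haq') (M.mul_mem (h.eich_mem hM a (-u)) (h.eich_mem hM u' a'))
    (by rw [OG.mul_app, h.eich_j, h.eich_j, e1]) (hd b b1 b2)
  rw [map_smul, OG.mul_app, h.eich_j, h.eich_j, e2] at m1
  have m2 := EA_fix m1.2 (eich_app_of_polar (h.polar_j_zero a3)
    (by rw [o_polar_smul_right, h.polar_j_zero b1, mul_zero])) (hc a a1 a2)
  have m3 := (EA M _).sub_mem m2 (hc a a1 a2)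
  rw [eich_app (h.Q_j haq') m1.1] at m3
  simp only [oexp, h.polar_j, haa', b3, h.Q_j hbq, map_one, map_zero] at m3
  refine h.spread hM hu hu' huu' hb0 b1 b2 ?_ hw hw'
  convert m3 using 1
  module

theorem exists_irr {x : V} (hx : x ∈ EA M (h.Q_j hu)) (hx' : ∀ y (μ : F), x ≠ j y + μ • j u) :
    ∃ c : F, (∀ k, algebraMap K F k ≠ c) ∧
      ∀ w, polar Q₀ u w = 0 → polar Q₀ u' w = 0 → c • j w ∈ EA M (h.Q_j hu) := by
  classical
  have := h.finK
  obtain ⟨hW, hdW⟩ := nd_perp_pair h.nondeg₀ hu hu' huu'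
  have hd' := h.dim
  set W := operp Q₀ (Submodule.span K {u, u'}) with hWdef
  let x' := x - polar Q x (j u') • j u
  have hx1 : x' ∈ EA M (h.Q_j hu) := (EA M _).sub_mem hx (smul_self_mem_EA _ _)
  have x1 : polar Q x' (j u) = 0 := by rw [polar_comm]; exact hx1.1
  have x2 : polar Q x' (j u') = 0 := by
    simp only [x', oexp, h.polar_j, huu', map_one]; ring
  obtain ⟨a, ha, haq, hxa⟩ : ∃ a ∈ W, Q₀ a = 0 ∧ ∀ k, algebraMap K F k ≠ polar Q x' (j a) := by
    by_contra! H
    let A : AddSubgroup V₀ := (AddSubgroup.closure {s | s ∈ W ∧ Q₀ s = 0})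
    have hA : ∀ v ∈ W, v ∈ A := by
      obtain ⟨s, hs, hs0, hsq⟩ := exists_singular_mem (Q := Q₀) (S := W) (by omega)
      obtain ⟨y, hy, hsy⟩ := hW.exists_polar_ne hs hs0
      refine le_of_eich_invariant hW (by omega) A (fun a ha b hb hq hp z hz => ?_)
        (AddSubgroup.subset_closure ⟨hs, hsq⟩) hy hsy
      induction hz using AddSubgroup.closure_induction with
      | mem z hz =>
        refine AddSubgroup.subset_closure ⟨?_, by rw [OG.map_app, hz.2]⟩
        have := W.add_mem (eich_app_sub_mem (Q := Q₀) ha hb z) hz.1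
        rwa [sub_add_cancel] at this
      | zero => simp
      | add _ _ _ _ h1 h2 => rw [map_add]; exact A.add_mem h1 h2
      | neg _ _ h1 => rw [map_neg]; exact A.neg_mem h1
    have hA' : ∀ v ∈ A, ∃ k, algebraMap K F k = polar Q x' (j v) := fun v hv => by
      induction hv using AddSubgroup.closure_induction with
      | mem z hz => exact H z hz.1 hz.2
      | zero => exact ⟨0, by simp⟩
      | add _ _ _ _ h1 h2 =>
        obtain ⟨k, hk⟩ := h1
        obtain ⟨l, hl⟩ := h2
        exact ⟨k + l, by rw [map_add, map_add, polar_add_right, hk, hl]⟩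
      | neg _ _ h1 =>
        obtain ⟨k, hk⟩ := h1
        exact ⟨-k, by rw [map_neg, map_neg, polar_neg_right, hk]⟩
    obtain ⟨y, hy⟩ := h.exists_of_polar (x := x') fun y => by
      obtain ⟨k, hk⟩ := hA' _ (hA _ (mem_perp_pair.2 (o_hyp_decomp hu hu' huu' y)))
      refine ⟨k, ?_⟩
      simp only [hk, map_sub, j_smul (F := F), oexp, x1, x2]
      ring
    exact hx' y (polar Q x (j u')) (by rw [← hy]; simp [x'])
  refine ⟨_, hxa, fun w hw hw' => ?_⟩
  have ha0 : a ≠ 0 := fun e => hxa 0 (by simp [e])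
  obtain ⟨a', ha', haq', haa'⟩ := hW.exists_partner ha ha0 haq
  have hT : ND Q₀ (Submodule.span K {a, a'}) := nd_span_pair (by rw [haa', haq]; simp)
  have hTW : Submodule.span K {a, a'} ≤ W := Submodule.span_le.2 (by
    rintro _ (rfl | rfl) <;> assumption)
  have hW' := hW.inf_perp hT hTW
  have hd2 := hT.finrank_inf_perp hTW
  have hd3 := finrank_span_pair_le (F := K) a a'
  obtain ⟨b, hb, hb0, hbq⟩ := exists_singular_mem (Q := Q₀)
    (S := W ⊓ operp Q₀ (Submodule.span K {a, a'})) (by omega)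
  obtain ⟨b', hb', -, hbb'⟩ := hW'.exists_partner hb hb0 hbq
  obtain ⟨a1, a2⟩ := mem_perp_pair.1 ha
  have fx : ∀ t ∈ W, (eich Q (j a) (j t)).1 (j u) = j u := fun t ht =>
    eich_app_of_polar (h.polar_j_zero a1) (h.polar_j_zero (mem_perp_pair.1 ht).1)
  have p1 := (mem_perp_pair.1 hb.2).1
  have p2 := (mem_perp_pair.1 hb'.2).1
  have m1 := (EA M _).sub_mem (EA_fix (h.eich_mem hM a b) (fx b hb.1) hx1) hx1
  have m2 := (EA M _).sub_mem m1 (EA_fix (h.eich_mem hM a b') (fx b' hb'.1) m1)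
  rw [eich_app (h.Q_j haq) (h.polar_j_zero p1), eich_app (h.Q_j haq) (h.polar_j_zero p2)] at m2
  simp only [oexp, h.polar_j, hbb', polar_comm Q₀ b a, p1, p2, haq, h.Q_j haq, map_one, map_zero,
    mul_zero] at m2
  refine h.spread hM hu hu' huu' ha0 a1 a2 ?_ hw hw'
  convert m2 using 1
  module

theorem EO_le_of_irr {x : V} (hx : x ∈ EA M (h.Q_j hu)) (hx' : ∀ y (μ : F), x ≠ j y + μ • j u) :
    EO Q ≤ M := by
  have := h.finK
  have := Fintype.ofFinite F
  obtain ⟨c, hc, H⟩ := h.exists_irr hM hu hu' huu' hx hx'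
  have r : ∀ k w, polar Q₀ u w = 0 → algebraMap K F k • j w ∈ EA M (h.Q_j hu) := fun k w hw => by
    rw [← j_smul]
    exact ⟨h.polar_j_zero (by rw [o_polar_smul_right, hw, mul_zero]), h.eich_mem hM _ _⟩
  let S : Subring F :=
    { carrier := {c | ∀ w, polar Q₀ u w = 0 → polar Q₀ u' w = 0 → c • j w ∈ EA M (h.Q_j hu)}
      mul_mem' := fun ha hb w hw hw' => h.mul_mem_S hM hu hu' huu' ha hb hw hw'
      one_mem' := fun w hw _ => by simpa using r 1 w hw
      add_mem' := fun ha hb w hw hw' => by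
        rw [add_smul]; exact (EA M _).add_mem (ha w hw hw') (hb w hw hw')
      zero_mem' := fun w _ _ => by rw [zero_smul]; exact (EA M _).zero_mem
      neg_mem' := fun ha w hw hw' => by rw [neg_smul]; exact (EA M _).neg_mem (ha w hw hw') }
  have hS : S = ⊤ := MSL.subring_eq_top (F₀ := (algebraMap K F).fieldRange) h.prime (by
      rw [← Nat.card_eq_fintype_card, Module.natCard_eq_pow_finrank (K := K) (V := F)]
      congr 1
      exact Nat.card_congr (algebraMap K F).rangeRestrictFieldEquiv.toEquiv) S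
    (by rintro _ ⟨k, rfl⟩ w hw _; exact r k w hw) (a := c) H (by rintro ⟨k, hk⟩; exact hc k hk)
  have hS' : ∀ (c : F) w, polar Q₀ u w = 0 → polar Q₀ u' w = 0 → c • j w ∈ EA M (h.Q_j hu) :=
    fun c => (hS ▸ Subring.mem_top c : c ∈ S)
  have huu : polar Q (j u) (j u') = 1 := by rw [h.polar_j, huu', map_one]
  have hF : Full M (j u) := full_of_EA (h.Q_j hu) fun v hv => by
    have : v - polar Q v (j u') • j u - polar Q v (j u) • j u' ∈ EA M (h.Q_j hu) := by
      clear hv
      induction v using h.ind with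
      | h0 => simpa using (EA M _).zero_mem
      | h2 y y' hy hy' =>
        convert (EA M _).add_mem hy hy' using 1
        simp only [oexp]; module
      | h1 a y =>
        obtain ⟨p1, p2⟩ := o_hyp_decomp hu hu' huu' y
        convert hS' a _ p1 p2 using 1
        simp only [oexp, h.polar_j, map_sub, j_smul (F := F)]; module
    rw [polar_comm Q v (j u), hv, zero_smul, sub_zero] at this
    simpa using (EA M _).add_mem this (smul_self_mem_EA _ (polar Q v (j u')))
  obtain ⟨w, hw, w1, w2⟩ := o_exists_nonsingular_perp_hyp hu hu' huu' h.nondeg₀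
    (by have := h.dim; omega)
  refine EO_le_of_full_move h.nondeg hF (h.eich_mem hM u' w) ?_
  rw [h.eich_j, h.polar_j, eich_app hu' w2]
  simp only [oexp, huu', hu, w1, map_ne_zero]
  simpa using hw

end Case1

section Case2

variable (h : OSub Q Q₀ j φ) (hM : subK Q j ⊓ EO Q ≤ M) (hMΩ : M ≤ EO Q)
  (h2 : ∀ u (hu : Q₀ u = 0), u ≠ 0 → ∀ x ∈ EA M (h.Q_j hu), ∃ (y : V₀) (μ : F), x = j y + μ • j u)
include h hM hMΩ h2

theorem mem_of_fix {g : OG Q} (hg : g ∈ M) {s : V₀} (hs : Q₀ s = 0) (hs0 : s ≠ 0) {c : F}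
    (e : g.1 (j s) = c • j s) : g ∈ subK Q j := by
  have hc : c ≠ 0 := fun H => OG.app_ne_zero g (h.ne hs0) (by rw [e, H, zero_smul])
  obtain ⟨s', hs', hss'⟩ := o_exists_partner h.nondeg₀ hs hs0
  have hss : polar Q (j s) (j s') = 1 := by rw [h.polar_j, hss', map_one]
  have p1 : polar Q (g.1 (j s')) (j s) = c⁻¹ := by
    have := OG.polar_app g (j s') (j s)
    rw [e, o_polar_smul_right, polar_comm Q (j s'), hss] at this
    exact eq_inv_of_mul_eq_one_right this
  obtain ⟨w, hw, ew⟩ := eich_exists_map (Q := Q) (u := j s) (y := g.1 (j s')) (y' := c⁻¹ • j s')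
    (h.Q_j hs) (by simp [h.Q_j hs', QuadraticMap.map_smul])
    (by rw [p1, o_polar_smul_left, polar_comm, hss, mul_one]) (by rw [p1]; exact inv_ne_zero hc)
  set l := eich Q (j s) w * g with hl
  have l1 : l.1 (j s) = c • j s := by rw [hl, OG.mul_app, e, map_smul, eich_app_self]
  have l2 : l.1 (j s') = c⁻¹ • j s' := ew
  have l3 : ∀ x, polar Q₀ s x = 0 → polar Q₀ s' x = 0 → ∃ y, c • l.1 (j x) = j y := by
    intro x x1 x2
    obtain ⟨y, μ, hy⟩ := h2 s hs hs0 _ (EA_scale hg hc e
      ⟨h.polar_j_zero x1, h.eich_mem hM s x⟩)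
    have q1 : polar Q (g.1 (j x)) (j s) = 0 := by
      have := OG.polar_app g (j x) (j s)
      rw [e, o_polar_smul_right, polar_comm Q (j x), h.polar_j_zero x1] at this
      exact (mul_eq_zero.1 this).resolve_left hc
    have q2 : c • l.1 (j x) = j y + (μ - c * polar Q (g.1 (j x)) w) • j s := by
      rw [hl, OG.mul_app, eich_app_of_polar_left (h.Q_j hs) hw q1, smul_sub, hy]
      module
    have q3 : polar Q (l.1 (j x)) (j s') = 0 := by
      have := OG.polar_app l (j x) (j s')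
      rw [l2, o_polar_smul_right, polar_comm Q (j x), h.polar_j_zero x2] at this
      exact (mul_eq_zero.1 this).resolve_left (inv_ne_zero hc)
    have q4 := congrArg (fun v => polar Q v (j s')) q2
    simp only [oexp, q3, hss, h.polar_j y] at q4
    refine ⟨y - polar Q₀ y s' • s, ?_⟩
    rw [q2, map_sub, j_smul (F := F), sub_eq_add_neg (j y), ← neg_smul]
    congr 2
    linear_combination -q4
  obtain ⟨k, hk⟩ : ∃ k, algebraMap K F k = c ^ 2 := by
    obtain ⟨x, hx, x1, x2⟩ := o_exists_nonsingular_perp_hyp hs hs' hss' h.nondeg₀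
      (by have := h.dim; omega)
    obtain ⟨y, hy⟩ := l3 x x1 x2
    have := congrArg Q hy
    rw [o_qsmul, OG.map_app, h.form, h.form] at this
    exact ⟨Q₀ y / Q₀ x, by rw [map_div₀, ← this, mul_div_cancel_right₀ _ ((map_ne_zero _).2 hx)]⟩
  have lK : l ∈ subK Q j := h.mem_subK hc fun x => by
    obtain ⟨p1, p2⟩ := o_hyp_decomp hs hs' hss' x
    obtain ⟨y, hy⟩ := l3 _ p1 p2
    refine ⟨y + (polar Q₀ x s' * k) • s + polar Q₀ x s • s', ?_⟩
    simp only [map_sub, map_add, j_smul (F := F), map_smul, l1, l2, map_mul, hk, ← hy]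
    match_scalars <;> field_simp <;> ring
  have lM : l ∈ M := hM ⟨lK, mul_mem (eich_mem_EO _ _) (hMΩ hg)⟩
  have eM : eich Q (j s) w ∈ M := by
    have := M.mul_mem lM (M.inv_mem hg)
    rwa [hl, mul_inv_cancel_right] at this
  obtain ⟨y, μ, hy⟩ := h2 s hs hs0 w ⟨hw, eM⟩
  have eK : eich Q (j s) w ∈ subK Q j := by
    have : polar Q (j s) (j y) = 0 := by
      rw [hy] at hw
      simpa only [oexp, h.Q_j hs, mul_zero, add_zero] using hw
    rw [hy, eich_add_smul_self (h.Q_j hs) this]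
    exact h.eich_mem_subK _ _
  have := (subK Q j).mul_mem ((subK Q j).inv_mem eK) lK
  rwa [hl, inv_mul_cancel_left] at this

theorem mem_of_map {g : OG Q} (hg : g ∈ M) {s s' : V₀} (hs : Q₀ s = 0) (hs0 : s ≠ 0) {c : F}
    (e : g.1 (j s) = c • j s') : g ∈ subK Q j := by
  have := h.finK
  have hn : c • j s' ≠ 0 := e ▸ OG.app_ne_zero g (h.ne hs0)
  have hs0' : s' ≠ 0 := fun H => hn (by simp [H])
  have hs' : Q₀ s' = 0 := by
    have := congrArg Q e
    rw [OG.map_app, o_qsmul, h.Q_j hs, h.form] at this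
    simpa [left_ne_zero_of_smul hn] using this
  obtain ⟨n, hn, d, -, hd⟩ := exists_EO_map h.nondeg₀ (by have := h.dim; omega) hs' hs0' hs hs0
  obtain ⟨k, hk, ek⟩ := h.exists_lift hn
  have := h.mem_of_fix hM hMΩ h2 (M.mul_mem (hM hk) hg) hs hs0 (c := c * algebraMap K F d)
    (by rw [OG.mul_app, e, map_smul, ek, hd, j_smul (F := F), smul_smul])
  exact ((subK Q j).mul_mem_cancel_left hk.1).1 this

omit hM hMΩ h2 in
theorem rat_of_eich {s w : V} (hs : Q s = 0) (hs0 : s ≠ 0) (hw : Q w ≠ 0) (hsw : polar Q s w = 0)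
    (H : eich Q s w ∈ subK Q j) : ∃ (a : F) (y : V₀), s = a • j y := by
  obtain ⟨x, x1, x2⟩ := o_exists_dual h.nondeg (W := F ∙ s) (x := w) (fun e => by
    obtain ⟨c, rfl⟩ := Submodule.mem_span_singleton.1 e
    exact hw (by rw [o_qsmul, hs, mul_zero])) 1
  have x3 := x2 s (Submodule.mem_span_singleton_self s)
  have e := h.φ_eich hs0 H x
  rw [eich_app_of_polar_left hs hsw (by rw [polar_comm, x3]), polar_comm, x1, one_smul, map_sub,
    eich_app hs hsw] at e
  have e1 : φ s = -(polar Q (φ x) s • w) +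
      (polar Q (φ x) w + Q w * polar Q (φ x) s) • s := by linear_combination (norm := module) -e
  have e2 := congrArg Q e1
  simp only [h.Q_φ, hs, map_zero, oexp, polar_comm Q w s, hsw, mul_zero, add_zero, neg_zero] at e2
  have e3 : polar Q (φ x) s = 0 := by simpa [hw] using e2
  rw [e3, zero_smul, neg_zero, zero_add] at e1
  obtain ⟨a, y, -, -, ha⟩ := h.exists_of_eigen e1 hs0
  exact ⟨a, y, ha⟩

omit hM hMΩ h2 in
theorem rat_of_root {a y : V} (r : RootP Q a y) (H : eich Q a y ∈ subK Q j) :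
    (∃ s, s ≠ 0 ∧ j s ∈ Submodule.span F {a, y}) ∧
      ∃ w, Q₀ w ≠ 0 ∧ polar Q a (j w) = 0 ∧ polar Q y (j w) = 0 := by
  have H' := h.φ_eich r.ne H
  have fixd : ∀ x, (eich Q a y).1 x = x ↔ polar Q a x = 0 ∧ polar Q y x = 0 := fun x => by
    refine ⟨fun e => ?_, fun e => eich_app_of_polar (by rw [polar_comm, e.1])
      (by rw [polar_comm, e.2])⟩
    rw [r.app] at e
    have e1 : polar Q x a • y = polar Q x y • a := by linear_combination (norm := module) e
    have e2 : polar Q x a = 0 := by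
      by_contra c
      refine r.notMem (Submodule.mem_span_singleton.2 ⟨polar Q x y / polar Q x a, ?_⟩)
      rw [div_eq_inv_mul, mul_smul, ← e1, inv_smul_smul₀ c]
    rw [e2, zero_smul, eq_comm, smul_eq_zero] at e1
    exact ⟨by rw [polar_comm, e2], by rw [polar_comm, e1.resolve_right r.ne]⟩
  constructor
  · by_contra! c
    have : ∀ x, (eich Q a y).1 x = x := fun x => by
      induction x using h.ind with
      | h0 => simp
      | h2 y y' hy hy' => rw [map_add, hy, hy']
      | h1 b z =>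
        obtain ⟨t, ht⟩ := h.exists_of_fix (x := (eich Q a y).1 (j z) - j z)
          (by rw [map_sub, H', h.fix])
        by_cases t0 : t = 0
        · rw [t0, map_zero, sub_eq_zero] at ht
          rw [map_smul, ht]
        · exact absurd (ht ▸ eich_app_sub_mem (Submodule.subset_span (by simp))
            (Submodule.subset_span (by simp)) _) (c t t0)
    obtain ⟨x, hx⟩ := o_exists_polar_ne h.nondeg r.ne
    exact hx ((fixd x).1 (this x)).1
  · by_contra! c
    have hU : ∀ x ∈ operp Q (Submodule.span F {a, y}), φ x ∈ operp Q (Submodule.span F {a, y}) :=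
      fun x hx => mem_perp_pair.2 ((fixd _).1 (by rw [← H', (fixd x).2 (mem_perp_pair.1 hx)]))
    have c' : ∀ w, j w ∈ operp Q (Submodule.span F {a, y}) → Q₀ w = 0 := fun w hw => by
      by_contra e
      exact c w e (mem_perp_pair.1 hw).1 (mem_perp_pair.1 hw).2
    obtain ⟨w, hw, w1, w2⟩ := o_exists_nonsingular_perp_pair h.nondeg (by have := h.dim'; omega) a y
    have key : ∀ x ∈ Submodule.span F (j '' {z | j z ∈ operp Q (Submodule.span F {a, y})}),
        Q x = 0 ∧ ∀ z, j z ∈ operp Q (Submodule.span F {a, y}) → polar Q x (j z) = 0 := by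
      intro x hx
      induction hx using Submodule.span_induction with
      | mem x hx =>
        obtain ⟨t, ht, rfl⟩ := hx
        refine ⟨h.Q_j (c' t ht), fun z hz => ?_⟩
        have := c' (t + z) (by rw [map_add]; exact add_mem ht hz)
        rw [o_qadd, c' t ht, c' z hz, zero_add, zero_add] at this
        exact h.polar_j_zero this
      | zero => simp
      | add x x' hx hx' i1 i2 =>
        refine ⟨?_, fun z hz => by rw [polar_add_left, i1.2 z hz, i2.2 z hz, add_zero]⟩
        rw [o_qadd, i1.1, i2.1, zero_add, zero_add]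
        clear i2
        induction hx' using Submodule.span_induction with
        | mem x' hx' => obtain ⟨t, ht, rfl⟩ := hx'; exact i1.2 t ht
        | zero => simp
        | add _ _ _ _ k1 k2 => rw [polar_add_right, k1, k2, add_zero]
        | smul _ _ _ k1 => rw [o_polar_smul_right, k1, mul_zero]
      | smul b x hx i1 =>
        exact ⟨by rw [o_qsmul, i1.1, mul_zero],
          fun z hz => by rw [o_polar_smul_left, i1.2 z hz, mul_zero]⟩
    exact hw (key w (h.le_span hU (mem_perp_pair.2 ⟨w1, w2⟩))).1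

theorem mem_of_root {a y : V} (r : RootP Q a y) (H : eich Q a y ∈ subK Q j) {g : OG Q}
    (hg : g ∈ M) (H' : g * eich Q a y * g⁻¹ ∈ subK Q j) : g ∈ subK Q j := by
  rw [conj_eich] at H'
  obtain ⟨⟨s, s0, hs⟩, w, hw, w1, w2⟩ := h.rat_of_root r H
  obtain ⟨⟨t, t0, ht⟩, -⟩ := h.rat_of_root (r.map g) H'
  obtain ⟨α, β, e⟩ := Submodule.mem_span_pair.1 hs
  obtain ⟨γ, δ, e'⟩ := Submodule.mem_span_pair.1 ht
  have ya : polar Q y a = 0 := by rw [polar_comm, r.perp]
  have sq : Q (j s) = 0 := by rw [← e]; simp only [oexp, r.l, r.r, r.perp]; ring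
  have tq : Q (j t) = 0 := by
    rw [← e']; simp only [oexp, (r.map g).l, (r.map g).r, (r.map g).perp]; ring
  have sw : polar Q (j s) (j w) = 0 := by rw [← e]; simp only [oexp, w1, w2]; ring
  have m := h.mem_of_fix hM hMΩ h2 (M.mul_mem (M.mul_mem hg (h.eich_mem hM s w)) (M.inv_mem hg))
    (s := t) (by simpa [h.form] using tq) t0 (c := 1) (by
      rw [conj_eich, one_smul]
      refine eich_app_of_polar ?_ ?_
      · rw [← e', ← e]
        simp only [map_add, map_smul, oexp, OG.polar_app, OG.map_app, r.l, r.r, r.perp, ya]; ring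
      · rw [← e']
        simp only [oexp, OG.polar_app, w1, w2]; ring)
  rw [conj_eich] at m
  obtain ⟨c, z, hz⟩ := h.rat_of_eich (by rw [OG.map_app, sq]) (OG.app_ne_zero g (h.ne s0))
    (by rwa [OG.map_app, h.form, map_ne_zero]) (by rw [OG.polar_app, sw]) m
  exact h.mem_of_map hM hMΩ h2 hg (by simpa [h.form] using sq) s0 hz

theorem mem_of_disjoint {a y a' y' : V} (r : RootP Q a y) (r' : RootP Q a' y')
    (hd : eich Q a y ∈ M) (H : (eich Q a y)⁻¹ * eich Q a' y' ∈ subK Q j)
    (hI : Submodule.span F {a, y} ⊓ Submodule.span F {a', y'} = ⊥) : eich Q a y ∈ subK Q j := by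
  classical
  obtain ⟨c, hc, e⟩ := h.φ_of_mem H
  set k := (eich Q a y)⁻¹ * eich Q a' y' with hk
  have hdim := h.dim'
  have kfix : ∀ x, polar Q a x = 0 → polar Q y x = 0 → polar Q a' x = 0 → polar Q y' x = 0 →
      k.1 x = x := fun x p1 p2 p3 p4 => by
    rw [hk, OG.mul_app, OG.inv_app_eq_iff, r.app, r'.app]
    simp only [polar_comm Q x, p1, p2, p3, p4, zero_smul]
  have c1 : c = 1 := by
    obtain ⟨a₁, ha₁⟩ := h.φ_surj a'
    obtain ⟨y₁, hy₁⟩ := h.φ_surj y'
    have d1 := finrank_perp_ge h.nondeg {a, y, a', y', a₁, y₁}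
    have d2 : ({a, y, a', y', a₁, y₁} : Finset V).card ≤ 6 := Finset.card_le_six
    obtain ⟨x, hx, x0⟩ := Submodule.exists_mem_ne_zero_of_ne_bot (p := operp Q (Submodule.span F
      (({a, y, a', y', a₁, y₁} : Finset V) : Set V))) (fun b => by rw [b, finrank_bot] at d1; omega)
    rw [mem_operp_span] at hx
    have e1 := e x
    rw [kfix x (hx _ (by simp)) (hx _ (by simp)) (hx _ (by simp)) (hx _ (by simp)), hk, OG.mul_app,
      eich_app_of_polar (u := a') (by rw [← ha₁, h.polar_φ, polar_comm, hx a₁ (by simp), map_zero])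
        (by rw [← hy₁, h.polar_φ, polar_comm, hx y₁ (by simp), map_zero]), ← map_smul, eq_comm,
      OG.inv_app_eq_iff] at e1
    exact eich_eigen e1.symm (h.φ_ne x0)
  let U : Submodule F V := LinearMap.eqLocus (k.1 : V →ₗ[F] V) LinearMap.id
  have hU : ∀ x, x ∈ U ↔ k.1 x = x := fun x => Iff.rfl
  have d1 := finrank_perp_ge h.nondeg {a, y, a', y'}
  have d2 : ({a, y, a', y'} : Finset V).card ≤ 4 := Finset.card_le_four
  have d3 : operp Q (Submodule.span F (({a, y, a', y'} : Finset V) : Set V)) ≤ U := fun x hx => by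
    rw [mem_operp_span] at hx
    exact kfix x (hx _ (by simp)) (hx _ (by simp)) (hx _ (by simp)) (hx _ (by simp))
  have d4 := Submodule.finrank_mono d3
  obtain ⟨s, s0, sq, hs⟩ := h.exists_singular (U := U) (fun x hx => by
    have := e x
    rw [(hU x).1 hx, c1, one_smul] at this
    exact this.symm) (by omega)
  rw [hU, hk, OG.mul_app, OG.inv_app_eq_iff] at hs
  have : (eich Q a y).1 (j s) - j s ∈ Submodule.span F {a, y} ⊓ Submodule.span F {a', y'} :=
    ⟨eich_app_sub_mem (Submodule.subset_span (by simp)) (Submodule.subset_span (by simp)) _,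
      hs ▸ eich_app_sub_mem (Submodule.subset_span (by simp)) (Submodule.subset_span (by simp)) _⟩
  rw [hI, Submodule.mem_bot, sub_eq_zero] at this
  exact h.mem_of_fix hM hMΩ h2 hd sq s0 (c := 1) (by rw [this, one_smul])

omit hM hMΩ h2 in
theorem exists_hyp4 : ∃ u u' a a' : V₀, Q₀ u = 0 ∧ Q₀ u' = 0 ∧ Q₀ a = 0 ∧ Q₀ a' = 0 ∧
    polar Q₀ u u' = 1 ∧ polar Q₀ a a' = 1 ∧ polar Q₀ u a = 0 ∧ polar Q₀ u a' = 0 ∧
    polar Q₀ u' a = 0 ∧ polar Q₀ u' a' = 0 := by
  have := h.finK
  have hd := h.dim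
  obtain ⟨u, u0, hu⟩ := quad_exists_singular Q₀ (by omega)
  obtain ⟨u', hu', huu'⟩ := o_exists_partner h.nondeg₀ hu u0
  obtain ⟨hW, hdW⟩ := nd_perp_pair h.nondeg₀ hu hu' huu'
  obtain ⟨a, ha, ha0, haq⟩ := exists_singular_mem (Q := Q₀) (S := operp Q₀ (Submodule.span K {u, u'}))
    (by omega)
  obtain ⟨a', ha', haq', haa'⟩ := hW.exists_partner ha ha0 haq
  exact ⟨u, u', a, a', hu, hu', haq, haq', huu', haa', (mem_perp_pair.1 ha).1,
    (mem_perp_pair.1 ha').1, (mem_perp_pair.1 ha).2, (mem_perp_pair.1 ha').2⟩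

theorem le_subK : M ≤ subK Q j := by
  classical
  by_contra hne
  obtain ⟨g₀, hg₀, hg₀'⟩ := SetLike.not_le_iff_exists.1 hne
  have : Finite V := Module.finite_of_finite F
  have : Finite (V ≃ₗ[F] V) := Finite.of_injective _ DFunLike.coe_injective
  obtain ⟨u, u', a, a', hu, hu', ha, ha', p1, p2, p3, p4, p5, p6⟩ := h.exists_hyp4
  let s : Bool → V₀ := fun b => cond b u u'
  let t : Bool → V₀ := fun b => cond b a a'
  have hr : ∀ b, RootP Q (j (s b)) (j (t b)) := fun b => by
    refine ⟨h.Q_j (by cases b <;> assumption), h.Q_j (by cases b <;> assumption),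
      h.polar_j_zero (by cases b <;> assumption), h.ne (by
        cases b
        · exact o_ne_zero_of_polar_right (Q := Q₀) (x := u) (by simp [s, p1])
        · exact o_ne_zero_of_polar_left (Q := Q₀) (y := u') (by simp [s, p1])), fun H => ?_⟩
    obtain ⟨c, hc⟩ := Submodule.mem_span_singleton.1 H
    have := congrArg (fun v => polar Q v (j (t (!b)))) hc
    cases b <;> simp [s, t, oexp, h.polar_j, p2, p4, p5, polar_comm Q₀ a' a] at this
  have hI : Submodule.span F {j u, j a} ⊓ Submodule.span F {j u', j a'} = ⊥ := by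
    refine eq_bot_iff.2 fun x hx => ?_
    obtain ⟨α, β, e⟩ := Submodule.mem_span_pair.1 hx.1
    obtain ⟨γ, δ, e'⟩ := Submodule.mem_span_pair.1 hx.2
    have e1 := congrArg (fun v => polar Q v (j u')) (e.trans e'.symm)
    have e2 := congrArg (fun v => polar Q v (j a')) (e.trans e'.symm)
    simp [oexp, h.polar_j, h.form, p1, p2, p4, p6, hu', ha', polar_comm Q₀ a u', p5,
      polar_comm Q₀ a' u'] at e1 e2
    rw [← e, e1, e2]; simp
  let X := {ω : M ⧸ (subK Q j).subgroupOf M // (ω.out : OG Q) ∉ subK Q j}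
  have mk : ∀ g : M, (((g : M ⧸ (subK Q j).subgroupOf M).out : M) : OG Q) ∈ subK Q j ↔
      (g : OG Q) ∈ subK Q j := fun g => by
    obtain ⟨k, hk⟩ := QuotientGroup.mk_out_eq_mul ((subK Q j).subgroupOf M) g
    rw [hk, Subgroup.coe_mul]
    exact (subK Q j).mul_mem_cancel_right k.2
  have : Nonempty X := ⟨⟨(⟨g₀, hg₀⟩ : M), by rwa [mk]⟩⟩
  let d : X × Bool → M := fun p => p.1.1.out * ⟨_, h.eich_mem hM (s p.2) (t p.2)⟩ * p.1.1.out⁻¹
  have hd : ∀ p, (d p : OG Q) = eich Q ((p.1.1.out : OG Q).1 (j (s p.2)))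
      ((p.1.1.out : OG Q).1 (j (t p.2))) := fun p => conj_eich _ _ _
  have hdK : ∀ p, (d p : OG Q) ∉ subK Q j := fun p H =>
    p.1.2 (h.mem_of_root hM hMΩ h2 (hr p.2) (h.eich_mem_subK _ _) p.1.1.out.2 H)
  let f : X × Bool → X := fun p => ⟨d p, by rw [mk]; exact hdK p⟩
  have hf : Function.Injective f := fun p p' e => by
    have e0 : (d p : M ⧸ (subK Q j).subgroupOf M) = d p' := congrArg Subtype.val e
    have e1 : (d p : OG Q)⁻¹ * d p' ∈ subK Q j :=
      (QuotientGroup.eq.1 e0 : (d p)⁻¹ * d p' ∈ (subK Q j).subgroupOf M)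
    set g : OG Q := (p.1.1.out : M).1 with hg
    set g' : OG Q := (p'.1.1.out : M).1 with hg'
    have gM : g ∈ M := p.1.1.out.2
    have gM' : g' ∈ M := p'.1.1.out.2
    have nI : Submodule.span F {g.1 (j (s p.2)), g.1 (j (t p.2))} ⊓
        Submodule.span F {g'.1 (j (s p'.2)), g'.1 (j (t p'.2))} ≠ ⊥ := fun H => by
      refine hdK p ?_
      rw [hd, hd] at e1
      rw [hd]
      exact h.mem_of_disjoint hM hMΩ h2 ((hr _).map g) ((hr _).map g') (hd p ▸ (d p).2) e1 H
    have cm := ((hr _).map g).comm ((hr _).map g') nI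
    rw [← conj_eich, ← conj_eich] at cm
    have k1 : g⁻¹ * (g' * eich Q (j (s p'.2)) (j (t p'.2)) * g'⁻¹) * g ∈ subK Q j := by
      refine h.mem_of_root hM hMΩ h2 (hr p.2) (h.eich_mem_subK _ _) (M.mul_mem (M.mul_mem
        (M.inv_mem gM) (M.mul_mem (M.mul_mem gM' (h.eich_mem hM _ _)) (M.inv_mem gM'))) gM) ?_
      convert h.eich_mem_subK (s p.2) (t p.2) using 1
      rw [mul_inv_eq_iff_eq_mul]
      calc _ = g⁻¹ * (g' * eich Q (j (s p'.2)) (j (t p'.2)) * g'⁻¹ *
            (g * eich Q (j (s p.2)) (j (t p.2)) * g⁻¹)) * g := by group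
        _ = _ := by rw [← cm]; group
    have k2 : g⁻¹ * g' ∈ subK Q j := h.mem_of_root hM hMΩ h2 (hr p'.2) (h.eich_mem_subK _ _)
      (M.mul_mem (M.inv_mem gM) gM') (by convert k1 using 1; group)
    have k3 : p.1 = p'.1 := Subtype.ext (by
      rw [← p.1.1.out_eq', ← p'.1.1.out_eq']
      exact QuotientGroup.eq.2 k2)
    refine Prod.ext k3 ?_
    by_contra hb
    have gg : g' = g := by rw [hg, hg', k3]
    rw [gg] at nI
    obtain ⟨x, hx, x0⟩ := Submodule.exists_mem_ne_zero_of_ne_bot nI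
    have tr : ∀ b, x ∈ Submodule.span F {g.1 (j (s b)), g.1 (j (t b))} →
        g⁻¹.1 x ∈ Submodule.span F {j (s b), j (t b)} := fun b H => by
      obtain ⟨α, β, e⟩ := Submodule.mem_span_pair.1 H
      exact Submodule.mem_span_pair.2 ⟨α, β, by rw [← e]; simp⟩
    have h1 := tr _ hx.1
    have h2 := tr _ hx.2
    refine OG.app_ne_zero g⁻¹ x0 ((Submodule.mem_bot F).1 (hI ▸ ?_))
    revert hb h1 h2
    cases p.2 <;> cases p'.2 <;> simp +contextual [s, t]
  have h5 := Nat.card_le_card_of_injective f hf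
  have h6 : 0 < Nat.card X := Nat.card_pos
  rw [Nat.card_prod, Nat.card_eq_fintype_card (α := Bool), Fintype.card_bool] at h5
  omega

end Case2

theorem omax (h : OSub Q Q₀ j φ) : OMax (subK Q j) := by
  have hΩ := omega_eq h.nondeg (by have := h.dim'; omega)
  rw [OMax, hΩ]
  constructor
  · obtain ⟨c, hc⟩ : ∃ k : F, k ∉ (⊥ : Subalgebra K F) := by
      by_contra! hc
      have := Subalgebra.bot_eq_top_iff_finrank_eq_one.1 (eq_top_iff.2 fun k _ => hc k)
      exact Nat.not_prime_one (this ▸ h.prime)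
    obtain ⟨u, u', a, a', hu, hu', ha, ha', p1, p2, p3, p4, p5, p6⟩ := h.exists_hyp4
    refine ⟨eich Q (j u) (c • j a), eich_mem_EO _ _, fun H => hc (Algebra.mem_bot.2 ?_)⟩
    have e := h.φ_eich (h.ne (o_ne_zero_of_polar_left (Q := Q₀) (y := u') (by simp [p1]))) H (j u')
    rw [h.fix, eich_app (h.Q_j hu) (by rw [o_polar_smul_right, h.polar_j_zero p3, mul_zero])] at e
    simp only [oexp, h.polar_j, polar_comm Q₀ u' u, p1, p5, h.Q_j ha, map_one, map_zero, mul_zero,
      zero_mul, add_zero, zero_smul, sub_zero, one_smul, map_add, h.fix, h.φ_smul, add_right_inj] at e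
    obtain ⟨k, hk⟩ := h.exists_of_fr (smul_left_injective F
      (h.ne (o_ne_zero_of_polar_left (Q := Q₀) (y := a') (by simp [p2]))) e)
    exact ⟨k, hk⟩
  · intro M hM hMΩ g hg hg'
    by_contra c
    refine hg' (h.le_subK hM hMΩ (fun u hu u0 x hx => ?_) hg)
    by_contra! H
    obtain ⟨u', hu', huu'⟩ := o_exists_partner h.nondeg₀ hu u0
    exact c (h.EO_le_of_irr hM hu hu' huu' hx H)

end OSub

end Cfsg.Agent.Cl.MaxO
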