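import Mathlib
import Cfsg.Agent.Cl.MaxOSubB

/-!
# Subfield subgroups of `Ω_n(q)`, `n ≥ 7`: the matrix form
-/

set_option autoImplicit false
set_option linter.unusedSectionVars false
set_option linter.unusedVariables false

namespace Cfsg.Agent.Cl.MaxO

open Module QuadraticMap Matrix Cfsg.Geo

variable {F : Type*} [Field F] {ι : Type} [Fintype ι] [DecidableEq ι]

theorem omegaGL_congr {Q Q' : (ι → F) → F} (h : isometryGroup F Q = isometryGroup F Q') :
    omegaGL Q = omegaGL Q' := by
  have : ∀ G G' : Subgroup (GL ι F), G = G' →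
      (commutator G).map G.subtype = (commutator G').map G'.subtype := fun _ _ e => by rw [e]
  exact this _ _ h

theorem omegaGL_smul (P : QuadraticForm F (ι → F)) {ζ : F} (hζ : ζ ≠ 0) :
    omegaGL ⇑P = omegaGL ⇑(ζ • P) := by
  refine omegaGL_congr (Subgroup.ext fun g => ?_)
  simp only [isometryGroup, preserving, Subgroup.mem_mk, QuadraticMap.smul_apply, smul_eq_mul]
  simp [mul_right_inj' hζ]

theorem isMaximalIn_subfield [Fintype F] (P : QuadraticForm F (ι → F))
    (hP : (polarBilin P).Nondegenerate) (hn : 7 ≤ Fintype.card ι) (F₀ : Subfield F) (r : ℕ)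
    (hr : r.Prime) (hcard : Fintype.card F = Nat.card F₀ ^ r) (T : GL ι F) (ζ : F) (hζ : ζ ≠ 0)
    (hT : IsQuadFormRationalStructure (fun v => ζ * P v) F₀ T) :
    IsMaximalIn (omegaGL ⇑P) (subfieldSubgroup F₀ T ⊓ omegaGL ⇑P) := by
  classical
  rw [omegaGL_smul P hζ]
  set Q := ζ • P with hQdef
  let j : (ι → F₀) →ₗ[F₀] (ι → F) :=
    { toFun := fun x => T.1 *ᵥ fun i => (x i : F)
      map_add' := fun x y => by rw [← mulVec_add]; rfl
      map_smul' := fun c x => by
        rw [RingHom.id_apply, Subfield.smul_def, ← mulVec_smul]; rfl }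
  have hj : ∀ x, j x = T.1 *ᵥ fun i => (x i : F) := fun _ => rfl
  have hQ : (polarBilin Q).Nondegenerate := o_nondeg_of fun x hx => o_eq_zero hP fun y => by
    have := hx y
    simp only [hQdef, polar, QuadraticMap.smul_apply, smul_eq_mul] at this ⊢
    exact (mul_eq_zero.1 (by linear_combination this)).resolve_left hζ
  have hm : ∀ x, Q (j x) ∈ F₀ := fun x => hT _ fun i => (x i).2
  have hpol : ∀ x y, ((polar (fun x => (⟨Q (j x), hm x⟩ : F₀)) x y : F₀) : F) =
      polar Q (j x) (j y) := fun x y => by simp [polar]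
  let Q₀ : QuadraticForm F₀ (ι → F₀) := QuadraticMap.ofPolar (fun x => ⟨Q (j x), hm x⟩)
    (fun a x => Subtype.ext (by
      simp only [map_smul, Subfield.smul_def, o_qsmul, smul_eq_mul, Subfield.coe_mul]; ring))
    (fun x x' y => Subtype.ext (by rw [Subfield.coe_add, hpol, hpol, hpol, map_add, polar_add_left]))
    (fun a x y => Subtype.ext (by
      rw [hpol, smul_eq_mul, Subfield.coe_mul, hpol, map_smul, Subfield.smul_def,
        o_polar_smul_left]))
  have hF₀ := Fintype.ofFinite F₀
  have hspan : Submodule.span F (Set.range j) = ⊤ := eq_top_iff.2 fun v _ => by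
    rw [← Max.mulVec_inv_mulVec T v, ← Finset.univ_sum_single (T⁻¹.1 *ᵥ v), mulVec_sum]
    refine Submodule.sum_mem _ fun i _ => ?_
    have : T.1 *ᵥ Pi.single i ((T⁻¹.1 *ᵥ v) i) = (T⁻¹.1 *ᵥ v) i • j (Pi.single i 1) := by
      rw [hj, ← mulVec_smul]
      congr 1
      ext k
      by_cases hk : k = i <;> simp [hk]
    rw [this]
    exact Submodule.smul_mem _ _ (Submodule.subset_span ⟨_, rfl⟩)
  have hinj : ∀ x, j x = 0 → x = 0 := fun x hx => by
    rw [hj, Max.mulVec_eq_zero_iff] at hx
    ext i
    exact congrFun hx i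
  let σ : F →+* F := (FiniteField.frobeniusAlgHom F₀ F).toRingHom
  have hσ : ∀ a, σ a = a ^ Nat.card F₀ := fun a => by simp [σ, Nat.card_eq_fintype_card]
  let φ : (ι → F) →+ (ι → F) :=
    { toFun := fun x => T.1 *ᵥ fun i => σ ((T⁻¹.1 *ᵥ x) i)
      map_zero' := by simp [← Pi.zero_def]
      map_add' := fun x y => by
        rw [← mulVec_add, mulVec_add T⁻¹.1]
        congr 1
        ext i
        simp }
  have hφ : ∀ x, φ x = T.1 *ᵥ fun i => σ ((T⁻¹.1 *ᵥ x) i) := fun _ => rfl
  have h : OSub Q Q₀ j φ :=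
    { nondeg := hQ
      nondeg₀ := o_nondeg_of fun x hx => hinj x (o_eq_zero hQ fun y => by
        have hy : y ∈ Submodule.span F (Set.range j) := hspan ▸ Submodule.mem_top
        induction hy using Submodule.span_induction with
        | mem y hy =>
          obtain ⟨z, rfl⟩ := hy
          rw [← hpol]
          exact congrArg Subtype.val (hx z)
        | zero => simp
        | add _ _ _ _ h1 h2 => rw [polar_add_right, h1, h2, add_zero]
        | smul _ _ _ h1 => rw [o_polar_smul_right, h1, mul_zero])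
      form := fun _ => rfl
      span := hspan
      dim := by simpa using hn
      dim' := by simpa using hn
      prime := by
        have h1 := Module.natCard_eq_pow_finrank (K := F₀) (V := F)
        rw [Nat.card_eq_fintype_card, hcard] at h1
        rwa [← Nat.pow_right_injective (Finite.one_lt_card (α := F₀)) h1]
      smul := fun a x => by
        rw [hφ, hφ, ← mulVec_smul, mulVec_smul T⁻¹.1, ← hσ]
        congr 1
        ext i
        simp
      fix := fun x => by
        rw [hφ, hj, Max.inv_mulVec_mulVec]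
        congr 1
        ext i
        exact (FiniteField.frobeniusAlgHom F₀ F).commutes (x i) }
  refine isMaximalIn_omega Q _ _ (fun g => ?_) h.omax
  rw [Max.mem_subfieldSubgroup_iff]
  constructor
  · rintro ⟨c, hc, H⟩
    refine h.mem_subK hc fun y => ?_
    obtain ⟨w, hw, e⟩ := H.mulVec (fun i => (y i).2)
    exact ⟨fun i => ⟨w i, hw i⟩, by rw [omatEquiv_app, ← smul_mulVec]; exact e⟩
  · rintro ⟨c, hc, H⟩
    refine ⟨c, hc, fun i k => ?_⟩
    obtain ⟨y, hy⟩ := (H _).1 ⟨Pi.single k 1, rfl⟩
    have e : (fun i => ((Pi.single k (1 : F₀) : ι → F₀) i : F)) = Pi.single k 1 := by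
      ext l
      by_cases hl : l = k <;> simp [hl]
    rw [omatEquiv_app, ← smul_mulVec, hj, hj, e] at hy
    have e2 : Max.cj T⁻¹ (c • (g : GL ι F).1) *ᵥ Pi.single k 1 = fun i => (y i : F) := by
      rw [Max.cj_mulVec', inv_inv, ← hy, Max.inv_mulVec_mulVec]
    have e3 := congrFun e2 i
    rw [mulVec_single_one] at e3
    change Max.cj T⁻¹ (c • (g : GL ι F).1) i k = _ at e3
    rw [e3]
    exact (y i).2

end Cfsg.Agent.Cl.MaxO
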