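import Mathlib
import Cfsg.Agent.Cl.MaxTrans

/-!
# Unipotent elements normalising a tensor slot

`exists_unip`: a `p`-element normalising the slot is `(1 + γ) ψ(1 + a)` with `a`, `γ` nilpotent.
`rank_ge`, `rank_gt`: lower bounds for the rank of such an element minus one, in terms of
`slotM ψ`, the rank of the image of a rank one matrix.
-/

set_option autoImplicit false
set_option linter.unusedSectionVars false
set_option linter.unusedVariables false

namespace Cfsg.Agent.Cl.Max

open Matrix Cfsg.Geo Module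

variable {F : Type*} [Field F] {κ : Type} [Fintype κ] [DecidableEq κ]
  {ι : Type} [Fintype ι] [DecidableEq ι]

theorem isNilpotent_sub_one {A : Type*} [Ring A] [Algebra F A] {p : ℕ} [Fact p.Prime] [CharP F p]
    {x : A} {N : ℕ} (h : x ^ p ^ N = 1) : IsNilpotent (x - 1) := by
  rcases subsingleton_or_nontrivial A with hA | hA
  · exact ⟨0, Subsingleton.elim _ _⟩
  have : CharP A p := charP_of_injective_algebraMap (algebraMap F A).injective p
  exact ⟨p ^ N, by rw [sub_pow_char_pow_of_commute _ _ (Commute.one_right x), h, one_pow, sub_self]⟩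

theorem exists_unip [Finite F] [Nonempty ι] [Nonempty κ] {ψ : Matrix κ κ F →ₐ[F] Matrix ι ι F}
    {x : GL ι F} (hx : x ∈ NE ψ) (hn : IsNilpotent ((x : Matrix ι ι F) - 1)) :
    ∃ (a : Matrix κ κ F) (γ : Matrix ι ι F), IsNilpotent a ∧ IsNilpotent γ ∧ InC ψ γ ∧
      IsUnit (1 + a) ∧ (x : Matrix ι ι F) = (1 + γ) * ψ (1 + a) := by
  obtain ⟨p, hp⟩ := CharP.exists F
  have hpr : Fact p.Prime := ⟨CharP.char_is_prime F p⟩
  have hc : CharP (Matrix ι ι F) p := charP_of_injective_algebraMap (algebraMap F _).injective p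
  obtain ⟨N, hN⟩ := hn
  have h1 : (x : Matrix ι ι F) ^ p ^ N = 1 := by
    rw [← sub_eq_zero, ← one_pow (p ^ N), ← sub_pow_char_pow_of_commute _ _ (Commute.one_right _)]
    exact pow_eq_zero_of_le (Nat.lt_pow_self hpr.out.one_lt).le hN
  obtain ⟨h, hh⟩ := exists_cj_of_NE hx
  have hc1 : InC ψ ((x * (homG ψ h)⁻¹ : GL ι F) : Matrix ι ι F) := fun Y => by
    rw [← cj_eq_iff, cj_mul, ← map_inv, cj_homG, hh, cj_cj_inv]
  set c : Matrix ι ι F := ((x * (homG ψ h)⁻¹ : GL ι F) : Matrix ι ι F) with hcdef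
  have e : (x : Matrix ι ι F) = c * ψ h := by
    rw [hcdef, ← coe_homG, ← Units.val_mul, inv_mul_cancel_right]
  have e2 : c ^ p ^ N * ψ ((h : Matrix κ κ F) ^ p ^ N) = 1 := by
    rw [map_pow, ← Commute.mul_pow (hc1 _), ← e, h1]
  obtain ⟨l, hl⟩ := exists_dual_one (F := F) (A := Matrix ι ι F)
  have e3 := congrArg (pj ψ l) e2
  rw [pj_inC_mul_map l _ (hc1.pow _), pj_inC l inC_one, hl, one_smul] at e3
  obtain ⟨ν, hν⟩ := (iterateFrobeniusEquiv F p N).surjective (l (c ^ p ^ N))
  have hν' : ν ^ p ^ N = l (c ^ p ^ N) := hν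
  have hν0 : ν ≠ 0 := by
    rintro rfl
    rw [← hν', zero_pow (pow_pos hpr.out.pos N).ne', zero_smul] at e3
    exact zero_ne_one e3
  have e4 : (ν • (h : Matrix κ κ F)) ^ p ^ N = 1 := by rw [_root_.smul_pow, hν', e3]
  refine ⟨ν • (h : Matrix κ κ F) - 1, ν⁻¹ • c - 1, isNilpotent_sub_one (F := F) e4,
    isNilpotent_sub_one (F := F) (N := N) ?_, (hc1.smul _).sub inC_one, ?_, ?_⟩
  · have := congrArg ψ e4
    rw [_root_.smul_pow, map_smul, map_one] at this
    rw [_root_.smul_pow, ← e2, ← mul_one (_ • _), ← this, smul_mul_smul_comm, ← mul_pow,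
      inv_mul_cancel₀ hν0, one_pow, one_smul]
  · rw [add_sub_cancel]
    exact IsUnit.of_pow_eq_one e4 (pow_pos hpr.out.pos N).ne'
  · rw [add_sub_cancel, add_sub_cancel, map_smul, smul_mul_smul_comm, inv_mul_cancel₀ hν0,
      one_smul, e]

variable (ψ : Matrix κ κ F →ₐ[F] Matrix ι ι F)

/-- The multiplicity of the natural module of the slot. -/
noncomputable def slotM (o : κ) : ℕ := (ψ (single o o 1)).rank

variable {ψ} {o : κ}

theorem rank_cj (g : GL ι F) (X : Matrix ι ι F) : (cj g X).rank = X.rank := by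
  rw [cj_apply, rank_mul_eq_left_of_isUnit_det _ _ (Matrix.isUnits_det_units _),
    rank_mul_eq_right_of_isUnit_det _ _ (Matrix.isUnits_det_units _)]

theorem slotM_cjH (g : GL ι F) : slotM (cjH g ψ) o = slotM ψ o := rank_cj _ _

theorem single_eq_vecMulVec (o : κ) :
    single o o (1 : F) = vecMulVec (Pi.single o 1) (Pi.single o 1) :=
  single_eq_single_vecMulVec_single _ _

theorem rank_vecMulVec_le (o : κ) (v l : κ → F) : (ψ (vecMulVec v l)).rank ≤ slotM ψ o := by
  have : vecMulVec v l = vecMulVec v (Pi.single o 1) * single o o 1 *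
      vecMulVec (Pi.single o 1) l := by
    simp [single_eq_vecMulVec, vecMulVec_mul_vecMulVec]
  rw [this, map_mul, map_mul]
  exact (rank_mul_le_left _ _).trans (rank_mul_le_right _ _)

theorem rank_add_le' (X Y : Matrix ι ι F) : (X + Y).rank ≤ X.rank + Y.rank := by
  unfold Matrix.rank
  rw [mulVecLin_add]
  exact (Submodule.finrank_mono (LinearMap.range_add_le _ _)).trans
    (Submodule.finrank_add_le_finrank_add_finrank _ _)

theorem slotM_pos [Nonempty ι] : 0 < slotM ψ o := by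
  refine Nat.pos_of_ne_zero fun h => ?_
  have h1 : ψ (single o o 1) = 0 := by
    unfold slotM Matrix.rank at h
    rw [Submodule.finrank_eq_zero, LinearMap.range_eq_bot] at h
    exact Matrix.ext_iff_mulVec.2 fun v => by
      rw [zero_mulVec]; exact LinearMap.congr_fun h v
  simpa using congrFun (congrFun (algHom_matrix_injective ψ (h1.trans (map_zero ψ).symm)) o) o

theorem exists_dual_family {ρ : Type} [Fintype ρ] [DecidableEq ρ] {v : ρ → κ → F}
    (hv : LinearIndependent F v) : ∃ l : ρ → κ → F, ∀ i j, l i ⬝ᵥ v j = if i = j then 1 else 0 := by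
  obtain ⟨g, hg⟩ := (Finsupp.linearCombination F v).exists_leftInverse_of_injective
    (LinearMap.ker_eq_bot.2 hv)
  refine ⟨fun i k => g (Pi.single k 1) i, fun i j => ?_⟩
  have h1 : g (v j) = Finsupp.single j 1 := by
    simpa using LinearMap.congr_fun hg (Finsupp.single j 1)
  have h2 := congrArg (fun f => g f i) (pi_eq_sum_univ' (v j))
  simp only [h1, map_sum, map_smul, Finsupp.coe_finset_sum, Finset.sum_apply, Finsupp.coe_smul,
    Pi.smul_apply, smul_eq_mul, Finsupp.single_apply] at h2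
  simp only [eq_comm (a := i), h2, dotProduct, mul_comm]

section Lower

variable {ρ : Type} [Fintype ρ] [DecidableEq ρ] {a : Matrix κ κ F} {γ : Matrix ι ι F}

/-- The vector `∑ vᵢ ⊗ yᵢ`. -/
def tens (ψ : Matrix κ κ F →ₐ[F] Matrix ι ι F) (o : κ) (v : ρ → κ → F) :
    (ρ → ι → F) →ₗ[F] (ι → F) :=
  ∑ i, (ψ (vecMulVec (v i) (Pi.single o 1))).mulVecLin ∘ₗ LinearMap.proj i

theorem tens_apply (v : ρ → κ → F) (y : ρ → ι → F) :
    tens ψ o v y = ∑ i, ψ (vecMulVec (v i) (Pi.single o 1)) *ᵥ y i := by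
  simp [tens]

theorem map_mulVec_tens (X : Matrix κ κ F) (v : ρ → κ → F) (y : ρ → ι → F) :
    ψ X *ᵥ tens ψ o v y = tens ψ o (fun i => X *ᵥ v i) y := by
  simp only [tens_apply, mulVec_sum, mulVec_mulVec, ← map_mul, mul_vecMulVec]

theorem InC.mulVec_tens {c : Matrix ι ι F} (hc : InC ψ c) (v : ρ → κ → F) (y : ρ → ι → F) :
    c *ᵥ tens ψ o v y = tens ψ o v fun i => c *ᵥ y i := by
  simp only [tens_apply, mulVec_sum, mulVec_mulVec, hc _]

theorem eq_zero_of_tens {v : ρ → κ → F} (hv : LinearIndependent F v) {y : ρ → ι → F}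
    (hy : ∀ i, ψ (single o o 1) *ᵥ y i = y i) (h : tens ψ o v y = 0) (i : ρ) : y i = 0 := by
  obtain ⟨l, hl⟩ := exists_dual_family hv
  have := congrArg (ψ (vecMulVec (Pi.single o 1) (l i)) *ᵥ ·) h
  simp only [mulVec_zero] at this
  rw [map_mulVec_tens, tens_apply] at this
  simp only [vecMulVec_mulVec, hl] at this
  rw [Finset.sum_eq_single i (fun j _ hj => by simp [Ne.symm hj]) (by simp)] at this
  simpa [← single_eq_vecMulVec, hy] using this

theorem eq_zero_of_mulVec_tens (hγ : IsNilpotent γ) (hc : InC ψ γ) {v : ρ → κ → F}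
    (hv : LinearIndependent F fun i => a *ᵥ v i) {y : ρ → ι → F}
    (hy : ∀ i, ψ (single o o 1) *ᵥ y i = y i)
    (h : ((1 + γ) * ψ (1 + a) - 1) *ᵥ tens ψ o v y = 0) (i : ρ) : y i = 0 := by
  have e : (1 + γ) * ψ (1 + a) - 1 = (1 + γ) * ψ a + γ := by
    rw [map_add, map_one]; noncomm_ring
  obtain ⟨n, hn⟩ := hγ
  have hu : IsUnit (1 + γ) := IsNilpotent.isUnit_one_add ⟨n, hn⟩
  have key : ∀ k, (∀ i, γ ^ (k + 1) *ᵥ y i = 0) → ∀ i, γ ^ k *ᵥ y i = 0 := fun k H i => by
    have h1 := congrArg (γ ^ k *ᵥ ·) h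
    simp only [e, add_mulVec, mulVec_add, mulVec_zero] at h1
    rw [← mulVec_mulVec, map_mulVec_tens, (inC_one.add hc).mulVec_tens, (hc.pow k).mulVec_tens,
      mulVec_mulVec, ← pow_succ, (hc.pow _).mulVec_tens] at h1
    simp only [H] at h1
    rw [show (fun _ : ρ => (0 : ι → F)) = 0 from rfl, map_zero, add_zero] at h1
    have h2 := eq_zero_of_tens hv (fun i => by
      rw [mulVec_mulVec, mulVec_mulVec, mul_assoc, ← ((hc.pow k).mul (inC_one.add hc)) _,
        ← mulVec_mulVec, hy, mulVec_mulVec]) h1 i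
    rw [mulVec_mulVec, ((Commute.one_right _).add_right (Commute.pow_self γ k)).eq,
      ← mulVec_mulVec] at h2
    exact (mulVec_eq_zero_iff hu.unit _).1 h2
  have : ∀ k, k ≤ n → ∀ i, γ ^ (n - k) *ᵥ y i = 0 := fun k => by
    induction k with
    | zero => intro _ i; simp [hn]
    | succ k ih =>
      intro hk
      refine key _ ?_
      rw [show n - (k + 1) + 1 = n - k by omega]
      exact ih (by omega)
  simpa using this n le_rfl i

theorem mulVec_range (y : LinearMap.range (ψ (single o o 1)).mulVecLin) :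
    ψ (single o o 1) *ᵥ (y : ι → F) = y := by
  obtain ⟨_, z, rfl⟩ := y
  simp only [mulVecLin_apply, mulVec_mulVec, single_mul_single', if_true]

theorem rank_ge (o : κ) (hγ : IsNilpotent γ) (hc : InC ψ γ) {v : ρ → κ → F}
    (hv : LinearIndependent F fun i => a *ᵥ v i) :
    Fintype.card ρ * slotM ψ o ≤ ((1 + γ) * ψ (1 + a) - 1).rank := by
  set N := (1 + γ) * ψ (1 + a) - 1 with hN
  let R := LinearMap.range (ψ (single o o 1)).mulVecLin
  let Θ : (ρ → R) →ₗ[F] LinearMap.range N.mulVecLin :=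
    N.mulVecLin.rangeRestrict ∘ₗ tens ψ o v ∘ₗ R.subtype.compLeft ρ
  have hΘ : Function.Injective Θ := (injective_iff_map_eq_zero Θ).2 fun y hy => by
    ext1 i
    exact Subtype.ext (eq_zero_of_mulVec_tens hγ hc hv (y := fun i => y i)
      (fun i => mulVec_range _) (congrArg Subtype.val hy) i)
  have := LinearMap.finrank_le_finrank_of_injective hΘ
  rwa [Module.finrank_pi_fintype, Finset.sum_const, Finset.card_univ, smul_eq_mul] at this

theorem rank_gt (o : κ) (hγ : IsNilpotent γ) (hc : InC ψ γ) (hγ0 : γ ≠ 0) {v : ρ → κ → F}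
    (hv : LinearIndependent F fun i => a *ᵥ v i) {z l : κ → F} (hz : a *ᵥ z = 0)
    (hl : l ᵥ* a = 0) (hlz : l ⬝ᵥ z = 1) :
    Fintype.card ρ * slotM ψ o < ((1 + γ) * ψ (1 + a) - 1).rank := by
  set N := (1 + γ) * ψ (1 + a) - 1 with hN
  have e : N = (1 + γ) * ψ a + γ := by rw [hN, map_add, map_one]; noncomm_ring
  let R := LinearMap.range (ψ (single o o 1)).mulVecLin
  obtain ⟨y₀, hy₀, h0⟩ : ∃ y₀ ∈ R, γ *ᵥ y₀ ≠ 0 := by
    by_contra! H
    have h1 : ψ (single o o 1) * γ = 0 := Matrix.ext_iff_mulVec.2 fun y => by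
      rw [← hc, ← mulVec_mulVec, zero_mulVec]; exact H _ ⟨y, rfl⟩
    refine hγ0 ((forall_dual_apply_eq_zero_iff F γ).1 fun m => ?_)
    have h2 := congrArg (pj ψ m) h1
    rw [pj_map_mul_inC m _ hc, map_zero] at h2
    simpa using congrFun (congrFun h2 o) o
  let v' : ρ → κ → F := fun i => v i - (l ⬝ᵥ v i) • z
  have hv' : (fun i => a *ᵥ v' i) = fun i => a *ᵥ v i := by
    ext1 i; simp only [v', mulVec_sub, mulVec_smul, hz, smul_zero, sub_zero]
  let Z := ψ (vecMulVec z (Pi.single o 1))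
  let Θ : ((ρ → R) × F) →ₗ[F] LinearMap.range N.mulVecLin :=
    N.mulVecLin.rangeRestrict ∘ₗ ((tens ψ o v' ∘ₗ R.subtype.compLeft ρ).coprod
      (LinearMap.toSpanSingleton F _ (Z *ᵥ y₀)))
  have hΘ : Function.Injective Θ := (injective_iff_map_eq_zero Θ).2 fun ⟨y, t⟩ hy => by
    have h1 : N *ᵥ (tens ψ o v' (fun i => y i) + t • Z *ᵥ y₀) = 0 := congrArg Subtype.val hy
    have hL : ψ (vecMulVec (Pi.single o 1) l) * N = γ * ψ (vecMulVec (Pi.single o 1) l) := by
      rw [e, mul_add, ← mul_assoc, ← (inC_one.add hc) _, mul_assoc, ← map_mul, vecMulVec_mul, hl,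
        vecMulVec_zero, map_zero, mul_zero, zero_add, hc]
    have h2 := congrArg (ψ (vecMulVec (Pi.single o 1) l) *ᵥ ·) h1
    simp only [mulVec_mulVec, hL, mulVec_zero] at h2
    rw [← mulVec_mulVec, mulVec_add, map_mulVec_tens, mulVec_smul, mulVec_mulVec, ← map_mul,
      vecMulVec_mul_vecMulVec, hlz, one_smul, ← single_eq_vecMulVec, mulVec_range ⟨y₀, hy₀⟩] at h2
    simp only [v', vecMulVec_mulVec, dotProduct_sub, dotProduct_smul, hlz, smul_eq_mul, mul_one,
      sub_self, MulOpposite.op_zero, zero_smul, tens_apply, zero_vecMulVec, map_zero, zero_mulVec,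
      Finset.sum_const_zero, zero_add, mulVec_smul] at h2
    have ht : t = 0 := (smul_eq_zero.1 h2).resolve_right h0
    rw [ht, zero_smul, add_zero] at h1
    refine Prod.ext (funext fun i => Subtype.ext ?_) ht
    exact eq_zero_of_mulVec_tens hγ hc (hv' ▸ hv) (y := fun i => y i) (fun i => mulVec_range _) h1 i
  have := LinearMap.finrank_le_finrank_of_injective hΘ
  rw [Module.finrank_prod, Module.finrank_pi_fintype, Finset.sum_const, Finset.card_univ,
    smul_eq_mul, Module.finrank_self] at this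
  exact this

/-- An element of the slot of small rank. -/
theorem not_linearIndependent_of_rank [Nonempty ι] (o : κ) {k : ℕ}
    (h : (ψ a).rank ≤ k * slotM ψ o) (hk : k < Fintype.card ρ) (v : ρ → κ → F) :
    ¬ LinearIndependent F fun i => a *ᵥ v i := fun hv => by
  have := rank_ge (ψ := ψ) o IsNilpotent.zero inC_zero hv
  rw [add_zero, one_mul, map_add, map_one, add_sub_cancel_left] at this
  have h1 := slotM_pos (ψ := ψ) (o := o)
  nlinarith

end Lower

end Cfsg.Agent.Cl.Max
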