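import Mathlib
import Cfsg.Agent.Cl.MaxSLExtA

/-!
# Overgroups of `SL(A) ∘ SL(U)` acting on `Hom(U, A)`, I

From a quadratic element with commutator space inside `A ⊗ w` to all transvections.
-/

set_option autoImplicit false
set_option linter.unusedSectionVars false
set_option linter.unusedVariables false

namespace Cfsg.Agent.Cl.MSL

open Module

variable {F A U : Type*} [Field F] [AddCommGroup A] [Module F A] [AddCommGroup U] [Module F U]
  [FiniteDimensional F A] [FiniteDimensional F U]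

theorem det_one_add_of_sq (N : A →ₗ[F] A) (h : ∀ x, N (N x) = 0) :
    LinearMap.det (LinearMap.id + N) = 1 := by
  have h1 : IsNilpotent (-N) := IsNilpotent.neg ⟨2, LinearMap.ext h⟩
  have h2 := LinearMap.eval_charpoly (-N) 1
  rw [(LinearMap.isNilpotent_iff_charpoly _).1 h1] at h2
  simpa [Module.End.one_eq_id] using h2.symm

theorem ne_smul_symm {v w : A} (hv : v ≠ 0) (h : ∀ c : F, w ≠ c • v) (hw : w ≠ 0) (c : F) :
    v ≠ c • w := fun e => by
  by_cases h0 : c = 0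
  · exact hv (by simp [e, h0])
  · exact h c⁻¹ (by simp [e, h0])

theorem exists_ker_apply_one {φ ψ : Dual F A} (h : ∀ c : F, φ ≠ c • ψ) :
    ∃ u, ψ u = 0 ∧ φ u = 1 := by
  obtain ⟨u, h1, h2⟩ : ∃ u, ψ u = 0 ∧ φ u ≠ 0 := by
    by_contra! H
    obtain ⟨c, hc⟩ := exists_smul_of_ker H
    exact h c hc
  exact ⟨(φ u)⁻¹ • u, by simp [h1], by simp [h2]⟩

theorem exists_ker_two (h : 3 ≤ finrank F A) (φ ψ : Dual F A) :
    ∃ u, u ≠ 0 ∧ φ u = 0 ∧ ψ u = 0 := by
  have h1 := LinearMap.finrank_range_add_finrank_ker (φ.prod ψ)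
  have h2 : finrank F (LinearMap.range (φ.prod ψ)) ≤ 2 := by
    simpa using Submodule.finrank_le (LinearMap.range (φ.prod ψ))
  obtain ⟨u, hu, h0⟩ := (LinearMap.ker (φ.prod ψ)).exists_mem_ne_zero_of_ne_bot (by
    intro e; rw [e, finrank_bot] at h1; omega)
  exact ⟨u, h0, congrArg Prod.fst hu, congrArg Prod.snd hu⟩

theorem exists_dual_two (h : 3 ≤ finrank F A) (u v : A) :
    ∃ φ : Dual F A, φ ≠ 0 ∧ φ u = 0 ∧ φ v = 0 :=
  exists_ker_two (A := Dual F A) (by simpa using h) (Dual.eval F A u) (Dual.eval F A v)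

theorem exists_dual_ker (h : 2 ≤ finrank F A) (u : A) : ∃ φ : Dual F A, φ ≠ 0 ∧ φ u = 0 := by
  obtain ⟨φ, h1, h2⟩ := exists_ker_ne_zero (V := Dual F A) (by simpa using h) (Dual.eval F A u)
  exact ⟨φ, h2, h1⟩

/-- A relation between vectors and functionals stable under transvections. -/
theorem flag_spread (r : A → Dual F A → Prop) (h1 : ∀ u φ (c : F), r u φ → r (c • u) φ)
    (h2 : ∀ u φ (c : F), r u φ → r u (c • φ)) (h3 : ∀ u φ ψ, r u φ → r u ψ → r u (φ - ψ))
    (h4 : ∀ u φ v ψ, r u φ → ψ v = 0 → r (u + ψ u • v) (φ - φ v • ψ)) {u : A} {φ : Dual F A}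
    (h : r u φ) (hu : u ≠ 0) (hφ : φ ≠ 0) (v : A) (ψ : Dual F A) (e : ψ v = 0) : r v ψ := by
  have key : ∀ {u φ}, r u φ → φ ≠ 0 → ∀ ψ, ψ u = 0 → r u ψ := fun {u φ} h hφ ψ e => by
    by_cases h5 : ∃ c : F, ψ = c • φ
    · obtain ⟨c, rfl⟩ := h5
      exact h2 _ _ c h
    push Not at h5
    obtain ⟨v, h6, h7⟩ := exists_ker_apply_one (ne_smul_symm hφ h5 fun e => h5 0 (by simp [e]))
    have := h4 u φ v ψ h h6
    rw [e, zero_smul, add_zero, h7, one_smul] at this
    simpa using h3 _ _ _ h this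
  by_cases h5 : ∃ c : F, v = c • u
  · obtain ⟨c, rfl⟩ := h5
    by_cases hc : c = 0
    · obtain ⟨x, hx⟩ := exists_apply_one hφ
      have := h2 _ _ 0 (h1 _ _ 0 h)
      by_cases h6 : ψ = 0
      · simpa [hc, h6] using this
      · simpa [hc] using key (h1 _ _ 0 h) hφ ψ (by simp)
    · exact h1 _ _ c (key h hφ ψ (by simpa [hc] using e))
  push Not at h5
  obtain ⟨χ, h6, h7⟩ := exists_dual_pair (F := F) (v := u) (w := v - u) (ne_smul_symm hu
    (fun c hc => h5 (c + 1) (by rw [add_smul, ← hc]; simp)) fun e => h5 1 (by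
      rw [one_smul, ← sub_eq_zero, e]))
  have := h4 u φ _ χ h h7
  rw [h6, one_smul, add_sub_cancel] at this
  refine key this (fun e => hφ ?_) ψ e
  have e1 := LinearMap.congr_fun e (v - u)
  simp only [LinearMap.sub_apply, LinearMap.smul_apply, h7, smul_zero, sub_zero,
    LinearMap.zero_apply] at e1
  simpa [e1] using e

/-- An invariant space of endomorphisms with a non-scalar member contains a root element. -/
theorem exists_rank_one (hE : 3 ≤ finrank F A ∨ ∃ c : F, c ≠ 0 ∧ c ≠ 1)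
    (S : Submodule F (A →ₗ[F] A)) (hS : ∀ B ∈ S, ∀ u (φ : Dual F A), φ u = 0 →
      LinearMap.transvection φ u ∘ₗ B ∘ₗ LinearMap.transvection (-φ) u ∈ S)
    {B : A →ₗ[F] A} (hB : B ∈ S) {u : A} (hu : ∀ c : F, B u ≠ c • u) :
    ∃ (v : A) (φ : Dual F A), v ≠ 0 ∧ φ ≠ 0 ∧ φ v = 0 ∧ φ.smulRight v ∈ S := by
  obtain ⟨φ, h1, h2⟩ := exists_dual_pair hu
  have hu0 : u ≠ 0 := fun e => hu 0 (by simp [e])
  rcases hE with h3 | ⟨c, hc0, hc1⟩
  · obtain ⟨ψ, h4, h5, h6⟩ := exists_dual_two h3 u (B u)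
    have h7 := S.sub_mem (hS B hB u φ h2) hB
    refine ⟨u, ψ, hu0, h4, h5, ?_⟩
    convert S.sub_mem h7 (hS _ h7 u ψ h5) using 1
    ext x
    simp only [LinearMap.smulRight_apply, LinearMap.sub_apply, LinearMap.comp_apply,
      LinearMap.transvection.apply, map_add, map_smul, map_sub, LinearMap.neg_apply, h1, h2, h5, h6]
    module
  · refine ⟨u, φ, hu0, fun e => by simp [e] at h1, h2, (S.smul_mem_iff (s := c * (c - 1))
      (mul_ne_zero hc0 (sub_ne_zero.2 hc1))).1 ?_⟩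
    convert S.sub_mem (S.sub_mem (S.smul_mem c (hS B hB u φ h2))
      (hS B hB u (c • φ) (by simp [h2]))) (S.smul_mem (c - 1) hB) using 1
    ext x
    simp only [LinearMap.smulRight_apply, LinearMap.sub_apply, LinearMap.comp_apply,
      LinearMap.transvection.apply, map_add, map_smul, LinearMap.neg_apply, h1,
      smul_eq_mul, LinearMap.smul_apply]
    module

theorem exists_scalar {B : A →ₗ[F] A} (h : ∀ u, ∃ c : F, B u = c • u) : ∃ c : F, ∀ u, B u = c • u := by
  obtain ⟨c, hc⟩ := LinearMap.exists_eq_smul_id_of_forall_notLinearIndependent (f := B) fun u hu =>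
    by
      obtain ⟨c, hc⟩ := h u
      have := (LinearIndependent.pair_iff.1 hu) c (-1) (by simp [hc])
      simp at this
  exact ⟨c, fun u => by simp [hc]⟩

/-- The functional `X ↦ φ (X ψ)`. -/
def tf (φ : Dual F A) (ψ : U) : Dual F (U →ₗ[F] A) := φ ∘ₗ LinearMap.applyₗ ψ

@[simp] theorem tf_apply (φ : Dual F A) (ψ : U) (X : U →ₗ[F] A) : tf φ ψ X = φ (X ψ) := rfl

variable (A) in
/-- The space `A ⊗ w`. -/
def st (w : Dual F U) : Submodule F (U →ₗ[F] A) := LinearMap.range (LinearMap.smulRightₗ w)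

theorem mem_st {w : Dual F U} {X : U →ₗ[F] A} : X ∈ st A w ↔ ∃ a, X = w.smulRight a :=
  ⟨fun ⟨a, h⟩ => ⟨a, h.symm⟩, fun ⟨a, h⟩ => ⟨a, h.symm⟩⟩

theorem pure_mem_st (w : Dual F U) (a : A) : w.smulRight a ∈ st A w := mem_st.2 ⟨a, rfl⟩

theorem mem_st_of {w : Dual F U} (hw : w ≠ 0) {X : U →ₗ[F] A} (h : ∀ ψ, w ψ = 0 → X ψ = 0) :
    X ∈ st A w := by
  obtain ⟨χ, hχ⟩ := exists_apply_one hw
  refine mem_st.2 ⟨X χ, LinearMap.ext fun ψ => ?_⟩
  simpa [sub_eq_zero] using h (ψ - w ψ • χ) (by simp [hχ])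

theorem smulRight_injective {w : Dual F U} (hw : w ≠ 0) :
    Function.Injective (LinearMap.smulRightₗ w : A →ₗ[F] U →ₗ[F] A) := fun a b h => by
  obtain ⟨χ, hχ⟩ := exists_apply_one hw
  simpa [hχ] using LinearMap.congr_fun h χ

theorem finrank_st {w : Dual F U} (hw : w ≠ 0) : finrank F (st A w) = finrank F A :=
  LinearMap.finrank_range_of_inj (smulRight_injective hw)

theorem pure_ext {V : Type*} [AddCommGroup V] [Module F V] {f g : (U →ₗ[F] A) →ₗ[F] V}
    (h : ∀ (w : Dual F U) (a : A), f (w.smulRight a) = g (w.smulRight a)) : f = g := by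
  ext X
  let b := Module.finBasis F U
  have : X = ∑ i, (b.coord i).smulRight (X (b i)) := b.ext fun j => by
    simp [Finsupp.single_apply]
  rw [this, map_sum, map_sum]
  exact Finset.sum_congr rfl fun i _ => h _ _

/-- The map `X ↦ B (X ψ) ⊗ w`. -/
def qm (B : A →ₗ[F] A) (ψ : U) (w : Dual F U) : (U →ₗ[F] A) →ₗ[F] (U →ₗ[F] A) :=
  LinearMap.smulRightₗ w ∘ₗ B ∘ₗ LinearMap.applyₗ ψ

@[simp] theorem qm_apply (B : A →ₗ[F] A) (ψ : U) (w : Dual F U) (X : U →ₗ[F] A) :
    qm B ψ w X = w.smulRight (B (X ψ)) := rfl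

variable {M : Subgroup ((U →ₗ[F] A) ≃ₗ[F] (U →ₗ[F] A))}
  (hL : ∀ u (φ : Dual F A), φ u = 0 → Has M fun X => LinearMap.transvection φ u ∘ₗ X)
  (hR : ∀ ψ (w : Dual F U), w ψ = 0 → Has M fun X => X + w.smulRight (X ψ))
include hL hR

theorem cen_eq_top_of_pure (h2 : 2 ≤ finrank F A) (h3 : 3 ≤ finrank F U) {u : A} {φ : Dual F A}
    {ψ : U} {w : Dual F U} (hu : u ≠ 0) (hφ : φ ≠ 0) (hψ : ψ ≠ 0) (hw : w ≠ 0) (e : φ u = 0)
    (h : tf φ ψ ∈ axes M (w.smulRight u)) : cen M = ⊤ := by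
  have g1 : ∀ u (φ : Dual F A) ψ (w : Dual F U), φ u = 0 → w ψ = 0 →
      tf φ ψ ∈ axes M (w.smulRight u) := by
    intro u' φ' ψ' w' e1 e2
    have h4 := flag_spread (fun u φ => tf φ ψ ∈ axes M (w.smulRight u))
      (fun u φ c h d => by
        convert TV.smul_left (c := c) (φ := d • tf φ ψ) (by rw [smul_smul]; exact h _) using 1
        ext; simp [smul_comm c])
      (fun u φ c h => (axes M _).smul_mem c h) (fun u φ χ h h' => (axes M _).sub_mem h h')
      (fun u φ v χ h e c => by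
        convert (h c).conj (ψ := c • tf (φ - φ v • χ) ψ) (hL v χ e) fun X => ?_ using 1
        · ext; simp [LinearMap.transvection.apply, smul_smul]
        · simp [LinearMap.transvection.apply, e, mul_comm]) h hu hφ u' φ' e1
    refine flag_spread (fun ψ w => tf φ' ψ ∈ axes M (w.smulRight u'))
      (fun ψ w c h => by
        convert (axes M _).smul_mem c h using 1
        ext; simp)
      (fun ψ w c h d => by
        convert TV.smul_left (c := c) (φ := d • tf φ' ψ) (by rw [smul_smul]; exact h _) using 1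
        ext; simp [smul_smul])
      (fun ψ w χ h h' c => by
        convert (h c).sub_left (h' c) using 1
        ext; simp [sub_smul])
      (fun ψ w v χ h e c => by
        convert (h c).conj (ψ := c • tf φ' (ψ + χ ψ • v)) (hR (-v) χ (by simp [e])) fun X => ?_
          using 1
        · ext; simp [smul_smul, mul_comm, sub_eq_add_neg, add_smul]
        · simp [e]) h4 hψ hw ψ' w' e2
  have g2 : ∀ u (φ : Dual F A) ψ (w : Dual F U), u ≠ 0 → w ≠ 0 → w ψ = 0 →
      tf φ ψ ∈ axes M (w.smulRight u) := by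
    intro u φ ψ w hu hw e1 c
    by_cases e2 : φ u = 0
    · exact g1 u φ ψ w e2 e1 c
    obtain ⟨u', h4, h5⟩ := exists_ker_ne_zero h2 φ
    obtain ⟨φ', h6, h7⟩ := exists_dual_pair (F := F) (v := u') (w := u) fun d hd => by
      rw [hd, map_smul, smul_eq_mul, mul_eq_zero] at h4
      exact h5 (by rw [hd, h4.resolve_right e2, zero_smul])
    obtain ⟨w', h8, h9⟩ := exists_ker_not_smul (V := Dual F U) (by simpa using h3)
      (Dual.eval F U ψ) w
    obtain ⟨ψ', h10, h11⟩ := exists_ker_apply_one h9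
    simpa [h11, h6] using (g1 u φ' ψ' w h7 h10 c).comm (tv_of_mem_axes (g1 u' φ ψ w' h4 h8))
      (by simp [e1])
  have g3 : ∀ u (φ : Dual F A) ψ (w : Dual F U), u ≠ 0 → w ≠ 0 → φ u = 0 →
      tf φ ψ ∈ axes M (w.smulRight u) := by
    intro u φ ψ w hu hw e1 c
    obtain ⟨φ', h6⟩ := exists_dual_one (F := F) hu
    obtain ⟨w', h8, h9⟩ := exists_ker_not_smul (V := Dual F U) (by simpa using h3)
      (Dual.eval F U ψ) w
    obtain ⟨ψ', h10, h11⟩ := exists_ker_apply_one h9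
    simpa [h11, h6] using (g2 u φ' ψ' w hu hw h10 c).comm (tv_of_mem_axes (g1 u φ ψ w' e1 h8))
      (by simp [e1])
  have g4 : ∀ (w : Dual F U) (u : A), w.smulRight u ∈ cen M := fun w u => by
    by_cases hu : u = 0
    · rw [hu, LinearMap.smulRight_zero]; exact (cen M).zero_mem
    by_cases hw : w = 0
    · rw [hw, LinearMap.zero_smulRight]; exact (cen M).zero_mem
    refine mem_cen_of_axes fun X hX => ?_
    obtain ⟨a, rfl⟩ := mem_st.1 (mem_st_of (X := X) hw fun ψ hψ =>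
      (Module.forall_dual_apply_eq_zero_iff F _).1 fun φ => hX _ (g2 u φ ψ w hu hw hψ))
    by_contra! H
    obtain ⟨φ, h4, h5⟩ := exists_dual_pair (F := F) (v := a) (w := u) fun c hc => H c (by
      ext; simp [hc, smul_comm c])
    obtain ⟨ψ, h6⟩ := exists_apply_one hw
    simpa [h4, h6] using hX _ (g3 u φ ψ w hu hw h5)
  rw [← (cen M).ker_mkQ, pure_ext (f := (cen M).mkQ) (g := 0) fun w a => by simpa using g4 w a,
    LinearMap.ker_zero]

theorem cen_eq_top_of_qw (h2 : 2 ≤ finrank F A) (h3 : 3 ≤ finrank F U)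
    (hE : 3 ≤ finrank F A ∨ ∃ c : F, c ≠ 0 ∧ c ≠ 1) {w : Dual F U} (hw : w ≠ 0)
    {ε : (U →ₗ[F] A) →ₗ[F] (U →ₗ[F] A)} (h : Has M fun X => X + ε X) (h0 : ε ≠ 0)
    (h1 : ∀ X, ε X ∈ st A w) (h4 : ∀ X ∈ st A w, ε X = 0) (h5 : ∃ Y ∈ st A w, ∀ X, ε X ≠ Y) :
    cen M = ⊤ := by
  obtain ⟨χ, hχ⟩ := exists_apply_one hw
  have h6 : ∀ X, ε X = w.smulRight (ε X χ) := fun X => by
    obtain ⟨a, ha⟩ := mem_st.1 (h1 X)
    simp [ha, hχ]
  let B : Dual F U → A →ₗ[F] A := fun w' => LinearMap.applyₗ χ ∘ₗ ε ∘ₗ LinearMap.smulRightₗ w'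
  have hB : ∀ (w' : Dual F U) a, ε (w'.smulRight a) = w.smulRight (B w' a) := fun w' a => h6 _
  obtain ⟨w', u, hu⟩ : ∃ w' u, ∀ c : F, B w' u ≠ c • u := by
    by_contra! H
    obtain ⟨_, hY, h7⟩ := h5
    obtain ⟨a, rfl⟩ := mem_st.1 hY
    refine h0 (pure_ext fun w' b => ?_)
    obtain ⟨c, hc⟩ := exists_scalar (H w')
    by_cases e : c = 0
    · simp [hB, hc, e]
    · exact absurd (by rw [hB, hc, smul_inv_smul₀ e]) (h7 (w'.smulRight (c⁻¹ • a)))
  obtain ⟨ψ, hψ, h7, h8⟩ := exists_ker_two h3 w w'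
  let S : Submodule F (A →ₗ[F] A) :=
    { carrier := {B | ∀ c : F, Has M fun X => X + c • qm B ψ w X}
      zero_mem' := fun c => has_id.congr fun X => by simp
      add_mem' := fun {B B'} hB hB' c => ((hB c).comp (hB' c)).congr fun X => by
        ext; simp [h7]; abel
      smul_mem' := fun d B hB c => (hB (c * d)).congr fun X => by
        ext; simp; module }
  obtain ⟨v, φ, h9, h10, h11, h12⟩ := exists_rank_one hE S (fun B hB u φ e c =>
    (((hL u φ e).comp (hB c)).comp (hL u (-φ) (by simp [e]))).congr fun X => by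
      ext
      simp only [LinearMap.comp_apply, LinearMap.add_apply, LinearMap.smul_apply, qm_apply,
        LinearMap.smulRight_apply, LinearMap.transvection.apply, map_add, map_smul,
        LinearMap.neg_apply, e]
      module) (B := B w') (fun c => (h.comm (B := qm LinearMap.id ψ (c • w'))
      (hR ψ (c • w') (by simp [h8])) (fun X => h4 _ (h1 X)) (fun X => by simp [h8])
      (fun X => by rw [h6 X]; simp [h7]) (fun X => by rw [h6 (qm _ _ _ X)]; simp [h7])).congr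
        fun X => by
          have e : (c • w').smulRight (X ψ) = c • w'.smulRight (X ψ) := by ext; simp [smul_smul]
          rw [h6 X, qm_apply, qm_apply, qm_apply, LinearMap.id_apply, e]
          simp [h7, hB]) hu
  refine cen_eq_top_of_pure hL hR h2 h3 h9 h10 hψ hw h11 fun c => ⟨by simp [h7],
    (h12 c).congr fun X => ?_⟩
  ext; simp [smul_smul, mul_comm, mul_left_comm]

end Cfsg.Agent.Cl.MSL
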