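import Mathlib
import Cfsg.Agent.Cl.MaxSLTenA
import Cfsg.Agent.Cl.MaxSLExtB

/-!
# Overgroups of `SL(A) ∘ SL(U)` acting on `Hom(U, A)`, II

Maximality of the stabiliser of a tensor decomposition with factors of different dimensions.
-/

set_option autoImplicit false
set_option linter.unusedSectionVars false
set_option linter.unusedVariables false

namespace Cfsg.Agent.Cl.MSL

open Module

variable {F A U : Type*} [Field F] [AddCommGroup A] [Module F A] [AddCommGroup U] [Module F U]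
  [FiniteDimensional F A] [FiniteDimensional F U]

/-- The map normalises `End(A)`. -/
def PT (T : (U →ₗ[F] A) →ₗ[F] (U →ₗ[F] A)) : Prop :=
  ∀ B : A →ₗ[F] A, ∃ B' : A →ₗ[F] A, ∀ X, T (B ∘ₗ X) = B' ∘ₗ T X

theorem exists_comp_of_st (h2 : 2 ≤ finrank F U) (θ : (U →ₗ[F] A) →ₗ[F] (U →ₗ[F] A))
    (h : ∀ (w : Dual F U) (a : A), θ (w.smulRight a) ∈ st A w) :
    ∃ B : A →ₗ[F] A, ∀ X, θ X = B ∘ₗ X := by
  have : Nontrivial U := Module.nontrivial_of_finrank_pos (R := F) (by omega)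
  obtain ⟨χ, h0⟩ := exists_ne (0 : U)
  obtain ⟨w, hw⟩ := exists_dual_one (F := F) h0
  let B : A →ₗ[F] A := LinearMap.applyₗ χ ∘ₗ θ ∘ₗ LinearMap.smulRightₗ w
  have h1 : ∀ a, θ (w.smulRight a) = w.smulRight (B a) := fun a => by
    obtain ⟨b, hb⟩ := mem_st.1 (h w a)
    simp [B, hb, hw]
  refine ⟨B, LinearMap.congr_fun (pure_ext (g := LinearMap.llcomp F U A A B) fun v a => ?_)⟩
  suffices θ (v.smulRight a) = v.smulRight (B a) by rw [this]; ext; simp
  by_cases hv : ∃ c : F, v = c • w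
  · obtain ⟨c, rfl⟩ := hv
    have e : ∀ a : A, (c • w).smulRight a = c • w.smulRight a := fun a => by ext; simp [smul_smul]
    rw [e, e, map_smul, h1]
  push Not at hv
  obtain ⟨ψ, h3, h4⟩ := exists_ker_apply_one hv
  obtain ⟨ψ', h5, h6⟩ := exists_ker_apply_one (ne_smul_symm (v := w) (w := v)
    (fun e => by simp [e] at hw) hv fun e => by simp [e] at h4)
  obtain ⟨b, hb⟩ := mem_st.1 (h v a)
  obtain ⟨d, hd⟩ := mem_st.1 (h (v + w) a)
  have e : (v + w).smulRight a = v.smulRight a + w.smulRight a := by ext; simp [add_smul]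
  rw [e, map_add, hb, h1] at hd
  have e1 := LinearMap.congr_fun hd ψ
  have e2 := LinearMap.congr_fun hd ψ'
  simp only [LinearMap.add_apply, LinearMap.smulRight_apply, h3, h4, h5, h6, one_smul, zero_smul,
    add_zero, zero_add] at e1 e2
  rw [hb, e1, e2]

variable {M : Subgroup ((U →ₗ[F] A) ≃ₗ[F] (U →ₗ[F] A))}

variable (M) in
/-- The images of the spaces `A ⊗ w`. -/
def ST (W : Submodule F (U →ₗ[F] A)) : Prop :=
  ∃ g ∈ M, ∃ w : Dual F U, w ≠ 0 ∧ W = (st A w).map (g : (U →ₗ[F] A) →ₗ[F] (U →ₗ[F] A))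

theorem st_st {w : Dual F U} (hw : w ≠ 0) : ST M (st A w) := ⟨1, M.one_mem, w, hw, by simp⟩

theorem ST.map {W : Submodule F (U →ₗ[F] A)} (h : ST M W) {g : (U →ₗ[F] A) ≃ₗ[F] (U →ₗ[F] A)}
    (hg : g ∈ M) : ST M (W.map (g : (U →ₗ[F] A) →ₗ[F] (U →ₗ[F] A))) := by
  obtain ⟨k, hk, v, hv, rfl⟩ := h
  exact ⟨g * k, M.mul_mem hg hk, v, hv, by rw [← Submodule.map_comp]; rfl⟩

theorem ST.finrank_eq {W : Submodule F (U →ₗ[F] A)} (h : ST M W) : finrank F W = finrank F A := by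
  obtain ⟨k, hk, v, hv, rfl⟩ := h
  rw [LinearEquiv.finrank_map_eq, finrank_st hv]

theorem ST.exists_notMem {W W' : Submodule F (U →ₗ[F] A)} (h : ST M W) (h' : ST M W')
    (hne : W ≠ W') : ∃ x ∈ W, x ∉ W' := by
  by_contra! H
  exact hne (Submodule.eq_of_le_of_finrank_eq H (h.finrank_eq.trans h'.finrank_eq.symm))

theorem map_symm_map {V : Type*} [AddCommGroup V] [Module F V] (g : V ≃ₗ[F] V)
    (W : Submodule F V) : (W.map (g : V →ₗ[F] V)).map (g.symm : V →ₗ[F] V) = W := by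
  rw [← Submodule.map_comp]; simp

/-- A space of dimension less than `dim U` stable under all `X ↦ X + w ⊗ X ψ` is killed by `ψ`. -/
theorem apply_eq_zero_of_stable (hlt : finrank F A < finrank F U) {W : Submodule F (U →ₗ[F] A)}
    (hW : ST M W) {ψ : U} (h : ∀ w : Dual F U, w ψ = 0 → ∀ X ∈ W, X + w.smulRight (X ψ) ∈ W)
    {X : U →ₗ[F] A} (hX : X ∈ W) : X ψ = 0 := by
  by_contra h0
  obtain ⟨w, hw⟩ := exists_dual_one (F := F) (v := ψ) (by rintro rfl; simp at h0)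
  let T : Dual F U →ₗ[F] (U →ₗ[F] A) := (LinearMap.smulRightₗ.flip (X ψ)) ∘ₗ
    (LinearMap.id - (Dual.eval F U ψ).smulRight w) + (Dual.eval F U ψ).smulRight X
  have hT : ∀ v, T v = (v - v ψ • w).smulRight (X ψ) + v ψ • X := fun v => rfl
  have h1 : LinearMap.range T ≤ W := by
    rintro _ ⟨v, rfl⟩
    rw [hT]
    exact W.add_mem (by simpa using W.sub_mem (h (v - v ψ • w) (by simp [hw]) X hX) hX)
      (W.smul_mem _ hX)
  have h2 : Function.Injective T := (injective_iff_map_eq_zero T).2 fun v hv => by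
    rw [hT] at hv
    have e : v ψ = 0 := by simpa [hw, h0] using LinearMap.congr_fun hv ψ
    ext χ
    simpa [e, h0] using LinearMap.congr_fun hv χ
  have h3 := Submodule.finrank_mono h1
  rw [LinearMap.finrank_range_of_inj h2, hW.finrank_eq, Subspace.dual_finrank_eq] at h3
  omega

variable
  (hL : ∀ u (φ : Dual F A), φ u = 0 → Has M fun X => LinearMap.transvection φ u ∘ₗ X)
  (hR : ∀ ψ (w : Dual F U), w ψ = 0 → Has M fun X => X + w.smulRight (X ψ))
  (h2 : 2 ≤ finrank F A) (hlt : finrank F A < finrank F U)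
  (hE : 3 ≤ finrank F A ∨ ∃ c : F, c ≠ 0 ∧ c ≠ 1)
include hL hR h2 hlt hE

theorem cen_eq_top_of_deg {w : Dual F U} (hw : w ≠ 0) {W : Submodule F (U →ₗ[F] A)} (hW : ST M W)
    (hne : st A w ≠ W) (hD : st A w ⊓ W ≠ ⊥) {ψ : U} (h0 : ψ ≠ 0) (h1 : w ψ = 0)
    (h : ∀ X ∈ W, X ψ = 0) : cen M = ⊤ := by
  obtain ⟨Z, hZ, hZ'⟩ := (st_st (M := M) hw).exists_notMem hW hne
  obtain ⟨g, hg, v, hv, rfl⟩ := hW
  obtain ⟨χ, h3, h4⟩ : ∃ χ, v χ = 0 ∧ g.symm Z χ ≠ 0 := by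
    by_contra! H
    exact hZ' ⟨_, mem_st_of hv H, by simp⟩
  let N := (g.symm : (U →ₗ[F] A) →ₗ[F] (U →ₗ[F] A)) ∘ₗ qm LinearMap.id ψ w ∘ₗ
    (g : (U →ₗ[F] A) →ₗ[F] (U →ₗ[F] A))
  have hN : ∀ X, N X = g.symm (w.smulRight (g X ψ)) := fun _ => rfl
  have hN0 : ∀ X ∈ st A v, N X = 0 := fun X hX => by
    rw [hN, h (g X) (Submodule.mem_map_of_mem hX)]; simp
  have h5 : Has M fun X => X + N X := has_conj (N := qm LinearMap.id ψ w) (hR ψ w h1) (symm_mem hg)
  refine cen_eq_top_of_qw hL hR h2 (by omega) hE hv (ε := qm LinearMap.id χ v ∘ₗ N)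
    ((Has.comm (A := qm LinearMap.id χ v) (hR χ v h3) h5 (fun X => by simp [h3])
      (fun X => by simp [hN, h1]) (fun X => by simp [hN0 _ (pure_mem_st _ _)])
      (fun X => hN0 _ (pure_mem_st _ _))).congr fun X => by
        simp [hN0 _ (pure_mem_st _ _)]) (fun e => h4 ?_) (fun X => pure_mem_st _ _)
    (fun X hX => by simp [hN0 X hX]) ?_
  · obtain ⟨a, rfl⟩ := mem_st.1 hZ
    obtain ⟨ρ, hρ⟩ := exists_dual_one (F := F) h0
    obtain ⟨χ', hχ'⟩ := exists_apply_one hv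
    simpa [hN, hρ, hχ'] using
      LinearMap.congr_fun (LinearMap.congr_fun e (g.symm (ρ.smulRight a))) χ'
  · let E : A →ₗ[F] A := LinearMap.applyₗ χ ∘ₗ (g.symm : (U →ₗ[F] A) →ₗ[F] (U →ₗ[F] A)) ∘ₗ
      LinearMap.smulRightₗ w
    have h6 : ¬ Function.Surjective E := fun hs => by
      obtain ⟨Y, ⟨hY, Y', hY', rfl⟩, hY0⟩ := Submodule.exists_mem_ne_zero_of_ne_bot hD
      obtain ⟨a, ha⟩ := mem_st.1 hY
      obtain ⟨b, rfl⟩ := mem_st.1 hY'
      have : a = 0 := (injective_iff_map_eq_zero E).1 (LinearMap.injective_iff_surjective.2 hs) a (by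
        change g.symm (w.smulRight a) χ = 0
        rw [← ha]; simp [h3])
      exact hY0 (by rw [ha, this, LinearMap.smulRight_zero])
    obtain ⟨b, hb⟩ := not_forall.1 h6
    exact ⟨_, pure_mem_st v b, fun X e => hb ⟨g X ψ, smulRight_injective hv e⟩⟩

section Max

variable {d : ℕ} (hd0 : 0 < d) (hcen : cen M ≠ ⊤)
  (hmax : ∀ W W', ST M W → ST M W' → W ≠ W' → finrank F (W ⊓ W' : Submodule F (U →ₗ[F] A)) ≤ d)
include hd0 hcen hmax

omit hL hR h2 hlt hE hd0 hcen in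
theorem map_eq_of_fix {W W' : Submodule F (U →ₗ[F] A)} (hW' : ST M W')
    (hd : finrank F (W ⊓ W' : Submodule F (U →ₗ[F] A)) = d) {f : (U →ₗ[F] A) → (U →ₗ[F] A)}
    (hf : Has M f) (h1 : ∀ X ∈ W, X ∈ W' → f X = X) {X : U →ₗ[F] A} (hX : X ∈ W') (h3 : f X ∈ W')
    (h4 : f X ∉ W) : ∀ Y ∈ W', f Y ∈ W' := by
  obtain ⟨t, ht, H⟩ := hf
  have e : W'.map (t : (U →ₗ[F] A) →ₗ[F] (U →ₗ[F] A)) = W' := by
    by_contra hn
    refine absurd ((hmax _ _ (hW'.map ht) hW' hn).trans hd.ge) (not_le.2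
      (Submodule.finrank_lt_finrank_of_lt (lt_of_le_of_ne
        (fun z hz => Submodule.mem_inf.2 ⟨⟨z, hz.2, (H z).trans (h1 z hz.1 hz.2)⟩, hz.2⟩)
        fun e => h4 ?_)))
    have h5 : f X ∈ W ⊓ W' := e ▸ ⟨⟨X, hX, H X⟩, h3⟩
    exact h5.1
  exact fun Y hY => e ▸ ⟨Y, hY, H Y⟩

theorem full_inj {w : Dual F U} (hw : w ≠ 0) {W : Submodule F (U →ₗ[F] A)} (hW : ST M W)
    (hne : st A w ≠ W) (hd : finrank F (st A w ⊓ W : Submodule F (U →ₗ[F] A)) = d)
    {X : U →ₗ[F] A} (hX : X ∈ W) (hX' : X ∉ st A w) {ψ : U} (h1 : w ψ = 0) (h3 : X ψ = 0) :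
    ψ = 0 := by
  by_contra h0
  refine hcen (cen_eq_top_of_deg hL hR h2 hlt hE hw hW hne (by
    intro e; rw [e, finrank_bot] at hd; omega) h0 h1 fun Y hY =>
      apply_eq_zero_of_stable hlt hW (fun v hv => map_eq_of_fix hmax hW hd (hR ψ v hv)
        (fun Z hZ _ => ?_) hX (by simpa [h3] using hX) (by simpa [h3] using hX')) hY)
  obtain ⟨a, rfl⟩ := mem_st.1 hZ
  simp [h1]

theorem full_surj {w : Dual F U} (hw : w ≠ 0) {W : Submodule F (U →ₗ[F] A)} (hW : ST M W)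
    (hne : st A w ≠ W) (hd : finrank F (st A w ⊓ W : Submodule F (U →ₗ[F] A)) = d)
    {X : U →ₗ[F] A} (hX : X ∈ W) (hX' : X ∉ st A w) (a : A) : ∃ ψ, w ψ = 0 ∧ X ψ = a := by
  have h1 : Function.Injective (X.domRestrict (LinearMap.ker w)) :=
    (injective_iff_map_eq_zero _).2 fun ψ h =>
      Subtype.ext (full_inj hL hR h2 hlt hE hd0 hcen hmax hw hW hne hd hX hX' ψ.2 h)
  have h3 := finrank_le_ker_add_one w
  obtain ⟨ψ, hψ⟩ := (LinearMap.injective_iff_surjective_of_finrank_eq_finrank (le_antisymm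
    (LinearMap.finrank_le_finrank_of_injective h1) (by omega))).1 h1 a
  exact ⟨ψ, ψ.2, hψ⟩

theorem full_not_pure {w : Dual F U} (hw : w ≠ 0) {W : Submodule F (U →ₗ[F] A)} (hW : ST M W)
    (hne : st A w ≠ W) (hd : finrank F (st A w ⊓ W : Submodule F (U →ₗ[F] A)) = d)
    {v : Dual F U} {a : A} (hX : v.smulRight a ∈ W) : v.smulRight a ∈ st A w := by
  by_contra h
  obtain ⟨ψ, h0, h1, h3⟩ := exists_ker_two (by omega) w v
  exact h0 (full_inj hL hR h2 hlt hE hd0 hcen hmax hw hW hne hd hX h h1 (by simp [h3]))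

theorem full_trans {W W' : Submodule F (U →ₗ[F] A)} (hW : ST M W) (hW' : ST M W') (hne : W ≠ W')
    (hd : finrank F (W ⊓ W' : Submodule F (U →ₗ[F] A)) = d) {X Y : U →ₗ[F] A} (hX : X ∈ W')
    (hX' : X ∉ W) (hY : Y ∈ W) : ∃ t ∈ M, t X = X + Y ∧ ∀ Z ∈ W, t Z = Z := by
  obtain ⟨g, hg, w, hw, rfl⟩ := hW
  obtain ⟨Y, hY, rfl⟩ := hY
  obtain ⟨a, rfl⟩ := mem_st.1 hY
  obtain ⟨ψ, h1, h3⟩ := full_surj hL hR h2 hlt hE hd0 hcen hmax hw (hW'.map (symm_mem hg))
    (fun h => hne (Submodule.map_injective_of_injective g.symm.injective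
      ((map_symm_map g _).trans h))) (by
      rw [← map_symm_map g (st A w), ← Submodule.map_inf _ g.symm.injective,
        LinearEquiv.finrank_map_eq, hd])
    (X := g.symm X) (Submodule.mem_map_of_mem hX) (fun h => hX' ⟨_, h, by simp⟩) a
  obtain ⟨t, ht, H⟩ := has_conj (N := qm LinearMap.id ψ w) (hR ψ w h1) hg
  refine ⟨t, ht, by simp [H, h3], ?_⟩
  rintro _ ⟨Z, hZ, rfl⟩
  obtain ⟨b, rfl⟩ := mem_st.1 hZ
  simp [H, h1]

theorem false_of_max {w : Dual F U} (hw : w ≠ 0) {W : Submodule F (U →ₗ[F] A)} (hW : ST M W)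
    (hne : st A w ≠ W) (hd : finrank F (st A w ⊓ W : Submodule F (U →ₗ[F] A)) = d) : False := by
  obtain ⟨Z, hZ, hZ'⟩ := (st_st (M := M) hw).exists_notMem hW hne
  obtain ⟨b, rfl⟩ := mem_st.1 hZ
  obtain ⟨φ, h1, h3⟩ := exists_dual_of_notMem (v := b) (W := W.comap (LinearMap.smulRightₗ w)) hZ'
  obtain ⟨u, h4, h5⟩ := exists_ker_ne_zero h2 φ
  obtain ⟨X, hX, hX'⟩ := hW.exists_notMem (st_st hw) hne.symm
  have h6 : (φ ∘ₗ X).smulRight u ∉ st A w := fun h => by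
    obtain ⟨ψ, h7, h8⟩ := full_surj hL hR h2 hlt hE hd0 hcen hmax hw hW hne hd hX hX' b
    obtain ⟨a, ha⟩ := mem_st.1 h
    simpa [h7, h8, h1, h5] using LinearMap.congr_fun ha ψ
  obtain ⟨s, hs, H⟩ := hL u φ h4
  have h7 : s X = X + (φ ∘ₗ X).smulRight u := by
    rw [H]; ext; simp [LinearMap.transvection.apply]
  have h8 : s X ∉ W := fun h => h6 (full_not_pure hL hR h2 hlt hE hd0 hcen hmax hw hW hne hd (by
    simpa [h7] using W.sub_mem h hX))
  have h9 : ∀ Z ∈ st A w ⊓ W, s Z = Z := fun Z hZ => by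
    obtain ⟨a, rfl⟩ := mem_st.1 hZ.1
    rw [H]; ext; simp [LinearMap.transvection.apply, h3 a hZ.2]
  have h10 : W ≠ W.map (s : (U →ₗ[F] A) →ₗ[F] (U →ₗ[F] A)) := fun e =>
    h8 (e ▸ Submodule.mem_map_of_mem hX)
  obtain ⟨t, ht, h11, h12⟩ := full_trans hL hR h2 hlt hE hd0 hcen hmax hW (hW.map hs) h10
    (le_antisymm (hmax _ _ hW (hW.map hs) h10) (hd.ge.trans (Submodule.finrank_mono
      fun Z hZ => Submodule.mem_inf.2 ⟨hZ.2, Z, hZ.2, h9 Z hZ⟩)))
    (Submodule.mem_map_of_mem hX) h8 (W.neg_mem hX)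
  have h13 : (φ ∘ₗ X).smulRight u ∈ (W.map (s : (U →ₗ[F] A) →ₗ[F] (U →ₗ[F] A))).map
      (t : (U →ₗ[F] A) →ₗ[F] (U →ₗ[F] A)) :=
    ⟨_, Submodule.mem_map_of_mem hX, h11.trans (by rw [LinearEquiv.coe_coe, h7]; abel)⟩
  have h14 := fun e : st A w = _ => h6 (e ▸ h13)
  exact h6 (full_not_pure hL hR h2 hlt hE hd0 hcen hmax hw ((hW.map hs).map ht) h14
    (le_antisymm (hmax _ _ (st_st hw) ((hW.map hs).map ht) h14) (hd.ge.trans
      (Submodule.finrank_mono fun Z hZ => Submodule.mem_inf.2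
        ⟨hZ.1, Z, ⟨Z, hZ.2, h9 Z hZ⟩, h12 Z hZ.2⟩))) h13)

end Max

theorem exists_st_of_disjoint (H : ∀ W W', ST M W → ST M W' → W ≠ W' → W ⊓ W' = ⊥)
    {W : Submodule F (U →ₗ[F] A)} (hW : ST M W) : ∃ w : Dual F U, w ≠ 0 ∧ W = st A w := by
  by_contra! hn
  have h1 : ∀ (w : Dual F U) (a : A), w.smulRight a ∈ W → w ≠ 0 → a = 0 := fun w a h hw => by
    have : w.smulRight a ∈ W ⊓ st A w := ⟨h, pure_mem_st w a⟩
    rw [H _ _ hW (st_st hw) (hn w hw), Submodule.mem_bot] at this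
    exact smulRight_injective hw (by simpa using this)
  have h3 : ∀ f, Has M f → ∀ X ∈ W, X ≠ 0 → f X = X → ∀ Y ∈ W, f Y ∈ W := by
    rintro f ⟨t, ht, e⟩ X hX h0 h Y hY
    have : W.map (t : (U →ₗ[F] A) →ₗ[F] (U →ₗ[F] A)) = W := by
      by_contra h4
      have : X ∈ W.map (t : (U →ₗ[F] A) →ₗ[F] (U →ₗ[F] A)) ⊓ W := ⟨⟨X, hX, (e X).trans h⟩, hX⟩
      rw [H _ _ (hW.map ht) hW h4] at this
      exact h0 this
    exact this ▸ ⟨Y, hY, e Y⟩
  have h4 : ∀ X ∈ W, X ≠ 0 → ∀ ψ, X ψ = 0 → ∀ Y ∈ W, Y ψ = 0 := fun X hX h0 ψ h Y hY =>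
    apply_eq_zero_of_stable hlt hW (fun w hw => h3 _ (hR ψ w hw) X hX h0 (by simp [h])) hY
  obtain ⟨X, hX, h0⟩ := W.exists_mem_ne_zero_of_ne_bot (by
    intro e
    have := hW.finrank_eq
    rw [e, finrank_bot] at this
    omega)
  by_cases h5 : Function.Surjective X
  · obtain ⟨s, hs⟩ := X.exists_rightInverse_of_surjective (LinearMap.range_eq_top.2 h5)
    have hs' : ∀ a, X (s a) = a := LinearMap.congr_fun hs
    obtain ⟨Y, hY, hY'⟩ := exists_notMem_of_finrank_lt (W := F ∙ X) (U := W) (by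
      rw [finrank_span_singleton h0, hW.finrank_eq]; omega)
    have h6 : (Y ∘ₗ s) ∘ₗ X = Y := LinearMap.ext fun ψ => by
      simpa [sub_eq_zero] using h4 X hX h0 (s (X ψ) - ψ) (by simp [hs']) Y hY
    obtain ⟨u, hu⟩ : ∃ u, ∀ c : F, (Y ∘ₗ s) u ≠ c • u := by
      by_contra! H'
      obtain ⟨c, hc⟩ := exists_scalar H'
      exact hY' (Submodule.mem_span_singleton.2 ⟨c, by rw [← h6]; ext ψ; exact (hc _).symm⟩)
    obtain ⟨v, φ, h7, h8, h9, h10⟩ := exists_rank_one hE (W.comap (LinearMap.lcomp F A X))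
      (fun B hB u φ e => by
        have := h3 _ ((hL u φ e).comp (hR (s u) (-φ ∘ₗ X) (by simp [hs', e]))) X hX h0 (by
          ext; simp [LinearMap.transvection.apply, hs', e]) _ hB
        rw [Submodule.mem_comap]
        convert this using 1
        ext
        simp [LinearMap.transvection.apply, hs']) (B := Y ∘ₗ s)
        (show (Y ∘ₗ s) ∘ₗ X ∈ W by rwa [h6]) hu
    refine h7 (h1 (φ ∘ₗ X) v h10 fun e => h8 (LinearMap.ext fun a => ?_))
    simpa [hs'] using LinearMap.congr_fun e (s a)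
  · obtain ⟨a, ha⟩ := not_forall.1 h5
    obtain ⟨φ, h6, h7⟩ := exists_dual_of_notMem (v := a) (W := LinearMap.range X) ha
    obtain ⟨u, h8, h9⟩ := exists_ker_ne_zero h2 φ
    have h10 : ∀ Y ∈ W, φ ∘ₗ Y = 0 := fun Y hY => by
      by_contra h
      refine h9 (h1 _ u ?_ h)
      convert W.sub_mem (h3 _ (hL u φ h8) X hX h0 (by
        ext ψ; simp [LinearMap.transvection.apply, h7 _ (LinearMap.mem_range_self X ψ)]) Y hY) hY
        using 1
      ext; simp [LinearMap.transvection.apply]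
    obtain ⟨ψ, hψ⟩ := DFunLike.ne_iff.1 h0
    have h11 : Function.Injective ((LinearMap.applyₗ ψ : (U →ₗ[F] A) →ₗ[F] A).domRestrict W) :=
      (injective_iff_map_eq_zero _).2 fun Y h => Subtype.ext (by
        by_contra e
        exact hψ (h4 Y Y.2 e ψ h X hX))
    obtain ⟨Y, hY⟩ := (LinearMap.injective_iff_surjective_of_finrank_eq_finrank
      hW.finrank_eq).1 h11 a
    have := LinearMap.congr_fun (h10 Y Y.2) ψ
    rw [LinearMap.comp_apply, show Y.1 ψ = a from hY, h6] at this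
    exact one_ne_zero this

theorem cen_eq_top_of_not_pt {g : (U →ₗ[F] A) ≃ₗ[F] (U →ₗ[F] A)} (hg : g ∈ M)
    (hn : ¬ PT (g : (U →ₗ[F] A) →ₗ[F] (U →ₗ[F] A))) : cen M = ⊤ := by
  by_contra hcen
  by_cases H : ∀ W W', ST M W → ST M W' → W ≠ W' → W ⊓ W' = ⊥
  · refine hn fun B => ?_
    obtain ⟨B', hB⟩ := exists_comp_of_st (by omega) ((g : (U →ₗ[F] A) →ₗ[F] (U →ₗ[F] A)) ∘ₗ
      LinearMap.llcomp F U A A B ∘ₗ (g.symm : (U →ₗ[F] A) →ₗ[F] (U →ₗ[F] A))) fun w a => by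
        by_cases hw : w = 0
        · simp [hw]
        obtain ⟨v, hv, e⟩ := exists_st_of_disjoint hL hR h2 hlt hE H ((st_st hw).map (symm_mem hg))
        obtain ⟨b, hb⟩ := mem_st.1 (e ▸ Submodule.mem_map_of_mem (pure_mem_st w a) :
          g.symm (w.smulRight a) ∈ st A v)
        obtain ⟨Y, hY, h⟩ := (e ▸ pure_mem_st v (B b) : v.smulRight (B b) ∈
          (st A w).map (g.symm : (U →ₗ[F] A) →ₗ[F] (U →ₗ[F] A)))
        suffices e : g (B ∘ₗ g.symm (w.smulRight a)) = Y from e ▸ hY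
        rw [hb, ← g.eq_symm_apply]
        exact Eq.trans (by ext; simp) h.symm
    exact ⟨B', fun X => Eq.trans (congrArg (fun Y => g (B ∘ₗ Y)) (g.symm_apply_apply X).symm)
      (hB (g X))⟩
  push Not at H
  let S : Set ℕ := {d | ∃ W W', ST M W ∧ ST M W' ∧ W ≠ W' ∧
    finrank F (W ⊓ W' : Submodule F (U →ₗ[F] A)) = d}
  have hb : BddAbove S := ⟨finrank F (U →ₗ[F] A), by
    rintro _ ⟨W, W', -, -, -, rfl⟩; exact Submodule.finrank_le _⟩
  obtain ⟨W, W', h3, h4, h5, h6⟩ := H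
  have hdS : _ ∈ S := ⟨W, W', h3, h4, h5, rfl⟩
  obtain ⟨_, W'', ⟨k, hk, w, hw, rfl⟩, hW', hne, hd⟩ := Nat.sSup_mem ⟨_, hdS⟩ hb
  exact false_of_max hL hR h2 hlt hE ((Nat.pos_of_ne_zero (mt Submodule.finrank_eq_zero.1 h6)).trans_le
    (le_csSup hb hdS)) hcen (fun W W' h h' e => le_csSup hb ⟨W, W', h, h', e, rfl⟩) hw
    (hW'.map (symm_mem hk)) (fun h => hne (Submodule.map_injective_of_injective k.symm.injective
      ((map_symm_map k _).trans h))) (by
      rw [← map_symm_map k (st A w), ← Submodule.map_inf _ k.symm.injective,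
        LinearEquiv.finrank_map_eq, hd])

end Cfsg.Agent.Cl.MSL

namespace Cfsg.Agent.Cl.MSL

open Module Matrix Cfsg.Geo Cfsg.Agent.Cl.Max Cfsg.Agent.Cl.Mx in
theorem isMaximalIn_tensor {F : Type*} {ι : Type} [Field F] [Fintype ι] [DecidableEq ι]
    [Fintype F] {n₁ n₂ : ℕ} (h1 : 2 ≤ n₁) (h12 : n₁ < n₂) (hex : ¬ (n₁ = 2 ∧ Fintype.card F = 2))
    (e : ι ≃ Fin n₁ × Fin n₂) (P : GL ι F) :
    IsMaximalIn (specialLinear ι F) (tensorProductSubgroup n₁ n₂ e P ⊓ specialLinear ι F) := by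
  have hc : 3 ≤ Fintype.card ι := by
    rw [Fintype.card_congr e, Fintype.card_prod, Fintype.card_fin, Fintype.card_fin]
    nlinarith
  have : Nonempty ι := Fintype.card_pos_iff.1 (by omega)
  let C : (Fin n₁ × Fin n₂ → F) ≃ₗ[F] Matrix (Fin n₁) (Fin n₂) F :=
    { toFun := fun x => Matrix.of fun i j => x (i, j)
      invFun := fun y p => y p.1 p.2
      map_add' := fun _ _ => rfl
      map_smul' := fun _ _ => rfl
      left_inv := fun _ => rfl
      right_inv := fun _ => rfl }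
  let L := (trV e P).symm.trans (C.trans Matrix.toLin')
  have hL : ∀ (B : Matrix (Fin n₁) (Fin n₁) F) x,
      L (tr e P (kronL (Fin n₂) B) *ᵥ x) = Matrix.toLin' B ∘ₗ L x := fun B x => by
    obtain ⟨x, rfl⟩ := (trV e P).surjective x
    simp only [L, tr_mulVec, LinearEquiv.trans_apply, LinearEquiv.symm_apply_apply,
      ← Matrix.toLin'_mul]
    congr 1
    ext i j
    change (kronL (Fin n₂) B *ᵥ x) (i, j) = ∑ k, B i k * x (k, j)
    simp [kronL_apply, kron_mulVec_apply, Matrix.one_apply]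
  refine isMaximalIn_of_abs' L _ PT (fun g => ⟨fun hg B => ?_, fun hg => ?_⟩) ?_
    fun M hM _ g hg hn => cen_eq_top_of_not_pt (fun u φ h => ?_) (fun ψ w h => ?_)
      (by simpa using h1) (by simpa using h12) ?_ hg hn
  · obtain ⟨a, b, hg⟩ := (mem_tensorProductSubgroup e P g).1 hg
    obtain ⟨B, rfl⟩ := Matrix.toLin'.surjective B
    refine ⟨Matrix.toLin' (cj a B), fun X => ?_⟩
    obtain ⟨x, rfl⟩ := L.surjective X
    have : g = trG e P (kronG a b) := Units.ext (hg.trans (coe_trG e P (kronG a b)).symm)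
    rw [← hL, LinearEquiv.coe_coe, toE_apply_e, toE_apply_e, ← hL, ← cj_mulVec, this, cj_trG,
      kronL_apply, cj_kronG, map_one, kronL_apply]
  · refine le_tensorProductSubgroup e P g fun X => ?_
    obtain ⟨B, hB⟩ := hg (Matrix.toLin' X)
    obtain ⟨B, rfl⟩ := Matrix.toLin'.surjective B
    refine ⟨B, Matrix.toLin'.injective (LinearMap.ext fun z => ?_)⟩
    obtain ⟨z, rfl⟩ := (toLinE g).surjective z
    have := hB (L z)
    rw [← hL, LinearEquiv.coe_coe, toE_apply_e, toE_apply_e, ← hL] at this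
    exact (L.injective this).symm.trans (cj_mulVec g _ z).symm
  · obtain ⟨a, ha⟩ := exists_notMem_scalars (ι := Fin n₁) (F := F) (by simpa using h1)
    exact (qs_sl hc).not_le_tensor (by omega) e P (conj_mem_sl _) ha
  · refine (hM (LinearMap.id + LinearMap.llcomp F _ _ _ (φ.smulRight u)) (det_one_add_of_sq _
      fun X => by ext; simp [h]) fun B => ⟨LinearMap.transvection φ u ∘ₗ B ∘ₗ
        LinearMap.transvection (-φ) u, fun X => ?_⟩).congr fun X => ?_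
    · refine LinearMap.ext fun x => ?_
      simp [LinearMap.transvection.apply, h]
    · refine LinearMap.ext fun x => ?_
      simp [LinearMap.transvection.apply]
  · refine hM (LinearMap.id + qm LinearMap.id ψ w) (det_one_add_of_sq _ fun X => by simp [h])
      fun B => ⟨B, fun X => LinearMap.ext fun x => ?_⟩
    simp
  · have h3 : 1 < Fintype.card F := Fintype.one_lt_card
    by_cases h4 : n₁ = 2
    · exact Or.inr (exists_ne_zero_ne_one (by omega))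
    · exact Or.inl (by simp; omega)

end Cfsg.Agent.Cl.MSL
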