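import Mathlib
import Cfsg.Agent.Cl.MaxSUTenA

/-!
# Overgroups of `SU(X) ∘ SU(U)` in `SU(X ⊗ U)`, II

Elements of rank one (`UTen.r1`) and the form in four variables attached to the decomposition.
-/

set_option autoImplicit false
set_option linter.unusedSectionVars false

namespace Cfsg.Agent.Cl

open Module

variable {F : Type*} [Field F] {σ : F →+* F} {V : Type*} [AddCommGroup V] [Module F V]
  [FiniteDimensional F V] {B : V →ₗ[F] V →ₛₗ[σ] F} {M : Subgroup (V ≃ₗ[F] V)}
  {X : Type*} [AddCommGroup X] [Module F X] [FiniteDimensional F X] {C : X →ₗ[F] X →ₛₗ[σ] F}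
  {U : Type*} [AddCommGroup U] [Module F U] [FiniteDimensional F U] {D : U →ₗ[F] U →ₛₗ[σ] F}
  {t : X →ₗ[F] U →ₗ[F] V} {q : ℕ}

namespace IsHerm

/-- A skew map which is null on all isotropic vectors is scalar. -/
theorem scalar_of_null [Finite F] (hC : IsHerm C) (hn : 2 ≤ finrank F X) {S : X →ₗ[F] X}
    (hS : ∀ x y, C (S x) y + C x (S y) = 0) (h0 : ∀ a, C a a = 0 → C (S a) a = 0) :
    ∃ r : F, ∀ x, S x = r • x := by
  obtain ⟨θ, hθ0, hθ⟩ := hC.exists_trace_zero
  have h1 : ∀ {e f}, UHypPair C e f → C (S f) e = C (S e) f := fun {e f} h => by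
    have := h0 (e + θ • f) (by simp [h.left, h.right, h.pair, h.pair', hθ])
    simp only [map_add, map_smul, map_smulₛₗ, LinearMap.add_apply, LinearMap.smul_apply,
      smul_eq_mul, h0 e h.left, h0 f h.right, hθ] at this
    exact mul_left_cancel₀ hθ0 (by linear_combination this)
  have h2 : ∀ {e f}, UHypPair C e f → ∀ w, C w e = 0 → C w f = 0 →
      ∃ r : F, UHypPair C e (f + w + r • e) := fun {e f} h w h3 h4 => by
    obtain ⟨r, hr⟩ := hC.exists_trace_eq (a := -C w w) (by rw [map_neg, hC.fixed])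
    refine ⟨r, hC.uHypPair h.left ?_ (by simp [h.left, h.pair, hC.eq_zero_symm h3])⟩
    simp [h.left, h.right, h.pair, h.pair', h3, h4, hC.eq_zero_symm h3, hC.eq_zero_symm h4]
    linear_combination hr
  have h3 : ∀ {e f}, UHypPair C e f → σ (C (S e) f) = -C (S e) f := fun {e f} h => by
    rw [hC.symm]
    linear_combination hS f e - h1 h
  have h4 : ∀ {e f}, UHypPair C e f → S e = C (S e) f • e := fun {e f} h => hC.ext_left fun x => by
    have h5 : ∀ w, C w e = 0 → C w f = 0 → σ (C (S e) w) = -C (S e) w := fun w i j => by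
      obtain ⟨r, hr⟩ := h2 h w i j
      have := h3 hr
      simp only [map_add, map_smulₛₗ, h0 e h.left, smul_zero, add_zero, h3 h] at this
      linear_combination this
    have h6 : ∀ w, C w e = 0 → C w f = 0 → C (S e) w = 0 := fun w i j => by
      obtain ⟨c, hc⟩ := hC.exists_ne
      have := h5 (c • w) (by simp [i]) (by simp [j])
      simp only [map_smulₛₗ, smul_eq_mul, map_mul, hC.invol, h5 w i j] at this
      exact mul_left_cancel₀ (sub_ne_zero.2 hc) (by linear_combination this)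
    have := h6 (x - C x f • e - C x e • f) (by simp [h.left, h.pair']) (by simp [h.right, h.pair])
    simp only [map_sub, map_smulₛₗ, smul_eq_mul, h0 e h.left, hC.symm] at this
    simp only [map_smul, LinearMap.smul_apply, smul_eq_mul]
    linear_combination this
  obtain ⟨e, f, h⟩ := hC.exists_uHypPair' hn
  refine ⟨C (S e) f, fun x => ?_⟩
  obtain ⟨r, hr⟩ := h2 h (x - C x f • e - C x e • f) (by simp [h.left, h.pair'])
    (by simp [h.right, h.pair])
  have h5 := h4 hr.symm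
  have h6 := h4 h.symm
  have h7 := h4 h
  rw [h1 h] at h6
  rw [h1 hr, h7] at h5
  generalize C (S e) f = κ at h5 h6 h7
  simp only [map_smul, LinearMap.smul_apply, hr.pair, smul_eq_mul, mul_one] at h5
  simp only [map_add, map_sub, map_smul, h6, h7] at h5
  linear_combination (norm := module) h5

/-- An invariant family of skew maps containing a non-scalar map contains a map of rank one. -/
theorem exists_rank_one (hC : IsHerm C) (hq : UField σ q) (hn : 2 ≤ finrank F X)
    (h2 : ¬ (finrank F X = 2 ∧ q = 2)) (N : AddSubgroup (X →ₗ[F] X))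
    (hsk : ∀ S ∈ N, ∀ x y, C (S x) y + C x (S y) = 0)
    (hsm : ∀ S ∈ N, ∀ c : F, σ c = c → c • S ∈ N)
    (hcj : ∀ S ∈ N, ∀ k ∈ USG C, (k : X →ₗ[F] X) ∘ₗ S ∘ₗ (k⁻¹ : X ≃ₗ[F] X).toLinearMap ∈ N)
    {S : X →ₗ[F] X} (hS : S ∈ N) (hns : ¬ ∃ r : F, ∀ x, S x = r • x) :
    ∃ a, a ≠ 0 ∧ C a a = 0 ∧ ∀ c : F, c + σ c = 0 → c • (C.flip a).smulRight a ∈ N := by
  have := hq.finite
  obtain ⟨a, ha, hβ⟩ : ∃ a, C a a = 0 ∧ C (S a) a ≠ 0 := by
    by_contra! H
    exact hns (hC.scalar_of_null hn (hsk S hS) H)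
  have ha0 : a ≠ 0 := by rintro rfl; simp at hβ
  suffices H : ∃ κ : F, κ ≠ 0 ∧ κ • (C.flip a).smulRight a ∈ N by
    obtain ⟨κ, h0, H⟩ := H
    obtain ⟨f, hf⟩ := hC.exists_uHypPair ha0 ha
    have h3 : σ κ = -κ := by
      have := hsk _ H f f
      simp [hf.pair, hf.pair'] at this
      linear_combination this
    refine ⟨a, ha0, ha, fun c hc => ?_⟩
    have := hsm _ H (c / κ) (by rw [map_div₀, h3, eq_neg_of_add_eq_zero_right hc, neg_div_neg_eq])
    rwa [smul_smul, div_mul_cancel₀ _ h0] at this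
  set b := S a with hb
  let P : X → X →ₗ[F] X := fun b => (C.flip a).smulRight b + (C.flip b).smulRight a
  have h3 : ∀ c : F, c + σ c = 0 → c • P b + (c * c * C b a) • (C.flip a).smulRight a ∈ N :=
    fun c hc => by
      convert N.sub_mem hS (hcj S hS _ (hC.uRefl_mem_USG ha hc)) using 1
      ext x
      have := hsk S hS x a
      simp only [P, uRefl_inv_of_isotropic ha, uRefl_apply_of_isotropic ha, LinearMap.add_apply,
        LinearMap.smul_apply, LinearMap.smulRight_apply, LinearMap.flip_apply, LinearMap.sub_apply,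
        LinearMap.comp_apply, LinearEquiv.coe_coe, map_add, map_smul, ← hb,
        eq_neg_of_add_eq_zero_left this]
      module
  obtain ⟨θ, hθ0, hθ⟩ := hC.exists_trace_zero
  by_cases hq2 : q = 2
  swap
  · obtain ⟨ν, h4, h5, h6⟩ := hq.exists_fixed_ne hq2
    refine ⟨(ν * ν - ν) * (θ * θ * C b a), by simp [h5, hθ0, hβ, sub_eq_zero, h6], ?_⟩
    convert N.sub_mem (h3 (ν * θ) (by simp [h4, hθ])) (hsm _ (h3 θ (by simp [hθ])) ν h4) using 1
    module
  obtain ⟨f, hf⟩ := hC.exists_partner_of_ne ha (y := b) fun e => hβ (hC.eq_zero_symm e)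
  obtain ⟨f', hf⟩ := hf
  obtain ⟨e, he, he'⟩ := hC.exists_perp_nonisotropic (hC.disjoint_span_pair ha hf.1 hf.2)
    (by rw [hC.finrank_span_pair ha hf.1 hf.2]; omega)
  obtain ⟨h4, h5⟩ := mem_uPerp_span_pair.1 he
  have h6 : C b e = 0 := by
    have : f ≠ 0 := by rintro rfl; simp [ha] at hf
    simpa [h4, this] using h5
  have h7 : ∀ τ s : F, s + σ s + τ * σ τ * C e e = 0 → θ • (P (s • C b a • a - τ • C b a • e)) ∈ N :=
    fun τ s hs => by
      have h8 := hC.uEich0 ha (u := τ • e) (by simp [hC.eq_zero_symm h4])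
      have h9 := hC.uEich_mem h8 (s := s) (by simp; linear_combination hs)
      convert N.sub_mem (hcj _ (h3 θ (by simp [hθ])) _ h9) (h3 θ (by simp [hθ])) using 1
      ext x
      simp only [P, LinearMap.add_apply, LinearMap.smul_apply, LinearMap.smulRight_apply,
        LinearMap.flip_apply, LinearMap.sub_apply, LinearMap.comp_apply, LinearEquiv.coe_coe,
        map_add, map_smul, LinearEquiv.coe_inv, ← UG_apply_right h9.1, h8.apply_self]
      simp only [h8.apply s b, map_add, map_sub, map_smulₛₗ, h6, smul_eq_mul, mul_zero, zero_smul,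
        map_mul, map_zero]
      module
  obtain ⟨r, hr⟩ := hC.exists_ne
  obtain ⟨τ, hτ⟩ := hC.exists_trace_eq (a := -(r + σ r) / C e e) (by
    rw [map_div₀, map_neg, hC.trace_fixed, hC.fixed])
  obtain ⟨s, hs⟩ := hC.exists_trace_eq (a := -C e e) (by rw [map_neg, hC.fixed])
  obtain ⟨s', hs'⟩ := hC.exists_trace_eq (a := -(τ * σ τ * C e e)) (by
    rw [map_neg, map_mul, hC.norm_fixed, hC.fixed])
  have h8 : σ (C b a) = -C b a := by rw [hC.symm]; linear_combination hsk S hS a a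
  refine ⟨θ * (r - σ r) * C b a, by simp [hθ0, hβ, sub_eq_zero, hr.symm], ?_⟩
  convert N.sub_mem (N.sub_mem (h7 (1 + τ) (s + s' + r) (by
    simp only [map_add, map_one]
    field_simp at hτ
    linear_combination hs + hs' + hτ)) (h7 1 s (by simp [hs]))) (h7 τ s' (by simp [hs'])) using 1
  ext x
  simp only [P, LinearMap.add_apply, LinearMap.smul_apply, LinearMap.smulRight_apply,
    LinearMap.flip_apply, LinearMap.sub_apply, map_add, map_sub, map_smulₛₗ, h8, map_one,
    smul_eq_mul]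
  module

end IsHerm

namespace UTen

theorem eq_top_of_pure [Finite F] (h : UTen C D B t) (h1 : 2 ≤ finrank F X) (h2 : 2 ≤ finrank F U)
    {W : Submodule F V} (H : ∀ a u, a ≠ 0 → u ≠ 0 → C a a = 0 → D u u = 0 → t a u ∈ W) : W = ⊤ :=
  h.span W fun x w => (h.hC.eq_top_of_isotropic h1 (U := W.comap (t.flip w)) fun a ha =>
    (h.hD.eq_top_of_isotropic h2 (U := W.comap (t a)) fun u hu => by
      by_cases h3 : a = 0
      · simp [h3]
      by_cases h4 : u = 0
      · simp [h4]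
      exact H a u h3 h4 ha hu).ge (trivial : w ∈ ⊤)).ge (trivial : x ∈ ⊤)

theorem USG_le_of_uTv (h : UTen C D B t) (hq : UField σ q) (hM : M ≤ UG B) (h1 : 2 ≤ finrank F X)
    (h2 : 4 ≤ finrank F U) (hT : ∀ a u, C a a = 0 → D u u = 0 → UTv B M (t a u)) :
    USG B ≤ M := by
  have := hq.finite
  have hB := h.hB
  obtain ⟨θ, hθ0, hθ⟩ := h.hC.exists_trace_zero
  have hθ' : θ + σ θ = 0 := by simp [hθ]
  obtain ⟨a, a', ha⟩ := h.hC.exists_uHypPair' h1
  obtain ⟨u, u', hu⟩ := h.hD.exists_uHypPair' (by omega)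
  obtain ⟨w, hw0, hw, h3, h4⟩ := h.hD.exists_isotropic_perp_two h2 u u'
  obtain ⟨w', hw', h5, h6⟩ : ∃ w', UHypPair D w w' ∧ D w' u = 0 ∧ D w' u' = 0 := by
    obtain ⟨y, hy⟩ := h.hD.exists_eq_one hw0
    obtain ⟨w', i, j, k⟩ := h.hD.exists_mem_partner (W := uPerp D (Submodule.span F {u, u'}))
      (z := w) (y := y - D y u' • u - D y u • u')
      (mem_uPerp_span_pair.2 ⟨h.hD.eq_zero_symm h3, h.hD.eq_zero_symm h4⟩)
      (mem_uPerp_span_pair.2 ⟨by simp [hu.left, hu.pair, h.hD.symm],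
        by simp [hu.right, hu.pair', h.hD.symm]⟩) hw (by simp [hy, h3, h4])
    rw [mem_uPerp_span_pair] at i
    exact ⟨w', h.hD.uHypPair hw j k, h.hD.eq_zero_symm i.1, h.hD.eq_zero_symm i.2⟩
  have p1 : UHypPair B (t a u) (t a' u') := hB.uHypPair (by simp [h.form, ha.left])
    (by simp [h.form, ha.right]) (by simp [h.form, ha.pair, hu.pair])
  have p2 : UHypPair B (t a w) (t a' w') := hB.uHypPair (by simp [h.form, ha.left])
    (by simp [h.form, ha.right]) (by simp [h.form, ha.pair, hw'.pair])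
  have d1 := hB.disjoint_span_pair p1.left p1.right p1.pair
  have d2 := hB.disjoint_span_pair p2.left p2.right p2.pair
  have d3 : Submodule.span F {t a w, t a' w'} ≤ uPerp B (Submodule.span F {t a u, t a' u'}) := by
    rw [Submodule.span_le, Set.insert_subset_iff, Set.singleton_subset_iff]
    simp only [SetLike.mem_coe, mem_uPerp_span_pair, h.form, h.hD.eq_zero_symm h3,
      h.hD.eq_zero_symm h4, h.hD.eq_zero_symm h5, h.hD.eq_zero_symm h6, mul_zero, and_self]
  have y1 : t a w ∈ uYsub hB M p1.left := fun c => by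
    have := hB.smul_mem_uYadd p1.left (u := t a ((c / θ) • w)) (by simp [h.form, ha.left])
      (by simp [h.form, ha.left]) hθ' (by
        rw [← map_add]
        exact hT _ _ ha.left (by simp [hw, hu.left, h3, h.hD.eq_zero_symm h3]) θ hθ')
      (hT _ _ ha.left (by simp [hw]) θ hθ')
    rwa [map_smul, smul_smul, mul_div_cancel₀ _ hθ0] at this
  have y2 : t a' w' ∈ uYsub hB M p1.left := by
    have := Submodule.sub_mem _ (hB.uYsub_map' hM y1 (hT a' w' ha.right hw'.right θ hθ')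
      (uRefl_apply_of_perp _ (by simp [h.form, h.hD.eq_zero_symm h5]))) y1
    rw [uRefl_apply_of_isotropic p2.right, p2.pair, mul_one, add_sub_cancel_left] at this
    exact (Submodule.smul_mem_iff _ hθ0).1 this
  refine hB.USG_le_of_USub hq hM (fun W hW => ?_) (hB.disjoint_sup d1 d2 d3) (by
    rw [hB.finrank_sup_of_perp d1 d3, hB.finrank_span_pair p1.left p1.right p1.pair,
      hB.finrank_span_pair p2.left p2.right p2.pair]; omega)
    (hB.uSub_of_uEich hq hM (hB.disjoint_sup d1 d2 d3) (hz := p1.left)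
      (Submodule.mem_sup_left (Submodule.subset_span (by simp))) (hT a u ha.left hu.left)
      (fun y hy hy' => ?_) (w := t a' u') (Submodule.mem_sup_left (Submodule.subset_span (by simp)))
      p1.right hθ0 (hT _ _ ha.right hu.right θ hθ') (by simp [p1.pair]))
  · have h7 : ∀ a u, C a a = 0 → D u u = 0 → t a u ∈ W ∨ ∀ x ∈ W, B x (t a u) = 0 :=
      fun a u i j => u_mem_or_perp hθ0 (by simp [h.form, i]) (hW _ (hT a u i j θ hθ')
        ⟨t a u, t a u, fun x hx _ => uRefl_apply_of_perp _ hx⟩)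
    by_cases h8 : ∃ a u, a ≠ 0 ∧ u ≠ 0 ∧ C a a = 0 ∧ D u u = 0 ∧ t a u ∈ W
    · obtain ⟨a, u, i1, i2, i3, i4, i5⟩ := h8
      have h9 : ∀ a u b v, t a u ∈ W → C b b = 0 → D v v = 0 → C a b ≠ 0 → D u v ≠ 0 → t b v ∈ W :=
        fun a u b v j1 j2 j3 j4 j5 => (h7 b v j2 j3).resolve_right fun H => by
          simpa [h.form, j4, j5] using H _ j1
      refine Or.inr (h.eq_top_of_pure h1 (by omega) fun b v j1 j2 j3 j4 => ?_)
      obtain ⟨x, k1, k2, k3⟩ := h.hC.exists_isotropic_two i1 j1 i3 j3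
      obtain ⟨y, l1, l2, l3⟩ := h.hD.exists_isotropic_two i2 j2 i4 j4
      exact h9 x y b v (h9 a u x y i5 k1 l1 k2 l2) j3 j4 (mt h.hC.eq_zero_symm k3)
        (mt h.hD.eq_zero_symm l3)
    · push Not at h8
      refine Or.inl (le_bot_iff.1 (hB.uPerp_top ▸ hB.le_uPerp_comm.1 ?_))
      exact (h.eq_top_of_pure (W := uPerp B W) h1 (by omega) fun b v j1 j2 j3 j4 =>
        (h7 b v j3 j4).resolve_left (h8 b v j1 j2 j3 j4)).ge
  · obtain ⟨y, i, y', j, rfl⟩ := Submodule.mem_sup.1 hy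
    obtain ⟨c₁, c₂, rfl⟩ := Submodule.mem_span_pair.1 i
    obtain ⟨c₃, c₄, rfl⟩ := Submodule.mem_span_pair.1 j
    have : c₂ = 0 := by simpa [h.form, ha.left, ha.pair', hu.pair', h3, h5] using hy'
    rw [this, zero_smul, add_zero]
    exact add_mem (hB.smul_self_mem_uYadd p1.left c₁) (add_mem (y1 c₃) (y2 c₄))

theorem r1 (h : UTen C D B t) (hq : UField σ q) (hM : M ≤ UG B) (h1 : 2 ≤ finrank F X)
    (h2 : ¬ (finrank F X = 2 ∧ q = 2)) (h3 : 3 ≤ finrank F U) (hL : URight C t.flip M)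
    (hR : URight D t M) (hT : ¬ ∀ a u, C a a = 0 → D u u = 0 → UTv B M (t a u)) {u : U}
    (hu0 : u ≠ 0) (hu : D u u = 0) : h.R1 M u := fun S hS => by
  by_contra hns
  let N : AddSubgroup (X →ₗ[F] X) :=
    { carrier := {S | UHas M (h.zE u S)}
      add_mem' := fun a b => (a.comp b).congr fun v => by simp [zE, hu]; abel
      zero_mem' := ⟨1, M.one_mem, fun v => by simp [zE]⟩
      neg_mem' := fun a => UHas.div (L := id) ⟨1, M.one_mem, fun _ => rfl⟩ a fun v => by
        simp [zE, hu] }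
  have h4 : ∀ S ∈ N, ∀ u', u' ≠ 0 → D u' u' = 0 → UHas M (h.zE u' S) := fun S hS u' i j => by
    obtain ⟨b, hb, rfl⟩ := h.hD.exists_USG_isotropic h3 hu0 hu i j
    obtain ⟨g, hg, H⟩ := hR b hb
    exact (UHas.conj hS hg).congr fun v => by
      simp only [zE, map_add, u_apply_inv, H, h.pi_of_eq (hM hg) (fun x => H x u)]
  obtain ⟨f, hf⟩ := h.hD.exists_uHypPair hu0 hu
  obtain ⟨a, ha0, ha, H⟩ := h.hC.exists_rank_one hq h1 h2 N (fun S ⟨g, hg, H⟩ x y => by
      have := UG_map (hM hg) (t x f) (t y f)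
      simp [H, zE, h.form, hf.pair, hf.pair', hu] at this
      linear_combination this)
    (fun S hS c hc => by
      obtain ⟨μ, rfl⟩ := hq.exists_norm_eq hc
      by_cases h0 : μ = 0
      · simp [h0]
      exact (h4 S hS (μ • u) (smul_ne_zero h0 hu0) (by simp [hu])).congr fun v => by
        simp [zE, pi_smul, smul_smul])
    (fun S hS k hk => by
      obtain ⟨g, hg, H⟩ := hL k hk
      simp only [LinearMap.flip_apply] at H
      refine (UHas.conj hS hg).congr fun v => ?_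
      have : h.pi u (g⁻¹ v) = k⁻¹ (h.pi u v) := h.hC.ext_left fun x => by
        simp [← UG_apply_right (hM hg), ← UG_apply_right hk.1, H]
      simp only [zE, map_add, u_apply_inv, H, this, LinearMap.comp_apply, LinearEquiv.coe_coe])
    hS hns
  refine hT fun a' u' i j => ?_
  by_cases h5 : a' = 0 ∨ u' = 0
  · intro c _
    rw [show t a' u' = 0 by rcases h5 with e | e <;> simp [e], uRefl_zero_left]
    exact M.one_mem
  push Not at h5
  have h6 : UTv B M (t a u') := fun c hc => by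
    obtain ⟨g, hg, H'⟩ := h4 _ (H c hc) u' h5.2 j
    convert hg using 1
    ext v
    simp [H', zE, uRefl_apply_of_isotropic (show B (t a u') (t a u') = 0 by simp [h.form, ha]),
      mul_smul]
  obtain ⟨k, hk, c, hc, e⟩ := h.hC.exists_USG_isotropic_smul ha0 ha h5.1 i
  obtain ⟨g, hg, H'⟩ := hL k hk
  have := (h6.map hM hg).smul h.hB c⁻¹
  rwa [show g (t a u') = _ from H' u' a, e, LinearMap.flip_apply, map_smul, LinearMap.smul_apply,
    inv_smul_smul₀ hc] at this

variable {ι : Type*} [Fintype ι] [DecidableEq ι] {e : ι → U}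

/-- The form attached to the exchange of the first factors. -/
noncomputable def d0 (h : UTen C D B t) (e : ι → U) (x y z w : V) : F :=
  ∑ i, ∑ j, C (h.pi (e j) y) (h.pi (e i) z) * C (h.pi (e i) x) (h.pi (e j) w)

theorem quad4_d0 (h : UTen C D B t) : Quad4 σ (h.d0 e) where
  a₁ _ _ _ _ _ := by simp only [d0, map_add, LinearMap.add_apply, mul_add, Finset.sum_add_distrib]
  a₂ _ _ _ _ _ := by simp only [d0, map_add, LinearMap.add_apply, add_mul, Finset.sum_add_distrib]
  a₃ _ _ _ _ _ := by simp only [d0, map_add, add_mul, Finset.sum_add_distrib]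
  a₄ _ _ _ _ _ := by simp only [d0, map_add, mul_add, Finset.sum_add_distrib]
  s _ _ _ _ _ _ _ _ := by
    simp only [d0, map_smul, map_smulₛₗ, LinearMap.smul_apply, smul_eq_mul, Finset.mul_sum]
    exact Finset.sum_congr rfl fun _ _ => Finset.sum_congr rfl fun _ _ => by ring

theorem d0_right (h : UTen C D B t) (he : UFrame D e) (x y : V) (c d : X) (r s : U) :
    h.d0 e x y (t c r) (t d s) = B x (t d r) * B y (t c s) := by
  conv_rhs => rw [he.expand r, he.expand s]
  simp only [d0, pi_t, map_smulₛₗ, pi_left, map_sum, RingHom.id_apply, Finset.sum_mul_sum,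
    smul_eq_mul]
  exact Finset.sum_congr rfl fun _ _ => Finset.sum_congr rfl fun _ _ => by ring

theorem d0_left (h : UTen C D B t) (he : UFrame D e) (z w : V) (a b : X) (u v : U) :
    h.d0 e (t a u) (t b v) z w = B (t b u) z * B (t a v) w := by
  conv_rhs => rw [he.expand u, he.expand v]
  simp only [d0, pi_t, map_smul, pi_right, map_sum, LinearMap.sum_apply, LinearMap.smul_apply,
    Finset.sum_mul_sum, smul_eq_mul]
  exact Finset.sum_congr rfl fun _ _ => Finset.sum_congr rfl fun _ _ => by ring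

theorem closure_frame (h : UTen C D B t) (he : UFrame D e) :
    AddSubmonoid.closure {v | ∃ a i, v = t a (e i)} = ⊤ := eq_top_iff.2 fun v _ => by
  rw [show v = ∑ i, t (h.pi (e i) v) (e i) from h.ext (L := LinearMap.id)
    (L' := ∑ i, t.flip (e i) ∘ₗ h.pi (e i)) (fun x u => by
      conv_lhs => rw [he.expand u]
      simp) v |>.trans (by simp)]
  exact sum_mem fun i _ => AddSubmonoid.subset_closure ⟨_, i, rfl⟩

theorem d0_map (h : UTen C D B t) (he : UFrame D e) {g : V ≃ₗ[F] V} (hg : g ∈ UG B)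
    (hg' : g ∈ uTenStab t) (x y z w : V) : h.d0 e (g x) (g y) (g z) (g w) = h.d0 e x y z w := by
  obtain ⟨k, b, H⟩ := hg'
  refine sub_eq_zero.1 (((h.quad4_d0.comp (g : V →ₗ[F] V)).sub h.quad4_d0).eq_zero
    (h.closure_frame he) ?_ x y z w)
  rintro x - y - _ ⟨c, i, rfl⟩ _ ⟨d, j, rfl⟩
  rw [LinearEquiv.coe_coe, H, H, h.d0_right he, h.d0_right he, ← H, ← H, UG_map hg, UG_map hg,
    sub_self]

theorem exists_of_d0 (h : UTen C D B t) [Nontrivial X] (he : UFrame D e) {g : V ≃ₗ[F] V}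
    (hg : g ∈ UG B) (H : ∀ x y z w, h.d0 e (g x) (g y) (g z) (g w) = h.d0 e x y z w) {u : U}
    (hu0 : u ≠ 0) (hu : D u u = 0) :
    ∃ u', u' ≠ 0 ∧ D u' u' = 0 ∧ ∃ k : X ≃ₗ[F] X, ∀ x, g (t x u) = t (k x) u' := by
  obtain ⟨x₀, hx⟩ := exists_ne (0 : X)
  obtain ⟨d, r, h1⟩ : ∃ d r, B (g (t x₀ u)) (t d r) = 1 := by
    obtain ⟨d, r, h1⟩ : ∃ d r, B (g (t x₀ u)) (t d r) ≠ 0 := by
      by_contra! e
      exact h.t_ne_zero hx hu0 (by simpa using h.eq_of (v := g (t x₀ u)) (v' := 0) (by simpa using e))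
    exact ⟨σ (B (g (t x₀ u)) (t d r))⁻¹ • d, r, by simp [h.hC.invol, h1]⟩
  let κ := h.pi r ∘ₗ (g : V →ₗ[F] V) ∘ₗ t.flip u
  have h2 : ∀ x, g (t x u) = t (κ x) (h.swap.pi d (g (t x₀ u))) := fun x => h.eq_of fun c s => by
    have := H (t x₀ u) (t x u) (g⁻¹ (t c r)) (g⁻¹ (t d s))
    rw [u_apply_inv, u_apply_inv, h.d0_right he, h.d0_left he, h1, one_mul, LinearEquiv.coe_inv,
      ← UG_apply_left hg, ← UG_apply_left hg] at this
    rw [this, h.form, h.swap.pi_left]
    simp [κ]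
  have h3 : Function.Injective κ := (injective_iff_map_eq_zero κ).2 fun x e => by
    by_contra h0
    exact h.t_ne_zero h0 hu0 (by simpa [e] using h2 x)
  refine ⟨_, fun e => h.t_ne_zero hx hu0 (by simpa [e] using h2 x₀), ?_,
    LinearEquiv.ofInjectiveEndo κ h3, h2⟩
  obtain ⟨y, hy⟩ := h.hC.exists_eq_one (x := κ x₀) (by simpa using h3.ne hx)
  obtain ⟨y, rfl⟩ := LinearMap.injective_iff_surjective.1 h3 y
  have := UG_map hg (t x₀ u) (t y u)
  rwa [h2 y, h.form x₀, hu, mul_zero, congrArg (fun v => B v _) (h2 x₀), h.form, hy, one_mul]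
    at this

theorem eq_zero_of_invariant [Finite F] (h : UTen C D B t) (he : UFrame D e)
    (h4 : 4 ≤ Fintype.card ι) {d : V → V → V → V → F} (hd : Quad4 σ d)
    (hi : ∀ b ∈ USG D, ∀ a₁ a₂ a₃ a₄ u₁ u₂ u₃ u₄, d (t a₁ (b u₁)) (t a₂ (b u₂)) (t a₃ (b u₃))
      (t a₄ (b u₄)) = d (t a₁ u₁) (t a₂ u₂) (t a₃ u₃) (t a₄ u₄))
    (h0 : ∀ u, u ≠ 0 → D u u = 0 → ∀ x y z w, h.pi u x = 0 → h.pi u y = 0 → h.pi u z = 0 →
      h.pi u w = 0 → d x y z w = 0) (x y z w : V) : d x y z w = 0 := by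
  refine hd.eq_zero (h.closure_frame he) ?_ x y z w
  rintro _ ⟨a₁, i, rfl⟩ _ ⟨a₂, j, rfl⟩ _ ⟨a₃, k, rfl⟩ _ ⟨a₄, l, rfl⟩
  by_contra hne
  obtain ⟨c, hc, hc'⟩ := h.hC.exists_norm_one_ne
  have hσ := h.hC.invol
  have hc1 : c ≠ 1 := fun e => hc' (by simp [e])
  have hc2 : c * c ≠ 1 := fun e => hc' (by linear_combination c * hc - σ c * e)
  have hσc : σ c * σ (σ c) = 1 := by rw [hσ, mul_comm, hc]
  have key : ∀ m m', m ≠ m' → ∃ χ : ι → F, χ m = c ∧ χ m' = σ c ∧ (∀ n, n ≠ m → n ≠ m' → χ n = 1) ∧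
      (∀ n, χ n * σ (χ n) = 1) ∧ χ i * χ j * σ (χ k) * σ (χ l) = 1 := fun m m' hm => by
    let χ : ι → F := fun n => if n = m then c else if n = m' then σ c else 1
    have h1 : ∀ n, (uRefl D (e m) (c - 1) * uRefl D (e m') (σ c - 1)) (e n) = χ n • e n := fun n => by
      simp only [LinearEquiv.mul_apply, (uRefl_unit (he.unit m) hc).apply,
        (uRefl_unit (he.unit m') hσc).apply, χ, map_add, map_smul, LinearMap.add_apply,
        LinearMap.smul_apply, he.orth]
      split_ifs with i1 i2 i3 <;> simp_all [sub_smul]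
    have h2 := hi _ (mem_USG.2 ⟨mul_mem (h.hD.uRefl_mem (uRefl_unit (he.unit m) hc))
      (h.hD.uRefl_mem (uRefl_unit (he.unit m') hσc)), Units.ext (by
        rw [map_mul, Units.val_mul, det_uRefl_unit (he.unit m) hc, det_uRefl_unit (he.unit m') hσc,
          hc, Units.val_one])⟩) a₁ a₂ a₃ a₄ (e i) (e j) (e k) (e l)
    simp only [h1, map_smul, hd.s] at h2
    refine ⟨χ, by simp [χ], by simp [χ, hm.symm], fun n i1 i2 => by simp [χ, i1, i2], fun n => ?_,
      (mul_eq_right₀ hne).1 h2⟩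
    simp only [χ]
    split_ifs <;> simp [hc, hσc]
  have ex : ∀ a b c : ι, ∃ m, m ≠ a ∧ m ≠ b ∧ m ≠ c := fun a b c => by
    by_contra! H
    have h1 := Finset.card_le_card (fun x _ => by simpa [or_iff_not_imp_left] using H x :
      Finset.univ ⊆ ({a, b, c} : Finset ι))
    have h2 := Finset.card_le_three (a := a) (b := b) (c := c)
    rw [Finset.card_univ] at h1
    omega
  have two : ∀ a b : ι, ∃ u, u ≠ 0 ∧ D u u = 0 ∧ D (e a) u = 0 ∧ D (e b) u = 0 := fun a b => by
    obtain ⟨m, i1, i2, -⟩ := ex a b a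
    obtain ⟨m', j1, j2, j3⟩ := ex a b m
    obtain ⟨s, -, hs⟩ := h.hD.exists_isotropic_of_orthogonal (p := e m) (r := e m')
      (by simp [he.unit]) (by simp [he.unit]) (by simp [he.orth, j3.symm])
    exact ⟨_, fun e' => by simpa [he.orth, j3] using congrArg (fun x => D x (e m)) e', hs,
      by simp [he.orth, i1.symm, j1.symm], by simp [he.orth, i2.symm, j2.symm]⟩
  by_cases hik : i = k
  · subst hik
    by_cases hjl : j = l
    · subst hjl
      obtain ⟨u, i1, i2, i3, i4⟩ := two i j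
      exact hne (h0 u i1 i2 _ _ _ _ (by simp [i3]) (by simp [i4]) (by simp [i3]) (by simp [i4]))
    · obtain ⟨χ, i1, i2, -, i4, i5⟩ := key j l hjl
      rw [i1, i2, hσ] at i5
      exact hc2 (by linear_combination i5 - c * c * i4 i)
  by_cases hil : i = l
  · subst hil
    by_cases hjk : j = k
    · subst hjk
      obtain ⟨u, i1, i2, i3, i4⟩ := two i j
      exact hne (h0 u i1 i2 _ _ _ _ (by simp [i3]) (by simp [i4]) (by simp [i4]) (by simp [i3]))
    · obtain ⟨χ, i1, i2, -, i4, i5⟩ := key j k hjk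
      rw [i1, i2, hσ] at i5
      exact hc2 (by linear_combination i5 - c * c * i4 i)
  by_cases hjk : j = k
  · subst hjk
    obtain ⟨χ, i1, i2, -, i4, i5⟩ := key i l hil
    rw [i1, i2, hσ] at i5
    exact hc2 (by linear_combination i5 - c * c * i4 j)
  by_cases hjl : j = l
  · subst hjl
    obtain ⟨χ, i1, i2, -, i4, i5⟩ := key i k hik
    rw [i1, i2, hσ] at i5
    exact hc2 (by linear_combination i5 - c * c * i4 j)
  by_cases hij : i = j
  · subst hij
    obtain ⟨m, j1, j2, j3⟩ := ex i k l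
    obtain ⟨χ, i1, -, i3, -, i5⟩ := key i m j1.symm
    rw [i1, i3 k (Ne.symm hik) j2.symm, i3 l (Ne.symm hil) j3.symm] at i5
    exact hc2 (by simpa using i5)
  by_cases hkl : k = l
  · subst hkl
    obtain ⟨m, j1, j2, j3⟩ := ex i j k
    obtain ⟨χ, i1, -, i3, -, i5⟩ := key i m j1.symm
    rw [i1, i3 j (Ne.symm hij) j2.symm, i3 k (Ne.symm hik) j3.symm] at i5
    exact hc1 (by simpa using i5)
  obtain ⟨χ, i1, i2, i3, -, i5⟩ := key i k hik
  rw [i1, i2, hσ, i3 j (Ne.symm hij) hjk, i3 l (Ne.symm hil) (Ne.symm hkl)] at i5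
  exact hc2 (by simpa using i5)

end UTen

end Cfsg.Agent.Cl
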