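import Mathlib
import Cfsg.Agent.Cl.MaxSUTenB
import Cfsg.Agent.Cl.MaxUnits
import Cfsg.Agent.Cl.MaxSUC1

/-!
# Overgroups of `SU(X) ∘ SU(U)` in `SU(X ⊗ U)`, III

Maximality of the stabiliser of a tensor decomposition, by the transfer of a form in four
variables.
-/

set_option autoImplicit false
set_option linter.unusedSectionVars false

namespace Cfsg.Agent.Cl

open Module

variable {F : Type*} [Field F] {σ : F →+* F} {V : Type*} [AddCommGroup V] [Module F V]
  [FiniteDimensional F V] {B : V →ₗ[F] V →ₛₗ[σ] F} {M : Subgroup (V ≃ₗ[F] V)}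
  {X : Type*} [AddCommGroup X] [Module F X] [FiniteDimensional F X] {C : X →ₗ[F] X →ₛₗ[σ] F}
  {U : Type*} [AddCommGroup U] [Module F U] [FiniteDimensional F U] {D : U →ₗ[F] U →ₛₗ[σ] F}
  {t : X →ₗ[F] U →ₗ[F] V} {q : ℕ}

namespace UTen

variable {ι : Type*} [Fintype ι] [DecidableEq ι] {e : ι → U}

/-- The transfer: it suffices that `1 ⊗ T_u` acts freely on the non-trivial cosets. -/
theorem d0_map_of_free (h : UTen C D B t) (hq : UField σ q) (he : UFrame D e)
    (h4 : 4 ≤ Fintype.card ι) (hR : URight D t M) {H : Subgroup (V ≃ₗ[F] V)}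
    (hH : ∀ g ∈ M, g ∈ H → ∀ x y z w, h.d0 e (g x) (g y) (g z) (g w) = h.d0 e x y z w)
    (hH' : uTenStab t ≤ H)
    (hf : ∀ u, u ≠ 0 → D u u = 0 → ∀ s : F, s ≠ 0 → ∀ a g : V ≃ₗ[F] V, g ∈ M →
      (∀ v, a v = h.zE u (s • ·) v) → g * a * g⁻¹ ∈ H → g ∈ H)
    {g : V ≃ₗ[F] V} (hg : g ∈ M) (x y z w : V) :
    h.d0 e (g x) (g y) (g z) (g w) = h.d0 e x y z w := by
  have := hq.finite
  have := u_finite_linearEquiv (F := F) (V := V)
  have := u_finite_linearEquiv (F := F) (V := U)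
  have := Fintype.ofFinite (M ⧸ H.subgroupOf M)
  let d : V × V × V × V → F := fun ω => h.d0 e ω.1 ω.2.1 ω.2.2.1 ω.2.2.2
  have hd : ∀ k ∈ H.subgroupOf M, ∀ ω, d (k • ω) = d ω := fun k hk ω => hH k k.2 hk _ _ _ _
  have h1 : ∀ x y z w, trSum (H.subgroupOf M) d (x, y, z, w) - h.d0 e x y z w = 0 := by
    refine h.eq_zero_of_invariant he h4 ((Quad4.sum fun c : M ⧸ H.subgroupOf M =>
      h.quad4_d0.comp ((c.out⁻¹ : M) : V ≃ₗ[F] V).toLinearMap).sub h.quad4_d0)
      (fun b hb _ _ _ _ _ _ _ _ => ?_) fun u hu0 hu x y z w hx hy hz hw => sub_eq_zero.2 ?_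
    · obtain ⟨k, hk, e⟩ := hR b hb
      simp only [← e]
      rw [hH k hk (hH' ⟨1, b, e⟩)]
      exact congrArg (· - _) (trSum_smul hd ⟨k, hk⟩ (_, _, _, _))
    choose a ha ha' using fun b : uTvGroup D hu => hR b (h.hD.uTvGroup_le hu b.2)
    let α : uTvGroup D hu →* M := MonoidHom.mk' (fun b => ⟨a b, ha b⟩) fun b b' =>
      Subtype.ext (LinearEquiv.ext (h.ext (L := (a (b * b')).toLinearMap)
        (L' := (a b * a b').toLinearMap) fun x w => by simp [ha']))
    have h2 : ∀ b : uTvGroup D hu, ∃ s : F, b.1 = uRefl D u s ∧ ∀ v, a b v = h.zE u (s • ·) v :=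
      fun b => by
        obtain ⟨s, -, e⟩ := b.2
        exact ⟨s, e, h.ext (L := a b) (L' := LinearMap.id + t.flip u ∘ₗ (s • h.pi u)) fun x w => by
          simp [ha', e, uRefl_apply_of_isotropic hu, smul_smul]⟩
    have := Fintype.ofFinite (uTvGroup D hu)
    refine trSum_eq hd α (fun b => hH' ⟨1, b, ha' b⟩) (fun b hb k hk => ?_) fun k _ => ?_
    · obtain ⟨s, e, e'⟩ := h2 b
      exact hf u hu0 hu s (fun e'' => hb (Subtype.ext (by rw [e, e'', uRefl_zero_right]; rfl)))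
        _ k k.2 e' hk
    · have h3 : ∀ b, α b • (x, y, z, w) = (x, y, z, w) := fun b => by
        obtain ⟨s, -, e⟩ := h2 b
        change (a b x, a b y, a b z, a b w) = _
        simp [e, zE, hx, hy, hz, hw]
      simp only [h3, Finset.sum_const, Finset.card_univ, ← Nat.card_eq_fintype_card,
        h.hD.card_uTvGroup hq hu0 hu, nsmul_eq_mul, hq.cast_eq_zero, zero_mul]
  rw [← sub_eq_zero.1 (h1 _ _ _ _), ← sub_eq_zero.1 (h1 _ _ _ _)]
  exact trSum_smul hd ⟨g, hg⟩ (_, _, _, _)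

theorem le_uTenStab (h : UTen C D B t) (hq : UField σ q) (h1 : 2 ≤ finrank F X)
    (h2 : ¬ (finrank F X = 2 ∧ q = 2)) (hlt : finrank F X < finrank F U) (h4 : 4 ≤ finrank F U)
    (hM : M ≤ UG B) (hL : URight C t.flip M) (hR : URight D t M) (hne : ¬ USG B ≤ M) :
    M ≤ uTenStab t := fun g hg => by
  have := hq.finite
  have : Nontrivial X := Module.nontrivial_of_finrank_pos (R := F) (by omega)
  have key : ∀ g ∈ M, ∀ u, D u u = 0 → (∃ u', u' ≠ 0 ∧ D u' u' = 0 ∧ ∃ k : X ≃ₗ[F] X,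
      ∀ x, g (t x u) = t (k x) u') → g ∈ uTenStab t := fun g hg u hu ⟨u', i, j, k, H⟩ =>
    h.mem_uTenStab k (h.rigid (h.map (hM hg)) h4 hR (hR.map hg) (fun u => h.r1 hq hM h1 h2
      (by omega) hL hR fun H => hne (h.USG_le_of_uTv hq hM h1 h4 H)) i j hu k H)
  obtain ⟨e, he⟩ := h.hD.exists_uFrame
  obtain ⟨u, f, hu⟩ := h.hD.exists_uHypPair' (by omega)
  exact key g hg u hu.left (h.exists_of_d0 he (hM hg) (h.d0_map_of_free hq he (by simpa) hR
    (fun g hg => h.d0_map he (hM hg)) le_rfl (fun u i j s hs a g hg ha H =>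
      key g hg u j (h.exists_of_conj hlt i j hs (hM hg) ha H)) hg) hu.left_ne_zero hu.left)

theorem not_USG_le [Finite F] (h : UTen C D B t) (h1 : 2 ≤ finrank F X) (h2 : 2 ≤ finrank F U) :
    ¬ USG B ≤ uTenStab t := fun H => by
  obtain ⟨θ, hθ0, hθ⟩ := h.hC.exists_trace_zero
  obtain ⟨a, a', ha⟩ := h.hC.exists_uHypPair' h1
  obtain ⟨u, u', hu⟩ := h.hD.exists_uHypPair' h2
  have h3 : B (t a u) (t a u) = 0 := by simp [h.form, ha.left]
  obtain ⟨k, b, H⟩ := H (h.hB.uRefl_mem_USG h3 (c := θ) (by simp [hθ]))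
  have h4 := congrArg (h.pi u) (H a' u')
  have h5 := congrArg (h.pi u') (H a' u')
  simp only [uRefl_apply_of_isotropic h3, h.form, ha.pair', hu.pair', map_add, map_smul, pi_t,
    hu.left, hu.right, hu.pair, mul_one, one_smul, zero_smul, smul_zero, add_zero, zero_add]
    at h4 h5
  have h6 := congrArg (fun x => C x a') h4
  have h7 := congrArg (fun x => C x a') h5
  have h8 := congrArg (fun x => C x a) h4
  simp only [map_smul, LinearMap.smul_apply, smul_eq_mul, ha.right, ha.pair, ha.pair'] at h6 h7 h8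
  rcases mul_eq_zero.1 h6.symm with e | e
  · simp [e] at h8
  · simp [e, hθ0] at h7

theorem uMax (h : UTen C D B t) (hq : UField σ q) (h1 : 2 ≤ finrank F X)
    (h2 : ¬ (finrank F X = 2 ∧ q = 2)) (hlt : finrank F X < finrank F U) (h4 : 4 ≤ finrank F U) :
    UMax B (uTenStab t) :=
  have := hq.finite
  ⟨h.not_USG_le h1 (by omega), fun _ i j k => by_contra fun hne => k
    (h.le_uTenStab hq h1 h2 hlt h4 (fun _ hg => (j hg).1) (h.uLeft i) (h.uRight i) hne)⟩

end UTen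

open Matrix Cfsg.Geo
open scoped Kronecker

variable {κ : Type} [Fintype κ] [DecidableEq κ] {f : (κ → F) → (κ → F) → F}

/-- A unitary form as a sesquilinear map. -/
def UField.toS (hq : UField σ q) (hf : IsUnitaryFormPow q f) :
    (κ → F) →ₗ[F] (κ → F) →ₛₗ[σ] F :=
  LinearMap.mk₂'ₛₗ (RingHom.id F) σ f hf.add_left hf.smul_left
    (fun x y z => by rw [hf.herm, hf.add_left, hf.herm x y, hf.herm x z, ← hq.pow, ← hq.pow,
      ← hq.pow, map_add])
    fun c x y => by rw [hf.herm, hf.smul_left, hf.herm x y, ← hq.pow, ← hq.pow, map_mul,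
      smul_eq_mul]

theorem UField.isHerm_toS (hq : UField σ q) (hf : IsUnitaryFormPow q f) : IsHerm (hq.toS hf) :=
  ⟨hq.invol, fun x y => (hq.pow _).trans (hf.herm y x).symm, fun x hx => by_contra fun h0 =>
    (hf.nondegenerate x h0).2.elim fun y hy => hy (hx y)⟩

theorem UField.toS_eq_sum (hq : UField σ q) (hf : IsUnitaryFormPow q f) (x y : κ → F) :
    hq.toS hf x y = ∑ i, ∑ j, x i * gramMatrix f i j * σ (y j) := by
  conv_lhs => rw [pi_eq_sum_univ' x, pi_eq_sum_univ' y]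
  simp only [map_sum, LinearMap.sum_apply, map_smul, map_smulₛₗ, LinearMap.smul_apply, smul_eq_mul,
    Finset.mul_sum]
  rw [Finset.sum_comm]
  exact Finset.sum_congr rfl fun i _ => Finset.sum_congr rfl fun j _ => by
    change σ _ * (_ * f _ _) = _ * f _ _ * _
    ring

variable {n n₁ n₂ : ℕ}

/-- The bilinear map attached to a tensor decomposition. -/
def uTenMap (e : Fin n ≃ Fin n₁ × Fin n₂) (P : GL (Fin n) F) :
    (Fin n₁ → F) →ₗ[F] (Fin n₂ → F) →ₗ[F] (Fin n → F) :=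
  LinearMap.mk₂ F (fun w u => Max.trV e P fun p => w p.1 * u p.2)
    (fun a b u => by rw [← map_add]; congr 1; ext p; simp [add_mul])
    (fun c a u => by rw [← map_smul]; congr 1; ext p; simp [mul_assoc])
    (fun a u v => by rw [← map_add]; congr 1; ext p; simp [mul_add])
    (fun c a u => by rw [← map_smul]; congr 1; ext p; simp [mul_left_comm])

theorem UField.exists_uTen (hq : UField σ q) (h2 : 0 < n₂) {e : Fin n ≃ Fin n₁ × Fin n₂}
    {P : GL (Fin n) F} {f₁ : (Fin n₁ → F) → (Fin n₁ → F) → F}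
    {f₂ : (Fin n₂ → F) → (Fin n₂ → F) → F} (hf₁ : IsUnitaryFormPow q f₁)
    (hf₂ : IsUnitaryFormPow q f₂)
    (hT : IsTensorFormStructure (fun x : F => x ^ q) (hermForm n F q) f₁ f₂ e P) :
    ∃ c : F, UTen (c • hq.toS hf₁) (hq.toS hf₂) (uStd σ (Fin n)) (uTenMap e P) := by
  obtain ⟨c, hc, hT⟩ := hT
  have ht : ∀ w u, uTenMap e P w u = Max.trV e P fun p => w p.1 * u p.2 := fun _ _ => rfl
  have hB := hq.isHerm_uStd (Fin n)
  have form : ∀ x y u v, uStd σ (Fin n) (uTenMap e P x u) (uTenMap e P y v) =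
      (c • hq.toS hf₁) x y * hq.toS hf₂ u v := fun x y u v => by
    rw [← hq.hermForm_eq, ht, ht, Max.trV_apply, Max.trV_apply, hT, LinearMap.smul_apply,
      LinearMap.smul_apply, hq.toS_eq_sum, hq.toS_eq_sum, smul_eq_mul, mul_assoc]
    congr 1
    simp only [formOfGram, Fintype.sum_prod_type, kroneckerMap_apply, ← hq.pow, map_mul]
    rw [Finset.sum_mul_sum]
    refine Finset.sum_congr rfl fun i _ => Finset.sum_congr rfl fun j _ => ?_
    rw [Finset.sum_mul_sum]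
    refine Finset.sum_congr rfl fun k _ => Finset.sum_congr rfl fun l _ => by ring
  obtain ⟨v, hv⟩ := (hq.isHerm_toS hf₂).exists_eq_one (x := Pi.single ⟨0, h2⟩ 1) (by simp)
  refine ⟨c, ⟨hq.invol, fun x y => ?_, fun x hx => (hq.isHerm_toS hf₁).nondeg x fun y => by
    simpa [hc] using hx y⟩, hq.isHerm_toS hf₂, hB, form, fun W H => eq_top_iff.2 fun v _ => ?_, ?_⟩
  · have := hB.symm (uTenMap e P x (Pi.single ⟨0, h2⟩ 1)) (uTenMap e P y v)
    rwa [form, form, hv, (hq.isHerm_toS hf₂).eq_one_symm hv, mul_one, mul_one] at this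
  · obtain ⟨v, rfl⟩ := (Max.trV e P).surjective v
    rw [← Finset.univ_sum_single v, map_sum]
    refine Submodule.sum_mem _ fun p _ => ?_
    convert H (Pi.single p.1 (v p)) (Pi.single p.2 1) using 1
    rw [ht]
    congr 1
    ext r
    by_cases h1 : r.1 = p.1 <;> by_cases h2 : r.2 = p.2 <;>
      simp [Pi.single_apply, Prod.ext_iff, h1, h2]
  · simpa using Fintype.card_congr e

theorem UTen.mem_tensorProductSubgroup_iff {e : Fin n ≃ Fin n₁ × Fin n₂} {P : GL (Fin n) F}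
    {C : (Fin n₁ → F) →ₗ[F] (Fin n₁ → F) →ₛₗ[σ] F} {D : (Fin n₂ → F) →ₗ[F] (Fin n₂ → F) →ₛₗ[σ] F}
    {B : (Fin n → F) →ₗ[F] (Fin n → F) →ₛₗ[σ] F} (h : UTen C D B (uTenMap e P))
    (g : GL (Fin n) F) :
    g ∈ tensorProductSubgroup n₁ n₂ e P ↔ glEquiv (Fin n) F g ∈ uTenStab (uTenMap e P) := by
  have ht : ∀ w u, uTenMap e P w u = Max.trV e P fun p => w p.1 * u p.2 := fun _ _ => rfl
  rw [Max.mem_tensorProductSubgroup]
  constructor
  · rintro ⟨a, b, hab⟩
    exact ⟨glEquiv _ F a, glEquiv _ F b, fun w u => by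
      rw [glEquiv_apply, hab, ht, ht, Max.tr_mulVec, Max.kron_mulVec_pure]; rfl⟩
  · rintro ⟨k, a, hka⟩
    refine ⟨(glEquiv _ F).symm k, (glEquiv _ F).symm a,
      Matrix.toLin'.injective (LinearMap.ext (h.ext fun w u => ?_))⟩
    rw [Matrix.toLin'_apply, Matrix.toLin'_apply, ← glEquiv_apply, hka, ht, ht, Max.tr_mulVec,
      Max.kron_mulVec_pure, glEquiv_symm_mulVec, glEquiv_symm_mulVec]

theorem UField.isMaximalIn_tensor (hq : UField σ q) (h1 : 2 ≤ n₁) (h12 : n₁ < n₂) (h4 : 4 ≤ n₂)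
    (hex : ¬ (n₁ = 2 ∧ q = 2)) {e : Fin n ≃ Fin n₁ × Fin n₂} {P : GL (Fin n) F}
    {f₁ : (Fin n₁ → F) → (Fin n₁ → F) → F} {f₂ : (Fin n₂ → F) → (Fin n₂ → F) → F}
    (hf₁ : IsUnitaryFormPow q f₁) (hf₂ : IsUnitaryFormPow q f₂)
    (hT : IsTensorFormStructure (fun x : F => x ^ q) (hermForm n F q) f₁ f₂ e P) :
    IsMaximalIn (GU n F q ⊓ specialLinear (Fin n) F)
      (tensorProductSubgroup n₁ n₂ e P ⊓ (GU n F q ⊓ specialLinear (Fin n) F)) := by
  obtain ⟨c, h⟩ := hq.exists_uTen (by omega) hf₁ hf₂ hT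
  exact hq.isMaximalIn (fun g _ => h.mem_tensorProductSubgroup_iff g)
    (h.uMax hq (by simpa) (by simpa using hex) (by simpa) (by simpa))

end Cfsg.Agent.Cl
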