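import Mathlib
import Cfsg.Agent.Cl.MaxSUTenC
import Cfsg.Agent.Cl.MaxSUExtA
import Cfsg.Agent.Cl.U3

/-!
# Overgroups of `SU(X) ∘ SU(U)` in `SU(X ⊗ U)`, IV

The case `dim U = 3`, `q ≥ 3`.
-/

set_option autoImplicit false
set_option linter.unusedSectionVars false

namespace Cfsg.Agent.Cl

open Module

variable {F : Type*} [Field F] {σ : F →+* F} {V : Type*} [AddCommGroup V] [Module F V]
  [FiniteDimensional F V] {B : V →ₗ[F] V →ₛₗ[σ] F} {M : Subgroup (V ≃ₗ[F] V)}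
  {X : Type*} [AddCommGroup X] [Module F X] [FiniteDimensional F X] {C : X →ₗ[F] X →ₛₗ[σ] F}
  {U : Type*} [AddCommGroup U] [Module F U] [FiniteDimensional F U] {D : U →ₗ[F] U →ₛₗ[σ] F}
  {t : X →ₗ[F] U →ₗ[F] V} {q : ℕ}
  {X' : Type*} [AddCommGroup X'] [Module F X'] [FiniteDimensional F X'] {C' : X' →ₗ[F] X' →ₛₗ[σ] F}
  {U' : Type*} [AddCommGroup U'] [Module F U'] [FiniteDimensional F U'] {D' : U' →ₗ[F] U' →ₛₗ[σ] F}
  {t' : X' →ₗ[F] U' →ₗ[F] V}

theorem IsHerm.exists_uHypPair_perp' [Finite F] (hD : IsHerm D) (hn : 3 ≤ finrank F U) {p : U}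
    (hp : D p p ≠ 0) : ∃ u f, UHypPair D u f ∧ D p u = 0 ∧ D p f = 0 := by
  obtain ⟨u, h1, h2, h3⟩ := hD.exists_mem_isotropic (U := uPerp D (F ∙ p)) (by
    have := u_finrank_span_singleton_le (F := F) p
    rw [hD.finrank_uPerp]
    omega)
  rw [mem_uPerp_span_singleton] at h1
  obtain ⟨f, hf, h4⟩ := hD.exists_uHypPair_perp hp h2 h3 (hD.eq_zero_symm h1)
  exact ⟨u, f, hf, h1, hD.eq_zero_symm h4⟩

namespace UTen

theorem rigid3 (h : UTen C D B t) (h' : UTen C' D' B t') [Nontrivial X] (hq : UField σ q)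
    (h2 : q ≠ 2) (hn : finrank F U = 3) (hn' : finrank F U' = 3) (hR : URight D t M)
    (hR' : URight D' t' M) {u : U} (hu0 : u ≠ 0) (hu : D u u = 0) (h1 : h.R1 M u) {u' : U'}
    (hu0' : u' ≠ 0) (hu' : D' u' u' = 0) (k : X' ≃ₗ[F] X) (hk : ∀ x, t' x u' = t (k x) u)
    (w : U') : ∃ γ, ∀ x, t' x w = t (k x) γ := by
  have := hq.finite
  obtain ⟨f', hf'⟩ := h'.hD.exists_uHypPair hu0' hu'
  obtain ⟨d', b'⟩ := h'.hD.exists_u3Basis_of_pair hn' hf'
  obtain ⟨γ, hγ⟩ := h.step h' hR hR' hu0 hu h1 hu' k hk b'.de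
  obtain ⟨x₀, hx⟩ := exists_ne (0 : X)
  obtain ⟨y₀, hy⟩ := h.hC.exists_eq_one hx
  obtain ⟨x₀, rfl⟩ := k.surjective x₀
  obtain ⟨y₀, rfl⟩ := k.surjective y₀
  have h3 : D γ u = 0 := by simpa [hγ, hk, h.form, hy, b'.de] using h'.form x₀ y₀ d' u'
  have h4 : ∀ x y, C (k x) (k y) * D γ γ = -C' x y := fun x y => by
    simpa [hγ, h.form, b'.dd] using h'.form x y d' d'
  have h5 : D γ γ ≠ 0 := fun e => hx (by
    rw [h'.hC.nondeg x₀ fun y => by simpa [e] using h4 x₀ y, map_zero])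
  obtain ⟨c, hc⟩ := h.hD.exists_smul_norm_eq h5 (c := -1) (by simp)
  have hc0 : c ≠ 0 := by rintro rfl; simp at hc
  obtain ⟨f, hf, h6⟩ := h.hD.exists_uHypPair_perp h5 hu0 hu (h.hD.eq_zero_symm h3)
  have b : U3Basis D u (c • γ) f :=
    ⟨hf, h.hD, hc, by simp [h3], by simp [h.hD.eq_zero_symm h6], hn⟩
  have h7 : ∀ x, t' x f' = t (h.pi f (t' x f')) u - t (k x) (D γ γ • f) := fun x =>
    h.eq_of fun y v => by
      obtain ⟨y, rfl⟩ := k.surjective y
      obtain ⟨a₁, a₂, a₃, rfl⟩ := b.exists_eq v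
      have e1 := h'.form x y f' u'
      have e2 := h'.form x y f' d'
      rw [hk, hf'.pair'] at e1
      rw [hγ, b'.fd] at e2
      simp only [map_add, map_sub, map_smul, map_smulₛₗ, LinearMap.sub_apply, LinearMap.smul_apply,
        e1, e2, h.form, pi_left, hu, hf.pair, hf.pair', hf.right, h6, h.hD.eq_zero_symm h3,
        smul_eq_mul]
      linear_combination σ a₁ * h4 x y
  generalize hρ : h.pi f ∘ₗ t'.flip f' = ρ
  replace h7 : ∀ x, t' x f' = t (ρ x) u - D γ γ • t (k x) f := fun x => by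
    rw [h7 x, map_smul, ← hρ]; rfl
  obtain ⟨ν, i1, i2, i3⟩ := hq.exists_fixed_ne h2
  obtain ⟨a, rfl⟩ := hq.exists_norm_eq i1
  have ha : a ≠ 0 := left_ne_zero_of_mul i2
  have ha' : σ a ≠ 0 := right_ne_zero_of_mul i2
  obtain ⟨⟨s, hs⟩, s1, s2, s3⟩ := b.exists_t (Units.mk0 a ha)
  obtain ⟨⟨s', hs'⟩, s1', s2', s3'⟩ := b'.exists_t (Units.mk0 a ha)
  simp only [Units.val_mk0] at s1 s2 s3 s1' s2' s3'
  obtain ⟨g, hg, H⟩ := hR s hs
  obtain ⟨g', hg', H'⟩ := hR' s' hs'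
  rw [map_smul, smul_comm, smul_right_inj hc0] at s2
  obtain ⟨r, hr⟩ := h1 (((a * σ a - 1) / D γ γ) • ρ ∘ₗ k.symm.toLinearMap)
    (UHas.div (L := g') (L' := g) ⟨g', hg', fun _ => rfl⟩ ⟨g, hg, fun _ => rfl⟩
      (h.ext (L := g') (L' := (LinearMap.id + t.flip u ∘ₗ (((a * σ a - 1) / D γ γ) •
        ρ ∘ₗ k.symm.toLinearMap) ∘ₗ h.pi u) ∘ₗ g.toLinearMap) fun x v => by
        obtain ⟨x, rfl⟩ := k.surjective x
        obtain ⟨a₁, a₂, a₃, rfl⟩ := b.exists_eq v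
        have e1 := H' x u'
        have e2 := H' x d'
        have e3 := H' x f'
        have e4 := H' (k.symm (ρ x)) u'
        rw [s1', map_smul, hk] at e1 e4
        rw [s2', map_smul, hγ] at e2
        rw [s3', map_smul, h7, map_sub, map_smul] at e3
        rw [k.apply_symm_apply] at e4
        have e5 : g' (t (k x) f) = (D γ γ)⁻¹ • (g' (t (ρ x) u) - (σ a)⁻¹ • (t (ρ x) u -
            D γ γ • t (k x) f)) := by rw [← e3, sub_sub_cancel, inv_smul_smul₀ h5]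
        simp only [map_add, map_smul, LinearEquiv.coe_coe, LinearMap.comp_apply, H, s1, s2, s3,
          e1, e2, e4, e5, LinearMap.add_apply, LinearMap.id_apply, pi_t, hu, h3, hf.pair',
          LinearMap.flip_apply, LinearMap.smul_apply, k.symm_apply_apply]
        match_scalars <;> field_simp
        ring))
  have h8 : (a * σ a - 1) / D γ γ ≠ 0 := div_ne_zero (sub_ne_zero.2 i3) h5
  obtain ⟨a₁, a₂, a₃, rfl⟩ := b'.exists_eq w
  refine ⟨a₁ • u + a₂ • γ + a₃ • ((((a * σ a - 1) / D γ γ)⁻¹ * r) • u - D γ γ • f), fun x => ?_⟩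
  have := hr (k x)
  simp only [LinearMap.smul_apply, LinearMap.comp_apply, LinearEquiv.coe_coe,
    k.symm_apply_apply] at this
  rw [← eq_inv_smul_iff₀ h8, smul_smul] at this
  simp [hk, hγ, h7, this]

theorem small_irr [Finite F] (h : UTen C D B t) (h1 : 2 ≤ finrank F X) (h2 : 2 ≤ finrank F U)
    (hT : ∀ a u, C a a = 0 → D u u = 0 → UTv B M (t a u)) (W : Submodule F V)
    (hW : ∀ g ∈ M, USmall B g → ∀ x ∈ W, g x ∈ W) : W = ⊥ ∨ W = ⊤ := by
  have hB := h.hB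
  obtain ⟨θ, hθ0, hθ⟩ := h.hC.exists_trace_zero
  have hθ' : θ + σ θ = 0 := by simp [hθ]
  have h7 : ∀ a u, C a a = 0 → D u u = 0 → t a u ∈ W ∨ ∀ x ∈ W, B x (t a u) = 0 :=
    fun a u i j => u_mem_or_perp hθ0 (by simp [h.form, i]) (hW _ (hT a u i j θ hθ')
      ⟨t a u, t a u, fun x hx _ => uRefl_apply_of_perp _ hx⟩)
  by_cases h8 : ∃ a u, a ≠ 0 ∧ u ≠ 0 ∧ C a a = 0 ∧ D u u = 0 ∧ t a u ∈ W
  · obtain ⟨a, u, i1, i2, i3, i4, i5⟩ := h8
    have h9 : ∀ a u b v, t a u ∈ W → C b b = 0 → D v v = 0 → C a b ≠ 0 → D u v ≠ 0 → t b v ∈ W :=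
      fun a u b v j1 j2 j3 j4 j5 => (h7 b v j2 j3).resolve_right fun H => by
        simpa [h.form, j4, j5] using H _ j1
    refine Or.inr (h.eq_top_of_pure h1 h2 fun b v j1 j2 j3 j4 => ?_)
    obtain ⟨x, k1, k2, k3⟩ := h.hC.exists_isotropic_two i1 j1 i3 j3
    obtain ⟨y, l1, l2, l3⟩ := h.hD.exists_isotropic_two i2 j2 i4 j4
    exact h9 x y b v (h9 a u x y i5 k1 l1 k2 l2) j3 j4 (mt h.hC.eq_zero_symm k3)
      (mt h.hD.eq_zero_symm l3)
  · push Not at h8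
    refine Or.inl (le_bot_iff.1 (hB.uPerp_top ▸ hB.le_uPerp_comm.1 ?_))
    exact (h.eq_top_of_pure (W := uPerp B W) h1 h2 fun b v j1 j2 j3 j4 =>
      (h7 b v j3 j4).resolve_left (h8 b v j1 j2 j3 j4)).ge

theorem USG_le_of_uTv3 (h : UTen C D B t) (hq : UField σ q) (hM : M ≤ UG B) (h1 : 2 ≤ finrank F X)
    (h2 : 3 ≤ finrank F U) (hT : ∀ a u, C a a = 0 → D u u = 0 → UTv B M (t a u)) :
    USG B ≤ M := by
  have := hq.finite
  have hB := h.hB
  obtain ⟨θ, hθ0, hθ⟩ := h.hC.exists_trace_zero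
  have hθ' : θ + σ θ = 0 := by simp [hθ]
  obtain ⟨a, a', ha⟩ := h.hC.exists_uHypPair' h1
  have : Nontrivial U := Module.nontrivial_of_finrank_pos (R := F) (by omega)
  obtain ⟨w, hw⟩ := h.hD.exists_norm_one
  obtain ⟨u, u', hu, h3, h4⟩ := h.hD.exists_uHypPair_perp' h2 (p := w) (by simp [hw])
  have h3' := h.hD.eq_zero_symm h3
  have h4' := h.hD.eq_zero_symm h4
  have key : ∀ a (ha : C a a = 0) (hz : B (t a u) (t a u) = 0), t a w ∈ uYsub hB M hz :=
    fun a ha hz c => by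
      have e0 : ∀ τ s : F, θ * σ s - θ * s + τ * σ τ = 0 →
          UTv B M (t a (θ • u' + τ • w + s • u)) := fun τ s hs => hT _ _ ha (by
        simp [hu.left, hu.right, hu.pair, hu.pair', h3, h3', h4, h4', hw, hθ]
        linear_combination hs)
      have e1 : ∀ τ s : F, θ * σ s - θ * s + τ * σ τ = 0 →
          θ • t a (θ • u' + τ • w + s • u) ∈ uYadd hB M hz := fun τ s hs =>
        hB.smul_mem_uYadd hz (by simp [h.form, ha]) (by simp [h.form, ha]) hθ' (by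
          rw [← map_add, add_assoc, show s • u + u = (s + 1) • u by module]
          exact e0 _ _ (by rw [map_add, map_one]; linear_combination hs) θ hθ') (e0 τ s hs θ hθ')
      obtain ⟨r, hr⟩ := h.hC.exists_trace_eq (a := -(c / θ * σ (c / θ)))
        (by rw [map_neg, h.hC.norm_fixed])
      convert sub_mem (sub_mem (e1 (c / θ) (σ (r / θ)) (by
        rw [h.hC.invol, map_div₀ σ r, hθ, mul_div_cancel₀ _ hθ0, div_neg, mul_neg,
          mul_div_cancel₀ _ hθ0]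
        linear_combination hr)) (e1 0 0 (by simp))) (hB.smul_self_mem_uYadd hz (θ * σ (r / θ)))
        using 1
      simp only [map_add, map_smul]
      match_scalars <;> field_simp <;> ring
  have p1 : UHypPair B (t a u) (t a' u') := hB.uHypPair (by simp [h.form, ha.left])
    (by simp [h.form, ha.right]) (by simp [h.form, ha.pair, hu.pair])
  have p2 : UHypPair B (t a' u) (t a u') := hB.uHypPair (by simp [h.form, ha.right])
    (by simp [h.form, ha.left]) (by simp [h.form, ha.pair', hu.pair])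
  refine hB.USG_le_of_two_pairs hq hM (h.small_irr h1 (by omega) hT) p1 p2
    (by simp [h.form, hu.left]) (by simp [h.form, ha.right]) (by simp [h.form, ha.left])
    (by simp [h.form, hu.right]) (hT _ _ ha.left hu.left) (hT _ _ ha.right hu.right)
    (hT _ _ ha.left hu.right) ?_
  obtain ⟨i, s, -, H⟩ := hB.uYadd_of_uYsub (key a' ha.right p2.left)
  have h5 := hB.uEich0 p2.left i
  have := Submodule.sub_mem _ (hB.uYsub_map' hM (key a ha.left p1.left) H (by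
    simp [h5.apply, h.form, hu.left, h3'])) (key a ha.left p1.left)
  simpa [h5.apply, h.form, h3, hw, ha.pair] using this

variable {ι : Type*} [Fintype ι] [DecidableEq ι] {e : ι → U}

theorem eq_zero_of_three [Finite F] (h : UTen C D B t) (hn : 3 ≤ finrank F U)
    {d : V → V → V → V → F} (hd : Quad4 σ d)
    (h0 : ∀ u, u ≠ 0 → D u u = 0 → ∀ x y z w, h.pi u x = 0 → (h.pi u y = 0 ∧ h.pi u z = 0 ∨
      h.pi u y = 0 ∧ h.pi u w = 0 ∨ h.pi u z = 0 ∧ h.pi u w = 0) → d x y z w = 0) (x y z w : V) :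
    d x y z w = 0 := by
  obtain ⟨e, he⟩ := h.hD.exists_uFrame
  refine hd.eq_zero (h.closure_frame he) ?_ x y z w
  rintro _ ⟨a, i, rfl⟩ y - z - w -
  obtain ⟨u, f, hu, h1, h2⟩ := h.hD.exists_uHypPair_perp' hn (p := e i) (by simp [he.unit])
  have h3 : ∀ v, ∃ v₁ v₂, h.pi u v₁ = 0 ∧ h.pi f v₂ = 0 ∧ v = v₁ + v₂ := fun v =>
    ⟨v - t (h.pi u v) f, t (h.pi u v) f, by simp [hu.pair'], by simp [hu.right], by simp⟩
  obtain ⟨y₁, y₂, i1, i2, rfl⟩ := h3 y
  obtain ⟨z₁, z₂, j1, j2, rfl⟩ := h3 z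
  obtain ⟨w₁, w₂, k1, k2, rfl⟩ := h3 w
  have h4 := fun y z w => h0 u hu.left_ne_zero hu.left (t a (e i)) y z w (by simp [h1])
  have h5 := fun y z w => h0 f hu.right_ne_zero hu.right (t a (e i)) y z w (by simp [h2])
  rw [hd.a₂, hd.a₃, hd.a₃, h4 y₁ z₁ _ (by tauto), h5 y₂ z₂ _ (by tauto), hd.a₄, hd.a₄,
    h4 y₁ z₂ w₁ (by tauto), h5 y₁ z₂ w₂ (by tauto), h4 y₂ z₁ w₁ (by tauto),
    h5 y₂ z₁ w₂ (by tauto)]
  simp

theorem _root_.Cfsg.Agent.Cl.UField.sum_trace_zero (hq : UField σ q) (h2 : q ≠ 2)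
    {T : AddSubgroup F} [Fintype T] (hT : ∀ s, s ∈ T ↔ s + σ s = 0) (a b : F) :
    ∑ s : T, (a + s * b) = 0 := by
  obtain ⟨ν, h3, h4, h5⟩ := hq.exists_fixed_ne h2
  have h6 : ∑ s : T, (s : F) = ∑ s : T, ν * s := by
    refine (Function.Bijective.sum_comp (e := fun s : T => (⟨ν * s, (hT _).2 (by
      rw [map_mul, h3, ← mul_add, (hT _).1 s.2, mul_zero])⟩ : T))
      (Finite.injective_iff_bijective.1 fun s s' e => ?_) fun s => (s : F)).symm
    exact Subtype.ext (mul_left_cancel₀ h4 (congrArg Subtype.val e))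
  rw [← Finset.mul_sum] at h6
  rw [Finset.sum_add_distrib, ← Finset.sum_mul, (mul_eq_zero.1
    (show (ν - 1) * ∑ s : T, (s : F) = 0 by linear_combination -h6)).resolve_left (sub_ne_zero.2 h5),
    Finset.sum_const, Finset.card_univ, ← Nat.card_eq_fintype_card,
    Nat.card_congr (Equiv.subtypeEquivRight hT), hq.card_trace_zero, nsmul_eq_mul, hq.cast_eq_zero]
  simp

/-- The transfer for `q ≥ 3`. -/
theorem d0_map_of_free3 (h : UTen C D B t) (hq : UField σ q) (h2 : q ≠ 2)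
    (h3 : 3 ≤ finrank F U) (hR : URight D t M) {H : Subgroup (V ≃ₗ[F] V)}
    (hH : ∀ g ∈ M, g ∈ H → ∀ x y z w, h.d0 e (g x) (g y) (g z) (g w) = h.d0 e x y z w)
    (hH' : uTenStab t ≤ H)
    (hf : ∀ u, u ≠ 0 → D u u = 0 → ∀ s : F, s ≠ 0 → ∀ a g : V ≃ₗ[F] V, g ∈ M →
      (∀ v, a v = h.zE u (s • ·) v) → g * a * g⁻¹ ∈ H → g ∈ H)
    {g : V ≃ₗ[F] V} (hg : g ∈ M) (x y z w : V) :
    h.d0 e (g x) (g y) (g z) (g w) = h.d0 e x y z w := by
  have := hq.finite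
  have := u_finite_linearEquiv (F := F) (V := V)
  have := Fintype.ofFinite (M ⧸ H.subgroupOf M)
  let d : V × V × V × V → F := fun ω => h.d0 e ω.1 ω.2.1 ω.2.2.1 ω.2.2.2
  have hd : ∀ k ∈ H.subgroupOf M, ∀ ω, d (k • ω) = d ω := fun k hk ω => hH k k.2 hk _ _ _ _
  have h1 : ∀ x y z w, trSum (H.subgroupOf M) d (x, y, z, w) - h.d0 e x y z w = 0 := by
    refine h.eq_zero_of_three h3 ((Quad4.sum fun c : M ⧸ H.subgroupOf M =>
      h.quad4_d0.comp ((c.out⁻¹ : M) : V ≃ₗ[F] V).toLinearMap).sub h.quad4_d0)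
      fun u hu0 hu x y z w hx hy => sub_eq_zero.2 ?_
    let T : AddSubgroup F := (AddMonoidHom.id F + σ.toAddMonoidHom).ker
    have hT : ∀ s, s ∈ T ↔ s + σ s = 0 := fun s => Iff.rfl
    have := Fintype.ofFinite T
    choose a ha ha' using fun s : T => h.has_uRefl hR hu s.2
    let α : Multiplicative T →* M := MonoidHom.mk' (fun b => ⟨a b.toAdd, ha _⟩) fun b b' =>
      Subtype.ext (LinearEquiv.ext fun v => by simp [ha', zE, hu, add_smul]; abel)
    refine trSum_eq hd α (fun b => hH' ⟨1, uRefl D u b.toAdd, fun x w => ?_⟩)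
      (fun b hb k hk => hf u hu0 hu _ (fun e => hb (Subtype.ext e)) _ k k.2 (ha' b.toAdd) hk)
      fun k _ => ?_
    · exact (ha' _ _).trans (by simp [zE, uRefl_apply_of_isotropic hu, smul_smul])
    have h4 := h.quad4_d0 (e := e) |>.comp k.1.toLinearMap
    have h5 : ∀ (s : T) v, a s v = v + (s : F) • t (h.pi u v) u := fun s v => by simp [ha', zE]
    rw [← Multiplicative.ofAdd.sum_comp]
    have h6 : ∀ s : T, σ s = -s := fun s => eq_neg_of_add_eq_zero_right s.2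
    let d' := fun x y z w => h.d0 e (k.1.toLinearMap x) (k.1.toLinearMap y) (k.1.toLinearMap z)
      (k.1.toLinearMap w)
    change Quad4 σ d' at h4
    change ∑ s : T, d' (a s x) (a s y) (a s z) (a s w) = 0
    rcases hy with ⟨i, j⟩ | ⟨i, j⟩ | ⟨i, j⟩
    · rw [← hq.sum_trace_zero h2 hT (d' x y z w) (-d' x y z (t (h.pi u w) u))]
      refine Finset.sum_congr rfl fun s _ => ?_
      simpa [h5, hx, i, j, h4.a₄, h6] using h4.s 1 1 1 s x y z (t (h.pi u w) u)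
    · rw [← hq.sum_trace_zero h2 hT (d' x y z w) (-d' x y (t (h.pi u z) u) w)]
      refine Finset.sum_congr rfl fun s _ => ?_
      simpa [h5, hx, i, j, h4.a₃, h6] using h4.s 1 1 s 1 x y (t (h.pi u z) u) w
    · rw [← hq.sum_trace_zero h2 hT (d' x y z w) (d' x (t (h.pi u y) u) z w)]
      refine Finset.sum_congr rfl fun s _ => ?_
      simpa [h5, hx, i, j, h4.a₂, h6] using h4.s 1 s 1 1 x (t (h.pi u y) u) z w
  rw [← sub_eq_zero.1 (h1 _ _ _ _), ← sub_eq_zero.1 (h1 _ _ _ _)]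
  exact trSum_smul hd ⟨g, hg⟩ (_, _, _, _)

theorem le_uTenStab3 (h : UTen C D B t) (hq : UField σ q) (h1 : 2 ≤ finrank F X) (h2 : q ≠ 2)
    (hlt : finrank F X < finrank F U) (h3 : finrank F U = 3)
    (hM : M ≤ UG B) (hL : URight C t.flip M) (hR : URight D t M) (hne : ¬ USG B ≤ M) :
    M ≤ uTenStab t := fun g hg => by
  have := hq.finite
  have : Nontrivial X := Module.nontrivial_of_finrank_pos (R := F) (by omega)
  have key : ∀ g ∈ M, ∀ u, u ≠ 0 → D u u = 0 → (∃ u', u' ≠ 0 ∧ D u' u' = 0 ∧ ∃ k : X ≃ₗ[F] X,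
      ∀ x, g (t x u) = t (k x) u') → g ∈ uTenStab t := fun g hg u hu0 hu ⟨u', i, j, k, H⟩ =>
    h.mem_uTenStab k (h.rigid3 (h.map (hM hg)) hq h2 h3 h3 hR (hR.map hg) i j (h.r1 hq hM h1
      (fun e => h2 e.2) h3.ge hL hR (fun H => hne (h.USG_le_of_uTv3 hq hM h1 h3.ge H)) i j)
      hu0 hu k H)
  obtain ⟨e, he⟩ := h.hD.exists_uFrame
  obtain ⟨u, f, hu⟩ := h.hD.exists_uHypPair' (by omega)
  exact key g hg u hu.left_ne_zero hu.left (h.exists_of_d0 he (hM hg) (h.d0_map_of_free3 hq h2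
    h3.ge hR (fun g hg => h.d0_map he (hM hg)) le_rfl (fun u i j s hs a g hg ha H =>
      key g hg u i j (h.exists_of_conj hlt i j hs (hM hg) ha H)) hg) hu.left_ne_zero hu.left)

theorem uMax3 (h : UTen C D B t) (hq : UField σ q) (h1 : 2 ≤ finrank F X) (h2 : q ≠ 2)
    (hlt : finrank F X < finrank F U) (h3 : finrank F U = 3) : UMax B (uTenStab t) :=
  have := hq.finite
  ⟨h.not_USG_le h1 (by omega), fun _ i j k => by_contra fun hne => k
    (h.le_uTenStab3 hq h1 h2 hlt h3 (fun _ hg => (j hg).1) (h.uLeft i) (h.uRight i) hne)⟩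

end UTen

open Matrix Cfsg.Geo

theorem UField.isMaximalIn_tensor3 (hq : UField σ q) (h2 : 3 ≤ q) {n : ℕ}
    {e : Fin n ≃ Fin 2 × Fin 3} {P : GL (Fin n) F}
    {f₁ : (Fin 2 → F) → (Fin 2 → F) → F} {f₂ : (Fin 3 → F) → (Fin 3 → F) → F}
    (hf₁ : IsUnitaryFormPow q f₁) (hf₂ : IsUnitaryFormPow q f₂)
    (hT : IsTensorFormStructure (fun x : F => x ^ q) (hermForm n F q) f₁ f₂ e P) :
    IsMaximalIn (GU n F q ⊓ specialLinear (Fin n) F)
      (tensorProductSubgroup 2 3 e P ⊓ (GU n F q ⊓ specialLinear (Fin n) F)) := by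
  obtain ⟨c, h⟩ := hq.exists_uTen (by omega) hf₁ hf₂ hT
  exact hq.isMaximalIn (fun g _ => h.mem_tensorProductSubgroup_iff g)
    (h.uMax3 hq (by simp) (by omega) (by simp) (by simp))

end Cfsg.Agent.Cl
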