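import Mathlib
import Cfsg.Agent.Cl.MaxSUTenD
import Cfsg.Agent.Cl.MaxTrans

/-!
# Slots of a Hermitian space

A slot is an embedding `ψ` of `End U` in `End V` compatible with adjoints.  If the elements
`1 + S ⊗ u u*` of `M` have scalar `S`, then a conjugate slot normalised by a transvection of the slot
equals the slot or commutes with it (`UTen.good_of_conj`).
-/

set_option autoImplicit false
set_option linter.unusedSectionVars false

namespace Cfsg.Agent.Cl

open Module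

variable {F : Type*} [Field F] {σ : F →+* F} {V : Type*} [AddCommGroup V] [Module F V]
  [FiniteDimensional F V] {B : V →ₗ[F] V →ₛₗ[σ] F} {M : Subgroup (V ≃ₗ[F] V)}
  {X : Type*} [AddCommGroup X] [Module F X] [FiniteDimensional F X] {C : X →ₗ[F] X →ₛₗ[σ] F}
  {U : Type*} [AddCommGroup U] [Module F U] [FiniteDimensional F U] {D : U →ₗ[F] U →ₛₗ[σ] F}
  {t : X →ₗ[F] U →ₗ[F] V} {q : ℕ}

/-- The map `x ↦ D x b • a`. -/
def uRk (D : U →ₗ[F] U →ₛₗ[σ] F) (a b : U) : Module.End F U := (D.flip b).smulRight a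

@[simp] theorem uRk_apply (a b x : U) : uRk D a b x = D x b • a := rfl

theorem uRk_mul (a b c d : U) : uRk D a b * uRk D c d = D c b • uRk D a d :=
  LinearMap.ext fun x => by simp [smul_smul, mul_comm]

theorem mul_uRk (Y : Module.End F U) (a b : U) : Y * uRk D a b = uRk D (Y a) b :=
  LinearMap.ext fun x => by simp

theorem uRk_add_left (a a' b : U) : uRk D (a + a') b = uRk D a b + uRk D a' b :=
  LinearMap.ext fun x => by simp

theorem uRk_add_right (a b b' : U) : uRk D a (b + b') = uRk D a b + uRk D a b' :=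
  LinearMap.ext fun x => by simp [add_smul]

theorem uRk_smul_left (c : F) (a b : U) : uRk D (c • a) b = c • uRk D a b :=
  LinearMap.ext fun x => by simp [smul_comm c]

theorem uRk_smul_right (c : F) (a b : U) : uRk D a (c • b) = σ c • uRk D a b :=
  LinearMap.ext fun x => by simp [smul_smul]

@[simp] theorem uRk_zero_left (b : U) : uRk D 0 b = 0 := LinearMap.ext fun x => by simp

@[simp] theorem uRk_zero_right (a : U) : uRk D a 0 = 0 := LinearMap.ext fun x => by simp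

theorem UFrame.sum_uRk {ι : Type*} [Fintype ι] [DecidableEq ι] {e : ι → U} (he : UFrame D e)
    (Y : Module.End F U) : ∑ i, uRk D (Y (e i)) (e i) = Y := LinearMap.ext fun x => by
  conv_rhs => rw [he.expand x]
  simp

theorem IsHerm.mem_subalgebra [Finite F] (hD : IsHerm D) (hn : 2 ≤ finrank F U)
    {T : Subalgebra F (Module.End F U)} (hT : ∀ w, w ≠ 0 → D w w = 0 → uRk D w w ∈ T)
    (Y : Module.End F U) : Y ∈ T := by
  have h1 : ∀ a b, D a a = 0 → D b b = 0 → uRk D a b ∈ T := fun a b ha hb => by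
    by_cases h : a = 0 ∨ b = 0
    · rcases h with rfl | rfl <;> simp
    push Not at h
    obtain ⟨z, h2, h3, h4⟩ := hD.exists_isotropic_two h.1 h.2 ha hb
    have h5 := mt hD.eq_zero_symm h3
    have := T.smul_mem (T.mul_mem (T.mul_mem (hT a h.1 ha) (hT z (by rintro rfl; simp at h3) h2))
      (hT b h.2 hb)) (D z a * D b z)⁻¹
    rwa [uRk_mul, smul_mul_assoc, uRk_mul, smul_smul, smul_smul, mul_assoc,
      inv_mul_cancel₀ (mul_ne_zero h5 h4), one_smul] at this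
  have h2 : ∀ a b, uRk D a b ∈ T := fun a b => by
    let S : U → Submodule F U := fun a =>
      { carrier := {b | uRk D a b ∈ T}
        add_mem' := fun i j => by simpa [uRk_add_right] using T.add_mem i j
        zero_mem' := by simp
        smul_mem' := fun c b i => by simpa [uRk_smul_right] using T.smul_mem i _ }
    let S' : Submodule F U :=
      { carrier := {a | uRk D a b ∈ T}
        add_mem' := fun i j => by simpa [uRk_add_left] using T.add_mem i j
        zero_mem' := by simp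
        smul_mem' := fun c b i => by simpa [uRk_smul_left] using T.smul_mem i _ }
    exact (hD.eq_top_of_isotropic hn (U := S') fun a ha =>
      (hD.eq_top_of_isotropic hn (U := S a) fun b => h1 a b ha).ge (trivial : b ∈ ⊤)).ge
        (trivial : a ∈ ⊤)
  obtain ⟨e, he⟩ := hD.exists_uFrame
  rw [← he.sum_uRk Y]
  exact T.sum_mem fun i _ => h2 _ _

namespace UTen

theorem exists_equiv (h : UTen C D B t) {u : U} (hu : u ≠ 0) {g : V ≃ₗ[F] V} {k : X →ₗ[F] X}
    {u' : U} (H : ∀ x, g (t x u) = t (k x) u') : ∃ k : X ≃ₗ[F] X, ∀ x, g (t x u) = t (k x) u' :=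
  ⟨LinearEquiv.ofInjectiveEndo k ((injective_iff_map_eq_zero k).2 fun x e => by
    by_contra h0
    exact h.t_ne_zero h0 hu (by simpa [e] using H x)), H⟩

/-- A conjugate of `1 ⊗ T_u` in the stabiliser is of this form or acts on the first factor. -/
theorem dichotomy (h : UTen C D B t) [Nontrivial X] (h3 : 3 ≤ finrank F U)
    {u : U} (hu0 : u ≠ 0) (hu : D u u = 0) {s : F} {a g : V ≃ₗ[F] V} (hg : g ∈ UG B)
    (ha : ∀ v, a v = h.zE u (s • ·) v) (H : g * a * g⁻¹ ∈ uTenStab t) :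
    (∃ u', u' ≠ 0 ∧ D u' u' = 0 ∧ ∃ k : X ≃ₗ[F] X, ∀ x, g (t x u) = t (k x) u') ∨
      ∃ k : X →ₗ[F] X, ∀ x w, (g * a * g⁻¹) (t x w) = t (k x) w := by
  obtain ⟨k, b, H⟩ := H
  by_cases hb : ∀ w, ∃ c : F, b w = c • w
  · obtain ⟨c, hc⟩ := u_exists_scalar (S := (b : U →ₗ[F] U)) hb
    exact .inr ⟨c • k, fun x w => by rw [H, show b w = c • w from hc w]; simp⟩
  left
  have h1 : ∀ x w, t (k x) (b w) = t x w + g (t (s • h.pi u (g⁻¹ (t x w))) u) := fun x w => by
    simp [← H, ha, zE]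
  obtain ⟨w, hw⟩ := not_forall.1 hb
  let κ : U → X →ₗ[F] X := fun w => s • h.pi u ∘ₗ (g⁻¹ : V ≃ₗ[F] V).toLinearMap ∘ₗ t.flip w
  have h2 : ∀ x w, t (k x) (b w) = t x w + g (t (κ w x) u) := h1
  have h4 : Function.Surjective (κ w) := LinearMap.injective_iff_surjective.1
    ((injective_iff_map_eq_zero _).2 fun x e => by
      obtain ⟨y, i, j⟩ := h.hD.exists_perp_eq_one (W := F ∙ w) (u := b w) fun e => by
        obtain ⟨c, hc⟩ := Submodule.mem_span_singleton.1 e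
        exact hw ⟨c, hc.symm⟩
      rw [mem_uPerp_span_singleton] at i
      simpa [e, i, j] using congrArg (h.pi y) (h2 x w))
  obtain ⟨y, hy0, hy⟩ := Submodule.exists_mem_ne_zero_of_ne_bot
    (p := uPerp D (Submodule.span F {w, b w})) fun e => by
      have := u_finrank_span_pair_le (F := F) w (b w)
      have h5 := h.hD.finrank_uPerp (Submodule.span F {w, b w})
      rw [e, finrank_bot] at h5
      omega
  rw [mem_uPerp_span_pair] at hy0
  have h5 : ∀ x, h.pi y (g (t x u)) = 0 := fun x => by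
    obtain ⟨x, rfl⟩ := h4 x
    simpa [hy0.1, hy0.2] using (congrArg (h.pi y) (h2 x w)).symm
  obtain ⟨v, hv⟩ := h.hD.exists_eq_one hy
  obtain ⟨v, rfl⟩ := b.surjective v
  have hc : ∀ x, k x = D v y • x := fun x => by
    simpa [h5, h.hD.eq_one_symm hv] using congrArg (h.pi y) (h2 x v)
  generalize D v y = c at hc
  obtain ⟨x₀, hx⟩ := exists_ne (0 : X)
  obtain ⟨y₀, hy⟩ := h.hC.exists_eq_one hx
  have h6 : ∀ x, t x (c • b w - w) = g (t (κ w x) u) := fun x => by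
    rw [map_sub, sub_eq_iff_eq_add', ← h2, hc]; simp
  let κ' := LinearEquiv.ofInjectiveEndo (κ w) (LinearMap.injective_iff_surjective.2 h4)
  refine ⟨c • b w - w, fun e => ?_, ?_, κ'.symm, fun x =>
    (congrArg (fun y => g (t y u)) (κ'.apply_symm_apply x).symm).trans (h6 _).symm⟩
  · obtain ⟨x, rfl⟩ := h4 x₀
    exact h.t_ne_zero hx hu0 (by simpa [e] using (h6 x).symm)
  · have := h.form x₀ y₀ (c • b w - w) (c • b w - w)
    rw [h6, h6, UG_map hg, h.form, hu, hy, one_mul, mul_zero] at this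
    exact this.symm

/-- A conjugate slot normalised by a transvection equals the slot or commutes with it. -/
theorem good_of_conj (h : UTen C D B t) [Nontrivial X] (hq : UField σ q)
    (hn : 4 ≤ finrank F U ∨ q ≠ 2 ∧ finrank F U = 3) (hM : M ≤ UG B) (hR : URight D t M)
    (h1 : ∀ u, u ≠ 0 → D u u = 0 → h.R1 M u) {ψ : Module.End F U →ₐ[F] Module.End F V}
    (hψ : ∀ Y x u, ψ Y (t x u) = t x (Y u)) {u : U} (hu0 : u ≠ 0) (hu : D u u = 0) {s : F}
    (hs : s ≠ 0) {a g : V ≃ₗ[F] V} (hg : g ∈ M) (ha : ∀ v, a v = h.zE u (s • ·) v)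
    (H : g * a * g⁻¹ ∈ uTenStab t) : g ∈ uTenStab t ∨
      ∀ Y Y' v, ψ Y (g (ψ Y' (g⁻¹ v))) = g (ψ Y' (g⁻¹ (ψ Y v))) := by
  have := hq.finite
  have h3 : 3 ≤ finrank F U := by omega
  have key : ∀ g ∈ M, ∀ u, u ≠ 0 → D u u = 0 → (∃ u', u' ≠ 0 ∧ D u' u' = 0 ∧ ∃ k : X ≃ₗ[F] X,
      ∀ x, g (t x u) = t (k x) u') → g ∈ uTenStab t := fun g hg u hu0 hu ⟨u', i, j, k, H⟩ =>
    h.mem_uTenStab k (hn.elim (fun h4 => h.rigid (h.map (hM hg)) h4 hR (hR.map hg) h1 i j hu k H)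
      fun h4 => h.rigid3 (h.map (hM hg)) hq h4.1 h4.2 h4.2 hR (hR.map hg) i j (h1 u' i j)
        hu0 hu k H)
  refine or_iff_not_imp_left.2 fun hne Y Y' v => ?_
  obtain ⟨k, hk⟩ := (h.dichotomy h3 hu0 hu (hM hg) ha H).resolve_left fun e =>
    hne (key g hg u hu0 hu e)
  obtain ⟨θ, h0, hθ⟩ := h.hC.exists_trace_zero
  obtain ⟨f, hf⟩ := h.hD.exists_uHypPair hu0 hu
  let Z : Module.End F V := (g : V →ₗ[F] V) ∘ₗ ψ Y' ∘ₗ (g⁻¹ : V ≃ₗ[F] V).toLinearMap
  refine (LinearMap.congr_fun ((Subalgebra.mem_centralizer_iff F).1 (h.hD.mem_subalgebra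
    (by omega) (T := (Subalgebra.centralizer F {Z}).comap ψ) (fun w hw0 hw => ?_) Y) Z rfl) v).symm
  obtain ⟨γ, hγ, e⟩ := h.has_uRefl hR hw (s := θ) (by simp [hθ])
  have e1 : ∀ v, γ v = v + θ • ψ (uRk D w w) v := fun v => by
    rw [e, zE, h.ext (L := ψ (uRk D w w)) (L' := t.flip w ∘ₗ h.pi w) (fun x u => by simp [hψ]) v]
    simp
  have e2 : ∀ v, (g * a * g⁻¹) (γ v) = γ ((g * a * g⁻¹) v) :=
    h.ext (L := (g * a * g⁻¹).toLinearMap ∘ₗ γ.toLinearMap)
      (L' := γ.toLinearMap ∘ₗ (g * a * g⁻¹).toLinearMap) fun x u => by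
        simp only [LinearMap.comp_apply, LinearEquiv.coe_coe, e1, hψ, map_add, map_smul, hk,
          uRk_apply]
  have e3 : g⁻¹ * γ * g⁻¹⁻¹ ∈ uTenStab t := by
    refine key _ (mul_mem (mul_mem (inv_mem hg) hγ) (inv_mem (inv_mem hg))) u hu0 hu ⟨u, hu0, hu,
      h.exists_equiv hu0 (k := h.pi u ∘ₗ (g⁻¹ * γ * g⁻¹⁻¹).toLinearMap ∘ₗ t.flip f) fun x => ?_⟩
    have := congrArg (g⁻¹ : V ≃ₗ[F] V) (e2 (g (t x f)))
    simp only [LinearEquiv.mul_apply, u_inv_apply, ha, zE, map_add, map_smul, pi_t, hf.pair',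
      one_smul, add_right_inj, LinearMap.smul_apply] at this
    simpa using (smul_right_injective V hs this).symm
  obtain ⟨k', hk'⟩ := (h.dichotomy h3 hw0 hw (hM (inv_mem hg)) e e3).resolve_left fun e =>
    hne (inv_mem_iff.1 (key _ (inv_mem hg) w hw0 hw e))
  have e4 : ∀ v, (g⁻¹ * γ * g⁻¹⁻¹) (ψ Y' v) = ψ Y' ((g⁻¹ * γ * g⁻¹⁻¹) v) :=
    h.ext (L := (g⁻¹ * γ * g⁻¹⁻¹).toLinearMap ∘ₗ ψ Y')
      (L' := ψ Y' ∘ₗ (g⁻¹ * γ * g⁻¹⁻¹).toLinearMap) fun x u => by
        simp only [LinearMap.comp_apply, LinearEquiv.coe_coe, hψ, hk']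
  rw [Subalgebra.mem_comap, Subalgebra.mem_centralizer_iff]
  rintro _ rfl
  ext v
  have := congrArg g (e4 (g⁻¹ v))
  simp only [inv_inv, LinearEquiv.mul_apply, u_apply_inv, e1, map_add, map_smul,
    add_right_inj] at this
  exact (smul_right_injective V h0 this).symm

/-- A sum of forms permuted freely by the transvections of the second factor vanishes. -/
theorem eq_zero_of_free (h : UTen C D B t) (hq : UField σ q)
    (hn : 4 ≤ finrank F U ∨ q ≠ 2 ∧ finrank F U = 3) {G : Type*} [Group G]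
    {ρ : G →* V ≃ₗ[F] V} (hρ : Function.Injective ρ) {Ω : Type*} [MulAction G Ω] {S : Finset Ω}
    {d : Ω → V → V → V → V → F} (hd : ∀ ω, Quad4 σ (d ω))
    (hi : ∀ (g : G) ω x y z w, d (g • ω) (ρ g x) (ρ g y) (ρ g z) (ρ g w) = d ω x y z w)
    (hR : ∀ b ∈ USG D, ∃ g : G, (∀ x w, ρ g (t x w) = t x (b w)) ∧ ∀ ω, g • ω ∈ S ↔ ω ∈ S)
    (hf : ∀ u, u ≠ 0 → D u u = 0 → ∀ s : F, s ≠ 0 → ∀ g : G, (∀ v, ρ g v = h.zE u (s • ·) v) →
      ∀ ω ∈ S, g • ω ≠ ω) (x y z w : V) : ∑ ω ∈ S, d ω x y z w = 0 := by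
  have := hq.finite
  let T : AddSubgroup F := (AddMonoidHom.id F + σ.toAddMonoidHom).ker
  have hT : ∀ s, s ∈ T ↔ s + σ s = 0 := fun s => Iff.rfl
  have := Fintype.ofFinite T
  have key : ∀ u, u ≠ 0 → D u u = 0 → ∀ x y z w, (∀ e, Quad4 σ e → ∑ s : T,
      e (x + s.1 • t (h.pi u x) u) (y + s.1 • t (h.pi u y) u) (z + s.1 • t (h.pi u z) u)
        (w + s.1 • t (h.pi u w) u) = 0) → ∑ ω ∈ S, d ω x y z w = 0 := fun u hu0 hu x y z w H => by
    choose g hg hg' using fun s : T => hR _ (h.hD.uRefl_mem_USG hu s.2)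
    have h1 : ∀ (s : T) v, ρ (g s) v = v + s.1 • t (h.pi u v) u := fun s =>
      h.ext (L := ρ (g s)) (L' := LinearMap.id + s.1 • t.flip u ∘ₗ h.pi u) fun x w => by
        simp [hg, uRefl_apply_of_isotropic hu, smul_smul]
    have h2 : ∀ s s', g (s + s') = g s * g s' := fun s s' => hρ (LinearEquiv.ext fun v => by
      simp [h1, hu, add_smul]; abel)
    have h3 : g 0 = 1 := hρ (LinearEquiv.ext fun v => by simp [h1])
    refine Max.sum_eq_zero_of_orbits (fun s ω => g s • ω) (fun ω => by rw [h3, one_smul])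
      (fun s s' ω => by rw [h2, mul_smul]) _ S (fun s ω => (hg' s ω).2) fun ω hω =>
        ⟨⊤, Finset.univ, by simp, fun s _ e => by_contra fun h0 => hf u hu0 hu s
          (fun e => h0 (Subtype.ext e)) (g s) (fun v => by simp [h1, zE]) ω hω e, fun r => ?_⟩
    rw [← H _ (hd (g r • ω)), ← Equiv.sum_comp (Equiv.neg T)]
    refine Finset.sum_congr rfl fun s _ => ?_
    rw [← h1, ← h1, ← h1, ← h1, ← hi (g s), smul_smul, ← h2, Equiv.neg_apply, add_neg_cancel, h3,
      one_smul]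
  have hQ : Quad4 σ fun x y z w => ∑ ω ∈ S, d ω x y z w := by
    convert Quad4.sum (d := fun ω : S => d ω) fun ω => hd ω using 5
    exact (Finset.sum_coe_sort S _).symm
  rcases hn with h4 | ⟨h2, h3⟩
  · obtain ⟨e, he⟩ := h.hD.exists_uFrame
    refine h.eq_zero_of_invariant he (by simpa) hQ (fun b hb _ _ _ _ _ _ _ _ => ?_)
      (fun u hu0 hu x y z w hx hy hz hw => key u hu0 hu x y z w fun e _ => ?_) x y z w
    · obtain ⟨g, hg, hg'⟩ := hR b hb
      simp only [← hg]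
      exact (Finset.sum_equiv (MulAction.toPerm g) (fun ω => (hg' ω).symm)
        fun ω _ => (hi g ω _ _ _ _).symm).symm
    · simp [hx, hy, hz, hw, ← Nat.card_eq_fintype_card,
        Nat.card_congr (Equiv.subtypeEquivRight hT), hq.card_trace_zero, hq.cast_eq_zero]
  refine h.eq_zero_of_three h3.ge hQ (fun u hu0 hu x y z w hx hy =>
    key u hu0 hu x y z w fun d' h4 => ?_) x y z w
  have h6 : ∀ s : T, σ s = -s := fun s => eq_neg_of_add_eq_zero_right s.2
  rcases hy with ⟨i, j⟩ | ⟨i, j⟩ | ⟨i, j⟩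
  · rw [← hq.sum_trace_zero h2 hT (d' x y z w) (-d' x y z (t (h.pi u w) u))]
    refine Finset.sum_congr rfl fun s _ => ?_
    simpa [hx, i, j, h4.a₄, h6] using h4.s 1 1 1 s x y z (t (h.pi u w) u)
  · rw [← hq.sum_trace_zero h2 hT (d' x y z w) (-d' x y (t (h.pi u z) u) w)]
    refine Finset.sum_congr rfl fun s _ => ?_
    simpa [hx, i, j, h4.a₃, h6] using h4.s 1 1 s 1 x y (t (h.pi u z) u) w
  · rw [← hq.sum_trace_zero h2 hT (d' x y z w) (d' x (t (h.pi u y) u) z w)]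
    refine Finset.sum_congr rfl fun s _ => ?_
    simpa [hx, i, j, h4.a₂, h6] using h4.s 1 s 1 1 x (t (h.pi u y) u) z w

theorem mem_uTenStab_iff (h : UTen C D B t) [Nontrivial U] [Finite F]
    {ψ : Module.End F U →ₐ[F] Module.End F V} (hψ : ∀ Y x u, ψ Y (t x u) = t x (Y u))
    {g : V ≃ₗ[F] V} : g ∈ uTenStab t ↔ ∃ b : U ≃ₗ[F] U, ∀ Y v,
      g (ψ Y v) = ψ (b.toLinearMap ∘ₗ Y ∘ₗ b.symm.toLinearMap) (g v) := by
  constructor
  · rintro ⟨k, b, H⟩
    exact ⟨b, fun Y => h.ext (L := g.toLinearMap ∘ₗ ψ Y)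
      (L' := ψ (b.toLinearMap ∘ₗ Y ∘ₗ b.symm.toLinearMap) ∘ₗ g.toLinearMap) fun x u => by
        simp [hψ, H]⟩
  · rintro ⟨b, H⟩
    obtain ⟨p, hp⟩ := h.hD.exists_norm_one
    obtain ⟨y, hy⟩ := h.hD.exists_rep (D.flip p ∘ₗ b.symm.toLinearMap)
    have h1 : ∀ x u, g (t x u) = t (h.pi y (g (t x p))) (b u) := fun x u => by
      rw [show t x u = ψ (uRk D u p) (t x p) by simp [hψ, hp], H]
      exact h.ext (L' := t.flip (b u) ∘ₗ h.pi y) (fun z w => by simp [hψ, hy]) _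
    obtain ⟨k, hk⟩ := h.exists_equiv (u := p) (by rintro rfl; simp at hp)
      (k := h.pi y ∘ₗ g.toLinearMap ∘ₗ t.flip p) (g := g) fun x => h1 x p
    exact ⟨k, b, fun x u => by
      rw [h1, h.t_inj (b.map_ne_zero_iff.2 (by rintro rfl; simp at hp)) ((h1 x p).symm.trans (hk x))]⟩

end UTen

/-- The tensor structure attached to a slot. -/
def uSlotT (D : U →ₗ[F] U →ₛₗ[σ] F) (ψ : Module.End F U →ₐ[F] Module.End F V) (p : U) :
    LinearMap.range (ψ (uRk D p p)) →ₗ[F] U →ₗ[F] V :=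
  LinearMap.mk₂ F (fun x u => ψ (uRk D u p) x) (fun _ _ _ => map_add _ _ _)
    (fun _ _ _ => map_smul _ _ _) (fun _ _ _ => by rw [uRk_add_left, map_add]; rfl)
    fun _ _ _ => by rw [uRk_smul_left, map_smul]; rfl

theorem uSlotT_apply {ψ : Module.End F U →ₐ[F] Module.End F V} {p : U}
    (x : LinearMap.range (ψ (uRk D p p))) (u : U) : uSlotT D ψ p x u = ψ (uRk D u p) x := rfl

theorem map_uSlotT {ψ : Module.End F U →ₐ[F] Module.End F V} {p : U} (Y : Module.End F U)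
    (x : LinearMap.range (ψ (uRk D p p))) (u : U) :
    ψ Y (uSlotT D ψ p x u) = uSlotT D ψ p x (Y u) := by
  rw [uSlotT_apply, uSlotT_apply, ← Module.End.mul_apply, ← map_mul, mul_uRk]

theorem uTen_uSlotT [Finite F] (hD : IsHerm D) (hB : IsHerm B)
    {ψ : Module.End F U →ₐ[F] Module.End F V}
    (hψ : ∀ a b v w, B (ψ (uRk D a b) v) w = B v (ψ (uRk D b a) w)) {p : U} (hp : D p p = 1) :
    UTen (uRes B (LinearMap.range (ψ (uRk D p p)))) D B (uSlotT D ψ p) := by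
  have m : ∀ a b c d v, ψ (uRk D a b) (ψ (uRk D c d) v) = D c b • ψ (uRk D a d) v :=
    fun a b c d v => by rw [← Module.End.mul_apply, ← map_mul, uRk_mul, map_smul]; rfl
  have h1 : ∀ x : LinearMap.range (ψ (uRk D p p)), ψ (uRk D p p) x = x := by
    rintro ⟨_, v, rfl⟩
    rw [m, hp, one_smul]
  have h2 : ∀ a v, ψ (uRk D p a) v ∈ LinearMap.range (ψ (uRk D p p)) := fun a v =>
    ⟨ψ (uRk D p a) v, by rw [m, hp, one_smul]⟩
  obtain ⟨e, he⟩ := hD.exists_uFrame
  have h3 : ∀ v, ∑ i, uSlotT D ψ p ⟨_, h2 (e i) v⟩ (e i) = v := fun v => by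
    simp only [uSlotT_apply, m, hp, one_smul]
    rw [← LinearMap.sum_apply, ← map_sum, show ∑ i, uRk D (e i) (e i) = 1 from he.sum_uRk 1]
    simp
  refine ⟨hB.restrict (hB.disjoint_of_forall fun x hx H => hB.nondeg x fun y => ?_), hD, hB,
    fun x y u v => ?_, fun W H => eq_top_iff.2 fun v _ => h3 v ▸ W.sum_mem fun i _ => H _ _, ?_⟩
  · rw [← show _ = x from h1 ⟨x, hx⟩, hψ]
    exact H _ (h2 _ _)
  · rw [uSlotT_apply, uSlotT_apply, hψ, m, h1]
    simp [hD.symm, mul_comm, uRes_apply]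
  · let L : V →ₗ[F] Fin (finrank F U) → LinearMap.range (ψ (uRk D p p)) :=
      LinearMap.pi fun i => (ψ (uRk D p (e i))).codRestrict _ (h2 _)
    have hL : Function.Bijective L := ⟨(injective_iff_map_eq_zero L).2 fun v hv => by
      rw [← h3 v]
      exact Finset.sum_eq_zero fun i _ => by
        rw [show (⟨_, h2 (e i) v⟩ : LinearMap.range _) = 0 from congrFun hv i]; simp,
      fun x => ⟨∑ i, uSlotT D ψ p (x i) (e i), funext fun j => Subtype.ext (by
        change ψ _ _ = _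
        simp [uSlotT_apply, m, he.orth, h1])⟩⟩
    rw [(LinearEquiv.ofBijective L hL).finrank_eq, Module.finrank_pi_fintype]
    simp [mul_comm]

end Cfsg.Agent.Cl
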