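import Mathlib
import Cfsg.Agent.Cl.MaxSUWrA

/-!
# Unipotent elements attached to a slot; tensor powers of a Hermitian space
-/

set_option autoImplicit false
set_option linter.unusedSectionVars false

namespace Cfsg.Agent.Cl

open Module Function

variable {F : Type*} [Field F] {σ : F →+* F} {V : Type*} [AddCommGroup V] [Module F V]
  [FiniteDimensional F V] {B : V →ₗ[F] V →ₛₗ[σ] F} {M : Subgroup (V ≃ₗ[F] V)}
  {X : Type*} [AddCommGroup X] [Module F X] [FiniteDimensional F X] {C : X →ₗ[F] X →ₛₗ[σ] F}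
  {U : Type*} [AddCommGroup U] [Module F U] [FiniteDimensional F U] {D : U →ₗ[F] U →ₛₗ[σ] F}
  {t : X →ₗ[F] U →ₗ[F] V} {q : ℕ}

/-- `1 + Z` lies in `M`. -/
def UIn (M : Subgroup (V ≃ₗ[F] V)) (Z : End F V) : Prop := ∃ g ∈ M, (g : End F V) = 1 + Z

theorem u_coe_mul (g k : V ≃ₗ[F] V) : ((g * k : V ≃ₗ[F] V) : End F V) = (g : End F V) * k := rfl

theorem u_coe_mul_inv (g : V ≃ₗ[F] V) : (g : End F V) * (g⁻¹ : V ≃ₗ[F] V) = 1 := by
  rw [← u_coe_mul, mul_inv_cancel]; rfl

theorem u_coe_inv_mul (g : V ≃ₗ[F] V) : ((g⁻¹ : V ≃ₗ[F] V) : End F V) * g = 1 := by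
  rw [← u_coe_mul, inv_mul_cancel]; rfl

theorem uIn_zero : UIn M 0 := ⟨1, M.one_mem, by rw [add_zero]; rfl⟩

theorem UIn.mul {Y Z : End F V} (hY : UIn M Y) (hZ : UIn M Z) : UIn M (Y + Z + Y * Z) := by
  obtain ⟨g, hg, e⟩ := hY
  obtain ⟨k, hk, e'⟩ := hZ
  exact ⟨g * k, M.mul_mem hg hk, by rw [u_coe_mul, e, e']; noncomm_ring⟩

theorem UIn.neg {Z : End F V} (hZ : UIn M Z) (h : Z * Z = 0) : UIn M (-Z) := by
  obtain ⟨g, hg, e⟩ := hZ
  refine ⟨g⁻¹, M.inv_mem hg, ?_⟩
  rw [← mul_one ((g⁻¹ : V ≃ₗ[F] V) : End F V), show (1 : End F V) = (1 + Z) * (1 + -Z) by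
    rw [show (1 + Z) * (1 + -Z) = 1 - Z * Z by noncomm_ring, h, sub_zero], ← e, ← mul_assoc,
    u_coe_inv_mul, one_mul, e]
  rw [show (1 + Z) * (1 + -Z) = 1 - Z * Z by noncomm_ring, h, sub_zero]

theorem UIn.conj {Z Z' : End F V} (hZ : UIn M Z) {g : V ≃ₗ[F] V} (hg : g ∈ M)
    (h : (g : End F V) * Z = Z' * g) : UIn M Z' := by
  obtain ⟨k, hk, e⟩ := hZ
  exact ⟨g * k * g⁻¹, M.mul_mem (M.mul_mem hg hk) (M.inv_mem hg), by
    rw [u_coe_mul, u_coe_mul, e, mul_add, add_mul, h, mul_one, mul_assoc, u_coe_mul_inv, mul_one]⟩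

theorem UIn.comm {Y Z : End F V} (hY : UIn M Y) (hZ : UIn M Z) (h1 : Y * Y = 0)
    (h2 : Z * Z = 0) (h3 : Y * Z * Y = 0) (h4 : Z * Y * Z = 0) : UIn M (Y * Z - Z * Y) := by
  have := (hY.mul hZ).mul ((hY.neg h1).mul (hZ.neg h2))
  have k1 : ∀ W, Y * (Y * W) = 0 := fun W => by rw [← mul_assoc, h1, zero_mul]
  rw [mul_assoc] at h3 h4
  convert this using 1
  simp only [add_mul, mul_add, mul_neg, neg_mul, mul_assoc, h1, h2, h3, h4, k1, mul_zero,
    neg_neg]
  abel

/-- A map which is null on all isotropic vectors is scalar. -/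
theorem IsHerm.scalar_of_null' [Finite F] (hC : IsHerm C) (hn : 2 ≤ finrank F X) {S : X →ₗ[F] X}
    (h0 : ∀ a, C a a = 0 → C (S a) a = 0) : ∃ r : F, ∀ x, S x = r • x :=
  hC.scalar_of_sub (Q := hC.dag hC S) fun c => hC.scalar_of_null hn
    (S := c • S - σ c • hC.dag hC S) (fun x y => by simp [hC.invol]) fun a ha => by
      simp [h0 a ha, hC.eq_zero_symm (h0 a ha)]

/-- Extraction of the component of rank one in a slot. -/
theorem IsHerm.exists_extract [Finite F] (hD : IsHerm D) (hn : 3 ≤ finrank F U) {a : U}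
    (ha0 : a ≠ 0) (ha : D a a = 0) {A : Type*} [Ring A] [Algebra F A] (ψ : End F U →ₐ[F] A) :
    ∃ κ : F, κ ≠ 0 ∧ ∀ N : AddSubgroup A, (∀ Z ∈ N, ∀ b ∈ USG D,
      ψ b * Z * ψ (b⁻¹ : U ≃ₗ[F] U) ∈ N) → ∀ Z ∈ N,
        κ • (ψ (uRk D a a) * Z * ψ (uRk D a a)) ∈ N := by
  obtain ⟨θ, hθ0, hθ⟩ := hD.exists_trace_zero
  obtain ⟨f, hf⟩ := hD.exists_uHypPair ha0 ha
  obtain ⟨e, he, he'⟩ := hD.exists_perp_nonisotropic (hD.disjoint_span_pair ha hf.right hf.pair)
    (by rw [hD.finrank_span_pair ha hf.right hf.pair]; omega)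
  have h4 := (mem_uPerp_span_pair.1 he).1
  obtain ⟨r, hr⟩ := hD.exists_ne
  refine ⟨θ * (r - σ r), by simp [hθ0, sub_eq_zero, hr.symm], fun N hN Z hZ => ?_⟩
  set n := ψ (uRk D a a) with hn
  have c1 : ∀ u s, D u a = 0 → (uEich D a u s : End F U) =
      1 + (uRk D a u - uRk D u a + s • uRk D a a) := fun u s hu => LinearMap.ext fun x => by
    simp [(hD.uEich0 ha hu).apply, smul_smul]; abel
  have h3 : θ • (Z * n - n * Z) + (θ * θ) • (n * Z * n) ∈ N := by
    have := N.sub_mem hZ (hN Z hZ _ (hD.uRefl_mem_USG ha (c := θ) (by simp [hθ])))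
    rw [uRefl_inv_of_isotropic ha, ← uEich_zero ha, ← uEich_zero ha, c1 _ _ (by simp),
      c1 _ _ (by simp)] at this
    convert this using 1
    simp only [uRk_zero_left, uRk_zero_right, sub_self, zero_add, map_add, map_one, map_smul, ← hn,
      add_mul, mul_add, one_mul, mul_one, smul_mul_assoc, mul_smul_comm]
    module
  have h7 : ∀ τ s : F, s + σ s + τ * σ τ * D e e = 0 →
      θ • ((σ τ • ψ (uRk D a e) - τ • ψ (uRk D e a) + s • n) * Z * n +
        n * Z * (σ τ • ψ (uRk D a e) - τ • ψ (uRk D e a) - σ s • n)) ∈ N := fun τ s hs => by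
    have h5 : D (τ • e) a = 0 := by simp [hD.eq_zero_symm h4]
    have h8 := hD.uEich0 ha h5
    have hs' : s + σ s + D (τ • e) (τ • e) = 0 := by simp; linear_combination hs
    have h9 := hD.uEich_mem h8 hs'
    have := N.sub_mem (hN _ h3 _ h9) h3
    have e1 : ψ (uEich D a (τ • e) s) * n = n := by
      rw [hn, ← map_mul, mul_uRk, LinearEquiv.coe_coe, h8.apply_self]
    have e2 : n * ψ ((uEich D a (τ • e) s)⁻¹ : U ≃ₗ[F] U) = n := by
      rw [hn, ← map_mul]
      exact congrArg ψ (LinearMap.ext fun x => by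
        simp [← UG_apply_right h9.1, h8.apply_self])
    have e3 : ∀ W, ψ (uEich D a (τ • e) s) * (n * W) = n * W := fun W => by rw [← mul_assoc, e1]
    simp only [mul_add, add_mul, mul_sub, sub_mul, smul_mul_assoc, mul_smul_comm, mul_assoc, e2,
      e3] at this
    rw [h8.inv, c1 _ _ h5, c1 _ _ h8.neg.perp, show -s - D (τ • e) (τ • e) = σ s by
      linear_combination -hs', ← neg_smul] at this
    convert this using 1
    simp only [uRk_smul_left, uRk_smul_right, map_add, map_sub, map_one, map_smul, ← hn, map_neg,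
      add_mul, mul_add, one_mul, mul_one, smul_mul_assoc, mul_smul_comm, sub_mul, mul_sub,
      mul_assoc]
    module
  obtain ⟨τ, hτ⟩ := hD.exists_trace_eq (a := -(r + σ r) / D e e) (by
    rw [map_div₀, map_neg, hD.trace_fixed, hD.fixed])
  obtain ⟨s, hs⟩ := hD.exists_trace_eq (a := -D e e) (by rw [map_neg, hD.fixed])
  obtain ⟨s', hs'⟩ := hD.exists_trace_eq (a := -(τ * σ τ * D e e)) (by
    rw [map_neg, map_mul, hD.norm_fixed, hD.fixed])
  convert N.sub_mem (N.sub_mem (h7 (1 + τ) (s + s' + r) (by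
    simp only [map_add, map_one]
    field_simp at hτ
    linear_combination hs + hs' + hτ)) (h7 1 s (by simp [hs]))) (h7 τ s' (by simp [hs'])) using 1
  simp only [map_add, map_one, add_mul, mul_add, smul_mul_assoc, mul_smul_comm, sub_mul, mul_sub,
    add_smul]
  module

theorem UTen.r1_of (h : UTen C D B t) {ψ : End F U →ₐ[F] End F V}
    (hψ : ∀ Y x u, ψ Y (t x u) = t x (Y u)) {u : U} (hu0 : u ≠ 0) (hu : D u u = 0)
    (H : ∀ Z, UIn M Z → (∃ Y, Z = ψ (uRk D u u) * Y * ψ (uRk D u u)) →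
      ∃ r : F, Z = r • ψ (uRk D u u)) : h.R1 M u := fun S ⟨g, hg, e⟩ => by
  obtain ⟨f, hf⟩ := h.hD.exists_uHypPair hu0 hu
  obtain ⟨r, hr⟩ := H (t.flip u ∘ₗ S ∘ₗ h.pi u) ⟨g, hg, LinearMap.ext e⟩
    ⟨t.flip f ∘ₗ S ∘ₗ h.pi f, LinearMap.ext (h.ext fun x w => by simp [hψ, hf.pair, hf.pair'])⟩
  exact ⟨r, fun x => h.t_inj hu0 (by simpa [hψ, hf.pair'] using LinearMap.congr_fun hr (t x f))⟩

/-- A generation criterion. -/
theorem IsHerm.USG_le_of_maps (hB : IsHerm B) (hD : IsHerm D) (hq : UField σ q) (hM : M ≤ UG B)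
    (h2 : 3 ≤ finrank F U) {φ φ' : U →ₗ[F] V} (h11 : ∀ u v, B (φ u) (φ v) = 0)
    (h22 : ∀ u v, B (φ' u) (φ' v) = 0) (h12 : ∀ u v, B (φ u) (φ' v) = D u v)
    (hT : ∀ u, D u u = 0 → UTv B M (φ u)) (hT' : ∀ u, D u u = 0 → UTv B M (φ' u))
    (hirr : ∀ W : Submodule F V, (∀ g ∈ M, USmall B g → ∀ x ∈ W, g x ∈ W) → W = ⊥ ∨ W = ⊤) :
    USG B ≤ M := by
  have := hq.finite
  obtain ⟨θ, hθ0, hθ⟩ := hD.exists_trace_zero
  have hθ' : θ + σ θ = 0 := by simp [hθ]
  have h21 : ∀ u v, B (φ' u) (φ v) = D u v := fun u v => by rw [← hB.symm, h12, hD.symm]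
  have : Nontrivial U := Module.nontrivial_of_finrank_pos (R := F) (by omega)
  obtain ⟨w, hw⟩ := hD.exists_norm_one
  obtain ⟨u, u', hu, h3, h4⟩ := hD.exists_uHypPair_perp' h2 (p := w) (by simp [hw])
  have h3' := hD.eq_zero_symm h3
  have h4' := hD.eq_zero_symm h4
  have key : ∀ φ : U →ₗ[F] V, (h11 : ∀ u v, B (φ u) (φ v) = 0) →
      (∀ u, D u u = 0 → UTv B M (φ u)) → φ w ∈ uYsub hB M (h11 u u) := fun φ h11 hT c => by
    have e0 : ∀ τ s : F, θ * σ s - θ * s + τ * σ τ = 0 →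
        UTv B M (φ (θ • u' + τ • w + s • u)) := fun τ s hs => hT _ (by
      simp [hu.left, hu.right, hu.pair, hu.pair', h3, h3', h4, h4', hw, hθ]
      linear_combination hs)
    have e1 : ∀ τ s : F, θ * σ s - θ * s + τ * σ τ = 0 →
        θ • φ (θ • u' + τ • w + s • u) ∈ uYadd hB M (h11 u u) := fun τ s hs =>
      hB.smul_mem_uYadd _ (h11 _ _) (h11 _ _) hθ' (by
        rw [← map_add, add_assoc, show s • u + u = (s + 1) • u by module]
        exact e0 _ _ (by rw [map_add, map_one]; linear_combination hs) θ hθ') (e0 τ s hs θ hθ')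
    obtain ⟨r, hr⟩ := hD.exists_trace_eq (a := -(c / θ * σ (c / θ)))
      (by rw [map_neg, hD.norm_fixed])
    convert sub_mem (sub_mem (e1 (c / θ) (σ (r / θ)) (by
      rw [hD.invol, map_div₀ σ r, hθ, mul_div_cancel₀ _ hθ0, div_neg, mul_neg,
        mul_div_cancel₀ _ hθ0]
      linear_combination hr)) (e1 0 0 (by simp)))
        (hB.smul_self_mem_uYadd (h11 u u) (θ * σ (r / θ))) using 1
    simp only [map_add, map_smul]
    match_scalars <;> field_simp <;> ring
  have p1 : UHypPair B (φ u) (φ' u') := hB.uHypPair (h11 _ _) (h22 _ _) (by rw [h12, hu.pair])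
  have p2 : UHypPair B (φ' u) (φ u') := hB.uHypPair (h22 _ _) (h11 _ _) (by rw [h21, hu.pair])
  refine hB.USG_le_of_two_pairs hq hM hirr p1 p2 (by rw [h21, hu.left]) (h22 _ _) (h11 _ _)
    (by rw [h12, hu.right]) (hT _ hu.left) (hT' _ hu.right) (hT _ hu.right) ?_
  obtain ⟨i, s, -, H⟩ := hB.uYadd_of_uYsub (key φ' h22 hT')
  have h5 := hB.uEich0 p2.left i
  have := Submodule.sub_mem _ (hB.uYsub_map' hM (key φ h11 hT) H (by
    simp [h5.apply, h12, hu.left, h3'])) (key φ h11 hT)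
  simpa [h5.apply, h12, h3, hw] using this

/-- `(V, B)` is a tensor power of `(U, D)`. -/
structure UPow (D : U →ₗ[F] U →ₛₗ[σ] F) (B : V →ₗ[F] V →ₛₗ[σ] F) (τ : Type) [Fintype τ]
    [DecidableEq τ] where
  /-- pure vectors -/
  pv : MultilinearMap F (fun _ : τ => U) V
  /-- pure maps -/
  pm : (τ → End F U) → End F V
  /-- the slots -/
  ψ : τ → End F U →ₐ[F] End F V
  /-- the factor of proportionality -/
  c : F
  c_ne : c ≠ 0
  hD : IsHerm D
  hB : IsHerm B
  pm_pv : ∀ n x, pm n (pv x) = pv fun i => n i (x i)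
  psi_pv : ∀ i Y x, ψ i Y (pv x) = pv (update x i (Y (x i)))
  span : ∀ W : Submodule F V, (∀ x, pv x ∈ W) → W = ⊤
  form : ∀ x y, B (pv x) (pv y) = c * ∏ i, D (x i) (y i)

namespace UPow

variable {τ : Type} [Fintype τ] [DecidableEq τ] (T : UPow D B τ)

theorem ext {Y : Type*} [AddCommGroup Y] [Module F Y] {L L' : V →ₗ[F] Y}
    (e : ∀ x, L (T.pv x) = L' (T.pv x)) : L = L' :=
  LinearMap.ext fun v => ((T.span (LinearMap.eqLocus L L') e).ge trivial : v ∈ _)

theorem eq_of {v v' : V} (e : ∀ x, B v (T.pv x) = B v' (T.pv x)) : v = v' :=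
  T.hB.ext_right (LinearMap.congr_fun (T.ext (L := B.flip v) (L' := B.flip v') fun x => by
    simp only [LinearMap.flip_apply, ← T.hB.symm _ (T.pv x), e]))

theorem adj_of {L L' : End F V} (e : ∀ x y, B (L (T.pv x)) (T.pv y) = B (T.pv x) (L' (T.pv y)))
    (v w : V) : B (L v) w = B v (L' w) := by
  have h1 : ∀ y v, B (L v) (T.pv y) = B v (L' (T.pv y)) := fun y =>
    LinearMap.congr_fun (T.ext (L := B.flip (T.pv y) ∘ₗ L) (L' := B.flip (L' (T.pv y))) (e · y))
  rw [← T.hB.symm, ← T.hB.symm (L' w)]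
  exact congrArg σ (LinearMap.congr_fun (T.ext (L := B.flip (L v)) (L' := B.flip v ∘ₗ L')
    fun y => by
      simp only [LinearMap.flip_apply, LinearMap.comp_apply]
      rw [← T.hB.symm, h1, T.hB.symm]) w)

theorem form_update (x y : τ → U) (i : τ) (a b : U) :
    B (T.pv (update x i a)) (T.pv (update y i b)) =
      T.c * (∏ j ∈ Finset.univ.erase i, D (x j) (y j)) * D a b := by
  rw [T.form, ← Finset.prod_erase_mul _ _ (Finset.mem_univ i), update_self, update_self, mul_assoc]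
  congr 2
  exact Finset.prod_congr rfl fun j hj => by
    rw [update_of_ne (Finset.ne_of_mem_erase hj), update_of_ne (Finset.ne_of_mem_erase hj)]

theorem adj (i : τ) (a b : U) (v w : V) :
    B (T.ψ i (uRk D a b) v) w = B v (T.ψ i (uRk D b a) w) := T.adj_of (fun x y => by
  rw [T.psi_pv, T.psi_pv]
  conv_lhs => rw [← update_eq_self i y]
  conv_rhs => rw [← update_eq_self i x]
  rw [T.form_update, T.form_update]
  simp [T.hD.symm, mul_comm]) v w

theorem pm_mul (n n' : τ → End F U) : T.pm n * T.pm n' = T.pm fun i => n i * n' i :=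
  T.ext fun x => by simp [T.pm_pv]

theorem pm_one : T.pm (fun _ => 1) = 1 := T.ext fun x => by simp [T.pm_pv]

theorem pm_zero {n : τ → End F U} (i : τ) (h : n i = 0) : T.pm n = 0 :=
  T.ext fun x => by rw [T.pm_pv]; exact T.pv.map_coord_zero i (by simp [h])

theorem pm_smul (a : τ → F) (n : τ → End F U) :
    T.pm (fun i => a i • n i) = (∏ i, a i) • T.pm n :=
  T.ext fun x => by simp [T.pm_pv, MultilinearMap.map_smul_univ]

theorem psi_eq (i : τ) (Y : End F U) : T.ψ i Y = T.pm (update (fun _ => 1) i Y) :=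
  T.ext fun x => by
    rw [T.pm_pv, T.psi_pv]
    exact congrArg T.pv (funext fun j => by by_cases h : j = i <;> simp [h])

theorem psi_mul_pm (i : τ) (Y : End F U) (n : τ → End F U) :
    T.ψ i Y * T.pm n = T.pm (update n i (Y * n i)) := by
  rw [psi_eq, pm_mul]
  exact congrArg T.pm (funext fun j => by by_cases h : j = i <;> simp [h])

theorem pm_mul_psi (i : τ) (Y : End F U) (n : τ → End F U) :
    T.pm n * T.ψ i Y = T.pm (update n i (n i * Y)) := by
  rw [psi_eq, pm_mul]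
  exact congrArg T.pm (funext fun j => by by_cases h : j = i <;> simp [h])

theorem psi_comm {i j : τ} (h : i ≠ j) (Y Y' : End F U) :
    T.ψ i Y * T.ψ j Y' = T.ψ j Y' * T.ψ i Y := by
  rw [T.psi_eq j, psi_mul_pm, pm_mul_psi, update_of_ne h, mul_one, one_mul]

theorem pv_ne_zero {x : τ → U} (hx : ∀ i, x i ≠ 0) : T.pv x ≠ 0 := fun e => by
  choose y hy using fun i => T.hD.exists_eq_one (hx i)
  have := T.form x y
  simp [e, hy, T.c_ne.symm] at this

theorem c_fixed [Finite F] [Nontrivial U] : σ T.c = T.c := by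
  obtain ⟨p, hp⟩ := T.hD.exists_norm_one
  simpa [T.form, hp] using T.hB.fixed (T.pv fun _ => p)

theorem eq_top_of_pure [Finite F] (hn : 2 ≤ finrank F U) {W : Submodule F V}
    (H : ∀ x, (∀ i, x i ≠ 0 ∧ D (x i) (x i) = 0) → T.pv x ∈ W) : W = ⊤ := by
  have key : ∀ S : Finset τ, ∀ x, (∀ i ∉ S, x i ≠ 0 ∧ D (x i) (x i) = 0) → T.pv x ∈ W := fun S => by
    induction S using Finset.induction_on with
    | empty => exact fun x hx => H x (by simpa using hx)
    | insert j S hj ih =>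
      intro x hx
      have := (T.hD.eq_top_of_isotropic hn (U := W.comap (T.pv.toLinearMap x j)) fun a ha => by
        by_cases h0 : a = 0
        · simp [h0]
        exact ih _ fun i hi => by
          by_cases e : i = j
          · simp [e, h0, ha]
          · simpa [e] using hx i (by simp [e, hi])).ge (trivial : x j ∈ ⊤)
      simpa using this
  exact T.span W fun x => key Finset.univ x (by simp)

theorem USG_le [Nontrivial τ] (hq : UField σ q) (hM : M ≤ UG B) (hn : 3 ≤ finrank F U)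
    (hT : ∀ x, (∀ i, x i ≠ 0 ∧ D (x i) (x i) = 0) → UTv B M (T.pv x)) : USG B ≤ M := by
  have := hq.finite
  have hB := T.hB
  have : Nontrivial U := Module.nontrivial_of_finrank_pos (R := F) (by omega)
  obtain ⟨i, j, hij⟩ := exists_pair_ne τ
  obtain ⟨e, f, he⟩ := T.hD.exists_uHypPair' (by omega)
  have h0 : ∀ a, a ≠ 0 → D a a = 0 → ∀ u, D u u = 0 → UTv B M (T.pv (update (fun _ => a) i u)) :=
    fun a ha0 ha u hu => by
      by_cases h : u = 0
      · intro c _
        rw [h, T.pv.map_update_zero, uRefl_zero_left]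
        exact M.one_mem
      exact hT _ fun l => by by_cases e : l = i <;> simp [e, h, hu, ha0, ha]
  have h1 : ∀ a, D a a = 0 → ∀ u v, B (T.pv (update (fun _ => a) i u))
      (T.pv (update (fun _ => a) i v)) = 0 := fun a ha u v => by
    rw [T.form_update, Finset.prod_eq_zero (i := j) (by simp [hij.symm]) ha]; simp
  refine hB.USG_le_of_maps T.hD hq hM hn (φ := T.pv.toLinearMap (fun _ => e) i)
    (φ' := T.c⁻¹ • T.pv.toLinearMap (fun _ => f) i) (h1 e he.left)
    (fun u v => by simp [h1 f he.right]) (fun u v => by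
      simp [T.form_update, he.pair, T.c_fixed, T.c_ne]) (h0 e he.left_ne_zero he.left)
    (fun u hu => (h0 f he.right_ne_zero he.right u hu).smul hB _) fun W hW => ?_
  obtain ⟨θ, hθ0, hθ⟩ := hB.exists_trace_zero
  have h7 : ∀ x, (∀ i, x i ≠ 0 ∧ D (x i) (x i) = 0) → T.pv x ∈ W ∨ ∀ v ∈ W, B v (T.pv x) = 0 :=
    fun x hx => u_mem_or_perp hθ0 (by
      rw [T.form, Finset.prod_eq_zero (Finset.mem_univ i) (hx i).2]; simp)
      (hW _ (hT x hx θ (by simp [hθ])) ⟨T.pv x, T.pv x, fun v hv _ => uRefl_apply_of_perp _ hv⟩)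
  by_cases h8 : ∃ x, (∀ i, x i ≠ 0 ∧ D (x i) (x i) = 0) ∧ T.pv x ∈ W
  · obtain ⟨x, i1, i2⟩ := h8
    have h9 : ∀ x y, T.pv x ∈ W → (∀ i, D (y i) (y i) = 0) → (∀ i, D (x i) (y i) ≠ 0) →
        T.pv y ∈ W := fun x y j1 j2 j3 =>
      (h7 y fun i => ⟨fun e => j3 i (by simp [e]), j2 i⟩).resolve_right fun H => by
        simpa [T.form, T.c_ne, Finset.prod_eq_zero_iff, j3] using H _ j1
    refine Or.inr (T.eq_top_of_pure (by omega) fun y hy => ?_)
    choose z k1 k2 k3 using fun i => T.hD.exists_isotropic_two (i1 i).1 (hy i).1 (i1 i).2 (hy i).2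
    exact h9 z y (h9 x z i2 k1 k2) (fun i => (hy i).2) fun i => mt T.hD.eq_zero_symm (k3 i)
  · push Not at h8
    refine Or.inl (le_bot_iff.1 (hB.uPerp_top ▸ hB.le_uPerp_comm.1 ?_))
    exact (T.eq_top_of_pure (W := uPerp B W) (by omega) fun y hy =>
      (h7 y hy).resolve_left (h8 y hy)).ge

/-- `Z` is proportional to `m` in the slot `i`. -/
def Prp (i : τ) (m : End F U) (Z : End F V) : Prop := ∀ x y : τ → U, ∃ ρ : F, ∀ a b,
  B (Z (T.pv (update x i a))) (T.pv (update y i b)) = ρ * D (m a) b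

theorem eq_smul_pm {n : τ → End F U} (hn : ∀ i, n i ≠ 0) {Z : End F V}
    (h : ∀ i, T.Prp i (n i) Z) : ∃ r : F, Z = r • T.pm n := by
  choose a ha using fun i => not_forall.1 fun e => hn i (LinearMap.ext e)
  choose b hb using fun i => T.hD.exists_eq_one (ha i)
  have key : ∀ S : Finset τ, ∀ x y, B (Z (T.pv x)) (T.pv y) =
      B (Z (T.pv (S.piecewise a x))) (T.pv (S.piecewise b y)) * ∏ i ∈ S, D (n i (x i)) (y i) :=
    fun S x y => by
      induction S using Finset.induction_on with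
      | empty => simp
      | insert j S hj ih =>
        obtain ⟨ρ, hρ⟩ := h j (S.piecewise a x) (S.piecewise b y)
        have h1 := hρ (x j) (y j)
        rw [update_eq_self_iff.2 (S.piecewise_eq_of_notMem _ _ hj).symm,
          update_eq_self_iff.2 (S.piecewise_eq_of_notMem _ _ hj).symm] at h1
        rw [ih, h1, Finset.piecewise_insert, Finset.piecewise_insert, hρ, hb,
          Finset.prod_insert hj]
        ring
  refine ⟨B (Z (T.pv a)) (T.pv b) / T.c, T.ext fun x => T.eq_of fun y => ?_⟩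
  have := T.c_ne
  rw [key Finset.univ, LinearMap.smul_apply, T.pm_pv, map_smul, LinearMap.smul_apply, T.form]
  simp only [Finset.piecewise_univ, smul_eq_mul]
  field_simp

theorem prp_of_form {i : τ} {w : U} (Y : End F V) :
    T.Prp i (uRk D w w) (T.ψ i (uRk D w w) * Y * T.ψ i (uRk D w w)) := fun x y =>
  ⟨B (Y (T.pv (update x i w))) (T.pv (update y i w)), fun a b => by
    simp [T.adj, T.psi_pv, MultilinearMap.map_update_smul, T.hD.symm]
    ring⟩

theorem prp_of_null [Finite F] (hn : 2 ≤ finrank F U) {i : τ} {Z : End F V}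
    (h : ∀ a, a ≠ 0 → D a a = 0 → T.ψ i (uRk D a a) * Z * T.ψ i (uRk D a a) = 0) :
    T.Prp i 1 Z := fun x y => by
  obtain ⟨r, hr⟩ := T.hD.scalar_of_null' hn (S := T.hD.dag T.hB (T.pv.toLinearMap y i) ∘ₗ Z ∘ₗ
    T.pv.toLinearMap x i) fun a ha => by
      by_cases h0 : a = 0
      · simp [h0]
      obtain ⟨f, hf⟩ := T.hD.exists_uHypPair h0 ha
      have := congrArg (fun L : End F V => B (L (T.pv (update x i f))) (T.pv (update y i f)))
        (h a h0 ha)
      simpa [T.adj, T.psi_pv, hf.pair'] using this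
  exact ⟨r, fun a b => by simpa using congrArg (fun u => D u b) (hr a)⟩

end UPow

end Cfsg.Agent.Cl
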