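import Mathlib
import Cfsg.Agent.Cl.MaxSUWrB

/-!
# Overgroups of the stabiliser of a tensor power: elements of rank one in a slot
-/

set_option autoImplicit false
set_option linter.unusedSectionVars false

namespace Cfsg.Agent.Cl

open Module Function

variable {F : Type*} [Field F] {σ : F →+* F} {V : Type*} [AddCommGroup V] [Module F V]
  [FiniteDimensional F V] {B : V →ₗ[F] V →ₛₗ[σ] F} {M : Subgroup (V ≃ₗ[F] V)}
  {U : Type*} [AddCommGroup U] [Module F U] [FiniteDimensional F U] {D : U →ₗ[F] U →ₛₗ[σ] F}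
  {q : ℕ} {τ : Type} [Fintype τ] [DecidableEq τ]

theorem IsHerm.exists_iso_of_pair [Finite F] (hD : IsHerm D) (hn : 3 ≤ finrank F U) {e f : U}
    (h : UHypPair D e f) (α : F) : ∃ a, D a a = 0 ∧ D e a = 1 ∧ D a f = α := by
  obtain ⟨d, hd, hd'⟩ := hD.exists_perp_nonisotropic (hD.disjoint_span_pair h.left h.right h.pair)
    (by rw [hD.finrank_span_pair h.left h.right h.pair]; omega)
  obtain ⟨h1, h2⟩ := mem_uPerp_span_pair.1 hd
  obtain ⟨c, hc⟩ := hD.exists_smul_norm_eq hd' (c := -(α + σ α)) (by rw [map_neg, hD.trace_fixed])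
  refine ⟨α • e + c • d + f, ?_, by simp [h.left, h.pair, h1],
    by simp [h.right, h.pair, hD.eq_zero_symm h2]⟩
  simp only [map_smul, map_smulₛₗ, LinearMap.smul_apply, smul_eq_mul] at hc
  simp [h.left, h.right, h.pair, h.pair', h1, h2, hD.eq_zero_symm h1, hD.eq_zero_symm h2]
  linear_combination hc

namespace UPow

variable (T : UPow D B τ)

variable (M) in
/-- A group of isometries containing the groups of the slots and the even permutations. -/
structure Amb : Prop where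
  iso : M ≤ UG B
  slot : ∀ i, ∀ b ∈ USG D, ∃ g ∈ M, (g : End F V) = T.ψ i b
  perm : ∀ π : Equiv.Perm τ, Equiv.Perm.sign π = 1 → ∃ g ∈ M, ∀ x,
    g (T.pv x) = T.pv fun i => x (π i)

/-- The pure map with factors of rank one in the slots of `A`. -/
def nA (A : Finset τ) (w : τ → U) : End F V :=
  T.pm fun i => if i ∈ A then uRk D (w i) (w i) else 1

variable (M) in
/-- `1 + Z` lies in `M` and `Z` has rank one in the slots of `A`. -/
def Nm (A : Finset τ) (w : τ → U) (Z : End F V) : Prop :=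
  UIn M Z ∧ ∀ i ∈ A, ∃ Y, Z = T.ψ i (uRk D (w i) (w i)) * Y * T.ψ i (uRk D (w i) (w i))

variable (M) in
/-- All pure elements of type `A` lie in `M`. -/
def PA (A : Finset τ) : Prop := ∀ w : τ → U, (∀ i, w i ≠ 0 ∧ D (w i) (w i) = 0) →
  ∀ c : F, c + σ c = 0 → UIn M (c • T.nA A w)

theorem nA_empty (w : τ → U) : T.nA ∅ w = 1 := by simp [nA, T.pm_one]

theorem nA_insert {A : Finset τ} {j : τ} (hj : j ∉ A) (w : τ → U) :
    T.nA (insert j A) w = T.ψ j (uRk D (w j) (w j)) * T.nA A w ∧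
      T.nA (insert j A) w = T.nA A w * T.ψ j (uRk D (w j) (w j)) := by
  rw [nA, nA, psi_mul_pm, pm_mul_psi]
  constructor <;> exact congrArg T.pm (funext fun i => by by_cases h : i = j <;> simp [h, hj])

theorem nA_singleton (j : τ) (w : τ → U) : T.nA {j} w = T.ψ j (uRk D (w j) (w j)) := by
  simpa [T.nA_empty] using (T.nA_insert (Finset.notMem_empty j) w).1

theorem form_pm {n : τ → End F U} {i : τ} {w : U} (hw0 : w ≠ 0) (hw : D w w = 0)
    (h : n i = uRk D w w) : ∃ Y, T.pm n = T.ψ i (uRk D w w) * Y * T.ψ i (uRk D w w) := by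
  obtain ⟨f, hf⟩ := T.hD.exists_uHypPair hw0 hw
  refine ⟨T.pm (update n i (uRk D f f)), ?_⟩
  rw [psi_mul_pm, pm_mul_psi, update_self, update_self, update_idem, update_idem, uRk_mul,
    smul_mul_assoc, uRk_mul, hf.pair, hf.pair', one_smul, one_smul, ← h, update_eq_self]

variable {T} [Finite F] (a : T.Amb M) (hn : 3 ≤ finrank F U)
include a hn

theorem Amb.extract {A : Finset τ} (hA : A.Nonempty) {w : τ → U}
    (hw : ∀ i, w i ≠ 0 ∧ D (w i) (w i) = 0) {j : τ} (hj : j ∉ A) {Z : End F V} (hZ : T.Nm M A w Z) :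
    ∃ κ : F, κ ≠ 0 ∧ T.Nm M (insert j A) w
      (κ • (T.ψ j (uRk D (w j) (w j)) * Z * T.ψ j (uRk D (w j) (w j)))) := by
  have h0 : ∀ {Z Z'}, T.Nm M A w Z → T.Nm M A w Z' → Z * Z' = 0 := fun h h' => by
    obtain ⟨i, hi⟩ := hA
    obtain ⟨Y, rfl⟩ := h.2 i hi
    obtain ⟨Y', rfl⟩ := h'.2 i hi
    rw [mul_assoc, ← mul_assoc _ _ (T.ψ i _), ← mul_assoc (T.ψ i _), ← map_mul, uRk_mul, (hw i).2]
    simp
  let N : AddSubgroup (End F V) :=
    { carrier := {Z | T.Nm M A w Z}
      add_mem' := fun {Z Z'} h h' => ⟨by simpa [h0 h h'] using h.1.mul h'.1, fun i hi => by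
        obtain ⟨Y, rfl⟩ := h.2 i hi
        obtain ⟨Y', rfl⟩ := h'.2 i hi
        exact ⟨Y + Y', by rw [mul_add, add_mul]⟩⟩
      zero_mem' := ⟨uIn_zero, fun i _ => ⟨0, by simp⟩⟩
      neg_mem' := fun {Z} h => ⟨h.1.neg (h0 h h), fun i hi => by
        obtain ⟨Y, rfl⟩ := h.2 i hi
        exact ⟨-Y, by simp⟩⟩ }
  obtain ⟨κ, h1, h2⟩ := T.hD.exists_extract hn (hw j).1 (hw j).2 (T.ψ j)
  have h3 : T.Nm M A w _ := h2 N (fun Z hZ b hb => by
    obtain ⟨g, hg, e⟩ := a.slot j b hb
    refine ⟨hZ.1.conj hg (by rw [e, mul_assoc, ← map_mul, u_coe_inv_mul, map_one, mul_one]),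
      fun i hi => ?_⟩
    obtain ⟨Y, rfl⟩ := hZ.2 i hi
    have hij : j ≠ i := fun e => hj (e ▸ hi)
    exact ⟨T.ψ j b * Y * T.ψ j (b⁻¹ : U ≃ₗ[F] U), by
      simp only [← mul_assoc, T.psi_comm hij]
      simp only [mul_assoc, T.psi_comm hij]⟩) Z hZ
  exact ⟨κ, h1, h3.1, fun i hi => (Finset.mem_insert.1 hi).elim
    (fun e => ⟨κ • Z, by simp [e]⟩) (h3.2 i)⟩

theorem Amb.extract_many {A : Finset τ} (hA : A.Nonempty) {w : τ → U}
    (hw : ∀ i, w i ≠ 0 ∧ D (w i) (w i) = 0) {Z : End F V} (hZ : T.Nm M A w Z) (S : Finset τ)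
    (hS : Disjoint S A) : ∃ κ : F, κ ≠ 0 ∧ T.Nm M (S ∪ A) w (κ • (T.nA S w * Z * T.nA S w)) := by
  induction S using Finset.induction_on with
  | empty => exact ⟨1, one_ne_zero, by simpa [T.nA_empty] using hZ⟩
  | insert j S hj ih =>
    rw [Finset.disjoint_insert_left] at hS
    obtain ⟨κ, h1, h2⟩ := ih hS.2
    obtain ⟨κ', h3, h4⟩ := a.extract hn (hA.mono Finset.subset_union_right) hw (j := j)
      (by simp [hj, hS.1]) h2
    refine ⟨κ' * κ, mul_ne_zero h3 h1, ?_⟩
    rw [Finset.insert_union]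
    convert h4 using 1
    conv_lhs => rw [(T.nA_insert hj w).1, (T.nA_insert hj w).1.symm.trans (T.nA_insert hj w).2]
    nth_rewrite 1 [← (T.nA_insert hj w).1.symm.trans (T.nA_insert hj w).2]
    simp only [mul_assoc, smul_mul_assoc, mul_smul_comm, smul_smul]

omit hn in
theorem Amb.exists_pm {b : τ → U ≃ₗ[F] U} (hb : ∀ i, b i ∈ USG D) :
    ∃ g ∈ M, (g : End F V) = T.pm fun i => b i := by
  have key : ∀ S : Finset τ, ∃ g ∈ M, (g : End F V) =
      T.pm fun i => if i ∈ S then b i else 1 := fun S => by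
    induction S using Finset.induction_on with
    | empty => exact ⟨1, M.one_mem, by simp only [Finset.notMem_empty, if_false, T.pm_one]; rfl⟩
    | insert j S hj ih =>
      obtain ⟨g, hg, e⟩ := ih
      obtain ⟨k, hk, e'⟩ := a.slot j _ (hb j)
      exact ⟨k * g, M.mul_mem hk hg, by
        rw [u_coe_mul, e, e', psi_mul_pm]
        exact congrArg T.pm (funext fun i => by by_cases h : i = j <;> simp [h, hj])⟩
  simpa using key Finset.univ

theorem Amb.pA_of {A : Finset τ} (hA : A.Nonempty) {w : τ → U}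
    (hw : ∀ i, w i ≠ 0 ∧ D (w i) (w i) = 0) {r : F} (hr : r ≠ 0) (h : UIn M (r • T.nA A w)) :
    T.PA M A := fun w' hw' c hc => by
  obtain ⟨i, hi⟩ := hA
  have h1 : r + σ r = 0 := by
    obtain ⟨g, hg, e⟩ := h
    choose f hf using fun i => T.hD.exists_uHypPair (hw i).1 (hw i).2
    have h2 : T.nA A w (T.pv (A.piecewise f w)) = T.pv w := by
      rw [nA, T.pm_pv]
      exact congrArg T.pv (funext fun j => by by_cases h : j ∈ A <;> simp [h, (hf j).pair'])
    have h3 : T.nA A w (T.pv f) = T.pv (A.piecewise w f) := by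
      rw [nA, T.pm_pv]
      exact congrArg T.pv (funext fun j => by by_cases h : j ∈ A <;> simp [h, (hf j).pair'])
    have := UG_map (a.iso hg) (T.pv (A.piecewise f w)) (T.pv f)
    rw [← LinearEquiv.coe_coe, e] at this
    have h4 : ∏ j, D (w j) (A.piecewise w f j) = 0 :=
      Finset.prod_eq_zero (Finset.mem_univ i) (by simp [hi, (hw i).2])
    have h5 : ∏ j, D (A.piecewise f w j) (A.piecewise w f j) = 1 :=
      Finset.prod_eq_one fun j _ => by by_cases h : j ∈ A <;> simp [h, (hf j).pair, (hf j).pair']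
    simp only [LinearMap.add_apply, Module.End.one_apply, LinearMap.smul_apply, h2, h3, map_add,
      map_smul, map_smulₛₗ, T.form, h4, h5, (hf _).pair, Finset.prod_const_one, smul_eq_mul] at this
    exact mul_right_cancel₀ T.c_ne (by linear_combination this)
  obtain ⟨μ, hμ⟩ := T.hD.exists_norm_eq (a := c / r) (by
    rw [map_div₀, eq_neg_of_add_eq_zero_right hc, eq_neg_of_add_eq_zero_right h1, neg_div_neg_eq])
  by_cases h0 : μ = 0
  · rw [show c = 0 by simpa [h0, hr] using hμ.symm, zero_smul]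
    exact uIn_zero
  choose b hb hb' using fun j => T.hD.exists_USG_isotropic hn (hw j).1 (hw j).2
    (z' := (if j = i then μ else 1) • w' j) (smul_ne_zero (by split_ifs <;> simp [h0]) (hw' j).1)
    (by split_ifs <;> simp [(hw' j).2])
  obtain ⟨g, hg, e⟩ := a.exists_pm hb
  refine h.conj hg ?_
  rw [e, nA, nA, mul_smul_comm, smul_mul_assoc, pm_mul, pm_mul, show c = r * ∏ j,
    if j = i then μ * σ μ else 1 by simp [hμ, mul_div_cancel₀ _ hr], mul_smul, ← pm_smul]
  refine congrArg (r • T.pm ·) (funext fun j => LinearMap.ext fun x => ?_)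
  by_cases h : j ∈ A
  · simp only [h, if_true, Module.End.mul_apply, uRk_apply, map_smul, LinearEquiv.coe_coe,
      ← USG_map (hb j) x, hb', LinearMap.smul_apply]
    split_ifs <;> simp [smul_smul, mul_assoc, mul_comm]
  · have : j ≠ i := fun e => h (e ▸ hi)
    simp [h, this]

theorem Amb.pA_insert {A : Finset τ} (h : T.PA M A) (h2 : 2 ≤ A.card) {j : τ} (hj : j ∉ A) :
    T.PA M (insert j A) := by
  obtain ⟨s, hs, i, hi, hsi⟩ := Finset.one_lt_card.1 h2
  have hjs : j ≠ s := fun e => hj (e ▸ hs)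
  have hji : j ≠ i := fun e => hj (e ▸ hi)
  obtain ⟨θ, hθ0, hθ⟩ := T.hD.exists_trace_zero
  obtain ⟨e, f, he⟩ := T.hD.exists_uHypPair' (by omega)
  obtain ⟨α, hα⟩ := T.hD.exists_ne
  obtain ⟨u, u1, u2, u3⟩ := T.hD.exists_iso_of_pair hn he α
  obtain ⟨v, v1, v2, v3⟩ := T.hD.exists_iso_of_pair hn he 1
  obtain ⟨g, hg, hg'⟩ := a.perm (Equiv.swap s i * Equiv.swap s j) (by
    rw [map_mul, Equiv.Perm.sign_swap hsi, Equiv.Perm.sign_swap hjs.symm]; simp)
  let n : τ → End F U := fun l => if l ∈ A then uRk D e e else 1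
  let n' : τ → End F U := fun l => if l ∈ insert j (A.erase s) then uRk D f f else 1
  have h3 : UIn M (θ • T.pm n) := h (fun _ => e) (fun _ => ⟨he.left_ne_zero, he.left⟩) θ (by simp [hθ])
  have h4 : UIn M (θ • T.pm n') :=
    (h (fun _ => f) (fun _ => ⟨he.right_ne_zero, he.right⟩) θ (by simp [hθ])).conj hg
      (T.ext fun x => by
        simp only [Module.End.mul_apply, LinearEquiv.coe_coe, LinearMap.smul_apply, nA, T.pm_pv,
          hg', map_smul]
        refine congrArg (θ • T.pv ·) (funext fun l => ?_)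
        have : (Equiv.swap s i * Equiv.swap s j) l ∈ A ↔ l ∈ insert j (A.erase s) := by
          simp only [Equiv.Perm.mul_apply, Equiv.swap_apply_def, Finset.mem_insert,
            Finset.mem_erase]
          have := hjs.symm
          split_ifs <;> simp_all
        simp only [this, n'])
  have ns : n s = uRk D e e := if_pos hs
  have nj : n j = 1 := if_neg hj
  have ns' : n' s = 1 := if_neg (by simp [hjs.symm])
  have nj' : n' j = uRk D f f := if_pos (by simp)
  have h5 := h3.comm h4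
    (by simp only [smul_mul_smul_comm, pm_mul]
        rw [T.pm_zero s (by simp [ns, uRk_mul, he.left]), smul_zero])
    (by simp only [smul_mul_smul_comm, pm_mul]
        rw [T.pm_zero j (by simp [nj', uRk_mul, he.right]), smul_zero])
    (by simp only [smul_mul_smul_comm, pm_mul]
        rw [T.pm_zero s (by simp [ns, ns', uRk_mul, he.left]), smul_zero])
    (by simp only [smul_mul_smul_comm, pm_mul]
        rw [T.pm_zero j (by simp [nj, nj', uRk_mul, he.right]), smul_zero])
  simp only [smul_mul_smul_comm, pm_mul, ← smul_sub] at h5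
  let w : τ → U := fun l => if l = s then e else if l = j then f else if l = i then u else v
  have hw : ∀ l, w l ≠ 0 ∧ D (w l) (w l) = 0 := fun l => by
    simp only [w]
    split_ifs
    exacts [⟨he.left_ne_zero, he.left⟩, ⟨he.right_ne_zero, he.right⟩,
      ⟨by rintro rfl; simp at u2, u1⟩, ⟨by rintro rfl; simp at v2, v1⟩]
  obtain ⟨κ, h6, h7, -⟩ := a.extract_many hn (A := {s, j}) (by simp) hw ⟨h5, fun l hl => by
    have hl' : (n l * n' l = uRk D (w l) (w l)) ∧ n' l * n l = uRk D (w l) (w l) := by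
      rcases Finset.mem_insert.1 hl with rfl | hl
      · simp [ns, ns', w]
      · rw [Finset.mem_singleton.1 hl]; simp [nj, nj', w, hjs]
    obtain ⟨Y, hY⟩ := T.form_pm (n := fun l => n l * n' l) (hw l).1 (hw l).2 hl'.1
    obtain ⟨Y', hY'⟩ := T.form_pm (n := fun l => n' l * n l) (hw l).1 (hw l).2 hl'.2
    exact ⟨(θ * θ) • (Y - Y'), by rw [hY, hY', mul_smul_comm, smul_mul_assoc, mul_sub, sub_mul]⟩⟩
    (A.erase s) (by simp [hj])
  have h8 : ∀ (m : τ → End F U) (β : F), m s = uRk D e e → m j = uRk D f f →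
      (∀ l ∉ insert j A, m l = 1) → uRk D u u * m i * uRk D u u = β • uRk D u u →
      (∀ l ∈ A, l ≠ s → uRk D v v * m l * uRk D v v = uRk D v v) →
      T.nA (A.erase s) w * T.pm m * T.nA (A.erase s) w = β • T.nA (insert j A) w :=
    fun m β i1 i2 i3 i4 i5 => by
      rw [nA, nA, pm_mul, pm_mul, show β = ∏ l, if l = i then β else 1 by simp, ← pm_smul]
      refine congrArg T.pm (funext fun l => ?_)
      by_cases l1 : l = s
      · simp [l1, i1, w, hs, hsi]
      by_cases l2 : l = j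
      · simp [l2, i2, w, hj, hjs, hji]
      by_cases l3 : l = i
      · simp [l3, i4, w, hi, hsi.symm, hji.symm]
      by_cases l4 : l ∈ A
      · simp [l1, l2, l3, l4, w, i5 l l4 l1]
      · simp [l2, l3, l4, i3 l (by simp [l2, l4])]
  have u2' := T.hD.eq_one_symm u2
  have v2' := T.hD.eq_one_symm v2
  have v3' := T.hD.eq_one_symm v3
  have u3' : D f u = σ α := by rw [← T.hD.symm, u3]
  rw [mul_smul_comm, smul_mul_assoc, mul_sub, sub_mul,
    h8 _ α (by simp [ns, ns']) (by simp [nj, nj']) (fun l hl => by simp_all [n, n'])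
      (by simp [n, n', hi, hsi.symm, uRk_mul, he.pair', u2, u3])
      (fun l l1 l2 => by simp [n, n', l1, l2, uRk_mul, he.pair', v2, v3]),
    h8 _ (σ α) (by simp [ns, ns']) (by simp [nj, nj']) (fun l hl => by simp_all [n, n'])
      (by simp [n, n', hi, hsi.symm, uRk_mul, he.pair, u2', u3'])
      (fun l l1 l2 => by simp [n, n', l1, l2, uRk_mul, he.pair, v2', v3']),
    ← sub_smul, smul_smul, smul_smul] at h7
  exact a.pA_of hn (by simp) hw (by simp [h6, hθ0, sub_eq_zero, hα.symm]) h7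

theorem Amb.pure {A : Finset τ} {w : τ → U} (hw : ∀ i, w i ≠ 0 ∧ D (w i) (w i) = 0) {Z : End F V}
    (hA : A.Nonempty) (hZ : T.Nm M A w Z) (H : ∀ j ∉ A, ∀ w', (∀ i, w' i ≠ 0 ∧ D (w' i) (w' i) = 0) →
      ∀ Z', T.Nm M (insert j A) w' Z' → Z' = 0) : ∃ r : F, Z = r • T.nA A w := by
  refine T.eq_smul_pm (fun i => ?_) fun i => ?_
  · obtain ⟨f, hf⟩ := T.hD.exists_uHypPair (hw i).1 (hw i).2
    split_ifs
    · exact fun e => (hw i).1 (by simpa [hf.pair'] using LinearMap.congr_fun e f)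
    · exact fun e => (hw i).1 (by simpa using LinearMap.congr_fun e (w i))
  split_ifs with hi
  · obtain ⟨Y, rfl⟩ := hZ.2 i hi
    exact T.prp_of_form Y
  refine T.prp_of_null (by omega) fun u hu0 hu => ?_
  have hw' : ∀ l, update w i u l ≠ 0 ∧ D (update w i u l) (update w i u l) = 0 := fun l => by
    by_cases e : l = i <;> simp [e, hu0, hu, hw]
  obtain ⟨κ, h1, h2⟩ := a.extract hn hA hw' hi (Z := Z) ⟨hZ.1, fun l hl => by
    rw [update_of_ne (ne_of_mem_of_not_mem hl hi)]
    exact hZ.2 l hl⟩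
  simpa [h1] using H i hi _ hw' _ h2

theorem Amb.USG_le_of_pA [Nontrivial τ] (hq : UField σ q) {A : Finset τ} (h : T.PA M A)
    (h2 : 2 ≤ A.card) : USG B ≤ M := by
  obtain ⟨A', h3, h4⟩ := Finite.exists_le_maximal h
  obtain rfl : A' = Finset.univ := Finset.eq_univ_of_forall fun j => by_contra fun hj =>
    hj (h4.2 (a.pA_insert hn h4.1 (h2.trans (Finset.card_le_card h3)) hj)
      (Finset.subset_insert _ _) (Finset.mem_insert_self _ _))
  have : Nontrivial U := Module.nontrivial_of_finrank_pos (R := F) (by omega)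
  refine T.USG_le hq a.iso hn fun x hx s hs => ?_
  obtain ⟨g, hg, e⟩ := h4.1 x hx (s * T.c) (by rw [map_mul, T.c_fixed, ← add_mul, hs, zero_mul])
  obtain ⟨i⟩ : Nonempty τ := inferInstance
  convert hg using 1
  refine LinearEquiv.toLinearMap_injective (T.ext fun y => ?_)
  rw [e, LinearEquiv.coe_coe, uRefl_apply_of_isotropic (by
    rw [T.form, Finset.prod_eq_zero (Finset.mem_univ i) (hx i).2, mul_zero])]
  simp [nA, T.pm_pv, MultilinearMap.map_smul_univ, T.form, smul_smul, mul_assoc]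

/-- In a proper overgroup the elements of rank one in a slot lie in the slot. -/
theorem Amb.eq_smul [Nontrivial τ] (hq : UField σ q) (hne : ¬ USG B ≤ M) (i : τ) {u : U}
    (hu0 : u ≠ 0) (hu : D u u = 0) (Z : End F V) (h1 : UIn M Z)
    (h2 : ∃ Y, Z = T.ψ i (uRk D u u) * Y * T.ψ i (uRk D u u)) :
    ∃ r : F, Z = r • T.ψ i (uRk D u u) := by
  rw [← T.nA_singleton i fun _ => u]
  refine a.pure hn (fun _ => ⟨hu0, hu⟩) (by simp) ⟨h1, by simpa using h2⟩
    fun j hj w hw Z hZ => by_contra fun h0 => ?_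
  obtain ⟨A, h3, ⟨w, hw, Z, hZ, h0⟩, h4⟩ := Finite.exists_le_maximal (p := fun A => ∃ w,
    (∀ i, w i ≠ 0 ∧ D (w i) (w i) = 0) ∧ ∃ Z, T.Nm M A w Z ∧ Z ≠ 0) ⟨w, hw, Z, hZ, h0⟩
  have h5 : 2 ≤ A.card := by
    simpa [Finset.card_insert_of_notMem hj] using Finset.card_le_card h3
  have h6 : A.Nonempty := Finset.card_pos.1 (by omega)
  obtain ⟨r, rfl⟩ := a.pure hn hw h6 hZ fun j hj w hw Z hZ => by_contra fun h0 =>
    hj (h4 ⟨w, hw, Z, hZ, h0⟩ (Finset.subset_insert _ _) (Finset.mem_insert_self _ _))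
  exact hne (a.USG_le_of_pA hn hq (a.pA_of hn h6 hw (left_ne_zero_of_smul h0) hZ.1) h5)

end UPow

end Cfsg.Agent.Cl
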