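import Mathlib
import Cfsg.Agent.Cl.MaxRank

/-!
# Rank one matrices and root elements of a bilinear form

`rk B a b` is `x ↦ B b x • a`; `NN`, `xr` are the root elements of the stabiliser of a singular
vector, `RootG` is the group they generate.
-/

set_option autoImplicit false
set_option linter.unusedSectionVars false
set_option linter.unusedVariables false

namespace Cfsg.Agent.Cl.Max

open Matrix Cfsg.Geo Module

variable {F : Type*} [Field F] {κ : Type} [Fintype κ] [DecidableEq κ]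

/-- A non-degenerate `ε`-symmetric bilinear form. -/
abbrev BF (B : LinearMap.BilinForm F (κ → F)) (ε : F) : Prop :=
  HForm (RingHom.id F) ε fun x y => B x y

/-- The adjoint with respect to `B`. -/
noncomputable abbrev ad (B : LinearMap.BilinForm F (κ → F)) (X : Matrix κ κ F) : Matrix κ κ F :=
  adj (RingHom.id F) (fun x y => B x y) X

/-- The isometry group of `B`. -/
abbrev isoB (B : LinearMap.BilinForm F (κ → F)) : Subgroup (GL κ F) := isoG fun x y => B x y

variable (B : LinearMap.BilinForm F (κ → F))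

/-- The map `x ↦ B b x • a`. -/
def rk : (κ → F) →ₗ[F] (κ → F) →ₗ[F] Matrix κ κ F :=
  LinearMap.mk₂ F (fun a b => vecMulVec a fun j => B b (Pi.single j 1))
    (fun a a' b => add_vecMulVec _ _ _) (fun c a b => smul_vecMulVec _ _ _)
    (fun a b b' => by ext i j; simp [vecMulVec_apply, mul_add])
    (fun c a b => by ext i j; simp [vecMulVec_apply, mul_left_comm])

theorem rk_apply (a b : κ → F) : rk B a b = vecMulVec a fun j => B b (Pi.single j 1) := rfl

theorem dot_eq (b x : κ → F) : (fun j => B b (Pi.single j 1)) ⬝ᵥ x = B b x := by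
  conv_rhs => rw [pi_eq_sum_univ' x]
  simp [dotProduct, mul_comm]

@[simp] theorem rk_mulVec (a b x : κ → F) : rk B a b *ᵥ x = B b x • a := by
  rw [rk_apply, vecMulVec_mulVec, dot_eq, op_smul_eq_smul]

theorem mul_rk (X : Matrix κ κ F) (a b : κ → F) : X * rk B a b = rk B (X *ᵥ a) b :=
  mul_vecMulVec _ _ _

@[simp] theorem rk_mul_rk (a b c d : κ → F) : rk B a b * rk B c d = B b c • rk B a d := by
  rw [mul_rk, rk_mulVec, map_smul, LinearMap.smul_apply]

theorem rk_mul_rk_mul (a b c d : κ → F) (X : Matrix κ κ F) :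
    rk B a b * (rk B c d * X) = B b c • (rk B a d * X) := by
  rw [← mul_assoc, rk_mul_rk, smul_mul_assoc]

theorem rk_mul_mul_rk (a b c d : κ → F) (X : Matrix κ κ F) :
    rk B a b * X * rk B c d = B b (X *ᵥ c) • rk B a d := by
  rw [mul_assoc, mul_rk, rk_mul_rk]

theorem trace_rk (a b : κ → F) : (rk B a b).trace = B b a := by
  rw [rk_apply, trace_vecMulVec, dotProduct_comm, dot_eq]

theorem trace_mul_rk (X : Matrix κ κ F) (a b : κ → F) : (X * rk B a b).trace = B b (X *ᵥ a) := by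
  rw [mul_rk, trace_rk]

/-- The skew map `y ∧ u`. -/
def NN (ε : F) (u : κ → F) : (κ → F) →ₗ[F] Matrix κ κ F := (rk B).flip u - ε • rk B u

theorem NN_apply (ε : F) (u y : κ → F) : NN B ε u y = rk B y u - ε • rk B u y := rfl

/-- The data of a root element. -/
structure RC (ε : F) (u y : κ → F) (c : F) : Prop where
  uu : B u u = 0
  uy : B u y = 0
  yy : ε * B y y + (1 + ε) * c = 0

/-- A hyperbolic pair. -/
structure Hyp (u u' : κ → F) : Prop where
  l : B u u = 0
  r : B u' u' = 0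
  lr : B u u' = 1

variable {B} {ε : F}

namespace HForm

variable (h : BF B ε)
include h

theorem symm' (x y : κ → F) : B x y = ε * B y x := h.herm x y

theorem zero_symm {x y : κ → F} (e : B x y = 0) : B y x = 0 := h.eq_zero_symm e

theorem ne_symm {x y : κ → F} (e : B x y ≠ 0) : B y x ≠ 0 := fun e' => e (h.zero_symm e')

theorem eps_mul' (c : F) : ε * (ε * c) = c := by rw [← mul_assoc, h.eps_mul, one_mul]

theorem eps_smul {V : Type*} [AddCommGroup V] [Module F V] (x : V) : ε • ε • x = x := by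
  rw [smul_smul, h.eps_mul, one_smul]

theorem ad_l (X : Matrix κ κ F) (x y : κ → F) : B (X *ᵥ x) y = B x (ad B X *ᵥ y) :=
  h.adj_spec X x y

theorem ad_r (X : Matrix κ κ F) (x y : κ → F) : B x (X *ᵥ y) = B (ad B X *ᵥ x) y :=
  h.adj_spec' X x y

theorem eq_zero_l {x : κ → F} (e : ∀ y, B x y = 0) : x = 0 := h.nondeg' x e

theorem eq_zero_r {x : κ → F} (e : ∀ y, B y x = 0) : x = 0 := h.nondeg x e

theorem ad_smul (c : F) (X : Matrix κ κ F) : ad B (c • X) = c • ad B X := h.adj_smul c X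

theorem ad_add (X Y : Matrix κ κ F) : ad B (X + Y) = ad B X + ad B Y := h.adj_add X Y

theorem ad_sub (X Y : Matrix κ κ F) : ad B (X - Y) = ad B X - ad B Y := h.adj_sub X Y

theorem ad_neg (X : Matrix κ κ F) : ad B (-X) = -ad B X := h.adj_neg X

theorem ad_mul (X Y : Matrix κ κ F) : ad B (X * Y) = ad B Y * ad B X := h.adj_mul X Y

theorem ad_ad (X : Matrix κ κ F) : ad B (ad B X) = X := h.adj_adj X

theorem ad_one : ad B 1 = 1 := h.adj_one

theorem ad_zero : ad B 0 = 0 := h.adj_zero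

theorem rk_mul (a b : κ → F) (X : Matrix κ κ F) : rk B a b * X = rk B a (ad B X *ᵥ b) :=
  Matrix.ext_iff_mulVec.2 fun v => by rw [← mulVec_mulVec, rk_mulVec, rk_mulVec, h.ad_r]

theorem ad_rk (a b : κ → F) : ad B (rk B a b) = ε • rk B b a :=
  h.adj_eq fun x y => by
    simp only [rk_mulVec, smul_mulVec, map_smul, LinearMap.smul_apply, smul_eq_mul]
    rw [h.symm' x b]
    linear_combination (-B b x * B a y) * h.eps_mul

theorem ad_NN (u y : κ → F) : ad B (NN B ε u y) = -NN B ε u y := by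
  rw [NN_apply, h.ad_sub, h.ad_smul, h.ad_rk, h.ad_rk, h.eps_smul, neg_sub]

theorem exists_one_r {x : κ → F} (hx : x ≠ 0) : ∃ y, B x y = 1 := by
  by_contra! H
  refine hx (h.eq_zero_l fun y => by_contra fun e => H ((B x y)⁻¹ • y) ?_)
  rw [map_smul, smul_eq_mul, inv_mul_cancel₀ e]

theorem exists_one_l {x : κ → F} (hx : x ≠ 0) : ∃ y, B y x = 1 := by
  obtain ⟨y, hy⟩ := h.exists_one_r hx
  exact ⟨ε • y, by rw [map_smul, LinearMap.smul_apply, h.symm' y x, hy, smul_eq_mul, mul_one,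
    h.eps_mul]⟩

theorem rk_ne_zero {a b : κ → F} (ha : a ≠ 0) (hb : b ≠ 0) : rk B a b ≠ 0 := fun e => by
  obtain ⟨y, hy⟩ := h.exists_one_r hb
  have := congrArg (· *ᵥ y) e
  simp only [rk_mulVec, hy, one_smul, zero_mulVec] at this
  exact ha this

theorem exists_rep (l : (κ → F) →ₗ[F] F) : ∃ b, ∀ x, l x = B b x := by
  have hB : B.Nondegenerate := ⟨fun x hx => h.eq_zero_l hx, fun x hx => h.eq_zero_r hx⟩
  exact ⟨(LinearMap.BilinForm.toDual B hB).symm l, fun x =>
    (LinearMap.BilinForm.apply_toDual_symm_apply _ _).symm⟩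

theorem exists_rk (a l : κ → F) : ∃ b, vecMulVec a l = rk B a b := by
  obtain ⟨b, hb⟩ := h.exists_rep (dotProductBilin F F l)
  exact ⟨b, Matrix.ext_iff_mulVec.2 fun v => by
    rw [rk_mulVec, ← hb, vecMulVec_mulVec, op_smul_eq_smul]; rfl⟩

/-- A vector orthogonal to a subspace and not to a given vector outside it. -/
theorem exists_dual {S : Submodule F (κ → F)} {x : κ → F} (hx : x ∉ S) :
    ∃ y, B y x = 1 ∧ ∀ w ∈ S, B y w = 0 := by
  obtain ⟨l, h1, h2⟩ := S.exists_dual_map_eq_bot_of_notMem hx inferInstance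
  obtain ⟨b, hb⟩ := h.exists_rep l
  refine ⟨(l x)⁻¹ • b, by rw [map_smul, LinearMap.smul_apply, ← hb, smul_eq_mul,
    inv_mul_cancel₀ h1], fun w hw => ?_⟩
  have : l w = 0 := (Submodule.eq_bot_iff _).1 h2 _ ⟨w, hw, rfl⟩
  rw [map_smul, LinearMap.smul_apply, ← hb, this, smul_zero]

theorem mem_span_of_perp {S : Submodule F (κ → F)} {x : κ → F}
    (H : ∀ y, (∀ w ∈ S, B y w = 0) → B y x = 0) : x ∈ S := by
  by_contra hx
  obtain ⟨y, h1, h2⟩ := h.exists_dual hx
  exact one_ne_zero (h1.symm.trans (H y h2))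

/-- A vector outside `S` orthogonal to `T`, when the dimension allows it. -/
theorem exists_perp_notMem (S T : Submodule F (κ → F))
    (hd : finrank F S + finrank F T < Fintype.card κ) : ∃ v ∉ S, ∀ w ∈ T, B w v = 0 := by
  by_contra! H
  have hB : B.Nondegenerate := ⟨fun x hx => h.eq_zero_l hx, fun x hx => h.eq_zero_r hx⟩
  have h1 : B.orthogonal T ≤ S := fun v hv => by_contra fun e => by
    obtain ⟨w, hw, e'⟩ := H v e
    exact e' (hv w hw)
  have h2 := Submodule.finrank_mono h1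
  have h3 := LinearMap.BilinForm.finrank_orthogonal hB T
  have h4 := Submodule.finrank_le T
  rw [finrank_fintype_fun_eq_card] at h3 h4
  omega

theorem rk_induction {p : Matrix κ κ F → Prop} (h0 : p 0) (hadd : ∀ X Y, p X → p Y → p (X + Y))
    (hrk : ∀ a b, p (rk B a b)) (X : Matrix κ κ F) : p X := by
  rw [matrix_eq_sum_single X]
  refine Finset.sum_induction _ _ hadd h0 fun i _ => Finset.sum_induction _ _ hadd h0 fun j _ => ?_
  obtain ⟨b, hb⟩ := h.exists_rk (Pi.single i (X i j)) (Pi.single j 1)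
  rw [show single i j (X i j) = vecMulVec (Pi.single i (X i j)) (Pi.single j 1) by
    ext a b; simp [vecMulVec_apply, single_apply, Pi.single_apply, ite_and, eq_comm]
    split_ifs <;> rfl, hb]
  exact hrk _ _

theorem mem_isoB {g : GL κ F} (hg : ad B g * g = 1) : g ∈ isoB B := h.mem_isoG_of_adj hg

theorem ad_iso {g : GL κ F} (hg : g ∈ isoB B) : ad B g = ((g⁻¹ : GL κ F) : Matrix κ κ F) :=
  h.adj_of_mem_isoG hg

theorem cj_rk {g : GL κ F} (hg : g ∈ isoB B) (a b : κ → F) :
    cj g (rk B a b) = rk B ((g : Matrix κ κ F) *ᵥ a) ((g : Matrix κ κ F) *ᵥ b) := by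
  rw [cj_apply, mul_rk, h.rk_mul, ← h.ad_iso hg, h.ad_ad]

theorem cj_NN {g : GL κ F} (hg : g ∈ isoB B) (u y : κ → F) :
    cj g (NN B ε u y) = NN B ε ((g : Matrix κ κ F) *ᵥ u) ((g : Matrix κ κ F) *ᵥ y) := by
  rw [NN_apply, map_sub, map_smul, h.cj_rk hg, h.cj_rk hg, NN_apply]

theorem exists_cj_rk {g : GL κ F} (hg : g ∈ similarityGroup fun x y => B x y) :
    ∃ m : F, m ≠ 0 ∧ (∀ x y, B ((g : Matrix κ κ F) *ᵥ x) ((g : Matrix κ κ F) *ᵥ y) = m * B x y) ∧
      ∀ a b, cj g (rk B a b) =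
        m⁻¹ • rk B ((g : Matrix κ κ F) *ᵥ a) ((g : Matrix κ κ F) *ᵥ b) := by
  obtain ⟨m, hm⟩ := hg
  refine ⟨m, m.ne_zero, hm, fun a b => (cj_eq_iff _ _ _).2 (Matrix.ext_iff_mulVec.2 fun v => ?_)⟩
  have := hm b v
  simp only at this
  rw [← mulVec_mulVec, ← mulVec_mulVec, smul_mulVec, rk_mulVec, rk_mulVec, this, smul_smul,
    ← mul_assoc, inv_mul_cancel₀ m.ne_zero, one_mul, mulVec_smul]

theorem NN_mul_NN {u y z : κ → F} (hu : B u u = 0) (hy : B u y = 0) (hz : B u z = 0) :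
    NN B ε u y * NN B ε u z = -(ε * B y z) • rk B u u := by
  simp only [NN_apply, sub_mul, mul_sub, smul_mul_assoc, mul_smul_comm, rk_mul_rk, hu, hz,
    h.zero_symm hy, zero_smul, smul_zero, smul_smul]
  module

theorem NN_mul_s {u y : κ → F} (hu : B u u = 0) (hy : B u y = 0) (z : κ → F) :
    NN B ε u y * rk B u z = 0 := by
  simp [NN_apply, sub_mul, hu, h.zero_symm hy]

omit h in
theorem s_mul_NN {u y : κ → F} (hu : B u u = 0) (hy : B u y = 0) (z : κ → F) :
    rk B z u * NN B ε u y = 0 := by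
  simp [NN_apply, mul_sub, hu, hy]

theorem ad_root (u y : κ → F) (c : F) :
    ad B (1 + NN B ε u y + c • rk B u u) = 1 - NN B ε u y + (ε * c) • rk B u u := by
  rw [h.ad_add, h.ad_add, h.ad_one, h.ad_NN, h.ad_smul, h.ad_rk, smul_smul, mul_comm c,
    ← sub_eq_add_neg]

theorem root_mul {u y z : κ → F} (hu : B u u = 0) (hy : B u y = 0) (hz : B u z = 0) (c d : F) :
    (1 + NN B ε u y + c • rk B u u) * (1 + NN B ε u z + d • rk B u u) =
      1 + NN B ε u (y + z) + (c + d - ε * B y z) • rk B u u := by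
  simp only [add_mul, mul_add, one_mul, mul_one, smul_mul_assoc, mul_smul_comm, rk_mul_rk, hu,
    h.NN_mul_NN hu hy hz, h.NN_mul_s hu hy, s_mul_NN hu hz, map_add]
  module

theorem root_iso {u y : κ → F} {c : F} (r : RC B ε u y c) :
    ad B (1 + NN B ε u y + c • rk B u u) * (1 + NN B ε u y + c • rk B u u) = 1 := by
  rw [h.ad_root, sub_eq_add_neg, ← map_neg, h.root_mul r.uu (by simp [r.uy]) r.uy]
  have : ε * c + c - ε * B (-y) y = 0 := by
    rw [map_neg, LinearMap.neg_apply]; linear_combination r.yy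
  rw [this, neg_add_cancel, map_zero, zero_smul, add_zero, add_zero]

end HForm

open Classical in
variable (B ε) in
/-- The root element `1 + y ∧ u + c u²`. -/
noncomputable def xr (u y : κ → F) (c : F) : GL κ F :=
  if h : BF B ε ∧ RC B ε u y c then
    ⟨1 + NN B ε u y + c • rk B u u, ad B (1 + NN B ε u y + c • rk B u u),
      mul_eq_one_comm.1 (h.1.root_iso h.2), h.1.root_iso h.2⟩ else 1

variable (B ε) in
/-- The group generated by the root elements. -/
def RootG : Subgroup (GL κ F) := Subgroup.closure {g | ∃ u y c, RC B ε u y c ∧ g = xr B ε u y c}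

theorem xr_mem (u y : κ → F) (c : F) : xr B ε u y c ∈ RootG B ε := by
  by_cases r : RC B ε u y c
  · exact Subgroup.subset_closure ⟨u, y, c, r, rfl⟩
  · rw [xr, dif_neg fun H => r H.2]; exact one_mem _

theorem RC.neg {u y : κ → F} {c : F} (h : BF B ε) (r : RC B ε u y c) : RC B ε u (-y) (ε * c) :=
  ⟨r.uu, by simp [r.uy], by
    have := h.eps_mul
    simp only [map_neg, LinearMap.neg_apply, neg_neg]
    linear_combination r.yy + c * this⟩

theorem Hyp.ne_l {u u' : κ → F} (p : Hyp B u u') : u ≠ 0 := fun e => by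
  simpa [e] using p.lr

theorem Hyp.ne_r {u u' : κ → F} (p : Hyp B u u') : u' ≠ 0 := fun e => by
  simpa [e] using p.lr

namespace HForm

variable (h : BF B ε)
include h

theorem coe_xr {u y : κ → F} {c : F} (r : RC B ε u y c) :
    (xr B ε u y c : Matrix κ κ F) = 1 + NN B ε u y + c • rk B u u := by
  rw [xr, dif_pos ⟨h, r⟩]

theorem coe_xr_inv {u y : κ → F} {c : F} (r : RC B ε u y c) :
    ((xr B ε u y c)⁻¹ : GL κ F) = 1 - NN B ε u y + (ε * c) • rk B u u := by
  rw [xr, dif_pos ⟨h, r⟩, ← h.ad_root]; rfl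

theorem xr_inv {u y : κ → F} {c : F} (r : RC B ε u y c) :
    (xr B ε u y c)⁻¹ = xr B ε u (-y) (ε * c) :=
  Units.ext (by rw [h.coe_xr_inv r, h.coe_xr (r.neg h), map_neg, sub_eq_add_neg])

theorem xr_mulVec {u y : κ → F} {c : F} (r : RC B ε u y c) (x : κ → F) :
    (xr B ε u y c : Matrix κ κ F) *ᵥ x = x + B u x • y + (c * B u x - ε * B y x) • u := by
  simp only [h.coe_xr r, NN_apply, add_mulVec, sub_mulVec, one_mulVec, smul_mulVec, rk_mulVec]
  module

theorem xr_iso (u y : κ → F) (c : F) : xr B ε u y c ∈ isoB B := by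
  by_cases r : RC B ε u y c
  · exact h.mem_isoB (by rw [h.coe_xr r]; exact h.root_iso r)
  · rw [xr, dif_neg fun H => r H.2]; exact one_mem _

theorem RootG_le : RootG B ε ≤ isoB B :=
  (Subgroup.closure_le _).2 (by rintro _ ⟨u, y, c, -, rfl⟩; exact h.xr_iso u y c)

theorem conj_RootG {a : GL κ F} (ha : a ∈ similarityGroup fun x y => B x y) {g : GL κ F}
    (hg : g ∈ RootG B ε) : a * g * a⁻¹ ∈ RootG B ε := by
  obtain ⟨m, hm, h1, h2⟩ := h.exists_cj_rk ha
  refine (Subgroup.closure_le ((RootG B ε).comap (MulAut.conj a).toMonoidHom)).2 ?_ hg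
  rintro _ ⟨u, y, c, r, rfl⟩
  have r' : RC B ε (a.1 *ᵥ u) (m⁻¹ • a.1 *ᵥ y) (m⁻¹ * c) :=
    ⟨by rw [h1, r.uu, mul_zero], by rw [map_smul, h1, r.uy, mul_zero, smul_zero], by
      simp only [map_smul, LinearMap.smul_apply, h1, smul_eq_mul]
      field_simp
      linear_combination r.yy⟩
  change a * xr B ε u y c * a⁻¹ ∈ RootG B ε
  rw [show a * xr B ε u y c * a⁻¹ = xr B ε (a.1 *ᵥ u) (m⁻¹ • a.1 *ᵥ y) (m⁻¹ * c) from
    Units.ext ?_]
  · exact xr_mem _ _ _
  · rw [← cj_coe, h.coe_xr r, h.coe_xr r']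
    simp only [NN_apply, map_add, map_sub, map_smul, map_one, h2, LinearMap.smul_apply]
    module

theorem hyp_rl {u u' : κ → F} (p : Hyp B u u') : B u' u = ε := by rw [h.symm', p.lr, mul_one]

theorem hyp_symm {u u' : κ → F} (p : Hyp B u u') : Hyp B u' (ε • u) :=
  ⟨p.r, by simp [p.l], by rw [map_smul, h.hyp_rl p, smul_eq_mul, h.eps_mul]⟩

/-- Decomposition along a hyperbolic pair. -/
theorem hyp_decomp {u u' : κ → F} (p : Hyp B u u') (x : κ → F) :
    B u (x - (ε * B u' x) • u - B u x • u') = 0 ∧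
      B u' (x - (ε * B u' x) • u - B u x • u') = 0 := by
  simp only [map_sub, map_smul, smul_eq_mul, p.l, p.r, p.lr, h.hyp_rl p]
  exact ⟨by ring, by linear_combination (-B u' x) * h.eps_mul⟩

theorem hyp_ext {u u' : κ → F} (p : Hyp B u u') {X Y : Matrix κ κ F} (h1 : X *ᵥ u = Y *ᵥ u)
    (h2 : X *ᵥ u' = Y *ᵥ u') (h3 : ∀ y, B u y = 0 → B u' y = 0 → X *ᵥ y = Y *ᵥ y) : X = Y :=
  Matrix.ext_iff_mulVec.2 fun x => by
    have := h3 _ (h.hyp_decomp p x).1 (h.hyp_decomp p x).2
    simp only [mulVec_sub, mulVec_smul, h1, h2] at this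
    simpa using this

/-- A singular vector has a singular partner. -/
theorem exists_hyp (hq : ∀ y, ∃ c, ε * B y y + (1 + ε) * c = 0) {u : κ → F} (hu : B u u = 0)
    (hu0 : u ≠ 0) : ∃ u', Hyp B u u' := by
  obtain ⟨y, hy⟩ := h.exists_one_r hu0
  obtain ⟨c, hc⟩ := hq y
  refine ⟨y + (ε * c) • u, hu, ?_, by simp [hu, hy]⟩
  have e1 : B y u = ε := by rw [h.symm', hy, mul_one]
  have := h.eps_mul
  simp only [map_add, map_smul, LinearMap.add_apply, LinearMap.smul_apply, hu, hy, e1,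
    smul_eq_mul]
  linear_combination ε * hc - B y y * this

end HForm

/-- `1 + n` lies in the unipotent radical of the stabiliser of the image of `s`. -/
def InQ {A : Type*} [Ring A] (s n : A) : Prop := n * s = 0 ∧ s * n = 0 ∧ ∃ X Y, n = s * X + Y * s

variable (B) in
/-- Witt index at most one. -/
def WI1 : Prop := ∀ u v, u ≠ 0 → B u u = 0 → B v v = 0 → B u v = 0 → ∃ c : F, v = c • u

variable (B) in
/-- The orthogonal factors allowed in a maximal tensor decomposition. -/
def OkO : Prop :=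
  (Fintype.card κ = 3 ∧ 5 ≤ Nat.card F) ∨ (Fintype.card κ = 4 ∧ WI1 B) ∨ 5 ≤ Fintype.card κ

variable {ι : Type} [Fintype ι] [DecidableEq ι]

variable (B) in
/-- The elements of `M` in the unipotent radical of the stabiliser of `u ⊗ U` lie in the slot. -/
def HB (ψ : Matrix κ κ F →ₐ[F] Matrix ι ι F) (M : Subgroup (GL ι F)) : Prop :=
  ∀ u, B u u = 0 → u ≠ 0 → ∀ b ∈ M, InQ (ψ (rk B u u)) ((b : Matrix ι ι F) - 1) →
    InE ψ (b : Matrix ι ι F)

end Cfsg.Agent.Cl.Max
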