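import Mathlib
import Cfsg.Agent.Cl.TnRk

/-!
# Elements normalising the square of a singular vector of a slot

Under `HB`, an element of `M` fixing the line of `ψ (rk u u)` is `(1 + ψ (rk u u) ζ) n` with `n`
normalising the slot (`Amb.partial_h2`), and `ζ` is a scalar if the slot is large enough
(`Amb.h2`).
-/

set_option autoImplicit false
set_option linter.unusedSectionVars false
set_option linter.unusedVariables false

namespace Cfsg.Agent.Cl.Max

open Matrix Cfsg.Geo Module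

section Ring

variable {A : Type*} [Ring A]

/-- Three orthogonal idempotents adapted to `s`. -/
structure Id3 (P Z M s : A) : Prop where
  pp : P * P = P
  mm : M * M = M
  pm : P * M = 0
  mp : M * P = 0
  sum : P + Z + M = 1
  ps : P * s = s
  sm : s * M = s
  exP : ∃ X, P = s * X
  exM : ∃ Y, M = Y * s

/-- The graded part. -/
def gr (P Z M X : A) : A := P * X * P + Z * X * Z + M * X * M

/-- `X` preserves the flag. -/
structure Fl (P Z M X : A) : Prop where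
  zp : Z * X * P = 0
  mp : M * X * P = 0
  mz : M * X * Z = 0

theorem InQ.add {s n n' : A} (h : InQ s n) (h' : InQ s n') : InQ s (n + n') := by
  obtain ⟨h1, h2, X, Y, h3⟩ := h
  obtain ⟨h1', h2', X', Y', h3'⟩ := h'
  exact ⟨by rw [add_mul, h1, h1', add_zero], by rw [mul_add, h2, h2', add_zero], X + X', Y + Y',
    by rw [h3, h3']; noncomm_ring⟩

theorem InQ.neg {s n : A} (h : InQ s n) : InQ s (-n) := by
  obtain ⟨h1, h2, X, Y, h3⟩ := h
  exact ⟨by rw [neg_mul, h1, neg_zero], by rw [mul_neg, h2, neg_zero], -X, -Y,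
    by rw [h3]; noncomm_ring⟩

theorem InQ.sub {s n n' : A} (h : InQ s n) (h' : InQ s n') : InQ s (n - n') := by
  rw [sub_eq_add_neg]; exact h.add h'.neg

theorem InQ.mul {s n n' : A} (h : InQ s n) (h' : InQ s n') : InQ s (n * n') := by
  obtain ⟨h1, h2, X, Y, h3⟩ := h
  exact ⟨by rw [mul_assoc, h'.1, mul_zero], by rw [← mul_assoc, h2, zero_mul], X * n', 0,
    by rw [h3, add_mul, mul_assoc Y, h'.2.1]; noncomm_ring⟩

/-- The unipotent radical attached to `s`. -/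
def QG (s : A) : Subgroup Aˣ where
  carrier := {g | InQ s ((g : A) - 1)}
  mul_mem' {a b} ha hb := by
    have := (InQ.add ha hb).add (InQ.mul ha hb)
    change InQ s ((a : A) * b - 1)
    convert this using 1
    noncomm_ring
  one_mem' := ⟨by simp, by simp, 0, 0, by simp⟩
  inv_mem' {a} ha := by
    obtain ⟨h1, h2, X, Y, h3⟩ := ha
    rw [sub_mul, one_mul, sub_eq_zero] at h1
    rw [mul_sub, mul_one, sub_eq_zero] at h2
    have h1' : ((a⁻¹ : Aˣ) : A) * s = s := by rw [Units.inv_mul_eq_iff_eq_mul, h1]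
    have h2' : s * ((a⁻¹ : Aˣ) : A) = s := by rw [Units.mul_inv_eq_iff_eq_mul, h2]
    refine ⟨by rw [sub_mul, h1', one_mul, sub_self], by rw [mul_sub, h2', mul_one, sub_self],
      -X, -((a⁻¹ : Aˣ) : A) * Y, ?_⟩
    have : ((a⁻¹ : Aˣ) : A) - 1 = -(((a⁻¹ : Aˣ) : A) * ((a : A) - 1)) := by
      rw [mul_sub, Units.inv_mul, mul_one, neg_sub]
    rw [this, h3, mul_add, ← mul_assoc, h1']
    noncomm_ring

theorem mem_QG {s : A} {g : Aˣ} : g ∈ QG s ↔ InQ s ((g : A) - 1) := Iff.rfl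

namespace Id3

variable {P Z M s : A} (h : Id3 P Z M s)
include h

theorem z_eq : Z = 1 - P - M := by rw [← h.sum]; abel
theorem pz : P * Z = 0 := by rw [h.z_eq, mul_sub, mul_sub, h.pp, h.pm, mul_one]; abel
theorem zp : Z * P = 0 := by rw [h.z_eq, sub_mul, sub_mul, h.pp, h.mp, one_mul]; abel
theorem mz : M * Z = 0 := by rw [h.z_eq, mul_sub, mul_sub, h.mm, h.mp, mul_one]; abel
theorem zm : Z * M = 0 := by rw [h.z_eq, sub_mul, sub_mul, h.mm, h.pm, one_mul]; abel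
theorem zz : Z * Z = Z := by
  conv_lhs => lhs; rw [h.z_eq]
  rw [sub_mul, sub_mul, h.pz, h.mz, one_mul]; abel
theorem zs : Z * s = 0 := by rw [← h.ps, ← mul_assoc, h.zp, zero_mul]
theorem ms : M * s = 0 := by rw [← h.ps, ← mul_assoc, h.mp, zero_mul]
theorem sz : s * Z = 0 := by rw [← h.sm, mul_assoc, h.mz, mul_zero]
theorem sp : s * P = 0 := by rw [← h.sm, mul_assoc, h.mp, mul_zero]

theorem ins (a b : A) : a * b = a * P * b + a * Z * b + a * M * b := by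
  rw [← add_mul, ← add_mul, ← mul_add, ← mul_add, h.sum, mul_one]

theorem l (a : A) : P * (P * a) = P * a ∧ Z * (Z * a) = Z * a ∧ M * (M * a) = M * a ∧
    P * (Z * a) = 0 ∧ P * (M * a) = 0 ∧ Z * (P * a) = 0 ∧ Z * (M * a) = 0 ∧ M * (P * a) = 0 ∧
    M * (Z * a) = 0 := by
  simp only [← mul_assoc, h.pp, h.zz, h.mm, h.pz, h.pm, h.zp, h.zm, h.mp, h.mz, zero_mul, and_self]

theorem fl_of {X a b : A} (h1 : X * s = s * a) (h2 : s * X = b * s) : Fl P Z M X := by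
  obtain ⟨U, hU⟩ := h.exP
  obtain ⟨V, hV⟩ := h.exM
  have e : X * P = s * (a * U) := by rw [hU, ← mul_assoc, h1, mul_assoc]
  refine ⟨by rw [mul_assoc, e, ← mul_assoc, h.zs, zero_mul],
    by rw [mul_assoc, e, ← mul_assoc, h.ms, zero_mul], ?_⟩
  rw [hV, mul_assoc V, h2, mul_assoc, mul_assoc, h.sz, mul_zero, mul_zero]

theorem mul_p {X : A} (hX : Fl P Z M X) : X * P = P * X * P := by
  have := h.ins 1 (X * P)
  simpa only [one_mul, ← mul_assoc, hX.zp, hX.mp, add_zero] using this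

theorem m_mul {X : A} (hX : Fl P Z M X) : M * X = M * X * M := by
  have := h.ins (M * X) 1
  simpa only [mul_one, hX.mz, hX.mp, zero_add] using this

theorem z_mul_z {X Y : A} (hX : Fl P Z M X) (hY : Fl P Z M Y) :
    Z * (X * Y) * Z = Z * X * Z * Y * Z := by
  have := h.ins (Z * X) (Y * Z)
  rw [hX.zp, zero_mul, zero_add, mul_assoc (Z * X) M, ← mul_assoc M, hY.mz, mul_zero,
    add_zero] at this
  simpa only [mul_assoc] using this

theorem gr_mul {X Y : A} (hX : Fl P Z M X) (hY : Fl P Z M Y) :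
    gr P Z M X * gr P Z M Y = gr P Z M (X * Y) := by
  have e1 : P * (X * Y) * P = P * X * (P * Y * P) := by rw [← h.mul_p hY]; simp only [mul_assoc]
  have e2 : M * (X * Y) * M = M * X * M * Y * M := by rw [← h.m_mul hX]; simp only [mul_assoc]
  rw [gr, gr, gr, e1, e2, h.z_mul_z hX hY]
  simp only [add_mul, mul_add, mul_assoc, h.l, mul_zero, add_zero, zero_add]

theorem gr_one : gr P Z M 1 = 1 := by simp only [gr, mul_one, h.pp, h.zz, h.mm, h.sum]

theorem gr_m (X : A) : gr P Z M X * M = M * gr P Z M X := by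
  simp only [gr, add_mul, mul_add, mul_assoc, h.l, h.pm, h.zm, h.mm, mul_zero]

theorem gr_s {X : A} (hX : Fl P Z M X) : gr P Z M X * s = X * s := by
  rw [gr, ← h.mul_p hX]
  simp only [add_mul, mul_assoc, h.ps, h.zs, h.ms, mul_zero, add_zero]

theorem s_gr {X : A} (hX : Fl P Z M X) : s * gr P Z M X = s * X := by
  rw [gr, ← h.m_mul hX]
  simp only [mul_add, ← mul_assoc, h.sp, h.sz, h.sm, zero_mul, zero_add]

theorem gr_N {X N N' Y : A} (hN : N = P * N * Z + Z * N * M) (hN' : N' = P * N' * Z + Z * N' * M)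
    (hX : Fl P Z M X) (hY : Fl P Z M Y) (e : X * N = N' * X + s * Y) :
    gr P Z M X * N = N' * gr P Z M X := by
  have e1 := congrArg (fun T => P * T * Z) e
  have e2 := congrArg (fun T => Z * T * M) e
  have h1 : s * (Y * Z) = 0 := by rw [← h.sm, mul_assoc, ← mul_assoc M, hY.mz, mul_zero]
  have h2 : ∀ a, Z * (s * a) = 0 := fun a => by rw [← mul_assoc, h.zs, zero_mul]
  have h3 : M * (X * Z) = 0 := by rw [← mul_assoc, hX.mz]
  have h4 : ∀ a, Z * (X * (P * a)) = 0 := fun a => by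
    rw [← mul_assoc, ← mul_assoc, hX.zp, zero_mul]
  rw [hN, hN'] at e1 e2 ⊢
  simp only [gr, add_mul, mul_add, mul_assoc, h.l, h.zz, h.mz, h.mm, h.zm, mul_zero, add_zero,
    zero_add, h1, h2, h3, h4] at e1 e2 ⊢
  rw [e1, e2]

theorem inQ_p {n : A} (hn : InQ s n) : n * P = 0 := by
  obtain ⟨U, hU⟩ := h.exP
  rw [hU, ← mul_assoc, hn.1, zero_mul]

theorem inQ_m {n : A} (hn : InQ s n) : M * n = 0 := by
  obtain ⟨U, hU⟩ := h.exM
  rw [hU, mul_assoc, hn.2.1, mul_zero]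

theorem inQ_z {n : A} (hn : InQ s n) : Z * n * Z = 0 := by
  obtain ⟨-, -, X, Y, rfl⟩ := hn
  simp only [mul_add, add_mul, ← mul_assoc, h.zs, zero_mul, zero_add]
  rw [mul_assoc, h.sz, mul_zero]

theorem inQ_of {n : A} (h1 : n * s = 0) (h2 : s * n = 0) (h3 : Z * n * Z = 0) : InQ s n := by
  obtain ⟨U, hU⟩ := h.exP
  obtain ⟨V, hV⟩ := h.exM
  refine ⟨h1, h2, U * n, Z * n * V, ?_⟩
  have e1 := h.ins 1 n
  have e2 := h.ins (Z * n) 1
  rw [one_mul, one_mul, one_mul, one_mul, hV, mul_assoc V, h2, mul_zero, add_zero] at e1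
  rw [mul_one, mul_one, mul_one, mul_one, h3, hU, ← mul_assoc, mul_assoc Z, h1, mul_zero, zero_mul,
    zero_add, zero_add, hV] at e2
  rw [← mul_assoc s, ← hU, mul_assoc (Z * n), ← e2, ← e1]

theorem phi_mul {g g' : Aˣ} (hg : g ∈ QG s) (hg' : g' ∈ QG s) :
    Z * ((g * g' : Aˣ) : A) * M = Z * g * M + Z * g' * M := by
  have e : ((g * g' : Aˣ) : A) = ((g : A) - 1) * ((g' : A) - 1) + g + g' - 1 := by
    rw [Units.val_mul]; noncomm_ring
  have := h.ins (Z * ((g : A) - 1)) ((g' : A) - 1)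
  rw [mul_assoc Z _ P, h.inQ_p hg, h.inQ_z hg, mul_assoc _ M, h.inQ_m hg', mul_zero, mul_zero,
    zero_mul, add_zero, add_zero, mul_assoc] at this
  rw [e, mul_sub, mul_add, mul_add, this, mul_one, sub_mul, h.zm, zero_add, sub_zero, add_mul]

theorem phi_inv {g : Aˣ} (hg : g ∈ QG s) : Z * ((g⁻¹ : Aˣ) : A) * M = -(Z * g * M) := by
  have := h.phi_mul hg ((QG s).inv_mem hg)
  rw [mul_inv_cancel, Units.val_one, mul_one, h.zm] at this
  exact eq_neg_of_add_eq_zero_right this.symm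

end Id3

end Ring

variable {F : Type*} [Field F] {κ : Type} [Fintype κ] [DecidableEq κ]
  {ι : Type} [Fintype ι] [DecidableEq ι]
  {B : LinearMap.BilinForm F (κ → F)} {ε : F} {BV : LinearMap.BilinForm F (ι → F)} {εV : F}
  {ψ : Matrix κ κ F →ₐ[F] Matrix ι ι F} {M : Subgroup (GL ι F)} {u u' : κ → F}

theorem InQ.cj {s n : Matrix ι ι F} (h : InQ s n) (g : GL ι F) : InQ (cj g s) (cj g n) := by
  obtain ⟨h1, h2, X, Y, h3⟩ := h
  exact ⟨by rw [← map_mul, h1, map_zero], by rw [← map_mul, h2, map_zero], Max.cj g X, Max.cj g Y,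
    by rw [h3, map_add, map_mul, map_mul]⟩

theorem InQ.of_smul {s n : Matrix ι ι F} {c : F} (hc : c ≠ 0) (h : InQ (c • s) n) : InQ s n := by
  obtain ⟨h1, h2, X, Y, h3⟩ := h
  rw [mul_smul_comm, smul_eq_zero_iff_right hc] at h1
  rw [smul_mul_assoc, smul_eq_zero_iff_right hc] at h2
  exact ⟨h1, h2, c • X, c • Y, by rw [h3]; simp⟩

theorem conj_mem_QG' {s : Matrix ι ι F} {q : GL ι F} (hq : q ∈ QG s) (g : GL ι F) :
    g * q * g⁻¹ ∈ QG (cj g s) := by
  have := InQ.cj hq g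
  rwa [map_sub, map_one, cj_coe] at this

theorem conj_mem_QG {s : Matrix ι ι F} {q g : GL ι F} (hq : q ∈ QG s) {c : F} (hc : c ≠ 0)
    (hg : cj g s = c • s) : g * q * g⁻¹ ∈ QG s := by
  have := conj_mem_QG' hq g
  rw [hg] at this
  exact InQ.of_smul hc this

theorem Id3.map {P Z N s : Matrix κ κ F} (h : Id3 P Z N s) (ψ : Matrix κ κ F →ₐ[F] Matrix ι ι F) :
    Id3 (ψ P) (ψ Z) (ψ N) (ψ s) :=
  ⟨by rw [← map_mul, h.pp], by rw [← map_mul, h.mm], by rw [← map_mul, h.pm, map_zero],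
    by rw [← map_mul, h.mp, map_zero], by rw [← map_add, ← map_add, h.sum, map_one],
    by rw [← map_mul, h.ps], by rw [← map_mul, h.sm],
    h.exP.elim fun X e => ⟨ψ X, by rw [e, map_mul]⟩, h.exM.elim fun X e => ⟨ψ X, by rw [e, map_mul]⟩⟩

variable (B ε u u') in
/-- The projection onto the perp of a hyperbolic pair. -/
def e0 : Matrix κ κ F := 1 - ε • rk B u u' - rk B u' u

theorem e0_mulVec (x : κ → F) : e0 B ε u u' *ᵥ x = x - (ε * B u' x) • u - B u x • u' := by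
  simp [e0, sub_mulVec, smul_mulVec, smul_smul]

theorem e0_mulVec_of {y : κ → F} (h1 : B u y = 0) (h2 : B u' y = 0) : e0 B ε u u' *ᵥ y = y := by
  simp [e0_mulVec, h1, h2]

theorem HForm.id3 (h : BF B ε) (p : Hyp B u u') :
    Id3 (ε • rk B u u') (e0 B ε u u') (rk B u' u) (rk B u u) where
  pp := by simp [h.hyp_rl p, h.eps_smul]
  mm := by simp [p.lr]
  pm := by simp [p.r]
  mp := by simp [p.l]
  sum := by rw [e0]; abel
  ps := by simp [h.hyp_rl p, h.eps_smul]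
  sm := by simp [p.lr]
  exP := ⟨ε • rk B u' u', by simp [p.lr]⟩
  exM := ⟨ε • rk B u' u', by simp [h.hyp_rl p, h.eps_smul]⟩

theorem HForm.ad_e0 (h : BF B ε) : ad B (e0 B ε u u') = e0 B ε u u' := by
  rw [e0, h.ad_sub, h.ad_sub, h.ad_one, h.ad_smul, h.ad_rk, h.ad_rk, h.eps_smul]; abel

theorem HForm.NN_grade (h : BF B ε) (p : Hyp B u u') {y : κ → F} (h1 : B u y = 0)
    (h2 : B u' y = 0) : NN B ε u y = ε • rk B u u' * NN B ε u y * e0 B ε u u' +
      e0 B ε u u' * NN B ε u y * rk B u' u := by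
  simp only [NN_apply, mul_sub, sub_mul, mul_smul_comm, smul_mul_assoc, rk_mul_rk, mul_rk,
    h.rk_mul, h.ad_e0, e0_mulVec, h1, h2, h.hyp_rl p, p.l, p.lr, h.eps_mul, rk_mulVec,
    h.zero_symm h2, smul_smul, h.ad_rk, smul_mulVec]
  simp [sub_eq_add_neg, add_comm, h1, h2]

theorem sandwich (ψ : Matrix κ κ F →ₐ[F] Matrix ι ι F) (b c : κ → F) [Nonempty κ]
    (X : Matrix ι ι F) : ∃ ζ, InC ψ ζ ∧ (∀ l, l ζ = B b (pj ψ l X *ᵥ c)) ∧
      ∀ a d, ψ (rk B a b) * X * ψ (rk B c d) = ψ (rk B a d) * ζ := by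
  obtain ⟨o⟩ := ‹Nonempty κ›
  have key : ∀ l : Dual F (Matrix ι ι F), l (coef ψ o o (ψ (rk B (Pi.single o 1) b) * X *
      ψ (vecMulVec c (Pi.single o 1)))) = B b (pj ψ l X *ᵥ c) := fun l => by
    rw [← pj_apply, pj_mul_map, pj_map_mul, mul_assoc, mul_vecMulVec, mul_vecMulVec, rk_mulVec]
    simp [vecMulVec_apply]
  refine ⟨_, inC_coef o o _, key, fun a d => eq_of_pj (ψ := ψ) fun l => ?_⟩
  rw [pj_mul_map, pj_map_mul, rk_mul_mul_rk, pj_map_mul_inC l _ (inC_coef o o _), key]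

theorem HForm.inC_of_comm (h : BF B ε) (p : Hyp B u u') {X : Matrix ι ι F}
    (h1 : X * ψ (rk B u' u) = ψ (rk B u' u) * X) (h2 : X * ψ (rk B u u) = ψ (rk B u u) * X)
    (h3 : ∀ y, B u y = 0 → B u' y = 0 → X * ψ (NN B ε u y) = ψ (NN B ε u y) * X) : InC ψ X := by
  refine inC_of_pj fun l => ⟨B u (pj ψ l X *ᵥ u'), ?_⟩
  have key : ∀ Y, X * ψ Y = ψ Y * X → pj ψ l X *ᵥ (Y *ᵥ u') = Y *ᵥ (pj ψ l X *ᵥ u') := fun Y e => by
    rw [mulVec_mulVec, mulVec_mulVec, ← pj_mul_map, e, pj_map_mul]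
  have e1 := key _ h1
  simp only [rk_mulVec, p.lr, one_smul] at e1
  refine h.hyp_ext p ?_ ?_ fun y hy hy' => ?_
  · simpa only [p.lr, smul_mulVec, rk_mulVec, one_smul, one_mulVec] using key _ h2
  · rw [smul_mulVec, one_mulVec, ← e1]
  · have := key _ (h3 y hy hy')
    rw [e1, mulVec_smul] at this
    simpa [NN_apply, sub_mulVec, smul_mulVec, p.lr, h.zero_symm hy'] using this

variable (B ε BV εV ψ M) in
/-- A slot of the space with form `BV` whose root elements lie in `M`. -/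
structure Amb : Prop where
  h : BF B ε
  hV : BF BV εV
  hq : ∀ y, ∃ c, ε * B y y + (1 + ε) * c = 0
  adj : ∀ X, ad BV (ψ X) = ψ (ad B X)
  iso : M ≤ isoB BV
  root : ∀ γ ∈ RootG B ε, homG ψ γ ∈ M

theorem homG_cjH (g : GL ι F) (γ : GL κ F) : homG (cjH g ψ) γ = g * homG ψ γ * g⁻¹ :=
  Units.ext rfl

theorem HB.conj (hb : HB B ψ M) {g : GL ι F} (hg : g ∈ M) : HB B (cjH g ψ) M := fun u hu h0 b hbM hq => by
  have h1 := conj_mem_QG' (mem_QG.2 hq) g⁻¹
  rw [cjH_apply, cj_inv_cj] at h1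
  have h2 := hb u hu h0 _ (M.mul_mem (M.mul_mem (M.inv_mem hg) hbM) (M.inv_mem (M.inv_mem hg))) h1
  rw [← cj_coe] at h2
  rw [← cj_cj_inv g (b : Matrix ι ι F)]
  exact inE_cjH.2 h2

namespace Amb

variable [Nonempty ι] (a : Amb B ε BV εV ψ M)
include a

theorem conj {g : GL ι F} (hg : g ∈ M) : Amb B ε BV εV (cjH g ψ) M :=
  ⟨a.h, a.hV, a.hq, fun X => by
    rw [cjH_apply, cjH_apply, ← a.adj]
    exact a.hV.adj_cj (isoG_le_similarityGroup _ (a.iso hg)) _, a.iso,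
    fun γ hγ => homG_cjH g γ ▸ M.mul_mem (M.mul_mem hg (a.root γ hγ)) (M.inv_mem hg)⟩

theorem xr_mem (u y : κ → F) (c : F) : homG ψ (xr B ε u y c) ∈ M := a.root _ (Max.xr_mem u y c)

theorem form_of_iso {X : Matrix κ κ F} {b : GL ι F} (hb : b ∈ isoB BV) (e : ψ X = b)
    (x y : κ → F) : B (X *ᵥ x) (X *ᵥ y) = B x y := by
  have : ad B X * X = 1 := algHom_matrix_injective ψ (by
    rw [map_mul, ← a.adj, e, a.hV.ad_iso hb, Units.inv_mul, map_one])
  rw [a.h.ad_l, mulVec_mulVec, this, one_mulVec]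

theorem homG_iso {γ : GL κ F} (hγ : γ ∈ isoB B) : homG ψ γ ∈ isoB BV :=
  a.hV.mem_isoB (by rw [coe_homG, a.adj, a.h.ad_iso hγ, ← map_mul, Units.inv_mul, map_one])

theorem xr_mem_QG {y : κ → F} {c : F} (p : Hyp B u u') (r : RC B ε u y c) :
    homG ψ (xr B ε u y c) ∈ QG (ψ (rk B u u)) := by
  rw [mem_QG, coe_homG, a.h.coe_xr r, ← map_one ψ, ← map_sub]
  refine ((a.h.id3 p).map ψ).inQ_of ?_ ?_ ?_ <;> simp only [← map_mul] <;>
    rw [← map_zero ψ] <;> congr 1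
  · simp [add_assoc, add_mul, a.h.NN_mul_s r.uu r.uy, r.uu]
  · simp [add_assoc, mul_add, HForm.s_mul_NN r.uu r.uy, r.uu]
  · simp [add_assoc, mul_add, add_mul, NN_apply, mul_sub, sub_mul, mul_rk, a.h.rk_mul, a.h.ad_e0,
      e0_mulVec, p.l, a.h.hyp_rl p, a.h.eps_mul]

theorem exists_xr (p : Hyp B u u') {b : GL ι F} (hb : b ∈ isoB BV) (hq : b ∈ QG (ψ (rk B u u)))
    (hE : InE ψ (b : Matrix ι ι F)) :
    ∃ y c, RC B ε u y c ∧ B u' y = 0 ∧ b = homG ψ (xr B ε u y c) := by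
  obtain ⟨X, hX⟩ := hE
  have I := (a.h.id3 p).map ψ
  have inj := algHom_matrix_injective (A := Matrix ι ι F) ψ
  rw [mem_QG, ← hX, ← map_one ψ, ← map_sub] at hq
  have h1 : (X - 1) * rk B u u = 0 := inj (by rw [map_mul, hq.1, map_zero])
  have h2 : rk B u u * (X - 1) = 0 := inj (by rw [map_mul, hq.2.1, map_zero])
  have h3 : e0 B ε u u' * (X - 1) * e0 B ε u u' = 0 :=
    inj (by rw [map_mul, map_mul, I.inQ_z hq, map_zero])
  have e1 : X *ᵥ u = u := by
    simpa [← mulVec_mulVec, p.lr, sub_mulVec, sub_eq_zero] using congrArg (· *ᵥ u') h1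
  have e2 : ∀ x, B u (X *ᵥ x) = B u x := fun x => by
    simpa [← mulVec_mulVec, sub_mulVec, sub_eq_zero, p.ne_l] using congrArg (· *ᵥ x) h2
  have hf := a.form_of_iso hb hX
  set y := e0 B ε u u' *ᵥ (X *ᵥ u') with hy
  set c := ε * B u' (X *ᵥ u') with hc
  have d := a.h.hyp_decomp p (X *ᵥ u')
  rw [← e0_mulVec, ← hy] at d
  have e3 : X *ᵥ u' = u' + y + c • u := by rw [hy, e0_mulVec, e2, p.lr, one_smul]; abel
  have r : RC B ε u y c := ⟨p.l, d.1, by
    have := hf u' u'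
    rw [e3] at this
    simp only [map_add, map_smul, LinearMap.add_apply, LinearMap.smul_apply, p.l, p.r, p.lr, d.1,
      d.2, a.h.zero_symm d.1, a.h.zero_symm d.2, a.h.hyp_rl p, smul_eq_mul] at this
    linear_combination ε * this - c * a.h.eps_mul⟩
  refine ⟨y, c, r, d.2, Units.ext ?_⟩
  rw [coe_homG, ← hX]
  congr 1
  refine a.h.hyp_ext p ?_ ?_ fun w hw hw' => ?_ <;> rw [a.h.xr_mulVec r]
  · simp [e1, p.l, a.h.zero_symm d.1]
  · simp [e3, p.lr, a.h.zero_symm d.2]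
  · have e4 := congrArg (· *ᵥ w) h3
    simp only [← mulVec_mulVec, e0_mulVec_of hw hw', zero_mulVec, sub_mulVec, one_mulVec] at e4
    rw [e0_mulVec, map_sub (B u), e2, sub_self, zero_smul, sub_zero, sub_eq_zero,
      sub_eq_iff_eq_add'] at e4
    have := hf w u'
    rw [e3, e4] at this
    simp only [map_add, map_smul, LinearMap.add_apply, LinearMap.smul_apply, p.l, p.lr, d.1,
      a.h.zero_symm hw, a.h.zero_symm hw', smul_eq_mul] at this
    rw [e4, hw, zero_smul, add_zero, ← a.h.symm' w y]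
    congr 2
    linear_combination this

theorem s_ne_zero (hu : u ≠ 0) : ψ (rk B u u) ≠ 0 := fun e =>
  a.h.rk_ne_zero hu hu (algHom_matrix_injective ψ (e.trans (map_zero ψ).symm))

theorem gr_comm (hb : HB B ψ M) (p : Hyp B u u') {g : GL ι F} (hg : g ∈ M) {c : F} (hc : c ≠ 0)
    (e : cj g (ψ (rk B u u)) = c • ψ (rk B u u)) {y : κ → F} (h1 : B u y = 0) (h2 : B u' y = 0)
    (hF : Fl (ψ (ε • rk B u u')) (ψ (e0 B ε u u')) (ψ (rk B u' u)) (g : Matrix ι ι F)) :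
    ∃ y', B u y' = 0 ∧ B u' y' = 0 ∧
      gr (ψ (ε • rk B u u')) (ψ (e0 B ε u u')) (ψ (rk B u' u)) g * ψ (NN B ε u y) =
        ψ (NN B ε u y') * gr (ψ (ε • rk B u u')) (ψ (e0 B ε u u')) (ψ (rk B u' u)) g := by
  obtain ⟨d, hd⟩ := a.hq y
  have r : RC B ε u y d := ⟨p.l, h1, hd⟩
  have hm := M.mul_mem (M.mul_mem hg (a.xr_mem u y d)) (M.inv_mem hg)
  have hq := conj_mem_QG (a.xr_mem_QG p r) hc e
  obtain ⟨y', d', r', h2', e'⟩ := a.exists_xr p (a.iso hm) hq (hb u p.l p.ne_l _ hm hq)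
  refine ⟨y', r'.uy, h2', ((a.h.id3 p).map ψ).gr_N (Y := (d' - d * c) • (g : Matrix ι ι F))
    ?_ ?_ hF ⟨?_, ?_, ?_⟩ ?_⟩
  · simp only [← map_mul, ← map_add]; rw [← a.h.NN_grade p h1 h2]
  · simp only [← map_mul, ← map_add]; rw [← a.h.NN_grade p r'.uy h2']
  · rw [mul_smul_comm, smul_mul_assoc, hF.zp, smul_zero]
  · rw [mul_smul_comm, smul_mul_assoc, hF.mp, smul_zero]
  · rw [mul_smul_comm, smul_mul_assoc, hF.mz, smul_zero]
  · have e2 := congrArg Units.val e'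
    rw [← cj_coe, coe_homG, coe_homG, a.h.coe_xr r, a.h.coe_xr r'] at e2
    simp only [map_add, map_one, map_smul, e, add_assoc, add_right_inj] at e2
    rw [← cj_mul_coe, eq_sub_of_add_eq e2]
    simp only [sub_mul, add_mul, smul_mul_assoc, mul_smul_comm]
    module

theorem levi (hb : HB B ψ M) (p : Hyp B u u') {g : GL ι F} (hg : g ∈ M) {c : F}
    (e : cj g (ψ (rk B u u)) = c • ψ (rk B u u)) : ∃ n ∈ NE ψ, ∃ q ∈ QG (ψ (rk B u u)),
      q ∈ isoB BV ∧ g = q * n ∧ ∀ γ ∈ RootG B ε, q * homG ψ γ * q⁻¹ ∈ M := by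
  have I := (a.h.id3 p).map ψ
  set s := ψ (rk B u u) with hs
  set P := ψ (ε • rk B u u') with hP
  set Z := ψ (e0 B ε u u') with hZ
  set N := ψ (rk B u' u) with hN
  have hc : c ≠ 0 := by
    rintro rfl
    rw [zero_smul, map_eq_zero_iff _ (cj g).injective] at e
    exact a.s_ne_zero p.ne_l e
  have e' : cj g⁻¹ s = c⁻¹ • s := by
    rw [eq_inv_smul_iff₀ hc, ← map_smul, ← e, cj_inv_cj]
  have fl : ∀ (k : GL ι F) (d : F), d ≠ 0 → cj k s = d • s → Fl P Z N (k : Matrix ι ι F) ∧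
      gr P Z N k * s = d • (s * gr P Z N k) := fun k d hd hk => by
    have h1 : (k : Matrix ι ι F) * s = s * (d • (k : Matrix ι ι F)) := by
      rw [← cj_mul_coe, hk, smul_mul_assoc, mul_smul_comm]
    have h2 := I.fl_of h1 (b := d⁻¹ • (k : Matrix ι ι F)) (by
      rw [smul_mul_assoc, h1, mul_smul_comm, inv_smul_smul₀ hd])
    exact ⟨h2, by rw [I.gr_s h2, I.s_gr h2, h1, mul_smul_comm]⟩
  obtain ⟨f1, s1⟩ := fl g c hc e
  obtain ⟨f2, s2⟩ := fl g⁻¹ _ (inv_ne_zero hc) e'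
  let n : GL ι F := ⟨gr P Z N g, gr P Z N (g⁻¹ : GL ι F),
    by rw [I.gr_mul f1 f2, Units.mul_inv, I.gr_one], by rw [I.gr_mul f2 f1, Units.inv_mul, I.gr_one]⟩
  have hn : (n : Matrix ι ι F) = gr P Z N g := rfl
  have hn' : ((n⁻¹ : GL ι F) : Matrix ι ι F) = gr P Z N (g⁻¹ : GL ι F) := rfl
  have hC : ∀ z, InC ψ z → InC ψ (cj n⁻¹ z) := fun z hz => by
    have key : ∀ Y Y', (n : Matrix ι ι F) * ψ Y = ψ Y' * n →
        cj n⁻¹ z * ψ Y = ψ Y * cj n⁻¹ z := fun Y Y' H => by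
      rw [← cj_eq_iff] at H
      rw [← cj_inv_cj n (ψ Y), H, ← map_mul, ← map_mul, hz]
    refine a.h.inC_of_comm p (key _ _ (I.gr_m _)) (key _ (c • rk B u u) ?_) fun y h1 h2 => ?_
    · rw [map_smul, smul_mul_assoc]; exact s1
    · obtain ⟨y', -, -, H⟩ := a.gr_comm hb p hg hc e h1 h2 f1
      exact key _ _ H
  have hNE : n ∈ NE ψ := mem_NE fun X => inE_of_comm (ψ := ψ)
    (fun x hx => eq_smul_one_of_commute hx) fun z hz => by
      rw [← cj_cj_inv n z, ← map_mul, ← map_mul, hC z hz]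
  have hni : n ∈ isoB BV := a.hV.mem_isoB (by
    have e1 : ad BV P = N := by rw [hP, a.adj, a.h.ad_smul, a.h.ad_rk, a.h.eps_smul]
    have e2 : ad BV N = P := by rw [hN, a.adj, a.h.ad_rk]
    have e3 : ad BV Z = Z := by rw [hZ, a.adj, a.h.ad_e0]
    rw [← Units.inv_mul n, hn, hn', gr, gr]
    simp only [a.hV.ad_add, a.hV.ad_mul, e1, e2, e3, a.hV.ad_iso (a.iso hg), mul_assoc]
    congr 1
    abel)
  refine ⟨n, hNE, g * n⁻¹, I.inQ_of ?_ ?_ ?_, mul_mem (a.iso hg) (inv_mem hni),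
    (inv_mul_cancel_right g n).symm, fun γ hγ => ?_⟩
  · rw [sub_mul, Units.val_mul, mul_assoc, hn', I.gr_s f2, ← mul_assoc, Units.mul_inv, sub_self]
  · rw [mul_sub, Units.val_mul, ← mul_assoc, ← I.s_gr f1, mul_assoc, ← hn, Units.mul_inv, sub_self]
  · have e1 := I.z_mul_z f1 f2
    rw [Units.mul_inv] at e1
    rw [mul_sub, sub_mul, e1, Units.val_mul, hn', gr]
    simp only [mul_add, add_mul, mul_assoc, I.pz, I.zz, I.mz, mul_zero, zero_add, add_zero, sub_self]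
  · obtain ⟨b, hb'⟩ := exists_cj_of_NE (inv_mem hNE)
    have hsim := a.hV.mem_sim_factor a.h ψ a.adj (isoG_le_similarityGroup _ (inv_mem hni)) hb'
    have e1 : n⁻¹ * homG ψ γ * n⁻¹⁻¹ = homG ψ (b * γ * b⁻¹) := Units.ext (hb' γ)
    have := M.mul_mem (M.mul_mem hg (a.root _ (a.h.conj_RootG hsim hγ))) (M.inv_mem hg)
    rw [← e1] at this
    simpa only [mul_assoc, _root_.mul_inv_rev] using this

end Amb

end Cfsg.Agent.Cl.Max
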