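import Mathlib
import Cfsg.Agent.Cl.TnH2

/-!
# Elements normalising the square of a singular vector of a slot, II
-/

set_option autoImplicit false
set_option linter.unusedSectionVars false
set_option linter.unusedVariables false

namespace Cfsg.Agent.Cl.Max

open Matrix Cfsg.Geo Module

variable {F : Type*} [Field F] {κ : Type} [Fintype κ] [DecidableEq κ]
  {ι : Type} [Fintype ι] [DecidableEq ι]
  {B : LinearMap.BilinForm F (κ → F)} {ε : F} {BV : LinearMap.BilinForm F (ι → F)} {εV : F}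
  {ψ : Matrix κ κ F →ₐ[F] Matrix ι ι F} {M : Subgroup (GL ι F)} {u u' : κ → F}

variable (B ε u u') in
/-- The Levi subgroup has no fixed vectors on the root group. -/
def LPhi : Prop := ∀ y, B u y = 0 → B u' y = 0 → (∀ γ ∈ RootG B ε, ∀ c : F,
  (γ : Matrix κ κ F) *ᵥ u = c • u → c • (γ : Matrix κ κ F) *ᵥ u' = u' →
    c • (γ : Matrix κ κ F) *ᵥ y = y) → y = 0

variable (B ε u u') in
/-- A torus element acting non-trivially on `u²`, or a singular vector orthogonal to the pair. -/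
def LZeta : Prop := (∃ γ ∈ RootG B ε, ∃ c : F, (γ : Matrix κ κ F) *ᵥ u = c • u ∧ c ^ 2 ≠ 1) ∨
  ∃ v, v ≠ 0 ∧ B v v = 0 ∧ B u v = 0 ∧ B u' v = 0

theorem isSc_of_inE_mul [Nonempty ι] {z : Matrix κ κ F} (hz : z ≠ 0) {ζ : Matrix ι ι F}
    (hζ : InC ψ ζ) (h : InE ψ (ψ z * ζ)) : IsSc F ζ :=
  isSc_of_dual fun l hl => by
    have := h.pj_eq_zero hl
    rw [pj_map_mul_inC l _ hζ] at this
    exact (smul_eq_zero.1 this).resolve_right hz

theorem HForm.inQ_left (h : BF B ε) {v b : κ → F} (hv : B v v = 0) (hv0 : v ≠ 0) (hb : B b v = 0)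
    {ζ : Matrix ι ι F} (hζ : InC ψ ζ) : InQ (ψ (rk B v v)) (ψ (rk B v b) * ζ) := by
  obtain ⟨w, hw⟩ := h.exists_one_r hv0
  refine ⟨?_, ?_, ψ (rk B w b) * ζ, 0, ?_⟩
  · rw [mul_assoc, hζ, ← mul_assoc, ← map_mul]; simp [hb]
  · rw [← mul_assoc, ← map_mul]; simp [hv]
  · rw [← mul_assoc, ← map_mul]; simp [hw]

theorem HForm.inQ_right (h : BF B ε) {v b : κ → F} (hv : B v v = 0) (hv0 : v ≠ 0) (hb : B v b = 0)
    {ζ : Matrix ι ι F} (hζ : InC ψ ζ) : InQ (ψ (rk B v v)) (ψ (rk B b v) * ζ) := by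
  obtain ⟨w, hw⟩ := h.exists_one_l hv0
  refine ⟨?_, ?_, 0, ψ (rk B b w) * ζ, ?_⟩
  · rw [mul_assoc, hζ, ← mul_assoc, ← map_mul]; simp [hv]
  · rw [← mul_assoc, ← map_mul]; simp [hb]
  · rw [mul_assoc, hζ, ← mul_assoc, ← map_mul]; simp [hw]

theorem coe_inv_of {q : GL ι F} {n : Matrix ι ι F} (hq : (q : Matrix ι ι F) = 1 + n)
    (hn : n * n = 0) : ((q⁻¹ : GL ι F) : Matrix ι ι F) = 1 - n := by
  rw [Units.inv_eq_of_mul_eq_one_right]
  rw [hq, mul_sub, mul_one, add_mul, hn, one_mul, add_zero, add_sub_cancel_right]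

theorem s_mul_sq (hu : B u u = 0) {ζ ζ' : Matrix ι ι F} (hζ : InC ψ ζ) :
    ψ (rk B u u) * ζ * (ψ (rk B u u) * ζ') = 0 := by
  rw [mul_assoc, ← mul_assoc ζ, hζ, ← mul_assoc, ← mul_assoc, ← map_mul]; simp [hu]

namespace Amb

variable [Nonempty ι] (a : Amb B ε BV εV ψ M)
include a

theorem exists_zeta (p : Hyp B u u') {q : GL ι F} (hq : q ∈ QG (ψ (rk B u u))) (hi : q ∈ isoB BV)
    (h0 : ψ (e0 B ε u u') * q * ψ (rk B u' u) = 0) :
    ∃ ζ, InC ψ ζ ∧ (q : Matrix ι ι F) = 1 + ψ (rk B u u) * ζ := by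
  have I := (a.h.id3 p).map ψ
  have : Nonempty κ := by
    by_contra! H
    exact p.ne_l (Subsingleton.elim _ _)
  obtain ⟨ζ, hζ, -, H⟩ := sandwich (B := B) ψ u' u' ((q : Matrix ι ι F) - 1)
  refine ⟨ε • ζ, hζ.smul _, ?_⟩
  have e1 : ad BV (ψ (e0 B ε u u') * q * ψ (rk B u' u)) = 0 := by rw [h0, a.hV.ad_zero]
  rw [a.hV.ad_mul, a.hV.ad_mul, a.adj, a.adj, a.h.ad_e0, a.h.ad_rk, a.hV.ad_iso hi] at e1
  set P := ψ (ε • rk B u u') with hP
  set Z := ψ (e0 B ε u u') with hZ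
  set N := ψ (rk B u' u) with hN
  set n := (q : Matrix ι ι F) - 1 with hn
  have hq1 : (q : Matrix ι ι F) = 1 + n := by rw [hn]; abel
  have h1 : Z * n * N = 0 := by rw [hn, mul_sub, sub_mul, h0, mul_one, I.zm, sub_zero]
  have h2 : n * Z = P * (n * Z) := by
    have := I.ins 1 (n * Z)
    rwa [one_mul, one_mul, one_mul, one_mul, ← mul_assoc Z, I.inQ_z hq, ← mul_assoc N, I.inQ_m hq,
      zero_mul, add_zero, add_zero] at this
  have h3 : ((q⁻¹ : GL ι F) : Matrix ι ι F) * P = P := by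
    have := I.inQ_p ((QG _).inv_mem hq)
    rwa [sub_mul, one_mul, sub_eq_zero] at this
  have h4 : n * Z = 0 := by
    have : P * (((q⁻¹ : GL ι F) : Matrix ι ι F) * (q * Z)) = 0 := by
      rw [← mul_assoc _ (q : Matrix ι ι F), Units.inv_mul, one_mul, I.pz]
    rwa [hq1, add_mul, one_mul, mul_add, mul_add, e1, zero_add, h2, ← mul_assoc _ P, h3, (I.l _).1,
      ← h2] at this
  have h5 := I.ins n 1
  rw [mul_one, mul_one, mul_one, mul_one, I.inQ_p hq, h4, zero_add, zero_add] at h5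
  have h6 := I.ins 1 (n * N)
  rw [one_mul, one_mul, one_mul, one_mul, ← mul_assoc Z, h1, ← mul_assoc N, I.inQ_m hq, zero_mul,
    add_zero, add_zero, ← h5] at h6
  rw [hq1, h6, h5, mul_smul_comm, ← H, hP, map_smul, smul_mul_assoc, mul_assoc]

theorem partial_h2 (hb : HB B ψ M) (p : Hyp B u u') (hL : LPhi B ε u u') {g : GL ι F} (hg : g ∈ M)
    {c : F} (e : cj g (ψ (rk B u u)) = c • ψ (rk B u u)) : ∃ n ∈ NE ψ, ∃ (q : GL ι F) (ζ : _),
      InC ψ ζ ∧ (q : Matrix ι ι F) = 1 + ψ (rk B u u) * ζ ∧ q ∈ isoB BV ∧ g = q * n ∧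
        ∀ γ ∈ RootG B ε, q * homG ψ γ * q⁻¹ ∈ M := by
  obtain ⟨n, hn, q, hq, hi, rfl, H⟩ := a.levi hb p hg e
  have I := (a.h.id3 p).map ψ
  have I0 := a.h.id3 p
  have hE : InE ψ (ψ (e0 B ε u u') * q * ψ (rk B u' u)) := inE_of_pj fun l hl => by
    rw [pj_mul_map, pj_map_mul, mul_rk]
    rw [hL ((e0 B ε u u' * pj ψ l q) *ᵥ u') (by rw [← mulVec_mulVec, e0_mulVec]; exact (a.h.hyp_decomp p _).1)
      (by rw [← mulVec_mulVec, e0_mulVec]; exact (a.h.hyp_decomp p _).2) fun γ hγ d h1 h2 => ?_,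
      map_zero, LinearMap.zero_apply]
    have hγi := a.h.RootG_le hγ
    have hd : d ≠ 0 := by
      rintro rfl
      exact p.ne_r (by rw [← h2, zero_smul])
    have c1 : cj γ (rk B u' u) = rk B u' u := by
      rw [a.h.cj_rk hγi, h1, map_smul, ← LinearMap.smul_apply, ← map_smul, h2]
    have c2 : cj γ (e0 B ε u u') = e0 B ε u u' := by
      rw [e0, map_sub, map_sub, map_one, map_smul, c1, a.h.cj_rk hγi, h1, map_smul,
        LinearMap.smul_apply, ← map_smul, h2]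
    have c3 : cj (homG ψ γ) (ψ (rk B u u)) = (d * d) • ψ (rk B u u) := by
      rw [cj_homG, a.h.cj_rk hγi, h1]; simp [smul_smul]
    have hq' := conj_mem_QG ((QG _).inv_mem hq) (mul_ne_zero hd hd) c3
    have hm : q * (homG ψ γ * q⁻¹ * (homG ψ γ)⁻¹) ∈ M := by
      simpa only [mul_assoc] using M.mul_mem (H γ hγ) (M.inv_mem (a.root γ hγ))
    obtain ⟨Y, hY⟩ := hb u p.l p.ne_l _ hm (mul_mem hq hq')
    have e1 := I.phi_mul hq hq'
    rw [← hY, ← cj_coe, ← c1, ← c2, ← cj_homG, ← cj_homG, ← map_mul, ← map_mul,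
      I.phi_inv hq, cj_homG, cj_homG, c1, c2, ← map_mul, ← map_mul] at e1
    have e2 := congrArg (pj ψ l) e1
    rw [pj_map, hl, zero_smul, map_add, pj_cj_homG, map_neg, pj_mul_map, pj_map_mul, mul_rk,
      map_neg, a.h.cj_rk hγi, h1] at e2
    have e3 := congrArg (· *ᵥ u') e2
    simp only [zero_mulVec, add_mulVec, neg_mulVec, rk_mulVec, p.lr, one_smul, map_smul,
      smul_mulVec] at e3
    exact (eq_of_add_neg_eq_zero e3.symm).symm
  obtain ⟨Y, hY⟩ := hE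
  have hY' : Y = rk B (e0 B ε u u' *ᵥ (Y *ᵥ u')) u := algHom_matrix_injective ψ (by
    rw [mulVec_mulVec, ← mul_rk, map_mul, map_mul, hY]
    simp only [mul_assoc, I.mm, I.l])
  set y := e0 B ε u u' *ᵥ (Y *ᵥ u') with hy
  have d := a.h.hyp_decomp p (Y *ᵥ u')
  rw [← e0_mulVec, ← hy] at d
  obtain ⟨c', hc'⟩ := a.hq y
  have r : RC B ε u y c' := ⟨p.l, d.1, hc'⟩
  have hx := a.xr_mem_QG p r
  obtain ⟨ζ, hζ, e1⟩ := a.exists_zeta p (mul_mem hq (inv_mem hx))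
    (mul_mem hi (inv_mem (a.homG_iso (a.h.xr_iso _ _ _)))) (by
      rw [I.phi_mul hq (inv_mem hx), I.phi_inv hx, ← hY, coe_homG, ← map_mul, ← map_mul, mul_rk,
        ← mulVec_mulVec, a.h.xr_mulVec r, hY']
      simp [p.lr, mulVec_add, mulVec_smul, e0_mulVec, p.l, a.h.hyp_rl p, a.h.eps_mul, d.1, d.2,
        p.r])
  refine ⟨homG ψ (xr B ε u y c') * n, mul_mem (homG_mem_NE _) hn, _, ζ, hζ, e1,
    mul_mem hi (inv_mem (a.homG_iso (a.h.xr_iso _ _ _))), by group, fun γ hγ => ?_⟩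
  have := H _ (mul_mem (mul_mem (inv_mem (Max.xr_mem u y c')) hγ) (Max.xr_mem u y c'))
  simpa only [map_mul, map_inv, _root_.mul_inv_rev, inv_inv, mul_assoc] using this

theorem isSc_zeta (hb : HB B ψ M) (p : Hyp B u u') (hL : LZeta B ε u u') {q : GL ι F}
    {ζ : Matrix ι ι F} (hζ : InC ψ ζ) (hq : (q : Matrix ι ι F) = 1 + ψ (rk B u u) * ζ)
    (H : ∀ γ ∈ RootG B ε, q * homG ψ γ * q⁻¹ ∈ M) : IsSc F ζ := by
  have hq' := coe_inv_of hq (s_mul_sq p.l hζ)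
  rcases hL with ⟨γ, hγ, d, h1, hd⟩ | ⟨v, hv0, hv, huv, hu'v⟩
  · have hm : q * (homG ψ γ * q⁻¹ * (homG ψ γ)⁻¹) ∈ M := by
      simpa only [mul_assoc] using M.mul_mem (H γ hγ) (M.inv_mem (a.root γ hγ))
    have e : ((q * (homG ψ γ * q⁻¹ * (homG ψ γ)⁻¹) : GL ι F) : Matrix ι ι F) =
        1 + ψ (rk B u u) * ((1 - d ^ 2) • ζ) := by
      rw [Units.val_mul, ← cj_coe, hq', hq, map_sub, map_one, map_mul, cj_homG, cj_homG_inC _ hζ,
        a.h.cj_rk (a.h.RootG_le hγ), h1]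
      simp only [map_smul, LinearMap.smul_apply, mul_sub, add_mul, mul_one, one_mul,
        smul_mul_assoc, mul_smul_comm, s_mul_sq p.l hζ]
      module
    have h2 := hb u p.l p.ne_l _ hm (by
      rw [e, add_sub_cancel_left]; exact a.h.inQ_left p.l p.ne_l p.l (hζ.smul _))
    obtain ⟨Y, hY⟩ := h2
    obtain ⟨m, hm⟩ := isSc_of_inE_mul (a.h.rk_ne_zero p.ne_l p.ne_l) (hζ.smul (1 - d ^ 2))
      ⟨Y - 1, by rw [map_sub, hY, e, map_one, add_sub_cancel_left]⟩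
    exact ⟨(1 - d ^ 2)⁻¹ * m, by
      rw [mul_smul, ← hm, inv_smul_smul₀ (sub_ne_zero.2 hd.symm)]⟩
  · have hvu := a.h.zero_symm huv
    have hvu' := a.h.zero_symm hu'v
    have r : RC B ε v u' 0 := ⟨hv, hvu', by simp [p.r]⟩
    have e : ((q * homG ψ (xr B ε v u' 0) * q⁻¹ : GL ι F) : Matrix ι ι F) =
        1 + ψ (NN B ε v u') + ψ (rk B u v + rk B v u) * ζ := by
      have m1 : ∀ X, ψ (rk B u u) * ζ * ψ X = ψ (rk B u u * X) * ζ := fun X => by
        rw [mul_assoc, hζ, map_mul, mul_assoc]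
      have m2 : ∀ X, ψ X * ζ * (ψ (rk B u u) * ζ) = ψ (X * rk B u u) * (ζ * ζ) := fun X => by
        rw [mul_assoc, ← mul_assoc ζ, hζ, map_mul]; simp only [mul_assoc]
      rw [Units.val_mul, Units.val_mul, hq', hq, coe_homG, a.h.coe_xr r, add_mul, one_mul, m1,
        mul_sub, mul_one, add_mul, m2, ← mul_assoc, ← map_mul]
      simp [NN_apply, mul_add, add_mul, mul_sub, sub_mul, p.l, p.lr, huv, hvu, a.h.hyp_rl p,
        a.h.eps_smul]
      abel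
    obtain ⟨Y, hY⟩ := hb v hv hv0 _ (H _ (Max.xr_mem v u' 0)) (by
      rw [e, add_assoc, add_sub_cancel_left, NN_apply, map_sub, map_smul, map_add, add_mul,
        ← mul_one (ψ (rk B u' v)), ← mul_one (ψ (rk B v u')), ← mul_smul_comm]
      exact ((a.h.inQ_right hv hv0 hvu' inC_one).sub (a.h.inQ_left hv hv0 hu'v
        (inC_one.smul _))).add ((a.h.inQ_right hv hv0 hvu hζ).add (a.h.inQ_left hv hv0 huv hζ)))
    refine isSc_of_inE_mul (z := rk B u v + rk B v u) (fun e' => hv0 ?_) hζ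
      ⟨Y - 1 - NN B ε v u', by rw [map_sub, map_sub, hY, e, map_one]; abel⟩
    simpa [add_mulVec, hvu', p.lr] using congrArg (· *ᵥ u') e'

theorem h2 (hb : HB B ψ M) (p : Hyp B u u') (hL : LPhi B ε u u') (hZ : LZeta B ε u u')
    {g : GL ι F} (hg : g ∈ M) {c : F} (e : cj g (ψ (rk B u u)) = c • ψ (rk B u u)) : g ∈ NE ψ := by
  obtain ⟨n, hn, q, ζ, hζ, hq, -, rfl, H⟩ := a.partial_h2 hb p hL hg e
  obtain ⟨m, rfl⟩ := a.isSc_zeta hb p hZ hζ hq H
  refine mul_mem (mem_NE fun X => ?_) hn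
  rw [cj_apply, coe_inv_of hq (s_mul_sq p.l hζ), hq]
  exact ⟨(1 + m • rk B u u) * X * (1 - m • rk B u u), by simp⟩

end Amb

end Cfsg.Agent.Cl.Max
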