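import Mathlib
import Cfsg.Agent.Cl.TnH2b

/-!
# Tools for the rigidity of tensor slots: ranks, traces, orbit sums
-/

set_option autoImplicit false
set_option linter.unusedSectionVars false
set_option linter.unusedVariables false

namespace Cfsg.Agent.Cl.Max

open Matrix Cfsg.Geo Module

variable {F : Type*} [Field F] {κ : Type} [Fintype κ] [DecidableEq κ]
  {ι : Type} [Fintype ι] [DecidableEq ι]
  {B : LinearMap.BilinForm F (κ → F)} {ε : F} {ψ : Matrix κ κ F →ₐ[F] Matrix ι ι F}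

theorem exists_indep_rank (a : Matrix κ κ F) :
    ∃ v : Fin a.rank → κ → F, LinearIndependent F fun i => a *ᵥ v i := by
  obtain ⟨f, hf⟩ := exists_linearIndependent_of_le_finrank
    (R := F) (M := LinearMap.range a.mulVecLin) (n := a.rank) le_rfl
  choose v hv using fun i => (f i).2
  refine ⟨v, ?_⟩
  have := hf.map' (LinearMap.range a.mulVecLin).subtype (Submodule.ker_subtype _)
  rwa [show (fun i => a *ᵥ v i) = _ from funext hv]

theorem rank_mul_slotM_le (o : κ) (a : Matrix κ κ F) : a.rank * slotM ψ o ≤ (ψ a).rank := by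
  obtain ⟨v, hv⟩ := exists_indep_rank a
  simpa using rank_ge (ψ := ψ) o IsNilpotent.zero inC_zero hv

theorem rank_le_of_map [Nonempty ι] (o : κ) {a : Matrix κ κ F} {r : ℕ}
    (h : (ψ a).rank ≤ r * slotM ψ o) : a.rank ≤ r :=
  Nat.le_of_mul_le_mul_right ((rank_mul_slotM_le o a).trans h) slotM_pos

theorem rank_rk_le (o : κ) (a b : κ → F) : (ψ (rk B a b)).rank ≤ slotM ψ o :=
  rank_vecMulVec_le o _ _

theorem rank_smul_le' (c : F) (X : Matrix ι ι F) : (c • X).rank ≤ X.rank := by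
  rw [← one_mul X, ← smul_mul_assoc, one_mul]; exact rank_mul_le_right _ _

theorem exists_ker_notMem_range {a : Matrix κ κ F} (h : 2 * a.rank < Fintype.card κ) :
    ∃ z, a *ᵥ z = 0 ∧ z ∉ LinearMap.range a.mulVecLin := by
  by_contra! H
  have h1 := Submodule.finrank_mono (show LinearMap.ker a.mulVecLin ≤ _ from fun z hz => H z hz)
  have h2 := LinearMap.finrank_range_add_finrank_ker a.mulVecLin
  rw [finrank_fintype_fun_eq_card] at h2
  unfold Matrix.rank at h
  omega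

theorem unip_rank [Finite F] [Nonempty ι] (o : κ) {x : GL ι F} (hx : x ∈ NE ψ)
    (hn : IsNilpotent ((x : Matrix ι ι F) - 1)) {r : ℕ}
    (hr : ((x : Matrix ι ι F) - 1).rank ≤ r * slotM ψ o) :
    ∃ (a : Matrix κ κ F) (γ : Matrix ι ι F), IsNilpotent a ∧ IsNilpotent γ ∧ InC ψ γ ∧
      IsUnit (1 + a) ∧ (x : Matrix ι ι F) = (1 + γ) * ψ (1 + a) ∧ a.rank ≤ r ∧
      (a.rank = r → (∃ z, a *ᵥ z = 0 ∧ z ∉ LinearMap.range a.mulVecLin) → γ = 0) := by
  have : Nonempty κ := ⟨o⟩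
  obtain ⟨a, γ, h1, h2, h3, h4, h5⟩ := exists_unip hx hn
  obtain ⟨v, hv⟩ := exists_indep_rank a
  rw [h5] at hr
  refine ⟨a, γ, h1, h2, h3, h4, h5, Nat.le_of_mul_le_mul_right (le_trans ?_ hr) slotM_pos, ?_⟩
  · simpa using rank_ge (ψ := ψ) o h2 h3 hv
  · rintro rfl ⟨z, hz, hz'⟩
    by_contra h0
    obtain ⟨l, l1, l2⟩ := Submodule.exists_dual_map_eq_bot_of_notMem hz' inferInstance
    have l3 : ∀ y, l (a *ᵥ y) = 0 := fun y => (Submodule.eq_bot_iff _).1 l2 _ ⟨_, ⟨y, rfl⟩, rfl⟩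
    have e : ∀ y, (fun j => (l z)⁻¹ * l (Pi.single j 1)) ⬝ᵥ y = (l z)⁻¹ * l y := fun y => by
      conv_rhs => rw [pi_eq_sum_univ' y]
      simp [dotProduct, Finset.mul_sum, mul_comm, mul_left_comm, mul_assoc]
    have := rank_gt (ψ := ψ) o h2 h3 h0 hv hz (l := fun j => (l z)⁻¹ * l (Pi.single j 1))
      (dotProduct_eq_zero _ fun y => by rw [← dotProduct_mulVec, e, l3, mul_zero])
      (by rw [e, inv_mul_cancel₀ l1])
    simp only [Fintype.card_fin] at this
    omega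

theorem exists_smul_of_rank_le_one {a : Matrix κ κ F} (h : a.rank ≤ 1) {v : κ → F}
    (hv : a *ᵥ v ≠ 0) (x : κ → F) : ∃ t : F, a *ᵥ x = t • a *ᵥ v := by
  obtain ⟨w, hw⟩ := finrank_le_one_iff.1 (show finrank F (LinearMap.range a.mulVecLin) ≤ 1 from h)
  obtain ⟨c, hc⟩ := hw ⟨_, v, rfl⟩
  obtain ⟨d, hd⟩ := hw ⟨_, x, rfl⟩
  have hc' : c • (w : κ → F) = a *ᵥ v := congrArg Subtype.val hc
  have hd' : d • (w : κ → F) = a *ᵥ x := congrArg Subtype.val hd
  have : c ≠ 0 := by rintro rfl; exact hv (by rw [← hc', zero_smul])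
  exact ⟨d * c⁻¹, by rw [← hc', ← hd', smul_smul, inv_mul_cancel_right₀ this]⟩

theorem HForm.eq_smul_rk (h : BF B ε) {a : Matrix κ κ F} (h1 : a.rank ≤ 1) (h0 : a ≠ 0) {η : F}
    (ha : ad B a = η • a) : ∃ (w : κ → F) (d : F), w ≠ 0 ∧ d ≠ 0 ∧ a = d • rk B w w := by
  obtain ⟨v, hv⟩ : ∃ v, a *ᵥ v ≠ 0 := by
    by_contra! H
    exact h0 (Matrix.ext_iff_mulVec.2 fun v => by rw [H, zero_mulVec])
  have key : ∀ y, (η * B v (a *ᵥ v)) • a *ᵥ y = B (a *ᵥ v) y • a *ᵥ v := fun y => by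
    obtain ⟨t, ht⟩ := exists_smul_of_rank_le_one h1 hv y
    rw [h.ad_l, ha, smul_mulVec, ht, smul_smul]
    simp only [map_smul, smul_eq_mul]
    congr 1
    ring
  have hne : η * B v (a *ᵥ v) ≠ 0 := fun e => by
    obtain ⟨y, hy⟩ := h.exists_one_r hv
    have := key y
    rw [e, hy, zero_smul, one_smul] at this
    exact hv this.symm
  exact ⟨a *ᵥ v, _, hv, inv_ne_zero hne, Matrix.ext_iff_mulVec.2 fun y => by
    rw [smul_mulVec, rk_mulVec, ← key, inv_smul_smul₀ hne]⟩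

theorem mem_of_trace (S : Submodule F (Matrix κ κ F)) {z : Matrix κ κ F}
    (h : ∀ X : Matrix κ κ F, (∀ Y ∈ S, (X * Y).trace = 0) → (X * z).trace = 0) : z ∈ S := by
  by_contra hz
  obtain ⟨l, l1, l2⟩ := Submodule.exists_dual_map_eq_bot_of_notMem hz inferInstance
  have e : ∀ Y, ((Matrix.of fun i j => l (single j i 1)) * Y).trace = l Y := fun Y => by
    conv_rhs => rw [matrix_eq_sum_single Y]
    simp only [trace, diag_apply, mul_apply, of_apply, map_sum]
    rw [Finset.sum_comm]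
    refine Finset.sum_congr rfl fun i _ => Finset.sum_congr rfl fun j _ => ?_
    rw [mul_comm, ← smul_eq_mul, ← map_smul, smul_single, smul_eq_mul, mul_one]
  exact l1 (e z ▸ h _ fun Y hY => by
    rw [e]; exact (Submodule.eq_bot_iff _).1 l2 _ ⟨Y, hY, rfl⟩)

theorem isSc_of_forall_mem_span {X : Matrix κ κ F}
    (h : ∀ v, X *ᵥ v ∈ Submodule.span F {v}) : IsSc F X := by
  obtain ⟨c, hc⟩ := LinearMap.exists_eq_smul_id_of_forall_notLinearIndependent
    (f := X.mulVecLin) fun v hv => by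
      obtain ⟨c, hc⟩ := Submodule.mem_span_singleton.1 (h v)
      exact (LinearIndependent.pair_iff' (hv.ne_zero 0)).1 hv c hc
  exact ⟨c, Matrix.ext_iff_mulVec.2 fun v => by
    simpa [smul_mulVec] using LinearMap.congr_fun hc v⟩

theorem IsSc.trace_mul {X z : Matrix κ κ F} (h : IsSc F X) (hz : z.trace = 0) :
    (X * z).trace = 0 := by
  obtain ⟨c, rfl⟩ := h
  simp [hz]

theorem HForm.mem_of_rk (h : BF B ε) {S : Submodule F (Matrix κ κ F)}
    (H : ∀ a b, B b a = 0 → rk B a b ∈ S) {z : Matrix κ κ F} (hz : z.trace = 0) : z ∈ S :=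
  mem_of_trace S fun X hX => (isSc_of_forall_mem_span fun v => h.mem_span_of_perp fun y hy => by
    rw [← trace_mul_rk]
    exact hX _ (H _ _ (hy v (Submodule.mem_span_singleton_self v)))).trace_mul hz

theorem HForm.exists_perp (h : BF B ε) (s : Finset (κ → F)) (hs : s.card < Fintype.card κ) :
    ∃ v, v ≠ 0 ∧ ∀ w ∈ s, B w v = 0 := by
  obtain ⟨v, h1, h2⟩ := h.exists_perp_notMem ⊥ (Submodule.span F (s : Set (κ → F))) (by
    have := finrank_span_finset_le_card (R := F) s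
    unfold Set.finrank at this
    rw [finrank_bot]; omega)
  exact ⟨v, h1, fun w hw => h2 w (Submodule.subset_span hw)⟩

theorem HForm.exists_both (h : BF B ε) {v w : κ → F} (hv : v ≠ 0) (hw : w ≠ 0) :
    ∃ z, B v z ≠ 0 ∧ B w z ≠ 0 := by
  obtain ⟨x, hx⟩ := h.exists_one_r hv
  obtain ⟨y, hy⟩ := h.exists_one_r hw
  by_cases h1 : B w x = 0
  · by_cases h2 : B v y = 0
    · exact ⟨x + y, by simp [hx, h2], by simp [hy, h1]⟩
    · exact ⟨y, h2, by simp [hy]⟩
  · exact ⟨x, by simp [hx], h1⟩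

theorem exists_orbit_data {P P' N : Type*} [AddCommGroup P] [AddCommGroup P'] [Fintype P']
    [AddCommMonoid N] {H : Type*} (j : P' →+ P) (hj : Function.Injective j) {S : P → Prop}
    (hS : ∀ t, S (j t) → t = 0) {Fx : H → Prop} {f : P → H → N} {J : N → Prop}
    (h : ∀ η, Fx η → J (∑ t, f (j t) η)) : ∃ (R : AddSubgroup P) (T : Finset P),
      (∀ t, t ∈ T ↔ t ∈ R) ∧ (∀ t ∈ R, S t → t = 0) ∧ ∀ η, Fx η → J (∑ t ∈ T, f t η) := by
  refine ⟨j.range, Finset.univ.map ⟨j, hj⟩, fun t => by simp, ?_, fun η hη => ?_⟩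
  · rintro _ ⟨t, rfl⟩ ht
    rw [hS t ht, map_zero]
  · rw [Finset.sum_map]; exact h η hη

section Sums

variable [Fintype F] {V : Type*} [AddCommGroup V] [Module F V]

theorem sum_const_field (x : V) : ∑ _ : F, x = 0 := by
  rw [Finset.sum_const, Finset.card_univ, ← Nat.cast_smul_eq_nsmul F,
    FiniteField.cast_card_eq_zero, zero_smul]

theorem sum_pow_smul {i : ℕ} (h : i + 1 < Fintype.card F) (x : V) : ∑ t : F, t ^ i • x = 0 := by
  rw [← Finset.sum_smul, FiniteField.sum_pow_lt_card_sub_one F i (by omega), zero_smul]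

theorem sum_self_smul (h : 2 < Fintype.card F) (x : V) : ∑ t : F, t • x = 0 := by
  simpa using sum_pow_smul (i := 1) h x

theorem sum_two_var (g₁ g₂ : F → V) : ∑ p : F × F, (g₁ p.1 + g₂ p.2) = 0 := by
  rw [Finset.sum_add_distrib, Fintype.sum_prod_type, Fintype.sum_prod_type_right]
  simp only [sum_const_field (F := F), Finset.sum_const_zero, add_zero]

theorem sum_three_var (g₁ g₂ g₃ : F → F → V) :
    ∑ p : F × F × F, (g₁ p.2.1 p.2.2 + g₂ p.1 p.2.2 + g₃ p.1 p.2.1) = 0 := by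
  rw [Finset.sum_add_distrib, Finset.sum_add_distrib, Fintype.sum_prod_type_right]
  simp only [sum_const_field (F := F), Finset.sum_const_zero, zero_add, Fintype.sum_prod_type,
    add_zero]

end Sums

end Cfsg.Agent.Cl.Max
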