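import Mathlib
import Cfsg.Agent.Cl.TnRk
import Cfsg.Agent.Cl.MaxAschF
import Cfsg.Agent.Cl.MaxOBasic

/-!
# Elements of tensor decomposition stabilisers lying in `Ω`
-/

set_option autoImplicit false
set_option linter.unusedSectionVars false

namespace Cfsg.Agent.Cl.Max

open Matrix Cfsg.Geo Module QuadraticMap
open scoped Kronecker commutatorElement

variable {F : Type*} [Field F] {ι : Type} [Fintype ι] [DecidableEq ι]
  {κ : Type} [Fintype κ] [DecidableEq κ] {β : Type} [Fintype β] [DecidableEq β]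
  {τ : Type} [Fintype τ] [DecidableEq τ] {Q : QuadraticForm F (ι → F)}

theorem hform_polarQ (hQ : (polarBilin Q).Nondegenerate) :
    HForm (RingHom.id F) 1 (polar Q) :=
  ⟨fun _ => rfl, .inl rfl, fun x y v => polar_add_left Q x y v,
    fun c x v => o_polar_smul_left Q c x v, fun v w => by rw [polar_comm]; simp,
    fun v hv => hQ.2 v hv⟩

theorem bf_polarQ (hQ : (polarBilin Q).Nondegenerate) : BF (polarBilin Q) 1 := hform_polarQ hQ

variable (Q) in
/-- The matrix of an isometry. -/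
noncomputable def oGL : OG Q →* GL ι F :=
  (isometryGroup F ⇑Q).subtype.comp (omatEquiv Q).symm.toMonoidHom

theorem oGL_omatEquiv (g : isometryGroup F ⇑Q) : oGL Q (omatEquiv Q g) = g := by simp [oGL]

theorem oGL_mem (g : OG Q) : oGL Q g ∈ isometryGroup F ⇑Q := ((omatEquiv Q).symm g).2

theorem oGL_injective : Function.Injective (oGL Q) :=
  Subtype.val_injective.comp (omatEquiv Q).symm.injective

theorem oGL_mulVec (g : OG Q) (v : ι → F) : (oGL Q g : Matrix ι ι F) *ᵥ v = g.1 v := by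
  obtain ⟨g, rfl⟩ := (omatEquiv Q).surjective g
  rw [oGL_omatEquiv]; rfl

theorem exists_oGL {g : GL ι F} (hg : g ∈ isometryGroup F ⇑Q) : ∃ k, oGL Q k = g :=
  ⟨omatEquiv Q ⟨g, hg⟩, oGL_omatEquiv _⟩

theorem oGL_eq_iff {k : OG Q} {g : GL ι F} :
    oGL Q k = g ↔ ∀ v, (g : Matrix ι ι F) *ᵥ v = k.1 v :=
  ⟨fun h v => h ▸ oGL_mulVec k v, fun h => Units.ext (Matrix.ext_iff_mulVec.2 fun v => by
    rw [oGL_mulVec, h])⟩

theorem oGL_mem_omegaGL {g : OG Q} : oGL Q g ∈ omegaGL ⇑Q ↔ g ∈ commutator (OG Q) := by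
  constructor
  · rintro ⟨k, hk, hkg⟩
    have : k = (omatEquiv Q).symm g := Subtype.ext hkg
    rwa [this, SetLike.mem_coe, ← omatEquiv_mem_commutator_iff, MulEquiv.apply_symm_apply] at hk
  · intro h
    refine ⟨(omatEquiv Q).symm g, ?_, rfl⟩
    rwa [SetLike.mem_coe, ← omatEquiv_mem_commutator_iff, MulEquiv.apply_symm_apply]

theorem omegaGL_eq_map : omegaGL ⇑Q = (commutator (OG Q)).map (oGL Q) := by
  ext g
  constructor
  · intro hg
    obtain ⟨k, rfl⟩ := exists_oGL (omegaGL_le _ hg)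
    exact ⟨k, oGL_mem_omegaGL.1 hg, rfl⟩
  · rintro ⟨k, hk, rfl⟩
    exact oGL_mem_omegaGL.2 hk

/-- To get `Ω ≤ M` it suffices to work in the abstract orthogonal group. -/
theorem omegaGL_le_of_comap {M : Subgroup (GL ι F)} (h : commutator (OG Q) ≤ M.comap (oGL Q)) :
    omegaGL ⇑Q ≤ M := by
  rw [omegaGL_eq_map, Subgroup.map_le_iff_le_comap]; exact h

theorem commutator_mem_omegaGL {g h : GL ι F} (hg : g ∈ isometryGroup F ⇑Q)
    (hh : h ∈ isometryGroup F ⇑Q) : g * h * g⁻¹ * h⁻¹ ∈ omegaGL ⇑Q := by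
  obtain ⟨g, rfl⟩ := exists_oGL hg
  obtain ⟨h, rfl⟩ := exists_oGL hh
  rw [← map_inv, ← map_inv, ← map_mul, ← map_mul, ← map_mul, oGL_mem_omegaGL]
  exact Subgroup.commutator_mem_commutator (Subgroup.mem_top g) (Subgroup.mem_top h)

theorem conj_mem_omegaGL {g h : GL ι F} (hg : g ∈ isometryGroup F ⇑Q) (hh : h ∈ omegaGL ⇑Q) :
    g * h * g⁻¹ ∈ omegaGL ⇑Q := by
  have := (omegaGL ⇑Q).mul_mem (commutator_mem_omegaGL hg (omegaGL_le _ hh)) hh
  simpa using this

theorem mem_isometry_of_isoG (h2 : (2 : F) ≠ 0) {g : GL ι F} (hg : g ∈ isoG (polar Q)) :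
    g ∈ isometryGroup F ⇑Q :=
  mem_isometryGroup_iff.2 fun v => mul_left_cancel₀ h2 (by
    rw [← o_polar_self, mem_isoG.1 hg, o_polar_self])

/-- An isometry of the polar form preserving `Q` on a spanning set is an isometry of `Q`. -/
theorem mem_isometry_of_span {g : GL ι F} (hg : g ∈ isoG (polar Q)) {S : Set (ι → F)}
    (hS : Submodule.span F S = ⊤) (h : ∀ v ∈ S, Q ((g : Matrix ι ι F) *ᵥ v) = Q v) :
    g ∈ isometryGroup F ⇑Q :=
  mem_isometryGroup_iff.2 fun v => by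
    have hv : v ∈ Submodule.span F S := hS ▸ Submodule.mem_top
    induction hv using Submodule.span_induction with
    | mem v hv => exact h v hv
    | zero => simp
    | add x y _ _ hx hy => rw [mulVec_add, o_qadd, o_qadd, hx, hy, mem_isoG.1 hg]
    | smul c x _ hx => rw [mulVec_smul, o_qsmul, o_qsmul, hx]

theorem homG_mem_isoG {σ : F →+* F} {ε ε₁ : F} {f : (ι → F) → (ι → F) → F}
    {f₁ : (κ → F) → (κ → F) → F} (h : HForm σ ε f) (h₁ : HForm σ ε₁ f₁)
    {ψ : Matrix κ κ F →ₐ[F] Matrix ι ι F} (hψ : ∀ X, adj σ f (ψ X) = ψ (adj σ f₁ X))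
    {a : GL κ F} (ha : a ∈ isoG f₁) : homG ψ a ∈ isoG f :=
  h.mem_isoG_of_adj (by
    rw [coe_homG, hψ, ← map_mul, h₁.adj_of_mem_isoG ha, Units.inv_mul, map_one])

theorem permG_mem_isoG (σ : F →+* F) (f₁ : (κ → F) → (κ → F) → F) (π : Equiv.Perm τ) :
    permG κ F π ∈ isoG (pForm σ τ f₁) := fun u v => by
  change formOfGram _ _ (permT κ F π *ᵥ u) (permT κ F π *ᵥ v) = formOfGram _ _ u v
  simp only [permT_mulVec, formOfGram]
  refine Fintype.sum_equiv (Equiv.arrowCongr π.symm (Equiv.refl κ)) _ _ fun a =>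
    Fintype.sum_equiv (Equiv.arrowCongr π.symm (Equiv.refl κ)) _ _ fun b => ?_
  have : ∀ a : τ → κ, Equiv.arrowCongr π.symm (Equiv.refl κ) a = a ∘ π := fun _ => rfl
  rw [this, this, pureT_apply, pureT_apply]
  congr 2
  exact (Equiv.prod_comp π fun i => gramMatrix f₁ (a i) (b i)).symm

variable (κ F) in
/-- The permutations of the tensor factors as a homomorphism. -/
def permHom : Equiv.Perm τ →* GL (τ → κ) F where
  toFun := permG κ F
  map_one' := Units.ext permT_one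
  map_mul' σ ρ := Units.ext (permT_mul_permT σ ρ).symm

/-- The permutation of the factors of a tensor decomposition. -/
def permS (e : ι ≃ (τ → κ)) (P : GL ι F) : Equiv.Perm τ →* GL ι F :=
  (trG e P).toMonoidHom.comp (permHom F κ)

theorem permS_apply (e : ι ≃ (τ → κ)) (P : GL ι F) (π : Equiv.Perm τ) :
    permS e P π = trG e P (permG κ F π) := rfl

theorem cj_permS_psiS (e : ι ≃ (τ → κ)) (P : GL ι F) (π : Equiv.Perm τ) (s : τ)
    (X : Matrix κ κ F) : cj (permS e P π) (psiS e P s X) = psiS e P (π s) X := by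
  rw [permS_apply, psiS_apply, cj_trG, cj_permG_slot, psiS_apply]

theorem permS_conj (e : ι ≃ (τ → κ)) (P : GL ι F) (π : Equiv.Perm τ) (s : τ) (a : GL κ F) :
    permS e P π * homG (psiS e P s) a * (permS e P π)⁻¹ = homG (psiS e P (π s)) a :=
  Units.ext (cj_permS_psiS e P π s a)

theorem TStr.permS_mem_isoG {σ : F →+* F} {f : (ι → F) → (ι → F) → F}
    {f₁ : (κ → F) → (κ → F) → F} {e : ι ≃ (τ → κ)} {P : GL ι F}
    (hT : TStr σ f (pForm σ τ f₁) e P) (π : Equiv.Perm τ) : permS e P π ∈ isoG f :=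
  hT.trG_mem_isoG_iff.2 (permG_mem_isoG σ f₁ π)

theorem permS_mem_wreath {k t : ℕ} (e : ι ≃ (Fin t → Fin k)) (P : GL ι F)
    (π : Equiv.Perm (Fin t)) : permS e P π ∈ tensorWreathSubgroup k t e P :=
  (mem_tensorWreathSubgroup e P _).2 (by
    rw [permS_apply, MulEquiv.symm_apply_apply]; exact permG_mem π)

theorem homG_psiS_eq (e : ι ≃ (τ → κ)) (P : GL ι F) (s : τ) (a : GL κ F) :
    homG (psiS e P s) a = trG e P (pureG (Function.update (fun _ => 1) s a)) := by
  refine Units.ext ?_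
  rw [coe_homG, coe_trG, coe_pureG, psiS_apply, slot_apply]
  congr 2
  funext i
  by_cases h : i = s
  · subst h; simp
  · simp [Function.update_of_ne h]

theorem homG_psiS_mem_wreath {k t : ℕ} (e : ι ≃ (Fin t → Fin k)) (P : GL ι F) (s : Fin t)
    (a : GL (Fin k) F) : homG (psiS e P s) a ∈ tensorWreathSubgroup k t e P :=
  (mem_tensorWreathSubgroup e P _).2 (by
    rw [homG_psiS_eq, MulEquiv.symm_apply_apply]; exact pureG_mem _)

theorem homG_psiL_mem {a b : ℕ} (e : ι ≃ Fin a × Fin b) (P : GL ι F) (g : GL (Fin a) F) :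
    homG (psiL e P) g ∈ tensorProductSubgroup a b e P :=
  (mem_tensorProductSubgroup e P _).2 ⟨g, 1, rfl⟩

theorem homG_psiR_mem {a b : ℕ} (e : ι ≃ Fin a × Fin b) (P : GL ι F) (g : GL (Fin b) F) :
    homG (psiR e P) g ∈ tensorProductSubgroup a b e P :=
  (mem_tensorProductSubgroup e P _).2 ⟨1, g, rfl⟩

/-- Even permutations of the factors lie in `Ω` when all permutations are isometries. -/
theorem permS_mem_omegaGL {e : ι ≃ (τ → κ)} {P : GL ι F}
    (h : ∀ π, permS e P π ∈ isometryGroup F ⇑Q) {π : Equiv.Perm τ}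
    (hπ : Equiv.Perm.sign π = 1) : permS e P π ∈ omegaGL ⇑Q := by
  have h1 : π ∈ alternatingGroup τ := hπ
  rw [← Equiv.Perm.closure_three_cycles_eq_alternating] at h1
  refine (Subgroup.closure_le ((omegaGL ⇑Q).comap (permS e P))).2 (fun c hc => ?_) h1
  obtain ⟨g, hg⟩ := isConj_iff.1 (Equiv.Perm.isConj_iff_cycleType_eq.2
    (Equiv.Perm.cycleType_inv c))
  have h2 : c * c ∈ (omegaGL ⇑Q).comap (permS e P) := by
    have := commutator_mem_omegaGL (h c) (h g)
    rw [← map_inv, ← map_inv, ← map_mul, ← map_mul, ← map_mul] at this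
    rwa [show c * c = c * g * c⁻¹ * g⁻¹ by rw [mul_assoc, mul_assoc, ← mul_assoc g, hg]]
  have h3 : c ^ 3 = 1 := by
    rw [← Equiv.Perm.IsThreeCycle.orderOf hc]; exact pow_orderOf_eq_one c
  have h4 : c = c * c * (c * c) := by
    rw [show c * c * (c * c) = c ^ 3 * c by simp [pow_succ, mul_assoc], h3, one_mul]
  rw [SetLike.mem_coe, h4]
  exact Subgroup.mul_mem _ h2 h2

/-- The quotient of two slot embeddings of an isometry lies in `Ω`. -/
theorem psiS_div_mem_omegaGL {e : ι ≃ (τ → κ)} {P : GL ι F} {s s' : τ} {a : GL κ F}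
    (h : permS e P (Equiv.swap s s') ∈ isometryGroup F ⇑Q)
    (ha : homG (psiS e P s) a ∈ isometryGroup F ⇑Q) :
    homG (psiS e P s) a * (homG (psiS e P s') a)⁻¹ ∈ omegaGL ⇑Q := by
  have := commutator_mem_omegaGL ha h
  have h1 := permS_conj e P (Equiv.swap s s') s a
  rw [Equiv.swap_apply_left] at h1
  rw [← h1]
  simpa [mul_assoc] using this

variable [Finite F]

theorem mul_self_mem_omegaGL (hQ : (polarBilin Q).Nondegenerate) (hexc : ¬ OExc Q) {g : GL ι F}
    (hg : g ∈ isometryGroup F ⇑Q) : g * g ∈ omegaGL ⇑Q := by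
  obtain ⟨g, rfl⟩ := exists_oGL hg
  rw [← map_mul, oGL_mem_omegaGL]
  exact sq_mem_commutator_OG hQ hexc g

theorem mem_omegaGL_iff_even_rank (hQ : (polarBilin Q).Nondegenerate) (hexc : ¬ OExc Q)
    (h2 : (2 : F) = 0) {g : GL ι F} (hg : g ∈ isometryGroup F ⇑Q) :
    g ∈ omegaGL ⇑Q ↔ Even ((g : Matrix ι ι F) - 1).rank := by
  rw [← mem_Omega_iff_even_rank hQ hexc h2 ⟨g, hg⟩]
  exact ⟨fun ⟨k, hk, e⟩ => by rwa [← show k = ⟨g, hg⟩ from Subtype.ext e], fun h => ⟨_, h, rfl⟩⟩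

variable {B : LinearMap.BilinForm F (κ → F)} {ε : F}

omit [Finite F] in
/-- In odd characteristic a root element is the square of a root element. -/
theorem HForm.xr_eq_sq (h : BF B ε) (h2 : (2 : F) ≠ 0) {u y : κ → F} {c : F}
    (r : RC B ε u y c) : ∃ z d, RC B ε u z d ∧ xr B ε u y c = xr B ε u z d * xr B ε u z d := by
  have h3 : ε * B y y = B y y := (h.symm' y y).symm
  have hz : B u ((2 : F)⁻¹ • y) = 0 := by simp [r.uy]
  have r' : RC B ε u ((2 : F)⁻¹ • y) ((c + B y y / 4) / 2) := ⟨r.uu, hz, by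
    have h4 : (4 : F) ≠ 0 := by rw [show (4 : F) = 2 * 2 by norm_num]; exact mul_ne_zero h2 h2
    simp only [map_smul, LinearMap.smul_apply, smul_eq_mul]
    field_simp
    linear_combination 8 * r.yy - 2 * h3⟩
  refine ⟨_, _, r', Units.ext ?_⟩
  rw [Units.val_mul, h.coe_xr r, h.coe_xr r', h.root_mul r.uu hz hz, ← add_smul,
    show (2 : F)⁻¹ + 2⁻¹ = 1 by field_simp; norm_num, one_smul]
  congr 2
  have h4 : (4 : F) ≠ 0 := by rw [show (4 : F) = 2 * 2 by norm_num]; exact mul_ne_zero h2 h2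
  simp only [map_smul, LinearMap.smul_apply, smul_eq_mul]
  field_simp
  linear_combination 4 * h3

omit [Finite F] in
theorem homG_mem_isometry (h2 : (2 : F) ≠ 0) (hQ : (polarBilin Q).Nondegenerate) (h : BF B ε)
    {ψ : Matrix κ κ F →ₐ[F] Matrix ι ι F}
    (hψ : ∀ X, adj (RingHom.id F) (polar Q) (ψ X) = ψ (ad B X)) {a : GL κ F} (ha : a ∈ isoB B) :
    homG ψ a ∈ isometryGroup F ⇑Q :=
  mem_isometry_of_isoG h2 (homG_mem_isoG (hform_polarQ hQ) h hψ ha)

/-- In odd characteristic the root group of a slot lies in `Ω`. -/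
theorem homG_root_mem_omegaGL (h2 : (2 : F) ≠ 0) (hQ : (polarBilin Q).Nondegenerate)
    (h : BF B ε) {ψ : Matrix κ κ F →ₐ[F] Matrix ι ι F}
    (hψ : ∀ X, adj (RingHom.id F) (polar Q) (ψ X) = ψ (ad B X)) {γ : GL κ F}
    (hγ : γ ∈ RootG B ε) : homG ψ γ ∈ omegaGL ⇑Q := by
  refine (Subgroup.closure_le ((omegaGL ⇑Q).comap (homG ψ))).2 ?_ hγ
  rintro _ ⟨u, y, c, r, rfl⟩
  obtain ⟨z, d, -, e⟩ := h.xr_eq_sq h2 r
  rw [SetLike.mem_coe, Subgroup.mem_comap, e, map_mul]
  exact mul_self_mem_omegaGL hQ (not_oExc_of_two_ne_zero h2)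
    (homG_mem_isometry h2 hQ h hψ (h.xr_iso u z d))

omit [Finite F] in
theorem TStr.permS_mem_isometry (h2 : (2 : F) ≠ 0) {f₁ : (κ → F) → (κ → F) → F}
    {e : ι ≃ (τ → κ)} {P : GL ι F}
    (hT : TStr (RingHom.id F) (polar Q) (pForm (RingHom.id F) τ f₁) e P) (π : Equiv.Perm τ) :
    permS e P π ∈ isometryGroup F ⇑Q := mem_isometry_of_isoG h2 (hT.permS_mem_isoG π)

omit [Finite F] in
/-- The root group of an alternating form is generated by transvections. -/
theorem HForm.RootG_le_of_transv (h : BF B (-1)) (alt : ∀ x, B x x = 0) {H : Subgroup (GL κ F)}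
    (hH : ∀ v c, xr B (-1) v 0 c ∈ H) : RootG B (-1) ≤ H := by
  refine (Subgroup.closure_le _).2 ?_
  rintro _ ⟨u, y, c, r, rfl⟩
  have r0 : ∀ v c, RC B (-1) v 0 c := fun v c => ⟨alt v, by simp, by simp⟩
  have hyu := h.zero_symm r.uy
  have : xr B (-1) u y c = xr B (-1) (u + y) 0 1 * xr B (-1) y 0 (-1) * xr B (-1) u 0 (c - 1) := by
    refine Units.ext ?_
    rw [Units.val_mul, Units.val_mul, h.coe_xr r, h.coe_xr (r0 _ _), h.coe_xr (r0 _ _),
      h.coe_xr (r0 _ _)]
    simp only [map_zero, add_zero, add_mul, mul_add, one_mul, mul_one, smul_mul_assoc,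
      mul_smul_comm, rk_mul_rk, map_add, LinearMap.add_apply, alt, r.uy, hyu, NN_apply, zero_smul,
      smul_zero]
    module
  rw [SetLike.mem_coe, this]
  exact H.mul_mem (H.mul_mem (hH _ _) (hH _ _)) (hH _ _)

omit [Finite F] in
theorem HForm.rank_map_rk (h : BF B ε) (ψ : Matrix κ κ F →ₐ[F] Matrix ι ι F) (o : κ)
    {a b : κ → F} (ha : a ≠ 0) (hb : b ≠ 0) : (ψ (rk B a b)).rank = slotM ψ o := by
  refine le_antisymm (rank_vecMulVec_le o _ _) ?_
  obtain ⟨y, hy⟩ := h.exists_one_r hb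
  have := rank_ge (ψ := ψ) (a := rk B a b) (ρ := Unit) (v := fun _ => y) o IsNilpotent.zero
    inC_zero (by simpa [hy] using ha)
  rwa [add_zero, one_mul, map_add, map_one, add_sub_cancel_left, Fintype.card_unit, one_mul] at this

omit [Finite F] in
theorem card_mul_slotM (ψ : Matrix κ κ F →ₐ[F] Matrix ι ι F) (o : κ) :
    Fintype.card κ * slotM ψ o = Fintype.card ι := by
  apply le_antisymm
  · exact (rank_ge (ψ := ψ) (a := 1) (v := fun i => Pi.single i 1) o IsNilpotent.zero inC_zero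
      (by simpa only [one_mulVec] using Pi.linearIndependent_single_one κ F)).trans (rank_le_card_width _)
  · have key : ∀ s : Finset κ, (∑ i ∈ s, ψ (single i i 1)).rank ≤ s.card * slotM ψ o := fun s => by
      induction s using Finset.induction_on with
      | empty => simp
      | insert i s hi ih =>
        rw [Finset.sum_insert hi, Finset.card_insert_of_notMem hi, add_mul, one_mul, add_comm (_ * _)]
        exact (rank_add_le' _ _).trans (Nat.add_le_add
          (single_eq_vecMulVec (F := F) i ▸ rank_vecMulVec_le o _ _) ih)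
    have := key Finset.univ
    rwa [sum_single', rank_one, Finset.card_univ] at this

/-- In characteristic two the root group of a symplectic slot of even multiplicity lies in `Ω`. -/
theorem homG_root_mem_omegaGL_two (h2 : (2 : F) = 0) (hQ : (polarBilin Q).Nondegenerate)
    (hexc : ¬ OExc Q) (h : BF B (-1)) (alt : ∀ x, B x x = 0)
    {ψ : Matrix κ κ F →ₐ[F] Matrix ι ι F} {o : κ} (hev : Even (slotM ψ o))
    (hψ : ∀ v c, homG ψ (xr B (-1) v 0 c) ∈ isometryGroup F ⇑Q) {γ : GL κ F}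
    (hγ : γ ∈ RootG B (-1)) : homG ψ γ ∈ omegaGL ⇑Q := by
  refine h.RootG_le_of_transv alt (H := (omegaGL ⇑Q).comap (homG ψ)) (fun v c => ?_) hγ
  rw [Subgroup.mem_comap, mem_omegaGL_iff_even_rank hQ hexc h2 (hψ v c), coe_homG,
    h.coe_xr ⟨alt v, by simp, by simp⟩, map_zero, add_zero, map_add, map_one, add_sub_cancel_left,
    ← LinearMap.smul_apply, ← map_smul]
  by_cases hv : v = 0
  · simp [hv]
  by_cases hc : c = 0
  · simp [hc]
  rwa [h.rank_map_rk ψ o (smul_ne_zero hc hv) hv]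

end Cfsg.Agent.Cl.Max
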