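import Mathlib
import Cfsg.Agent.Cl.TnGen
import Cfsg.Agent.Cl.TnMem
import Cfsg.Agent.Cl.MaxSpX
import Cfsg.Agent.Cl.AutBase

/-!
# Tensor products of symplectic spaces: the frame

`TF` records a tensor decomposition with factors indexed by `τ`, the pure vectors `pv` and the pure
matrices `pm`.  `TS` adds a group `M` of isometries containing the isometry groups of the factors.
-/

set_option autoImplicit false
set_option linter.unusedSectionVars false
set_option linter.unusedVariables false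

namespace Cfsg.Agent.Cl.Max

open Matrix Cfsg.Geo Module Function

variable {F : Type*} [Field F] {ι : Type} [Fintype ι] [DecidableEq ι]

section Slot

variable {κ : Type} [Fintype κ] [DecidableEq κ] {ψ : Matrix κ κ F →ₐ[F] Matrix ι ι F}

theorem eq_zero_of_map_mul {X : Matrix κ κ F} (hX : X ≠ 0) {c : Matrix ι ι F} (hc : InC ψ c)
    (h : ψ X * c = 0) : c = 0 := by
  obtain ⟨a, b, hab⟩ : ∃ a b, X a b ≠ 0 := by
    by_contra! H
    exact hX (Matrix.ext H)
  have := coef_map_mul_inC hc a b X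
  rw [h, map_zero] at this
  exact (smul_eq_zero.1 this.symm).resolve_left hab

end Slot

/-- `1 + X` is the matrix of an element of `M`. -/
def InM (M : Subgroup (GL ι F)) (X : Matrix ι ι F) : Prop :=
  ∃ g ∈ M, (g : Matrix ι ι F) = 1 + X

/-- All `1 + c X` lie in `M`. -/
def PM (M : Subgroup (GL ι F)) (X : Matrix ι ι F) : Prop := ∀ c : F, InM M (c • X)

variable {M : Subgroup (GL ι F)}

theorem inM_zero : InM M 0 := ⟨1, M.one_mem, by simp⟩

theorem InM.mul {X Y : Matrix ι ι F} (hX : InM M X) (hY : InM M Y) : InM M (X + Y + X * Y) := by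
  obtain ⟨g, hg, e⟩ := hX
  obtain ⟨k, hk, e'⟩ := hY
  exact ⟨g * k, M.mul_mem hg hk, by rw [Units.val_mul, e, e']; noncomm_ring⟩

theorem InM.add {X Y : Matrix ι ι F} (hX : InM M X) (hY : InM M Y) (h : X * Y = 0) :
    InM M (X + Y) := by simpa [h] using hX.mul hY

theorem InM.cj {X : Matrix ι ι F} (hX : InM M X) {g : GL ι F} (hg : g ∈ M) : InM M (cj g X) := by
  obtain ⟨k, hk, e⟩ := hX
  exact ⟨g * k * g⁻¹, M.mul_mem (M.mul_mem hg hk) (M.inv_mem hg), by
    rw [← cj_coe, e, map_add, map_one]⟩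

theorem coe_inv_of_sq {g : GL ι F} {X : Matrix ι ι F} (e : (g : Matrix ι ι F) = 1 + X)
    (h : X * X = 0) : ((g⁻¹ : GL ι F) : Matrix ι ι F) = 1 - X :=
  Units.inv_eq_of_mul_eq_one_right (by
    rw [e, show (1 + X) * (1 - X) = 1 - X * X by noncomm_ring, h, sub_zero])

theorem InM.skew {B0 : LinearMap.BilinForm F (ι → F)} {ε : F} (h0 : BF B0 ε) (hM : M ≤ isoB B0)
    {X : Matrix ι ι F} (hX : InM M X) (h : X * X = 0) : ad B0 X = -X := by
  obtain ⟨g, hg, e⟩ := hX
  have := h0.ad_iso (hM hg)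
  rw [coe_inv_of_sq e h, e, h0.ad_add, h0.ad_one, sub_eq_add_neg] at this
  exact add_left_cancel this

theorem PM.smul {X : Matrix ι ι F} (h : PM M X) (a : F) : PM M (a • X) := fun c => by
  rw [smul_smul]; exact h _

theorem PM.of_smul {X : Matrix ι ι F} {a : F} (h : PM M (a • X)) (ha : a ≠ 0) : PM M X := by
  simpa [ha] using h.smul a⁻¹

theorem PM.inM {X : Matrix ι ι F} (h : PM M X) : InM M X := by simpa using h 1

theorem pM_zero : PM M 0 := fun c => by simpa using inM_zero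

theorem PM.cj {X : Matrix ι ι F} (h : PM M X) {g : GL ι F} (hg : g ∈ M) : PM M (cj g X) :=
  fun c => by rw [← map_smul]; exact (h c).cj hg

theorem PM.sub {X Y : Matrix ι ι F} (hX : PM M X) (hY : PM M Y) (h : X * Y = 0) :
    PM M (X - Y) := fun c => by
  have := (hX c).add (hY (-c)) (by simp [h])
  rwa [neg_smul, ← sub_eq_add_neg, ← smul_sub] at this

theorem PM.comm {X Y : Matrix ι ι F} (hX : PM M X) (hY : PM M Y) (h1 : X * X = 0)
    (h2 : Y * Y = 0) (h3 : X * Y * X = 0) (h4 : Y * X * Y = 0) : PM M (X * Y - Y * X) := fun c => by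
  have := ((hX c).mul (hY 1)).mul ((hX (-c)).mul (hY (-1)))
  have k1 : ∀ Z, X * (X * Z) = 0 := fun Z => by rw [← mul_assoc, h1, zero_mul]
  have k2 : ∀ Z, Y * (Y * Z) = 0 := fun Z => by rw [← mul_assoc, h2, zero_mul]
  have k3 : ∀ Z, X * (Y * (X * Z)) = 0 := fun Z => by
    rw [← mul_assoc, ← mul_assoc, h3, zero_mul]
  rw [mul_assoc] at h3 h4
  convert this using 1
  simp only [one_smul, neg_smul, add_mul, mul_add, smul_mul_assoc, mul_smul_comm, mul_neg, neg_mul,
    mul_assoc, h1, h2, h3, h4, k1, k2, k3, smul_zero, neg_zero, mul_zero, smul_neg, neg_neg]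
  module

variable {τ : Type} [Fintype τ] [DecidableEq τ] {κ : τ → Type} [∀ i, Fintype (κ i)]
  [∀ i, DecidableEq (κ i)]

/-- A tensor decomposition of a space with a form. -/
structure TF (B0 : LinearMap.BilinForm F (ι → F)) (B : ∀ i, LinearMap.BilinForm F (κ i → F)) where
  /-- pure vectors -/
  pv : MultilinearMap F (fun i => κ i → F) (ι → F)
  /-- pure matrices -/
  pm : (∀ i, Matrix (κ i) (κ i) F) → Matrix ι ι F
  /-- the slots -/
  ψ : ∀ i, Matrix (κ i) (κ i) F →ₐ[F] Matrix ι ι F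
  /-- the factor of proportionality -/
  c : F
  c_ne : c ≠ 0
  pm_pv : ∀ n x, pm n *ᵥ pv x = pv fun i => n i *ᵥ x i
  psi_pv : ∀ i X x, ψ i X *ᵥ pv x = pv (update x i (X *ᵥ x i))
  span : Submodule.span F (Set.range pv) = ⊤
  form : ∀ x y, B0 (pv x) (pv y) = c * ∏ i, B i (x i) (y i)

namespace TF

variable {B0 : LinearMap.BilinForm F (ι → F)} {B : ∀ i, LinearMap.BilinForm F (κ i → F)}
  (T : TF B0 B)

theorem mem_of_pv {S : Submodule F (ι → F)} (h : ∀ x, T.pv x ∈ S) (v : ι → F) : v ∈ S :=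
  (Submodule.span_le.2 (by rintro _ ⟨x, rfl⟩; exact h x) : _ ≤ S) (T.span ▸ Submodule.mem_top)

theorem lin_ext {W : Type*} [AddCommGroup W] [Module F W] {f g : (ι → F) →ₗ[F] W}
    (h : ∀ x, f (T.pv x) = g (T.pv x)) : f = g :=
  LinearMap.ext fun v => T.mem_of_pv (S := LinearMap.eqLocus f g) h v

theorem ext_pv {X Y : Matrix ι ι F} (h : ∀ x, X *ᵥ T.pv x = Y *ᵥ T.pv x) : X = Y :=
  Matrix.ext_iff_mulVec.2 fun v =>
    LinearMap.congr_fun (T.lin_ext (f := X.mulVecLin) (g := Y.mulVecLin) h) v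

theorem upd_mulVec (n : ∀ i, Matrix (κ i) (κ i) F) (x : ∀ i, κ i → F) (i : τ)
    (X : Matrix (κ i) (κ i) F) :
    (fun j => update n i X j *ᵥ x j) = update (fun j => n j *ᵥ x j) i (X *ᵥ x i) := by
  funext j
  by_cases h : j = i
  · subst h; simp
  · simp [update_of_ne h]

theorem pm_mul (n n' : ∀ i, Matrix (κ i) (κ i) F) :
    T.pm n * T.pm n' = T.pm fun i => n i * n' i :=
  T.ext_pv fun x => by simp only [← mulVec_mulVec, T.pm_pv]

theorem pm_one : T.pm (fun _ => 1) = 1 := T.ext_pv fun x => by simp only [T.pm_pv, one_mulVec]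

theorem pm_update_add (n : ∀ i, Matrix (κ i) (κ i) F) (i : τ) (X Y : Matrix (κ i) (κ i) F) :
    T.pm (update n i (X + Y)) = T.pm (update n i X) + T.pm (update n i Y) :=
  T.ext_pv fun x => by
    simp only [add_mulVec, T.pm_pv, upd_mulVec, MultilinearMap.map_update_add]

theorem pm_update_sub (n : ∀ i, Matrix (κ i) (κ i) F) (i : τ) (X Y : Matrix (κ i) (κ i) F) :
    T.pm (update n i (X - Y)) = T.pm (update n i X) - T.pm (update n i Y) :=
  T.ext_pv fun x => by
    simp only [sub_mulVec, T.pm_pv, upd_mulVec, MultilinearMap.map_update_sub]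

theorem pm_update_smul (n : ∀ i, Matrix (κ i) (κ i) F) (i : τ) (a : F) (X : Matrix (κ i) (κ i) F) :
    T.pm (update n i (a • X)) = a • T.pm (update n i X) :=
  T.ext_pv fun x => by
    simp only [smul_mulVec, T.pm_pv, upd_mulVec, MultilinearMap.map_update_smul]

theorem pm_zero {n : ∀ i, Matrix (κ i) (κ i) F} (i : τ) (h : n i = 0) : T.pm n = 0 :=
  T.ext_pv fun x => by
    rw [T.pm_pv, zero_mulVec]; exact T.pv.map_coord_zero i (by rw [h, zero_mulVec])

theorem pm_smul (a : τ → F) (n : ∀ i, Matrix (κ i) (κ i) F) :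
    T.pm (fun i => a i • n i) = (∏ i, a i) • T.pm n :=
  T.ext_pv fun x => by
    simp only [smul_mulVec, T.pm_pv, MultilinearMap.map_smul_univ]

theorem psi_mul_pm (i : τ) (X : Matrix (κ i) (κ i) F) (n : ∀ i, Matrix (κ i) (κ i) F) :
    T.ψ i X * T.pm n = T.pm (update n i (X * n i)) :=
  T.ext_pv fun x => by simp only [← mulVec_mulVec, T.pm_pv, T.psi_pv, upd_mulVec]

theorem pm_mul_psi (i : τ) (X : Matrix (κ i) (κ i) F) (n : ∀ i, Matrix (κ i) (κ i) F) :
    T.pm n * T.ψ i X = T.pm (update n i (n i * X)) :=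
  T.ext_pv fun x => by
    simp only [← mulVec_mulVec, T.pm_pv, T.psi_pv, upd_mulVec]
    congr 1
    funext j
    by_cases h : j = i
    · subst h; simp
    · simp [update_of_ne h]

theorem psi_eq (i : τ) (X : Matrix (κ i) (κ i) F) : T.ψ i X = T.pm (update (fun _ => 1) i X) := by
  rw [← mul_one (T.ψ i X), ← T.pm_one, psi_mul_pm, mul_one]

theorem inC_pm {n : ∀ i, Matrix (κ i) (κ i) F} {i : τ} (h : n i = 1) : InC (T.ψ i) (T.pm n) :=
  fun Y => by rw [psi_mul_pm, pm_mul_psi, h, one_mul, mul_one]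

theorem inC_psi {i j : τ} (h : i ≠ j) (X : Matrix (κ j) (κ j) F) : InC (T.ψ i) (T.ψ j X) := by
  rw [psi_eq]; exact T.inC_pm (update_of_ne h _ _)

theorem pm_eq_psi_mul (n : ∀ i, Matrix (κ i) (κ i) F) (i : τ) :
    T.pm n = T.ψ i (n i) * T.pm (update n i 1) := by
  rw [psi_mul_pm, update_self, mul_one, update_idem, update_eq_self]

theorem cj_pm (i : τ) (g : GL (κ i) F) (n : ∀ i, Matrix (κ i) (κ i) F) :
    cj (homG (T.ψ i) g) (T.pm n) = T.pm (update n i (cj g (n i))) := by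
  rw [cj_apply, ← map_inv, coe_homG, coe_homG, psi_mul_pm, pm_mul_psi, update_self, update_idem,
    cj_apply]

theorem inC_cj {i j : τ} (h : i ≠ j) (g : GL (κ j) F) {X : Matrix ι ι F} (hX : InC (T.ψ i) X) :
    InC (T.ψ i) (cj (homG (T.ψ j) g) X) := by
  rw [cj_apply, ← map_inv, coe_homG, coe_homG]
  exact ((T.inC_psi h _).mul hX).mul (T.inC_psi h _)

theorem cj_mul_left {j : τ} (g : GL (κ j) F) {c : Matrix ι ι F} (hc : InC (T.ψ j) c)
    (X : Matrix ι ι F) : cj (homG (T.ψ j) g) (c * X) = c * cj (homG (T.ψ j) g) X := by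
  rw [map_mul, cj_homG_inC g hc]

theorem cj_mul_right {j : τ} (g : GL (κ j) F) {c : Matrix ι ι F} (hc : InC (T.ψ j) c)
    (X : Matrix ι ι F) : cj (homG (T.ψ j) g) (X * c) = cj (homG (T.ψ j) g) X * c := by
  rw [map_mul, cj_homG_inC g hc]

theorem comm_pm {d : Matrix ι ι F} (h : ∀ j, InC (T.ψ j) d) (n : ∀ i, Matrix (κ i) (κ i) F) :
    d * T.pm n = T.pm n * d := by
  have key : ∀ S : Finset τ, d * T.pm (S.piecewise n fun _ => 1) =
      T.pm (S.piecewise n fun _ => 1) * d := fun S => by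
    induction S using Finset.induction_on with
    | empty => simp [T.pm_one]
    | insert s S hs ih =>
      have : T.pm ((insert s S).piecewise n fun _ => 1) =
          T.ψ s (n s) * T.pm (S.piecewise n fun _ => 1) := by
        rw [psi_mul_pm, Finset.piecewise_eq_of_notMem _ _ _ hs, mul_one, Finset.piecewise_insert]
      rw [this, ← mul_assoc, h s, mul_assoc, ih, mul_assoc]
  simpa using key Finset.univ

theorem pm_rk (a b : ∀ i, κ i → F) :
    T.c • T.pm (fun i => rk (B i) (a i) (b i)) = rk B0 (T.pv a) (T.pv b) :=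
  T.ext_pv fun x => by
    simp only [smul_mulVec, T.pm_pv, rk_mulVec, MultilinearMap.map_smul_univ, T.form, smul_smul]

variable {ε0 : F} {ε : τ → F} (h0 : BF B0 ε0) (h : ∀ i, BF (B i) (ε i))
include h0

theorem isSc_of_comm {d : Matrix ι ι F} (hd : ∀ j, InC (T.ψ j) d) : IsSc F d := by
  refine eq_smul_one_of_commute fun Y => ?_
  induction Y using h0.rk_induction with
  | h0 => simp
  | hadd X Y hX hY => rw [mul_add, add_mul, hX, hY]
  | hrk a b =>
    have k1 : ∀ x, (LinearMap.mulLeft F d).comp (rk B0 (T.pv x)) =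
        (LinearMap.mulRight F d).comp (rk B0 (T.pv x)) := fun x => T.lin_ext fun y => by
      simp only [LinearMap.comp_apply, LinearMap.mulLeft_apply, LinearMap.mulRight_apply,
        ← T.pm_rk, mul_smul_comm, smul_mul_assoc, T.comm_pm hd]
    have k2 : (LinearMap.mulLeft F d).comp ((rk B0).flip b) =
        (LinearMap.mulRight F d).comp ((rk B0).flip b) := T.lin_ext fun x =>
      LinearMap.congr_fun (k1 x) b
    exact LinearMap.congr_fun k2 a

theorem inE_of_slots (i : τ) {d : Matrix ι ι F} (hd : ∀ j, j ≠ i → InC (T.ψ j) d) :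
    InE (T.ψ i) d := by
  rw [← sum_coef (ψ := T.ψ i) d]
  refine (T.ψ i).range.sum_mem fun a _ => (T.ψ i).range.sum_mem fun b _ =>
    (inE_map _).mul (T.isSc_of_comm h0 fun j => ?_).inE
  by_cases e : j = i
  · subst e; exact inC_coef a b d
  · exact inC_sum _ fun k _ => ((T.inC_psi e _).mul (hd j e)).mul (T.inC_psi e _)

include h

theorem ad_pm (n : ∀ i, Matrix (κ i) (κ i) F) : ad B0 (T.pm n) = T.pm fun i => ad (B i) (n i) := by
  refine h0.adj_eq fun x y => ?_
  have : (B0.comp (T.pm n).mulVecLin LinearMap.id) =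
      B0.comp LinearMap.id (T.pm fun i => ad (B i) (n i)).mulVecLin :=
    T.lin_ext fun x => T.lin_ext fun y => by
      simp only [LinearMap.BilinForm.comp_apply, mulVecLin_apply, LinearMap.id_apply, T.pm_pv,
        T.form, (h _).ad_l]
  exact LinearMap.congr_fun (LinearMap.congr_fun this x) y

theorem ad_psi (i : τ) (X : Matrix (κ i) (κ i) F) : ad B0 (T.ψ i X) = T.ψ i (ad (B i) X) := by
  rw [psi_eq, psi_eq, T.ad_pm h0 h]
  congr 1
  funext j
  by_cases e : j = i
  · subst e; simp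
  · simp [update_of_ne e, (h j).ad_one]

omit h0 in
theorem pv_ne_zero {x : ∀ i, κ i → F} (hx : ∀ i, x i ≠ 0) : T.pv x ≠ 0 := fun e => by
  choose y hy using fun i => (h i).exists_one_r (hx i)
  have := T.form x y
  simp [e, hy, T.c_ne.symm] at this

omit h0 in
theorem pm_ne_zero {n : ∀ i, Matrix (κ i) (κ i) F} (hn : ∀ i, n i ≠ 0) : T.pm n ≠ 0 := fun e => by
  have : ∀ i, ∃ x, n i *ᵥ x ≠ 0 := fun i => by
    by_contra! H
    exact hn i (Matrix.ext_iff_mulVec.2 fun v => by rw [H, zero_mulVec])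
  choose x hx using this
  exact T.pv_ne_zero h hx (by rw [← T.pm_pv, e, zero_mulVec])

end TF

section Types

variable {κ : Type} [Fintype κ] [DecidableEq κ] (B : LinearMap.BilinForm F (κ → F))

/-- The self-adjoint map `y ∧ u`. -/
def NP (u y : κ → F) : Matrix κ κ F := rk B y u - rk B u y

/-- The matrices allowed in a slot of a pure element. -/
def HasTy (t : Fin 3) (n : Matrix κ κ F) : Prop :=
  (t = 0 ∧ n = 1) ∨ (t = 1 ∧ ∃ u, u ≠ 0 ∧ n = rk B u u) ∨
    (t = 2 ∧ ∃ u y, u ≠ 0 ∧ y ∉ Submodule.span F {u} ∧ B u y = 0 ∧ n = NP B u y)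

variable {B}

theorem hasTy_zero {n : Matrix κ κ F} : HasTy B 0 n ↔ n = 1 := by simp [HasTy]

theorem hasTy_one {n : Matrix κ κ F} : HasTy B 1 n ↔ ∃ u, u ≠ 0 ∧ n = rk B u u := by simp [HasTy]

theorem hasTy_two {n : Matrix κ κ F} : HasTy B 2 n ↔
    ∃ u y, u ≠ 0 ∧ y ∉ Submodule.span F {u} ∧ B u y = 0 ∧ n = NP B u y := by simp [HasTy]

theorem ty_cases (t : Fin 3) : t = 0 ∨ t = 1 ∨ t = 2 := by revert t; decide

theorem li_pair {u y : κ → F} (hu : u ≠ 0) (hy : y ∉ Submodule.span F {u}) :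
    LinearIndependent F ![u, y] :=
  (LinearIndependent.pair_iff' hu).2 fun a e => hy (Submodule.mem_span_singleton.2 ⟨a, e⟩)

theorem exists_isoB {α : Type*} (h : BF B (-1)) (alt : ∀ x, B x x = 0) (u v : α → κ → F)
    (hu : LinearIndependent F u) (hv : LinearIndependent F v)
    (huv : ∀ i j, B (v i) (v j) = B (u i) (u j)) :
    ∃ g ∈ isoB B, ∀ i, (g : Matrix κ κ F) *ᵥ u i = v i := by
  obtain ⟨g, h1, h2⟩ := witt_alt_family (B := B)
    ⟨fun x hx => h.eq_zero_l hx, fun x hx => h.eq_zero_r hx⟩ alt u v hu hv huv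
  exact ⟨ofLin g, mem_isoG.2 fun x y => by simp only [ofLin_mulVec, h1],
    fun i => by rw [ofLin_mulVec, h2]⟩

variable (h : BF B (-1)) (alt : ∀ x, B x x = 0)
include h

theorem HForm.swap_neg (x y : κ → F) : B x y = -B y x := by rw [h.symm', neg_one_mul]

theorem HForm.cj_NP {g : GL κ F} (hg : g ∈ isoB B) (u y : κ → F) :
    cj g (NP B u y) = NP B ((g : Matrix κ κ F) *ᵥ u) ((g : Matrix κ κ F) *ᵥ y) := by
  rw [NP, map_sub, h.cj_rk hg, h.cj_rk hg, NP]

theorem HForm.exists_dual_perp {u y : κ → F} (hy : y ∉ Submodule.span F {u}) :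
    ∃ z, B u z = 0 ∧ B y z = 1 := by
  obtain ⟨z, h1, h2⟩ := h.exists_dual hy
  exact ⟨-z, by rw [h.swap_neg]; simp [h2 u (Submodule.mem_span_singleton_self u)],
    by rw [h.swap_neg]; simp [h1]⟩

theorem HForm.three_le {u y : κ → F} (alt : ∀ x, B x x = 0) (hu : u ≠ 0)
    (hy : y ∉ Submodule.span F {u}) (huy : B u y = 0) : 3 ≤ Fintype.card κ := by
  obtain ⟨z, hz⟩ := h.exists_one_r hu
  have : LinearIndependent F ![z, u, y] := by
    refine (linearIndependent_finCons (v := ![u, y])).2 ⟨li_pair hu hy, fun hx => ?_⟩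
    rw [Matrix.range_cons, Matrix.range_cons_empty, Set.singleton_union] at hx
    obtain ⟨a, b, rfl⟩ := Submodule.mem_span_pair.1 hx
    simp [alt, huy] at hz
  simpa using this.fintype_card_le_finrank

include alt

theorem HasTy.same {t : Fin 3} {n n' : Matrix κ κ F} (h1 : HasTy B t n) (h2 : HasTy B t n') :
    ∃ g ∈ isoB B, n' = cj g n := by
  rcases ty_cases t with rfl | rfl | rfl
  · rw [hasTy_zero] at h1 h2
    exact ⟨1, one_mem _, by rw [h1, h2, map_one]⟩
  · obtain ⟨u, hu, rfl⟩ := hasTy_one.1 h1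
    obtain ⟨v, hv, rfl⟩ := hasTy_one.1 h2
    obtain ⟨g, hg, e⟩ := exists_isoB h alt (fun _ : Unit => u) (fun _ => v)
      (by simpa using hu) (by simpa using hv) fun _ _ => by rw [alt, alt]
    exact ⟨g, hg, by rw [h.cj_rk hg, e ()]⟩
  · obtain ⟨u, y, hu, hy, e1, rfl⟩ := hasTy_two.1 h1
    obtain ⟨v, z, hv, hz, e2, rfl⟩ := hasTy_two.1 h2
    obtain ⟨g, hg, e⟩ := exists_isoB h alt ![u, y] ![v, z] (li_pair hu hy) (li_pair hv hz)
      fun i j => by
        fin_cases i <;> fin_cases j <;> simp [alt, e1, e2, h.zero_symm e1, h.zero_symm e2]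
    exact ⟨g, hg, by rw [h.cj_NP hg]; exact congrArg₂ _ (e 0).symm (e 1).symm⟩

theorem HasTy.sq {t : Fin 3} {n : Matrix κ κ F} (h1 : HasTy B t n) (ht : t ≠ 0) : n * n = 0 := by
  rcases ty_cases t with rfl | rfl | rfl
  · exact (ht rfl).elim
  · obtain ⟨u, hu, rfl⟩ := hasTy_one.1 h1
    simp [alt]
  · obtain ⟨u, y, hu, hy, e1, rfl⟩ := hasTy_two.1 h1
    simp [NP, sub_mul, mul_sub, alt, e1, h.zero_symm e1]

theorem HasTy.ne_zero [Nonempty κ] {t : Fin 3} {n : Matrix κ κ F} (h1 : HasTy B t n) : n ≠ 0 := by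
  rcases ty_cases t with rfl | rfl | rfl
  · rw [hasTy_zero.1 h1]; exact one_ne_zero
  · obtain ⟨u, hu, rfl⟩ := hasTy_one.1 h1
    exact h.rk_ne_zero hu hu
  · obtain ⟨u, y, hu, hy, e1, rfl⟩ := hasTy_two.1 h1
    obtain ⟨z, h1, h2⟩ := h.exists_dual_perp hy
    intro e
    have := congrArg (· *ᵥ z) e
    simp [NP, sub_mulVec, h1, h2, hu] at this

theorem HasTy.ad {t : Fin 3} {n : Matrix κ κ F} (h1 : HasTy B t n) :
    ad B n = (if t = 1 then -1 else 1 : F) • n := by
  rcases ty_cases t with rfl | rfl | rfl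
  · simp [hasTy_zero.1 h1, h.ad_one]
  · obtain ⟨u, hu, rfl⟩ := hasTy_one.1 h1
    simp [h.ad_rk]
  · obtain ⟨u, y, hu, hy, e1, rfl⟩ := hasTy_two.1 h1
    simp [NP, h.ad_sub, h.ad_rk, neg_add_eq_sub]

omit h alt in
variable (B) in
/-- The matrix of a symplectic map. -/
noncomputable def spHom : SpG B →* GL κ F := (glEquiv κ F).symm.toMonoidHom.comp (SpG B).subtype

theorem spHom_spT (v : κ → F) (c : F) :
    spHom B (spT (show B.IsAlt from alt) v c) = xr B (-1) v 0 (-c) :=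
  Units.ext (Matrix.ext_iff_mulVec.2 fun x => by
    have : ∀ k : SpG B, (spHom B k : Matrix κ κ F) *ᵥ x = k.1 x := fun k => by simp [spHom]
    rw [this, spT_apply, h.xr_mulVec ⟨alt v, by simp, by simp⟩, h.swap_neg v x]
    simp)

omit alt in
theorem isoB_le_of_comap {H : Subgroup (GL κ F)} (hH : H.comap (spHom B) = ⊤) : isoB B ≤ H :=
  fun g hg => by
    have h2 : (⟨glEquiv κ F g, fun x y => by simpa using hg x y⟩ : SpG B) ∈
        H.comap (spHom B) := hH ▸ Subgroup.mem_top _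
    simpa [spHom] using h2

theorem isoB_le_RootG : isoB B ≤ RootG B (-1) :=
  isoB_le_of_comap h (MaxSp.eq_top_of_XS ⟨fun x hx => h.eq_zero_l hx, fun x hx => h.eq_zero_r hx⟩
    (show B.IsAlt from alt) fun v c => by
      rw [Subgroup.mem_comap, spHom_spT h alt]; exact xr_mem _ _ _)

end Types

/-- A group of isometries containing the symplectic groups of the factors. -/
structure TS {B0 : LinearMap.BilinForm F (ι → F)} {B : ∀ i, LinearMap.BilinForm F (κ i → F)}
    (T : TF B0 B) (ε0 : F) (M : Subgroup (GL ι F)) : Prop where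
  h0 : BF B0 ε0
  h : ∀ i, BF (B i) (-1)
  alt : ∀ i x, B i x x = 0
  ne : ∀ i, Nonempty (κ i)
  le : M ≤ isoB B0
  mem : ∀ i, ∀ g ∈ isoB (B i), homG (T.ψ i) g ∈ M

variable {B0 : LinearMap.BilinForm F (ι → F)} {B : ∀ i, LinearMap.BilinForm F (κ i → F)}
  {T : TF B0 B} {ε0 : F}

variable (T M) in
/-- The pure elements of type `ty` lie in `M`. -/
def PT (ty : τ → Fin 3) : Prop := ∃ n, (∀ i, HasTy (B i) (ty i) (n i)) ∧ PM M (T.pm n)

namespace TS

variable (S : TS T ε0 M)
include S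

theorem all {ty : τ → Fin 3} (p : PT M T ty) {n' : ∀ i, Matrix (κ i) (κ i) F}
    (h' : ∀ i, HasTy (B i) (ty i) (n' i)) : PM M (T.pm n') := by
  obtain ⟨n, hn, p⟩ := p
  have key : ∀ A : Finset τ, PM M (T.pm (A.piecewise n' n)) := fun A => by
    induction A using Finset.induction_on with
    | empty => simpa using p
    | insert s A hs ih =>
      obtain ⟨g, hg, e⟩ := HasTy.same (S.h s) (S.alt s) (hn s) (h' s)
      have := ih.cj (S.mem s g hg)
      rwa [T.cj_pm, Finset.piecewise_eq_of_notMem _ _ _ hs, ← e, ← Finset.piecewise_insert] at this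
  simpa using key Finset.univ

theorem pm_ne {ty : τ → Fin 3} {n : ∀ i, Matrix (κ i) (κ i) F}
    (hn : ∀ i, HasTy (B i) (ty i) (n i)) : T.pm n ≠ 0 :=
  T.pm_ne_zero S.h fun i => have := S.ne i; (hn i).ne_zero (S.h i) (S.alt i)

theorem pm_sq {ty : τ → Fin 3} {n : ∀ i, Matrix (κ i) (κ i) F}
    (hn : ∀ i, HasTy (B i) (ty i) (n i)) {j : τ} (hj : ty j ≠ 0) : T.pm n * T.pm n = 0 := by
  rw [T.pm_mul]; exact T.pm_zero j ((hn j).sq (S.h j) (S.alt j) hj)

theorem ad_pm_ty {ty : τ → Fin 3} {n : ∀ i, Matrix (κ i) (κ i) F}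
    (hn : ∀ i, HasTy (B i) (ty i) (n i)) :
    ad B0 (T.pm n) = (-1 : F) ^ (Finset.univ.filter fun i => ty i = 1).card • T.pm n := by
  rw [T.ad_pm S.h0 S.h, show (fun i => ad (B i) (n i)) = _ from
    funext fun i => (hn i).ad (S.h i) (S.alt i), T.pm_smul, Finset.prod_ite, Finset.prod_const,
    Finset.prod_const_one, mul_one]

/-- In odd characteristic the number of slots of the first type is odd. -/
theorem parity (h2 : (2 : F) ≠ 0) {ty : τ → Fin 3} (p : PT M T ty) {j : τ} (hj : ty j ≠ 0) :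
    Odd (Finset.univ.filter fun i => ty i = 1).card := by
  obtain ⟨n, hn, p⟩ := p
  have h1 := p.inM.skew S.h0 S.le (S.pm_sq hn hj)
  rw [S.ad_pm_ty hn] at h1
  by_contra he
  rw [(Nat.not_odd_iff_even.1 he).neg_one_pow, one_smul, eq_neg_iff_add_eq_zero, ← two_smul F] at h1
  exact S.pm_ne hn ((smul_eq_zero.1 h1).resolve_left h2)

end TS

end Cfsg.Agent.Cl.Max
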