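import Mathlib
import Cfsg.Agent.Cl.SpTnA

/-!
# Tensor products of symplectic spaces: commutators of pure elements
-/

set_option autoImplicit false
set_option linter.unusedSectionVars false
set_option linter.unusedVariables false

namespace Cfsg.Agent.Cl.Max

open Matrix Cfsg.Geo Module Function

variable {F : Type*} [Field F] {ι : Type} [Fintype ι] [DecidableEq ι]

section Types

variable {κ : Type} [Fintype κ] [DecidableEq κ] (B : LinearMap.BilinForm F (κ → F))

/-- One reduction step in a slot. -/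
def Red (p p' q q' : Matrix κ κ F) : Prop :=
  (q = p ∧ q' = p') ∨ ∃ g ∈ isoB B, q = cj g p - p ∧ q' = cj g p' - p'

/-- A sign. -/
def Sg (a : F) : Prop := a = 1 ∨ a = -1

theorem Sg.mul {a b : F} (ha : Sg a) (hb : Sg b) : Sg (a * b) := by
  rcases ha with rfl | rfl <;> rcases hb with rfl | rfl <;> simp [Sg]

theorem Sg.neg {a : F} (ha : Sg a) : Sg (-a) := by rcases ha with rfl | rfl <;> simp [Sg]

theorem Sg.mul_self {a : F} (ha : Sg a) : a * a = 1 := by rcases ha with rfl | rfl <;> simp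

theorem Sg.ne_zero {a : F} (ha : Sg a) : a ≠ 0 := by rcases ha with rfl | rfl <;> simp

theorem sg_prod {τ : Type} [Fintype τ] {a : τ → F} (h : ∀ i, Sg (a i)) : Sg (∏ i, a i) :=
  Finset.prod_induction _ Sg (fun _ _ => Sg.mul) (.inl rfl) fun i _ => h i

/-- The type of a product. -/
def comb (t t' : Fin 3) : Fin 3 := if t = 0 then t' else if t' = 0 then t else 1

variable {B} (h : BF B (-1)) (alt : ∀ x, B x x = 0)
include h alt

theorem HForm.exists_shift {u v : κ → F} (hu : u ≠ 0) (hv : v ∉ Submodule.span F {u}) {w : κ → F}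
    (huw : B u w = 0) (hw : v + w ∉ Submodule.span F {u}) :
    ∃ g ∈ isoB B, (g : Matrix κ κ F) *ᵥ u = u ∧ (g : Matrix κ κ F) *ᵥ v = v + w := by
  obtain ⟨g, hg, e⟩ := exists_isoB h alt ![u, v] ![u, v + w] (li_pair hu hv) (li_pair hu hw)
    fun i j => by
      fin_cases i <;> fin_cases j <;> simp [alt, huw, h.zero_symm huw, h.swap_neg w v]
  exact ⟨g, hg, e 0, e 1⟩

theorem HForm.exists_shift_self {u v : κ → F} (hu : u ≠ 0) (hv : v ∉ Submodule.span F {u}) :
    ∃ g ∈ isoB B, (g : Matrix κ κ F) *ᵥ u = u ∧ (g : Matrix κ κ F) *ᵥ v = v + u :=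
  h.exists_shift alt hu hv (alt u) fun e =>
    hv ((Submodule.add_mem_iff_left _ (Submodule.mem_span_singleton_self u)).1 e)

theorem HForm.notMem_of_ne {u v : κ → F} (e : B u v ≠ 0) : v ∉ Submodule.span F {u} := fun H => by
  obtain ⟨a, rfl⟩ := Submodule.mem_span_singleton.1 H
  simp [alt] at e

theorem HForm.notMem_of_perp {u y v : κ → F} (e : B u y = 0) (e' : B v y ≠ 0) :
    v ∉ Submodule.span F {u} := fun H => by
  obtain ⟨a, rfl⟩ := Submodule.mem_span_singleton.1 H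
  simp [e] at e'

theorem HForm.eq_zero_of_small (hc : Fintype.card κ ≤ 2) {u v w : κ → F} (e : B u v ≠ 0)
    (h1 : B u w = 0) (h2 : B v w = 0) : w = 0 := by
  by_cases hw : w ∈ Submodule.span F {u}
  · obtain ⟨a, rfl⟩ := Submodule.mem_span_singleton.1 hw
    simp only [map_smul, smul_eq_mul, mul_eq_zero] at h2
    rw [h2.resolve_right (h.ne_symm e), zero_smul]
  · have := h.three_le alt (MaxSp.ne_zero_left e) hw h1
    omega

theorem HForm.NP_small (hc : Fintype.card κ ≤ 2) (u v : κ → F) : NP B u v = B u v • 1 := by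
  by_cases e : B u v = 0
  · by_cases hu : u = 0
    · simp [hu, NP]
    by_cases hw : v ∈ Submodule.span F {u}
    · obtain ⟨a, rfl⟩ := Submodule.mem_span_singleton.1 hw
      simp [NP, alt]
    · have := h.three_le alt hu hw e
      omega
  refine Matrix.ext_iff_mulVec.2 fun x => sub_eq_zero.1 (h.eq_zero_of_small alt hc e ?_ ?_)
  · simp [NP, sub_mulVec, smul_mulVec, alt, mul_comm]
  · simp [NP, sub_mulVec, smul_mulVec, alt, mul_comm, h.swap_neg v u]

theorem HForm.NP_mul_NP {u y z : κ → F} (hy : B u y = 0) (hz : B u z = 0) :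
    NP B u y * NP B u z = (-B y z) • rk B u u := by
  simp [NP, sub_mul, mul_sub, alt, hy, hz, h.zero_symm hy]

theorem HForm.slot_step {t t' : Fin 3} {a a' : Matrix κ κ F} (ha : HasTy B t a)
    (ha' : HasTy B t' a') (hc : t = 0 ∨ t' = 0 ∨ t = t') :
    ∃ (n n' m : Matrix κ κ F) (α β : F), HasTy B t n ∧ HasTy B t' n' ∧ Sg α ∧ Sg β ∧
      HasTy B (comb t t') m ∧ Red B (n * n') (n' * n) (α • m) (β • m) ∧
      (¬ (t = 1 ∧ t' = 1) → n * n' = α • m ∧ n' * n = β • m ∧ (t ≠ 0 → n * n' * n = 0) ∧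
        (t' ≠ 0 → n' * n * n' = 0)) := by
  by_cases h0 : t = 0
  · subst h0
    refine ⟨1, a', a', 1, 1, hasTy_zero.2 rfl, ha', .inl rfl, .inl rfl, by simpa [comb] using ha',
      .inl (by simp), fun _ => ⟨by simp, by simp, by simp, fun e => ?_⟩⟩
    rw [mul_one, ha'.sq h alt e]
  by_cases h0' : t' = 0
  · subst h0'
    refine ⟨a, 1, a, 1, 1, ha, hasTy_zero.2 rfl, .inl rfl, .inl rfl, by simpa [comb, h0] using ha,
      .inl (by simp), fun _ => ⟨by simp, by simp, fun e => ?_, by simp⟩⟩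
    rw [mul_one, ha.sq h alt e]
  obtain rfl : t = t' := (hc.resolve_left h0).resolve_left h0'
  have hcb : comb t t = 1 := by simp [comb, h0]
  rw [hcb]
  rcases ty_cases t with rfl | rfl | rfl
  · exact (h0 rfl).elim
  · obtain ⟨u, hu, rfl⟩ := hasTy_one.1 ha
    obtain ⟨v, hv⟩ := h.exists_one_r hu
    have hv' : B v u = -1 := by rw [h.swap_neg, hv]
    obtain ⟨g, hg, e1, e2⟩ := h.exists_shift_self alt hu (h.notMem_of_ne alt (hv ▸ one_ne_zero))
    refine ⟨_, rk B v v, _, 1, -1, ha, hasTy_one.2 ⟨v, fun e => by simp [e] at hv, rfl⟩, .inl rfl,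
      .inr rfl, ha, .inr ⟨g, hg, ?_, ?_⟩, fun e => (e ⟨rfl, rfl⟩).elim⟩
    · simp [hv, h.cj_rk hg, e1, e2]
    · simp [hv', h.cj_rk hg, e1, e2]
  · obtain ⟨u, y, hu, hy, e1, rfl⟩ := hasTy_two.1 ha
    obtain ⟨z, h1, h2⟩ := h.exists_dual_perp hy
    have h3 : B z y = -1 := by rw [h.swap_neg, h2]
    have k1 := h.NP_mul_NP alt e1 h1
    have k2 := h.NP_mul_NP alt h1 e1
    rw [h2] at k1
    rw [h3, neg_neg] at k2
    refine ⟨_, NP B u z, rk B u u, -1, 1, ha,
      hasTy_two.2 ⟨u, z, hu, h.notMem_of_perp alt e1 (h3 ▸ by simp), h1, rfl⟩, .inr rfl, .inl rfl,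
      hasTy_one.2 ⟨u, hu, rfl⟩, .inl ⟨k1.symm, k2.symm⟩, fun _ => ⟨k1, k2, fun _ => ?_, fun _ => ?_⟩⟩
    · rw [k1]; simp [NP, mul_sub, alt, e1]
    · rw [k2]; simp [NP, mul_sub, alt, h1]

theorem HForm.slot_zero {t t' : Fin 3} {a a' : Matrix κ κ F} (ha : HasTy B t a)
    (hc : (t = 1 ∧ t' = 1) ∨ (t = 2 ∧ t' = 1) ∨ (t = 2 ∧ t' = 2 ∧ 6 ≤ Fintype.card κ)) :
    ∃ (n n' : Matrix κ κ F) (α β : F) (u v : κ → F), HasTy B t n ∧ HasTy B t' n' ∧ Sg α ∧ Sg β ∧
      u ≠ 0 ∧ v ∉ Submodule.span F {u} ∧ n * n' = α • rk B u v ∧ n' * n = β • rk B v u := by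
  rcases hc with ⟨rfl, rfl⟩ | ⟨rfl, rfl⟩ | ⟨rfl, rfl, h6⟩
  · obtain ⟨u, hu, rfl⟩ := hasTy_one.1 ha
    obtain ⟨v, hv⟩ := h.exists_one_r hu
    have hv' : B v u = -1 := by rw [h.swap_neg, hv]
    exact ⟨_, rk B v v, 1, -1, u, v, ha, hasTy_one.2 ⟨v, fun e => by simp [e] at hv, rfl⟩, .inl rfl,
      .inr rfl, hu, h.notMem_of_ne alt (hv ▸ one_ne_zero), by simp [hv], by simp [hv']⟩
  · obtain ⟨u, y, hu, hy, e1, rfl⟩ := hasTy_two.1 ha
    obtain ⟨z, h1, h2⟩ := h.exists_dual_perp hy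
    have h3 : B z y = -1 := by rw [h.swap_neg, h2]
    exact ⟨_, rk B z z, -1, -1, u, z, ha, hasTy_one.2 ⟨z, fun e => by simp [e] at h2, rfl⟩,
      .inr rfl, .inr rfl, hu, h.notMem_of_perp alt e1 (h3 ▸ by simp),
      by simp [NP, sub_mul, h1, h2], by simp [NP, mul_sub, h3, h.zero_symm h1]⟩
  · obtain ⟨u, y, hu, hy, e1, rfl⟩ := hasTy_two.1 ha
    obtain ⟨z, h1, h2⟩ := h.exists_dual_perp hy
    have h3 : B z y = -1 := by rw [h.swap_neg, h2]
    classical
    obtain ⟨w, hw, hw'⟩ := h.exists_perp_notMem (Submodule.span F {u})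
      (Submodule.span F (({u, y, z} : Finset (κ → F)) : Set (κ → F))) (by
        have h4 := finrank_span_finset_le_card (R := F) ({u, y, z} : Finset (κ → F))
        have h5 := MaxO.finrank_span_one_le (F := F) u
        have h7 : ({u, y, z} : Finset (κ → F)).card ≤ 3 := Finset.card_le_three
        unfold Set.finrank at h4
        omega)
    have w1 : B u w = 0 := hw' u (Submodule.subset_span (by simp))
    have w2 : B y w = 0 := hw' y (Submodule.subset_span (by simp))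
    have w3 : B z w = 0 := hw' z (Submodule.subset_span (by simp))
    exact ⟨_, NP B w z, -1, 1, u, w, ha, hasTy_two.2 ⟨w, z, fun e => hw (by simp [e]),
      h.notMem_of_perp alt (h.zero_symm w2) (h3 ▸ by simp), h.zero_symm w3, rfl⟩,
      .inr rfl, .inl rfl, hu, hw, by simp [NP, sub_mul, mul_sub, h1, h2, w1, w2],
      by simp [NP, sub_mul, mul_sub, h3, h.zero_symm h1, h.zero_symm w1, h.zero_symm w2]⟩

end Types

variable {τ : Type} [Fintype τ] [DecidableEq τ] {κ : τ → Type} [∀ i, Fintype (κ i)]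
  [∀ i, DecidableEq (κ i)] {M : Subgroup (GL ι F)}
  {B0 : LinearMap.BilinForm F (ι → F)} {B : ∀ i, LinearMap.BilinForm F (κ i → F)}
  {T : TF B0 B} {ε0 : F}

variable (T) in
/-- `X` has the factor `m` in the slot `j`. -/
def SM (j : τ) (m : Matrix (κ j) (κ j) F) (X : Matrix ι ι F) : Prop :=
  ∃ Y, InC (T.ψ j) Y ∧ X = T.ψ j m * Y

theorem SM.add {j : τ} {m : Matrix (κ j) (κ j) F} {X Y : Matrix ι ι F} (hX : SM T j m X)
    (hY : SM T j m Y) : SM T j m (X + Y) := by
  obtain ⟨X, h1, rfl⟩ := hX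
  obtain ⟨Y, h2, rfl⟩ := hY
  exact ⟨_, h1.add h2, (mul_add _ _ _).symm⟩

theorem SM.smul {j : τ} {m : Matrix (κ j) (κ j) F} {X : Matrix ι ι F} (hX : SM T j m X) (a : F) :
    SM T j m (a • X) := by
  obtain ⟨X, h1, rfl⟩ := hX
  exact ⟨_, h1.smul a, (mul_smul_comm _ _ _).symm⟩

theorem sM_pm {j : τ} {m : Matrix (κ j) (κ j) F} {n : ∀ i, Matrix (κ i) (κ i) F} {a : F}
    (h : n j = a • m) : SM T j m (T.pm n) := by
  rw [T.pm_eq_psi_mul n j, h, map_smul, smul_mul_assoc]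
  exact SM.smul ⟨_, T.inC_pm (update_self _ _ _), rfl⟩ a

variable (T M) in
/-- The possible outcomes of a reduction. -/
def Out (ty : τ → Fin 3) (i : τ) : Prop :=
  PT M T (update ty i 1) ∨ PT M T (update ty i 2) ∨
    (Fintype.card (κ i) ≤ 2 ∧ PT M T (update ty i 0))

namespace TS

variable (S : TS T ε0 M)
include S

theorem diff {j : τ} {m : Matrix (κ j) (κ j) F} (hm : m * m = 0) {X : Matrix ι ι F}
    (hX : SM T j m X) (p : PM M X) {i : τ} (hi : j ≠ i) {g : GL (κ i) F} (hg : g ∈ isoB (B i)) :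
    PM M (cj (homG (T.ψ i) g) X - X) := by
  refine (p.cj (S.mem i g hg)).sub p ?_
  obtain ⟨Y, hY, rfl⟩ := hX
  rw [T.cj_mul_left g (T.inC_psi hi.symm m), mul_assoc, ← mul_assoc _ (T.ψ j m),
    T.inC_cj hi g hY, ← mul_assoc, ← mul_assoc, ← map_mul, hm, map_zero, zero_mul, zero_mul]

theorem loop {p p' q q' : ∀ i, Matrix (κ i) (κ i) F} {j : τ} {m : Matrix (κ j) (κ j) F}
    (hm : m * m = 0) {α β σ : F} (h1 : p j = α • m) (h2 : p' j = β • m) (h3 : q j = p j)
    (h4 : q' j = p' j) (H : ∀ i, i ≠ j → Red (B i) (p i) (p' i) (q i) (q' i))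
    (hp : PM M (T.pm p + σ • T.pm p')) : PM M (T.pm q + σ • T.pm q') := by
  have key : ∀ A : Finset τ, j ∉ A →
      PM M (T.pm (A.piecewise q p) + σ • T.pm (A.piecewise q' p')) := fun A => by
    induction A using Finset.induction_on with
    | empty => simpa using hp
    | insert s A hs ih =>
      intro hj
      rw [Finset.mem_insert, not_or] at hj
      have ih := ih hj.2
      rw [Finset.piecewise_insert, Finset.piecewise_insert]
      have e1 := Finset.piecewise_eq_of_notMem A q p hs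
      have e2 := Finset.piecewise_eq_of_notMem A q' p' hs
      rcases H s (Ne.symm hj.1) with ⟨a, b⟩ | ⟨g, hg, a, b⟩
      · rwa [a, b, ← e1, ← e2, update_eq_self, update_eq_self]
      · have := S.diff hm (SM.add (sM_pm ((Finset.piecewise_eq_of_notMem A q p hj.2).trans h1))
          (SM.smul (sM_pm ((Finset.piecewise_eq_of_notMem A q' p' hj.2).trans h2)) σ)) ih hj.1 hg
        rw [a, b, T.pm_update_sub, T.pm_update_sub, ← e1, ← e2, update_eq_self, update_eq_self,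
          ← T.cj_pm, ← T.cj_pm]
        convert this using 1
        rw [map_add, map_smul, smul_sub]
        abel
  have := key (Finset.univ.erase j) (Finset.notMem_erase _ _)
  have e : ∀ a b : ∀ i, Matrix (κ i) (κ i) F, a j = b j → (Finset.univ.erase j).piecewise a b = a :=
    fun a b e => funext fun i => by
      by_cases hi : i = j
      · subst hi; rw [Finset.piecewise_eq_of_notMem _ _ _ (Finset.notMem_erase _ _), e]
      · rw [Finset.piecewise_eq_of_mem _ _ _ (by simp [hi])]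
  rwa [e _ _ h3, e _ _ h4] at this

omit S in
theorem pt_update {ty : τ → Fin 3} {m : ∀ i, Matrix (κ i) (κ i) F} {i0 : τ}
    (hm : ∀ i, i ≠ i0 → HasTy (B i) (ty i) (m i)) {t : Fin 3} {n : Matrix (κ i0) (κ i0) F}
    (hn : HasTy (B i0) t n) {a : F} (ha : a ≠ 0) (p : PM M (T.pm (update m i0 (a • n)))) :
    PT M T (update ty i0 t) := by
  rw [T.pm_update_smul] at p
  refine ⟨update m i0 n, fun i => ?_, p.of_smul ha⟩
  by_cases e : i = i0
  · subst e; simpa using hn
  · simpa [update_of_ne e] using hm i e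

theorem finish {ty : τ → Fin 3} {m : ∀ i, Matrix (κ i) (κ i) F} {i0 j : τ} (hj : j ≠ i0)
    (hty : ty j ≠ 0) (hm : ∀ i, i ≠ i0 → HasTy (B i) (ty i) (m i)) {u v : κ i0 → F} (hu : u ≠ 0)
    (hv : v ∉ Submodule.span F {u}) {σ : F} (hσ : Sg σ)
    (p : PM M (T.pm (update m i0 (rk (B i0) u v + σ • rk (B i0) v u)))) : Out M T ty i0 := by
  have h := S.h i0
  have alt := S.alt i0
  have D : ∀ g ∈ isoB (B i0), ∀ w, (g : Matrix _ _ F) *ᵥ u = u → (g : Matrix _ _ F) *ᵥ v = v + w →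
      PM M (T.pm (update m i0 (rk (B i0) u w + σ • rk (B i0) w u))) := fun g hg w e1 e2 => by
    have := S.diff ((hm j hj).sq (S.h j) (S.alt j) hty)
      (sM_pm (a := 1) (by rw [update_of_ne hj, one_smul])) p hj hg
    rw [T.cj_pm, update_idem, update_self, ← T.pm_update_sub] at this
    convert this using 3
    simp only [map_add, map_smul, h.cj_rk hg, e1, e2, LinearMap.add_apply, smul_add]
    abel
  have N : ∀ w, rk (B i0) u w + (-1 : F) • rk (B i0) w u = (-1 : F) • NP (B i0) u w := fun w => by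
    rw [NP]; module
  by_cases hs : σ = -1
  · subst hs
    by_cases e : B i0 u v = 0
    · exact .inr (.inl (pt_update hm (hasTy_two.2 ⟨u, v, hu, hv, e, rfl⟩) (by simp) (N v ▸ p)))
    by_cases hc : Fintype.card (κ i0) ≤ 2
    · refine .inr (.inr ⟨hc, pt_update hm (hasTy_zero.2 rfl) (neg_ne_zero.2 e) ?_⟩)
      rwa [N, h.NP_small alt hc, smul_smul, neg_one_mul] at p
    · classical
      obtain ⟨y, hy, hy'⟩ := h.exists_perp {u, v} (by
        have : ({u, v} : Finset (κ i0 → F)).card ≤ 2 := Finset.card_le_two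
        omega)
      have y1 : B i0 u y = 0 := hy' u (by simp)
      have y2 : B i0 v y = 0 := hy' v (by simp)
      obtain ⟨g, hg, e1, e2⟩ := h.exists_shift alt hu hv y1
        (h.notMem_of_ne alt (by simpa [y1] using e))
      refine .inr (.inl (pt_update hm (hasTy_two.2 ⟨u, y, hu, fun H => ?_, y1, rfl⟩) (by simp)
        (N y ▸ D g hg y e1 e2)))
      obtain ⟨a, rfl⟩ := Submodule.mem_span_singleton.1 H
      simp only [map_smul, smul_eq_mul, mul_eq_zero] at y2
      exact hy (by rw [y2.resolve_right (h.ne_symm e), zero_smul])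
  · obtain rfl : σ = 1 := hσ.resolve_right hs
    obtain ⟨g, hg, e1, e2⟩ := h.exists_shift_self alt hu hv
    refine .inl (pt_update hm (hasTy_one.2 ⟨u, hu, rfl⟩) (a := 2)
      (fun e => hs (by linear_combination e)) ?_)
    have := D g hg u e1 e2
    rwa [one_smul, ← two_smul F] at this

theorem combine {ty ty' : τ → Fin 3} (p : PT M T ty) (p' : PT M T ty') {j k i0 : τ}
    (hc : ∀ i, i ≠ i0 → ty i = 0 ∨ ty' i = 0 ∨ ty i = ty' i) (hj : j ≠ i0) (hk : k ≠ i0)
    (hj0 : ty j ≠ 0) (hj1 : ¬ (ty j = 1 ∧ ty' j = 1)) (hk0 : ty' k ≠ 0)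
    (hk1 : ¬ (ty k = 1 ∧ ty' k = 1))
    (h0 : (ty i0 = 1 ∧ ty' i0 = 1) ∨ (ty i0 = 2 ∧ ty' i0 = 1) ∨
      (ty i0 = 2 ∧ ty' i0 = 2 ∧ 6 ≤ Fintype.card (κ i0))) :
    Out M T (fun i => comb (ty i) (ty' i)) i0 := by
  obtain ⟨a, ha, -⟩ := id p
  obtain ⟨a', ha', -⟩ := id p'
  have ex : ∀ i, ∃ (n n' m : Matrix (κ i) (κ i) F) (α β : F), HasTy (B i) (ty i) n ∧
      HasTy (B i) (ty' i) n' ∧ Sg α ∧ Sg β ∧ (i ≠ i0 →
      HasTy (B i) (comb (ty i) (ty' i)) m ∧ Red (B i) (n * n') (n' * n) (α • m) (β • m) ∧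
      (¬ (ty i = 1 ∧ ty' i = 1) → n * n' = α • m ∧ n' * n = β • m ∧ (ty i ≠ 0 → n * n' * n = 0) ∧
        (ty' i ≠ 0 → n' * n * n' = 0))) ∧ (i = i0 → ∃ u v : κ i → F, u ≠ 0 ∧
        v ∉ Submodule.span F {u} ∧ n * n' = α • rk (B i) u v ∧ n' * n = β • rk (B i) v u) :=
    fun i => by
      by_cases e : i = i0
      · subst e
        obtain ⟨n, n', α, β, u, v, h1, h2, h3, h4, h5⟩ :=
          (S.h i).slot_zero (S.alt i) (a' := a' i) (ha i) h0
        exact ⟨n, n', 0, α, β, h1, h2, h3, h4, fun e => (e rfl).elim, fun _ => ⟨u, v, h5⟩⟩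
      · obtain ⟨n, n', m, α, β, h1, h2, h3, h4, h5⟩ :=
          (S.h i).slot_step (S.alt i) (ha i) (ha' i) (hc i e)
        exact ⟨n, n', m, α, β, h1, h2, h3, h4, fun _ => h5, fun e' => (e e').elim⟩
  choose n n' m α β h1 h2 h3 h4 h5 h6 using ex
  obtain ⟨u, v, hu, hv, e1, e2⟩ := h6 i0 rfl
  obtain ⟨j1, -, j2⟩ := h5 j hj
  obtain ⟨j3, j4, j5, -⟩ := j2 hj1
  have hcj : comb (ty j) (ty' j) ≠ 0 := by
    unfold comb; split_ifs <;> simp_all
  have c1 := (S.all p h1).comm (S.all p' h2) (S.pm_sq h1 hj0) (S.pm_sq h2 hk0)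
    (by rw [T.pm_mul, T.pm_mul]; exact T.pm_zero j (j5 hj0))
    (by rw [T.pm_mul, T.pm_mul]; exact T.pm_zero k (((h5 k hk).2.2 hk1).2.2.2 hk0))
  rw [T.pm_mul, T.pm_mul, sub_eq_add_neg, ← neg_one_smul F] at c1
  have c2 := S.loop (q := fun i => α i • update m i0 (rk (B i0) u v) i)
    (q' := fun i => β i • update m i0 (rk (B i0) v u) i) (j1.sq (S.h j) (S.alt j) hcj) j3 j4
    (by simp only [update_of_ne hj, j3]) (by simp only [update_of_ne hj, j4]) (fun i _ => by
      by_cases e : i = i0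
      · subst e
        exact .inl ⟨by simp only [update_self, e1], by simp only [update_self, e2]⟩
      · simpa only [update_of_ne e] using (h5 i e).2.1) c1
  have sa := sg_prod h3
  refine S.finish (m := m) hj hcj (fun i hi => (h5 i hi).1) hu hv
    (σ := -((∏ i, α i) * ∏ i, β i)) (sa.mul (sg_prod h4)).neg (PM.of_smul ?_ sa.ne_zero)
  convert c2 using 1
  rw [T.pm_smul, T.pm_smul, T.pm_update_add, T.pm_update_smul, smul_add, smul_smul, smul_smul,
    mul_neg, ← mul_assoc, sa.mul_self, one_mul, neg_one_mul]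

end TS

end Cfsg.Agent.Cl.Max
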