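import Mathlib
import Cfsg.Agent.Cl.SpTnB

/-!
# Tensor products of symplectic spaces: the first pure element
-/

set_option autoImplicit false
set_option linter.unusedSectionVars false
set_option linter.unusedVariables false

namespace Cfsg.Agent.Cl.Max

open Matrix Cfsg.Geo Module Function

variable {F : Type*} [Field F] {ι : Type} [Fintype ι] [DecidableEq ι]

section One

variable {κ : Type} [Fintype κ] [DecidableEq κ] (B : LinearMap.BilinForm F (κ → F))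
  (ψ : Matrix κ κ F →ₐ[F] Matrix ι ι F)

/-- The coefficient `B v (ξ u)` in the centraliser of the slot. -/
def ddc (v u : κ → F) (ξ : Matrix ι ι F) : Matrix ι ι F :=
  ∑ i, ∑ j, (B v (Pi.single i 1) * u j) • coef ψ i j ξ

variable {B ψ}

theorem inC_ddc (v u : κ → F) (ξ : Matrix ι ι F) : InC ψ (ddc B ψ v u ξ) :=
  inC_sum _ fun i _ => inC_sum _ fun j _ => (inC_coef i j ξ).smul _

theorem dual_ddc (l : Dual F (Matrix ι ι F)) (v u : κ → F) (ξ : Matrix ι ι F) :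
    l (ddc B ψ v u ξ) = B v (pj ψ l ξ *ᵥ u) := by
  rw [← dot_eq]
  simp only [ddc, map_sum, map_smul, dotProduct, mulVec, pj_apply, Finset.mul_sum, smul_eq_mul]
  exact Finset.sum_congr rfl fun i _ => Finset.sum_congr rfl fun j _ => by ring

theorem sandw (a v u b : κ → F) (ξ : Matrix ι ι F) :
    ψ (rk B a v) * ξ * ψ (rk B u b) = ψ (rk B a b) * ddc B ψ v u ξ :=
  eq_of_pj (ψ := ψ) fun l => by
    rw [pj_mul_map, pj_map_mul, pj_map_mul_inC l _ (inC_ddc v u ξ), rk_mul_mul_rk, dual_ddc]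

theorem purify_one (h : BF B (-1)) (alt : ∀ x, B x x = 0)
    (hq : (∃ a : F, a ≠ 0 ∧ a ≠ 1) ∨ 3 ≤ Fintype.card κ) (L : Submodule F (Matrix ι ι F))
    (hL : ∀ g ∈ isoB B, ∀ ξ ∈ L, cj (homG ψ g) ξ ∈ L) {ξ : Matrix ι ι F} (hξ : ξ ∈ L)
    (hn : ¬ InC ψ ξ) : ∃ (t : Fin 3) (m : Matrix κ κ F) (d : Matrix ι ι F), t ≠ 0 ∧ HasTy B t m ∧
      InC ψ d ∧ d ≠ 0 ∧ ψ m * d ∈ L := by
  have tv : ∀ u (c : F), ∀ η ∈ L, c • (ψ (rk B u u) * η - η * ψ (rk B u u)) -
      (c * c) • (ψ (rk B u u) * η * ψ (rk B u u)) ∈ L := fun u c η hη => by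
    have r : RC B (-1) u 0 c := ⟨alt u, by simp, by simp⟩
    have := L.sub_mem (hL _ (h.xr_iso u 0 c) η hη) hη
    rw [cj_apply, ← map_inv, coe_homG, coe_homG, h.coe_xr r, h.coe_xr_inv r] at this
    convert this using 1
    simp only [map_zero, add_zero, sub_zero, map_add, map_one, map_smul, add_mul, mul_add, one_mul,
      mul_one, smul_mul_assoc, mul_smul_comm]
    module
  by_cases A : ∃ u v, u ≠ 0 ∧ v ∉ Submodule.span F {u} ∧ B u v = 0 ∧ ddc B ψ v u ξ ≠ 0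
  · obtain ⟨u, v, hu, hv, e, hd⟩ := A
    have z1 : ψ (rk B v v) * ψ (rk B u u) = 0 := by rw [← map_mul]; simp [h.zero_symm e]
    have z2 : ψ (rk B u u) * ψ (rk B v v) = 0 := by rw [← map_mul]; simp [e]
    have z3 : ∀ X, ψ (rk B v v) * (ψ (rk B u u) * X) = 0 := fun X => by
      rw [← mul_assoc, z1, zero_mul]
    have k1 : ψ (rk B v u) * ddc B ψ v u ξ + ψ (rk B u v) * ddc B ψ u v ξ ∈ L := by
      have := L.neg_mem (tv v 1 _ (tv u 1 ξ hξ))
      rw [← sandw, ← sandw]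
      convert this using 1
      simp only [one_smul, mul_one, sub_mul, mul_sub, mul_assoc, z1, z2, z3, mul_zero]
      abel
    by_cases hs : ddc B ψ v u ξ + ddc B ψ u v ξ = 0
    · refine ⟨2, NP B u v, _, by decide, hasTy_two.2 ⟨u, v, hu, hv, e, rfl⟩, inC_ddc v u ξ, hd, ?_⟩
      rwa [← neg_eq_of_add_eq_zero_right hs, mul_neg, ← sub_eq_add_neg, ← sub_mul, ← map_sub] at k1
    · obtain ⟨g, hg, e1, e2⟩ := h.exists_shift_self alt hu hv
      refine ⟨1, rk B u u, _, by decide, hasTy_one.2 ⟨u, hu, rfl⟩,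
        (inC_ddc v u ξ).add (inC_ddc u v ξ), hs, ?_⟩
      have := L.sub_mem (hL g hg _ k1) k1
      rw [map_add, map_mul, map_mul, cj_homG_inC g (inC_ddc v u ξ), cj_homG_inC g (inC_ddc u v ξ),
        cj_homG, cj_homG, h.cj_rk hg, h.cj_rk hg, e1, e2] at this
      convert this using 1
      simp only [map_add, LinearMap.add_apply, add_mul, mul_add]
      abel
  push Not at A
  obtain ⟨l, hl⟩ : ∃ l, ¬ IsSc F (pj ψ l ξ) := by
    by_contra! H
    exact hn (inC_of_pj H)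
  obtain ⟨u, hu⟩ : ∃ u, pj ψ l ξ *ᵥ u ∉ Submodule.span F {u} := by
    by_contra! H
    exact hl (isSc_of_forall_mem_span H)
  have hu0 : u ≠ 0 := fun e => hu (by simp [e])
  have A' : ∀ v, v ∉ Submodule.span F {u} → B u v = 0 → B v (pj ψ l ξ *ᵥ u) = 0 :=
    fun v h1 h2 => by rw [← dual_ddc, A u v hu0 h1 h2, map_zero]
  obtain ⟨v, h1, h2⟩ := h.exists_dual hu
  have hne : B u (pj ψ l ξ *ᵥ u) ≠ 0 := fun e => by
    by_cases hv : v ∈ Submodule.span F {u}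
    · obtain ⟨a, rfl⟩ := Submodule.mem_span_singleton.1 hv
      simp [e] at h1
    · rw [A' v hv (h.zero_symm (h2 u (Submodule.mem_span_singleton_self u)))] at h1
      exact zero_ne_one h1
  rcases hq with ⟨a, ha, ha'⟩ | h3
  · refine ⟨1, rk B u u, ddc B ψ u u ξ, by decide, hasTy_one.2 ⟨u, hu0, rfl⟩, inC_ddc u u ξ,
      fun e => hne (by rw [← dual_ddc, e, map_zero]), ?_⟩
    have := L.sub_mem (tv u a ξ hξ) (L.smul_mem a (tv u 1 ξ hξ))
    rw [← sandw, ← L.smul_mem_iff (s := a - a * a) (by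
      rw [show a - a * a = a * (1 - a) by ring]; exact mul_ne_zero ha (sub_ne_zero.2 ha'.symm))]
    convert this using 1
    module
  · obtain ⟨w, hw, hw'⟩ := h.exists_perp_notMem (Submodule.span F {u}) (Submodule.span F {u}) (by
      have := MaxO.finrank_span_one_le (F := F) u
      omega)
    have e := hw' u (Submodule.mem_span_singleton_self u)
    have := A' (w + u) (fun H => hw ((Submodule.add_mem_iff_left _
      (Submodule.mem_span_singleton_self u)).1 H)) (by simp [e, alt])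
    rw [map_add, LinearMap.add_apply, A' w hw e, zero_add] at this
    exact (hne this).elim

end One

section Ring

variable {A : Type*} [Ring A]

/-- Two orthogonal idempotents. -/
structure Idem (p m : A) : Prop where
  pp : p * p = p
  mm : m * m = m
  pm : p * m = 0
  mp : m * p = 0

/-- `1 + n` lies in the unipotent radical defined by the idempotents. -/
structure RadE (p m n : A) : Prop where
  np : n * p = 0
  mn : m * n = 0
  mid : (1 - p - m) * n * (1 - p - m) = 0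

variable {p m n n' : A}

theorem Idem.ep (h : Idem p m) : (1 - p - m) * p = 0 := by simp [sub_mul, h.pp, h.mp]
theorem Idem.em (h : Idem p m) : (1 - p - m) * m = 0 := by simp [sub_mul, h.mm, h.pm]
theorem Idem.pe (h : Idem p m) : p * (1 - p - m) = 0 := by simp [mul_sub, h.pp, h.pm]
theorem Idem.me (h : Idem p m) : m * (1 - p - m) = 0 := by simp [mul_sub, h.mm, h.mp]
theorem Idem.ee (h : Idem p m) : (1 - p - m) * (1 - p - m) = 1 - p - m := by
  rw [mul_sub, mul_sub, h.ep, h.em]; simp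

theorem RadE.left (h : RadE p m n) : (1 - p - m) * n = (1 - p - m) * n * m := by
  have := h.mid
  rw [mul_sub, mul_sub, mul_one, mul_assoc _ n p, h.np, mul_zero, sub_zero, sub_eq_zero] at this
  exact this

theorem RadE.right (h : RadE p m n) : n * (1 - p - m) = p * n * (1 - p - m) := by
  have := h.mid
  rw [sub_mul (1 - p), h.mn, sub_zero, sub_mul 1, one_mul, sub_mul, sub_eq_zero] at this
  exact this

theorem RadE.zero_mul (h : RadE p m n) (h' : RadE p m n') : (1 - p - m) * (n * n') = 0 := by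
  rw [← mul_assoc, h.left, mul_assoc, h'.mn, mul_zero]

theorem RadE.mul (h : RadE p m n) (h' : RadE p m n') : RadE p m (n + n' + n * n') :=
  ⟨by simp [add_mul, mul_assoc, h.np, h'.np], by simp [mul_add, ← mul_assoc, h.mn, h'.mn], by
    rw [mul_add, mul_add, h.zero_mul h', add_zero, add_mul, h.mid, h'.mid, add_zero]⟩

theorem RadE.decomp (h : RadE p m n) :
    n = (1 - p - m) * n * m + p * n * (1 - p - m) + p * n * m := by
  rw [← h.left, ← h.right]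
  have h1 : p * n * m = p * n - p * n * (1 - p - m) := by
    simp [mul_sub, mul_assoc, h.np]
  rw [h1, ← h.right, sub_mul, sub_mul, h.mn]
  simp

end Ring

section Hyp

variable {κ : Type} [Fintype κ] [DecidableEq κ] {B : LinearMap.BilinForm F (κ → F)}
  (h : BF B (-1)) {u u' : κ → F} (p : Hyp B u u')
include h p

theorem HForm.idem : Idem (-rk B u u') (rk B u' u) :=
  ⟨by simp [h.hyp_rl p], by simp [p.lr], by simp [p.r], by simp [p.l]⟩

theorem HForm.exists_torus {a : F} (ha : a ≠ 0) : ∃ g ∈ isoB B,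
    (g : Matrix κ κ F) = 1 - -rk B u u' - rk B u' u + a • -rk B u u' + a⁻¹ • rk B u' u ∧
    ((g⁻¹ : GL κ F) : Matrix κ κ F) =
      1 - -rk B u u' - rk B u' u + a⁻¹ • -rk B u u' + a • rk B u' u := by
  have I := h.idem p
  have e : (1 - -rk B u u' - rk B u' u + a⁻¹ • -rk B u u' + a • rk B u' u) *
      (1 - -rk B u u' - rk B u' u + a • -rk B u u' + a⁻¹ • rk B u' u) = 1 := by
    simp only [add_mul, mul_add, smul_mul_assoc, mul_smul_comm, I.pp, I.mm, I.pm, I.mp, I.ep, I.em,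
      I.pe, I.me, I.ee, smul_zero, add_zero, zero_add, smul_smul, mul_inv_cancel₀ ha,
      inv_mul_cancel₀ ha, one_smul]
    abel
  refine ⟨⟨_, _, mul_eq_one_comm.1 e, e⟩, h.mem_isoB ?_, rfl, rfl⟩
  refine Eq.trans (congrArg (· * _) ?_) e
  simp only [h.ad_add, h.ad_sub, h.ad_smul, h.ad_neg, h.ad_one, h.ad_rk]
  module

end Hyp

variable {τ : Type} [Fintype τ] [DecidableEq τ] {κ : τ → Type} [∀ i, Fintype (κ i)]
  [∀ i, DecidableEq (κ i)] {M : Subgroup (GL ι F)}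
  {B0 : LinearMap.BilinForm F (ι → F)} {B : ∀ i, LinearMap.BilinForm F (κ i → F)}
  {T : TF B0 B} {ε0 : F}

namespace TS

variable (S : TS T ε0 M)
include S

theorem pure (A : Finset τ) (hq : ∀ j ∈ A, (∃ a : F, a ≠ 0 ∧ a ≠ 1) ∨ 3 ≤ Fintype.card (κ j))
    (L : Submodule F (Matrix ι ι F))
    (hL : ∀ j ∈ A, ∀ g ∈ isoB (B j), ∀ ξ ∈ L, cj (homG (T.ψ j) g) ξ ∈ L) {ξ : Matrix ι ι F}
    (hξ : ξ ∈ L) (h0 : ξ ≠ 0) : ∃ (ty : τ → Fin 3) (n : ∀ i, Matrix (κ i) (κ i) F)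
      (d : Matrix ι ι F), (∀ i, HasTy (B i) (ty i) (n i)) ∧ (∀ i ∉ A, ty i = 0) ∧
      (∀ j ∈ A, InC (T.ψ j) d) ∧ d ≠ 0 ∧ T.pm n * d ∈ L ∧ (d = ξ ∨ ∃ j, ty j ≠ 0) := by
  induction A using Finset.induction_on with
  | empty =>
    exact ⟨fun _ => 0, fun _ => 1, ξ, fun _ => hasTy_zero.2 rfl, fun _ _ => rfl, by simp, h0,
      by rwa [T.pm_one, one_mul], .inl rfl⟩
  | insert s A hs ih =>
    obtain ⟨ty, n, d, h1, h2, h3, h4, h5, h6⟩ := ih (fun j hj => hq j (Finset.mem_insert_of_mem hj))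
      fun j hj => hL j (Finset.mem_insert_of_mem hj)
    by_cases hd : InC (T.ψ s) d
    · exact ⟨ty, n, d, h1, fun i hi => h2 i fun e => hi (Finset.mem_insert_of_mem e),
        (Finset.forall_mem_insert _ _ _).2 ⟨hd, h3⟩, h4, h5, h6⟩
    have hns : n s = 1 := hasTy_zero.1 (h2 s hs ▸ h1 s)
    let L' : Submodule F (Matrix ι ι F) :=
      { carrier := {x | (∀ i ∈ A, InC (T.ψ i) x) ∧ T.pm n * x ∈ L}
        add_mem' := fun {a b} ha hb => ⟨fun i hi => (ha.1 i hi).add (hb.1 i hi), by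
          rw [mul_add]; exact L.add_mem ha.2 hb.2⟩
        zero_mem' := ⟨fun _ _ => inC_zero, by simp⟩
        smul_mem' := fun c a ha => ⟨fun i hi => (ha.1 i hi).smul c, by
          rw [mul_smul_comm]; exact L.smul_mem c ha.2⟩ }
    obtain ⟨t, m, d', k1, k2, k3, k4, k5⟩ := purify_one (ψ := T.ψ s) (S.h s) (S.alt s)
      (hq s (Finset.mem_insert_self _ _)) L' (fun g hg x hx => ⟨fun i hi =>
        T.inC_cj (by rintro rfl; exact hs hi) g (hx.1 i hi), by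
          rw [← T.cj_mul_left g (T.inC_pm hns)]
          exact hL s (Finset.mem_insert_self _ _) g hg _ hx.2⟩) (ξ := d) ⟨h3, h5⟩ hd
    refine ⟨update ty s t, update n s m, d', fun i => ?_, fun i hi => ?_,
      (Finset.forall_mem_insert _ _ _).2 ⟨k3, fun i hi Y => ?_⟩, k4, ?_, .inr ⟨s, by simpa⟩⟩
    · by_cases e : i = s
      · subst e; simpa using k2
      · simpa [update_of_ne e] using h1 i
    · rw [Finset.mem_insert, not_or] at hi
      rw [update_of_ne hi.1, h2 i hi.2]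
    · have his : s ≠ i := by rintro rfl; exact hs hi
      have := S.ne s
      refine sub_eq_zero.1 (eq_zero_of_map_mul (k2.ne_zero (S.h s) (S.alt s))
        ((k3.mul (T.inC_psi his Y)).sub ((T.inC_psi his Y).mul k3)) ?_)
      rw [mul_sub, ← mul_assoc, k5.1 i hi Y, ← mul_assoc, ← mul_assoc, T.inC_psi his Y, sub_self]
    · have := k5.2
      rwa [← mul_assoc, T.pm_mul_psi, hns, one_mul] at this

theorem pure_slot (i : τ) (hq : ∀ j, j ≠ i → (∃ a : F, a ≠ 0 ∧ a ≠ 1) ∨ 3 ≤ Fintype.card (κ j))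
    (L : Submodule F (Matrix ι ι F))
    (hL : ∀ j, j ≠ i → ∀ g ∈ isoB (B j), ∀ ξ ∈ L, cj (homG (T.ψ j) g) ξ ∈ L) {ξ : Matrix ι ι F}
    (hξ : ξ ∈ L) (h0 : ¬ InE (T.ψ i) ξ) : ∃ (ty : τ → Fin 3) (n : ∀ i, Matrix (κ i) (κ i) F)
      (Y : Matrix (κ i) (κ i) F), (∀ i, HasTy (B i) (ty i) (n i)) ∧ n i = 1 ∧
      T.pm n * T.ψ i Y ≠ 0 ∧ T.pm n * T.ψ i Y ∈ L ∧ ∃ j, j ≠ i ∧ ty j ≠ 0 := by
  obtain ⟨ty, n, d, h1, h2, h3, h4, h5, h6⟩ := S.pure (Finset.univ.erase i)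
    (fun j hj => hq j (Finset.ne_of_mem_erase hj)) L (fun j hj => hL j (Finset.ne_of_mem_erase hj))
    hξ fun e => h0 (e ▸ isSc_zero.inE)
  have h7 := h2 i (Finset.notMem_erase _ _)
  have hE := T.inE_of_slots S.h0 i fun j hj => h3 j (by simp [hj])
  obtain ⟨j, hj⟩ := h6.resolve_left fun e => h0 (e ▸ hE)
  obtain ⟨Y, rfl⟩ := hE
  have hn : n i = 1 := hasTy_zero.1 (h7 ▸ h1 i)
  refine ⟨ty, n, Y, h1, hn, ?_, h5, j, fun e => hj (e ▸ h7), hj⟩
  rw [T.pm_mul_psi, hn, one_mul]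
  refine T.pm_ne_zero S.h fun k => ?_
  by_cases e : k = i
  · subst e; simpa using fun e => h4 (by rw [e, map_zero])
  · have := S.ne k
    simpa [update_of_ne e] using (h1 k).ne_zero (S.h k) (S.alt k)

section Start

variable {i : τ} {u u' : κ i → F} (p : Hyp (B i) u u')
include p

theorem idem : Idem (T.ψ i (-rk (B i) u u')) (T.ψ i (rk (B i) u' u)) :=
  have I := (S.h i).idem p
  ⟨by rw [← map_mul, I.pp], by rw [← map_mul, I.mm], by rw [← map_mul, I.pm, map_zero],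
    by rw [← map_mul, I.mp, map_zero]⟩

theorem exists_torus {a : F} (ha : a ≠ 0) : ∃ g ∈ M, ∀ e P N, P = T.ψ i (-rk (B i) u u') →
    N = T.ψ i (rk (B i) u' u) → e = 1 - P - N → (g : Matrix ι ι F) = e + a • P + a⁻¹ • N ∧
    ((g⁻¹ : GL ι F) : Matrix ι ι F) = e + a⁻¹ • P + a • N := by
  obtain ⟨g, hg, e1, e2⟩ := (S.h i).exists_torus p ha
  refine ⟨_, S.mem i g hg, ?_⟩
  rintro _ _ _ rfl rfl rfl
  rw [← map_inv, coe_homG, coe_homG, e1, e2]
  simp only [map_add, map_sub, map_smul, map_one, and_self]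

theorem start_J [Finite F]
    (hq : ∀ j, j ≠ i → (∃ a : F, a ≠ 0 ∧ a ≠ 1) ∨ 3 ≤ Fintype.card (κ j)) {θ : Matrix ι ι F}
    (h1 : InM M θ) (h2 : θ = T.ψ i (-rk (B i) u u') * θ * T.ψ i (rk (B i) u' u))
    (h3 : ¬ InE (T.ψ i) θ) : ∃ ty, PT M T ty ∧ ty i ≠ 0 ∧ ∃ j, j ≠ i ∧ ty j ≠ 0 := by
  have I := S.idem p
  obtain ⟨P, hP⟩ : ∃ P, P = T.ψ i (-rk (B i) u u') := ⟨_, rfl⟩
  obtain ⟨N, hN⟩ : ∃ N, N = T.ψ i (rk (B i) u' u) := ⟨_, rfl⟩
  rw [← hP, ← hN] at I h2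
  have add : ∀ x y, InM M x ∧ x = P * x * N → InM M y ∧ y = P * y * N →
      InM M (x + y) ∧ x + y = P * (x + y) * N := fun x y hx hy => ⟨hx.1.add hy.1 (by
        rw [hx.2, hy.2, mul_assoc, ← mul_assoc N, ← mul_assoc N, I.mp]; simp), by
        rw [mul_add, add_mul, ← hx.2, ← hy.2]⟩
  have sq : ∀ (a : F) x, InM M x ∧ x = P * x * N →
      InM M (a ^ 2 • x) ∧ a ^ 2 • x = P * (a ^ 2 • x) * N := fun a x hx => by
    refine ⟨?_, by rw [mul_smul_comm, smul_mul_assoc, ← hx.2]⟩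
    by_cases ha : a = 0
    · simpa [ha] using inM_zero
    obtain ⟨g, hg, e⟩ := S.exists_torus p ha
    obtain ⟨e1, e2⟩ := e _ P N hP hN rfl
    have := hx.1.cj hg
    rw [cj_apply, e1, e2, hx.2, ← mul_assoc, ← mul_assoc, mul_assoc _ N] at this
    convert this using 1
    simp only [add_mul, mul_add, smul_mul_assoc, mul_smul_comm, I.pp, I.mm, I.pm, I.mp, I.ep, I.em,
      I.pe, I.me, smul_zero, add_zero, zero_add, smul_smul, pow_two, ← hx.2]
  let L : Submodule F (Matrix ι ι F) :=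
    { carrier := {x | InM M x ∧ x = P * x * N}
      add_mem' := fun {a b} ha hb => add a b ha hb
      zero_mem' := ⟨inM_zero, by simp⟩
      smul_mem' := fun c x hx => by
        obtain ⟨a, b, rfl⟩ := Aut.exists_sq_add_sq c
        rw [add_smul]
        exact add _ _ (sq a x hx) (sq b x hx) }
  obtain ⟨ty, n, Y, k1, k2, k3, k4, j, k5⟩ := S.pure_slot i hq L (fun j hj g hg x hx =>
    ⟨hx.1.cj (S.mem j g hg), by
      rw [← T.cj_mul_left g (hP ▸ T.inC_psi hj _), ← T.cj_mul_right g (hN ▸ T.inC_psi hj _),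
        ← hx.2]⟩) (ξ := θ) ⟨h1, h2⟩ h3
  have e : T.pm n * T.ψ i Y = T.pm (update n i ((-B i u' (Y *ᵥ u')) • rk (B i) u u)) := by
    rw [k4.2, hP, hN, ← mul_assoc, ← T.inC_pm k2, mul_assoc, mul_assoc, ← map_mul, ← map_mul,
      T.pm_mul_psi, k2, one_mul, ← mul_assoc, neg_mul, neg_mul, rk_mul_mul_rk, neg_smul]
  refine ⟨update ty i 1, pt_update (fun k _ => k1 k) (hasTy_one.2 ⟨u, p.ne_l, rfl⟩)
    (fun e' => k3 ?_) fun c => e ▸ (L.smul_mem c k4).1, by simp, j, k5.1,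
    by rw [update_of_ne k5.1]; exact k5.2⟩
  rw [e, e', T.pm_update_smul, zero_smul]

theorem decomp {n : Matrix ι ι F} (h1 : InM M n) {P N : Matrix ι ι F}
    (hP : P = T.ψ i (-rk (B i) u u')) (hN : N = T.ψ i (rk (B i) u' u)) (r : RadE P N n) :
    n = (1 - P - N) * n * N - ad B0 ((1 - P - N) * n * N) + P * n * N := by
  have a1 : ad B0 N = P := by rw [hP, hN, T.ad_psi S.h0 S.h, (S.h i).ad_rk, neg_one_smul]
  have a2 : ad B0 P = N := by rw [← a1, S.h0.ad_ad]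
  have a3 : ad B0 (1 - P - N) = 1 - P - N := by
    rw [S.h0.ad_sub, S.h0.ad_sub, S.h0.ad_one, a1, a2]; abel
  obtain ⟨g, hg, e⟩ := h1
  have e1 : ad B0 g * g = 1 := by rw [S.h0.ad_iso (S.le hg), Units.inv_mul]
  rw [e, S.h0.ad_add, S.h0.ad_one] at e1
  have e2 : ad B0 n * P = 0 := by rw [← a1, ← S.h0.ad_mul, r.mn, S.h0.ad_zero]
  have e3 : ad B0 n * n * (1 - P - N) = 0 := by
    rw [mul_assoc, r.right, ← mul_assoc, ← mul_assoc, e2, zero_mul, zero_mul]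
  have e4 : n = -ad B0 n - ad B0 n * n := by
    rw [← sub_eq_zero, ← sub_eq_zero.2 e1]; noncomm_ring
  have e5 : P * n * (1 - P - N) = -ad B0 ((1 - P - N) * n * N) := by
    rw [S.h0.ad_mul, S.h0.ad_mul, a1, a3]
    conv_lhs => rw [e4, mul_assoc, sub_mul, e3]
    simp
  conv_lhs => rw [r.decomp, e5]
  abel

theorem start [Finite F]
    (hq : ∀ j, j ≠ i → (∃ a : F, a ≠ 0 ∧ a ≠ 1) ∨ 3 ≤ Fintype.card (κ j)) {b : GL ι F}
    (hb : b ∈ M) (hQ : InQ (T.ψ i (rk (B i) u u)) ((b : Matrix ι ι F) - 1))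
    (hE : ¬ InE (T.ψ i) (b : Matrix ι ι F)) :
    ∃ ty, PT M T ty ∧ ty i ≠ 0 ∧ ∃ j, j ≠ i ∧ ty j ≠ 0 := by
  have h := S.h i
  have alt := S.alt i
  have I := S.idem p
  have rl : B i u' u = -1 := h.hyp_rl p
  obtain ⟨P, hP⟩ : ∃ P, P = T.ψ i (-rk (B i) u u') := ⟨_, rfl⟩
  obtain ⟨N, hN⟩ : ∃ N, N = T.ψ i (rk (B i) u' u) := ⟨_, rfl⟩
  obtain ⟨E, hE0⟩ : ∃ E, E = 1 - -rk (B i) u u' - rk (B i) u' u := ⟨_, rfl⟩
  have hψE : T.ψ i E = 1 - P - N := by rw [hE0, hP, hN, map_sub, map_sub, map_one]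
  have hEv : ∀ x, E *ᵥ x = x + B i u' x • u - B i u x • u' := fun x => by
    simp [hE0, sub_mulVec, add_mulVec]
  have hE1 : ∀ x, B i u (E *ᵥ x) = 0 := fun x => by simp [hEv, p.l, p.lr]
  have hE2 : ∀ x, B i u' (E *ᵥ x) = 0 := fun x => by simp [hEv, p.r, rl]
  rw [← hP, ← hN] at I
  have sand : ∀ Y, (1 - P - N) * T.ψ i Y * N = T.ψ i (rk (B i) (E *ᵥ (Y *ᵥ u')) u) := fun Y => by
    rw [← hψE, hN, ← map_mul, ← map_mul, mul_rk, mulVec_mulVec]
  let L : Submodule F (Matrix ι ι F) :=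
    { carrier := {x | ∃ n, InM M n ∧ RadE P N n ∧ x = (1 - P - N) * n * N}
      add_mem' := by
        rintro _ _ ⟨n, h1, h2, rfl⟩ ⟨n', h1', h2', rfl⟩
        exact ⟨_, h1.mul h1', h2.mul h2', by
          rw [mul_add, mul_add, h2.zero_mul h2', add_zero, add_mul]⟩
      zero_mem' := ⟨0, inM_zero, ⟨by simp, by simp, by simp⟩, by simp⟩
      smul_mem' := by
        rintro a _ ⟨n, h1, h2, rfl⟩
        by_cases ha : a = 0
        · exact ⟨0, inM_zero, ⟨by simp, by simp, by simp⟩, by simp [ha]⟩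
        obtain ⟨g, hg, e⟩ := S.exists_torus p ha
        obtain ⟨e1, e2⟩ := e _ P N hP hN rfl
        have f1 : (1 - P - N) * (g : Matrix ι ι F) = 1 - P - N := by
          simp [e1, mul_add, I.ep, I.em, I.ee]
        refine ⟨_, h1.cj hg, ⟨?_, ?_, ?_⟩, ?_⟩
        · rw [cj_apply, mul_assoc, mul_assoc, e2]
          simp [add_mul, I.ep, I.pp, I.mp, h2.np]
        · rw [cj_apply, ← mul_assoc, ← mul_assoc, e1]
          simp [mul_add, I.me, I.mm, I.mp, h2.mn]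
        · rw [cj_apply, ← mul_assoc, ← mul_assoc, f1, mul_assoc _ _ (1 - P - N), e2]
          rw [add_mul, add_mul, smul_mul_assoc, smul_mul_assoc, I.ee, I.pe, I.me, smul_zero,
            smul_zero, add_zero, add_zero, h2.mid]
        · rw [cj_apply, ← mul_assoc, ← mul_assoc, f1, mul_assoc (_ * n) _ N, e2]
          simp [add_mul, I.em, I.pm, I.mm] }
  have hs : T.ψ i (rk (B i) u u) * T.ψ i (-rk (B i) u' u') = P := by
    rw [hP, ← map_mul]; simp [p.lr]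
  have hs' : T.ψ i (-rk (B i) u' u') * T.ψ i (rk (B i) u u) = N := by
    rw [hN, ← map_mul]; simp [rl]
  have r0 : RadE P N ((b : Matrix ι ι F) - 1) := by
    obtain ⟨q1, q2, X, Y, q3⟩ := hQ
    refine ⟨by rw [← hs, ← mul_assoc, q1, zero_mul], by rw [← hs', mul_assoc, q2, mul_zero], ?_⟩
    have z1 : T.ψ i E * T.ψ i (rk (B i) u u) = 0 := by
      rw [← map_mul, mul_rk, hEv]; simp [rl, p.l]
    have z2 : T.ψ i (rk (B i) u u) * T.ψ i E = 0 := by
      rw [← map_mul, hE0]; simp [mul_sub, mul_add, p.l, p.lr]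
    rw [q3, ← hψE, mul_add, add_mul, ← mul_assoc, z1, mul_assoc _ (Y * _), mul_assoc Y, z2]
    simp
  have b0 : InM M ((b : Matrix ι ι F) - 1) := ⟨b, hb, by abel⟩
  by_cases hA : ∀ x ∈ L, InE (T.ψ i) x
  · obtain ⟨Y, hY⟩ := hA _ ⟨_, b0, r0, rfl⟩
    have hY' : (1 - P - N) * ((b : Matrix ι ι F) - 1) * N =
        T.ψ i (rk (B i) (E *ᵥ (Y *ᵥ u')) u) := by
      rw [← sand, hY, ← mul_assoc, ← mul_assoc, I.ee, mul_assoc _ N, I.mm]
    obtain ⟨y, hy⟩ : ∃ y, y = E *ᵥ (Y *ᵥ u') := ⟨_, rfl⟩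
    have y1 : B i u y = 0 := hy ▸ hE1 _
    have y2 : B i u' y = 0 := hy ▸ hE2 _
    rw [← hy] at hY'
    have r : RC (B i) (-1) u (-y) 0 := ⟨p.l, by simp [y1], by simp [alt]⟩
    have c1 : (homG (T.ψ i) (xr (B i) (-1) u (-y) 0) : Matrix ι ι F) =
        1 + T.ψ i (NN (B i) (-1) u (-y)) := by
      rw [coe_homG, h.coe_xr r, zero_smul, add_zero, map_add, map_one]
    have m1 : InM M (T.ψ i (NN (B i) (-1) u (-y))) := ⟨_, S.mem i _ (h.xr_iso _ _ _), c1⟩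
    have s1 : (1 - P - N) * T.ψ i (NN (B i) (-1) u (-y)) * N = -T.ψ i (rk (B i) y u) := by
      rw [sand, ← map_neg]
      simp [NN_apply, sub_mulVec, add_mulVec, neg_mulVec, hEv, p.lr, p.l, y1, y2, rl,
        h.zero_symm y2]
    have r1 : RadE P N (T.ψ i (NN (B i) (-1) u (-y))) := by
      refine ⟨?_, ?_, ?_⟩
      · rw [hP, ← map_mul, mul_neg, h.NN_mul_s p.l r.uy, neg_zero, map_zero]
      · rw [hN, ← map_mul, HForm.s_mul_NN p.l r.uy, map_zero]
      · rw [← hψE, ← map_mul, ← map_mul, hE0]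
        simp [NN_apply, mul_sub, mul_add, sub_mul, add_mul, p.l, p.lr, p.r, rl, y1, y2,
          h.zero_symm y1, h.zero_symm y2]
    have r2 := r0.mul r1
    have d2 := S.decomp p (b0.mul m1) hP hN r2
    rw [mul_add (1 - P - N), mul_add (1 - P - N), r0.zero_mul r1, add_zero, add_mul (_ * _), hY', s1,
      add_neg_cancel, S.h0.ad_zero, sub_zero, zero_add, hP, hN] at d2
    refine S.start_J p hq (b0.mul m1) d2 fun H => hE ?_
    have e : (b : Matrix ι ι F) = (1 + ((b : Matrix ι ι F) - 1 + T.ψ i (NN (B i) (-1) u (-y)) +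
        ((b : Matrix ι ι F) - 1) * T.ψ i (NN (B i) (-1) u (-y)))) *
        T.ψ i ((xr (B i) (-1) u (-y) 0)⁻¹ : GL (κ i) F) := by
      rw [← coe_homG, map_inv, Units.eq_mul_inv_iff_mul_eq, c1]; noncomm_ring
    rw [e]
    exact (isSc_one.inE.add H).mul (inE_map _)
  push Not at hA
  obtain ⟨φ, hφ, hφ'⟩ := hA
  obtain ⟨ty, n, Y, k1, k2, k3, k4, j, k5, k6⟩ := S.pure_slot i hq L (by
    rintro j hj g hg _ ⟨n, h1, h2, rfl⟩
    have cP : InC (T.ψ j) P := hP ▸ T.inC_psi hj _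
    have cN : InC (T.ψ j) N := hN ▸ T.inC_psi hj _
    have cE := (inC_one.sub cP).sub cN
    refine ⟨_, h1.cj (S.mem j g hg), ⟨?_, ?_, ?_⟩, ?_⟩
    · rw [← T.cj_mul_right g cP, h2.np, map_zero]
    · rw [← T.cj_mul_left g cN, h2.mn, map_zero]
    · rw [← T.cj_mul_left g cE, ← T.cj_mul_right g cE, h2.mid, map_zero]
    · rw [T.cj_mul_right g cN, T.cj_mul_left g cE]) hφ hφ'
  have hz := T.inC_pm k2
  obtain ⟨y, hy⟩ : ∃ y, y = E *ᵥ (Y *ᵥ u') := ⟨_, rfl⟩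
  have y1 : B i u y = 0 := hy ▸ hE1 _
  have y2 : B i u' y = 0 := hy ▸ hE2 _
  have e : T.pm n * T.ψ i Y = T.pm n * T.ψ i (rk (B i) y u) := by
    obtain ⟨m, -, -, hm⟩ := k4
    rw [hy, ← sand, ← hψE, ← mul_assoc, ← mul_assoc, hz E, hψE, mul_assoc _ (T.pm n), hm,
      ← mul_assoc, ← mul_assoc, I.ee, mul_assoc _ N, I.mm]
  have hy0 : y ≠ 0 := fun e' => k3 (by simp [e, e'])
  obtain ⟨w, hw⟩ := h.exists_one_l hy0
  obtain ⟨v, hv⟩ : ∃ v, v = E *ᵥ w := ⟨_, rfl⟩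
  have v1 : B i u v = 0 := hv ▸ hE1 _
  have v2 : B i u' v = 0 := hv ▸ hE2 _
  have v3 : B i v y = 1 := by simp [hv, hEv, hw, y1, y2]
  have r : RC (B i) (-1) v 0 1 := ⟨alt v, by simp, by simp⟩
  have g1 : (xr (B i) (-1) v 0 1 : Matrix _ _ F) *ᵥ u = u := by
    simp [h.xr_mulVec r, h.zero_symm v1]
  have g2 : (xr (B i) (-1) v 0 1 : Matrix _ _ F) *ᵥ y = y + v := by simp [h.xr_mulVec r, v3]
  have hg := h.xr_iso v 0 1
  obtain ⟨δ, hδ, hz'⟩ : ∃ δ : F, Sg δ ∧ ad B0 (T.pm n) = δ • T.pm n :=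
    ⟨_, neg_one_pow_eq_or F _, S.ad_pm_ty k1⟩
  have hvu := h.notMem_of_perp alt y1 (v3 ▸ one_ne_zero)
  have key : PM M (T.pm (update n i (rk (B i) u v + δ • rk (B i) v u))) := by
    refine PM.of_smul (fun c => ?_) hδ.ne_zero
    obtain ⟨m, m1, m2, m3⟩ := L.smul_mem c k4
    have d := S.decomp p m1 hP hN m2
    rw [← m3, e, S.h0.ad_smul, S.h0.ad_mul, hz', T.ad_psi S.h0 S.h, h.ad_rk, mul_smul_comm,
      ← hz] at d
    obtain ⟨θ, hθ⟩ : ∃ θ, θ = P * m * N := ⟨_, rfl⟩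
    have t1 : cj (homG (T.ψ i) (xr (B i) (-1) v 0 1)) θ = θ := by
      rw [hθ, hP, hN, map_neg, neg_mul, neg_mul, sandw, map_neg, T.cj_mul_right _ (inC_ddc _ _ _),
        cj_homG, h.cj_rk hg, g1]
    rw [← hθ] at d
    obtain ⟨k, hk, ek⟩ := id m1
    obtain ⟨k', hk', ek'⟩ := m1.cj (S.mem i _ hg)
    refine ⟨k' * k⁻¹, M.mul_mem hk' (M.inv_mem hk), ?_⟩
    have z2 : ∀ X Y, T.pm n * T.ψ i X * (T.pm n * T.ψ i Y) = 0 := fun X Y => by
      rw [mul_assoc, ← mul_assoc (T.ψ i X), ← hz, ← mul_assoc, ← mul_assoc, S.pm_sq k1 k6]; simp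
    have z3 : ∀ a b, B i b u = 0 → T.pm n * T.ψ i (rk (B i) a b) * θ = 0 := fun a b e => by
      rw [hθ, hP, ← mul_assoc, ← mul_assoc, mul_assoc (T.pm n), ← map_mul]; simp [e]
    rw [Units.val_mul, Units.mul_inv_eq_iff_eq_mul, ek, ek', ← one_mul (_ + δ • _), ← k2,
      ← T.pm_mul_psi, d]
    simp only [map_add, map_sub, map_smul, t1, T.cj_mul_left _ hz, cj_homG, h.cj_rk hg, g1, g2,
      LinearMap.add_apply, add_mul, mul_add, mul_sub, smul_mul_assoc, mul_smul_comm, one_mul,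
      mul_one, z2, z3 _ _ p.l, z3 _ _ (h.zero_symm v1), smul_zero, smul_add, smul_smul,
      hδ.mul_self]
    module
  rcases S.finish k5 k6 (fun k _ => k1 k) p.ne_l hvu hδ key with o | o | o
  · exact ⟨_, o, by simp, j, k5, by rwa [update_of_ne k5]⟩
  · exact ⟨_, o, by simp, j, k5, by rwa [update_of_ne k5]⟩
  · have := h.three_le alt p.ne_l hvu v1
    omega

end Start

theorem start_of_not_HB [Finite F] {i : τ}
    (hq : ∀ j, j ≠ i → (∃ a : F, a ≠ 0 ∧ a ≠ 1) ∨ 3 ≤ Fintype.card (κ j))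
    (hB : ¬ HB (B i) (T.ψ i) M) : ∃ ty, PT M T ty ∧ ty i ≠ 0 ∧ ∃ j, j ≠ i ∧ ty j ≠ 0 := by
  unfold HB at hB
  push Not at hB
  obtain ⟨u, h1, h2, b, hb, h3, h4⟩ := hB
  obtain ⟨u', p⟩ := (S.h i).exists_hyp (fun y => ⟨0, by simp [S.alt]⟩) h1 h2
  exact S.start p hq hb h3 h4

end TS

end Cfsg.Agent.Cl.Max
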