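import Mathlib
import Cfsg.Agent.Cl.SpTnC

/-!
# Tensor products of symplectic spaces: pure elements of full support
-/

set_option autoImplicit false
set_option linter.unusedSectionVars false
set_option linter.unusedVariables false

namespace Cfsg.Agent.Cl.Max

open Matrix Cfsg.Geo Module Function

variable {F : Type*} [Field F] {ι : Type} [Fintype ι] [DecidableEq ι]
  {τ : Type} [Fintype τ] [DecidableEq τ] {κ : τ → Type} [∀ i, Fintype (κ i)]
  [∀ i, DecidableEq (κ i)] {M : Subgroup (GL ι F)}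
  {B0 : LinearMap.BilinForm F (ι → F)} {B : ∀ i, LinearMap.BilinForm F (κ i → F)}
  {T : TF B0 B} {ε0 : F}

/-- The support of a type. -/
def tsupp (ty : τ → Fin 3) : Finset τ := Finset.univ.filter fun i => ty i ≠ 0

theorem mem_tsupp {ty : τ → Fin 3} {i : τ} : i ∈ tsupp ty ↔ ty i ≠ 0 := by simp [tsupp]

theorem comb_ne_zero {t t' : Fin 3} : comb t t' ≠ 0 ↔ t ≠ 0 ∨ t' ≠ 0 := by revert t t'; decide

theorem comb_self (t : Fin 3) : comb t t = if t = 0 then 0 else 1 := by revert t; decide

theorem exists_max_ty {p : (τ → Fin 3) → Prop} {ty : τ → Fin 3} (h : p ty) :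
    ∃ ty, p ty ∧ ∀ ty', p ty' → (tsupp ty').card ≤ (tsupp ty).card := by
  classical
  obtain ⟨ty, h1, h2⟩ := Finset.exists_max_image (Finset.univ.filter p)
    (fun ty => (tsupp ty).card) ⟨ty, by simpa⟩
  exact ⟨ty, by simpa using h1, fun ty' h => h2 ty' (by simpa)⟩

variable (M T) in
/-- Even permutations of the slots preserve the types. -/
def PermP : Prop := ∀ π : Equiv.Perm τ, Equiv.Perm.sign π = 1 → ∀ ty, PT M T ty → PT M T (ty ∘ π)

namespace TS

variable (S : TS T ε0 M)
include S

theorem swap_two {ty : τ → Fin 3} (p : PT M T ty) {j i : τ} (hj : ty j = 2) (hij : j ≠ i)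
    (hi : ty i = 1 ∨ (ty i = 2 ∧ 6 ≤ Fintype.card (κ i))) :
    Out M T (fun l => if ty l = 0 then 0 else 1) i := by
  have := S.combine p p (j := j) (k := j) (i0 := i) (fun _ _ => .inr (.inr rfl)) hij hij
    (by simp [hj]) (by simp [hj]) (by simp [hj]) (by simp [hj]) (by tauto)
  simpa only [comb_self] using this

theorem norm (h3 : ∀ i, 3 ≤ Fintype.card (κ i)) (h6 : (2 : F) ≠ 0 ∨ ∀ i, 6 ≤ Fintype.card (κ i))
    {ty : τ → Fin 3} (p : PT M T ty) {a b : τ} (hab : a ≠ b) (ha : ty a ≠ 0) (hb : ty b ≠ 0) :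
    ∃ ty', PT M T ty' ∧ (∀ i, ty' i = 0 ↔ ty i = 0) ∧ (∃ i, ty' i = 1) ∧
      ∀ i j, ty' i = 2 → ty' j = 2 → i = j := by
  by_cases h : ∃ j, ty j = 2
  swap
  · push Not at h
    exact ⟨ty, p, fun _ => Iff.rfl, ⟨a, ((ty_cases _).resolve_left ha).resolve_right (h a)⟩,
      fun i _ hi => (h i hi).elim⟩
  obtain ⟨j, hj⟩ := h
  obtain ⟨i, hij, hi⟩ : ∃ i, j ≠ i ∧ (ty i = 1 ∨ (ty i = 2 ∧ 6 ≤ Fintype.card (κ i))) := by
    by_cases h1 : ∃ i, ty i = 1
    · obtain ⟨i, hi⟩ := h1
      exact ⟨i, by rintro rfl; simp [hi] at hj, .inl hi⟩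
    push Not at h1
    rcases h6 with h2 | h6
    · have := S.parity h2 p ha
      simp [h1] at this
    by_cases e : j = a
    · exact ⟨b, e ▸ hab, .inr ⟨((ty_cases _).resolve_left hb).resolve_left (h1 b), h6 b⟩⟩
    · exact ⟨a, e, .inr ⟨((ty_cases _).resolve_left ha).resolve_left (h1 a), h6 a⟩⟩
  have hi0 : ty i ≠ 0 := by rcases hi with e | ⟨e, -⟩ <;> simp [e]
  have key : ∀ t : Fin 3, t ≠ 0 → PT M T (update (fun l => if ty l = 0 then 0 else 1) i t) →
      ∃ ty', PT M T ty' ∧ (∀ i, ty' i = 0 ↔ ty i = 0) ∧ (∃ i, ty' i = 1) ∧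
        ∀ i j, ty' i = 2 → ty' j = 2 → i = j := fun t ht o => by
    have k : ∀ l, update (fun l => if ty l = 0 then (0 : Fin 3) else 1) i t l = 2 → l = i :=
      fun l hl => by_contra fun e => by
        rw [update_of_ne e] at hl
        split_ifs at hl <;> simp at hl
    refine ⟨_, o, fun l => ?_, ⟨j, by simp [update_of_ne hij, hj]⟩,
      fun l m hl hm => (k l hl).trans (k m hm).symm⟩
    by_cases e : l = i
    · subst e; simp [ht, hi0]
    · simp [update_of_ne e]
  rcases S.swap_two p hj hij hi with o | o | o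
  · exact key 1 (by decide) o
  · exact key 2 (by decide) o
  · have := h3 i; omega

theorem reach_big (hp : PermP M T) (h3 : ∀ i, 3 ≤ Fintype.card (κ i))
    (h6 : (2 : F) ≠ 0 ∨ ∀ i, 6 ≤ Fintype.card (κ i)) {ty : τ → Fin 3} (p : PT M T ty) {a b : τ}
    (hab : a ≠ b) (ha : ty a ≠ 0) (hb : ty b ≠ 0) :
    PT M T (fun _ => 1) ∨ ∃ i, PT M T (update (fun _ => 1) i 2) := by
  obtain ⟨ty, ⟨p, a, b, hab, ha, hb⟩, hmax⟩ := exists_max_ty
    (p := fun ty => PT M T ty ∧ ∃ a b, a ≠ b ∧ ty a ≠ 0 ∧ ty b ≠ 0) ⟨p, a, b, hab, ha, hb⟩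
  obtain ⟨ty', p', h0, ⟨c, hc⟩, h2⟩ := S.norm h3 h6 p hab ha hb
  have hall : ∀ j, ty' j ≠ 0 := fun j hj => by
    obtain ⟨d, hdc, hd⟩ : ∃ d, d ≠ c ∧ ty' d ≠ 0 := by
      by_cases e : a = c
      · exact ⟨b, e ▸ hab.symm, by rwa [Ne, h0]⟩
      · exact ⟨a, e, by rwa [Ne, h0]⟩
    have hcj : c ≠ j := by rintro rfl; simp [hc] at hj
    have hdj : d ≠ j := by rintro rfl; exact hd hj
    have e1 : (Equiv.swap d c * Equiv.swap c j) d = c := by
      simp [Equiv.swap_apply_of_ne_of_ne hdc hdj]
    have e2 : (Equiv.swap d c * Equiv.swap c j) j = d := by simp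
    have e3 : (Equiv.swap d c * Equiv.swap c j) c = j := by
      simp [Equiv.swap_apply_of_ne_of_ne hdj.symm hcj.symm]
    have o := S.combine p' (hp (Equiv.swap d c * Equiv.swap c j)
      (by simp [Equiv.Perm.sign_swap hdc, Equiv.Perm.sign_swap hcj]) _ p') (j := c) (k := j)
      (i0 := d) (fun i hi => by
        by_cases f1 : i = c
        · subst f1; simp only [Function.comp_apply, e3, hj]; simp
        by_cases f2 : i = j
        · subst f2; exact .inl hj
        · simp [Equiv.swap_apply_of_ne_of_ne f1 f2, Equiv.swap_apply_of_ne_of_ne hi f1])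
      hdc.symm hdj.symm (by simp [hc]) (by simp only [Function.comp_apply, e3, hj]; simp)
      (by simpa only [Function.comp_apply, e2]) (by simp [hj]) (by
        simp only [Function.comp_apply, e1, hc]
        rcases (ty_cases _).resolve_left hd with e | e <;> simp [e])
    have key : ∀ t : Fin 3, t ≠ 0 → ¬ PT M T (update (fun l => comb (ty' l)
        ((ty' ∘ ⇑(Equiv.swap d c * Equiv.swap c j)) l)) d t) := fun t ht o => by
      have := hmax _ ⟨o, d, c, hdc, by simpa, by
        rw [update_of_ne hdc.symm, comb_ne_zero]; exact .inl (by simp [hc])⟩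
      refine absurd this (not_le.2 (Finset.card_lt_card ((Finset.ssubset_iff_of_subset
        fun l hl => ?_).2 ⟨j, ?_, ?_⟩)))
      · rw [mem_tsupp] at hl ⊢
        by_cases e : l = d
        · subst e; simpa
        · rw [update_of_ne e, comb_ne_zero]; exact .inl (by rwa [Ne, h0])
      · rw [mem_tsupp, update_of_ne hdj.symm, comb_ne_zero]
        exact .inr (by simpa only [Function.comp_apply, e2])
      · rw [mem_tsupp, not_not, ← h0, hj]
    rcases o with o | o | o
    · exact key 1 (by decide) o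
    · exact key 2 (by decide) o
    · have := h3 d; omega
  by_cases h : ∃ i, ty' i = 2
  · obtain ⟨i, hi⟩ := h
    refine .inr ⟨i, ?_⟩
    convert p' using 1
    funext l
    by_cases e : l = i
    · subst e; simp [hi]
    · rw [update_of_ne e]
      exact (((ty_cases _).resolve_left (hall l)).resolve_right fun e' => e (h2 _ _ e' hi)).symm
  · push Not at h
    left
    convert p' using 1
    funext l
    exact (((ty_cases _).resolve_left (hall l)).resolve_right (h l)).symm

theorem move_two (h3 : ∀ i, 3 ≤ Fintype.card (κ i)) {i : τ} (p : PT M T (update (fun _ => 1) i 2))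
    (j : τ) : PT M T (fun _ => 1) ∨ PT M T (update (fun _ => 1) j 2) := by
  by_cases e : i = j
  · exact .inr (e ▸ p)
  have o := S.swap_two p (j := i) (i := j) (by simp) e (.inl (by rw [update_of_ne (Ne.symm e)]))
  have : (fun l => if update (fun _ => (1 : Fin 3)) i 2 l = 0 then (0 : Fin 3) else 1) =
      fun _ => 1 := funext fun l => if_neg (by
    by_cases f : l = i
    · subst f; simp
    · simp [update_of_ne f])
  rw [this] at o
  rcases o with o | o | o
  · exact .inl (by simpa using o)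
  · exact .inr o
  · have := h3 j; omega

theorem ne_two {ty : τ → Fin 3} (p : PT M T ty) {i : τ} (h : Fintype.card (κ i) ≤ 2) :
    ty i ≠ 2 := fun e => by
  obtain ⟨n, hn, -⟩ := p
  obtain ⟨u, y, h1, h2, h3, -⟩ := hasTy_two.1 (e ▸ hn i)
  have := (S.h i).three_le (S.alt i) h1 h2 h3
  omega

theorem reach_small (hp : PermP M T) (hs : ∀ i, Fintype.card (κ i) ≤ 2) (h2 : (2 : F) ≠ 0)
    {ty : τ → Fin 3} (p : PT M T ty) {a b : τ} (hab : a ≠ b) (ha : ty a ≠ 0) (hb : ty b ≠ 0) :
    PT M T (fun _ => 1) ∨ ∃ i, PT M T (update (fun _ => 1) i 0) := by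
  obtain ⟨ty, ⟨p, a, b, hab, ha, hb⟩, hmax⟩ := exists_max_ty
    (p := fun ty => PT M T ty ∧ ∃ a b, a ≠ b ∧ ty a ≠ 0 ∧ ty b ≠ 0) ⟨p, a, b, hab, ha, hb⟩
  have one : ∀ l, ty l ≠ 0 → ty l = 1 := fun l hl =>
    ((ty_cases _).resolve_left hl).resolve_right (S.ne_two p (hs l))
  obtain ⟨c, hca, hcb, hc⟩ : ∃ c, c ≠ a ∧ c ≠ b ∧ ty c = 1 := by
    by_contra! H
    have := S.parity h2 p ha
    rw [show (Finset.univ.filter fun i => ty i = 1) = {a, b} from Finset.ext fun l => by
      simp only [Finset.mem_filter, Finset.mem_univ, true_and, Finset.mem_insert,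
        Finset.mem_singleton]
      refine ⟨fun e => by_contra fun f => H l (fun g => f (.inl g)) (fun g => f (.inr g)) e, ?_⟩
      rintro (rfl | rfl)
      exacts [one _ ha, one _ hb], Finset.card_pair hab] at this
    exact absurd this (by decide)
  have uniq : ∀ j k, ty j = 0 → ty k = 0 → j = k := fun j k hj hk => by_contra fun hjk => by
    have aj : a ≠ j := by rintro rfl; exact ha hj
    have ak : a ≠ k := by rintro rfl; exact ha hk
    have bj : b ≠ j := by rintro rfl; exact hb hj
    have bk : b ≠ k := by rintro rfl; exact hb hk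
    have cj : c ≠ j := by rintro rfl; simp [hc] at hj
    have ck : c ≠ k := by rintro rfl; simp [hc] at hk
    have e1 : (Equiv.swap a j * Equiv.swap b k) a = j := by
      simp [Equiv.swap_apply_of_ne_of_ne hab ak]
    have e2 : (Equiv.swap a j * Equiv.swap b k) j = a := by
      simp [Equiv.swap_apply_of_ne_of_ne bj.symm hjk]
    have e3 : (Equiv.swap a j * Equiv.swap b k) b = k := by
      simp [Equiv.swap_apply_of_ne_of_ne ak.symm (Ne.symm hjk)]
    have e4 : (Equiv.swap a j * Equiv.swap b k) k = b := by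
      simp [Equiv.swap_apply_of_ne_of_ne hab.symm bj]
    have e5 : ∀ l, l ≠ a → l ≠ j → l ≠ b → l ≠ k → (Equiv.swap a j * Equiv.swap b k) l = l :=
      fun l f1 f2 f3 f4 => by
        simp [Equiv.swap_apply_of_ne_of_ne f1 f2, Equiv.swap_apply_of_ne_of_ne f3 f4]
    have o := S.combine p (hp (Equiv.swap a j * Equiv.swap b k)
      (by simp [Equiv.Perm.sign_swap aj, Equiv.Perm.sign_swap bk]) _ p) (j := a) (k := j)
      (i0 := c) (fun i hi => by
        by_cases f1 : i = a
        · subst f1; simp only [Function.comp_apply, e1, hj]; simp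
        by_cases f2 : i = j
        · subst f2; exact .inl hj
        by_cases f3 : i = b
        · subst f3; simp only [Function.comp_apply, e3, hk]; simp
        by_cases f4 : i = k
        · subst f4; exact .inl hk
        · simp only [Function.comp_apply, e5 i f1 f2 f3 f4]; simp)
      hca.symm cj.symm ha (by simp only [Function.comp_apply, e1, hj]; simp)
      (by simpa only [Function.comp_apply, e2]) (by simp [hj])
      (.inl ⟨hc, by simpa only [Function.comp_apply, e5 c hca cj hcb ck]⟩)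
    have key : ∀ t : Fin 3, ¬ PT M T (update (fun l => comb (ty l)
        ((ty ∘ ⇑(Equiv.swap a j * Equiv.swap b k)) l)) c t) := fun t o => by
      have h1 := hmax _ ⟨o, a, b, hab, by
        rw [update_of_ne hca.symm, comb_ne_zero]; exact .inl ha, by
        rw [update_of_ne hcb.symm, comb_ne_zero]; exact .inl hb⟩
      have h3 : (insert j (insert k ((tsupp ty).erase c))).card ≤ (tsupp ty).card := by
        refine (Finset.card_le_card fun l hl => ?_).trans h1
        simp only [Finset.mem_insert, Finset.mem_erase, mem_tsupp] at hl ⊢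
        rcases hl with rfl | rfl | ⟨f1, f2⟩
        · rw [update_of_ne cj.symm, comb_ne_zero]
          exact .inr (by simpa only [Function.comp_apply, e2])
        · rw [update_of_ne ck.symm, comb_ne_zero]
          exact .inr (by simpa only [Function.comp_apply, e4])
        · rw [update_of_ne f1, comb_ne_zero]; exact .inl f2
      have h4 : c ∈ tsupp ty := mem_tsupp.2 (by simp [hc])
      rw [Finset.card_insert_of_notMem (by simp [mem_tsupp, hj, hjk]),
        Finset.card_insert_of_notMem (by simp [mem_tsupp, hk]), Finset.card_erase_of_mem h4] at h3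
      have := Finset.card_pos.2 ⟨c, h4⟩
      omega
    rcases o with o | o | ⟨-, o⟩ <;> exact key _ o
  by_cases h : ∃ i, ty i = 0
  · obtain ⟨i, hi⟩ := h
    refine .inr ⟨i, ?_⟩
    convert p using 1
    funext l
    by_cases e : l = i
    · subst e; simp [hi]
    · rw [update_of_ne e, one l fun e' => e (uniq _ _ e' hi)]
  · push Not at h
    left
    convert p using 1
    funext l
    exact (one l (h l)).symm

omit S in
theorem move_zero (hp : PermP M T) (h3 : 3 ≤ Fintype.card τ) {i : τ} {t : Fin 3}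
    (p : PT M T (update (fun _ => 1) i t)) (j : τ) : PT M T (update (fun _ => 1) j t) := by
  by_cases e : i = j
  · exact e ▸ p
  obtain ⟨k, hk⟩ : ∃ k, k ∉ ({i, j} : Finset τ) := by
    by_contra! H
    have := Finset.card_le_card (show Finset.univ ⊆ ({i, j} : Finset τ) from fun k _ => H k)
    have h2 : ({i, j} : Finset τ).card ≤ 2 := Finset.card_le_two
    rw [Finset.card_univ] at this
    omega
  simp only [Finset.mem_insert, Finset.mem_singleton, not_or] at hk
  have := hp (Equiv.swap i j * Equiv.swap i k)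
    (by simp [Equiv.Perm.sign_swap e, Equiv.Perm.sign_swap (Ne.symm hk.1)]) _ p
  convert this using 1
  funext l
  have f : (Equiv.swap i j * Equiv.swap i k) j = i := by
    simp [Equiv.swap_apply_of_ne_of_ne (Ne.symm e) (Ne.symm hk.2)]
  by_cases g : l = j
  · subst g; simp only [Function.comp_apply, f, update_self]
  · rw [update_of_ne g, Function.comp_apply, update_of_ne fun g' => g (Equiv.injective _ (g'.trans f.symm))]

theorem not_update (h2 : (2 : F) ≠ 0) (ho : Odd (Fintype.card τ)) (h3 : 2 ≤ Fintype.card τ) {i : τ}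
    {t : Fin 3} (ht : t ≠ 1) : ¬ PT M T (update (fun _ => 1) i t) := fun p => by
  have : Nontrivial τ := Fintype.one_lt_card_iff_nontrivial.1 h3
  obtain ⟨j, hj⟩ := exists_ne i
  have := S.parity h2 p (j := j) (by simp [update_of_ne hj])
  rw [show (Finset.univ.filter fun l => update (fun _ => (1 : Fin 3)) i t l = 1) =
    Finset.univ.erase i from Finset.ext fun l => by
      by_cases e : l = i
      · subst e; simp [ht]
      · simp [update_of_ne e, e], Finset.card_erase_of_mem (Finset.mem_univ _),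
    Finset.card_univ] at this
  obtain ⟨a, ha⟩ := this
  obtain ⟨b, hb⟩ := ho
  omega

omit S in
/-- The symplectic end. -/
theorem iso_le (S : TS T (-1) M) (alt : ∀ x, B0 x x = 0) (hF : ∃ a : F, a ≠ 0 ∧ a ≠ 1)
    (p : PT M T fun _ => 1) : isoB B0 ≤ M := by
  have hA : B0.IsAlt := alt
  have hB : B0.Nondegenerate := ⟨fun x hx => S.h0.eq_zero_l hx, fun x hx => S.h0.eq_zero_r hx⟩
  have hX := MaxSp.tClosed_XS hA (M.comap (spHom B0))
  have h1 : ∀ x, T.pv x ∈ MaxSp.XS hA (M.comap (spHom B0)) := fun x => by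
    by_cases hx : ∃ i, x i = 0
    · obtain ⟨i, hi⟩ := hx
      rw [T.pv.map_coord_zero i hi]; exact hX.zero_mem
    push Not at hx
    intro c
    obtain ⟨g, hg, e⟩ := S.all p (fun i => hasTy_one.2 ⟨x i, hx i, rfl⟩) (-c * T.c)
    rw [Subgroup.mem_comap, spHom_spT S.h0 alt, show xr B0 (-1) (T.pv x) 0 (-c) = g from
      Units.ext (by
        rw [e, S.h0.coe_xr ⟨alt _, by simp, by simp⟩, ← smul_smul, T.pm_rk, map_zero, add_zero])]
    exact hg
  have ne : ∀ x y, (∀ i, B i (x i) (y i) ≠ 0) → B0 (T.pv x) (T.pv y) ≠ 0 := fun x y h => by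
    rw [T.form]; exact mul_ne_zero T.c_ne (Finset.prod_ne_zero_iff.2 fun i _ => h i)
  have a0 : ∀ i, (fun _ => 1 : κ i → F) ≠ 0 := fun i e =>
    one_ne_zero (congrFun e (S.ne i).some)
  choose a' ha' using fun i => (S.h i).exists_one_r (a0 i)
  obtain ⟨U, u1, -, u2, u3⟩ := hX.exists_comp_pair hA hF (h1 _) (h1 a')
    (ne _ _ fun i => ha' i ▸ one_ne_zero)
  have st : ∀ x y, T.pv x ∈ U → (∀ i, B i (x i) (y i) ≠ 0) → T.pv y ∈ U := fun x y hx h =>
    (u2 _ (h1 y)).resolve_right fun H => ne x y h (H _ hx)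
  refine isoB_le_of_comap S.h0 (MaxSp.eq_top_of_XS hB hA (hX.of_top hB u3 ?_))
  refine eq_top_iff.2 fun v _ => T.mem_of_pv (fun x => ?_) v
  by_cases hx : ∃ i, x i = 0
  · obtain ⟨i, hi⟩ := hx
    rw [T.pv.map_coord_zero i hi]; exact U.zero_mem
  push Not at hx
  choose z z1 z2 using fun i => (S.h i).exists_both (a0 i) (hx i)
  exact st z x (st _ z u1 z1) fun i => (S.h i).ne_symm (z2 i)

end TS

end Cfsg.Agent.Cl.Max
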