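import Mathlib
import Cfsg.Agent.Cl.SpTnD

/-!
# Tensor products of symplectic spaces: the orthogonal end
-/

set_option autoImplicit false
set_option linter.unusedSectionVars false
set_option linter.unusedVariables false

namespace Cfsg.Agent.Cl.Max

open Matrix Cfsg.Geo Module Function QuadraticMap

variable {F : Type*} [Field F] {ι : Type} [Fintype ι] [DecidableEq ι]
  {τ : Type} [Fintype τ] [DecidableEq τ] {κ : τ → Type} [∀ i, Fintype (κ i)]
  [∀ i, DecidableEq (κ i)] {M : Subgroup (GL ι F)} {Q : QuadraticForm F (ι → F)}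
  {B : ∀ i, LinearMap.BilinForm F (κ i → F)} {T : TF (polarBilin Q) B}

theorem TF.mem_of_span {B0 : LinearMap.BilinForm F (ι → F)} (T : TF B0 B)
    (W : Submodule F (ι → F)) (A : ∀ i, Set (κ i → F))
    (h : ∀ y, (∀ l, y l ∈ A l) → T.pv y ∈ W) (y : ∀ i, κ i → F)
    (hy : ∀ l, y l ∈ Submodule.span F (A l)) : T.pv y ∈ W := by
  have key : ∀ S : Finset τ, ∀ y : ∀ i, κ i → F, (∀ l ∈ S, y l ∈ Submodule.span F (A l)) →
      (∀ l ∉ S, y l ∈ A l) → T.pv y ∈ W := fun S => by
    induction S using Finset.induction_on with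
    | empty => exact fun y _ h' => h y fun l => h' l (Finset.notMem_empty l)
    | insert s S hs ih =>
      intro y h1 h2
      have : Submodule.span F (A s) ≤ W.comap (T.pv.toLinearMap y s) :=
        Submodule.span_le.2 fun z hz => ih (update y s z) (fun l hl => by
          rw [update_of_ne (by rintro rfl; exact hs hl)]
          exact h1 l (Finset.mem_insert_of_mem hl)) fun l hl => by
          by_cases e : l = s
          · subst e; simpa using hz
          · rw [update_of_ne e]; exact h2 l (by simp [e, hl])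
      simpa using this (h1 s (Finset.mem_insert_self _ _))
  exact key Finset.univ y (fun l _ => hy l) fun l hl => (hl (Finset.mem_univ l)).elim

section Small

variable {κ : Type} [Fintype κ] [DecidableEq κ] {B : LinearMap.BilinForm F (κ → F)}
  (h : BF B (-1)) (alt : ∀ x, B x x = 0)

theorem mem_span_ne_zero {p : (κ → F) → Prop} {y : κ → F} (hy : p y) :
    y ∈ Submodule.span F {z | z ≠ 0 ∧ p z} := by
  by_cases e : y = 0
  · rw [e]; exact Submodule.zero_mem _
  · exact Submodule.subset_span ⟨e, hy⟩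

theorem notMem_span_symm {u y : κ → F} (hu : u ≠ 0) (hy : y ∉ Submodule.span F {u}) :
    u ∉ Submodule.span F {y} := fun H => by
  obtain ⟨a, rfl⟩ := Submodule.mem_span_singleton.1 H
  have : a ≠ 0 := by rintro rfl; simp at hu
  exact hy (Submodule.mem_span_singleton.2 ⟨a⁻¹, by simp [this]⟩)

include h

theorem HForm.mem_span_nonperp {u : κ → F} (hu : u ≠ 0) (y : κ → F) :
    y ∈ Submodule.span F {z | B u z ≠ 0} := by
  by_cases e : B u y = 0
  · obtain ⟨v, hv⟩ := h.exists_one_r hu
    rw [← add_sub_cancel_right y v]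
    exact Submodule.sub_mem _ (Submodule.subset_span (by simp [e, hv]))
      (Submodule.subset_span (by simp [hv]))
  · exact Submodule.subset_span e

theorem HForm.exists_perp_pair (h4 : 4 ≤ Fintype.card κ) (a y : κ → F) :
    ∃ x ∉ Submodule.span F {y}, B a x = 0 ∧ B y x = 0 := by
  obtain ⟨x, h1, h2⟩ := h.exists_perp_notMem (Submodule.span F {y}) (Submodule.span F {a, y}) (by
    have := MaxO.finrank_span_one_le (F := F) y
    have := MaxO.finrank_span_pair_le (F := F) a y
    omega)
  exact ⟨x, h1, h2 a (Submodule.subset_span (by simp)), h2 y (Submodule.subset_span (by simp))⟩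

include alt

theorem HForm.mem_span_perp (h3 : 3 ≤ Fintype.card κ) {u y : κ → F} (hy : B u y = 0) :
    y ∈ Submodule.span F {z | B u z = 0 ∧ z ∉ Submodule.span F {u}} := by
  by_cases e : y ∈ Submodule.span F {u}
  · obtain ⟨w, hw, hw'⟩ := h.exists_perp_notMem (Submodule.span F {u}) (Submodule.span F {u}) (by
      have := MaxO.finrank_span_one_le (F := F) u
      omega)
    have e' := hw' u (Submodule.mem_span_singleton_self u)
    rw [← add_sub_cancel_right y w]
    exact Submodule.sub_mem _ (Submodule.subset_span ⟨by simp [hy, e'], fun H =>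
      hw ((Submodule.add_mem_iff_right _ e).1 H)⟩) (Submodule.subset_span ⟨e', hw⟩)
  · exact Submodule.subset_span ⟨hy, e⟩

end Small

variable (T M) in
/-- The Siegel elements with centre a pure vector, in the direction of the slot `i`. -/
def Sie (i : τ) (a : ∀ i, κ i → F) (w : κ i → F) : Prop :=
  ∀ t : F, eich Q (T.pv a) (t • T.pv (update a i w)) ∈ M.comap (oGL Q)

variable (M) in
/-- The vectors all of whose multiples give Siegel elements in `M`. -/
def SieT {a : ι → F} (ha : Q a = 0) : Submodule F (ι → F) where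
  carrier := {x | ∀ t : F, t • x ∈ MaxO.EA (M.comap (oGL Q)) ha}
  add_mem' hx hy t := by rw [smul_add]; exact AddSubgroup.add_mem _ (hx t) (hy t)
  zero_mem' t := by rw [smul_zero]; exact AddSubgroup.zero_mem _
  smul_mem' c x hx t := by rw [smul_smul]; exact hx _

theorem sieT_step {a x a' b' : ι → F} {ha : Q a = 0} (hx : x ∈ SieT M ha) (h1 : Q a' = 0)
    (h2 : polar Q a' b' = 0) (h3 : polar Q a a' = 0) (h4 : polar Q a b' = 0)
    (h5 : eich Q a' b' ∈ M.comap (oGL Q)) (h6 : polar Q x a' ≠ 0) (h7 : polar Q x b' = 0)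
    (h8 : Q b' = 0) : b' ∈ SieT M ha := fun t => by
  have := AddSubgroup.sub_mem _ (MaxO.EA_fix h5 (eich_app_of_polar h3 h4) (hx (t / polar Q x a')))
    (hx (t / polar Q x a'))
  rwa [eich_app h1 h2, o_polar_smul_left, o_polar_smul_left, h7, h8, div_mul_cancel₀ _ h6, mul_zero,
    zero_mul, add_zero, zero_smul, sub_zero, add_sub_cancel_left] at this

theorem TF.polar_zero (T : TF (polarBilin Q) B) {x y : ∀ i, κ i → F} (i : τ)
    (h : B i (x i) (y i) = 0) : polar Q (T.pv x) (T.pv y) = 0 :=
  (T.form x y).trans (by rw [Finset.prod_eq_zero (Finset.mem_univ i) h, mul_zero])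

theorem TF.polar_ne (T : TF (polarBilin Q) B) {x y : ∀ i, κ i → F}
    (h : ∀ i, B i (x i) (y i) ≠ 0) : polar Q (T.pv x) (T.pv y) ≠ 0 := fun e =>
  mul_ne_zero T.c_ne (Finset.prod_ne_zero_iff.2 fun i _ => h i) ((T.form x y).symm.trans e)

namespace TS

variable (S : TS T 1 M) (hp : ∀ x, Q (T.pv x) = 0)
include S hp

theorem not_all_one (hM : M ≤ isometryGroup F Q) : ¬ PT M T fun _ => 1 := fun p => by
  have a0 : ∀ i, (fun _ => 1 : κ i → F) ≠ 0 := fun i e =>
    one_ne_zero (congrFun e (S.ne i).some)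
  obtain ⟨g, hg, e⟩ := S.all p (fun i => hasTy_one.2 ⟨_, a0 i, rfl⟩) T.c
  rw [T.pm_rk] at e
  obtain ⟨x, hx⟩ := S.h0.exists_one_r (T.pv_ne_zero S.h a0)
  have := mem_isometryGroup_iff.1 (hM hg) x
  rw [e, add_mulVec, one_mulVec, rk_mulVec, hx, one_smul, o_qadd, hp, polar_comm] at this
  exact one_ne_zero (hx.symm.trans (by simpa using this))

theorem sie_of_pm {i j : τ} (hij : j ≠ i) {a : ∀ i, κ i → F} {w : κ i → F}
    (p : PM M (T.pm (update (fun l => rk (B l) (a l) (a l)) i (NP (B i) (a i) w)))) :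
    Sie M T i a w := fun t => by
  obtain ⟨g, hg, e⟩ := p (t * T.c)
  have e1 : ∀ x y : ∀ l, κ l → F, (∀ l, l ≠ i → x l = a l) → (∀ l, l ≠ i → y l = a l) →
      update (fun l => rk (B l) (a l) (a l)) i (rk (B i) (x i) (y i)) =
        fun l => rk (B l) (x l) (y l) := fun x y hx hy => funext fun l => by
    by_cases f : l = i
    · subst f; simp
    · rw [update_of_ne f, hx l f, hy l f]
  have e2 := e1 (update a i w) a (fun l f => update_of_ne f _ _) fun _ _ => rfl
  have e3 := e1 a (update a i w) (fun _ _ => rfl) fun l f => update_of_ne f _ _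
  rw [update_self] at e2 e3
  rw [NP, T.pm_update_sub, e2, e3, ← smul_smul, smul_sub, T.pm_rk, T.pm_rk] at e
  have z : polar Q (T.pv a) (t • T.pv (update a i w)) = 0 := by
    rw [o_polar_smul_right, T.polar_zero j (by rw [update_of_ne hij, S.alt]), mul_zero]
  rw [Subgroup.mem_comap, oGL_eq_iff.2 fun v => ?_]
  · exact hg
  rw [e, eich_app (hp a) z, o_qsmul, hp, o_polar_smul_right]
  simp only [add_mulVec, one_mulVec, smul_mulVec, sub_mulVec, rk_mulVec, polarBilin_apply_apply,
    polar_comm Q v]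
  module

theorem sie_two {i j : τ} (hij : j ≠ i) (p : PT M T (update (fun _ => 1) i 2))
    {a : ∀ i, κ i → F} (ha : ∀ l, a l ≠ 0) {w : κ i → F} (hw : B i (a i) w = 0) :
    Sie M T i a w := by
  refine S.sie_of_pm hp hij ?_
  by_cases e : w ∈ Submodule.span F {a i}
  · obtain ⟨c, rfl⟩ := Submodule.mem_span_singleton.1 e
    rw [T.pm_zero i (by simp [NP])]
    exact pM_zero
  refine S.all p fun l => ?_
  by_cases f : l = i
  · subst f; simpa using hasTy_two.2 ⟨_, _, ha l, e, hw, rfl⟩
  · simpa [update_of_ne f] using hasTy_one.2 ⟨_, ha l, rfl⟩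

theorem sie_zero {i j : τ} (hij : j ≠ i) (hc : Fintype.card (κ i) ≤ 2)
    (p : PT M T (update (fun _ => 1) i 0)) {a : ∀ i, κ i → F} (ha : ∀ l, a l ≠ 0) (w : κ i → F) :
    Sie M T i a w := by
  refine S.sie_of_pm hp hij ?_
  rw [(S.h i).NP_small (S.alt i) hc, T.pm_update_smul]
  refine PM.smul (S.all p fun l => ?_) _
  by_cases f : l = i
  · subst f; simpa using hasTy_zero.2 rfl
  · simpa [update_of_ne f] using hasTy_one.2 ⟨_, ha l, rfl⟩

theorem sie_mem {i j : τ} (hij : j ≠ i) {a : ∀ i, κ i → F} {w : κ i → F} (h : Sie M T i a w) :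
    T.pv (update a i w) ∈ SieT M (hp a) := fun t => ⟨by
  rw [o_polar_smul_right, T.polar_zero j (by rw [update_of_ne hij, S.alt]), mul_zero], h t⟩

theorem pstep {a x y : ∀ i, κ i → F} {j k : τ} (hk : k ≠ j) {v : κ j → F}
    (hs : (∀ l, update y j v l ≠ 0) → Sie M T j (update y j v) (y j))
    (hx : T.pv x ∈ SieT M (hp a)) (h1 : B j (x j) (y j) = 0) (h2 : B j (x j) v ≠ 0)
    (h3 : ∀ l, l ≠ j → B l (x l) (y l) ≠ 0)
    (h4 : (∃ l, l ≠ j ∧ B l (a l) (y l) = 0) ∨ (B j (a j) (y j) = 0 ∧ B j (a j) v = 0)) :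
    T.pv y ∈ SieT M (hp a) := by
  have h5 : ∀ l, B l (x l) (update y j v l) ≠ 0 := fun l => by
    by_cases f : l = j
    · subst f; simpa
    · simpa [update_of_ne f] using h3 l f
  have := hs (fun l => MaxSp.ne_zero_right (h5 l)) 1
  rw [update_idem, update_eq_self, one_smul] at this
  refine sieT_step hx (hp _) (T.polar_zero k (by rw [update_of_ne hk, S.alt])) ?_ ?_ this
    (T.polar_ne h5) (T.polar_zero j h1) (hp _)
  · rcases h4 with ⟨l, e, e'⟩ | ⟨-, e⟩
    · exact T.polar_zero l (by rwa [update_of_ne e])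
    · exact T.polar_zero j (by rwa [update_self])
  · rcases h4 with ⟨l, -, e'⟩ | ⟨e, -⟩
    · exact T.polar_zero l e'
    · exact T.polar_zero j e

theorem full_of {a : ∀ i, κ i → F} (ha : ∀ l, a l ≠ 0)
    (h : ∀ y i, B i (a i) (y i) = 0 → T.pv y ∈ SieT M (hp a)) :
    MaxO.Full (M.comap (oGL Q)) (T.pv a) := by
  choose a' ha' using fun i => (S.h i).exists_one_r (ha i)
  have e : polar Q (T.pv a) (T.pv a') = T.c := (T.form a a').trans (by simp [ha'])
  have key : ∀ v, v - (T.c⁻¹ * polar Q (T.pv a) v) • T.pv a' ∈ SieT M (hp a) := fun v => by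
    refine T.mem_of_pv (S := (SieT M (hp a)).comap (LinearMap.id -
      ((T.c⁻¹ • polarBilin Q (T.pv a)).smulRight (T.pv a')))) (fun x => ?_) v
    change T.pv x - (T.c⁻¹ * polarBilin Q (T.pv a) (T.pv x)) • T.pv a' ∈ SieT M (hp a)
    rw [T.form, inv_mul_cancel_left₀ T.c_ne, ← T.pv.map_smul_univ]
    have := T.pv.map_add_univ (fun i => x i - B i (a i) (x i) • a' i)
      fun i => B i (a i) (x i) • a' i
    rw [show ((fun i => x i - B i (a i) (x i) • a' i) + fun i => B i (a i) (x i) • a' i) = x from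
      funext fun i => by simp, ← Finset.add_sum_erase _ _ (Finset.mem_univ ∅),
      Finset.piecewise_empty] at this
    rw [this, add_sub_cancel_left]
    refine Submodule.sum_mem _ fun s hs => ?_
    obtain ⟨i, hi⟩ := Finset.nonempty_iff_ne_empty.2 (Finset.ne_of_mem_erase hs)
    exact h _ i (by simp [Finset.piecewise_eq_of_mem _ _ _ hi, ha'])
  refine MaxO.full_of_EA (hp a) fun v hv => ?_
  simpa [hv] using key v 1

theorem omega_le [Finite F] (hQ : (polarBilin Q).Nondegenerate) (h5 : 5 ≤ Fintype.card ι)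
    (h : ∀ a, (∀ l, a l ≠ 0) → ∀ y i, B i (a i) (y i) = 0 → T.pv y ∈ SieT M (hp a)) :
    omegaGL Q ≤ M := by
  have a0 : ∀ i, (fun _ => 1 : κ i → F) ≠ 0 := fun i e =>
    one_ne_zero (congrFun e (S.ne i).some)
  choose a' ha' using fun i => (S.h i).exists_one_r (a0 i)
  have a1 : ∀ i, a' i ≠ 0 := fun i e => by simpa [e] using ha' i
  refine omegaGL_le_of_comap ?_
  rw [MaxO.omega_eq hQ (by simpa using h5)]
  exact MaxO.EO_le_of_full hQ (S.full_of hp a0 (h _ a0)) (S.full_of hp a1 (h _ a1))
    (T.polar_ne fun i => by rw [ha' i]; exact one_ne_zero)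

theorem end_big [Nontrivial τ] (h4 : ∀ i, 4 ≤ Fintype.card (κ i))
    (p : ∀ i, PT M T (update (fun _ => 1) i 2)) {a : ∀ i, κ i → F} (ha : ∀ l, a l ≠ 0)
    (y : ∀ i, κ i → F) (i : τ) (hy : B i (a i) (y i) = 0) : T.pv y ∈ SieT M (hp a) := by
  obtain ⟨j, hj⟩ := exists_ne i
  have h3 : ∀ l, 3 ≤ Fintype.card (κ l) := fun l => (h4 l).trans' (by norm_num)
  have st1 : ∀ y : ∀ i, κ i → F, B i (a i) (y i) = 0 → B j (a j) (y j) = 0 →
      T.pv y ∈ SieT M (hp a) := fun y y1 y2 => by
    refine T.mem_of_span _ (fun l => if l = i ∨ l = j then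
      {z | B l (a l) z = 0 ∧ z ∉ Submodule.span F {a l}} else {z | B l (a l) z ≠ 0})
      (fun y hy => ?_) y fun l => ?_
    · have yi := hy i
      have yj := hy j
      simp only [true_or, or_true, if_true, Set.mem_setOf_eq] at yi yj
      obtain ⟨x, x1, x2⟩ := (S.h i).exists_dual_perp yi.2
      obtain ⟨v, v1, v2⟩ := (S.h j).exists_dual_perp (notMem_span_symm (ha j) yj.2)
      refine S.pstep hp (x := update a i x) hj.symm (v := v)
        (fun H => S.sie_two hp hj.symm (p j) H (by simpa using (S.h j).zero_symm v1))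
        (S.sie_mem hp hj (S.sie_two hp hj (p i) ha x1)) (by simpa [update_of_ne hj] using yj.1)
        (by simp [update_of_ne hj, v2]) (fun l hl => ?_) (.inl ⟨i, hj.symm, yi.1⟩)
      by_cases f : l = i
      · subst f; simpa using (S.h l).ne_symm (x2 ▸ one_ne_zero)
      · simpa [update_of_ne f, f, hl] using hy l
    · split_ifs with f
      · refine (S.h l).mem_span_perp (S.alt l) (h3 l) ?_
        rcases f with rfl | rfl
        exacts [y1, y2]
      · exact (S.h l).mem_span_nonperp (ha l) _
  refine T.mem_of_span _ (fun l => if l = i then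
    {z | B l (a l) z = 0 ∧ z ∉ Submodule.span F {a l}} else {z | z ≠ 0 ∧ True})
    (fun y hy => ?_) y fun l => ?_
  · have yi := hy i
    simp only [if_true, Set.mem_setOf_eq] at yi
    have y0 : ∀ l, y l ≠ 0 := fun l => by
      by_cases f : l = i
      · subst f; exact fun e => yi.2 (by simp [e])
      · simpa [f] using hy l
    obtain ⟨x, x1, x2⟩ := (S.h i).exists_dual_perp yi.2
    obtain ⟨z, z1, z2, z3⟩ := (S.h j).exists_perp_pair (h4 j) (a j) (y j)
    obtain ⟨v, v1, v2⟩ := (S.h j).exists_dual_perp z1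
    choose w hw using fun l => (S.h l).exists_one_l (y0 l)
    refine S.pstep hp (x := update (update w i x) j z) hj.symm (v := v)
      (fun H => S.sie_two hp hj.symm (p j) H (by simpa using (S.h j).zero_symm v1))
      (st1 _ (by simpa [update_of_ne hj.symm] using x1) (by simpa using z2))
      (by simpa using (S.h j).zero_symm z3) (by simp [v2]) (fun l hl => ?_)
      (.inl ⟨i, hj.symm, yi.1⟩)
    by_cases f : l = i
    · subst f; simpa [update_of_ne hl] using (S.h l).ne_symm (x2 ▸ one_ne_zero)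
    · simp [update_of_ne f, update_of_ne hl, hw]
  · split_ifs with f
    · subst f; exact (S.h l).mem_span_perp (S.alt l) (h3 l) hy
    · exact mem_span_ne_zero (p := fun _ => True) trivial

theorem end_prod {i j : τ} (hj : j ≠ i) (hτ : ∀ l, l ≠ i → l = j) (h5 : 5 ≤ Fintype.card (κ i))
    (p : PT M T (update (fun _ => 1) i 2)) {a : ∀ i, κ i → F} (ha : ∀ l, a l ≠ 0)
    (y : ∀ i, κ i → F) (k : τ) (hy : B k (a k) (y k) = 0) : T.pv y ∈ SieT M (hp a) := by
  have st1 : ∀ y : ∀ i, κ i → F, B i (a i) (y i) = 0 → T.pv y ∈ SieT M (hp a) := fun y y1 => by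
    refine T.mem_of_span _ (fun l => if l = i then {z | B l (a l) z = 0} else
      {z | B l (a l) z ≠ 0}) (fun y hy => ?_) y fun l => ?_
    · have yi := hy i
      simp only [if_true, Set.mem_setOf_eq] at yi
      obtain ⟨v, v1, v2⟩ := (S.h i).exists_perp_notMem (Submodule.span F {a i, y i})
        (Submodule.span F {a i, y i}) (by
          have := MaxO.finrank_span_pair_le (F := F) (a i) (y i)
          omega)
      obtain ⟨x, x1, x2⟩ := (S.h i).exists_dual v1
      have m1 : a i ∈ Submodule.span F {a i, y i} := Submodule.subset_span (by simp)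
      have m2 : y i ∈ Submodule.span F {a i, y i} := Submodule.subset_span (by simp)
      refine S.pstep hp (x := update a i x) hj (v := v)
        (fun H => S.sie_two hp hj p H (by simpa using (S.h i).zero_symm (v2 _ m2)))
        (S.sie_mem hp hj (S.sie_two hp hj p ha ((S.h i).zero_symm (x2 _ m1))))
        (by simpa using x2 _ m2) (by simp [x1]) (fun l hl => ?_) (.inr ⟨yi, v2 _ m1⟩)
      simpa [update_of_ne hl, hl] using hy l
    · split_ifs with f
      · subst f; exact Submodule.subset_span y1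
      · exact (S.h l).mem_span_nonperp (ha l) _
  by_cases e : k = i
  · subst e; exact st1 y hy
  by_cases y0 : ∃ l, y l = 0
  · obtain ⟨l, hl⟩ := y0
    rw [T.pv.map_coord_zero l hl]; exact Submodule.zero_mem _
  push Not at y0
  obtain ⟨z, z1, z2, z3⟩ := (S.h i).exists_perp_pair (by omega) (a i) (y i)
  obtain ⟨v, v1, v2⟩ := (S.h i).exists_dual_perp z1
  choose w hw using fun l => (S.h l).exists_one_l (y0 l)
  exact S.pstep hp (x := update w i z) hj (v := v)
    (fun H => S.sie_two hp hj p H (by simpa using (S.h i).zero_symm v1))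
    (st1 _ (by simpa using z2)) (by simpa using (S.h i).zero_symm z3) (by simp [v2])
    (fun l hl => by simp [update_of_ne hl, hw]) (.inl ⟨k, e, hy⟩)

theorem end_small (h4 : 4 ≤ Fintype.card τ) (hs : ∀ i, Fintype.card (κ i) ≤ 2)
    (p : ∀ i, PT M T (update (fun _ => 1) i 0)) {a : ∀ i, κ i → F} (ha : ∀ l, a l ≠ 0)
    (y : ∀ i, κ i → F) (i : τ) (hy : B i (a i) (y i) = 0) : T.pv y ∈ SieT M (hp a) := by
  choose a' ha' using fun i => (S.h i).exists_one_r (ha i)
  have st1 : ∀ (i j : τ) (y : ∀ i, κ i → F), i ≠ j → y i = a i → y j = a j →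
      T.pv y ∈ SieT M (hp a) := fun i j y hij y1 y2 => by
    refine T.mem_of_span _ (fun l => if l = i ∨ l = j then {a l} else {z | B l (a l) z ≠ 0})
      (fun y hy => ?_) y fun l => ?_
    · have yi := hy i
      have yj := hy j
      simp only [true_or, or_true, if_true, Set.mem_singleton_iff] at yi yj
      refine S.pstep hp (x := update a i (a' i)) hij (v := a' j)
        (fun H => S.sie_zero hp hij (hs j) (p j) H _)
        (S.sie_mem hp hij.symm (S.sie_zero hp hij.symm (hs i) (p i) ha _))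
        (by simp [update_of_ne hij.symm, yj, S.alt]) (by simp [update_of_ne hij.symm, ha'])
        (fun l hl => ?_) (.inl ⟨i, hij, by rw [yi, S.alt]⟩)
      by_cases f : l = i
      · subst f; simpa [yi] using (S.h l).ne_symm (ha' l ▸ one_ne_zero)
      · simpa [update_of_ne f, f, hl] using hy l
    · split_ifs with f
      · refine Submodule.subset_span ?_
        rcases f with rfl | rfl
        exacts [y1, y2]
      · exact (S.h l).mem_span_nonperp (ha l) _
  have hc : 2 < (Finset.univ.erase i).card := by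
    rw [Finset.card_erase_of_mem (Finset.mem_univ _), Finset.card_univ]; omega
  obtain ⟨j, l1, l2, hj, hl1, hl2, n1, n2, n3⟩ := Finset.two_lt_card_iff.1 hc
  replace hj := Finset.ne_of_mem_erase hj
  replace hl1 := Finset.ne_of_mem_erase hl1
  replace hl2 := Finset.ne_of_mem_erase hl2
  refine T.mem_of_span _ (fun l => if l = i then {a l} else {z | B l (a l) z ≠ 0})
    (fun y hy => ?_) y fun l => ?_
  · have yi := hy i
    simp only [if_true, Set.mem_singleton_iff] at yi
    have yl : ∀ l, l ≠ i → B l (a l) (y l) ≠ 0 := fun l f => by simpa [f] using hy l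
    refine S.pstep hp (x := update (update a i (a' i)) j (y j)) hj.symm (v := a j)
      (fun H => S.sie_zero hp hj.symm (hs j) (p j) H _)
      (st1 l1 l2 _ n3 (by rw [update_of_ne n1.symm, update_of_ne hl1])
        (by rw [update_of_ne n2.symm, update_of_ne hl2]))
      (by simp [S.alt]) (by simpa using (S.h j).ne_symm (yl j hj))
      (fun l hl => ?_) (.inl ⟨i, hj.symm, by rw [yi, S.alt]⟩)
    by_cases f : l = i
    · subst f; simpa [yi, update_of_ne hl] using (S.h l).ne_symm (ha' l ▸ one_ne_zero)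
    · simpa [update_of_ne f, update_of_ne hl] using yl l f
  · split_ifs with f
    · subst f
      by_contra H
      have := (S.h l).three_le (S.alt l) (ha l) H hy
      have := hs l
      omega
    · exact (S.h l).mem_span_nonperp (ha l) _

end TS

end Cfsg.Agent.Cl.Max
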