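import Mathlib
import Cfsg.Agent.Cl.TnRk
import Cfsg.Agent.Cl.MaxAschF
import Cfsg.Agent.Cl.MaxOBasic
import Cfsg.Agent.Cl.MaxSpX
import Cfsg.Agent.Cl.SpTnE

/-!
# Tensor decompositions with symplectic factors: overgroups with a large unipotent radical
-/

set_option autoImplicit false
set_option linter.unusedSectionVars false
set_option linter.unusedVariables false

namespace Cfsg.Agent.Cl.Max

open Matrix Cfsg.Geo Module QuadraticMap Function
open scoped Kronecker

section Pre

variable {F : Type*} [Field F] {ι : Type} [Fintype ι] [DecidableEq ι]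

section Inst

variable {τ : Type} [Fintype τ] [DecidableEq τ] {κ : Type} [Fintype κ] [DecidableEq κ]

theorem trV_mem_of_single {e : ι ≃ κ} {P : GL ι F} {S : Submodule F (ι → F)}
    (h : ∀ p, trV e P (Pi.single p 1) ∈ S) : S = ⊤ := eq_top_iff.2 fun v _ => by
  obtain ⟨w, rfl⟩ := (trV e P).surjective v
  rw [pi_eq_sum_univ' w, map_sum]
  exact S.sum_mem fun p _ => by rw [map_smul]; exact S.smul_mem _ (h p)

theorem exists_tf_wreath {B0 : LinearMap.BilinForm F (ι → F)} {B₁ : LinearMap.BilinForm F (κ → F)}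
    {ε : F} (h₁ : BF B₁ ε) {e : ι ≃ (τ → κ)} {P : GL ι F}
    (hT : TStr (RingHom.id F) (fun x y => B0 x y) (pForm (RingHom.id F) τ fun x y => B₁ x y) e P) :
    ∃ T : TF (κ := fun _ : τ => κ) B0 fun _ => B₁, (∀ i, T.ψ i = psiS e P i) ∧
      (∀ x, T.pv x = trV e P fun a => ∏ i, x i (a i)) ∧ ∀ n, T.pm n = tr e P (pureT n) := by
  obtain ⟨c, hc, hf⟩ := hT
  let pv : MultilinearMap F (fun _ : τ => κ → F) (ι → F) :=
    (trV e P).toLinearMap.compMultilinearMap (MultilinearMap.pi fun a : τ → κ =>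
      (MultilinearMap.mkPiAlgebra F τ F).compLinearMap fun i => LinearMap.proj (a i))
  have hpv : ∀ x, pv x = trV e P fun a => ∏ i, x i (a i) := fun x => rfl
  have h1 : ∀ n x, tr e P (pureT n) *ᵥ pv x = pv fun i => n i *ᵥ x i := fun n x => by
    rw [hpv, hpv, tr_mulVec, pureT_mulVec_pure]
  refine ⟨⟨pv, fun n => tr e P (pureT n), psiS e P, c, hc, h1, fun i X x => ?_,
    trV_mem_of_single (e := e) (P := P) fun p => Submodule.subset_span
      ⟨fun i => Pi.single (p i) 1, ?_⟩, fun x y => ?_⟩, fun _ => rfl, hpv, fun _ => rfl⟩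
  · rw [psiS_apply, slot_apply, h1]
    congr 1
    funext j
    by_cases h : j = i
    · subst h; simp
    · simp [update_of_ne h]
  · rw [hpv]
    congr 1
    funext a
    by_cases h : a = p
    · simp [h]
    · obtain ⟨i, hi⟩ := Function.ne_iff.1 h
      rw [Pi.single_eq_of_ne h]
      exact Finset.prod_eq_zero (Finset.mem_univ i) (Pi.single_eq_of_ne hi _)
  · refine (hf _ _).trans (congrArg _ ?_)
    rw [pForm, formOfGram_eq]
    change (fun a : τ → κ => ∏ i, x i (a i)) ⬝ᵥ pureT _ *ᵥ (fun a : τ → κ => ∏ i, y i (a i)) = _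
    rw [pureT_mulVec_pure]
    rw [show (∏ i, B₁ (x i) (y i)) = _ from Finset.prod_congr rfl fun i _ => h₁.eq_gram _ _]
    simp only [dotProduct, ← Finset.prod_mul_distrib]
    rw [Finset.prod_univ_sum, Fintype.piFinset_univ]
    rfl

/-- The forms of the two factors as a family. -/
def bFam {a b : ℕ} (B₁ : LinearMap.BilinForm F (Fin a → F)) (B₂ : LinearMap.BilinForm F (Fin b → F)) :
    ∀ i : Bool, LinearMap.BilinForm F (Fin (bif i then a else b) → F)
  | true => B₁
  | false => B₂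

theorem exists_tf_prod {B0 : LinearMap.BilinForm F (ι → F)} {a b : ℕ}
    {B₁ : LinearMap.BilinForm F (Fin a → F)} {B₂ : LinearMap.BilinForm F (Fin b → F)} {ε₁ ε₂ : F}
    (h₁ : BF B₁ ε₁) (h₂ : BF B₂ ε₂) {e : ι ≃ Fin a × Fin b} {P : GL ι F}
    (hT : TStr (RingHom.id F) (fun x y => B0 x y)
      (tForm (RingHom.id F) (fun x y => B₁ x y) fun x y => B₂ x y) e P) :
    ∃ T : TF (κ := fun i : Bool => Fin (bif i then a else b)) B0 (bFam B₁ B₂),
      T.ψ true = psiL e P ∧ T.ψ false = psiR e P ∧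
      ∀ x, T.pv x = trV e P fun p => x true p.1 * x false p.2 := by
  obtain ⟨c, hc, hf⟩ := hT
  let pr : ∀ (p : Fin a × Fin b) (i : Bool), Fin (bif i then a else b) := fun p i =>
    match i with
    | true => p.1
    | false => p.2
  let pv : MultilinearMap F (fun i : Bool => Fin (bif i then a else b) → F) (ι → F) :=
    (trV e P).toLinearMap.compMultilinearMap (MultilinearMap.pi fun p : Fin a × Fin b =>
      (MultilinearMap.mkPiAlgebra F Bool F).compLinearMap fun i => LinearMap.proj (pr p i))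
  have hpv : ∀ x, pv x = trV e P fun p => x true p.1 * x false p.2 := fun x =>
    congrArg (trV e P) (funext fun p => Fintype.prod_bool fun i => x i (pr p i))
  have h1 : ∀ (X : Matrix (Fin a) (Fin a) F) (Y : Matrix (Fin b) (Fin b) F) x,
      tr e P (X ⊗ₖ Y) *ᵥ pv x = trV e P fun p => (X *ᵥ x true) p.1 * (Y *ᵥ x false) p.2 :=
    fun X Y x => by
      rw [hpv, tr_mulVec]; exact congrArg _ (kron_mulVec_pure X Y (x true) (x false))
  refine ⟨⟨pv, fun n => tr e P (n true ⊗ₖ n false), fun i => match i with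
    | true => psiL e P
    | false => psiR e P, c, hc, fun n x => (h1 _ _ x).trans (hpv fun i => n i *ᵥ x i).symm,
    fun i X x => ?_,
    trV_mem_of_single (e := e) (P := P) fun p => Submodule.subset_span
      ⟨fun i => Pi.single (pr p i) 1, ?_⟩, fun x y => ?_⟩, rfl, rfl, hpv⟩
  · cases i
    · refine (h1 1 X x).trans ?_
      rw [hpv, one_mulVec, update_self, update_of_ne (by decide)]
    · refine (h1 X 1 x).trans ?_
      rw [hpv, one_mulVec, update_self, update_of_ne (by decide)]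
  · rw [hpv]
    congr 1
    funext q
    change (Pi.single p.1 1 : Fin a → F) q.1 * (Pi.single p.2 1 : Fin b → F) q.2 = _
    simp only [Pi.single_apply, Prod.ext_iff, ite_and]
    split_ifs <;> simp
  · rw [hpv, hpv]
    refine (hf _ _).trans (congrArg _ ?_)
    rw [Fintype.prod_bool]
    exact tForm_pure h₁ h₂ _ _ _ _

end Inst

section Mem

variable {τ : Type} [Fintype τ] [DecidableEq τ] {κ : τ → Type} [∀ i, Fintype (κ i)]
  [∀ i, DecidableEq (κ i)] {Q : QuadraticForm F (ι → F)}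
  {B : ∀ i, LinearMap.BilinForm F (κ i → F)} (T : TF (polarBilin Q) B)

theorem TF.mem_isometry (hp : ∀ x, Q (T.pv x) = 0) {g : GL ι F} (hg : g ∈ isoG (polar Q))
    (h : ∀ x, ∃ y, (g : Matrix ι ι F) *ᵥ T.pv x = T.pv y) : g ∈ isometryGroup F ⇑Q :=
  mem_isometry_of_span hg T.span (by
    rintro _ ⟨x, rfl⟩
    obtain ⟨y, hy⟩ := h x
    rw [hy, hp, hp])

theorem TF.mem_omega [Finite F] (hQ : (polarBilin Q).Nondegenerate) (h5 : 5 ≤ Fintype.card ι)
    (h : ∀ i, BF (B i) (-1)) (alt : ∀ i x, B i x x = 0) (hp : ∀ x, Q (T.pv x) = 0) {i : τ}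
    (o : κ i) (hev : Even (slotM (T.ψ i) o)) {g : GL (κ i) F} (hg : g ∈ isoB (B i)) :
    homG (T.ψ i) g ∈ omegaGL Q := by
  have hψ := T.ad_psi (bf_polarQ hQ) h i
  have hγ := isoB_le_RootG (h i) (alt i) hg
  by_cases h2 : (2 : F) = 0
  · exact homG_root_mem_omegaGL_two h2 hQ (not_oExc_of_finrank (by
      rw [finrank_fintype_fun_eq_card]; omega)) (h i) (alt i) hev (fun v c =>
      T.mem_isometry hp (homG_mem_isoG (hform_polarQ hQ) (h i) hψ ((h i).xr_iso _ _ _))
        fun x => ⟨_, T.psi_pv _ _ _⟩) hγ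
  · exact homG_root_mem_omegaGL h2 hQ (h i) hψ hγ

end Mem

theorem HForm.even_fin {k : ℕ} {B : LinearMap.BilinForm F (Fin k → F)} (h : BF B (-1))
    (alt : ∀ x, B x x = 0) : Even k := by
  simpa using sp_even_finrank (B := B) ⟨fun x hx => h.eq_zero_l hx, fun x hx => h.eq_zero_r hx⟩ alt

theorem permP_wreath {τ : Type} [Fintype τ] [DecidableEq τ] {κ : Type} [Fintype κ] [DecidableEq κ]
    {B0 : LinearMap.BilinForm F (ι → F)} {B₁ : LinearMap.BilinForm F (κ → F)}
    {T : TF (κ := fun _ : τ => κ) B0 fun _ => B₁} {e : ι ≃ (τ → κ)} {P : GL ι F}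
    (hT : ∀ n, T.pm n = tr e P (pureT n)) {M : Subgroup (GL ι F)}
    (h : ∀ π, Equiv.Perm.sign π = 1 → permS e P π ∈ M) : PermP M T := by
  rintro π hπ ty ⟨n, hn, p⟩
  refine ⟨fun i => n (π i), fun i => hn (π i), ?_⟩
  have := p.cj (h π⁻¹ (by simpa using hπ))
  rwa [hT, permS_apply, cj_trG, cj_permG_pureT, ← hT] at this

end Pre

variable {F : Type*} [Field F] [Fintype F] {ι : Type} [Fintype ι] [DecidableEq ι]

theorem one_prodSp (Q : QuadraticForm F (ι → F)) (hQ : (polarBilin Q).Nondegenerate) {a b : ℕ}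
    (ha : 6 ≤ a) (hb : 2 ≤ b) (hex : ¬ (Fintype.card F = 2 ∧ b = 2)) (e : ι ≃ Fin a × Fin b)
    (P : GL ι F) {B₁ : LinearMap.BilinForm F (Fin a → F)}
    {B₂ : LinearMap.BilinForm F (Fin b → F)} (h₁ : BF B₁ (-1)) (h₂ : BF B₂ (-1))
    (a₁ : ∀ x, B₁ x x = 0) (a₂ : ∀ x, B₂ x x = 0)
    (hT : TStr (RingHom.id F) (polar Q)
      (tForm (RingHom.id F) (fun x y => B₁ x y) fun x y => B₂ x y) e P)
    (hpure : ∀ (x : Fin a → F) (y : Fin b → F), Q (trV e P fun p => x p.1 * y p.2) = 0)
    {M : Subgroup (GL ι F)} (hM : tensorProductSubgroup a b e P ⊓ omegaGL Q ≤ M)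
    (hMΩ : M ≤ omegaGL Q) (hB : ¬ HB B₁ (psiL e P) M) : omegaGL Q ≤ M := by
  obtain ⟨T, t1, t2, t3⟩ := exists_tf_prod (B0 := polarBilin Q) h₁ h₂ hT
  have hc : Fintype.card ι = a * b := by simpa using Fintype.card_congr e
  have h5 : 5 ≤ Fintype.card ι := by nlinarith
  have hp : ∀ x, Q (T.pv x) = 0 := fun x => by rw [t3]; exact hpure _ _
  have h : ∀ i, BF (bFam B₁ B₂ i) (-1) := fun i => by cases i; exacts [h₂, h₁]
  have alt : ∀ i x, bFam B₁ B₂ i x x = 0 := fun i => by cases i; exacts [a₂, a₁]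
  have c1 : Fintype.card (Fin (bif true then a else b)) = a := Fintype.card_fin _
  have c2 : Fintype.card (Fin (bif false then a else b)) = b := Fintype.card_fin _
  have S : TS T 1 M := by
    refine ⟨bf_polarQ hQ, h, alt, fun i => ?_,
      hMΩ.trans ((omegaGL_le _).trans (isometryGroup_le_isoG _)), fun i g hg => hM ⟨?_, ?_⟩⟩
    · cases i
      exacts [⟨(⟨0, by omega⟩ : Fin b)⟩, ⟨(⟨0, by omega⟩ : Fin a)⟩]
    · cases i
      · rw [t2]; exact homG_psiR_mem e P g
      · rw [t1]; exact homG_psiL_mem e P g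
    · cases i
      · refine T.mem_omega hQ h5 h alt hp (i := false) (⟨0, by omega⟩ : Fin b) ?_ hg
        have h4 := card_mul_slotM (T.ψ false) (⟨0, by omega⟩ : Fin b)
        rw [hc, c2, mul_comm a] at h4
        rw [Nat.eq_of_mul_eq_mul_left (by omega) h4]
        exact h₁.even_fin a₁
      · refine T.mem_omega hQ h5 h alt hp (i := true) (⟨0, by omega⟩ : Fin a) ?_ hg
        have h4 := card_mul_slotM (T.ψ true) (⟨0, by omega⟩ : Fin a)
        rw [hc, c1] at h4
        rw [Nat.eq_of_mul_eq_mul_left (by omega) h4]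
        exact h₂.even_fin a₂
  have hiso := hMΩ.trans (omegaGL_le _)
  obtain ⟨ty, p, y1, j, hj, y2⟩ := S.start_of_not_HB (i := true) (fun j hj => by
    obtain rfl : j = false := by simpa using hj
    by_cases hq : Fintype.card F = 2
    · exact .inr (by rw [c2]; omega)
    · exact .inl (MaxSp.exists_ne_zero_one hq)) (t1 ▸ hB)
  obtain rfl : j = false := by simpa using hj
  have key : PT M T (update (fun _ => 1) true 2) := by
    by_cases f : ty false = 2
    · have o := S.swap_two p (i := true) f (by decide) (by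
        rcases (ty_cases _).resolve_left y1 with e | e
        exacts [.inl e, .inr ⟨e, by rw [c1]; exact ha⟩])
      rw [show (fun l => if ty l = 0 then (0 : Fin 3) else 1) = fun _ => 1 from
        funext fun l => by cases l <;> simp [y1, y2]] at o
      rcases o with o | o | o
      · exact (S.not_all_one hp hiso (by simpa using o)).elim
      · exact o
      · rw [c1] at o; omega
    have f1 := ((ty_cases _).resolve_left y2).resolve_right f
    rcases (ty_cases _).resolve_left y1 with e | e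
    · refine (S.not_all_one hp hiso ?_).elim
      convert p using 1
      funext l; cases l <;> simp [e, f1]
    · convert p using 1
      funext l; cases l <;> simp [e, f1]
  exact S.omega_le hp hQ h5 fun x hx => S.end_prod hp (i := true) (j := false) (by decide)
    (by decide) (by rw [c1]; omega) key hx

theorem one_wreathSpO (Q : QuadraticForm F (ι → F)) (hQ : (polarBilin Q).Nondegenerate) {k t : ℕ}
    (ht : 2 ≤ t) (hqt : Odd (Fintype.card F) → Even t)
    (hk : (k = 2 ∧ 5 ≤ Fintype.card F ∧ Odd (Fintype.card F) ∧ 4 ≤ t) ∨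
      (4 ≤ k ∧ Odd (Fintype.card F)) ∨ 6 ≤ k) (e : ι ≃ (Fin t → Fin k))
    (P : GL ι F) {B₁ : LinearMap.BilinForm F (Fin k → F)} (h₁ : BF B₁ (-1))
    (a₁ : ∀ x, B₁ x x = 0)
    (hT : TStr (RingHom.id F) (polar Q) (pForm (RingHom.id F) (Fin t) fun x y => B₁ x y) e P)
    (hpure : ∀ xs : Fin t → Fin k → F, Q (trV e P fun a => ∏ i, xs i (a i)) = 0)
    {M : Subgroup (GL ι F)} (hM : tensorWreathSubgroup k t e P ⊓ omegaGL Q ≤ M)
    (hMΩ : M ≤ omegaGL Q) (i : Fin t) (hB : ¬ HB B₁ (psiS e P i) M) : omegaGL Q ≤ M := by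
  obtain ⟨T, t1, t2, t3⟩ := exists_tf_wreath (B0 := polarBilin Q) h₁ hT
  have hc : Fintype.card ι = k ^ t := by simpa using Fintype.card_congr e
  have h5 : 5 ≤ Fintype.card ι := by
    rw [hc]
    rcases hk with ⟨rfl, -, -, h⟩ | h | h
    · exact le_trans (by norm_num) (Nat.pow_le_pow_right (by norm_num) h)
    all_goals exact le_trans (by nlinarith) (Nat.pow_le_pow_right (by omega) ht)
  have hp : ∀ x, Q (T.pv x) = 0 := fun x => by rw [t2]; exact hpure _
  have S : TS T 1 M := by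
    refine ⟨bf_polarQ hQ, fun _ => h₁, fun _ => a₁, fun _ => ⟨⟨0, by omega⟩⟩,
      hMΩ.trans ((omegaGL_le _).trans (isometryGroup_le_isoG _)), fun i g hg =>
      hM ⟨by rw [t1]; exact homG_psiS_mem_wreath e P i g,
        T.mem_omega hQ h5 (fun _ => h₁) (fun _ => a₁) hp ⟨0, by omega⟩ ?_ hg⟩⟩
    have h4 := card_mul_slotM (T.ψ i) ⟨0, by omega⟩
    obtain ⟨s, rfl⟩ : ∃ s, t = s + 2 := ⟨t - 2, by omega⟩
    rw [hc, Fintype.card_fin, pow_succ'] at h4
    rw [Nat.eq_of_mul_eq_mul_left (by omega) h4, pow_succ']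
    exact Even.mul_right (h₁.even_fin a₁) _
  have hiso := hMΩ.trans (omegaGL_le _)
  have hP : PermP M T := permP_wreath t3 fun π hπ => hM ⟨permS_mem_wreath e P π,
    permS_mem_omegaGL (fun π => T.mem_isometry hp (hT.permS_mem_isoG π) fun x =>
      ⟨fun i => x (π.symm i), by
        rw [t2, t2, permS_apply, trG_mulVec]
        refine congrArg _ ((permT_mulVec π _).trans (funext fun a => ?_))
        exact Fintype.prod_equiv π _ _ (by simp)⟩) hπ⟩
  obtain ⟨ty, p, y1, j, hj, y2⟩ := S.start_of_not_HB (i := i) (fun j hj => by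
    by_cases hq : Fintype.card F = 2
    · exact .inr (by rw [Fintype.card_fin]; omega)
    · exact .inl (MaxSp.exists_ne_zero_one hq)) (t1 i ▸ hB)
  by_cases h4 : 4 ≤ k
  · have h3 : ∀ _ : Fin t, 3 ≤ Fintype.card (Fin k) := fun _ => by rw [Fintype.card_fin]; omega
    obtain ⟨l, o⟩ := (S.reach_big hP h3 (by
      by_cases ho : Odd (Fintype.card F)
      · exact .inl (o_two_ne_zero_of_odd_card ho)
      · exact .inr fun _ => by rw [Fintype.card_fin]; tauto) p hj y2 y1).resolve_left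
      (S.not_all_one hp hiso)
    have : Nontrivial (Fin t) := Fin.nontrivial_iff_two_le.2 ht
    exact S.omega_le hp hQ h5 fun x hx => S.end_big hp (fun _ => by simpa using h4)
      (fun j => (S.move_two h3 o j).resolve_left (S.not_all_one hp hiso)) hx
  · obtain ⟨rfl, -, ho, h4⟩ := hk.resolve_right (by omega)
    obtain ⟨l, o⟩ := (S.reach_small hP (fun _ => by simp) (o_two_ne_zero_of_odd_card ho) p hj y2
      y1).resolve_left (S.not_all_one hp hiso)
    exact S.omega_le hp hQ h5 fun x hx => S.end_small hp (by simpa using h4) (fun _ => by simp)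
      (fun j => TS.move_zero hP (by simp; omega) o j) hx

theorem one_wreathSpSp (hodd : Odd (Fintype.card F)) {m k t : ℕ} (ht : 3 ≤ t) (hto : Odd t)
    (hk : (k = 2 ∧ 5 ≤ Fintype.card F) ∨ 4 ≤ k) (e : (Fin m ⊕ Fin m) ≃ (Fin t → Fin k))
    (P : GL (Fin m ⊕ Fin m) F) {B₁ : LinearMap.BilinForm F (Fin k → F)} (h₁ : BF B₁ (-1))
    (a₁ : ∀ x, B₁ x x = 0)
    (hT : TStr (RingHom.id F) (sympForm m F) (pForm (RingHom.id F) (Fin t) fun x y => B₁ x y) e P)
    {M : Subgroup (GL (Fin m ⊕ Fin m) F)} (hM : tensorWreathSubgroup k t e P ⊓ spGL m F ≤ M)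
    (hMS : M ≤ spGL m F) (i : Fin t) (hB : ¬ HB B₁ (psiS e P i) M) : spGL m F ≤ M := by
  have h0 : BF (spB m F) (-1) := by rw [BF, spB_coe]; exact hform_sympForm m
  have hs : spGL m F = isoB (spB m F) := by rw [isoB, spB_coe]; rfl
  have hT' := hT
  rw [← spB_coe] at hT'
  obtain ⟨T, t1, t2, t3⟩ := exists_tf_wreath (B0 := spB m F) h₁ hT'
  have h2 := o_two_ne_zero_of_odd_card hodd
  have hq : Fintype.card F ≠ 2 := fun e => by rw [e] at hodd; exact absurd hodd (by decide)
  have S : TS T (-1) M := ⟨h0, fun _ => h₁, fun _ => a₁, fun _ => ⟨⟨0, by omega⟩⟩, hs ▸ hMS,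
    fun i g hg => hM ⟨by rw [t1]; exact homG_psiS_mem_wreath e P i g,
      hs ▸ homG_mem_isoG h0 h₁ (T.ad_psi h0 (fun _ => h₁) i) hg⟩⟩
  have hP : PermP M T := permP_wreath t3 fun π _ =>
    hM ⟨permS_mem_wreath e P π, hT.permS_mem_isoG π⟩
  obtain ⟨ty, p, y1, j, hj, y2⟩ := S.start_of_not_HB (i := i)
    (fun j hj => .inl (MaxSp.exists_ne_zero_one hq)) (t1 i ▸ hB)
  rw [hs]
  refine S.iso_le spB_isAlt (MaxSp.exists_ne_zero_one hq) ?_
  rcases hk with ⟨rfl, -⟩ | h4
  · exact (S.reach_small hP (fun _ => by simp) h2 p hj y2 y1).resolve_right fun ⟨l, o⟩ =>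
      S.not_update h2 (by simpa using hto) (by simp; omega) (by decide) o
  · exact (S.reach_big hP (fun _ => by simp; omega) (.inl h2) p hj y2 y1).resolve_right
      fun ⟨l, o⟩ => S.not_update h2 (by simpa using hto) (by simp; omega) (by decide) o

end Cfsg.Agent.Cl.Max
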