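import Mathlib
import Cfsg.Agent.Cl.TnH2b
import Cfsg.Agent.Cl.TnGen
import Cfsg.Agent.Cl.TnMem
import Cfsg.Agent.Cl.MxQS

/-!
# Transitivity on singular points, and the endgame for tensor decompositions
-/

set_option autoImplicit false
set_option linter.unusedSectionVars false
set_option linter.unusedVariables false

namespace Cfsg.Agent.Cl.Max

open Matrix Cfsg.Geo Module

variable {F : Type*} [Field F] {κ : Type} [Fintype κ] [DecidableEq κ]
  {ι : Type} [Fintype ι] [DecidableEq ι]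
  {B : LinearMap.BilinForm F (κ → F)} {ε : F} {BV : LinearMap.BilinForm F (ι → F)} {εV : F}
  {ψ : Matrix κ κ F →ₐ[F] Matrix ι ι F} {M : Subgroup (GL ι F)} {u u' : κ → F}

variable (B) in
/-- Every hyperbolic pair has a common singular neighbour. -/
def Rich : Prop := ∀ u u', Hyp B u u' → ∃ z, B z z = 0 ∧ B z u ≠ 0 ∧ B z u' ≠ 0

variable (B ε) in
/-- The two local hypotheses for every hyperbolic pair. -/
def Loc : Prop := ∀ u u', Hyp B u u' → LPhi B ε u u' ∧ LZeta B ε u u'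

namespace HForm

variable (h : BF B ε)
include h

theorem exists_move {u v w : κ → F} (hu : B u u = 0) (hv : B v v = 0) (hw : B w w = 0)
    (h1 : B u v = 1) (h2 : B u w = 1) : ∃ γ ∈ RootG B ε, (γ : Matrix κ κ F) *ᵥ v = w := by
  have r : RC B ε u (w - v) (ε * B (w - v) v) := ⟨hu, by simp [h1, h2], by
    simp only [map_sub, LinearMap.sub_apply, hv, hw]
    rw [h.symm' v w]
    ring⟩
  refine ⟨_, xr_mem u (w - v) (ε * B (w - v) v), ?_⟩
  rw [h.xr_mulVec r, h1]
  simp

theorem conn (hq : ∀ y, ∃ c, ε * B y y + (1 + ε) * c = 0) {p : (κ → F) → Prop}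
    (hp : ∀ a c, B a a = 0 → p a → B c c = 0 → B a c ≠ 0 → p c) {v w : κ → F} (hv : B v v = 0)
    (hv0 : v ≠ 0) (pv : p v) (hw : B w w = 0) (hw0 : w ≠ 0) : p w := by
  obtain ⟨v', q⟩ := h.exists_hyp hq hv hv0
  obtain ⟨w', q'⟩ := h.exists_hyp hq hw hw0
  have pv' : p v' := hp v v' hv pv q.r (by rw [q.lr]; exact one_ne_zero)
  have e : B w' w ≠ 0 := h.ne_symm (by rw [q'.lr]; exact one_ne_zero)
  by_cases h1 : B v' w = 0
  · by_cases h2 : B v w' = 0
    · by_cases h3 : B v' w' = 0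
      · have hz : B (v' + w') (v' + w') = 0 := by simp [q.r, q'.r, h3, h.zero_symm h3]
        exact hp _ w hz (hp v _ hv pv hz (by simp [q.lr, h2])) hw (by simpa [h1] using e)
      · exact hp w' w q'.r (hp v' w' q.r pv' q'.r h3) hw e
    · exact hp w' w q'.r (hp v w' hv pv q'.r h2) hw e
  · exact hp v' w q.r pv' hw h1

theorem exists_sim (hq : ∀ y, ∃ c, ε * B y y + (1 + ε) * c = 0) (hr : Rich B) {v w : κ → F}
    (hv : B v v = 0) (hv0 : v ≠ 0) (hw : B w w = 0) (hw0 : w ≠ 0) :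
    ∃ γ ∈ RootG B ε, ∃ c : F, c ≠ 0 ∧ (γ : Matrix κ κ F) *ᵥ v = c • w := by
  refine h.conn hq (p := fun w => ∃ γ ∈ RootG B ε, ∃ c : F, c ≠ 0 ∧
    (γ : Matrix κ κ F) *ᵥ v = c • w) ?_ hv hv0 ⟨1, one_mem _, 1, one_ne_zero, by simp⟩ hw hw0
  rintro a c ha ⟨γ, hγ, d, hd, e⟩ hc hac
  obtain ⟨z, hz, h1, h2⟩ := hr a ((B a c)⁻¹ • c) ⟨ha, by simp [hc], by simp [hac]⟩
  have h3 : B z c ≠ 0 := fun e => h2 (by simp [e])
  obtain ⟨δ, hδ, e'⟩ := h.exists_move (u := z) (v := (B z a)⁻¹ • a) (w := (B z c)⁻¹ • c) hz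
    (by simp [ha]) (by simp [hc]) (by simp [h1]) (by simp [h3])
  refine ⟨δ * γ, mul_mem hδ hγ, d * B z a * (B z c)⁻¹, by simp [hd, h1, h3], ?_⟩
  rw [mulVec_smul, inv_smul_eq_iff₀ h1] at e'
  rw [mul_mulVec, e, mulVec_smul, e', smul_smul, smul_smul, mul_assoc]

theorem sing_induction (hq : ∀ y, ∃ c, ε * B y y + (1 + ε) * c = 0) (p : Hyp B u u')
    {S : Submodule F (κ → F)} (hS : ∀ w, B w w = 0 → w ∈ S) (x : κ → F) : x ∈ S := by
  obtain ⟨h1, h2⟩ := h.hyp_decomp p x
  set y := x - (ε * B u' x) • u - B u x • u' with hy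
  obtain ⟨c, hc⟩ := hq y
  have r : RC B ε u y c := ⟨p.l, h1, hc⟩
  have h3 := hS ((xr B ε u y c : Matrix κ κ F) *ᵥ u') 
    ((mem_isoG.1 (h.xr_iso u y c) u' u').trans p.r)
  rw [h.xr_mulVec r, p.lr, one_smul] at h3
  have h4 : y ∈ S := by
    have := S.sub_mem (S.sub_mem h3 (S.smul_mem (c * 1 - ε * B y u') (hS u p.l))) (hS u' p.r)
    simpa using this
  have : x = y + (ε * B u' x) • u + B u x • u' := by rw [hy]; abel
  rw [this]
  exact S.add_mem (S.add_mem h4 (S.smul_mem _ (hS u p.l))) (S.smul_mem _ (hS u' p.r))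

theorem mem_of_rk_sing (hq : ∀ y, ∃ c, ε * B y y + (1 + ε) * c = 0) (p : Hyp B u u')
    {T : Submodule F (Matrix κ κ F)} (hT : ∀ a b, B a a = 0 → B b b = 0 → rk B a b ∈ T)
    (X : Matrix κ κ F) : X ∈ T := by
  refine h.rk_induction (p := fun X => X ∈ T) T.zero_mem (fun _ _ => T.add_mem) (fun a b => ?_) X
  refine h.sing_induction hq p (S := T.comap (rk B a)) (fun w hw => ?_) b
  exact h.sing_induction hq p (S := T.comap ((rk B).flip w)) (fun v hv => hT v w hv hw) a

theorem mem_subalg (hq : ∀ y, ∃ c, ε * B y y + (1 + ε) * c = 0) (p : Hyp B u u')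
    {T : Subalgebra F (Matrix κ κ F)} (hT : ∀ w, B w w = 0 → rk B w w ∈ T) (X : Matrix κ κ F) :
    X ∈ T := by
  refine h.mem_of_rk_sing hq p (T := Subalgebra.toSubmodule T) (fun a b ha hb => ?_) X
  by_cases ha0 : a = 0
  · simp [ha0]
  by_cases hb0 : b = 0
  · simp [hb0]
  refine h.conn hq (p := fun b => rk B a b ∈ T) (fun b c _ hb hc hbc => ?_) ha ha0 (hT a ha) hb hb0
  have := T.smul_mem (T.mul_mem hb (hT c hc)) (B b c)⁻¹
  rwa [rk_mul_rk, smul_smul, inv_mul_cancel₀ hbc, one_smul] at this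

theorem inC_of_s (hq : ∀ y, ∃ c, ε * B y y + (1 + ε) * c = 0) (p : Hyp B u u')
    {β : Type} [Fintype β] [DecidableEq β] {φ : Matrix β β F →ₐ[F] Matrix ι ι F}
    (H : ∀ w, B w w = 0 → InC φ (ψ (rk B w w))) (X : Matrix κ κ F) : InC φ (ψ X) := fun Y =>
  ((Subalgebra.mem_centralizer_iff F).1 (h.mem_subalg hq p
    (T := (Subalgebra.centralizer F {φ Y}).comap ψ) (fun w hw => by
      rw [Subalgebra.mem_comap, Subalgebra.mem_centralizer_iff]
      rintro _ rfl
      exact (H w hw Y).symm) X) _ rfl).symm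

theorem ad_cj {g : GL κ F} (hg : g ∈ isoB B) (X : Matrix κ κ F) :
    ad B (cj g X) = cj g (ad B X) := by
  rw [cj_apply, h.ad_mul, h.ad_mul, h.ad_iso hg, h.ad_iso (inv_mem hg), inv_inv, cj_apply,
    mul_assoc]

end HForm

theorem good_of_inv {g : GL ι F} (h : Good ψ g⁻¹) : Good ψ g := by simpa using h.inv

theorem cj_eq_of_comm {g : GL ι F} {X : Matrix ι ι F} (h : (g : Matrix ι ι F) * X = X * g) :
    cj g X = X := (cj_eq_iff g X X).2 h

namespace Amb

variable [Nonempty ι] (a : Amb B ε BV εV ψ M)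
include a

/-- An element moving the square of a singular vector into the slot normalises the slot. -/
theorem mem_NE_of_inE (hb : HB B ψ M) (hr : Rich B) (hL : Loc B ε) {g : GL ι F} (hg : g ∈ M)
    (hu : B u u = 0) (hu0 : u ≠ 0) (hE : InE ψ (cj g (ψ (rk B u u)))) : g ∈ NE ψ := by
  obtain ⟨X, hX⟩ := hE
  obtain ⟨o⟩ : Nonempty κ := by
    by_contra hn
    rw [not_nonempty_iff] at hn
    exact hu0 (Subsingleton.elim _ _)
  have hi := algHom_matrix_injective ψ
  have h1 : X.rank ≤ 1 := rank_le_of_map (ψ := ψ) o (by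
    rw [hX, rank_cj, one_mul]; exact rank_rk_le o u u)
  have h0 : X ≠ 0 := by
    rintro rfl
    rw [map_zero, eq_comm, map_eq_zero_iff _ (cj g).injective] at hX
    exact a.s_ne_zero hu0 hX
  have h2 : ad B X = ε • X := hi (by
    rw [← a.adj, hX, a.hV.ad_cj (a.iso hg), a.adj, a.h.ad_rk, map_smul, map_smul, map_smul, hX])
  have h3 : X * X = 0 := hi (by
    rw [map_mul, hX, ← map_mul, ← map_mul, rk_mul_rk, hu, zero_smul]; simp)
  obtain ⟨w, d, hw, hd, rfl⟩ := a.h.eq_smul_rk h1 h0 h2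
  have hw' : B w w = 0 := by
    rw [smul_mul_smul_comm, rk_mul_rk, smul_smul, smul_eq_zero] at h3
    simpa [hd] using h3.resolve_right (a.h.rk_ne_zero hw hw)
  obtain ⟨γ, hγ, c, hc, e⟩ := a.h.exists_sim a.hq hr hw' hw hu hu0
  obtain ⟨u', p⟩ := a.h.exists_hyp a.hq hu hu0
  have h4 : homG ψ γ * g ∈ NE ψ :=
    a.h2 hb p (hL u u' p).1 (hL u u' p).2 (mul_mem (a.root γ hγ) hg) (c := d * c * c) (by
      rw [cj_mul, ← hX, cj_homG, map_smul, a.h.cj_rk (a.h.RootG_le hγ), e]
      simp [smul_smul, mul_assoc])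
  simpa using mul_mem (inv_mem (homG_mem_NE γ)) h4

/-- A conjugate slot containing or centralising the square of a singular vector is good, provided
that normalising root elements always give this dichotomy. -/
theorem good_of_or (hb : HB B ψ M) (hr : Rich B) (hL : Loc B ε)
    (hd : ∀ g ∈ M, ∀ w, B w w = 0 → w ≠ 0 → (∀ y c, homG (cjH g ψ) (xr B ε w y c) ∈ NE ψ) →
      InE ψ (cjH g ψ (rk B w w)) ∨ InC ψ (cjH g ψ (rk B w w)))
    {g : GL ι F} (hg : g ∈ M) (hu : B u u = 0) (hu0 : u ≠ 0)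
    (H : InE (cjH g ψ) (ψ (rk B u u)) ∨ InC (cjH g ψ) (ψ (rk B u u))) : Good ψ g := by
  obtain ⟨u', p⟩ := a.h.exists_hyp a.hq hu hu0
  rcases H with H | H
  · refine good_of_inv (Or.inl (a.mem_NE_of_inE hb hr hL (inv_mem hg) hu hu0 ?_))
    rwa [← inE_cjH (g := g), cj_cj_inv]
  have key : ∀ w y c, homG (cjH g ψ) (xr B ε w y c) ∈ NE ψ := fun w y c =>
    a.h2 hb p (hL u u' p).1 (hL u u' p).2 ((a.conj hg).xr_mem w y c) (c := 1) (by
      rw [one_smul]; exact cj_eq_of_comm (H _).symm)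
  by_cases hE : ∃ w, B w w = 0 ∧ w ≠ 0 ∧ InE ψ (cjH g ψ (rk B w w))
  · obtain ⟨w, hw, hw0, hE⟩ := hE
    exact Or.inl (a.mem_NE_of_inE hb hr hL hg hw hw0 hE)
  refine Or.inr (a.h.inC_of_s (ψ := cjH g ψ) a.hq p fun w hw => ?_)
  by_cases hw0 : w = 0
  · intro Y; simp [hw0]
  exact (hd g hg w hw hw0 (key w)).resolve_left fun h => hE ⟨w, hw, hw0, h⟩

end Amb

/-! ### The endgame -/

section End

variable {τ : Type} [Fintype τ] [DecidableEq τ] {β : Type} [Fintype β] [DecidableEq β]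

theorem inE_psiS_of_comm [Nonempty ι] {e : ι ≃ (τ → κ)} {P : GL ι F} {j : τ} {X : Matrix ι ι F}
    (h : ∀ s, s ≠ j → InC (psiS e P s) X) : InE (psiS e P j) X := by
  have : Nonempty κ := ⟨e (Classical.arbitrary ι) j⟩
  obtain ⟨o⟩ := this
  have key : ∀ Y, ∀ a b, X * coef (psiS e P j) a b (tr e P Y) =
      coef (psiS e P j) a b (tr e P Y) * X := by
    refine slot_induction (by simp) (fun a b => ?_) (fun x y hx hy a b => ?_)
      (fun c x hx a b => ?_) fun s Z Y hY a b => ?_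
    · rw [map_one, coef_one]; split_ifs <;> simp
    · rw [map_add, map_add, mul_add, add_mul, hx, hy]
    · rw [map_smul, map_smul, mul_smul_comm, smul_mul_assoc, hx]
    · rw [map_mul, ← psiS_apply]
      by_cases hs : s = j
      · subst hs
        rw [coef_map_mul, Finset.mul_sum, Finset.sum_mul]
        exact Finset.sum_congr rfl fun d _ => by rw [mul_smul_comm, smul_mul_assoc, hY]
      · rw [coef_mul_inC (fun W => psiS_commute e P hs Z W), ← mul_assoc, h s hs, mul_assoc, hY,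
          mul_assoc]
  refine inE_of_comm (F := F) (fun x hx => (eq_smul_one_of_commute hx).imp fun _ h => h) fun c hc => ?_
  have := key ((tr e P).symm c) o o
  rwa [AlgEquiv.apply_symm_apply, ← mul_one c, coef_mul_inC hc, coef_one, if_pos rfl,
    mul_one] at this

theorem not_comm_slot [Nonempty ι] (hk : 2 ≤ Fintype.card κ) (g : GL ι F) :
    ¬ ∀ X Y : Matrix κ κ F, cj g (ψ X) * cj g (ψ Y) = cj g (ψ Y) * cj g (ψ X) := fun h => by
  obtain ⟨a, b, hab⟩ := Fintype.one_lt_card_iff.1 (by omega : 1 < Fintype.card κ)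
  have := h (single a b 1) (single b b 1)
  rw [← map_mul, ← map_mul, ← map_mul, ← map_mul, (cj g).injective.eq_iff,
    (algHom_matrix_injective ψ).eq_iff, single_mul_single_same,
    single_mul_single_of_ne _ _ _ _ hab.symm] at this
  simpa using congrFun (congrFun this a) b

theorem le_wreath_of_good [Nonempty ι] {k t : ℕ} (hk : 2 ≤ k) (ht : 2 ≤ t)
    {e : ι ≃ (Fin t → Fin k)} {P : GL ι F} (hπ : t = 2 ∨ ∀ π : Equiv.Perm (Fin t),
      Equiv.Perm.sign π = 1 → permS e P π ∈ M) (h : ∀ i, ∀ g ∈ M, Good (psiS e P i) g) :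
    M ≤ tensorWreathSubgroup k t e P := fun g hg => by
  have hk' : 2 ≤ Fintype.card (Fin k) := by simpa using hk
  have key : ∀ i, ∃ j, ∀ X, InE (psiS e P j) (cj g (psiS e P i X)) := by
    intro i
    by_contra hn
    push Not at hn
    have h1 : ∀ X, InC (psiS e P i) (cj g (psiS e P i X)) :=
      (h i g hg).resolve_left fun h1 => by
        obtain ⟨X, hX⟩ := hn i
        exact hX (NE_maps h1 X)
    obtain ⟨j, hj⟩ : ∃ j : Fin t, j ≠ i := by
      have : Nontrivial (Fin t) := Fin.nontrivial_iff_two_le.2 ht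
      exact exists_ne i
    obtain ⟨X, hX⟩ := hn j
    refine hX (inE_psiS_of_comm fun s hs => ?_)
    by_cases hsi : s = i
    · rw [hsi]; exact h1 X
    rcases hπ with rfl | hπ
    · exact absurd (by omega) hsi
    have e1 : (Equiv.swap s j * Equiv.swap i j) i = s := by simp [Equiv.swap_apply_left]
    have hm := hπ (Equiv.swap s j * Equiv.swap i j) (by
      rw [map_mul, Equiv.Perm.sign_swap hs, Equiv.Perm.sign_swap hj.symm]; simp)
    have e2 : cjH (permS e P (Equiv.swap s j * Equiv.swap i j)) (psiS e P i) = psiS e P s := by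
      ext1 Y
      rw [cjH_apply, cj_permS_psiS, e1]
    rcases h i _ (mul_mem (inv_mem hm) hg) with h2 | h2
    · obtain ⟨Y, hY⟩ := hn s
      have := NE_maps h2 Y
      rw [← inE_cjH (g := permS e P (Equiv.swap s j * Equiv.swap i j)), e2, cj_mul, cj_cj_inv] at this
      exact absurd this hY
    · have := h2 X
      rwa [← inC_cjH (g := permS e P (Equiv.swap s j * Equiv.swap i j)), e2, cj_mul,
        cj_cj_inv] at this
  choose σ hσ using key
  have hinj : Function.Injective σ := fun i i' hii => by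
    by_contra hne
    refine not_comm_slot (ψ := psiS e P i) hk' g fun X Y => ?_
    have hs : ∀ Z, ∃ W, cj g (psiS e P i' W) = psiS e P (σ i') Z := by
      obtain ⟨c, hc⟩ := exists_cj_of_maps (psiS e P i') (psiS e P (σ i')) g (hσ i')
      exact fun Z => ⟨cj c⁻¹ Z, by rw [hc, cj_cj_inv]⟩
    obtain ⟨Z, hZ⟩ := hσ i Y
    obtain ⟨W, hW⟩ := hs Z
    rw [← hZ, hii, ← hW, ← map_mul, ← map_mul, psiS_commute e P hne]
  exact mem_tensorWreathSubgroup_of_slots (by omega) e P g
    (Equiv.ofBijective σ (Finite.injective_iff_bijective.1 hinj)) hσ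

theorem le_prod_of_good [Nonempty ι] {a b : ℕ} (hab : b < a) {e : ι ≃ Fin a × Fin b} {P : GL ι F}
    (h : ∀ g ∈ M, Good (psiL e P) g) : M ≤ tensorProductSubgroup a b e P := by
  refine fun g hg => le_tensorProductSubgroup e P g fun X => ?_
  have : Nonempty (Fin a) := ⟨⟨0, by omega⟩⟩
  refine NE_maps ((h g hg).resolve_right fun H => ?_) X
  have hE : ∀ X, ∃ Y, psiR e P Y = cj g (psiL e P X) := fun X => by
    obtain ⟨Y, hY⟩ := exists_kronR_of_commute (M := (tr e P).symm (cj g (psiL e P X))) fun Z => by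
      apply (tr e P).injective
      rw [map_mul, map_mul, AlgEquiv.apply_symm_apply]
      exact H X Z
    exact ⟨Y, by rw [psiR_apply, ← hY, AlgEquiv.apply_symm_apply]⟩
  have h1 : (cjH g (psiL e P)).range ≤ (psiR e P).range := by
    rintro _ ⟨X, rfl⟩
    exact hE X
  have h2 := Submodule.finrank_mono (R := F) (show Subalgebra.toSubmodule (cjH g (psiL e P)).range ≤
    Subalgebra.toSubmodule (psiR e P).range from h1)
  have h3 : ∀ {m : ℕ} (φ : Matrix (Fin m) (Fin m) F →ₐ[F] Matrix ι ι F),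
      finrank F (Subalgebra.toSubmodule φ.range) = m * m := fun φ => by
    have := LinearMap.finrank_range_of_inj (f := φ.toLinearMap) (algHom_matrix_injective φ)
    simp only [Module.finrank_matrix, Fintype.card_fin, Module.finrank_self, mul_one] at this
    exact this
  rw [h3, h3] at h2
  nlinarith

end End

end Cfsg.Agent.Cl.Max
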