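import Mathlib
import Cfsg.Agent.Cl.TnTr

/-!
# Symplectic slots: overgroups with a small unipotent radical permute the slots
-/

set_option autoImplicit false
set_option linter.unusedSectionVars false
set_option linter.unusedVariables false

namespace Cfsg.Agent.Cl.Max

open Matrix Cfsg.Geo Module

variable {F : Type*} [Field F] {κ : Type} [Fintype κ] [DecidableEq κ]
  {ι : Type} [Fintype ι] [DecidableEq ι]
  {B : LinearMap.BilinForm F (κ → F)} {BV : LinearMap.BilinForm F (ι → F)} {εV : F}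
  {ψ : Matrix κ κ F →ₐ[F] Matrix ι ι F} {M : Subgroup (GL ι F)} {u u' : κ → F}

/-- Conjugation by `1 + n` for `n` of square zero. -/
def Dn {A : Type*} [Ring A] (n η : A) : A := η + (n * η - η * n) - n * η * n

theorem cj_eq_Dn {g : GL ι F} {n : Matrix ι ι F} (hg : (g : Matrix ι ι F) = 1 + n)
    (hn : n * n = 0) (η : Matrix ι ι F) : cj g η = Dn n η := by
  rw [cj_apply, coe_inv_of hg hn, hg, Dn]
  noncomm_ring

theorem comm_of_cj {g : GL ι F} {n η : Matrix ι ι F} (hg : (g : Matrix ι ι F) = 1 + n)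
    (h : cj g η = η) : n * η = η * n := by
  rw [cj_eq_iff, hg, add_mul, mul_add, one_mul, mul_one, add_right_inj] at h
  exact h

section Sums

variable [Fintype F] {A : Type*} [Ring A] [Algebra F A] {s s' s'' η : A}

theorem sum_Dn_one (h : 3 < Fintype.card F ∨ (2 < Fintype.card F ∨ s * η = η * s) ∧ s * η * s = 0) :
    ∑ t : F, Dn (t • s) η = 0 := by
  have e : ∀ t : F, Dn (t • s) η = η + t • (s * η - η * s) - t ^ 2 • (s * η * s) := fun t => by
    simp only [Dn, smul_mul_assoc, mul_smul_comm, smul_sub, smul_smul, sq]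
  simp only [e, Finset.sum_sub_distrib, Finset.sum_add_distrib, sum_const_field (F := F)]
  rcases h with h | ⟨h | h, h'⟩
  · rw [sum_self_smul (F := F) (by omega), sum_pow_smul (F := F) (by omega)]; simp
  · rw [sum_self_smul h, h']; simp
  · rw [h, ← h, h']; simp

theorem sum_Dn_two (h : 2 < Fintype.card F ∨ s * η * s' + s' * η * s = 0) :
    ∑ p : F × F, Dn (p.1 • s + p.2 • s') η = 0 := by
  have e : ∀ p : F × F, Dn (p.1 • s + p.2 • s') η = (Dn (p.1 • s) η + (Dn (p.2 • s') η - η)) -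
      p.1 • p.2 • (s * η * s' + s' * η * s) := fun p => by
    simp only [Dn, smul_mul_assoc, mul_smul_comm, add_mul, mul_add]
    module
  simp only [e, Finset.sum_sub_distrib]
  rw [sum_two_var (fun t => Dn (t • s) η) fun t => Dn (t • s') η - η, zero_sub, neg_eq_zero]
  rcases h with h | h
  · rw [Fintype.sum_prod_type_right]
    exact Finset.sum_eq_zero fun t _ => sum_self_smul h (t • (s * η * s' + s' * η * s))
  · simp [h]

theorem sum_Dn_three : ∑ p : F × F × F, Dn (p.1 • s + p.2.1 • s' + p.2.2 • s'') η = 0 := by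
  rw [← sum_three_var (F := F) (fun b c => Dn (b • s' + c • s'') η)
    (fun a c => Dn (a • s + c • s'') η - Dn (c • s'') η - Dn (a • s) η)
    fun a b => Dn (a • s + b • s') η - Dn (b • s') η + η]
  refine Finset.sum_congr rfl fun p _ => ?_
  simp only [Dn, smul_mul_assoc, mul_smul_comm, add_mul, mul_add]
  module

end Sums

theorem or_of_sq_zero [Nonempty ι] (h2 : (2 : F) ≠ 0) {x : GL ι F} {n : Matrix ι ι F}
    (hx : (x : Matrix ι ι F) = 1 + n) (hn : n * n = 0) (h : x ∈ NE ψ) : InE ψ n ∨ InC ψ n := by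
  refine InEC.or_of_sq h2 (inEC_of_lie fun Y => ?_) ⟨0, 0, fun Y => by simp, by simp [hn]⟩
  obtain ⟨a, ha⟩ := NE_maps h Y
  obtain ⟨b, hb⟩ := NE_maps (inv_mem h) Y
  rw [cj_eq_Dn hx hn] at ha
  rw [cj_eq_Dn (n := -n) (by rw [coe_inv_of hx hn, sub_eq_add_neg]) (by simp [hn])] at hb
  refine ⟨(2 : F)⁻¹ • (a - b), ?_⟩
  rw [map_smul, map_sub, ha, hb, inv_smul_eq_iff₀ h2, two_smul, Dn, Dn]
  noncomm_ring

theorem InE.of_add_smul {n : Matrix ι ι F} {c : F} (hc : c ≠ 0) (h : InE ψ (1 + c • n)) :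
    InE ψ n := by
  obtain ⟨a, ha⟩ := h
  exact ⟨c⁻¹ • (a - 1), by rw [map_smul, map_sub, ha, map_one, add_sub_cancel_left, smul_smul,
    inv_mul_cancel₀ hc, one_smul]⟩

theorem InC.of_add_smul {n : Matrix ι ι F} {c : F} (hc : c ≠ 0) (h : InC ψ (1 + c • n)) :
    InC ψ n := fun Y => by
  have := h Y
  rw [add_mul, mul_add, one_mul, mul_one, add_right_inj, smul_mul_assoc, mul_smul_comm] at this
  exact smul_right_injective _ hc this

theorem eq_zero_of_rank {a : Matrix κ κ F} (h : a.rank = 0) : a = 0 := by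
  have h1 : LinearMap.range a.mulVecLin = ⊥ := Submodule.finrank_eq_zero.1 h
  rw [LinearMap.range_eq_bot] at h1
  ext i j
  simpa using congrFun (LinearMap.congr_fun h1 (Pi.single j 1)) i

theorem or_of_rank_one [Finite F] [Nonempty ι] (o : κ) (hk : 3 ≤ Fintype.card κ) {x : GL ι F}
    (h : x ∈ NE ψ) (hn : IsNilpotent ((x : Matrix ι ι F) - 1))
    (hr : ((x : Matrix ι ι F) - 1).rank ≤ slotM ψ o) :
    InE ψ (x : Matrix ι ι F) ∨ InC ψ (x : Matrix ι ι F) := by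
  obtain ⟨a, γ, -, -, h1, -, h2, h3, h4⟩ := unip_rank o h hn (r := 1) (by rwa [one_mul])
  rcases h3.eq_or_lt with h3 | h3
  · rw [h2, h4 h3 (exists_ker_notMem_range (by omega)), add_zero, one_mul]
    exact Or.inl (inE_map _)
  · obtain rfl : a = 0 := eq_zero_of_rank (by omega)
    refine Or.inr fun Y => ?_
    rw [h2, add_zero, map_one, mul_one, add_mul, mul_add, h1, one_mul, mul_one]

variable (B) in
/-- A symplectic transvection. -/
noncomputable abbrev tv (u : κ → F) (c : F) : GL κ F := xr B (-1) u 0 c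

variable (B) in
/-- A combination of three squares. -/
def n3 (u₁ u₂ u₃ : κ → F) (t : F × F × F) : Matrix κ κ F :=
  t.1 • rk B u₁ u₁ + t.2.1 • rk B u₂ u₂ + t.2.2 • rk B u₃ u₃

variable (B) in
/-- A product of three transvections. -/
noncomputable def x3 (u₁ u₂ u₃ : κ → F) (t : F × F × F) : GL κ F :=
  tv B u₁ t.1 * tv B u₂ t.2.1 * tv B u₃ t.2.2

namespace HForm

variable (h : BF B (-1)) (alt : ∀ x, B x x = 0)
include h alt

theorem rc_sp (u : κ → F) (c : F) : RC B (-1) u 0 c := ⟨alt u, by simp, by simp⟩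

theorem coe_tv (u : κ → F) (c : F) : (tv B u c : Matrix κ κ F) = 1 + c • rk B u u := by
  rw [h.coe_xr (h.rc_sp alt u c)]; simp

theorem tv_mulVec (u : κ → F) (c : F) (x : κ → F) :
    (tv B u c : Matrix κ κ F) *ᵥ x = x + (c * B u x) • u := by
  rw [h.xr_mulVec (h.rc_sp alt u c)]; simp

theorem rich_sp : Rich B := fun u u' p =>
  ⟨u + u', alt _, by simp [alt, h.hyp_rl p], by simp [alt, p.lr]⟩

theorem loc_sp [Fintype F] (hk : 3 ≤ Fintype.card κ ∨ 3 < Fintype.card F) : Loc B (-1) := by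
  classical
  refine fun u u' p => ⟨fun y h1 h2 H => h.eq_zero_r fun x => ?_, ?_⟩
  · obtain ⟨h3, h4⟩ := h.hyp_decomp p x
    set v := x - (-1 * B u' x) • u - B u x • u' with hv
    have h5 := H (tv B v 1) (xr_mem _ _ _) 1 (by simp [h.tv_mulVec alt, h.zero_symm h3])
      (by simp [h.tv_mulVec alt, h.zero_symm h4])
    rw [one_smul, h.tv_mulVec alt, one_mul, add_eq_left, smul_eq_zero] at h5
    have h6 : B v y = 0 := h5.elim id fun e => by simp [e]
    simpa [hv, h1, h2] using h6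
  rcases hk with hk | hk
  · obtain ⟨v, hv, h1⟩ := h.exists_perp {u, u'} (Finset.card_le_two.trans_lt hk)
    exact Or.inr ⟨v, hv, alt v, h1 u (by simp), h1 u' (by simp)⟩
  obtain ⟨d, hd⟩ : ∃ d : F, d ∉ ({0, 1, -1} : Finset F) := by
    by_contra hn
    push Not at hn
    have := (Finset.card_le_card fun x _ => hn x : (Finset.univ : Finset F).card ≤ _)
    have h3 := Finset.card_le_three (a := (0 : F)) (b := 1) (c := -1)
    rw [Finset.card_univ] at this
    omega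
  simp only [Finset.mem_insert, Finset.mem_singleton, not_or] at hd
  refine Or.inl ⟨tv B u' (-d⁻¹) * tv B u (1 - d) * tv B u' 1,
    mul_mem (mul_mem (xr_mem _ _ _) (xr_mem _ _ _)) (xr_mem _ _ _), d, ?_,
    fun e => (sq_eq_one_iff.1 e).elim hd.2.1 hd.2.2⟩
  simp only [mul_mulVec, h.tv_mulVec alt, map_add, map_smul, alt, h.hyp_rl p, p.lr, smul_eq_mul]
  match_scalars <;> field_simp [hd.1] <;> ring

theorem ad_n3 (u₁ u₂ u₃ : κ → F) (t : F × F × F) : ad B (n3 B u₁ u₂ u₃ t) = -n3 B u₁ u₂ u₃ t := by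
  simp only [n3, h.ad_add, h.ad_smul, h.ad_rk]
  module

variable {u₁ u₂ u₃ : κ → F} (h12 : B u₁ u₂ = 0) (h13 : B u₁ u₃ = 0) (h23 : B u₂ u₃ = 0)
include h12 h13 h23

theorem n3_mul (s t : F × F × F) : n3 B u₁ u₂ u₃ s * n3 B u₁ u₂ u₃ t = 0 := by
  simp [n3, add_mul, mul_add, alt, h12, h13, h23, h.zero_symm h12, h.zero_symm h13,
    h.zero_symm h23]

theorem coe_x3 (t : F × F × F) : (x3 B u₁ u₂ u₃ t : Matrix κ κ F) = 1 + n3 B u₁ u₂ u₃ t := by
  simp [x3, n3, h.coe_tv alt, add_mul, mul_add, h12, h13, h23, add_assoc]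

theorem x3_add (s t : F × F × F) :
    x3 B u₁ u₂ u₃ (s + t) = x3 B u₁ u₂ u₃ s * x3 B u₁ u₂ u₃ t := by
  apply Units.ext
  rw [Units.val_mul, h.coe_x3 alt h12 h13 h23, h.coe_x3 alt h12 h13 h23, h.coe_x3 alt h12 h13 h23,
    add_mul, mul_add, mul_add, h.n3_mul alt h12 h13 h23]
  simp only [n3, Prod.fst_add, Prod.snd_add, mul_one, one_mul]
  module

end HForm

theorem HForm.perp_of_comm {ε : F} (h : BF B ε) {n η : Matrix κ κ F} (hc : n * η = η * n)
    (ha : ad B n = -n) {d u v : κ → F} {c : F} (hd : n *ᵥ d = c • u) (hc0 : c ≠ 0)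
    (hv : ∀ y, B v (n *ᵥ y) = 0) : B v (η *ᵥ u) = 0 ∧ B u (η *ᵥ v) = 0 := by
  have hc' : n * ad B η = ad B η * n := by
    have := congrArg (ad B) hc
    rw [h.ad_mul, h.ad_mul, ha, mul_neg, neg_mul, neg_inj] at this
    exact this.symm
  have key : ∀ ζ, n * ζ = ζ * n → B v (ζ *ᵥ u) = 0 := fun ζ hζ => by
    have := hv (ζ *ᵥ d)
    rw [mulVec_mulVec, hζ, ← mulVec_mulVec, hd, mulVec_smul, map_smul] at this
    exact (mul_eq_zero.1 this).resolve_left hc0
  exact ⟨key η hc, by rw [h.ad_r]; exact h.zero_symm (key _ hc')⟩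

/-- The coordinate embeddings used to pick regular subgroups. -/
def j1 (F : Type*) [Field F] : F →+ F × F × F := AddMonoidHom.inl F (F × F)

/-- See `j1`. -/
def j12 (F : Type*) [Field F] : F × F →+ F × F × F :=
  (AddMonoidHom.id F).prodMap (AddMonoidHom.inl F F)

/-- See `j1`. -/
def j13 (F : Type*) [Field F] : F × F →+ F × F × F :=
  (AddMonoidHom.id F).prodMap (AddMonoidHom.inr F F)

@[simp] theorem j1_apply (t : F) : j1 F t = (t, 0, 0) := rfl
@[simp] theorem j12_apply (t : F × F) : j12 F t = (t.1, t.2, 0) := rfl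
@[simp] theorem j13_apply (t : F × F) : j13 F t = (t.1, 0, t.2) := rfl

theorem j1_inj : Function.Injective (j1 F) := fun _ _ h => congrArg Prod.fst h

theorem j12_inj : Function.Injective (j12 F) := fun _ _ h =>
  Prod.ext (congrArg Prod.fst h :) (congrArg (fun p => p.2.1) h :)

theorem j13_inj : Function.Injective (j13 F) := fun _ _ h =>
  Prod.ext (congrArg Prod.fst h :) (congrArg (fun p => p.2.2) h :)

theorem HForm.orbit_sp [Fintype F] (h : BF B (-1)) (alt : ∀ x, B x x = 0) {u₁ u₂ u₃ d₁ d₂ : κ → F}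
    (h12 : B u₁ u₂ = 0) (h13 : B u₁ u₃ = 0) (h23 : B u₂ u₃ = 0) {S : F × F × F → Prop}
    (s1 : ∀ t, S (t, 0, 0) → t = 0) (e11 : B u₁ d₁ = 1) (e21 : B u₂ d₁ = 0) (e31 : B u₃ d₁ = 0)
    (hk : 3 < Fintype.card F ∨ (∀ t, S (0, t, 0) → t = 0) ∧ (2 < Fintype.card F ∨
      (∀ t, S (0, 0, t) → t = 0) ∧ B u₁ d₂ = 0 ∧ B u₂ d₂ = 1 ∧ B u₃ d₂ = 0)) :
    ∃ (R : AddSubgroup (F × F × F)) (T : Finset (F × F × F)), (∀ t, t ∈ T ↔ t ∈ R) ∧
      (∀ t ∈ R, S t → t = 0) ∧ ∀ η, (∀ t, S t → n3 B u₁ u₂ u₃ t * η = η * n3 B u₁ u₂ u₃ t) →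
        ∑ t ∈ T, Dn (n3 B u₁ u₂ u₃ t) η = 0 := by
  have h21 := h.zero_symm h12
  have h31 := h.zero_symm h13
  have h32 := h.zero_symm h23
  have n1 : ∀ t : F, n3 B u₁ u₂ u₃ (j1 F t) = t • rk B u₁ u₁ := fun t => by simp [n3]
  have n12 : ∀ t : F × F, n3 B u₁ u₂ u₃ (j12 F t) = t.1 • rk B u₁ u₁ + t.2 • rk B u₂ u₂ :=
    fun t => by simp [n3]
  have n13 : ∀ t : F × F, n3 B u₁ u₂ u₃ (j13 F t) = t.1 • rk B u₁ u₁ + t.2 • rk B u₃ u₃ :=
    fun t => by simp [n3]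
  have nv : ∀ t x, n3 B u₁ u₂ u₃ t *ᵥ x =
      (t.1 * B u₁ x) • u₁ + (t.2.1 * B u₂ x) • u₂ + (t.2.2 * B u₃ x) • u₃ := fun t x => by
    simp [n3, add_mulVec, smul_mulVec, smul_smul]
  have k1 : ∀ {t η}, n3 B u₁ u₂ u₃ t * η = η * n3 B u₁ u₂ u₃ t → t.1 ≠ 0 → ∀ v, B v u₁ = 0 →
      B v u₂ = 0 → B v u₃ = 0 → B v (η *ᵥ u₁) = 0 ∧ B u₁ (η *ᵥ v) = 0 :=
    fun {t η} e ht v a1 a2 a3 => h.perp_of_comm e (h.ad_n3 alt _ _ _ _) (d := d₁) (c := t.1)
      (by simp [nv, e11, e21, e31]) ht fun y => by simp [nv, a1, a2, a3]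
  rcases hk with hk | ⟨s2, hk⟩
  · exact exists_orbit_data (J := fun x => x = 0) (j1 F) j1_inj s1 fun η _ => by
      simp only [n1]; exact sum_Dn_one (Or.inl hk)
  by_cases c12 : ∀ t, S (j12 F t) → t = 0
  · rcases hk with hk | ⟨s3, e12, e22, e32⟩
    · exact exists_orbit_data (J := fun x => x = 0) (j12 F) j12_inj c12 fun η _ => by
        simp only [n12]; exact sum_Dn_two (Or.inl hk)
    by_cases c0 : ∀ t, S t → t = 0
    · exact exists_orbit_data (J := fun x => x = 0) (AddMonoidHom.id _) Function.injective_id c0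
        fun η _ => sum_Dn_three
    push Not at c0
    obtain ⟨t, ht, ht0⟩ := c0
    refine exists_orbit_data (J := fun x => x = 0) (j12 F) j12_inj c12 fun η hη => ?_
    simp only [n12]
    refine sum_Dn_two (Or.inr ?_)
    rw [rk_mul_mul_rk, rk_mul_mul_rk]
    by_cases t1 : t.1 = 0
    · have t2 : t.2.1 ≠ 0 := fun t2 => ht0 (by
        have e : t = (0, 0, t.2.2) := Prod.ext t1 (Prod.ext t2 rfl)
        rw [e] at ht
        rw [e, s3 _ ht]; rfl)
      obtain ⟨a1, a2⟩ := h.perp_of_comm (hη t ht) (h.ad_n3 alt _ _ _ _) (d := d₂) (c := t.2.1)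
        (u := u₂) (v := u₁) (by simp [nv, e12, e22, e32]) t2 fun y => by simp [nv, alt, h12, h13]
      simp [a1, a2]
    · obtain ⟨a1, a2⟩ := k1 (hη t ht) t1 u₂ h21 (alt _) h23
      simp [a1, a2]
  push Not at c12
  obtain ⟨t, ht, ht0⟩ := c12
  have t1 : t.1 ≠ 0 := fun t1 => ht0 (Prod.ext t1 (s2 _ (by simpa [t1] using ht)))
  have a0 : ∀ η, (∀ t, S t → n3 B u₁ u₂ u₃ t * η = η * n3 B u₁ u₂ u₃ t) →
      rk B u₁ u₁ * η * rk B u₁ u₁ = 0 := fun η hη => by
    rw [rk_mul_mul_rk, (k1 (hη _ ht) t1 u₁ (alt _) h12 h13).1, zero_smul]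
  rcases hk with hk | ⟨s3, e12, e22, e32⟩
  · exact exists_orbit_data (J := fun x => x = 0) (j1 F) j1_inj s1 fun η hη => by
      simp only [n1]; exact sum_Dn_one (Or.inr ⟨Or.inl hk, a0 η hη⟩)
  by_cases c13 : ∀ t, S (j13 F t) → t = 0
  · refine exists_orbit_data (J := fun x => x = 0) (j13 F) j13_inj c13 fun η hη => ?_
    simp only [n13]
    refine sum_Dn_two (Or.inr ?_)
    obtain ⟨a1, a2⟩ := k1 (hη _ ht) t1 u₃ h31 h32 (alt _)
    rw [rk_mul_mul_rk, rk_mul_mul_rk, a1, a2]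
    simp
  push Not at c13
  obtain ⟨t', ht', ht0'⟩ := c13
  have t1' : t'.1 ≠ 0 := fun t1 => ht0' (Prod.ext t1 (s3 _ (by simpa [t1] using ht')))
  refine exists_orbit_data (J := fun x => x = 0) (j1 F) j1_inj s1 fun η hη => ?_
  simp only [n1]
  refine sum_Dn_one (Or.inr ⟨Or.inr ?_, a0 η hη⟩)
  have key : ∀ ζ : Matrix κ κ F, (∀ t, S t → n3 B u₁ u₂ u₃ t * ζ = ζ * n3 B u₁ u₂ u₃ t) →
      ζ *ᵥ u₁ = B u₁ (ζ *ᵥ d₁) • u₁ := fun ζ hζ => by
    have b1 := congrArg (· *ᵥ d₁) (hζ _ ht)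
    have b2 := congrArg (· *ᵥ d₁) (hζ _ ht')
    simp only [← mulVec_mulVec, nv, e11, e21, e31, j12_apply, j13_apply, mul_zero, zero_mul,
      zero_smul, add_zero, mul_one, mulVec_smul] at b1 b2
    have b3 := congrArg (fun x => B x d₂) b1
    have b4 := congrArg (fun x => B x d₂) b2
    simp only [map_add, map_smul, LinearMap.add_apply, LinearMap.smul_apply, e12, e22, e32,
      smul_eq_mul, mul_zero, zero_add, mul_one] at b3 b4
    rw [b3, (mul_eq_zero.1 b4.symm).resolve_left t1', mul_zero, zero_smul, add_zero,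
      mul_smul] at b1
    exact (smul_right_injective _ t1 b1).symm
  have b1 := key η hη
  have b2 := key (ad B η) fun t ht => by
    have := congrArg (ad B) (hη t ht)
    rw [h.ad_mul, h.ad_mul, h.ad_n3 alt, mul_neg, neg_mul, neg_inj] at this
    exact this.symm
  rw [← h.ad_l, b1, map_smul, LinearMap.smul_apply, e11, smul_eq_mul, mul_one] at b2
  rw [h.rk_mul, mul_rk, b2]
  conv_rhs => rw [b1]
  simp

namespace Amb

variable [Fintype F] [Nonempty ι] (a : Amb B (-1) BV εV ψ M) (alt : ∀ x, B x x = 0)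
include a alt

theorem or_sp (h23 : (2 : F) ≠ 0 ∨ 3 ≤ Fintype.card κ) {φ : Matrix κ κ F →ₐ[F] Matrix ι ι F}
    (hs : ∀ o, slotM φ o = slotM ψ o) {w : κ → F} {c : F} (hc : c ≠ 0)
    (H : homG φ (tv B w c) ∈ NE ψ) : InE ψ (φ (rk B w w)) ∨ InC ψ (φ (rk B w w)) := by
  have e : (homG φ (tv B w c) : Matrix ι ι F) = 1 + c • φ (rk B w w) := by
    rw [coe_homG, a.h.coe_tv alt, map_add, map_one, map_smul]
  have e2 : c • φ (rk B w w) * c • φ (rk B w w) = 0 := by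
    rw [smul_mul_smul_comm, ← map_mul, rk_mul_rk, alt]; simp
  have : InE ψ (1 + c • φ (rk B w w)) ∨ InC ψ (1 + c • φ (rk B w w)) := by
    rcases h23 with h2 | h3
    · rcases or_of_sq_zero h2 e e2 H with ⟨Y, hY⟩ | h
      · exact Or.inl ⟨1 + Y, by rw [map_add, map_one, hY]⟩
      · exact Or.inr (InC.add (fun Y => by simp) h)
    · obtain ⟨o⟩ : Nonempty κ := Fintype.card_pos_iff.1 (by omega)
      rw [← e]
      refine or_of_rank_one o h3 H ⟨2, by rw [e, add_sub_cancel_left, sq, e2]⟩ ?_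
      rw [e, add_sub_cancel_left, ← hs]
      exact (rank_smul_le' _ _).trans (rank_rk_le o w w)
  exact this.imp (InE.of_add_smul hc) (InC.of_add_smul hc)

variable (hb : HB B ψ M) (h23 : (2 : F) ≠ 0 ∨ 3 ≤ Fintype.card κ)
  (h34 : 3 ≤ Fintype.card κ ∨ 3 < Fintype.card F)
include hb h23 h34

theorem eq_zero_sp {g : GL ι F} (hg : g ∈ M) (hn : ¬ Good ψ g) {w : κ → F} (hw : w ≠ 0) {c : F}
    (H : homG ψ (tv B w c) ∈ NE (cjH g ψ)) : c = 0 := by
  by_contra hc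
  exact hn (a.good_of_or hb (a.h.rich_sp alt) (a.h.loc_sp alt h34)
    (fun g hg w _ _ H => a.or_sp alt h23 (fun o => slotM_cjH g) one_ne_zero (H 0 1)) hg (alt w) hw
    ((a.conj hg).or_sp alt h23 (fun o => (slotM_cjH g).symm) hc H))

theorem rk_mem_sp (hk : 3 < Fintype.card F ∨ (2 < Fintype.card F ∧ 4 ≤ Fintype.card κ) ∨
    6 ≤ Fintype.card κ) {u w : κ → F} (hw : B w u = 0) : rk B u w ∈ DK ψ M := by
  classical
  by_cases hu : u = 0
  · simp [hu]
  obtain ⟨d₁, e11⟩ := a.h.exists_one_r hu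
  obtain ⟨u₂, u₃, d₂, h12, h13, h23', w2, w3, e21, e31, hk'⟩ : ∃ u₂ u₃ d₂, B u u₂ = 0 ∧ B u u₃ = 0 ∧
      B u₂ u₃ = 0 ∧ B w u₂ = 0 ∧ B w u₃ = 0 ∧ B u₂ d₁ = 0 ∧ B u₃ d₁ = 0 ∧
      (3 < Fintype.card F ∨ u₂ ≠ 0 ∧ (2 < Fintype.card F ∨
        u₃ ≠ 0 ∧ B u d₂ = 0 ∧ B u₂ d₂ = 1 ∧ B u₃ d₂ = 0)) := by
    by_cases h3 : 3 < Fintype.card F
    · exact ⟨0, 0, 0, by simp, by simp, by simp, by simp, by simp, by simp, by simp, Or.inl h3⟩
    obtain ⟨u₂, b0, b1⟩ := a.h.exists_perp {u, w, d₁}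
      (Finset.card_le_three.trans_lt (by omega))
    have c1 := b1 u (by simp)
    have c2 := b1 w (by simp)
    have c3 := a.h.zero_symm (b1 d₁ (by simp))
    by_cases h2 : 2 < Fintype.card F
    · exact ⟨u₂, 0, 0, c1, by simp, by simp, c2, by simp, c3, by simp, Or.inr ⟨b0, Or.inl h2⟩⟩
    obtain ⟨d, hd⟩ := a.h.exists_one_r b0
    obtain ⟨u₃, b2, b3⟩ := a.h.exists_perp {u, w, d₁, u₂, d - B u d • d₁}
      (Finset.card_le_five.trans_lt (by omega))
    exact ⟨u₂, u₃, d - B u d • d₁, c1, b3 u (by simp), b3 u₂ (by simp), c2, b3 w (by simp), c3,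
      a.h.zero_symm (b3 d₁ (by simp)), Or.inr ⟨b0, Or.inr ⟨b2, by simp [e11], by simp [hd, c3],
        a.h.zero_symm (b3 _ (by simp))⟩⟩⟩
  have hx := a.h.coe_x3 alt h12 h13 h23'
  have hn := a.h.n3_mul alt h12 h13 h23'
  refine mem_DK (x3 B u u₂ u₃) (a.h.x3_add alt h12 h13 h23') (fun t => a.root _ (mul_mem
    (mul_mem (Max.xr_mem _ _ _) (Max.xr_mem _ _ _)) (Max.xr_mem _ _ _))) (fun g hg hng => ?_)
    fun t => cj_eq_of_comm ?_
  · have k : ∀ {v : κ → F} {c : F} {t}, v ≠ 0 → n3 B u u₂ u₃ t = c • rk B v v →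
        homG ψ (x3 B u u₂ u₃ t) ∈ NE (cjH g ψ) → c = 0 := fun {v c t} hv e H =>
      a.eq_zero_sp alt hb h23 h34 hg hng hv (by
        rwa [show tv B v c = x3 B u u₂ u₃ t from Units.ext (by rw [hx, e, a.h.coe_tv alt])])
    obtain ⟨R, T, r1, r2, r3⟩ := a.h.orbit_sp alt (d₂ := d₂) h12 h13 h23'
      (S := fun t => homG ψ (x3 B u u₂ u₃ t) ∈ NE (cjH g ψ))
      (fun t => k hu (by simp [n3])) e11 e21 e31 (hk'.imp_right fun ⟨b1, b2⟩ =>
        ⟨fun t => k b1 (by simp [n3]), b2.imp_right fun ⟨b3, b4⟩ =>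
          ⟨fun t => k b3 (by simp [n3]), b4⟩⟩)
    refine ⟨R, T, r1, r2, fun η hη => ?_⟩
    simp only [fun t => cj_eq_Dn (hx t) (hn t t) η]
    exact r3 η fun t ht => comm_of_cj (hx t) (hη t ht)
  · simp [hx, n3, add_mul, mul_add, alt, hw, w2, w3, a.h.zero_symm h12, a.h.zero_symm h13]

end Amb

/-- The main result for symplectic slots. -/
theorem Amb.good_sp [Fintype F] [Nonempty ι] (a : Amb B (-1) BV εV ψ M) (alt : ∀ x, B x x = 0)
    (hb : HB B ψ M) (hk : (2 ≤ Fintype.card κ ∧ 3 < Fintype.card F ∧ (2 : F) ≠ 0) ∨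
      (2 < Fintype.card F ∧ 4 ≤ Fintype.card κ) ∨ 6 ≤ Fintype.card κ) {g : GL ι F} (hg : g ∈ M) :
    Good ψ g := by
  have : Nontrivial κ := Fintype.one_lt_card_iff_nontrivial.1 (by omega)
  have h23 : (2 : F) ≠ 0 ∨ 3 ≤ Fintype.card κ := by
    rcases hk with h | h | h
    exacts [Or.inl h.2.2, Or.inr (by omega), Or.inr (by omega)]
  exact transfer_rigid h23 (fun z hz => a.h.mem_of_rk (fun u w hw => a.rk_mem_sp alt hb h23
    (by omega) (by omega) hw) hz) hg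

end Cfsg.Agent.Cl.Max
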