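import Mathlib
import Cfsg.Agent.Cl.TnSp
import Cfsg.Agent.Cl.TnOneSp
import Cfsg.Agent.Cl.MxO

/-!
# Maximality of the stabilisers of tensor decompositions with symplectic factors
-/

set_option autoImplicit false
set_option linter.unusedSectionVars false
set_option linter.unusedVariables false

namespace Cfsg.Agent.Cl.Max

open Matrix Cfsg.Geo Module QuadraticMap

variable {F : Type*} [Field F] [Fintype F] {ι : Type} [Fintype ι] [DecidableEq ι]
  {κ : Type} [Fintype κ] [DecidableEq κ] {τ : Type} [Fintype τ] [DecidableEq τ]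
  {Q : QuadraticForm F (ι → F)}

theorem isMaximalIn_inf {G : Type*} [Group G] {K H : Subgroup G} (hne : ¬ K ≤ H)
    (h : ∀ M : Subgroup G, H ⊓ K ≤ M → M ≤ K → ¬ K ≤ M → M ≤ H) : IsMaximalIn K (H ⊓ K) :=
  isMaximalIn_of inf_le_right (fun e => hne (e.trans inf_le_left)) fun M h1 h2 h3 => by
    by_contra h4
    exact h3 (le_inf (h M h1 h2 h4) h2)

theorem hq_sp {B : LinearMap.BilinForm F (κ → F)} (alt : ∀ x, B x x = 0) (y : κ → F) :
    ∃ c, (-1 : F) * B y y + (1 + -1) * c = 0 := ⟨0, by simp [alt]⟩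

theorem amb_omega_sp (hQ : (polarBilin Q).Nondegenerate) (hn : 5 ≤ Fintype.card ι)
    {B : LinearMap.BilinForm F (κ → F)} (h : BF B (-1)) (alt : ∀ x, B x x = 0)
    {ψ : Matrix κ κ F →ₐ[F] Matrix ι ι F} (o : κ) (hev : Even (slotM ψ o))
    (hψ : ∀ X, adj (RingHom.id F) (polar Q) (ψ X) = ψ (ad B X))
    (hi : ∀ a ∈ isoB B, homG ψ a ∈ isometryGroup F ⇑Q) {H M : Subgroup (GL ι F)}
    (hH : ∀ a, homG ψ a ∈ H) (hM : H ⊓ omegaGL Q ≤ M) (hMΩ : M ≤ omegaGL Q) :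
    Amb B (-1) (polarBilin Q) 1 ψ M := by
  refine ⟨h, bf_polarQ hQ, hq_sp alt, hψ,
    hMΩ.trans ((omegaGL_le _).trans (isometryGroup_le_isoG _)), fun γ hγ => hM ⟨hH γ, ?_⟩⟩
  by_cases h2 : (2 : F) = 0
  · exact homG_root_mem_omegaGL_two h2 hQ (not_oExc_of_finrank (by
      rw [finrank_fintype_fun_eq_card]; omega)) h alt hev (fun v c => hi _ (h.xr_iso _ _ _)) hγ
  · exact homG_root_mem_omegaGL h2 hQ h hψ hγ

theorem HForm.exists_bilin {ε : F} {f : (κ → F) → (κ → F) → F} (h : HForm (RingHom.id F) ε f) :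
    ∃ B : LinearMap.BilinForm F (κ → F), f = fun x y => B x y := ⟨h.toB, rfl⟩

theorem single_eq_prod (p : τ → κ) :
    (Pi.single p 1 : (τ → κ) → F) = fun a => ∏ i, (Pi.single (p i) 1 : κ → F) (a i) := by
  funext a
  by_cases h : a = p
  · simp [h]
  · obtain ⟨i, hi⟩ := Function.ne_iff.1 h
    rw [Pi.single_eq_of_ne h, eq_comm]
    exact Finset.prod_eq_zero (Finset.mem_univ i) (Pi.single_eq_of_ne hi _)

theorem mem_isometry_of_pure {e : ι ≃ (τ → κ)} {P : GL ι F}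
    (hp : ∀ xs : τ → κ → F, Q (trV e P fun a => ∏ i, xs i (a i)) = 0) {g : GL (τ → κ) F}
    (hg : trG e P g ∈ isoG (polar Q)) (h : ∀ xs : τ → κ → F, ∃ ys : τ → κ → F,
      (g : Matrix (τ → κ) (τ → κ) F) *ᵥ (fun a => ∏ i, xs i (a i)) = fun a => ∏ i, ys i (a i)) :
    trG e P g ∈ isometryGroup F ⇑Q := by
  refine Mx.mem_iso_of_span hg (Mx.top_le_span_trV e P) ?_
  rintro _ ⟨p, rfl⟩
  obtain ⟨ys, hy⟩ := h fun i => Pi.single (p i) 1
  dsimp only
  rw [trG_mulVec, single_eq_prod, hy, hp, hp]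

theorem isMax_prodSp (hQ : (polarBilin Q).Nondegenerate) {a b : ℕ} (ha : 6 ≤ a) (hab : b < a)
    (hex : ¬ (Fintype.card F = 2 ∧ b = 2)) [Nonempty ι] {e : ι ≃ Fin a × Fin b} {P : GL ι F}
    {f₁ : (Fin a → F) → (Fin a → F) → F} {f₂ : (Fin b → F) → (Fin b → F) → F}
    (h₁ : IsSymplecticForm f₁) (h₂ : IsSymplecticForm f₂)
    (hT : TStr (RingHom.id F) (polar Q) (tForm (RingHom.id F) f₁ f₂) e P)
    (hp : ∀ (x : Fin a → F) (y : Fin b → F), Q (trV e P fun p => x p.1 * y p.2) = 0) :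
    IsMaximalIn (omegaGL Q) (tensorProductSubgroup a b e P ⊓ omegaGL Q) := by
  have := Mx.nonempty_right e
  have hb : 2 ≤ b := by simpa using Mx.two_le_of_symplectic h₂
  have hc : Fintype.card ι = a * b := by simpa using Fintype.card_congr e
  have h5 : 5 ≤ Fintype.card ι := by nlinarith
  have g₁ := hform_of_symplectic h₁
  have g₂ := hform_of_symplectic h₂
  obtain ⟨B₁, rfl⟩ := g₁.exists_bilin
  obtain ⟨B₂, rfl⟩ := g₂.exists_bilin
  refine isMaximalIn_inf (Mx.o_not_le_tensor_sp hQ h5 h₁ h₂ hT hp) fun M h1 h2 h3 => ?_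
  have hb : HB B₁ (psiL e P) M := by
    by_contra hb
    exact h3 (one_prodSp Q hQ ha ‹_› hex e P g₁ g₂ h₁.alternating
      h₂.alternating hT hp h1 h2 hb)
  have hadj := hT.adj_psiL (hform_polarQ hQ) g₁ g₂
  refine le_prod_of_good hab fun g hg => Amb.good_sp (B := B₁) (amb_omega_sp hQ h5 g₁
    h₁.alternating ⟨0, by omega⟩ ?_ hadj (fun x hx => ?_) (homG_psiL_mem e P) h1 h2)
    h₁.alternating hb (by simp; omega) hg
  · have h4 := card_mul_slotM (psiL e P : Matrix (Fin a) (Fin a) F →ₐ[F] _) ⟨0, by omega⟩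
    rw [hc, Fintype.card_fin] at h4
    rw [Nat.eq_of_mul_eq_mul_left (by omega) h4]
    simpa using g₂.even_of_alt h₂.alternating
  · refine Mx.mem_iso_of_span (homG_mem_isoG (hform_polarQ hQ) g₁ hadj hx)
      (Mx.top_le_span_trV e P) ?_
    rintro _ ⟨p, rfl⟩
    dsimp only
    rw [show homG (psiL e P) x = trG e P (kronG x 1) from Units.ext rfl, trG_mulVec,
      Mx.single_eq_pure, Mx.kronG_mulVec_pure, hp, hp]

theorem isMax_prodSp' (hQ : (polarBilin Q).Nondegenerate) {a b : ℕ} (hb : 6 ≤ b) (hab : a < b)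
    (hex : ¬ (Fintype.card F = 2 ∧ a = 2)) [Nonempty ι] {e : ι ≃ Fin a × Fin b} {P : GL ι F}
    {f₁ : (Fin a → F) → (Fin a → F) → F} {f₂ : (Fin b → F) → (Fin b → F) → F}
    (h₁ : IsSymplecticForm f₁) (h₂ : IsSymplecticForm f₂)
    (hT : IsTensorFormStructure id (polar ⇑Q) f₁ f₂ e P)
    (hp : ∀ (x₁ : Fin a → F) (x₂ : Fin b → F),
      Q ((P : Matrix ι ι F) *ᵥ ((fun p : Fin a × Fin b => x₁ p.1 * x₂ p.2) ∘ e)) = 0) :
    IsMaximalIn (omegaGL Q) (tensorProductSubgroup a b e P ⊓ omegaGL Q) := by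
  rw [← tensorProductSubgroup_swap]
  refine isMax_prodSp hQ hb hab hex h₂ h₁ (Mx.tStr_of_tensor rfl hT).swap fun x y => ?_
  rw [← hp y x, trV_apply]
  congr 2
  funext i
  exact mul_comm _ _

theorem two_ne_zero_of_odd (h : Odd (Fintype.card F)) : (2 : F) ≠ 0 := o_two_ne_zero_of_odd_card h

theorem three_le_of_odd (h : Odd (Fintype.card F)) : 3 ≤ Fintype.card F := by
  have := Fintype.one_lt_card (α := F)
  obtain ⟨c, hc⟩ := h
  omega

theorem isMax_wreathSpO (hQ : (polarBilin Q).Nondegenerate) {k t : ℕ} (ht : 2 ≤ t)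
    (hqt : Odd (Fintype.card F) → Even t)
    (hk : (k = 2 ∧ 5 ≤ Fintype.card F ∧ Odd (Fintype.card F) ∧ 4 ≤ t) ∨
      (4 ≤ k ∧ Odd (Fintype.card F)) ∨ 6 ≤ k) {e : ι ≃ (Fin t → Fin k)} {P : GL ι F}
    {f₁ : (Fin k → F) → (Fin k → F) → F} (h₁ : IsSymplecticForm f₁)
    (hT : TStr (RingHom.id F) (polar Q) (pForm (RingHom.id F) (Fin t) f₁) e P)
    (hp : ∀ xs : Fin t → Fin k → F, Q (trV e P fun a => ∏ i, xs i (a i)) = 0) :
    IsMaximalIn (omegaGL Q) (tensorWreathSubgroup k t e P ⊓ omegaGL Q) := by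
  have hc : Fintype.card ι = k ^ t := by simpa using Fintype.card_congr e
  have h5 : 5 ≤ Fintype.card ι := by
    rw [hc]
    rcases hk with ⟨rfl, -, -, h⟩ | h | h
    · exact le_trans (by norm_num) (Nat.pow_le_pow_right (by norm_num) h)
    all_goals exact le_trans (by nlinarith) (Nat.pow_le_pow_right (by omega) ht)
  have : Nonempty ι := Fintype.card_pos_iff.1 (by omega)
  have : Nonempty (Fin k) := ⟨⟨0, by omega⟩⟩
  have g₁ := hform_of_symplectic h₁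
  obtain ⟨B₁, rfl⟩ := g₁.exists_bilin
  have hadj := hT.adj_psiS (hform_polarQ hQ) g₁
  have hi : ∀ i, ∀ x ∈ isoB B₁, homG (psiS e P i) x ∈ isometryGroup F ⇑Q := fun i x hx => by
    have := homG_mem_isoG (hform_polarQ hQ) g₁ (hadj i) hx
    rw [homG_psiS_eq] at this ⊢
    exact mem_isometry_of_pure hp this fun xs => ⟨_, pureT_mulVec_pure _ _⟩
  obtain ⟨x, hx, hx'⟩ := Mx.exists_sp_nonscalar h₁
  refine isMaximalIn_inf (Mx.QS.not_le_wreath (Mx.qs_omega hQ h5) ht e P ⟨0, by omega⟩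
    (Mx.conj_mem_omega (hi _ x hx)) hx') fun M h1 h2 h3 => ?_
  refine le_wreath_of_good (by omega) ht (Or.inr fun π hπ => h1 ⟨permS_mem_wreath e P π,
    permS_mem_omegaGL (fun π => mem_isometry_of_pure hp (hT.permS_mem_isoG π) fun xs =>
      ⟨fun i => xs (π.symm i), ?_⟩) hπ⟩) fun i g hg => ?_
  · refine (permT_mulVec π _).trans (funext fun a => ?_)
    exact Fintype.prod_equiv π _ _ (by simp)
  have hb : HB B₁ (psiS e P i) M := by
    by_contra hb
    exact h3 (one_wreathSpO Q hQ ht hqt hk e P g₁ h₁.alternating hT hp h1 h2 i hb)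
  refine Amb.good_sp (B := B₁) (amb_omega_sp hQ h5 g₁ h₁.alternating ⟨0, by omega⟩ ?_ (hadj i)
    (hi i) (homG_psiS_mem_wreath e P i) h1 h2) h₁.alternating hb ?_ hg
  · have h4 := card_mul_slotM (psiS e P i : Matrix (Fin k) (Fin k) F →ₐ[F] _) ⟨0, by omega⟩
    obtain ⟨s, rfl⟩ : ∃ s, t = s + 2 := ⟨t - 2, by omega⟩
    rw [hc, Fintype.card_fin, pow_succ'] at h4
    rw [Nat.eq_of_mul_eq_mul_left (by omega) h4, pow_succ']
    exact Even.mul_right (by simpa using g₁.even_of_alt h₁.alternating) _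
  · rw [Fintype.card_fin]
    rcases hk with ⟨rfl, h4, h5, -⟩ | ⟨h4, h5⟩ | h4
    · exact Or.inl ⟨le_rfl, by omega, two_ne_zero_of_odd h5⟩
    · exact Or.inr (Or.inl ⟨three_le_of_odd h5, h4⟩)
    · exact Or.inr (Or.inr h4)

theorem isMax_wreathSpSp (hodd : Odd (Fintype.card F)) {m k t : ℕ} (hm : 3 ≤ m) (ht : 3 ≤ t)
    (hto : Odd t) (hex : ¬ (Fintype.card F = 3 ∧ k = 2))
    {e : (Fin m ⊕ Fin m) ≃ (Fin t → Fin k)} {P : GL (Fin m ⊕ Fin m) F}
    {f₁ : (Fin k → F) → (Fin k → F) → F} (h₁ : IsSymplecticForm f₁)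
    (hT : TStr (RingHom.id F) (sympForm m F) (pForm (RingHom.id F) (Fin t) f₁) e P) :
    IsMaximalIn (spGL m F) (tensorWreathSubgroup k t e P ⊓ spGL m F) := by
  have : Nonempty (Fin m ⊕ Fin m) := ⟨Sum.inl ⟨0, by omega⟩⟩
  have : Nonempty (Fin k) := ⟨e (Classical.arbitrary _) ⟨0, by omega⟩⟩
  have g₁ := hform_of_symplectic h₁
  have g := hform_sympForm (F := F) m
  have hk2 : 2 ≤ k := by simpa using Mx.two_le_of_symplectic h₁
  have hk : (k = 2 ∧ 5 ≤ Fintype.card F) ∨ 4 ≤ k := by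
    obtain ⟨c, hc⟩ := g₁.even_of_alt h₁.alternating
    obtain ⟨d, hd⟩ := hodd
    have := Fintype.one_lt_card (α := F)
    rw [Fintype.card_fin] at hc
    omega
  obtain ⟨B₁, rfl⟩ := g₁.exists_bilin
  have hadj := hT.adj_psiS g g₁
  obtain ⟨x, hx, hx'⟩ := Mx.exists_sp_nonscalar h₁
  refine isMaximalIn_inf (Mx.QS.not_le_wreath (Mx.qs_sp (Mx.isSymplecticForm_sympForm m)
    (Or.inl (by simp; omega))) (by omega) e P ⟨0, by omega⟩ (Mx.conj_mem_isoG
    (isoG_le_similarityGroup _ (homG_mem_isoG g g₁ (hadj _) hx))) hx') fun M h1 h2 h3 => ?_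
  refine le_wreath_of_good hk2 (by omega) (Or.inr fun π hπ => h1 ⟨permS_mem_wreath e P π,
    hT.permS_mem_isoG π⟩) fun i g' hg => ?_
  have hb : HB B₁ (psiS e P i) M := by
    by_contra hb
    exact h3 (one_wreathSpSp hodd ht hto hk e P g₁ h₁.alternating hT h1 h2 i hb)
  refine Amb.good_sp (B := B₁) (BV := g.toB) (εV := -1) ⟨g₁, g, hq_sp h₁.alternating, hadj i,
    h2, fun γ hγ => h1 ⟨homG_psiS_mem_wreath e P i γ, homG_mem_isoG g g₁ (hadj i)
      (HForm.RootG_le (B := B₁) g₁ hγ)⟩⟩ h₁.alternating hb ?_ hg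
  rw [Fintype.card_fin]
  rcases hk with ⟨rfl, h4⟩ | h4
  · exact Or.inl ⟨le_rfl, by omega, two_ne_zero_of_odd hodd⟩
  · exact Or.inr (Or.inl ⟨three_le_of_odd hodd, h4⟩)

end Cfsg.Agent.Cl.Max
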