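import Mathlib
import Cfsg.Agent.Cl.MaxSUWrC
import Cfsg.Agent.Cl.TnTr
import Cfsg.Agent.Cl.TnFinSp
import Cfsg.Agent.Cl.MxU

/-!
# Maximality of the stabiliser of a unitary tensor power
-/

set_option autoImplicit false
set_option linter.unusedSectionVars false

namespace Cfsg.Agent.Cl

open Module Function Matrix Cfsg.Geo

variable {F : Type*} [Field F] {σ : F →+* F} {q : ℕ} {ι : Type} [Fintype ι] [DecidableEq ι]
  {κ : Type} [Fintype κ] [DecidableEq κ] {τ : Type} [Fintype τ] [DecidableEq τ]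
  {B : (ι → F) →ₗ[F] (ι → F) →ₛₗ[σ] F} {D : (κ → F) →ₗ[F] (κ → F) →ₛₗ[σ] F}
  {ψ : Matrix κ κ F →ₐ[F] Matrix ι ι F} {M : Subgroup (GL ι F)}

/-- A slot of matrices as a slot of linear maps. -/
noncomputable def uLinS (ψ : Matrix κ κ F →ₐ[F] Matrix ι ι F) :
    End F (κ → F) →ₐ[F] End F (ι → F) :=
  (toLinAlgEquiv' : Matrix ι ι F ≃ₐ[F] _).toAlgHom.comp
    (ψ.comp (toLinAlgEquiv' : Matrix κ κ F ≃ₐ[F] _).symm.toAlgHom)

theorem uLinS_apply (Y : End F (κ → F)) (v : ι → F) :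
    uLinS ψ Y v = ψ (toLinAlgEquiv'.symm Y) *ᵥ v := rfl

theorem u_symm_mulVec (Y : End F (κ → F)) (v : κ → F) : toLinAlgEquiv'.symm Y *ᵥ v = Y v := by
  rw [← toLinAlgEquiv'_apply, AlgEquiv.apply_symm_apply]

theorem coe_glEquiv_homG (b : (κ → F) ≃ₗ[F] (κ → F)) :
    (glEquiv ι F (Max.homG ψ ((glEquiv κ F).symm b)) : End F (ι → F)) = uLinS ψ b :=
  LinearMap.ext fun v => by
    rw [uLinS_apply, show toLinAlgEquiv'.symm (b : End F (κ → F)) = ((glEquiv κ F).symm b).1 from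
      Matrix.ext_iff_mulVec.2 fun w => by rw [u_symm_mulVec, glEquiv_symm_mulVec]; rfl]
    rfl

theorem mem_NE_iff_uLinS [Nonempty ι] {g : GL ι F} : g ∈ Max.NE ψ ↔
    ∃ b : (κ → F) ≃ₗ[F] (κ → F), ∀ Y v, glEquiv ι F g (uLinS ψ Y v) =
      uLinS ψ (b.toLinearMap ∘ₗ Y ∘ₗ b.symm.toLinearMap) (glEquiv ι F g v) := by
  have key : ∀ (a : GL κ F) (Y : End F (κ → F)), toLinAlgEquiv'.symm
      ((glEquiv κ F a).toLinearMap ∘ₗ Y ∘ₗ (glEquiv κ F a).symm.toLinearMap) =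
      Max.cj a (toLinAlgEquiv'.symm Y) := fun a Y => Matrix.ext_iff_mulVec.2 fun v => by
    obtain ⟨v, rfl⟩ := (glEquiv κ F a).surjective v
    rw [u_symm_mulVec, glEquiv_apply, Max.cj_mulVec, u_symm_mulVec, ← glEquiv_apply,
      ← glEquiv_apply]
    simp only [LinearMap.comp_apply, LinearEquiv.coe_coe, LinearEquiv.symm_apply_apply]
  constructor
  · intro h
    obtain ⟨a, ha⟩ := Max.exists_cj_of_NE h
    exact ⟨glEquiv κ F a, fun Y v => by
      rw [uLinS_apply, uLinS_apply, key, ← ha, glEquiv_apply, glEquiv_apply, Max.cj_mulVec]⟩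
  · rintro ⟨b, hb⟩
    obtain ⟨a, rfl⟩ := (glEquiv κ F).surjective b
    refine Max.mem_NE_of_cj (a := a) fun X => Matrix.ext_iff_mulVec.2 fun v => ?_
    obtain ⟨v, rfl⟩ := (glEquiv ι F g).surjective v
    have := hb (toLinAlgEquiv' X) v
    rw [uLinS_apply, uLinS_apply, key, AlgEquiv.symm_apply_apply] at this
    rw [← this, glEquiv_apply, glEquiv_apply, Max.cj_mulVec]

theorem homG_mem_USG [Finite F] [Nonempty κ] (hD : IsHerm D) (hB : IsHerm B)
    (adj : ∀ a b v w, B (uLinS ψ (uRk D a b) v) w = B v (uLinS ψ (uRk D b a) w))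
    {b : (κ → F) ≃ₗ[F] (κ → F)} (hb : b ∈ USG D) :
    glEquiv ι F (Max.homG ψ ((glEquiv κ F).symm b)) ∈ USG B := by
  obtain ⟨p, hp⟩ := hD.exists_norm_one
  have h := uTen_uSlotT hD hB adj hp
  obtain ⟨g, hg, H⟩ := h.exists_mem (one_mem _) hb
  suffices e : glEquiv ι F (Max.homG ψ ((glEquiv κ F).symm b)) = g from e ▸ hg.1
  refine LinearEquiv.ext (h.ext (L := (glEquiv ι F _).toLinearMap) (L' := g.toLinearMap)
    fun x u => ?_)
  rw [coe_glEquiv_homG, map_uSlotT, LinearEquiv.coe_coe, LinearEquiv.coe_coe, H]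
  rfl

/-- Rigidity of a unitary slot. -/
theorem u_good_of_slot [Nonempty ι] (hq : UField σ q) (hD : IsHerm D) (hB : IsHerm B)
    (hn : 4 ≤ Fintype.card κ ∨ q ≠ 2 ∧ Fintype.card κ = 3)
    (adj : ∀ a b v w, B (uLinS ψ (uRk D a b) v) w = B v (uLinS ψ (uRk D b a) w))
    (hM : ∀ g ∈ M, glEquiv ι F g ∈ UG B)
    (hS : ∀ b ∈ USG D, Max.homG ψ ((glEquiv κ F).symm b) ∈ M)
    (H : ∀ u, u ≠ 0 → D u u = 0 → ∀ Z, UIn (M.map (glEquiv ι F).toMonoidHom) Z →
      (∃ Y, Z = uLinS ψ (uRk D u u) * Y * uLinS ψ (uRk D u u)) →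
        ∃ r : F, Z = r • uLinS ψ (uRk D u u)) {g : GL ι F} (hg : g ∈ M) : Max.Good ψ g := by
  classical
  have := hq.finite
  have : Nontrivial κ := Fintype.one_lt_card_iff_nontrivial.1 (by omega)
  obtain ⟨p, hp⟩ := hD.exists_norm_one
  have h := uTen_uSlotT hD hB adj hp
  have hψ := map_uSlotT (D := D) (ψ := uLinS ψ) (p := p)
  generalize uSlotT D (uLinS ψ) p = t at h hψ
  have : Nontrivial (LinearMap.range (uLinS ψ (uRk D p p))) :=
    Module.nontrivial_of_finrank_pos (R := F) (Nat.pos_of_mul_pos_right (by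
      rw [← h.dim]; exact finrank_pos))
  have hn' : 4 ≤ finrank F (κ → F) ∨ q ≠ 2 ∧ finrank F (κ → F) = 3 := by simpa using hn
  have hNE : ∀ g, g ∈ Max.NE ψ ↔ glEquiv ι F g ∈ uTenStab t := fun g => by
    rw [h.mem_uTenStab_iff hψ, mem_NE_iff_uLinS]
  have hS' : ∀ (b : (κ → F) ≃ₗ[F] (κ → F)) x w,
      glEquiv ι F (Max.homG ψ ((glEquiv κ F).symm b)) (t x w) = t x (b w) := fun b x w => by
    rw [← LinearEquiv.coe_coe, coe_glEquiv_homG, hψ]; rfl
  have hM' : M.map (glEquiv ι F).toMonoidHom ≤ UG B := by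
    rintro _ ⟨k, hk, rfl⟩
    exact hM k hk
  have hR : URight D t (M.map (glEquiv ι F).toMonoidHom) := fun b hb =>
    ⟨_, ⟨_, hS b hb, rfl⟩, hS' b⟩
  have key := h.eq_zero_of_free hq hn' (G := M)
    (ρ := (glEquiv ι F).toMonoidHom.comp M.subtype)
    ((glEquiv ι F).injective.comp Subtype.val_injective) (Ω := Max.SlotQ ψ M)
    (S := Finset.univ.filter fun ω => ¬ Max.Good ψ (ω.out : M))
    (d := fun ω x y z w => B (Max.PhiQ ψ ω (toLinAlgEquiv'.symm (uRk B x z)) *ᵥ y) w)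
    (fun ω => ⟨fun _ _ _ _ _ => by simp [uRk_add_left, add_mulVec],
      fun _ _ _ _ _ => by simp [mulVec_add], fun _ _ _ _ _ => by simp [uRk_add_right, add_mulVec],
      fun _ _ _ _ _ => by simp, fun _ _ _ _ _ _ _ _ => by
        simp only [uRk_smul_left, uRk_smul_right, map_smul, smul_mulVec, mulVec_smul, map_smulₛₗ,
          LinearMap.smul_apply, smul_eq_mul]
        ring⟩)
    (fun k ω x y z w => by
      have hk := hM k k.2
      change B (Max.PhiQ ψ _ (toLinAlgEquiv'.symm (uRk B (glEquiv ι F k x) (glEquiv ι F k z))) *ᵥ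
        (glEquiv ι F k y)) (glEquiv ι F k w) = _
      rw [show toLinAlgEquiv'.symm (uRk B (glEquiv ι F k x) (glEquiv ι F k z)) =
        Max.cj (k : GL ι F) (toLinAlgEquiv'.symm (uRk B x z)) from
          Matrix.ext_iff_mulVec.2 fun v => by
            obtain ⟨v, rfl⟩ := (glEquiv ι F k).surjective v
            rw [u_symm_mulVec, uRk_apply, UG_map hk, glEquiv_apply _ v, Max.cj_mulVec,
              u_symm_mulVec, uRk_apply, mulVec_smul, glEquiv_apply],
        Max.PhiQ_smul, glEquiv_apply _ y, Max.cj_mulVec, ← glEquiv_apply, UG_map hk])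
    (fun b hb => ⟨⟨_, hS b hb⟩, hS' b, fun ω => by
      simp [Max.good_smul (m := ⟨_, hS b hb⟩) (Max.homG_mem_NE _)]⟩)
    (fun u hu0 hu s hs k hk ω hω e => (Finset.mem_filter.1 hω).2 (by
      rw [Max.smul_eq_iff, Max.mem_NE_cjH, hNE, map_mul, map_mul] at e
      refine Max.good_of_inv ((h.good_of_conj hq hn' hM' hR
        (fun u i j => h.r1_of hψ i j (H u i j)) hψ hu0 hu hs (g := glEquiv ι F (ω.out : M).1⁻¹)
        ⟨_, inv_mem ω.out.2, rfl⟩ hk (by simpa using e)).imp (hNE _).2 fun H X Y =>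
          Matrix.ext_iff_mulVec.2 fun v => ?_)
      have := H (toLinAlgEquiv' Y) (toLinAlgEquiv' X) v
      simp only [uLinS_apply, AlgEquiv.symm_apply_apply, ← map_inv, glEquiv_apply] at this
      rw [← mulVec_mulVec, ← mulVec_mulVec, Max.cj_mulVec', Max.cj_mulVec', this]))
  have h0 : ∀ x z, Max.Delta ψ M (toLinAlgEquiv'.symm (uRk B x z)) = 0 := fun x z =>
    Matrix.ext_iff_mulVec.2 fun y => (hB.nondeg _ fun w => by
      rw [← key x y z w, Max.Delta, LinearMap.sum_apply, sum_mulVec, map_sum,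
        LinearMap.sum_apply]).trans (zero_mulVec y).symm
  refine Max.transfer_rigid (.inr (by omega)) (fun z _ c _ => ?_) hg
  obtain ⟨e, he⟩ := hB.exists_uFrame
  rw [← toLinAlgEquiv'.symm_apply_apply (ψ z * c), ← he.sum_uRk (toLinAlgEquiv' _), map_sum,
    map_sum]
  exact Finset.sum_eq_zero fun i _ => h0 _ _

theorem UField.exists_uPow [Fintype F] (hq : UField σ q) {n : ℕ} {f₁ : (κ → F) → (κ → F) → F}
    (hf₁ : IsUnitaryFormPow q f₁) {e : Fin n ≃ (τ → κ)} {P : GL (Fin n) F}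
    (hT : Max.TStr σ (hermForm n F q) (Max.pForm σ τ f₁) e P) :
    ∃ T : UPow (hq.toS hf₁) (uStd σ (Fin n)) τ, (∀ i, T.ψ i = uLinS (Max.psiS e P i)) ∧
      ∀ x, T.pv x = Max.trV e P fun a => ∏ i, x i (a i) := by
  obtain ⟨c, hc, hf⟩ := hT
  let pv : MultilinearMap F (fun _ : τ => κ → F) (Fin n → F) :=
    (Max.trV e P).toLinearMap.compMultilinearMap (MultilinearMap.pi fun a : τ → κ =>
      (MultilinearMap.mkPiAlgebra F τ F).compLinearMap fun i => LinearMap.proj (a i))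
  have hpv : ∀ x, pv x = Max.trV e P fun a => ∏ i, x i (a i) := fun x => rfl
  have h1 : ∀ n x, Max.tr e P (Max.pureT n) *ᵥ pv x = pv fun i => n i *ᵥ x i := fun n x => by
    rw [hpv, hpv, Max.tr_mulVec, Max.pureT_mulVec_pure]
  refine ⟨⟨pv, fun n => toLinAlgEquiv' (Max.tr e P (Max.pureT fun i => toLinAlgEquiv'.symm (n i))),
    fun i => uLinS (Max.psiS e P i), c, hc, hq.isHerm_toS hf₁, hq.isHerm_uStd _, fun n x => by
      simp only [toLinAlgEquiv'_apply, h1, u_symm_mulVec], fun i X x => ?_,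
    fun W hW => Max.trV_mem_of_single (e := e) (P := P) fun p => ?_, fun x y => ?_⟩,
    fun _ => rfl, hpv⟩
  · rw [uLinS_apply, Max.psiS_apply, Max.slot_apply, h1]
    congr 1
    funext j
    by_cases h : j = i
    · subst h; rw [update_self, update_self, u_symm_mulVec]
    · simp [update_of_ne h]
  · rw [Max.single_eq_prod]
    exact hW fun i => Pi.single (p i) 1
  · rw [← hq.hermForm_eq, hpv, hpv, hf, Max.pForm, Max.formOfGram_eq, show
      (σ ∘ fun a : τ → κ => ∏ i, y i (a i)) = fun a : τ → κ => ∏ i, (σ ∘ y i) (a i) from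
        funext fun a => map_prod σ _ _, Max.pureT_mulVec_pure,
      show (∏ i, hq.toS hf₁ (x i) (y i)) = _ from Finset.prod_congr rfl fun i _ =>
        (Max.hform_of_unitaryPow hq hf₁).eq_gram _ _]
    simp only [dotProduct, ← Finset.prod_mul_distrib]
    rw [Finset.prod_univ_sum, Fintype.piFinset_univ]

theorem permS_mem_specialLinear (e : ι ≃ (τ → κ)) (P : GL ι F) {π : Equiv.Perm τ}
    (hπ : Equiv.Perm.sign π = 1) : Max.permS e P π ∈ specialLinear ι F := by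
  have h1 : π ∈ alternatingGroup τ := hπ
  rw [← Equiv.Perm.closure_three_cycles_eq_alternating] at h1
  refine (Subgroup.closure_le ((specialLinear ι F).comap (Max.permS e P))).2 (fun c hc => ?_) h1
  obtain ⟨g, hg⟩ := isConj_iff.1 (Equiv.Perm.isConj_iff_cycleType_eq.2
    (Equiv.Perm.cycleType_inv c))
  let d := (GeneralLinearGroup.det : GL ι F →* Fˣ).comp (Max.permS e P)
  have h2 : (d c)⁻¹ = d c := by simpa using congrArg d hg
  have h3 : d c ^ 3 = 1 := by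
    rw [← map_pow, ← Equiv.Perm.IsThreeCycle.orderOf hc, pow_orderOf_eq_one, map_one]
  change d c = 1
  rwa [pow_three', inv_eq_iff_mul_eq_one.1 h2, one_mul] at h3

theorem UField.isMaximalIn_wreath [Fintype F] (hq : UField σ q) {n k t : ℕ} (hk : 3 ≤ k) (ht : 2 ≤ t)
    (hex : ¬ (q = 2 ∧ k = 3)) {e : Fin n ≃ (Fin t → Fin k)} {P : GL (Fin n) F}
    {f₁ : (Fin k → F) → (Fin k → F) → F} (hf₁ : IsUnitaryFormPow q f₁)
    (hT : IsTensorPowerFormStructure (fun x : F => x ^ q) (hermForm n F q) f₁ e P) :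
    IsMaximalIn (GU n F q ⊓ specialLinear (Fin n) F)
      (tensorWreathSubgroup k t e P ⊓ (GU n F q ⊓ specialLinear (Fin n) F)) := by
  have hc : n = k ^ t := by simpa using Fintype.card_congr e
  have h9 : 9 ≤ n := hc ▸ le_trans (by nlinarith) (Nat.pow_le_pow_right (by omega) ht)
  have : Nonempty (Fin n) := ⟨⟨0, by omega⟩⟩
  have : Nonempty (Fin k) := ⟨⟨0, by omega⟩⟩
  have : Nontrivial (Fin t) := Fin.nontrivial_iff_two_le.2 ht
  have hT' := Mx.tStr_of_power (Max.coe_eq_pow hq).symm hT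
  have h₁ := Max.hform_of_unitaryPow hq hf₁
  obtain ⟨T, t1, t2⟩ := hq.exists_uPow hf₁ hT'
  obtain ⟨a, ha, hns⟩ := Mx.exists_su_nonscalar hq.invol h₁ (by simp; omega)
  refine Max.isMaximalIn_inf (Mx.QS.not_le_wreath (Mx.qs_su hq (Max.hform_hermForm hq n)
    (by simp; omega) (by simp; omega)) ht e P ⟨0, by omega⟩ (Mx.conj_mem_isoG_sl (Mx.slot_mem_sim
      hT' h₁ _ (Max.isoG_le_similarityGroup _ ha.1))) hns) fun M h1 h2 h3 => ?_
  have hP : ∀ π, Equiv.Perm.sign π = 1 → Max.permS e P π ∈ M := fun π hπ =>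
    h1 ⟨Max.permS_mem_wreath e P π, hT'.permS_mem_isoG π, permS_mem_specialLinear e P hπ⟩
  have hM : ∀ g ∈ M, glEquiv _ F g ∈ UG (uStd σ (Fin n)) := fun g hg =>
    ((hq.mem_inf_iff g).1 (h2 hg)).1
  have hS : ∀ i, ∀ b ∈ USG (hq.toS hf₁), Max.homG (Max.psiS e P i) ((glEquiv _ F).symm b) ∈ M :=
    fun i b hb => h1 ⟨Max.homG_psiS_mem_wreath e P i _,
      (hq.mem_inf_iff _).2 (homG_mem_USG T.hD T.hB (t1 i ▸ T.adj i) hb)⟩
  have am : T.Amb (M.map (glEquiv _ F).toMonoidHom) := ⟨by rintro _ ⟨g, hg, rfl⟩; exact hM g hg,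
    fun i b hb => ⟨_, ⟨_, hS i b hb, rfl⟩, t1 i ▸ coe_glEquiv_homG b⟩, fun π hπ =>
      ⟨_, ⟨_, hP π⁻¹ (by simpa using hπ), rfl⟩, fun x => by
        rw [t2, t2]
        refine (Max.trG_mulVec e P _ _).trans (congrArg _ ((Max.permT_mulVec _ _).trans
          (funext fun a => ?_)))
        exact (Fintype.prod_equiv π _ _ (by simp)).symm⟩⟩
  refine Max.le_wreath_of_good (by omega) ht (.inr hP) fun i g hg => u_good_of_slot hq T.hD T.hB
    (by simp only [Fintype.card_fin]; omega) (t1 i ▸ T.adj i) hM (hS i) (fun u hu0 hu => ?_) hg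
  rw [← t1]
  exact am.eq_smul (by simpa) hq (fun H => h3 fun g hg => by
    obtain ⟨k, hk, e⟩ := H ((hq.mem_inf_iff g).1 hg)
    exact (glEquiv _ F).injective e ▸ hk) i hu0 hu

end Cfsg.Agent.Cl
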