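import Mathlib
import Cfsg.Agent.Cl.MaxSpGL
import Cfsg.Agent.Cl.MaxAlg

/-!
# Maximality of `Sp_{2m/r}(q^r).r` in `Sp_{2m}(q)`, `r` prime

The orbit under an overgroup `M` of the points of the extension field structure is studied through
two members with the largest intersection.
-/

set_option autoImplicit false
set_option linter.unusedSectionVars false
set_option linter.unusedVariables false

namespace Cfsg.Agent.Cl.MaxSp

open Module Matrix

section Ext

variable {F : Type*} [Field F] {V : Type*} [AddCommGroup V] [Module F V] [FiniteDimensional F V]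
  {B : LinearMap.BilinForm F V}

/-- Conjugating an element of the radical of the stabiliser of a totally isotropic subspace `Λ` by
an element inducing a transvection on `Λ`. -/
theorem conj_formula (hB : B.Nondegenerate) (hA : B.IsAlt) {Λ : Submodule F V}
    (hΛ : ∀ u ∈ Λ, ∀ v ∈ Λ, B u v = 0) {a s : SpG B} {ξ y ψ : V} (hy : y ∈ Λ)
    (ha : ∀ w ∈ Λ, a.1 w = w + B w ξ • y) (hs : ∀ z, s.1 z - z ∈ Λ) (hψ : s.1 ξ = ξ + ψ) :
    a * s * a⁻¹ = spE hA (-ψ) y * spT hA y (-B ψ ξ) * s := by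
  have hS : ∀ z, s.1 z = z + (s.1 z - z) := fun z => by abel
  have h1 : ∀ z w, B (s.1 z - z) w = B (s.1 w - w) z := fun z w => by
    have := spG_form s z w
    rw [hS z, hS w, map_add, map_add, LinearMap.add_apply, LinearMap.add_apply,
      hΛ _ (hs z) _ (hs w), ← hA.neg_eq (s.1 w - w) z] at this
    linear_combination this
  have e : s.1 ξ - ξ = ψ := by rw [hψ]; abel
  have hψΛ : ψ ∈ Λ := e ▸ hs ξ
  refine spG_ext fun z => ?_
  have h2 : s.1 ((a⁻¹).1 z) - (a⁻¹).1 z = s.1 z - z + B y z • ψ := by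
    refine sub_eq_zero.1 (hB.1 _ fun w => ?_)
    rw [map_sub, LinearMap.sub_apply, h1, ← spG_form a, sp_apply_inv_apply, ha _ (hs w), map_add,
      map_add, LinearMap.add_apply, LinearMap.add_apply, h1 w z, map_smul, map_smul,
      LinearMap.smul_apply, LinearMap.smul_apply, h1 w ξ, e, smul_eq_mul, smul_eq_mul]
    ring
  have h3 := h1 z ξ
  have h4 := hΛ _ (hs z) y hy
  have h5 := hΛ _ (hs z) ψ hψΛ
  rw [spG_mul_apply, spG_mul_apply, hS ((a⁻¹).1 z), map_add, sp_apply_inv_apply, h2,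
    ha _ (Λ.add_mem (hs z) (Λ.smul_mem _ hψΛ)), spG_mul_apply, spG_mul_apply,
    spE_apply hA (by simp [hΛ ψ hψΛ y hy]), spT_apply]
  rw [e] at h3
  have h6 := hS z
  generalize s.1 z - z = S at h3 h4 h5 h6 ⊢
  rw [h6]
  simp only [map_add, map_smul, map_neg, LinearMap.add_apply, LinearMap.smul_apply, h3, h4, h5,
    hA.self_eq_zero, hΛ y hy ψ hψΛ, smul_eq_mul]
  rw [← hA.neg_eq z y, ← hA.neg_eq z ψ]
  module

theorem spT_seven (hA : B.IsAlt) (h2 : (2 : F) = 0) {a b c : V} (hab : B a b = 0)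
    (hac : B a c = 0) (hbc : B b c = 0) :
    spT hA (a + b + c) 1 = spT hA a 1 * (spT hA b 1)⁻¹ * (spT hA c 1 * (spT hA (a + b) 1)⁻¹) *
      (spT hA (a + c) 1 * (spT hA (b + c) 1)⁻¹) :=
  spG_ext fun x => by
    simp only [spT_inv, spG_mul_apply, spT_apply, map_add, map_smul, LinearMap.add_apply,
      LinearMap.smul_apply, hab, hac, hbc, alt_zero hA hab, alt_zero hA hac, alt_zero hA hbc,
      hA.self_eq_zero, smul_eq_mul]
    match_scalars
    · ring
    · linear_combination (B x b) * h2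
    · linear_combination (B x a + 2 * B x b + B x c) * h2
    · linear_combination (B x b) * h2

variable {K : Type*} [Field K] [Algebra F K] [Module K V] [IsScalarTower F K V]
  [FiniteDimensional F K] [FiniteDimensional K V]

theorem exists_smul_of_forall (θ : V →+ V) (h : ∀ y, ∃ c : K, θ y = c • y)
    (hdim : ∀ y : V, y ≠ 0 → ∃ z, z ∉ Submodule.span K {y}) : ∃ c : K, ∀ y, θ y = c • y := by
  have key : ∀ (y z : V) (c d : K), y ≠ 0 → z ∉ Submodule.span K {y} → θ y = c • y → θ z = d • z →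
      c = d := fun y z c d hy hz hc hd => by
    obtain ⟨e, he⟩ := h (y + z)
    rw [map_add, hc, hd] at he
    have h1 : e = d := by
      by_contra hne
      refine hz ((Submodule.smul_mem_iff _ (sub_ne_zero.2 hne)).1
        (Submodule.mem_span_singleton.2 ⟨c - e, ?_⟩))
      linear_combination (norm := module) he
    rw [h1] at he
    exact smul_left_injective K hy (by linear_combination (norm := module) he)
  by_cases h0 : ∀ y : V, y = 0
  · exact ⟨0, fun y => by rw [h0 y]; simp⟩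
  push Not at h0
  obtain ⟨y, hy⟩ := h0
  obtain ⟨c, hc⟩ := h y
  refine ⟨c, fun z => ?_⟩
  by_cases hz0 : z = 0
  · simp [hz0]
  obtain ⟨d, hd⟩ := h z
  by_cases hz : z ∈ Submodule.span K {y}
  · obtain ⟨u, hu⟩ := hdim y hy
    obtain ⟨e, he⟩ := h u
    rw [hd, key y u c e hy hu hc he, key z u d e hz0
      (fun H => hu ((Submodule.span_singleton_le_iff_mem _ _).2 hz H)) hd he]
  · rw [hd, key y z c d hy hz hc hd]

variable (F K) in
/-- The `K`-point of `v` as an `F`-subspace. -/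
def Kp (v : V) : Submodule F V :=
  LinearMap.range ((LinearMap.toSpanSingleton K V v).restrictScalars F)

theorem mem_Kp {v x : V} : x ∈ Kp F K v ↔ ∃ k : K, k • v = x := Iff.rfl

theorem finrank_Kp {v : V} (hv : v ≠ 0) : finrank F (Kp F K v) = finrank F K :=
  LinearMap.finrank_range_of_inj (smul_left_injective K hv)

variable (K) in
/-- `g` is semilinear over `K`. -/
def KNorm (g : SpG B) : Prop := ∀ k : K, ∃ k' : K, ∀ x, g.1 (k • x) = k' • g.1 x

variable (K) in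
/-- The images of the `K`-points under `M`. -/
def KOrb (M : Subgroup (SpG B)) (Λ : Submodule F V) : Prop :=
  ∃ g ∈ M, ∃ v : V, v ≠ 0 ∧ Λ = (Kp F K v).map g.1.toLinearMap

theorem map_map_sp (g k : SpG B) (W : Submodule F V) :
    (W.map k.1.toLinearMap).map g.1.toLinearMap = W.map (g * k).1.toLinearMap := by
  rw [← Submodule.map_comp]; rfl

theorem KOrb.map {M : Subgroup (SpG B)} {Λ : Submodule F V} (h : KOrb K M Λ) {g : SpG B}
    (hg : g ∈ M) : KOrb K M (Λ.map g.1.toLinearMap) := by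
  obtain ⟨k, hk, v, hv, rfl⟩ := h
  exact ⟨g * k, M.mul_mem hg hk, v, hv, map_map_sp g k _⟩

theorem KOrb.finrank_eq {M : Subgroup (SpG B)} {Λ : Submodule F V} (h : KOrb K M Λ) :
    finrank F Λ = finrank F K := by
  obtain ⟨k, hk, v, hv, rfl⟩ := h
  rw [finrank_map_sp, finrank_Kp hv]

theorem kOrb_Kp (M : Subgroup (SpG B)) {v : V} (hv : v ≠ 0) : KOrb K M (Kp F K v) :=
  ⟨1, M.one_mem, v, hv, (Submodule.map_id _).symm⟩

/-- The form `B` is `τ ∘ β` for an alternating form `β` over `K`. -/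
structure KStr (B : LinearMap.BilinForm F V) (τ : K →ₗ[F] F) (β : LinearMap.BilinForm K V) :
    Prop where
  nondeg : B.Nondegenerate
  alt : B.IsAlt
  βnondeg : β.Nondegenerate
  βalt : β.IsAlt
  tr : ∀ x y, τ (β x y) = B x y
  one : ∀ c : K, c ≠ 0 → ∃ k, τ (k * c) = 1

theorem exists_kStr (hB : B.Nondegenerate) (hA : B.IsAlt)
    (hsa : ∀ (k : K) x y, B (k • x) y = B x (k • y)) (halt : ∀ (k : K) x, B (k • x) x = 0) :
    ∃ (τ : K →ₗ[F] F) (β : LinearMap.BilinForm K V), KStr B τ β := by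
  obtain ⟨τ, hτ, -⟩ := Submodule.exists_le_ker_of_notMem (p := (⊥ : Submodule F K)) (v := (1 : K))
    (by simp)
  have one : ∀ c : K, c ≠ 0 → ∃ k, τ (k * c) = 1 := fun c hc =>
    ⟨(τ 1)⁻¹ • c⁻¹, by rw [smul_mul_assoc, inv_mul_cancel₀ hc, map_smul, smul_eq_mul,
      inv_mul_cancel₀ hτ]⟩
  have ext : ∀ a b : K, (∀ k, τ (k * a) = τ (k * b)) → a = b := fun a b h => by
    by_contra hne
    obtain ⟨k, hk⟩ := one _ (sub_ne_zero.2 hne)
    rw [mul_sub, map_sub, h, sub_self] at hk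
    exact zero_ne_one hk
  let P : LinearMap.BilinForm F K := (LinearMap.mul F K).compr₂ τ
  have hP : P.Nondegenerate := ⟨fun a h => ext a 0 fun k => by simpa [P, mul_comm] using h k,
    fun a h => ext a 0 fun k => by simpa [P] using h k⟩
  have : ∀ x y : V, ∃ b : K, ∀ k, τ (k * b) = B (k • x) y := fun x y => by
    obtain ⟨b, hb⟩ := (LinearMap.BilinForm.toDual P hP).surjective
      ((B.flip y).comp ((LinearMap.toSpanSingleton K V x).restrictScalars F))
    exact ⟨b, fun k => by rw [mul_comm]; exact LinearMap.congr_fun hb k⟩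
  choose b hb using this
  let β : LinearMap.BilinForm K V := LinearMap.mk₂ K b
    (fun x x' y => ext _ _ fun k => by simp [mul_add, hb])
    (fun c x y => ext _ _ fun k => by rw [smul_eq_mul, ← mul_assoc, hb, hb, mul_smul])
    (fun x y y' => ext _ _ fun k => by simp [mul_add, hb])
    (fun c x y => ext _ _ fun k => by
      rw [smul_eq_mul, ← mul_assoc, hb, hb, ← hsa, mul_comm, mul_smul])
  have tr : ∀ x y, τ (β x y) = B x y := fun x y => by
    have := hb x y 1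
    rwa [one_mul, one_smul] at this
  exact ⟨τ, β, hB, hA, ⟨fun x h => hB.1 x fun y => by rw [← tr, h, map_zero],
    fun x h => hB.2 x fun y => by rw [← tr, h, map_zero]⟩,
    fun x => ext _ _ fun k => by rw [mul_zero, map_zero]; exact (hb x x k).trans (halt k x), tr, one⟩

namespace KStr

variable {τ : K →ₗ[F] F} {β : LinearMap.BilinForm K V} {M : Subgroup (SpG B)}

theorem exists_res (h : KStr B τ β) (hM : ∀ g, KNorm K g → g ∈ M) (g : SpG β) :
    ∃ g' ∈ M, ∀ x, g'.1 x = g.1 x :=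
  ⟨⟨g.1.restrictScalars F, fun x y =>
    (h.tr _ _).symm.trans ((congrArg τ (spG_form g x y)).trans (h.tr _ _))⟩,
    hM _ fun k => ⟨k, fun x => g.1.map_smul k x⟩, fun _ => rfl⟩

theorem orb_ti (h : KStr B τ β) {Λ : Submodule F V} (hΛ : KOrb K M Λ) :
    ∀ u ∈ Λ, ∀ v ∈ Λ, B u v = 0 := by
  obtain ⟨g, -, v, -, rfl⟩ := hΛ
  rintro _ ⟨_, ⟨a, rfl⟩, rfl⟩ _ ⟨_, ⟨b, rfl⟩, rfl⟩
  change B (g.1 (a • v)) (g.1 (b • v)) = 0
  rw [spG_form, ← h.tr]
  simp [h.βalt.self_eq_zero]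

theorem orb_star (h : KStr B τ β) (hM : ∀ g, KNorm K g → g ∈ M) {Λ : Submodule F V}
    (hΛ : KOrb K M Λ) {ξ x ψ : V} (hx : x ∈ Λ) (hξ : B x ξ ≠ 0) (hψ : ψ ∈ Λ) :
    ∃ s ∈ M, (∀ z, s.1 z - z ∈ Λ) ∧ s.1 ξ = ξ + ψ := by
  obtain ⟨g, hg, v, -, rfl⟩ := hΛ
  obtain ⟨_, ⟨a, rfl⟩, rfl⟩ := hx
  obtain ⟨_, ⟨b, rfl⟩, rfl⟩ := hψ
  have h1 : β ((g⁻¹).1 ξ) v ≠ 0 := fun H => hξ (by
    change B (g.1 (a • v)) ξ = 0
    rw [← sp_apply_inv_apply g ξ, spG_form, ← h.tr, map_smul, LinearMap.smul_apply,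
      alt_zero h.βalt H]
    simp)
  obtain ⟨s, hs, hs'⟩ := h.exists_res hM (spT h.βalt v (b / β ((g⁻¹).1 ξ) v))
  refine ⟨g * s * g⁻¹, M.mul_mem (M.mul_mem hg hs) (M.inv_mem hg), fun z => ?_, ?_⟩
  · rw [spG_mul_apply, spG_mul_apply, hs', spT_apply, map_add, sp_apply_inv_apply,
      add_sub_cancel_left]
    exact ⟨_, ⟨_, rfl⟩, rfl⟩
  · rw [spG_mul_apply, spG_mul_apply, hs', spT_apply, map_add, sp_apply_inv_apply,
      div_mul_cancel₀ _ h1]
    rfl

theorem orb_move (h : KStr B τ β) (hM : ∀ g, KNorm K g → g ∈ M) {Λ : Submodule F V}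
    (hΛ : KOrb K M Λ) {x : V} (hx : x ∉ Λ) :
    ∃ s ∈ M, (∀ w ∈ Λ, s.1 w = w) ∧ B x (s.1 x) ≠ 0 := by
  obtain ⟨g, hg, v, -, rfl⟩ := hΛ
  have h1 : (g⁻¹).1 x ∉ Submodule.span K {v} := fun H =>
    hx ⟨_, Submodule.mem_span_singleton.1 H, sp_apply_inv_apply g x⟩
  obtain ⟨z, z1, z2⟩ := exists_perp_ne h.βnondeg h1
  obtain ⟨k, hk⟩ := h.one _ (mul_ne_zero z2 z2)
  obtain ⟨s, hs, hs'⟩ := h.exists_res hM (spT h.βalt z k)
  refine ⟨g * s * g⁻¹, M.mul_mem (M.mul_mem hg hs) (M.inv_mem hg), ?_, ?_⟩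
  · rintro _ ⟨w, hw, rfl⟩
    change g.1 (s.1 ((g⁻¹).1 (g.1 w))) = g.1 w
    rw [sp_inv_apply_apply, hs', spT_apply, z1 w (Submodule.mem_span_singleton.2 hw)]
    simp
  · rw [spG_mul_apply, spG_mul_apply]
    nth_rw 1 [← sp_apply_inv_apply g x]
    rw [spG_form, hs', spT_apply, ← h.tr, map_add, h.βalt.self_eq_zero, zero_add, map_smul,
      smul_eq_mul, mul_assoc, hk]
    exact one_ne_zero

theorem exists_notMem (h : KStr B τ β) {y : V} (hy : y ≠ 0) : ∃ z, z ∉ Submodule.span K {y} := by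
  obtain ⟨z, hz, -⟩ := sp_exists_ne_zero_two h.βnondeg hy hy
  refine ⟨z, fun H => hz ?_⟩
  obtain ⟨c, rfl⟩ := Submodule.mem_span_singleton.1 H
  simp [h.βalt.self_eq_zero]

theorem kNorm_of (h : KStr B τ β)
    (hO : ∀ Λ Λ', KOrb K M Λ → KOrb K M Λ' → Λ ⊓ Λ' ≠ ⊥ → Λ = Λ') {g : SpG B} (hg : g ∈ M) :
    KNorm K g := fun k => by
  let θ : V →+ V := g.1.toLinearMap.toAddMonoidHom.comp
    ((DistribSMul.toAddMonoidHom V k).comp (g⁻¹).1.toLinearMap.toAddMonoidHom)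
  have hθ : ∀ x, θ (g.1 x) = g.1 (k • x) := fun x => by
    change g.1 (k • (g⁻¹).1 (g.1 x)) = _
    rw [sp_inv_apply_apply]
  obtain ⟨c, hc⟩ := exists_smul_of_forall (K := K) θ (fun y => by
    obtain ⟨x, rfl⟩ := g.1.surjective y
    by_cases hx : x = 0
    · exact ⟨0, by simp [hx]⟩
    have h1 := hO _ _ ((kOrb_Kp M hx).map hg) (kOrb_Kp M (sp_apply_ne_zero g hx)) fun H => by
      have : g.1 x ∈ (Kp F K x).map g.1.toLinearMap ⊓ Kp F K (g.1 x) :=
        ⟨⟨x, ⟨1, one_smul K x⟩, rfl⟩, ⟨1, one_smul K _⟩⟩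
      rw [H] at this
      exact sp_apply_ne_zero g hx this
    have h2 : g.1 (k • x) ∈ Kp F K (g.1 x) := h1 ▸ ⟨k • x, ⟨k, rfl⟩, rfl⟩
    obtain ⟨c, hc⟩ := h2
    exact ⟨c, by rw [hθ]; exact hc.symm⟩) fun y hy => h.exists_notMem hy
  exact ⟨c, fun x => by rw [← hθ, hc]⟩

/-- The main step: two members of the orbit with the largest intersection. -/
theorem exists_elements (h : KStr B τ β) (hr : (finrank F K).Prime) (hM : ∀ g, KNorm K g → g ∈ M)
    {g : SpG B} (hg : g ∈ M) (hgP : ¬ KNorm K g) :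
    ∃ x y : V, β y x ≠ 0 ∧ B x y = 0 ∧
      ∀ c t : F, spE h.alt (-(c • x)) (t • y) * spT h.alt (t • y) (-c) ∈ M := by
  classical
  let P : ℕ → Prop := fun n => ∃ Λ Λ', KOrb K M Λ ∧ KOrb K M Λ' ∧ Λ ≠ Λ' ∧ n ≤ finrank F ↥(Λ ⊓ Λ')
  have hP1 : P 1 := by
    by_contra hc
    refine hgP (h.kNorm_of (fun Λ Λ' h1 h2 h3 => ?_) hg)
    by_contra hne
    exact hc ⟨Λ, Λ', h1, h2, hne, Nat.pos_of_ne_zero fun H => h3 (Submodule.finrank_eq_zero.1 H)⟩
  have hb : ∀ n, P n → n ≤ finrank F V := fun n ⟨_, _, _, _, _, H⟩ => H.trans (Submodule.finrank_le _)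
  have hn1 : 1 ≤ Nat.findGreatest P (finrank F V) := Nat.le_findGreatest (hb 1 hP1) hP1
  have hmax : ∀ n, P n → n ≤ Nat.findGreatest P (finrank F V) := fun n hn =>
    Nat.le_findGreatest (hb n hn) hn
  obtain ⟨Λ₁, Λ₂, o1, o2, hne, hn⟩ := Nat.findGreatest_spec (hb 1 hP1) hP1
  set n := Nat.findGreatest P (finrank F V)
  obtain ⟨v, hv, Λ, hΛ, hn', x, hx, hxv⟩ : ∃ v : V, v ≠ 0 ∧ ∃ Λ, KOrb K M Λ ∧
      n ≤ finrank F ↥(Kp F K v ⊓ Λ) ∧ ∃ x ∈ Λ, β x v ≠ 0 := by
    obtain ⟨x, hx2, hx1⟩ : ∃ x ∈ Λ₂, x ∉ Λ₁ := by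
      by_contra! hc
      exact hne (Submodule.eq_of_le_of_finrank_eq hc (by rw [o1.finrank_eq, o2.finrank_eq])).symm
    obtain ⟨s, hs, s1, s2⟩ := h.orb_move hM o1 hx1
    obtain ⟨k, hk, v, hv, rfl⟩ := o2
    obtain ⟨_, ⟨a, rfl⟩, rfl⟩ := hx2
    refine ⟨v, hv, _, (kOrb_Kp M hv).map (g := k⁻¹ * s * k)
      (M.mul_mem (M.mul_mem (M.inv_mem hk) hs) hk), hn.trans ?_, _, ⟨_, ⟨a, rfl⟩, rfl⟩, fun H => s2 ?_⟩
    · rw [← finrank_map_sp k⁻¹]
      refine Submodule.finrank_mono ?_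
      rintro _ ⟨_, ⟨h1, ⟨w, hw, rfl⟩⟩, rfl⟩
      change (k⁻¹).1 (k.1 w) ∈ _
      refine ⟨by rwa [sp_inv_apply_apply], w, hw, ?_⟩
      exact congrArg (k⁻¹).1 (s1 _ h1)
    · change B (k.1 (a • v)) (s.1 (k.1 (a • v))) = 0
      change β ((k⁻¹).1 (s.1 (k.1 (a • v)))) v = 0 at H
      rw [← spG_form k⁻¹, sp_inv_apply_apply, ← h.tr, map_smul β, LinearMap.smul_apply,
        alt_zero h.βalt H]
      simp
  have hti := h.orb_ti hΛ
  have hxK : x ∉ Kp F K v := by
    rintro ⟨c, rfl⟩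
    exact hxv (by change β (c • v) v = 0; simp [h.βalt.self_eq_zero])
  -- the transvections of `Kv` moving `x` inside `Λ` normalise `Λ`
  have hnorm : ∀ ξ ∈ Λ, β ξ v ≠ 0 → ∀ d : K, d • v ∈ Λ → ∃ a ∈ M,
      (∀ w, a.1 w = w + (d / β ξ v * β w v) • v) ∧ ∀ w ∈ Λ, (d / β ξ v * β w v) • v ∈ Λ :=
    fun ξ hξ hξv d hd => by
      obtain ⟨a, ha, ha'⟩ := h.exists_res hM (spT h.βalt v (d / β ξ v))
      refine ⟨a, ha, ha', fun w hw => ?_⟩
      have e : Λ.map a.1.toLinearMap = Λ := by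
        by_contra hne'
        have h1 : Kp F K v ⊓ Λ < Λ.map a.1.toLinearMap ⊓ Λ := by
          refine lt_of_le_of_ne (fun y hy => ⟨⟨y, hy.2, ?_⟩, hy.2⟩) fun H => ?_
          · obtain ⟨c, rfl⟩ := hy.1
            change a.1 (c • v) = c • v
            rw [ha', spT_apply]; simp [h.βalt.self_eq_zero]
          · have : ξ + d • v ∈ Kp F K v ⊓ Λ := H ▸ ⟨⟨ξ, hξ, by
              change a.1 ξ = _
              rw [ha', spT_apply, div_mul_cancel₀ _ hξv]⟩, Λ.add_mem hξ hd⟩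
            obtain ⟨c, hc⟩ := this.1
            have e1 := congrArg (fun z => β z v) hc
            simp only [LinearMap.restrictScalars_apply, LinearMap.toSpanSingleton_apply, map_smul,
              map_add, LinearMap.add_apply, LinearMap.smul_apply, h.βalt.self_eq_zero, smul_zero,
              add_zero] at e1
            exact hξv e1.symm
        have := hmax _ ⟨_, _, hΛ.map ha, hΛ, hne', le_rfl⟩
        have := Submodule.finrank_lt_finrank_of_lt h1
        omega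
      have h2 : a.1 w ∈ Λ := e ▸ ⟨w, hw, rfl⟩
      rw [ha', spT_apply] at h2
      exact (Λ.add_mem_iff_right hw).1 h2
  obtain ⟨y, ⟨⟨d, rfl⟩, hyΛ⟩, hy0⟩ := Submodule.exists_mem_ne_zero_of_ne_bot
    (p := Kp F K v ⊓ Λ) (fun H => by rw [H, finrank_bot] at hn'; omega)
  replace hyΛ : d • v ∈ Λ := hyΛ
  have hd : d ≠ 0 := by rintro rfl; simp at hy0
  let E : Subalgebra F K :=
    { carrier := {e | ∀ d : K, d • v ∈ Λ → (e * d) • v ∈ Λ}
      mul_mem' := fun ha hb d hd => by rw [mul_assoc]; exact ha _ (hb d hd)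
      add_mem' := fun ha hb d hd => by rw [add_mul, add_smul]; exact Λ.add_mem (ha d hd) (hb d hd)
      algebraMap_mem' := fun c d hd => by
        rw [← Algebra.smul_def, smul_assoc]; exact Λ.smul_mem c hd }
  have hE : E = ⊥ := ((Subalgebra.isSimpleOrder_of_finrank_prime F K hr).eq_bot_or_eq_top
    E).resolve_right fun H => by
      have h1 : Kp F K v ≤ Λ := by
        rintro _ ⟨k, rfl⟩
        have : k / d ∈ E := by rw [H]; trivial
        simpa [hd] using this d hyΛ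
      rw [Submodule.eq_of_le_of_finrank_eq h1 (by rw [finrank_Kp hv, hΛ.finrank_eq])] at hxK
      exact hxK hx
  obtain ⟨κ, hκ⟩ := h.one _ hxv
  have hl : ∀ w ∈ Λ, β w v = B w (κ • v) • β x v := fun w hw => by
    have : β w v / β x v ∈ E := fun d hd => by
      obtain ⟨a, -, -, H⟩ := hnorm x hx hxv d hd
      convert H w hw using 2
      ring
    rw [hE] at this
    obtain ⟨c, hc⟩ := Algebra.mem_bot.1 this
    have e : β w v = c • β x v := by rw [Algebra.smul_def, hc, div_mul_cancel₀ _ hxv]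
    rw [← h.tr, map_smul, smul_eq_mul, e, mul_smul_comm, map_smul, hκ, smul_eq_mul, mul_one]
  have hx1 : B x (κ • v) = 1 := by rw [← h.tr, map_smul, smul_eq_mul, hκ]
  refine ⟨x, d • v, by simpa [hd] using alt_ne h.βalt hxv, hti x hx _ hyΛ, fun c t => ?_⟩
  have hy' : (t • d) • v ∈ Λ := by rw [smul_assoc]; exact Λ.smul_mem t hyΛ
  obtain ⟨a, ha, a1, -⟩ := hnorm x hx hxv (t • d) hy'
  obtain ⟨s, hs, s1, s2⟩ := h.orb_star hM hΛ (ξ := κ • v) hx (by rw [hx1]; exact one_ne_zero)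
    (Λ.smul_mem c hx)
  have := conj_formula h.nondeg h.alt hti (a := a) (Λ.smul_mem t hyΛ) (fun w hw => by
    rw [a1, hl w hw, mul_smul_comm, div_mul_cancel₀ _ hxv, smul_assoc, smul_assoc]) s1 s2
  rw [map_smul B, LinearMap.smul_apply, hx1, smul_eq_mul, mul_one,
    ← mul_inv_eq_iff_eq_mul] at this
  rw [← this]
  exact M.mul_mem (M.mul_mem (M.mul_mem ha hs) (M.inv_mem ha)) (M.inv_mem hs)

theorem top (h : KStr B τ β) (hr : (finrank F K).Prime)
    (hq : (∃ a : F, a ≠ 0 ∧ a ≠ 1) ∨ 6 ≤ finrank F V) (M : Subgroup (SpG B))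
    (hM : ∀ g, KNorm K g → g ∈ M) (g : SpG B) (hg : g ∈ M) (hgP : ¬ KNorm K g) : M = ⊤ := by
  obtain ⟨x, y, hyx, hxy, H⟩ := h.exists_elements hr hM hg hgP
  have htr : ∀ u v : V, u ≠ 0 → v ≠ 0 → ∃ k ∈ M, k.1 u = v := fun u v hu hv => by
    obtain ⟨k, hk, e⟩ := sp_transitive h.βnondeg h.βalt hu hv
    obtain ⟨k', hk', e'⟩ := h.exists_res hM ⟨k, hk⟩
    exact ⟨k', hk', (e' u).trans e⟩
  suffices hs : ∃ p : V, p ≠ 0 ∧ p ∈ XS h.alt M by
    obtain ⟨p, hp0, hp⟩ := hs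
    refine eq_top_of_XS h.nondeg h.alt fun v => ?_
    by_cases hv : v = 0
    · rw [hv]; exact (tClosed_XS _ M).zero_mem
    obtain ⟨k, hk, rfl⟩ := htr p v hp0 hv
    exact XS_map _ hk hp
  by_cases hF : ∃ a : F, a ≠ 0 ∧ a ≠ 1
  · obtain ⟨t, ht0, ht1⟩ := hF
    refine ⟨y, ne_zero_left hyx, fun e => ?_⟩
    have ht : t ^ 2 - t ≠ 0 := by
      rw [sq, ← mul_sub_one]; exact mul_ne_zero ht0 (sub_ne_zero.2 ht1)
    have := M.mul_mem (M.inv_mem (H (e / (t ^ 2 - t)) t)) (H (e / (t ^ 2 - t) * t) 1)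
    rw [← spE_smul h.alt (by simp [hxy]), one_smul, smul_neg, smul_smul, mul_comm t,
      _root_.mul_inv_rev, mul_assoc, inv_mul_cancel_left, spT_inv, spT_smul, spT_mul] at this
    convert this using 2
    field_simp
    ring
  have h6 := hq.resolve_left hF
  push Not at hF
  have h2 : (2 : F) = 0 := by
    have := hF (-1) (by simp)
    linear_combination -this
  let R : V → V → Prop := fun p p' => spT h.alt p 1 * (spT h.alt p' 1)⁻¹ ∈ M
  have R0 : R (y - x) x := by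
    have := H 1 1
    rw [one_smul, one_smul, spE, spT_neg, mul_assoc, spT_mul, show (-1 + -1 : F) = 0 by
      linear_combination -h2, spT_zero, mul_one, neg_add_eq_sub, ← spT_inv] at this
    exact this
  have hb : β (y - x) x = β y x := by simp [h.βalt.self_eq_zero]
  have R1 : ∀ p w, β p w = β y x → R p w := fun p w hpw => by
    obtain ⟨k, hk, e1, e2⟩ := sp_transitive_pair h.βnondeg h.βalt
      (sp_linearIndependent_pair h.βalt (hb ▸ hyx))
      (sp_linearIndependent_pair h.βalt (u := p) (v := w) (hpw ▸ hyx)) (hpw.trans hb.symm)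
    obtain ⟨k', hk', e'⟩ := h.exists_res hM ⟨k, hk⟩
    have := M.mul_mem (M.mul_mem hk' R0) (M.inv_mem hk')
    change spT h.alt p 1 * (spT h.alt w 1)⁻¹ ∈ M
    rw [← show k'.1 (y - x) = p from (e' _).trans e1, ← show k'.1 x = w from (e' _).trans e2,
      ← spT_conj, ← spT_conj]
    convert this using 1; group
  have Rtr : ∀ p p' w, R p w → R p' w → R p p' := fun p p' w h1 h2 => by
    have := M.mul_mem h1 (M.inv_mem h2)
    change _ ∈ M
    convert this using 1; group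
  have R2 : ∀ p u : V, p ≠ 0 → u ∉ Submodule.span K {p} → R p u := fun p u hp hu => by
    have hp' : p ∉ Submodule.span K {u} := fun H => by
      obtain ⟨c, rfl⟩ := Submodule.mem_span_singleton.1 H
      have hc : c ≠ 0 := by rintro rfl; simp at hp
      exact hu (Submodule.mem_span_singleton.2 ⟨c⁻¹, inv_smul_smul₀ hc u⟩)
    obtain ⟨z, z1, z2⟩ := exists_perp_ne h.βnondeg hu
    obtain ⟨z', z3, z4⟩ := exists_perp_ne h.βnondeg hp'
    replace z1 := z1 p (Submodule.mem_span_singleton_self p)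
    replace z3 := z3 u (Submodule.mem_span_singleton_self u)
    exact Rtr _ _ ((β y x / β u z) • z + (β y x / β p z') • z') (R1 _ _ (by simp [z1, z4]))
      (R1 _ _ (by simp [z2, z3]))
  have R3 : ∀ p p' : V, p ≠ 0 → p' ≠ 0 → R p p' := fun p p' hp hp' => by
    obtain ⟨u, u1, u2⟩ : ∃ u, u ∉ Submodule.span K {p} ∧ u ∉ Submodule.span K {p'} := by
      by_contra! hc
      rcases le_or_le (A := ⊤) fun u _ => or_iff_not_imp_left.2 (hc u) with H | H
      · exact (h.exists_notMem hp).elim fun z hz => hz (H trivial)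
      · exact (h.exists_notMem hp').elim fun z hz => hz (H trivial)
    exact Rtr _ _ u (R2 p u hp u1) (R2 p' u hp' u2)
  obtain ⟨e, he, hee⟩ := sp_exists_isotropic_family h.nondeg h.alt (k := 3) h6
  have hli : ∀ a b c : F, a • e 0 + b • e 1 + c • e 2 = 0 → a = 0 ∧ b = 0 ∧ c = 0 := fun a b c H => by
    have := Fintype.linearIndependent_iff.1 he ![a, b, c] (by simpa [Fin.sum_univ_three] using H)
    exact ⟨this 0, this 1, this 2⟩
  refine ⟨e 0 + e 1 + e 2, fun H => one_ne_zero (hli 1 1 1 (by simpa using H)).1, fun c => ?_⟩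
  by_cases hc : c = 0
  · simpa [hc] using M.one_mem
  rw [hF c hc, spT_seven h.alt h2 (hee 0 1) (hee 0 2) (hee 1 2)]
  exact M.mul_mem (M.mul_mem (R3 _ _ (he.ne_zero 0) (he.ne_zero 1))
    (R3 _ _ (he.ne_zero 2) fun H => one_ne_zero (hli 1 1 0 (by simpa using H)).1))
    (R3 _ _ (fun H => one_ne_zero (hli 1 0 1 (by simpa using H)).1)
      fun H => one_ne_zero (hli 0 1 1 (by simpa using H)).2.1)

theorem exists_not (h : KStr B τ β) (hr : (finrank F K).Prime) (h3 : 3 ≤ finrank F V) :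
    ∃ g : SpG B, ¬ KNorm K g := by
  obtain ⟨k, hk⟩ : ∃ k : K, k ∉ (⊥ : Subalgebra F K) := by
    by_contra! hc
    have := Subalgebra.bot_eq_top_iff_finrank_eq_one.1 (eq_top_iff.2 fun k _ => hc k)
    exact Nat.not_prime_one (this ▸ hr)
  have h3' : 3 ≤ finrank F (⊤ : Submodule F V) := by rwa [finrank_top]
  obtain ⟨v, -, hv, -⟩ := exists_perp_two (B := B) h3' 0 0
  have adj : ∀ x y, B (k • x) y = B x (k • y) := fun x y => by rw [← h.tr, ← h.tr]; simp
  refine ⟨spT h.alt v 1, fun H => hk ?_⟩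
  obtain ⟨k', H⟩ := H k
  obtain ⟨x, -, hx, x1, x2⟩ := exists_perp_two (B := B) h3' v (k • v)
  have e1 := H x
  simp only [spT_apply, adj, x1, x2, mul_zero, zero_smul, add_zero] at e1
  have e2 : k = k' := smul_left_injective K hx e1
  subst e2
  obtain ⟨z, hz, -⟩ := sp_exists_ne_zero_two h.nondeg hv hv
  have e3 := H z
  simp only [spT_apply, one_mul, smul_add, add_right_inj] at e3
  refine Algebra.mem_bot.2 ⟨B (k • z) v / B z v, smul_left_injective K hv ?_⟩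
  change algebraMap F K _ • v = k • v
  rw [algebraMap_smul, div_eq_inv_mul, mul_smul, e3, smul_comm k, inv_smul_smul₀ hz]

end KStr

end Ext

section Mat

variable {F : Type*} [Field F] {m : ℕ}

open Cfsg.Geo

theorem max_ext [Fintype F] (hm : 2 ≤ m) (hq : Fintype.card F ≠ 2 ∨ 3 ≤ m) (r : ℕ) (hr : r.Prime)
    (K : Subalgebra F (Matrix (Fin m ⊕ Fin m) (Fin m ⊕ Fin m) F)) (hK : IsFieldSubalgebra r K)
    (hsa : IsSelfAdjointFor (sympForm m F) K)
    (halt : ∀ k ∈ K, ∀ v : (Fin m ⊕ Fin m → F), sympForm m F (Matrix.mulVec k v) v = 0) :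
    IsMaximalIn (spGL m F) (subalgebraNormalizer K ⊓ spGL m F) := by
  have hne : Nonempty (Fin m ⊕ Fin m) := ⟨Sum.inl ⟨0, by omega⟩⟩
  letI := (Max.IsFieldSubalgebra.isField hK).toField
  letI : Module K (Fin m ⊕ Fin m → F) := Module.compHom (Fin m ⊕ Fin m → F)
    (((Matrix.toLinAlgEquiv' : Matrix (Fin m ⊕ Fin m) (Fin m ⊕ Fin m) F ≃ₐ[F]
      Module.End F (Fin m ⊕ Fin m → F)) : Matrix (Fin m ⊕ Fin m) (Fin m ⊕ Fin m) F →+*
        Module.End F (Fin m ⊕ Fin m → F)).comp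
      (K.val : K →+* Matrix (Fin m ⊕ Fin m) (Fin m ⊕ Fin m) F))
  have hT : IsScalarTower F K (Fin m ⊕ Fin m → F) := ⟨fun c z v => smul_mulVec _ _ _⟩
  have hfd : FiniteDimensional K (Fin m ⊕ Fin m → F) :=
    @Module.Finite.of_restrictScalars_finite F _ _ _ _ _ _ _ _ hT _
  obtain ⟨τ, β, h⟩ := @exists_kStr F _ _ _ _ _ _ K _ _ _ hT _ hfd
    (spB_nondegenerate (m := m) (R := F)) spB_isAlt
    (fun k x y => by rw [spB_apply, spB_apply]; exact hsa k k.2 x y)
    (fun k x => by rw [spB_apply]; exact halt k k.2 x)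
  have hr' : (finrank F K).Prime := hK.finrank_eq.symm ▸ hr
  refine isMaximalIn_sp _ (KNorm K) (fun g => ⟨fun H k => ?_, fun H => ?_⟩)
    (@KStr.exists_not F _ _ _ _ _ _ K _ _ _ hT _ hfd _ _ h hr' (by rw [sp_finrank_std]; omega))
    (@KStr.top F _ _ _ _ _ _ K _ _ _ hT _ hfd _ _ h hr' 
      (hq.imp exists_ne_zero_one fun h3 => by rw [sp_finrank_std]; omega))
  · refine ⟨⟨Max.cj (spι m F g) k, (H k).1 k.2⟩, fun x => ?_⟩
    change g.1 (k.1 *ᵥ x) = Max.cj (spι m F g) k *ᵥ g.1 x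
    rw [← spι_mulVec g x, Max.cj_mulVec, spι_mulVec]
  · refine Max.mem_subalgebraNormalizer.2
      (form_mem_iff_of_mapsTo (Max.cj (spι m F g)).toLinearEquiv (Subalgebra.toSubmodule K)
        fun k hk => ?_)
    obtain ⟨k', H⟩ := H ⟨k, hk⟩
    have : Max.cj (spι m F g) k = k'.1 := (Max.cj_eq_iff _ _ _).2 (Matrix.ext_iff_mulVec.2 fun x => by
      rw [← mulVec_mulVec, ← mulVec_mulVec, spι_mulVec, spι_mulVec]; exact H x)
    change Max.cj (spι m F g) k ∈ K
    rw [this]; exact k'.2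

end Mat

end Cfsg.Agent.Cl.MaxSp
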