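import Mathlib
import Cfsg.Agent.Cl.MaxSpGL
import Cfsg.Agent.Cl.MaxSubfield

/-!
# Maximality of the subfield subgroups of `Sp_{2m}(q)`, `m ≥ 2`
-/

set_option autoImplicit false
set_option linter.unusedSectionVars false
set_option linter.unusedVariables false

namespace Cfsg.Agent.Cl.MaxSp

open Module Matrix

section Sub

variable {F : Type*} [Field F] {V : Type*} [AddCommGroup V] [Module F V] [FiniteDimensional F V]
  {B : LinearMap.BilinForm F V}

theorem exists_perp_three (h4 : 4 ≤ finrank F V) (x y z : V) :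
    ∃ a, a ≠ 0 ∧ B x a = 0 ∧ B y a = 0 ∧ B z a = 0 := by
  let l : V →ₗ[F] (F × F) × F := ((B x).prod (B y)).prod (B z)
  have h1 := l.finrank_range_add_finrank_ker
  have h2 : finrank F (LinearMap.range l) ≤ 3 := (Submodule.finrank_le _).trans (by simp)
  have h3 : LinearMap.ker l ≠ ⊥ := fun h => by rw [h, finrank_bot] at h1; omega
  obtain ⟨a, ha, ha0⟩ := Submodule.exists_mem_ne_zero_of_ne_bot h3
  have := Prod.ext_iff.1 (LinearMap.mem_ker.1 ha)
  exact ⟨a, ha0, (Prod.ext_iff.1 this.1).1, (Prod.ext_iff.1 this.1).2, this.2⟩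

theorem exists_form_eq_one (hB : B.Nondegenerate) {e : V} (he : e ≠ 0) : ∃ f, B e f = 1 := by
  obtain ⟨f, hf⟩ : ∃ f, B e f ≠ 0 := by by_contra! h; exact he (hB.1 e h)
  exact ⟨(B e f)⁻¹ • f, by simp [hf]⟩

/-- Conjugating an element of the radical of a point stabiliser by a transvection. -/
theorem spE_conj_mem (hA : B.IsAlt) {M : Subgroup (SpG B)} {w e b : V} {s c : F} (hw : B w e = 0)
    (hb : B b e = 0) (h1 : spE hA w e * spT hA e s ∈ M) (h2 : spT hA b c ∈ M) :
    spE hA ((c * B w b) • b) e * spT hA e (c * B w b ^ 2) ∈ M := by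
  have := M.mul_mem (M.inv_mem h1) (M.mul_mem (M.mul_mem h2 h1) (M.inv_mem h2))
  convert this using 1
  have e1 : spT hA b c * (spE hA w e * spT hA e s) * (spT hA b c)⁻¹ =
      spE hA (w + (c * B w b) • b) e * spT hA e s := by
    have e2 : (spT hA b c).1 e = e := by simp [alt_zero hA hb]
    have e3 := spE_conj hA (spT hA b c) w e
    have e4 := spT_conj hA (spT hA b c) e s
    rw [e2] at e3 e4
    rw [spT_apply] at e3
    rw [← e3]
    nth_rw 2 [← e4]
    group
  rw [e1, eq_inv_mul_iff_mul_eq]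
  refine spG_ext fun x => ?_
  simp only [spG_mul_apply]
  rw [spE_apply hA hw, spE_apply hA (by simp [hb]), spE_apply hA (by simp [hw, hb])]
  simp only [spT_apply, map_add, map_smul, LinearMap.add_apply, LinearMap.smul_apply, hw, hb,
    alt_zero hA hw, alt_zero hA hb, hA.self_eq_zero, smul_eq_mul]
  rw [← hA.neg_eq w b]
  module

variable {K : Type*} [Field K] [Algebra K F] [Module K V] [IsScalarTower K F V]
  {V₀ : Type*} [AddCommGroup V₀] [Module K V₀] [FiniteDimensional K V₀]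

/-- A `K`-form of the symplectic space. -/
structure SubStr (B : LinearMap.BilinForm F V) (B₀ : LinearMap.BilinForm K V₀) (j : V₀ →ₗ[K] V) :
    Prop where
  nondeg : B.Nondegenerate
  alt : B.IsAlt
  form : ∀ x y, B (j x) (j y) = algebraMap K F (B₀ x y)
  span : Submodule.span F (Set.range j) = ⊤
  dim : 4 ≤ finrank K V₀
  prime : (finrank K F).Prime
  perf : (2 : F) = 0 → ∀ k : K, ∃ k' : K, k' ^ 2 = k
  sq : ∀ x : F, ∃ a b : F, x = a ^ 2 - b ^ 2

/-- A multiple of `g` maps the rational vectors to rational vectors. -/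
def SubNorm (j : V₀ →ₗ[K] V) (g : SpG B) : Prop := ∃ c : F, c ≠ 0 ∧ ∀ x, ∃ y, c • g.1 (j x) = j y

variable (F) in
/-- A multiple of a rational vector. -/
def RatPt (j : V₀ →ₗ[K] V) (u : V) : Prop := ∃ (c : F) (x : V₀), u = c • j x

/-- The parameters of the elements of `M` in the radical of a rational point stabiliser. -/
def GS (hA : B.IsAlt) (B₀ : LinearMap.BilinForm K V₀) (j : V₀ →ₗ[K] V) (M : Subgroup (SpG B))
    (s α : F) : Prop :=
  ∀ e x : V₀, B₀ x e = 0 → LinearIndependent K ![e, x] →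
    spE hA (α • j x) (j e) * spT hA (j e) s ∈ M

namespace SubStr

variable {B₀ : LinearMap.BilinForm K V₀} {j : V₀ →ₗ[K] V} {M : Subgroup (SpG B)}

theorem eq_zero (h : SubStr B B₀ j) {v : V} (hv : ∀ x, B v (j x) = 0) : v = 0 :=
  h.nondeg.1 v fun y => by
    have : Submodule.span F (Set.range j) ≤ LinearMap.ker (B v) :=
      Submodule.span_le.2 (by rintro _ ⟨x, rfl⟩; exact hv x)
    exact this (h.span ▸ Submodule.mem_top (x := y))

theorem alt₀ (h : SubStr B B₀ j) : B₀.IsAlt := fun x =>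
  (algebraMap K F).injective (by rw [← h.form, h.alt.self_eq_zero, map_zero])

theorem j_smul (k : K) (x : V₀) : j (k • x) = algebraMap K F k • j x := by
  rw [map_smul, algebraMap_smul]

theorem form_zero (h : SubStr B B₀ j) {x y : V₀} (h0 : B₀ x y = 0) : B (j x) (j y) = 0 := by
  rw [h.form, h0, map_zero]

theorem form_ne (h : SubStr B B₀ j) {x y : V₀} (h0 : B₀ x y ≠ 0) : B (j x) (j y) ≠ 0 := by
  rw [h.form]; simpa using h0

theorem linInd (h : SubStr B B₀ j) (h₀ : B₀.Nondegenerate) {ι : Type*} {v : ι → V₀}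
    (hv : LinearIndependent K v) : LinearIndependent F fun i => j (v i) := by
  classical
  rw [linearIndependent_iff']
  intro s c hs a ha
  obtain ⟨w, hw⟩ := (wittData_alt h.alt₀).exists_dual_vector h₀.1 v hv a
  have := congrArg (fun x => B x (j w)) hs
  simp only [map_sum, map_smul, LinearMap.sum_apply, LinearMap.smul_apply, h.form, hw,
    smul_eq_mul, map_zero, LinearMap.zero_apply] at this
  rw [Finset.sum_eq_single a (fun b _ hb => by simp [hb]) (fun H => absurd ha H)] at this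
  simpa using this

theorem exists_lift (h : SubStr B B₀ j) (h₀ : B₀.Nondegenerate) (hM : ∀ g, SubNorm j g → g ∈ M)
    (g₀ : SpG B₀) : ∃ g ∈ M, ∀ x, g.1 (j x) = j (g₀.1 x) := by
  let b := Module.finBasis K V₀
  obtain ⟨g, g1, g2⟩ := witt_alt_family h.nondeg h.alt (fun i => j (b i)) (fun i => j (g₀.1 (b i)))
    (h.linInd h₀ b.linearIndependent)
    (h.linInd h₀ (b.linearIndependent.map' g₀.1.toLinearMap g₀.1.ker))
    (fun i k => by rw [h.form, h.form, spG_form])
  have e : (g.toLinearMap.restrictScalars K) ∘ₗ j = j ∘ₗ g₀.1.toLinearMap := b.ext g2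
  have e' : ∀ x, g (j x) = j (g₀.1 x) := fun x => LinearMap.congr_fun e x
  exact ⟨⟨g, g1⟩, hM _ ⟨1, one_ne_zero, fun x => ⟨_, by rw [one_smul]; exact e' x⟩⟩, e'⟩

theorem exists_eq_j (h : SubStr B B₀ j) (h₀ : B₀.Nondegenerate) {v : V}
    (hv : ∀ w, ∃ k, algebraMap K F k = B v (j w)) : ∃ p, v = j p := by
  choose φ hφ using hv
  let l : V₀ →ₗ[K] K :=
    { toFun := φ
      map_add' := fun x y => (algebraMap K F).injective (by simp [hφ])
      map_smul' := fun c x => (algebraMap K F).injective (by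
        rw [hφ, j_smul (F := F), map_smul, RingHom.id_apply, smul_eq_mul, smul_eq_mul, map_mul,
          hφ]) }
  obtain ⟨p, hp⟩ := (LinearMap.BilinForm.toDual B₀ h₀).surjective l
  refine ⟨p, sub_eq_zero.1 (h.eq_zero fun w => ?_)⟩
  have : B₀ p w = φ w := LinearMap.congr_fun hp w
  rw [map_sub, LinearMap.sub_apply, h.form, this, hφ, sub_self]

theorem spT_mem (h : SubStr B B₀ j) (hM : ∀ g, SubNorm j g → g ∈ M) (x : V₀) (k : K) :
    spT h.alt (j x) (algebraMap K F k) ∈ M :=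
  hM _ ⟨1, one_ne_zero, fun y => ⟨y + (k * B₀ y x) • x, by
    rw [one_smul, spT_apply, map_add, j_smul (F := F), map_mul, h.form]⟩⟩

theorem spT_one_mem (h : SubStr B B₀ j) (hM : ∀ g, SubNorm j g → g ∈ M) (x : V₀) :
    spT h.alt (j x) 1 ∈ M := by simpa using h.spT_mem hM x 1

theorem spE_mem (h : SubStr B B₀ j) (hM : ∀ g, SubNorm j g → g ∈ M) (x y : V₀) :
    spE h.alt (j x) (j y) ∈ M := by
  rw [spE, ← map_add, ← spT_inv, ← spT_inv]
  exact M.mul_mem (M.mul_mem (h.spT_one_mem hM _) (M.inv_mem (h.spT_one_mem hM _)))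
    (M.inv_mem (h.spT_one_mem hM _))

theorem spT_all (h : SubStr B B₀ j) (h₀ : B₀.Nondegenerate) (hM : ∀ g, SubNorm j g → g ∈ M)
    {x : V₀} (hx : x ≠ 0) {c : F} (hc : spT h.alt (j x) c ∈ M) (y : V₀) :
    spT h.alt (j y) c ∈ M := by
  by_cases hy : y = 0
  · simpa [hy] using M.one_mem
  obtain ⟨k, hk, rfl⟩ := sp_transitive h₀ h.alt₀ hx hy
  obtain ⟨g, hg, e⟩ := h.exists_lift h₀ hM ⟨k, hk⟩
  rw [← show g.1 (j x) = j (k x) from e x, ← spT_conj]
  exact M.mul_mem (M.mul_mem hg hc) (M.inv_mem hg)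

theorem gs_of (h : SubStr B B₀ j) (h₀ : B₀.Nondegenerate) (hM : ∀ g, SubNorm j g → g ∈ M)
    {e x : V₀} (h1 : B₀ x e = 0) (h2 : LinearIndependent K ![e, x]) {s α : F}
    (H : spE h.alt (α • j x) (j e) * spT h.alt (j e) s ∈ M) : GS h.alt B₀ j M s α :=
  fun e' x' h1' h2' => by
    obtain ⟨k, hk, rfl, rfl⟩ := sp_transitive_pair h₀ h.alt₀ h2 h2'
      (by rw [alt_zero h.alt₀ h1, alt_zero h.alt₀ h1'])
    obtain ⟨g, hg, H'⟩ := h.exists_lift h₀ hM ⟨k, hk⟩
    rw [← show g.1 (j x) = j (k x) from H' x, ← show g.1 (j e) = j (k e) from H' e, ← map_smul,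
      ← spT_conj, ← spE_conj]
    convert M.mul_mem (M.mul_mem hg H) (M.inv_mem hg) using 1
    group

theorem gs_mul (h : SubStr B B₀ j) {e x : V₀} (h1 : B₀ x e = 0) (s α s' α' : F) :
    spE h.alt (α • j x) (j e) * spT h.alt (j e) s * (spE h.alt (α' • j x) (j e) * spT h.alt (j e) s') =
      spE h.alt ((α + α') • j x) (j e) * spT h.alt (j e) (s + s') := by
  have e1 := h.form_zero h1
  refine spG_ext fun z => ?_
  simp only [spG_mul_apply]
  rw [spE_apply h.alt (by simp [e1]), spE_apply h.alt (by simp [e1]), spE_apply h.alt (by simp [e1])]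
  simp only [spT_apply, map_add, map_smul, LinearMap.add_apply, LinearMap.smul_apply, e1,
    alt_zero h.alt e1, h.alt.self_eq_zero, smul_eq_mul]
  module

theorem gs_add (h : SubStr B B₀ j) {s α s' α' : F} (H : GS h.alt B₀ j M s α)
    (H' : GS h.alt B₀ j M s' α') : GS h.alt B₀ j M (s + s') (α + α') := fun e x h1 h2 => by
  rw [← h.gs_mul h1]; exact M.mul_mem (H e x h1 h2) (H' e x h1 h2)

theorem gs_neg (h : SubStr B B₀ j) {s α : F} (H : GS h.alt B₀ j M s α) :
    GS h.alt B₀ j M (-s) (-α) := fun e x h1 h2 => by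
  have := h.gs_mul h1 s α (-s) (-α)
  rw [add_neg_cancel, add_neg_cancel, zero_smul, spE_zero_left, spT_zero, mul_one] at this
  rw [← inv_eq_of_mul_eq_one_right this]
  exact M.inv_mem (H e x h1 h2)

theorem exists_valid (h : SubStr B B₀ j) (h₀ : B₀.Nondegenerate) :
    ∃ e f x : V₀, B₀ e f = 1 ∧ B₀ e x = 0 ∧ B₀ f x = 0 ∧ x ≠ 0 := by
  obtain ⟨e, he, -⟩ := exists_perp_three (B := B₀) h.dim 0 0 0
  obtain ⟨f, hf⟩ := exists_form_eq_one h₀ he
  obtain ⟨x, hx, h1, h2, -⟩ := exists_perp_three (B := B₀) h.dim e f 0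
  exact ⟨e, f, x, hf, h1, h2, hx⟩

theorem linInd_pair {e x f : V₀} (h1 : B₀ e f ≠ 0) (h2 : B₀ x f = 0) (hx : x ≠ 0) :
    LinearIndependent K ![e, x] := by
  rw [LinearIndependent.pair_iff]
  intro s t hst
  have := congrArg (fun z => B₀ z f) hst
  have hs : s = 0 := by simpa [h1, h2] using this
  exact ⟨hs, by simpa [hs, hx] using hst⟩

theorem mem_of_gs (h : SubStr B B₀ j) (h₀ : B₀.Nondegenerate) (hM : ∀ g, SubNorm j g → g ∈ M)
    {s s' α : F} (H : GS h.alt B₀ j M s α) (H' : GS h.alt B₀ j M s' α) (y : V₀) :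
    spT h.alt (j y) (s - s') ∈ M := by
  obtain ⟨e, f, x, h1, h2, h3, hx⟩ := h.exists_valid h₀
  have he : B₀ e f ≠ 0 := by simp [h1]
  have := h.gs_add H (h.gs_neg H') e x (alt_zero h.alt₀ h2) (linInd_pair he (alt_zero h.alt₀ h3) hx)
  rw [add_neg_cancel, zero_smul, spE_zero_left, one_mul, ← sub_eq_add_neg] at this
  exact h.spT_all h₀ hM (ne_zero_left he) this y

theorem gs_star (h : SubStr B B₀ j) (h₀ : B₀.Nondegenerate) (hM : ∀ g, SubNorm j g → g ∈ M)
    {s α c : F} (H : GS h.alt B₀ j M s α) (hc : ∀ y, spT h.alt (j y) c ∈ M) :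
    GS h.alt B₀ j M (c * α ^ 2) (c * α) := by
  obtain ⟨e, f, x, h1, h2, h3, hx⟩ := h.exists_valid h₀
  have he : B₀ x e = 0 := alt_zero h.alt₀ h2
  have hli := linInd_pair (B₀ := B₀) (e := e) (f := f) (by simp [h1]) (alt_zero h.alt₀ h3) hx
  obtain ⟨y, hy⟩ := exists_form_eq_one h₀ hx
  let b := y - B₀ e y • f + B₀ f y • e
  have b1 : B₀ e b = 0 := by simp [b, h1, h.alt₀.self_eq_zero]
  have b2 : B₀ b f = 0 := by
    simp [b, h1, h.alt₀.self_eq_zero, ← h.alt₀.neg_eq f y]
  have b3 : B₀ x b = 1 := by simp [b, hy, he, alt_zero h.alt₀ h3]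
  have := spE_conj_mem h.alt (by simp [h.form_zero he]) (h.form_zero (alt_zero h.alt₀ b1))
    (H e x he hli) (hc b)
  simp only [map_smul, LinearMap.smul_apply, h.form, b3, map_one, smul_eq_mul, mul_one] at this
  exact h.gs_of h₀ hM (alt_zero h.alt₀ b1)
    (linInd_pair (f := f) (by simp [h1]) b2 (ne_zero_right (B := B₀) (u := x) (by simp [b3]))) this

theorem all_of_notMem (h : SubStr B B₀ j) (h₀ : B₀.Nondegenerate) (hM : ∀ g, SubNorm j g → g ∈ M)
    {c : F} (hc : ∀ y, spT h.alt (j y) c ∈ M) (hcK : c ∉ Set.range (algebraMap K F)) (d : F)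
    (y : V₀) : spT h.alt (j y) d ∈ M := by
  let S : Subalgebra K F :=
    { carrier := {σ | ∀ α s, GS h.alt B₀ j M s α → ∃ s', GS h.alt B₀ j M s' (σ * α)}
      mul_mem' := fun ha hb α s H => by
        obtain ⟨s', H'⟩ := hb α s H
        rw [mul_assoc]; exact ha _ s' H'
      add_mem' := fun ha hb α s H => by
        obtain ⟨s₁, H₁⟩ := ha α s H
        obtain ⟨s₂, H₂⟩ := hb α s H
        rw [add_mul]; exact ⟨_, h.gs_add H₁ H₂⟩
      algebraMap_mem' := fun k α s H => ⟨_, h.gs_star h₀ hM H fun y => h.spT_mem hM y k⟩ }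
  have hS : S = ⊤ := ((Subalgebra.isSimpleOrder_of_finrank_prime K F h.prime).eq_bot_or_eq_top
    S).resolve_left fun H => by
      have : c ∈ S := fun α s H => ⟨_, h.gs_star h₀ hM H hc⟩
      rw [H] at this
      exact hcK (Algebra.mem_bot.1 this)
  have g1 : GS h.alt B₀ j M 0 1 := fun e x _ _ => by simpa using h.spE_mem hM x e
  have key : ∀ α : F, spT h.alt (j y) ((c ^ 2 - c) * α ^ 2) ∈ M := fun α => by
    have : α ∈ S := by rw [hS]; trivial
    obtain ⟨s, H⟩ := this 1 0 g1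
    rw [mul_one] at H
    have H1 := h.gs_star h₀ hM H hc
    have H2 := h.gs_star h₀ hM H1 (h.spT_one_mem hM)
    rw [one_mul, one_mul] at H2
    convert h.mem_of_gs h₀ hM H2 H1 y using 2
    ring
  have hc2 : c ^ 2 - c ≠ 0 := by
    rw [_root_.sq, ← mul_sub_one]
    exact mul_ne_zero (fun H => hcK ⟨0, by simp [H]⟩) (sub_ne_zero.2 fun H => hcK ⟨1, by simp [H]⟩)
  obtain ⟨a, b, hab⟩ := h.sq (d / (c ^ 2 - c))
  have := M.mul_mem (key a) (M.inv_mem (key b))
  rw [spT_inv, spT_mul] at this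
  convert this using 2
  rw [← sub_eq_add_neg, ← mul_sub, ← hab, mul_div_cancel₀ _ hc2]

theorem exists_notMem_of_gs (h : SubStr B B₀ j) (h₀ : B₀.Nondegenerate)
    (hM : ∀ g, SubNorm j g → g ∈ M) {s α : F} (H : GS h.alt B₀ j M s α)
    (hα : α ∉ Set.range (algebraMap K F)) :
    ∃ c, (∀ y, spT h.alt (j y) c ∈ M) ∧ c ∉ Set.range (algebraMap K F) := by
  have one := h.spT_one_mem hM
  have sqK : (2 : F) = 0 → ∀ β : F, β ^ 2 ∈ Set.range (algebraMap K F) →
      β ∈ Set.range (algebraMap K F) := fun h2 β ⟨k, hk⟩ => by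
    obtain ⟨k', rfl⟩ := h.perf h2 k
    rw [map_pow] at hk
    refine ⟨k', sub_eq_zero.1 (pow_eq_zero_iff (n := 2) two_ne_zero |>.1 ?_)⟩
    linear_combination hk + (β ^ 2 - algebraMap K F k' * β) * h2
  have st : ∀ {s β : F}, GS h.alt B₀ j M s β → GS h.alt B₀ j M (β ^ 2) β := fun H => by
    simpa using h.gs_star h₀ hM H one
  by_cases h2 : (2 : F) = 0
  swap
  · have g1 : GS h.alt B₀ j M 0 1 := fun e x _ _ => by simpa using h.spE_mem hM x e
    refine ⟨2 * α, fun y => ?_, fun ⟨k, hk⟩ => hα ⟨k / 2, ?_⟩⟩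
    · have := M.mul_mem (h.mem_of_gs h₀ hM (st (h.gs_add H g1)) (h.gs_add (st H) g1) y)
        (M.inv_mem (one y))
      rw [spT_inv, spT_mul] at this
      convert this using 2
      ring
    · rw [map_div₀, hk, map_ofNat, mul_div_cancel_left₀ _ h2]
  by_cases hK : ∃ k : K, k ≠ 0 ∧ k ≠ 1
  · obtain ⟨k, hk0, hk1⟩ := hK
    have H1 := h.gs_star h₀ hM H fun y => h.spT_mem hM y k
    refine ⟨_, h.mem_of_gs h₀ hM (st H1) H1, fun ⟨l, hl⟩ => hα (sqK h2 α ⟨l / (k ^ 2 - k), ?_⟩)⟩
    have : algebraMap K F (k ^ 2 - k) ≠ 0 := by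
      rw [_root_.sq, ← mul_sub_one]
      exact (_root_.map_ne_zero _).2 (mul_ne_zero hk0 (sub_ne_zero.2 hk1))
    rw [map_div₀, hl, div_eq_iff this, map_sub, map_pow]
    ring
  push Not at hK
  obtain ⟨e, f, x, h1, h3, h4, hx⟩ := h.exists_valid h₀
  have a1 := h.alt₀.self_eq_zero
  have h3' := alt_zero h.alt₀ h3
  have h4' := alt_zero h.alt₀ h4
  have h1' : B₀ f e = -1 := by rw [← h.alt₀.neg_eq, h1]
  have li : ∀ {a b : V₀}, LinearIndependent K ![a, b] → LinearIndependent K ![b, a] :=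
    fun H => LinearIndependent.pair_symm_iff.1 H
  have l1 : LinearIndependent K ![e, x] := linInd_pair (f := f) (by simp [h1]) h4' hx
  by_cases hβ : α ^ 2 + α ∈ Set.range (algebraMap K F)
  · have hβ1 : α ^ 2 + α = 1 := by
      obtain ⟨k, hk⟩ := hβ
      by_cases hk0 : k = 0
      · have : α * (α - 1) = 0 := by rw [hk0, map_zero] at hk; linear_combination -hk - α * h2
        rcases mul_eq_zero.1 this with H | H
        · exact absurd ⟨0, by simp [H]⟩ hα
        · exact absurd ⟨1, by simp [sub_eq_zero.1 H]⟩ hα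
      · rw [← hk, hK k hk0, map_one]
    have Y : ∀ a b : V₀, B₀ b a = 0 → LinearIndependent K ![a, b] →
        spT h.alt (j b + α • j a) 1 ∈ M := fun a b e1 e2 => by
      have e3 := h.form_zero e1
      rw [spT_add h.alt (by simp [e3]), spT_smul, one_smul, ← spE_smul h.alt e3, mul_one, mul_assoc,
        (spT_commute_spE h.alt (by simp [e3]) (by simp [alt_zero h.alt e3])
          (h.alt.self_eq_zero _) _).eq]
      exact M.mul_mem (one b) (st H a b e1 e2)
    have y1 := Y (e + f + x) x (by simp [h3', h4', a1]) (linInd_pair (f := f) (by simp [h1, a1, h4'])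
      h4' hx)
    have y2 := Y x f h4 (li (linInd_pair (f := e) (by simp [h1']) h3' hx))
    have y3 := M.mul_mem (M.mul_mem (M.inv_mem y2) y1) y2
    have y4 : (spT h.alt (j f + α • j x) 1)⁻¹ * spT h.alt (j x + α • j (e + f + x)) 1 *
        spT h.alt (j f + α • j x) 1 = spT h.alt (α • j e) 1 := by
      have := spT_conj h.alt (spT h.alt (j f + α • j x) 1)⁻¹ (j x + α • j (e + f + x)) 1
      rw [inv_inv] at this
      rw [this, spT_inv, spT_apply]
      congr 1
      simp only [map_add, map_smul, LinearMap.add_apply, LinearMap.smul_apply, h.form, a1, h1, h3,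
        h4, h4', map_zero, map_one, smul_eq_mul]
      match_scalars
      · linear_combination -hβ1 + (1 + α) * h2 - h2
      · ring
      · ring
    rw [y4, spT_smul, mul_one] at y3
    exact ⟨α ^ 2, h.spT_all h₀ hM (ne_zero_left (B := B₀) (v := f) (by simp [h1])) y3,
      fun H => hα (sqK h2 α H)⟩
  · have n1 := st H e x h3' l1
    have n2 := st H x e h3 (li l1)
    have n3 := st H (e + x) x (by simp [h3', a1]) (linInd_pair (f := f) (by simp [h1, h4']) h4' hx)
    have e1 := h.form_zero h3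
    have e2 := h.form_zero h3'
    have n4 : spE h.alt ((α ^ 2 + α) • j x) (j e) * spT h.alt (j e) 0 ∈ M := by
      convert M.mul_mem (M.mul_mem n1 n2) n3 using 1
      refine spG_ext fun z => ?_
      simp only [spG_mul_apply]
      rw [spE_apply h.alt (by simp [e2]), spE_apply h.alt (by simp [e2]),
        spE_apply h.alt (by simp [e1]), spE_apply h.alt (by simp [e2, h.alt.self_eq_zero])]
      simp only [spT_apply, map_add, map_smul, LinearMap.add_apply, LinearMap.smul_apply, e1, e2,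
        h.alt.self_eq_zero, smul_eq_mul]
      match_scalars
      · ring
      · linear_combination -(α * B z (j x) + α ^ 2 * B z (j e)) * h2
      · linear_combination -(α * B z (j e) + α * B z (j x) + α ^ 2 * B z (j x)) * h2
    have n5 := h.gs_of h₀ hM h3' l1 n4
    refine ⟨_, h.mem_of_gs h₀ hM (st n5) n5, fun H => hβ (sqK h2 _ (by simpa using H))⟩

theorem exists_gs (h : SubStr B B₀ j) (h₀ : B₀.Nondegenerate) (hM : ∀ g, SubNorm j g → g ∈ M)
    {u : V} (hu : ∀ k : K, spT h.alt u (algebraMap K F k) ∈ M) (hr : ¬ RatPt F j u) {e : V₀}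
    (he : e ≠ 0) (hue : B u (j e) = 0) :
    ∃ s α, GS h.alt B₀ j M s α ∧ α ∉ Set.range (algebraMap K F) := by
  by_contra! hc
  have hu1 : spT h.alt u 1 ∈ M := by simpa using hu 1
  obtain ⟨f, hf⟩ := exists_form_eq_one h₀ he
  have hf' : B (j e) (j f) = 1 := by rw [h.form, hf, map_one]
  have dec : ∀ w, B₀ e (w - B₀ e w • f) = 0 := fun w => by simp [hf]
  have key : ∀ x a, B₀ e x = 0 → B₀ e a = 0 →
      B u (j x) * B u (j a) ∈ Set.range (algebraMap K F) := fun x a hx ha => by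
    by_cases hli : LinearIndependent K ![e, a]
    swap
    · rw [LinearIndependent.pair_iff' he] at hli
      push Not at hli
      obtain ⟨k, rfl⟩ := hli
      exact ⟨0, by simp [j_smul (F := F), hue]⟩
    have e1 := h.form_zero hx
    have hE := h.spE_mem hM e x
    have n1 := M.mul_mem (M.inv_mem hu1) (M.mul_mem (M.mul_mem hE hu1) (M.inv_mem hE))
    rw [spT_conj, spE_apply h.alt e1, hue, zero_smul, add_zero, spT_add h.alt (by simp [hue]),
      mul_assoc, inv_mul_cancel_left, one_smul, spT_smul, ← spE_smul h.alt hue,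
      (spT_commute_spE h.alt (by simp [hue]) (by simp [alt_zero h.alt hue])
        (h.alt.self_eq_zero _) _).eq] at n1
    have n2 := spE_conj_mem h.alt (by simp [hue]) (h.form_zero (alt_zero h.alt₀ ha)) n1
      (h.spT_one_mem hM a)
    simpa using hc _ _ (h.gs_of h₀ hM (alt_zero h.alt₀ ha) hli n2)
  obtain ⟨x, hx, hθ⟩ : ∃ x, B₀ e x = 0 ∧ B u (j x) ≠ 0 := by
    by_contra! H
    refine hr ⟨B u (j f), e, sub_eq_zero.1 (h.eq_zero fun w => ?_)⟩
    have := H _ (dec w)
    rw [map_sub, j_smul (F := F), map_sub, map_smul, ← h.form] at this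
    simp only [map_sub, map_smul, LinearMap.sub_apply, LinearMap.smul_apply, smul_eq_mul] at this ⊢
    linear_combination this
  set θ := B u (j x)
  obtain ⟨p, hp⟩ := h.exists_eq_j h₀ (v := θ • u - (θ * B u (j f)) • j e) fun w => by
    obtain ⟨k, hk⟩ := key x _ hx (dec w)
    refine ⟨k, ?_⟩
    rw [hk, map_sub, j_smul (F := F), map_sub, map_smul, ← h.form]
    simp only [map_sub, map_smul, LinearMap.sub_apply, LinearMap.smul_apply, smul_eq_mul]
    ring
  set l := θ * B u (j f)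
  have hp' : θ • u = j p + l • j e := by rw [← hp]; abel
  have hu' : u = θ⁻¹ • (j p + l • j e) := by rw [← hp', inv_smul_smul₀ hθ]
  have e2 : B (j p) (j e) = 0 := by simp [← hp, hue, h.alt.self_eq_zero]
  have e3 : B₀ p e = 0 := (algebraMap K F).injective (by rw [← h.form, e2, map_zero])
  have hli : LinearIndependent K ![e, p] := by
    rw [LinearIndependent.pair_iff' he]
    rintro k rfl
    exact hr ⟨θ⁻¹ * (algebraMap K F k + l), e, by rw [hu', j_smul (F := F)]; module⟩
  obtain ⟨k, hk⟩ := key x x hx hx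
  have n1 := M.mul_mem (M.inv_mem (h.spT_one_mem hM p)) (hu k)
  rw [hk, ← _root_.sq, ← mul_one (θ ^ 2), ← spT_smul, hp', spT_add h.alt (by simp [e2]), mul_assoc,
    inv_mul_cancel_left, one_smul, spT_smul, ← spE_smul h.alt e2,
    (spT_commute_spE h.alt (by simp [e2]) (by simp [alt_zero h.alt e2])
      (h.alt.self_eq_zero _) _).eq] at n1
  obtain ⟨k', hk'⟩ := hc _ _ (h.gs_of h₀ hM e3 hli n1)
  exact hr ⟨θ⁻¹, p + k' • e, by rw [map_add, j_smul (F := F), hk']; exact hu'⟩

theorem exists_perp_rat [Finite V] (h : SubStr B B₀ j) (h₀ : B₀.Nondegenerate)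
    (hM : ∀ g, SubNorm j g → g ∈ M) {u₀ : V} (hu₀ : ∀ k : K, spT h.alt u₀ (algebraMap K F k) ∈ M)
    (hr₀ : ¬ RatPt F j u₀) : ∃ (u : V) (e : V₀), (∀ k : K, spT h.alt u (algebraMap K F k) ∈ M) ∧
      ¬ RatPt F j u ∧ e ≠ 0 ∧ B u (j e) = 0 := by
  classical
  by_contra! hgen
  have := Fintype.ofFinite V
  let Y : Finset V := {u | (∀ k : K, spT h.alt u (algebraMap K F k) ∈ M) ∧ ¬ RatPt F j u}
  have hY : ∀ u, u ∈ Y ↔ (∀ k : K, spT h.alt u (algebraMap K F k) ∈ M) ∧ ¬ RatPt F j u := by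
    simp [Y]
  have hg : ∀ u ∈ Y, ∀ e, e ≠ 0 → B (j e) u ≠ 0 := fun u hu e he =>
    alt_ne h.alt (hgen u e ((hY u).1 hu).1 ((hY u).1 hu).2 he)
  have one : ∀ u ∈ Y, spT h.alt u 1 ∈ M := fun u hu => by simpa using ((hY u).1 hu).1 1
  have hmap : ∀ g ∈ M, ∀ x, ∀ k : K, spT h.alt (g.1 (j x)) (algebraMap K F k) ∈ M :=
    fun g hg x k => by
      rw [← spT_conj]; exact M.mul_mem (M.mul_mem hg (h.spT_mem hM x k)) (M.inv_mem hg)
  have nspan : ∀ u ∈ Y, ∀ (κ a b c : F) (x y z : V₀), κ • u = a • j x + b • j y + c • j z → κ = 0 :=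
    fun u hu κ a b c x y z H => by
      obtain ⟨w, hw, w1, w2, w3⟩ := exists_perp_three (B := B₀) h.dim x y z
      have := congrArg (fun v => B v (j w)) H
      simpa [h.form_zero w1, h.form_zero w2, h.form_zero w3, alt_ne h.alt (hg u hu w hw)] using this
  obtain ⟨e, f, -, h1, -⟩ := h.exists_valid h₀
  have h1' : B₀ f e = -1 := by rw [← h.alt₀.neg_eq, h1]
  let ε : Fin 3 → V₀ := ![e, f, e + f]
  have hε : ∀ i k, B₀ (ε i) (ε k) = 0 → i = k := fun i k => by
    fin_cases i <;> fin_cases k <;> simp [ε, h1, h1', h.alt₀.self_eq_zero]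
  have hε0 : ∀ i, ε i ≠ 0 := fun i H =>
    absurd ((hε i 0 (by simp [H])).symm.trans (hε i 1 (by simp [H]))) (by decide)
  let Ψ : V × Fin 3 → V := fun p => (spT h.alt p.1 1).1 (j (ε p.2))
  have fib : ∀ u ∈ Y, ∀ u' ∈ Y, ∀ i i', Ψ (u, i) = Ψ (u', i') → (u' = u ∨ u' = -u) ∧ i' = i :=
    fun u hu u' hu' i i' H => by
      have hθ := hg u hu _ (hε0 i)
      have hθ' := hg u' hu' _ (hε0 i')
      have H1 : (spT h.alt u 1).1 (j (ε i)) = (spT h.alt u' 1).1 (j (ε i')) := H
      have H2 := H1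
      simp only [spT_apply, one_mul] at H2
      have hi : i' = i := by
        refine hε _ _ ((algebraMap K F).injective ?_)
        obtain ⟨z, hz, z1, z2, -⟩ := exists_perp_three (B := B₀) h.dim (ε i) (ε i') 0
        have hk := M.mul_mem (M.inv_mem (one u' hu')) (one u hu)
        have y1 : RatPt F j (((spT h.alt u' 1)⁻¹ * spT h.alt u 1).1 (j z)) := by
          by_contra hc
          refine hg _ ((hY _).2 ⟨hmap _ hk z, hc⟩) _ (hε0 i') ?_
          rw [spG_mul_apply, ← spG_form (spT h.alt u' 1), sp_apply_inv_apply, ← H1, spG_form]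
          exact h.form_zero z1
        obtain ⟨c, y, hy⟩ := y1
        rw [spT_inv, spG_mul_apply, spT_apply, spT_apply] at hy
        have p1 := congrArg (B (j z)) H2
        have p2 := congrArg (B (j (ε i'))) H2
        have p3 := congrArg (B u) H2
        simp only [map_add, map_smul, smul_eq_mul, h.alt.self_eq_zero, LinearMap.add_apply,
          LinearMap.smul_apply, h.form_zero (alt_zero h.alt₀ z1),
          h.form_zero (alt_zero h.alt₀ z2)] at hy p1 p2 p3
        rw [← h.alt.neg_eq (j (ε i)) u, ← h.alt.neg_eq (j (ε i')) u] at p3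
        have := nspan u hu (B (j z) u * B (j (ε i')) (j (ε i)))
          (B (j (ε i')) u' ^ 2 * c) (-B (j (ε i')) u' ^ 2)
          (B (j (ε i')) u' * (B (j z) u' + B (j z) u * B u u')) y z (ε i - ε i') (by
            have q : B (j z) u * B (j (ε i')) (j (ε i)) = B (j (ε i')) u' ^ 2 * B (j z) u -
                B (j (ε i')) u' * (B (j z) u' + B (j z) u * B u u') * B (j (ε i)) u := by
              linear_combination B (j z) u * p2 - B (j (ε i)) u * p1 -
                B (j z) u * B (j (ε i)) u * p3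
            rw [q, map_sub]
            linear_combination (norm := module) (B (j (ε i')) u' ^ 2) • hy -
              (B (j (ε i')) u' * (B (j z) u' + B (j z) u * B u u')) • H2)
        rw [← h.form, map_zero]
        exact (mul_eq_zero.1 this).resolve_left (hg u hu z hz)
      subst hi
      rw [add_right_inj] at H2
      have p := congrArg (B (j (ε i'))) H2
      simp only [map_smul, smul_eq_mul] at p
      refine ⟨?_, rfl⟩
      rcases mul_self_eq_mul_self_iff.1 p with q | q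
      · exact Or.inl (smul_right_injective V hθ' (by rw [← q] at H2 ⊢; exact H2.symm))
      · refine Or.inr (smul_right_injective V hθ' ?_)
        rw [q] at H2
        linear_combination (norm := module) -H2
  have := Finset.card_le_mul_card_image_of_maps_to (s := Y ×ˢ (Finset.univ : Finset (Fin 3)))
    (t := Y) (f := Ψ) (fun p hp => by
      have hu := (Finset.mem_product.1 hp).1
      refine (hY _).2 ⟨hmap _ (one _ hu) _, fun ⟨c, y, H⟩ => hg _ hu _ (hε0 p.2) ?_⟩
      refine nspan _ hu _ c (-1) 0 y (ε p.2) 0 ?_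
      simp only [Ψ, spT_apply, one_mul] at H
      linear_combination (norm := module) H) 2 (fun v hv => by
      by_cases hne : ∃ p ∈ Y ×ˢ (Finset.univ : Finset (Fin 3)), Ψ p = v
      · obtain ⟨⟨u, i⟩, hp, rfl⟩ := hne
        refine (Finset.card_le_card (t := {(u, i), (-u, i)}) fun q hq => ?_).trans Finset.card_le_two
        obtain ⟨u', i'⟩ := q
        rw [Finset.mem_filter] at hq
        obtain ⟨q1, q2⟩ := fib u (Finset.mem_product.1 hp).1 u' (Finset.mem_product.1 hq.1).1 i i'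
          hq.2.symm
        rcases q1 with q1 | q1 <;> simp [q1, q2]
      · rw [Finset.filter_eq_empty_iff.2 fun p hp H => hne ⟨p, hp, H⟩]; simp)
  rw [Finset.card_product, Finset.card_univ, Fintype.card_fin] at this
  have h5 : 0 < Y.card := Finset.card_pos.2 ⟨u₀, (hY _).2 ⟨hu₀, hr₀⟩⟩
  omega

theorem top [Finite V] (h : SubStr B B₀ j) (h₀ : B₀.Nondegenerate) (M : Subgroup (SpG B))
    (hM : ∀ g, SubNorm j g → g ∈ M) (g : SpG B) (hg : g ∈ M) (hgP : ¬ SubNorm j g) : M = ⊤ := by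
  obtain ⟨e, f, -, h1, -⟩ := h.exists_valid h₀
  have he : B₀ e f ≠ 0 := by simp [h1]
  obtain ⟨x, hx⟩ : ∃ x, ¬ RatPt F j (g.1 (j x)) := by
    by_contra! hc
    choose c y hy using hc
    have key : ∀ x x', B₀ x x' ≠ 0 → ∃ k, algebraMap K F k = c x * c x' ∧ k ≠ 0 := fun x x' H => by
      have e1 := spG_form g (j x) (j x')
      rw [hy, hy] at e1
      simp only [map_smul, LinearMap.smul_apply, smul_eq_mul, h.form] at e1
      have e2 : B₀ (y x) (y x') ≠ 0 := fun H' => H ((algebraMap K F).injective (by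
        rw [← e1, H']; simp))
      refine ⟨B₀ x x' / B₀ (y x) (y x'), ?_, div_ne_zero H e2⟩
      rw [map_div₀, ← e1, div_eq_iff (by simpa using e2)]
      ring
    obtain ⟨k₀, hk₀, hk₀'⟩ := key e f he
    have hce : c e ≠ 0 := fun H => hk₀' ((algebraMap K F).injective (by simp [hk₀, H]))
    refine hgP ⟨(c e)⁻¹, inv_ne_zero hce, fun x => ?_⟩
    by_cases hx : x = 0
    · exact ⟨0, by simp [hx]⟩
    obtain ⟨z, z1, z2⟩ := sp_exists_ne_zero_two h₀ (ne_zero_left he) hx
    obtain ⟨k, hk, hk'⟩ := key z e z1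
    obtain ⟨l, hl, -⟩ := key z x z2
    have hcz : c z ≠ 0 := fun H => hk' ((algebraMap K F).injective (by simp [hk, H]))
    refine ⟨(l / k) • y x, ?_⟩
    rw [hy, j_smul (F := F), map_div₀, hk, hl, smul_smul]
    congr 1
    field_simp
  obtain ⟨u, e', u1, u2, u3, u4⟩ := h.exists_perp_rat h₀ hM (u₀ := g.1 (j x)) (fun k => by
    rw [← spT_conj]; exact M.mul_mem (M.mul_mem hg (h.spT_mem hM x k)) (M.inv_mem hg)) hx
  obtain ⟨s, α, H, hα⟩ := h.exists_gs h₀ hM u1 u2 u3 u4
  obtain ⟨c, c1, c2⟩ := h.exists_notMem_of_gs h₀ hM H hα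
  have hX : ∀ y, j y ∈ XS h.alt M := fun y d => h.all_of_notMem h₀ hM c1 c2 d y
  obtain ⟨U, w1, w2, w3, w4⟩ := (tClosed_XS h.alt M).exists_comp_pair h.alt
    ⟨c, fun H => c2 ⟨0, by simp [H]⟩, fun H => c2 ⟨1, by simp [H]⟩⟩ (hX e) (hX f) (h.form_ne he)
  refine eq_top_of_XS h.nondeg h.alt ((tClosed_XS h.alt M).of_top h.nondeg w4 ?_)
  rcases le_or_le (A := ⊤) (U := (U.restrictScalars K).comap j)
    (U' := ((B.orthogonal U).restrictScalars K).comap j) (fun y _ => w3 _ (hX y)) with H' | H'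
  · rw [eq_top_iff, ← h.span, Submodule.span_le]
    rintro _ ⟨y, rfl⟩
    exact H' (Submodule.mem_top (x := y))
  · exact absurd (H' (Submodule.mem_top (x := f)) _ w1) (h.form_ne he)

theorem exists_not (h : SubStr B B₀ j) (h₀ : B₀.Nondegenerate) : ∃ g : SpG B, ¬ SubNorm j g := by
  obtain ⟨c, hc⟩ : ∃ k : F, k ∉ (⊥ : Subalgebra K F) := by
    by_contra! hc
    have := Subalgebra.bot_eq_top_iff_finrank_eq_one.1 (eq_top_iff.2 fun k _ => hc k)
    exact Nat.not_prime_one (this ▸ h.prime)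
  obtain ⟨e, f, -, h1, -⟩ := h.exists_valid h₀
  have h1' : B₀ f e = -1 := by rw [← h.alt₀.neg_eq, h1]
  refine ⟨spT h.alt (j e) c, fun ⟨d, hd, H⟩ => hc (Algebra.mem_bot.2 ?_)⟩
  obtain ⟨y, hy⟩ := H e
  obtain ⟨z, hz⟩ := H f
  have e1 := congrArg (fun v => B v (j f)) hy
  have e2 := congrArg (fun v => B v (j f)) hz
  simp only [spT_apply, map_add, map_smul, LinearMap.add_apply, LinearMap.smul_apply, h.form, h1,
    h1', h.alt₀.self_eq_zero, map_zero, map_one, smul_eq_mul, map_neg] at e1 e2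
  refine ⟨-B₀ z f / B₀ y f, ?_⟩
  rw [map_div₀, map_neg, ← e1, ← e2]
  field_simp
  ring

end SubStr

end Sub

end Cfsg.Agent.Cl.MaxSp
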