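import Mathlib
import Cfsg.Agent.Cl.MaxSpSub
import Cfsg.Agent.Cl.MaxSpGU

/-!
# Subfield subgroups of `Sp_{2m}(q)`: the matrix form
-/

set_option autoImplicit false
set_option linter.unusedSectionVars false
set_option linter.unusedVariables false

namespace Cfsg.Agent.Cl.MaxSp

open Module Matrix Cfsg.Geo

variable {F : Type*} [Field F] {m : ℕ}

/-- `isMaximalIn_sp` for a form with the same isometry group as the standard form. -/
theorem isMaximalIn_sp' {B : LinearMap.BilinForm F (Fin m ⊕ Fin m → F)} (hB : SpG B = SpG (spB m F))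
    (H : Subgroup (GL (Fin m ⊕ Fin m) F)) (P : SpG B → Prop)
    (hP : ∀ (g : SpG B) (x : GL (Fin m ⊕ Fin m) F), (∀ v, x.1 *ᵥ v = g.1 v) → (x ∈ H ↔ P g))
    (hne : ∃ g, ¬ P g)
    (hmax : ∀ M : Subgroup (SpG B), (∀ g, P g → g ∈ M) → ∀ g ∈ M, ¬ P g → M = ⊤) :
    IsMaximalIn (spGL m F) (H ⊓ spGL m F) := by
  let e : SpG B ≃* SpG (spB m F) := MulEquiv.subgroupCongr hB
  refine isMaximalIn_sp H (fun g => P (e.symm g)) (fun g => hP _ _ fun v => spι_mulVec g v) ?_
    fun M h1 g hg hgP => ?_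
  · obtain ⟨g, hg⟩ := hne
    exact ⟨e g, by rwa [e.symm_apply_apply]⟩
  · have := hmax (M.comap e.toMonoidHom) (fun k hk => h1 (e k) (by rwa [e.symm_apply_apply]))
      (e.symm g) (by simpa using hg) hgP
    refine eq_top_iff.2 fun k _ => ?_
    have hk : e.symm k ∈ M.comap e.toMonoidHom := by rw [this]; trivial
    simpa using hk

theorem spG_smul {V : Type*} [AddCommGroup V] [Module F V] (B : LinearMap.BilinForm F V) {ζ : F}
    (hζ : ζ ≠ 0) : SpG (ζ • B) = SpG B := by
  ext g
  simp only [mem_SpG, LinearMap.smul_apply, smul_eq_mul, mul_right_inj' hζ]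

theorem exists_sq_sub_sq [Fintype F] (x : F) : ∃ a b : F, x = a ^ 2 - b ^ 2 := by
  by_cases h : Odd (Fintype.card F)
  · obtain ⟨a, b, hab⟩ := exists_norm_eq h one_ne_zero x
    exact ⟨a, b, by rw [← hab, one_mul]⟩
  · obtain ⟨a, ha⟩ := exists_sq_of_not_odd h x
    exact ⟨a, 0, by simp [ha]⟩

theorem max_subfield [Fintype F] (hm : 2 ≤ m) (F₀ : Subfield F) (r : ℕ) (hr : r.Prime)
    (hcard : Fintype.card F = Nat.card F₀ ^ r) (P : GL (Fin m ⊕ Fin m) F) (ζ : F) (hζ : ζ ≠ 0)
    (hP : IsFormRationalStructure (sympForm m F) F₀ ζ P) :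
    IsMaximalIn (spGL m F) (subfieldSubgroup F₀ P ⊓ spGL m F) := by
  classical
  let j : (Fin m ⊕ Fin m → F₀) →ₗ[F₀] (Fin m ⊕ Fin m → F) :=
    { toFun := fun x => P.1 *ᵥ fun i => (x i : F)
      map_add' := fun x y => by rw [← mulVec_add]; rfl
      map_smul' := fun c x => by
        rw [RingHom.id_apply, Subfield.smul_def, ← mulVec_smul]; rfl }
  have hj : ∀ x, j x = P.1 *ᵥ fun i => (x i : F) := fun _ => rfl
  let B : LinearMap.BilinForm F (Fin m ⊕ Fin m → F) := ζ • spB m F
  have hB : B.Nondegenerate :=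
    ⟨fun x h => spB_nondegenerate.1 x fun y => by simpa [B, hζ] using h y,
      fun x h => spB_nondegenerate.2 x fun y => by simpa [B, hζ] using h y⟩
  have hA : B.IsAlt := fun x => by simp [B, spB_isAlt.self_eq_zero]
  have hm' : ∀ x y, B (j x) (j y) ∈ F₀ := fun x y => by
    simpa only [B, LinearMap.smul_apply, smul_eq_mul, spB_apply, hj] using
      hP _ _ (fun i => (x i).2) fun i => (y i).2
  let B₀ : LinearMap.BilinForm F₀ (Fin m ⊕ Fin m → F₀) := LinearMap.mk₂ F₀
    (fun x y => ⟨B (j x) (j y), hm' x y⟩) (fun x x' y => Subtype.ext (by simp))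
    (fun c x y => Subtype.ext (by simp [Subfield.smul_def]))
    (fun x y y' => Subtype.ext (by simp))
    (fun c x y => Subtype.ext (by simp [Subfield.smul_def]))
  have hF₀ := Fintype.ofFinite F₀
  have h : SubStr B B₀ j :=
    { nondeg := hB
      alt := hA
      form := fun _ _ => rfl
      span := eq_top_iff.2 fun v _ => by
        rw [← Max.mulVec_inv_mulVec P v, ← Finset.univ_sum_single (P⁻¹.1 *ᵥ v), mulVec_sum]
        refine Submodule.sum_mem _ fun i _ => ?_
        have : P.1 *ᵥ Pi.single i ((P⁻¹.1 *ᵥ v) i) = (P⁻¹.1 *ᵥ v) i • j (Pi.single i 1) := by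
          rw [hj, ← mulVec_smul]
          congr 1
          ext k
          by_cases hk : k = i <;> simp [hk]
        rw [this]
        exact Submodule.smul_mem _ _ (Submodule.subset_span ⟨_, rfl⟩)
      dim := by rw [sp_finrank_std]; omega
      prime := by
        have h1 := Module.natCard_eq_pow_finrank (K := F₀) (V := F)
        rw [Nat.card_eq_fintype_card, hcard] at h1
        rwa [← Nat.pow_right_injective (Finite.one_lt_card (α := F₀)) h1]
      perf := fun h2 => exists_sq_of_not_odd fun hodd =>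
        two_ne_zero_of_odd hodd (Subtype.ext h2)
      sq := exists_sq_sub_sq }
  have hinj : ∀ x, j x = 0 → x = 0 := fun x hx => by
    rw [hj, Max.mulVec_eq_zero_iff] at hx
    ext i
    exact congrFun hx i
  have h1 : ∀ x, (∀ y, B₀ x y = 0) → x = 0 := fun x hx =>
    hinj x (h.eq_zero fun y => h.form_zero (hx y))
  have h₀ : B₀.Nondegenerate := ⟨h1, fun x hx => h1 x fun y => alt_zero h.alt₀ (hx y)⟩
  refine isMaximalIn_sp' (spG_smul _ hζ) _ (SubNorm j) (fun g x hx => ?_) (h.exists_not h₀)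
    (h.top h₀)
  rw [Max.mem_subfieldSubgroup_iff]
  refine exists_congr fun c => and_congr_right fun _ => ⟨fun H y => ?_, fun H i k => ?_⟩
  · obtain ⟨w, hw, e⟩ := H.mulVec (fun i => (y i).2)
    exact ⟨fun i => ⟨w i, hw i⟩, by rw [← hx, ← smul_mulVec]; exact e⟩
  · obtain ⟨y, hy⟩ := H (Pi.single k 1)
    have e : (fun i => ((Pi.single k (1 : F₀) : Fin m ⊕ Fin m → F₀) i : F)) = Pi.single k 1 := by
      ext l
      by_cases hl : l = k <;> simp [hl]
    rw [← hx, ← smul_mulVec, hj, hj, e] at hy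
    have e2 : Max.cj P⁻¹ (c • x.1) *ᵥ Pi.single k 1 = fun i => (y i : F) := by
      rw [Max.cj_mulVec', inv_inv, hy, Max.inv_mulVec_mulVec]
    have e3 := congrFun e2 i
    rw [mulVec_single_one] at e3
    change Max.cj P⁻¹ (c • x.1) i k = _ at e3
    rw [e3]
    exact (y i).2

end Cfsg.Agent.Cl.MaxSp
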