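import Mathlib
import Cfsg.Agent.Cl.MaxSpSubM

/-!
# Reflections of a symmetric form acting on vectors and on endomorphisms

Tools for the tensor case of the maximality theorem for symplectic groups: adjoints (`dag`,
`adj`), reflections `oR`, irreducibility `irr`, and the two core lemmas `exists_rank_one`
(invariant spaces of symmetric maps) and `scalar_of_invariant`.
-/

set_option autoImplicit false
set_option linter.unusedSectionVars false
set_option linter.unusedVariables false

namespace Cfsg.Agent.Cl.MaxSp.Ten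

open Module

section Dag

variable {F : Type*} [Field F] {U V : Type*} [AddCommGroup U] [Module F U] [FiniteDimensional F U]
  [AddCommGroup V] [Module F V] {f : LinearMap.BilinForm F U}

/-- The adjoint of `φ : U → V`: `f (dag φ v) y = B v (φ y)`. -/
noncomputable def dag (hf : f.Nondegenerate) (B : LinearMap.BilinForm F V) (φ : U →ₗ[F] V) :
    V →ₗ[F] U :=
  (LinearMap.BilinForm.toDual f hf).symm.toLinearMap ∘ₗ B.compl₂ φ

@[simp] theorem dag_form (hf : f.Nondegenerate) (B : LinearMap.BilinForm F V) (φ : U →ₗ[F] V)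
    (v : V) (y : U) : f (dag hf B φ v) y = B v (φ y) :=
  LinearMap.BilinForm.apply_toDual_symm_apply (hB := hf) _ _

theorem eq_of_form (hf : f.Nondegenerate) {a b : U} (h : ∀ y, f a y = f b y) : a = b :=
  sub_eq_zero.1 (hf.1 _ fun y => by simp [h y])

theorem exists_rep (hf : f.Nondegenerate) (l : U →ₗ[F] F) : ∃ m, ∀ u, l u = f m u :=
  ⟨(LinearMap.BilinForm.toDual f hf).symm l, fun u =>
    (LinearMap.BilinForm.apply_toDual_symm_apply _ _).symm⟩

theorem exists_form_one (hf : f.Nondegenerate) {a : U} (ha : a ≠ 0) : ∃ y, f a y = 1 := by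
  obtain ⟨y, hy⟩ : ∃ y, f a y ≠ 0 := by by_contra! h; exact ha (hf.1 a h)
  exact ⟨(f a y)⁻¹ • y, by simp [hy]⟩

theorem exists_form_one' (hf : f.Nondegenerate) {a : U} (ha : a ≠ 0) : ∃ y, f y a = 1 := by
  obtain ⟨y, hy⟩ : ∃ y, f y a ≠ 0 := by by_contra! h; exact ha (hf.2 a h)
  exact ⟨(f y a)⁻¹ • y, by simp [hy]⟩

theorem dag_add (hf : f.Nondegenerate) (B : LinearMap.BilinForm F V) (φ ψ : U →ₗ[F] V) (v : V) :
    dag hf B (φ + ψ) v = dag hf B φ v + dag hf B ψ v := eq_of_form hf fun y => by simp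

theorem dag_smul (hf : f.Nondegenerate) (B : LinearMap.BilinForm F V) (c : F) (φ : U →ₗ[F] V)
    (v : V) : dag hf B (c • φ) v = c • dag hf B φ v := eq_of_form hf fun y => by simp

/-- The adjoint of an endomorphism. -/
noncomputable abbrev adj (hf : f.Nondegenerate) (α : U →ₗ[F] U) : U →ₗ[F] U := dag hf f α

theorem dag_comp (hf : f.Nondegenerate) (B : LinearMap.BilinForm F V) (φ : U →ₗ[F] V)
    (α : U →ₗ[F] U) (v : V) : dag hf B (φ ∘ₗ α) v = adj hf α (dag hf B φ v) :=
  eq_of_form hf fun y => by simp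

theorem adj_id (hf : f.Nondegenerate) (u : U) : adj hf LinearMap.id u = u :=
  eq_of_form hf fun y => by simp

theorem adj_zero (hf : f.Nondegenerate) (u : U) : adj hf 0 u = 0 :=
  eq_of_form hf fun y => by simp

theorem finrank_le_inf_ker (D : Submodule F U) (l : U →ₗ[F] F) :
    finrank F D ≤ finrank F (D ⊓ LinearMap.ker l : Submodule F U) + 1 := by
  have h1 := Submodule.finrank_sup_add_finrank_inf_eq D (LinearMap.ker l)
  have h2 := l.finrank_range_add_finrank_ker
  have h3 : finrank F (LinearMap.range l) ≤ 1 := (Submodule.finrank_le _).trans (by simp)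
  have h4 := Submodule.finrank_le (D ⊔ LinearMap.ker l)
  omega

/-- An alternating form on a space of dimension at most three has rank at most two. -/
theorem alt_rank_two {ω : LinearMap.BilinForm F U} (hA : ω.IsAlt) (h3 : finrank F U ≤ 3) {a b : U}
    (h : ω a b = 1) (x y : U) : ω x y = ω x b * ω a y - ω x a * ω b y := by
  have hba : ω b a = -1 := by rw [← hA.neg_eq, h]
  have key : ∀ x y, ω a x = 0 → ω b x = 0 → ω a y = 0 → ω b y = 0 → ω x y = 0 := by
    intro x y h1 h2 h4 h5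
    by_contra hne
    have : LinearIndependent F ![a, b, x, y] := Fintype.linearIndependent_iff.2 fun c hc i => by
      have e : ∀ z, ω (∑ i, c i • ![a, b, x, y] i) z = 0 := fun z => by simp [hc]
      have e1 := e a
      have e2 := e b
      have e3 := e x
      have e4 := e y
      simp [Fin.sum_univ_four, hA.self_eq_zero, h, hba, h1, h2, h4, h5, alt_zero hA h1,
        alt_zero hA h2, alt_zero hA h4, alt_zero hA h5, hne, alt_ne hA hne] at e1 e2 e3 e4
      fin_cases i <;> simp [e1, e2, e3, e4]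
    have := this.fintype_card_le_finrank
    simp at this
    omega
  have := key (x - ω x b • a + ω x a • b) (y - ω y b • a + ω y a • b)
    (by simp [hA.self_eq_zero, h, ← hA.neg_eq x a]) (by simp [hA.self_eq_zero, hba, ← hA.neg_eq x b])
    (by simp [hA.self_eq_zero, h, ← hA.neg_eq y a]) (by simp [hA.self_eq_zero, hba, ← hA.neg_eq y b])
  simp only [map_add, map_sub, map_smul, LinearMap.add_apply, LinearMap.sub_apply,
    LinearMap.smul_apply, smul_eq_mul, hA.self_eq_zero, h, hba] at this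
  rw [← hA.neg_eq a y, ← hA.neg_eq b y] at this
  linear_combination this

end Dag

section Orth

variable {F : Type*} [Field F] {U : Type*} [AddCommGroup U] [Module F U] [FiniteDimensional F U]
  {f : LinearMap.BilinForm F U}

/-- The reflection in `w`. -/
noncomputable def oR (f : LinearMap.BilinForm F U) (w : U) : U →ₗ[F] U :=
  LinearMap.id - (2 / f w w) • (f.flip w).smulRight w

theorem oR_apply (w u : U) : oR f w u = u - (2 / f w w * f u w) • w := by
  simp [oR, smul_smul]

/-- `u ↦ f(u,w) z + f(u,z) w`. -/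
def oS (f : LinearMap.BilinForm F U) (w z : U) : U →ₗ[F] U :=
  (f.flip w).smulRight z + (f.flip z).smulRight w

theorem oS_apply (w z u : U) : oS f w z u = f u w • z + f u z • w := rfl

variable (hs : ∀ x y, f x y = f y x)
include hs

theorem oR_form {w : U} (hw : f w w ≠ 0) (u v : U) : f (oR f w u) (oR f w v) = f u v := by
  simp only [oR_apply, map_sub, map_smul, LinearMap.sub_apply, LinearMap.smul_apply, smul_eq_mul,
    hs w v]
  field_simp
  ring

theorem oR_symm (w u v : U) : f (oR f w u) v = f u (oR f w v) := by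
  simp only [oR_apply, map_sub, map_smul, LinearMap.sub_apply, LinearMap.smul_apply, smul_eq_mul,
    hs w v]
  ring

theorem oR_oR {w : U} (hw : f w w ≠ 0) (u : U) : oR f w (oR f w u) = u := by
  simp only [oR_apply, map_sub, map_smul, LinearMap.sub_apply, LinearMap.smul_apply, smul_eq_mul]
  match_scalars <;> field_simp <;> ring

theorem adj_oR (hf : f.Nondegenerate) (w u : U) : adj hf (oR f w) u = oR f w u :=
  eq_of_form hf fun y => by rw [dag_form, oR_symm hs]

theorem oR_oS (v w z : U) : oR f v ∘ₗ oS f w z ∘ₗ oR f v = oS f (oR f v w) (oR f v z) := by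
  ext u
  simp only [LinearMap.comp_apply, oS_apply, map_add, map_smul, oR_symm hs]

variable (h2 : (2 : F) ≠ 0)
include h2

theorem exists_aniso {D : Submodule F U} {x y : U} (hx : x ∈ D) (hy : y ∈ D) (h : f x y ≠ 0) :
    ∃ w ∈ D, f w w ≠ 0 := by
  by_contra! hc
  have := hc _ (D.add_mem hx hy)
  simp only [map_add, LinearMap.add_apply, hc x hx, hc y hy, hs y x] at this
  exact h (mul_left_cancel₀ h2 (by linear_combination this))

theorem exists_aniso' {D : Submodule F U} (hD : NondegOn f D) (h0 : 1 ≤ finrank F D) :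
    ∃ w ∈ D, f w w ≠ 0 := by
  obtain ⟨x, hx, hx0⟩ := Submodule.exists_mem_ne_zero_of_ne_bot (p := D) (by
    rintro rfl; simp at h0)
  obtain ⟨y, hy, h⟩ := hD x hx hx0
  exact exists_aniso hs h2 hy hx h

/-- The anisotropic vectors span a non-degenerate subspace. -/
theorem le_of_aniso {D T : Submodule F U} (hD : NondegOn f D)
    (h : ∀ v ∈ D, f v v ≠ 0 → v ∈ T) : D ≤ T := fun v hv => by
  by_cases hv0 : v = 0
  · simp [hv0]
  by_cases hvv : f v v = 0
  · obtain ⟨y, hy, h'⟩ := hD v hv hv0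
    obtain ⟨w, hw, hww⟩ := exists_aniso hs h2 hy hv h'
    by_cases h1 : f (v + w) (v + w) = 0
    · have h3 : f (v - w) (v - w) ≠ 0 := fun h3 => by
        simp only [map_add, map_sub, LinearMap.add_apply, LinearMap.sub_apply, hvv] at h1 h3
        exact hww (mul_left_cancel₀ h2 (by linear_combination h1 + h3))
      simpa using T.add_mem (h _ (D.sub_mem hv hw) h3) (h w hw hww)
    · simpa using T.sub_mem (h _ (D.add_mem hv hw) h1) (h w hw hww)
  · exact h v hv hvv

omit hs h2 in
theorem nondegOn_top (hf : f.Nondegenerate) : NondegOn f ⊤ := fun w _ hw => by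
  obtain ⟨y, hy⟩ := exists_form_one' hf hw
  exact ⟨y, trivial, by simp [hy]⟩

theorem eq_zero_of_aniso (hf : f.Nondegenerate) {X : Type*} [AddCommGroup X] [Module F X]
    (L : U →ₗ[F] X) (h : ∀ v, f v v ≠ 0 → L v = 0) (v : U) : L v = 0 :=
  le_of_aniso hs h2 (T := LinearMap.ker L) (nondegOn_top hf) (fun v _ => h v) trivial

omit h2 in
theorem nondegOn_inf {D : Submodule F U} (hD : NondegOn f D) {w : U} (hw : w ∈ D)
    (hww : f w w ≠ 0) : NondegOn f (D ⊓ LinearMap.ker (f w)) := fun z hz hz0 => by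
  obtain ⟨x, hx, h⟩ := hD z hz.1 hz0
  have h1 : f w z = 0 := hz.2
  refine ⟨x - (f w x / f w w) • w, ⟨D.sub_mem hx (D.smul_mem _ hw), ?_⟩, by simpa [h1] using h⟩
  change f w _ = 0
  simp [hww]

/-- Irreducibility of the group generated by the reflections. -/
theorem irr {D T : Submodule F U} (hD : NondegOn f D)
    (hbig : 3 ≤ finrank F D ∨ ∃ a : F, a ≠ 0 ∧ a ^ 2 ≠ 1)
    (hT : ∀ z ∈ T, z ∈ D → ∀ v ∈ D, f v v ≠ 0 → f z v ≠ 0 → v ∈ T) {z : U} (hz : z ∈ T)
    (hzD : z ∈ D) (hz0 : z ≠ 0) : D ≤ T := by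
  obtain ⟨v₁, hv₁, q₁, h₁⟩ : ∃ v ∈ D, f v v ≠ 0 ∧ f z v ≠ 0 := by
    by_contra! hc
    obtain ⟨x, hx, h⟩ := hD z hzD hz0
    exact h ((hs x z).trans (le_of_aniso hs h2 (T := LinearMap.ker (f z)) hD hc hx))
  have t₁ := hT z hz hzD v₁ hv₁ q₁ h₁
  refine le_of_aniso hs h2 hD fun v₂ hv₂ q₂ => ?_
  by_contra t₂
  have key : ∀ x ∈ D, ∀ y ∈ D, x ∈ T → y ∉ T → f x x ≠ 0 → f y y ≠ 0 →
      f x y = 0 ∧ f x x + f y y = 0 := fun x hx y hy tx ty qx qy => by
    have h1 : f x y = 0 := by_contra fun h => ty (hT x tx hx y hy qy h)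
    refine ⟨h1, by_contra fun h => ty ?_⟩
    have := hT x tx hx (x + y) (D.add_mem hx hy) (by simpa [h1, hs y x] using h) (by simpa [h1])
    simpa using T.sub_mem this tx
  obtain ⟨e0, e1⟩ := key v₁ hv₁ v₂ hv₂ t₁ t₂ q₁ q₂
  rcases hbig with h3 | ⟨a, ha, ha1⟩
  · have hD1 := nondegOn_inf hs hD hv₁ q₁
    have hD2 := nondegOn_inf hs hD1 (w := v₂) ⟨hv₂, e0⟩ q₂
    have d1 := finrank_le_inf_ker D (f v₁)
    have d2 := finrank_le_inf_ker (D ⊓ LinearMap.ker (f v₁)) (f v₂)
    obtain ⟨v₃, ⟨⟨hv₃, e2⟩, e3⟩, q₃⟩ := exists_aniso' hs h2 hD2 (by omega)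
    replace e2 : f v₁ v₃ = 0 := e2
    replace e3 : f v₂ v₃ = 0 := e3
    by_cases t₃ : v₃ ∈ T
    · have e4 := (key v₃ hv₃ v₂ hv₂ t₃ t₂ q₃ q₂).2
      have e5 : f (v₁ + v₃) (v₁ + v₃) = 2 * f v₁ v₁ := by
        simp only [map_add, LinearMap.add_apply, e2, hs v₃ v₁]; linear_combination e4 - e1
      have e6 := (key _ (D.add_mem hv₁ hv₃) v₂ hv₂ (T.add_mem t₁ t₃) t₂
        (by rw [e5]; exact mul_ne_zero h2 q₁) q₂).2
      exact q₁ (by linear_combination e6 - e1 - e5)
    · have e4 := (key v₁ hv₁ v₃ hv₃ t₁ t₃ q₁ q₃).2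
      have e5 : f (v₂ + v₃) (v₂ + v₃) = 2 * f v₂ v₂ := by
        simp only [map_add, LinearMap.add_apply, e3, hs v₃ v₂]; linear_combination e4 - e1
      have q : f (v₂ + v₃) (v₂ + v₃) ≠ 0 := by rw [e5]; exact mul_ne_zero h2 q₂
      have t₄ : v₂ + v₃ ∉ T := fun t₄ => q₂ (by
        simpa [hs v₃ v₂, e3] using (key _ (D.add_mem hv₂ hv₃) v₂ hv₂ t₄ t₂ q q₂).1)
      have e6 := (key v₁ hv₁ _ (D.add_mem hv₂ hv₃) t₁ t₄ q₁ q).2
      exact q₂ (by linear_combination e6 - e1 - e5)
  · have e2 := (key v₁ hv₁ (a • v₂) (D.smul_mem a hv₂) t₁ (fun h => t₂ (by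
      simpa [ha] using T.smul_mem a⁻¹ h)) q₁ (by simp [ha, q₂])).2
    simp only [map_smul, LinearMap.smul_apply, smul_eq_mul] at e2
    exact ha1 (mul_right_cancel₀ q₂ (by linear_combination e2 - e1))

omit h2 in
theorem exists_sing [Fintype F] (hodd : Odd (Fintype.card F)) {D : Submodule F U}
    (h3 : 3 ≤ finrank F D) : ∃ a ∈ D, a ≠ 0 ∧ f a a = 0 := by
  by_contra! hc
  obtain ⟨x, hx, hx0, -⟩ := exists_perp_two (B := f) h3 0 0
  obtain ⟨y, hy, hy0, e1, -⟩ := exists_perp_two (B := f) h3 x 0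
  obtain ⟨z, hz, hz0, e2, e3⟩ := exists_perp_two (B := f) h3 x y
  have qx := hc x hx hx0
  have qy := hc y hy hy0
  have qz := hc z hz hz0
  obtain ⟨a, b, hab⟩ := exists_norm_eq hodd (δ := -f y y / f x x) (by simp [qx, qy])
    (-f z z / f x x)
  refine hc (a • x + b • y + z) (D.add_mem (D.add_mem (D.smul_mem _ hx) (D.smul_mem _ hy)) hz)
    (fun h => qz ?_) ?_
  · simpa [e2, e3] using congrArg (f z) h
  · simp only [map_add, map_smul, LinearMap.add_apply, LinearMap.smul_apply, smul_eq_mul, e1, e2,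
      e3, hs x y, hs x z, hs y z]
    field_simp at hab
    linear_combination hab

/-- A reflection-invariant space containing a non-scalar symmetric map contains a map of rank
one. -/
theorem exists_rank_one [Fintype F] (hodd : Odd (Fintype.card F)) (hf : f.Nondegenerate)
    (h3 : 3 ≤ finrank F U) (hbig : 4 ≤ finrank F U ∨ ∃ a : F, a ≠ 0 ∧ a ^ 2 ≠ 1)
    (N : Submodule F (U →ₗ[F] U)) (hN : ∀ w, f w w ≠ 0 → ∀ S ∈ N, oR f w ∘ₗ S ∘ₗ oR f w ∈ N)
    {S : U →ₗ[F] U} (hS : S ∈ N) (hsym : ∀ u v, f (S u) v = f u (S v))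
    (hns : ¬ ∃ c : F, ∀ u, S u = c • u) : ∃ a, a ≠ 0 ∧ f a a = 0 ∧ oS f a a ∈ N := by
  have htop := nondegOn_top hf
  obtain ⟨w, qw, hw⟩ : ∃ w, f w w ≠ 0 ∧ S w - (f (S w) w / f w w) • w ≠ 0 := by
    by_contra! hc
    obtain ⟨w, -, qw⟩ := exists_aniso' hs h2 htop (by simpa using by omega)
    suffices H : ⊤ ≤ LinearMap.ker (S - (f (S w) w / f w w) • LinearMap.id) from
      hns ⟨f (S w) w / f w w, fun u => sub_eq_zero.1 (show _ - _ = 0 from H (trivial : u ∈ ⊤))⟩
    refine irr hs h2 htop (Or.inl (by simpa)) (fun z hz _ v _ qv hzv => ?_) (hc w qw) trivial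
      (ne_zero_left qw)
    have e1 : S z = (f (S w) w / f w w) • z := sub_eq_zero.1 hz
    have e2 := sub_eq_zero.1 (hc v qv)
    have e3 := hsym z v
    rw [e1, e2, map_smul, map_smul, LinearMap.smul_apply, smul_eq_mul, smul_eq_mul] at e3
    rw [← mul_right_cancel₀ hzv e3] at e2
    exact sub_eq_zero.2 e2
  have full : ∀ w, f w w ≠ 0 → ∀ z, z ≠ 0 → f w z = 0 → oS f w z ∈ N → ∀ y, f w y = 0 →
      oS f w y ∈ N := fun w qw z hz0 hz hzN y hy => by
    let L : U →ₗ[F] U →ₗ[F] U :=
      { toFun := oS f w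
        map_add' := fun a b => by ext u; simp only [oS_apply, LinearMap.add_apply, map_add]; module
        map_smul' := fun c a => by
          ext u; simp only [oS_apply, LinearMap.smul_apply, map_smul, RingHom.id_apply]; module }
    have d1 := finrank_le_inf_ker ⊤ (f w)
    rw [finrank_top] at d1
    refine irr hs h2 (T := N.comap L) (nondegOn_inf hs htop trivial qw)
      (hbig.imp_left fun h => by omega) (fun x hx hx' v hv qv hxv => ?_) hzN ⟨trivial, hz⟩ hz0
      (show y ∈ ⊤ ⊓ LinearMap.ker (f w) from ⟨trivial, hy⟩)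
    have e1 : f w v = 0 := hv.2
    have h1 := hN v qv _ hx
    rw [show L x = oS f w x from rfl, oR_oS hs, oR_apply v w, e1, mul_zero, zero_smul,
      sub_zero] at h1
    have h4 := (N.comap L).smul_mem (2 / f v v * f x v)⁻¹ ((N.comap L).sub_mem hx h1)
    rwa [oR_apply, sub_sub_cancel, smul_smul, inv_mul_cancel₀ (by simp [h2, qv, hxv]),
      one_smul] at h4
  have h1 : oS f w (S w - (f (S w) w / f w w) • w) ∈ N := by
    convert N.smul_mem (f w w / 2) (N.sub_mem hS (hN w qw S hS)) using 1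
    ext u
    simp only [oS_apply, oR_apply, LinearMap.smul_apply, LinearMap.sub_apply, LinearMap.comp_apply,
      map_sub, map_smul, smul_eq_mul, hsym u w]
    match_scalars <;> field_simp <;> ring
  have h4 := full w qw _ hw (by simp [hs w (S w), qw]) h1
  obtain ⟨a, -, ha0, qa⟩ := exists_sing hs hodd (D := ⊤) (by simpa)
  obtain ⟨x, qx, hxa, hx⟩ : ∃ x, f x x ≠ 0 ∧ f x a = 0 ∧ ∀ y, f x y = 0 → oS f x y ∈ N := by
    by_cases hwa : f w a = 0
    · exact ⟨w, qw, hwa, h4⟩
    have hD1 := nondegOn_inf hs htop trivial qw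
    have qa' : f (a - (f w a / f w w) • w) (a - (f w a / f w w) • w) ≠ 0 := by
      simp only [map_sub, map_smul, LinearMap.sub_apply, LinearMap.smul_apply, smul_eq_mul, qa,
        hs a w]
      field_simp
      simp [hwa, qw]
    have hD2 := nondegOn_inf hs hD1 (w := a - (f w a / f w w) • w)
      ⟨trivial, show f w _ = 0 by simp [qw]⟩ qa'
    have d1 := finrank_le_inf_ker ⊤ (f w)
    have d2 := finrank_le_inf_ker (⊤ ⊓ LinearMap.ker (f w)) (f (a - (f w a / f w w) • w))
    rw [finrank_top] at d1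
    obtain ⟨x, ⟨⟨-, e1⟩, e2⟩, qx⟩ := exists_aniso' hs h2 hD2 (by omega)
    replace e1 : f w x = 0 := e1
    replace e2 : f (a - (f w a / f w w) • w) x = 0 := e2
    refine ⟨x, qx, by simpa [e1, hs a x] using e2, full x qx w (ne_zero_left qw)
      ((hs x w).trans e1) ?_⟩
    rw [oS, add_comm]
    exact h4 x e1
  have qv : f ((2 : F) • x + a) ((2 : F) • x + a) = 2 * 2 * f x x := by
    simp [qa, hxa, hs a x, mul_assoc]
  have h5 := hN _ (by rw [qv]; simp [h2, qx]) _ (hx a hxa)
  rw [oR_oS hs, oR_apply, oR_apply, qv] at h5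
  refine ⟨a, ha0, qa, ?_⟩
  convert N.neg_mem (N.add_mem h5 (hx a hxa)) using 1
  ext u
  simp only [oS_apply, LinearMap.neg_apply, LinearMap.add_apply, map_add, map_sub, map_smul,
    smul_eq_mul, qa, hxa, hs a x]
  match_scalars <;> field_simp <;> ring

/-- A reflection-invariant additive family with scalar anticommutators consists of scalars. -/
theorem scalar_of_invariant (hf : f.Nondegenerate) (h3 : 3 ≤ finrank F U)
    (A : (U →ₗ[F] U) → Prop) (hsub : ∀ α β, A α → A β → A (α - β))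
    (hR : ∀ w, f w w ≠ 0 → ∀ α, A α → A (oR f w ∘ₗ α ∘ₗ oR f w)) (h1 : A LinearMap.id)
    (hkey : ∀ α β, A α → A β → ∃ c : F, ∀ u, α (adj hf β u) + β (adj hf α u) = c • u)
    {θ : U →ₗ[F] U} (hθ : A θ) : ∃ c : F, ∀ u, θ u = c • u := by
  obtain ⟨c, hc⟩ := hkey θ _ hθ h1
  let β : U →ₗ[F] U := θ - (c / 2) • LinearMap.id
  have hβ : ∀ u, θ u = β u + (c / 2) • u := fun u => by simp [β]
  have hsk : ∀ u v, f (β u) v = -f u (β v) := fun u v => by
    have := congrArg (fun x => f x v) (hc u)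
    simp only [adj_id, LinearMap.id_apply, map_add, LinearMap.add_apply, dag_form, hβ, map_smul,
      LinearMap.smul_apply, smul_eq_mul] at this
    field_simp at this
    refine mul_left_cancel₀ h2 ?_
    linear_combination this
  suffices H : ∀ w, f w w ≠ 0 → β w = 0 from
    ⟨c / 2, fun u => by rw [hβ, eq_zero_of_aniso hs h2 hf β H u, zero_add]⟩
  intro w qw
  have e0 : f (β w) w = 0 := mul_left_cancel₀ h2 (by linear_combination hsk w w - hs w (β w))
  have e0' : f w (β w) = 0 := (hs _ _).trans e0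
  set γ := θ - oR f w ∘ₗ θ ∘ₗ oR f w with hγ
  have e1 : ∀ u, γ u = (2 / f w w) • (f u w • β w - f u (β w) • w) := fun u => by
    simp only [hγ, LinearMap.sub_apply, LinearMap.comp_apply, oR_apply, hβ, map_sub, map_add,
      map_smul, LinearMap.add_apply, LinearMap.sub_apply, LinearMap.smul_apply, smul_eq_mul,
      hsk u w, e0]
    match_scalars <;> field_simp <;> ring
  have e2 : ∀ u, adj hf γ u = -γ u := fun u => eq_of_form hf fun y => by
    simp only [dag_form, e1, map_neg, map_sub, map_smul, LinearMap.neg_apply, LinearMap.sub_apply,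
      LinearMap.smul_apply, smul_eq_mul, hs y w, hs y (β w)]
    ring
  have hγA : A γ := hsub _ _ hθ (hR w qw θ hθ)
  obtain ⟨d, hd⟩ := hkey γ γ hγA hγA
  obtain ⟨x, -, hx0, e3, e4⟩ := exists_perp_two (B := f) (W := ⊤) (by simpa) w (β w)
  have e5 : d = 0 := by simpa [e2, e1 x, e3, e4, hx0] using (hd x).symm
  have e6 : ∀ u, γ (γ u) = 0 := fun u => by
    have := hd u
    rw [e2, e5, zero_smul, map_neg, ← two_smul F, smul_eq_zero, neg_eq_zero] at this
    exact this.resolve_left h2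
  have e7 : f (β w) (β w) = 0 := by
    have := congrArg (f w) (e6 w)
    simpa [e1, e0, e0', h2, qw] using this
  by_contra hne
  obtain ⟨u, hu⟩ := exists_form_one' hf hne
  have := e6 u
  simp [e1, e0, e0', e7, hu, h2, qw, hne] at this

end Orth

end Cfsg.Agent.Cl.MaxSp.Ten
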