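import Mathlib
import Cfsg.Agent.Cl.MaxSpTenO

/-!
# Overgroups of `Sp(W) ∘ O(U)` in `Sp(W ⊗ U)`, I

`TS` describes a symplectic space as a tensor product.  For an overgroup `M ≠ Sp` of the
stabiliser: `TS.r1` (the elements `1 + φ S φ†` of `M` have scalar `S`), the orbit `Orb` of the maps
`u ↦ x ⊗ u`, the word lemma `TS.word`, and rigidity `TS.rat_of_perp`.
-/

set_option autoImplicit false
set_option linter.unusedSectionVars false
set_option linter.unusedVariables false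

namespace Cfsg.Agent.Cl.MaxSp.Ten

open Module

variable {F : Type*} [Field F] {W U V : Type*} [AddCommGroup W] [Module F W]
  [FiniteDimensional F W] [AddCommGroup U] [Module F U] [FiniteDimensional F U]
  [AddCommGroup V] [Module F V] [FiniteDimensional F V]
  {f₁ : LinearMap.BilinForm F W} {f : LinearMap.BilinForm F U} {B : LinearMap.BilinForm F V}
  {t : W →ₗ[F] U →ₗ[F] V}

/-- `(V, B)` is the tensor product of `(W, f₁)` and `(U, f)`. -/
structure TS (f₁ : LinearMap.BilinForm F W) (f : LinearMap.BilinForm F U)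
    (B : LinearMap.BilinForm F V) (t : W →ₗ[F] U →ₗ[F] V) : Prop where
  nd₁ : f₁.Nondegenerate
  alt₁ : f₁.IsAlt
  nd : f.Nondegenerate
  sym : ∀ x y, f x y = f y x
  ndB : B.Nondegenerate
  altB : B.IsAlt
  form : ∀ x y u v, B (t x u) (t y v) = f₁ x y * f u v
  span : Submodule.span F (Set.range fun p : W × U => t p.1 p.2) = ⊤
  dim : finrank F V = finrank F W * finrank F U
  two : (2 : F) ≠ 0
  three : 3 ≤ finrank F U
  big : 4 ≤ finrank F U ∨ ∃ a : F, a ≠ 0 ∧ a ^ 2 ≠ 1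
  sing : ∀ D : Submodule F U, 3 ≤ finrank F D → ∃ a ∈ D, a ≠ 0 ∧ f a a = 0
  rk : ∀ N : Submodule F (U →ₗ[F] U), (∀ w, f w w ≠ 0 → ∀ S ∈ N, oR f w ∘ₗ S ∘ₗ oR f w ∈ N) →
    ∀ S ∈ N, (∀ u v, f (S u) v = f u (S v)) → (¬ ∃ c : F, ∀ u, S u = c • u) →
      ∃ a, a ≠ 0 ∧ f a a = 0 ∧ oS f a a ∈ N

/-- The isometry `g` preserves the tensor decomposition. -/
def TNorm (t : W →ₗ[F] U →ₗ[F] V) (g : SpG B) : Prop :=
  ∃ (k : W →ₗ[F] W) (h : U →ₗ[F] U), ∀ w u, g.1 (t w u) = t (k w) (h u)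

/-- The map `L` is induced by an element of `M`. -/
def Has (M : Subgroup (SpG B)) (L : V → V) : Prop := ∃ g ∈ M, ∀ v, g.1 v = L v

variable {M : Subgroup (SpG B)}

theorem Has.congr {L L' : V → V} (h : Has M L) (e : ∀ v, L v = L' v) : Has M L' := by
  obtain ⟨g, hg, H⟩ := h
  exact ⟨g, hg, fun v => (H v).trans (e v)⟩

theorem Has.comp {L L' : V → V} (h : Has M L) (h' : Has M L') : Has M fun v => L (L' v) := by
  obtain ⟨g, hg, H⟩ := h
  obtain ⟨k, hk, H'⟩ := h'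
  exact ⟨g * k, M.mul_mem hg hk, fun v => by rw [spG_mul_apply, H, H']⟩

theorem Has.inv {L L' : V → V} (h : Has M L) (e : ∀ v, L (L' v) = v) : Has M L' := by
  obtain ⟨g, hg, H⟩ := h
  exact ⟨g⁻¹, M.inv_mem hg, fun v => by
    conv_lhs => rw [← e v, ← H, sp_inv_apply_apply]⟩

theorem Has.conj {L : V → V} (h : Has M L) {g : SpG B} (hg : g ∈ M) :
    Has M fun v => g.1 (L ((g⁻¹).1 v)) := by
  obtain ⟨k, hk, H⟩ := h
  exact ⟨g * k * g⁻¹, M.mul_mem (M.mul_mem hg hk) (M.inv_mem hg), fun v => by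
    rw [spG_mul_apply, spG_mul_apply, H]⟩

/-- Composition with an isometry. -/
def cp (g : SpG B) (φ : U →ₗ[F] V) : U →ₗ[F] V := (g.1 : V →ₗ[F] V) ∘ₗ φ

@[simp] theorem cp_apply (g : SpG B) (φ : U →ₗ[F] V) (u : U) : cp g φ u = g.1 (φ u) := rfl

theorem dag_cp (hf : f.Nondegenerate) (g : SpG B) (φ : U →ₗ[F] V) (v : V) :
    dag hf B (cp g φ) v = dag hf B φ ((g⁻¹).1 v) :=
  eq_of_form hf fun y => by simp [spG_inv_apply, spG_form_symm]

theorem dag_cp_cp (hf : f.Nondegenerate) (g : SpG B) (φ : U →ₗ[F] V) (v : V) :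
    dag hf B (cp g φ) (g.1 v) = dag hf B φ v := by rw [dag_cp, sp_inv_apply_apply]

/-- `v ↦ v + φ θ ψ† v + ψ θ† φ† v + φ S φ† v`. -/
noncomputable def nE (hf : f.Nondegenerate) (B : LinearMap.BilinForm F V) (φ ψ : U →ₗ[F] V)
    (θ S : U →ₗ[F] U) (v : V) : V :=
  v + φ (θ (dag hf B ψ v)) + ψ (adj hf θ (dag hf B φ v)) + φ (S (dag hf B φ v))

theorem Has.nE_conj {hf : f.Nondegenerate} {φ ψ : U →ₗ[F] V} {θ S : U →ₗ[F] U}
    (h : Has M (nE hf B φ ψ θ S)) {g : SpG B} (hg : g ∈ M) :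
    Has M (nE hf B (cp g φ) (cp g ψ) θ S) :=
  (h.conj hg).congr fun v => by simp [nE, dag_cp, sp_apply_inv_apply]

variable (M t) in
/-- The `M`-orbit of the maps `u ↦ x ⊗ u`. -/
def Orb (φ : U →ₗ[F] V) : Prop := ∃ g ∈ M, ∃ x, x ≠ 0 ∧ φ = cp g (t x)

variable (t) in
/-- The image of `φ` lies in some `x ⊗ U`. -/
def Rat (φ : U →ₗ[F] V) : Prop := ∃ x, ∀ u, ∃ u', φ u = t x u'

theorem orb_t {x : W} (hx : x ≠ 0) : Orb t M (t x) := ⟨1, M.one_mem, x, hx, rfl⟩

theorem Orb.cp {φ : U →ₗ[F] V} (h : Orb t M φ) {g : SpG B} (hg : g ∈ M) : Orb t M (cp g φ) := by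
  obtain ⟨k, hk, x, hx, rfl⟩ := h
  exact ⟨g * k, M.mul_mem hg hk, x, hx, rfl⟩

theorem Orb.map {φ ψ : U →ₗ[F] V} (h : Orb t M φ) {L : V → V} (hL : Has M L)
    (e : ∀ u, ψ u = L (φ u)) : Orb t M ψ := by
  obtain ⟨g, hg, H⟩ := hL
  rw [show ψ = Ten.cp g φ from LinearMap.ext fun u => by rw [e, cp_apply, H]]
  exact h.cp hg

namespace TS

variable (h : TS f₁ f B t)
include h

theorem ext {X : Type*} [AddCommGroup X] [Module F X] {L L' : V →ₗ[F] X}
    (e : ∀ w u, L (t w u) = L' (t w u)) (v : V) : L v = L' v :=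
  LinearMap.congr_fun (LinearMap.ext_on_range h.span fun p => e p.1 p.2) v

theorem eq_of {v v' : V} (e : ∀ w u, B v (t w u) = B v' (t w u)) : v = v' :=
  eq_of_form h.ndB (h.ext e)

theorem dag_t (x y : W) (u : U) : dag h.nd B (t x) (t y u) = f₁ y x • u :=
  eq_of_form h.nd fun v => by simp [h.form]

/-- Contraction with `w`. -/
noncomputable abbrev pi (w : U) : V →ₗ[F] W := dag h.nd₁ B (t.flip w)

theorem pi_t (w : U) (y : W) (u : U) : h.pi w (t y u) = f u w • y :=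
  eq_of_form h.nd₁ fun x => by simp [h.form, mul_comm]

theorem pi_form (w : U) (v : V) (x : W) : f₁ (h.pi w v) x = B v (t x w) := by simp

theorem t_ne_zero {x : W} {u : U} (hx : x ≠ 0) (hu : u ≠ 0) : t x u ≠ 0 := fun e => by
  obtain ⟨y, hy⟩ := exists_form_one h.nd₁ hx
  exact hu (by simpa [hy, e] using (h.dag_t y x u).symm)

theorem t_inj {x : W} (hx : x ≠ 0) {u u' : U} (e : t x u = t x u') : u = u' := by
  by_contra hne
  exact h.t_ne_zero hx (sub_ne_zero.2 hne) (by simp [e])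

theorem nontrivial : Nontrivial U := Module.nontrivial_of_finrank_pos (R := F) (by
  have := h.three; omega)

theorem dag_swap (φ ψ : U →ₗ[F] V) (u : U) :
    dag h.nd B ψ (φ u) = -adj h.nd (dag h.nd B φ ∘ₗ ψ) u :=
  eq_of_form h.nd fun y => by simp [h.sym u, h.altB.neg_eq]

theorem exists_lift (k : W →ₗ[F] W) (a : U →ₗ[F] U) :
    ∃ L : V →ₗ[F] V, ∀ w u, L (t w u) = t (k w) (a u) := by
  have hs : Function.Surjective (TensorProduct.lift t) := by
    rw [← LinearMap.range_eq_top, eq_top_iff, ← h.span, Submodule.span_le]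
    rintro _ ⟨p, rfl⟩
    exact ⟨p.1 ⊗ₜ p.2, rfl⟩
  let e := LinearEquiv.ofBijective _ ⟨(LinearMap.injective_iff_surjective_of_finrank_eq_finrank
    (by rw [Module.finrank_tensorProduct, h.dim])).2 hs, hs⟩
  refine ⟨TensorProduct.lift t ∘ₗ TensorProduct.map k a ∘ₗ e.symm.toLinearMap, fun w u => ?_⟩
  have : e.symm (t w u) = w ⊗ₜ u := e.symm_apply_eq.2 rfl
  simp [this]

/-- A vector orthogonal to `e^⊥ ⊗ U` lies in `e ⊗ U`. -/
theorem perpA {e e' : W} (he : f₁ e e' = 1) {v : V} (hv : ∀ x, f₁ e x = 0 → ∀ u, B v (t x u) = 0) :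
    v = t e (dag h.nd B (t e') v) := h.eq_of fun x u => by
  have := hv (x - f₁ e x • e') (by simp [he]) u
  simp only [map_sub, map_smul, LinearMap.sub_apply, LinearMap.smul_apply, smul_eq_mul] at this
  rw [h.form, dag_form]
  linear_combination this

/-- An isometry fixing `e^⊥ ⊗ U` pointwise. -/
theorem exists_fix {e : W} (he : e ≠ 0) (g : SpG B)
    (hg : ∀ x, f₁ e x = 0 → ∀ u, g.1 (t x u) = t x u) :
    ∃ S : U →ₗ[F] U, ∀ v, g.1 v = v + t e (S (dag h.nd B (t e) v)) := by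
  obtain ⟨e', he'⟩ := exists_form_one h.nd₁ he
  have h1 : ∀ v, g.1 v - v = t e (dag h.nd B (t e') (g.1 v - v)) := fun v =>
    h.perpA he' fun x hx u => by
      rw [map_sub, LinearMap.sub_apply, ← spG_form g v, hg x hx, sub_self]
  have h2 : ∀ v, dag h.nd B (t e) v = 0 → g.1 v = v := fun v hv =>
    eq_of_form h.ndB fun y => by
      obtain ⟨y, rfl⟩ := g.1.surjective y
      have := h1 y
      rw [spG_form, ← sub_add_cancel (g.1 y) y, this, map_add, ← dag_form h.nd, hv]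
      simp
  refine ⟨-dag h.nd B (t e') ∘ₗ ((g.1 : V →ₗ[F] V) - LinearMap.id) ∘ₗ t e', fun v => ?_⟩
  have h3 := h2 (v + t e' (dag h.nd B (t e) v)) (by
    rw [map_add, h.dag_t, ← h.alt₁.neg_eq, he']; simp)
  have h4 := h1 (t e' (dag h.nd B (t e) v))
  simp only [LinearMap.neg_apply, LinearMap.comp_apply, LinearMap.sub_apply, LinearMap.id_apply,
    LinearEquiv.coe_coe, map_neg, ← h4]
  rw [map_add] at h3
  linear_combination (norm := module) h3

variable (hM : ∀ g, TNorm t g → g ∈ M)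
include hM

theorem exists_sp (k : W →ₗ[F] W) (a : U →ₗ[F] U) (hk : ∀ x y, f₁ (k x) (k y) = f₁ x y)
    (ha : ∀ u v, f (a u) (a v) = f u v) : ∃ g ∈ M, ∀ w u, g.1 (t w u) = t (k w) (a u) := by
  obtain ⟨L, hL⟩ := h.exists_lift k a
  have : ∀ x y, B (L x) (L y) = B x y := fun x y =>
    LinearMap.congr_fun (h.ext (L := B.compl₁₂ L L) (L' := B) (fun w u => LinearMap.ext
      (h.ext fun w' u' => by simp [hL, h.form, hk, ha])) x) y
  exact ⟨spOfLin h.ndB L this, hM _ ⟨k, a, hL⟩, hL⟩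

theorem exists_left (k : SpG f₁) : ∃ g ∈ M, ∀ w u, g.1 (t w u) = t (k.1 w) u :=
  h.exists_sp hM k.1 LinearMap.id k.2 fun _ _ => rfl

theorem exists_move {x y : W} (hx : x ≠ 0) (hy : y ≠ 0) : ∃ g ∈ M, ∀ u, g.1 (t x u) = t y u := by
  obtain ⟨k, hk, rfl⟩ := sp_transitive h.nd₁ h.alt₁ hx hy
  obtain ⟨g, hg, H⟩ := h.exists_left hM ⟨k, hk⟩
  exact ⟨g, hg, H x⟩

theorem exists_right {a : U →ₗ[F] U} (ha : ∀ u v, f (a u) (a v) = f u v) :
    ∃ g ∈ M, ∀ w u, g.1 (t w u) = t w (a u) :=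
  h.exists_sp hM LinearMap.id a (fun _ _ => rfl) ha

theorem exists_refl {w : U} (hw : f w w ≠ 0) : ∃ g ∈ M, (∀ x u, g.1 (t x u) = t x (oR f w u)) ∧
    ∀ v, g.1 v = v - (2 / f w w) • t (h.pi w v) w := by
  obtain ⟨g, hg, H⟩ := h.exists_right hM (oR_form h.sym hw)
  exact ⟨g, hg, H, h.ext (L := g.1)
    (L' := LinearMap.id - (2 / f w w) • (t.flip w ∘ₗ h.pi w)) fun x u => by
      simp [H, oR_apply, h.pi_t, smul_smul]⟩

theorem hasE {e y : W} (hey : f₁ e y = 0) :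
    Has M fun v => v + t e (dag h.nd B (t y) v) + t y (dag h.nd B (t e) v) := by
  obtain ⟨g, hg, H⟩ := h.exists_left hM (spE h.alt₁ e y)
  exact ⟨g, hg, h.ext (L := g.1) (L' := LinearMap.id + t e ∘ₗ dag h.nd B (t y) +
    t y ∘ₗ dag h.nd B (t e)) fun w u => by simp [H, spE_apply h.alt₁ hey, h.dag_t]; abel⟩

theorem top_of_xs {e : W} (he : e ≠ 0) {a : U} (ha : a ≠ 0) (qa : f a a = 0)
    (hx : t e a ∈ XS h.altB M) : M = ⊤ := by
  have h1 : ∀ x, t x a ∈ XS h.altB M := fun x => by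
    by_cases hx0 : x = 0
    · simpa [hx0] using (tClosed_XS h.altB M).zero_mem
    obtain ⟨g, hg, H⟩ := h.exists_move hM he hx0
    exact H a ▸ XS_map h.altB hg hx
  have h2 : ∀ v, f v v ≠ 0 → ∀ x, t x (oR f v a) ∈ XS h.altB M := fun v hv x => by
    obtain ⟨g, hg, H, -⟩ := h.exists_refl hM hv
    exact H x a ▸ XS_map h.altB hg (h1 x)
  have h3 : ∀ v, f v v ≠ 0 → f a v ≠ 0 → f a (oR f v a) ≠ 0 := fun v hv hav => by
    simp [oR_apply, qa, hv, hav, h.two]
  have h4 : ∀ u, f a u ≠ 0 → ∃ c : F, f (u + c • a) (u + c • a) ≠ 0 := fun u hu => by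
    by_cases hq : f u u = 0
    · exact ⟨1, by simpa [hq, qa, h.sym u a, ← two_mul, h.two] using hu⟩
    · exact ⟨0, by simpa using hq⟩
  obtain ⟨e', he'⟩ := exists_form_one h.nd₁ he
  obtain ⟨u₀, hu₀⟩ := exists_form_one h.nd ha
  obtain ⟨c₀, hc₀⟩ := h4 u₀ (by simp [hu₀])
  have h5 := h3 _ hc₀ (by simp [hu₀, qa])
  obtain ⟨T, t1, t2, hT, hT'⟩ := (tClosed_XS h.altB M).exists_comp_pair h.altB (neg_one_ne h.two)
    (h1 e) (h2 _ hc₀ e') (by simpa [h.form, he'] using h5)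
  have h6 : ∀ s, (∀ x, t x s ∈ XS h.altB M) → (∃ x, t x s ∉ B.orthogonal T) →
      ∀ x, t x s ∈ T := fun s hs ⟨y, hy⟩ x =>
    ((le_or_le (A := LinearMap.range (t.flip s)) (by rintro _ ⟨z, rfl⟩; exact hT _ (hs z))).resolve_right
      fun H => hy (H ⟨y, rfl⟩)) ⟨x, rfl⟩
  have h7 := h6 a h1 ⟨e, fun H => h5 (by
    have : B (t e' _) (t e a) = 0 := H _ t2
    rw [h.form, ← h.alt₁.neg_eq, he', h.sym] at this
    simpa using this)⟩
  have h8 : ∀ x u, f a u ≠ 0 → t x u ∈ T := fun x u hu => by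
    obtain ⟨c, hc⟩ := h4 u hu
    have hv : f a (u + c • a) ≠ 0 := by simpa [qa] using hu
    have h9 := h6 _ (h2 _ hc) ⟨e', fun H => h3 _ hc hv (by
      have : B (t e a) (t e' _) = 0 := H _ t1
      rwa [h.form, he', one_mul] at this)⟩ x
    have h10 := T.smul_mem (2 / f (u + c • a) (u + c • a) * f a (u + c • a))⁻¹ (T.sub_mem (h7 x) h9)
    rw [oR_apply, map_sub, sub_sub_cancel, map_smul, smul_smul,
      inv_mul_cancel₀ (mul_ne_zero (div_ne_zero h.two hc) hv), one_smul, map_add, map_smul] at h10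
    simpa using T.sub_mem h10 (T.smul_mem c (h7 x))
  refine eq_top_of_XS h.ndB h.altB ((tClosed_XS h.altB M).of_top h.ndB hT' ?_)
  rw [eq_top_iff, ← h.span, Submodule.span_le]
  rintro _ ⟨⟨x, u⟩, rfl⟩
  by_cases hu : f a u = 0
  · simpa using T.sub_mem (h8 x (u + u₀) (by simp [hu, hu₀])) (h8 x u₀ (by simp [hu₀]))
  · exact h8 x u hu

variable (hT : M ≠ ⊤)
include hT

theorem r1_t {e : W} (he : e ≠ 0) {S : U →ₗ[F] U}
    (hS : Has M fun v => v + t e (S (dag h.nd B (t e) v))) : ∃ c : F, ∀ u, S u = c • u := by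
  by_contra hns
  obtain ⟨e', he'⟩ := exists_form_one' h.nd₁ he
  have h0 : ∀ u, dag h.nd B (t e) (t e u) = 0 := fun u => by simp [h.dag_t, h.alt₁.self_eq_zero]
  let A : (U →ₗ[F] U) → Prop := fun S => Has M fun v => v + t e (S (dag h.nd B (t e) v))
  have hadd : ∀ S S', A S → A S' → A (S + S') := fun S S' a b =>
    (a.comp b).congr fun v => by simp [h0]; abel
  have hneg : ∀ S, A S → A (-S) := fun S a => a.inv fun v => by simp [h0]
  have hsq : ∀ (c : F) S, A S → A ((c ^ 2) • S) := fun c S a => by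
    by_cases hc : c = 0
    · exact ⟨1, M.one_mem, fun v => by simp [hc, spG_one_apply]⟩
    obtain ⟨g, hg, H⟩ := h.exists_move hM he (smul_ne_zero hc he)
    refine (a.conj hg).congr fun v => ?_
    rw [← dag_cp, show cp g (t e) = c • t e from LinearMap.ext fun u => by simp [H], dag_smul]
    simp [H, sp_apply_inv_apply, smul_smul, _root_.sq]
  let N : Submodule F (U →ₗ[F] U) :=
    { carrier := {S | A S}
      add_mem' := fun a b => hadd _ _ a b
      zero_mem' := ⟨1, M.one_mem, fun v => by simp [spG_one_apply]⟩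
      smul_mem' := fun c S a => by
        have := hadd _ _ (hsq ((c + 1) / 2) S a) (hneg _ (hsq ((c - 1) / 2) S a))
        rwa [← sub_eq_add_neg, ← sub_smul, show ((c + 1) / 2) ^ 2 - ((c - 1) / 2) ^ 2 = c by
          have := h.two; field_simp; ring] at this }
  obtain ⟨a, ha, qa, haN⟩ := h.rk N (fun w hw S a => by
      obtain ⟨g, hg, H, -⟩ := h.exists_refl hM hw
      refine (Has.conj a hg).congr fun v => ?_
      rw [← dag_cp, show cp g (t e) = t e ∘ₗ oR f w from LinearMap.ext fun u => by simp [H],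
        dag_comp, adj_oR h.sym]
      simp [H, sp_apply_inv_apply]) S hS (fun u v => by
      obtain ⟨g, hg, H⟩ := hS
      have := spG_form g (t e' u) (t e' v)
      simp only [H, h.dag_t, he', one_smul, map_add, LinearMap.add_apply, h.form,
        h.alt₁.self_eq_zero, ← h.alt₁.neg_eq e' e] at this
      linear_combination -this) hns
  refine hT (h.top_of_xs hM he ha qa fun c => ?_)
  obtain ⟨g, hg, H⟩ := N.smul_mem (c / 2) haN
  convert hg using 1
  refine spG_ext fun v => ?_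
  have := h.two
  simp only [H, spT_apply, LinearMap.smul_apply, oS_apply, dag_form, map_smul, map_add]
  match_scalars <;> field_simp <;> ring

theorem r1 {φ : U →ₗ[F] V} (hφ : Orb t M φ) {S : U →ₗ[F] U}
    (hS : Has M fun v => v + φ (S (dag h.nd B φ v))) : ∃ c : F, ∀ u, S u = c • u := by
  obtain ⟨g, hg, x, hx, rfl⟩ := hφ
  refine h.r1_t hM hT hx ((hS.conj (M.inv_mem hg)).congr fun v => ?_)
  simp [dag_cp_cp, sp_inv_apply_apply]

omit hT in
theorem hasX {φ : U →ₗ[F] V} (hφ : Orb t M φ) (c : F) :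
    Has M fun v => v + c • φ (dag h.nd B φ v) := by
  obtain ⟨g, hg, x, hx, rfl⟩ := hφ
  obtain ⟨k, hk, H⟩ := h.exists_left hM (spT h.alt₁ x c)
  have : Has M fun v => v + c • t x (dag h.nd B (t x) v) := ⟨k, hk, h.ext (L := k.1)
    (L' := LinearMap.id + c • (t x ∘ₗ dag h.nd B (t x))) fun w u => by
      simp [H, h.dag_t, smul_smul]⟩
  exact (this.conj hg).congr fun v => by simp [dag_cp, sp_apply_inv_apply]

omit hM hT in
theorem orb_self {φ : U →ₗ[F] V} (hφ : Orb t M φ) (u : U) : dag h.nd B φ (φ u) = 0 := by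
  obtain ⟨g, hg, x, hx, rfl⟩ := hφ
  simp [dag_cp_cp, h.dag_t, h.alt₁.self_eq_zero]

omit hM hT in
theorem orb_inj {φ : U →ₗ[F] V} (hφ : Orb t M φ) {u : U} (hu : φ u = 0) : u = 0 := by
  obtain ⟨g, hg, x, hx, rfl⟩ := hφ
  by_contra h0
  exact h.t_ne_zero hx h0 (by simpa using hu)

omit hT in
theorem orb_comp {φ : U →ₗ[F] V} (hφ : Orb t M φ) {a : U →ₗ[F] U}
    (ha : ∀ u v, f (a u) (a v) = f u v) : Orb t M (φ ∘ₗ a) := by
  obtain ⟨g, hg, x, hx, rfl⟩ := hφ
  obtain ⟨k, hk, H⟩ := h.exists_right hM ha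
  exact ⟨g * k, M.mul_mem hg hk, x, hx, LinearMap.ext fun u => by simp [spG_mul_apply, H]⟩

theorem orb_scalar {φ : U →ₗ[F] V} (hφ : Orb t M φ) {a : U →ₗ[F] U} (ha : Orb t M (φ ∘ₗ a)) :
    ∃ c : F, ∀ u, a (adj h.nd a u) = c • u :=
  h.r1 hM hT hφ (S := a ∘ₗ adj h.nd a) ((h.hasX hM ha 1).congr fun v => by simp [dag_comp])

/-- The word lemma. -/
theorem word {φ ψ : U →ₗ[F] V} (hφ : Orb t M φ) (hψ : Orb t M ψ) {P Q : U →ₗ[F] U}
    (hP : ∀ u, dag h.nd B φ (ψ u) = P u) (hQ : ∀ u, dag h.nd B ψ (φ u) = Q u) {ν : F}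
    (hν : ∀ u, Q (P (Q u)) = ν • Q u) (hq : ν = 0 ∨ ∃ a : F, a ≠ 0 ∧ a ^ 2 ≠ 1) :
    ∃ c : F, ∀ u, P (Q u) = c • u := by
  obtain ⟨γ, h0, h1, h2⟩ : ∃ γ : F, γ ≠ 0 ∧ 1 + γ * ν ≠ 0 ∧ 2 + γ * ν ≠ 0 := by
    by_cases hν : ν = 0
    · exact ⟨1, one_ne_zero, by simp [hν], by simpa [hν] using h.two⟩
    obtain ⟨a, ha, ha1⟩ := hq.resolve_left hν
    refine ⟨(a - 1) / ν, div_ne_zero (fun e => ha1 (by rw [sub_eq_zero.1 e]; simp)) hν,
      by simpa [hν] using ha, fun e => ha1 ?_⟩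
    rw [div_mul_cancel₀ _ hν] at e
    linear_combination (a - 1) * e
  have h3 : Orb t M (φ ∘ₗ (LinearMap.id + γ • (P ∘ₗ Q))) := hφ.map
    (((h.hasX hM hψ (-(1 + γ * ν)⁻¹)).comp (h.hasX hM hφ γ)).comp (h.hasX hM hψ 1)) fun u => by
      simp only [LinearMap.comp_apply, LinearMap.add_apply, LinearMap.smul_apply,
        LinearMap.id_apply, map_add, map_smul, hP, hQ, hν, h.orb_self hφ, h.orb_self hψ, map_zero]
      match_scalars <;> field_simp <;> ring
  obtain ⟨c, hc⟩ := h.orb_scalar hM hT hφ h3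
  have h4 : ∀ u, adj h.nd (LinearMap.id + γ • (P ∘ₗ Q)) u = u + γ • P (Q u) := fun u =>
    eq_of_form h.nd fun y => by
      have e1 : ∀ a b, f (P a) b = -f a (Q b) := fun a b => by
        rw [← hP, ← hQ, h.sym a, dag_form, dag_form, h.altB.neg_eq]
      simp [e1, h.sym u (P _), h.sym (Q y)]
  refine ⟨(c - 1) / (γ * (2 + γ * ν)), fun u => ?_⟩
  have := hc u
  simp only [h4, LinearMap.comp_apply, LinearMap.add_apply, LinearMap.smul_apply,
    LinearMap.id_apply, map_add, map_smul, hν] at this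
  refine smul_right_injective U (mul_ne_zero h0 h2) ?_
  simp only [smul_smul, mul_div_cancel₀ _ (mul_ne_zero h0 h2)]
  linear_combination (norm := module) this

/-- A member `y ⊗ 1 + e ⊗ θ` of the orbit has scalar `θ`. -/
theorem r2 {e y : W} (he : e ≠ 0) (hy : y ∉ Submodule.span F {e}) (hey : f₁ e y = 0)
    {θ : U →ₗ[F] U} {μ : F} (hμ : μ ≠ 0)
    (hX : Has M fun v => v + μ • (t y + t e ∘ₗ θ) (dag h.nd B (t y + t e ∘ₗ θ) v)) :
    ∃ c : F, ∀ u, θ u = c • u := by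
  have hye := alt_zero h.alt₁ hey
  have hy0 : y ≠ 0 := fun e => hy (by simp [e])
  have hz := h.alt₁.self_eq_zero
  let A : (U →ₗ[F] U) → Prop := fun θ => ∃ S, Has M (nE h.nd B (t e) (t y) θ S)
  have hsub : ∀ α β S S', Has M (nE h.nd B (t e) (t y) α S) → Has M (nE h.nd B (t e) (t y) β S') →
      Has M (nE h.nd B (t e) (t y) (α - β) (S - S')) := fun α β S S' a b =>
    (a.comp (b.inv (L' := nE h.nd B (t e) (t y) (-β) (-S')) fun v => by
      have := dag_smul h.nd f (-1) β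
      simp only [neg_one_smul] at this
      simp [nE, h.dag_t, hz, hey, hye, this]; abel)).congr fun v => by
      have := dag_smul h.nd f (-1) β
      simp only [neg_one_smul] at this
      simp [nE, h.dag_t, hz, hey, hye, this, sub_eq_add_neg, dag_add]; abel
  obtain ⟨c, hc⟩ := scalar_of_invariant h.sym h.two h.nd h.three A
    (fun α β ⟨S, a⟩ ⟨S', b⟩ => ⟨_, hsub _ _ _ _ a b⟩)
    (fun w hw α ⟨S, a⟩ => by
      obtain ⟨g, hg, H, -⟩ := h.exists_refl hM hw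
      refine ⟨oR f w ∘ₗ S ∘ₗ oR f w, (a.nE_conj hg).congr fun v => ?_⟩
      have e1 : ∀ x, cp g (t x) = t x ∘ₗ oR f w := fun x => LinearMap.ext fun u => by simp [H]
      simp [nE, e1, dag_comp, adj_oR h.sym])
    ⟨0, (h.hasE hM hey).congr fun v => by simp [nE, adj_id]⟩
    (fun α β ⟨S, a⟩ ⟨S', b⟩ => by
      obtain ⟨y₁, h1, h2⟩ := exists_perp_ne h.nd₁ hy
      replace h1 := h1 e (Submodule.mem_span_singleton_self e)
      obtain ⟨k, hk, H⟩ := h.exists_left hM (spT h.alt₁ y₁ 1)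
      obtain ⟨g, hg, H'⟩ := b.nE_conj hk
      have e1 : cp k (t e) = t e := LinearMap.ext fun u => by simp [H, h1]
      have e2 : cp k (t y) = t y + f₁ y y₁ • t y₁ := LinearMap.ext fun u => by simp [H]
      have e3 : cp g (t e) = t e := LinearMap.ext fun u => by
        simp [H', nE, e1, e2, dag_add, dag_smul, h.dag_t, hz, hey, h1]
      have e4 : cp g (t y) = t y + (f₁ y y₁ * f₁ y y₁) • (t e ∘ₗ β) := LinearMap.ext fun u => by
        simp [H', nE, e1, e2, dag_add, dag_smul, h.dag_t, hz, hye, smul_smul]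
      have h3 := a.nE_conj hg
      rw [e3, e4] at h3
      have h4 := hsub α α (S + (f₁ y y₁ * f₁ y y₁) • (α ∘ₗ adj h.nd β + β ∘ₗ adj h.nd α)) S
        (h3.congr fun v => by simp [nE, dag_add, dag_smul, dag_comp]; abel) a
      obtain ⟨c, hc⟩ := h.r1_t hM hT he
        (S := (f₁ y y₁ * f₁ y y₁) • (α ∘ₗ adj h.nd β + β ∘ₗ adj h.nd α))
        (h4.congr fun v => by simp [nE, adj_zero])
      refine ⟨c / (f₁ y y₁ * f₁ y y₁), fun u => smul_right_injective U (mul_ne_zero h2 h2) ?_⟩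
      simp only [smul_smul, mul_div_cancel₀ _ (mul_ne_zero h2 h2)]
      exact hc u)
    (θ := μ • θ) ⟨μ • (θ ∘ₗ adj h.nd θ), (hX.comp (h.hasX hM (orb_t hy0) (-μ))).congr fun v => by
      simp [nE, dag_add, dag_smul, dag_comp, h.dag_t, hz, hey, hye]; abel⟩
  refine ⟨c / μ, fun u => smul_right_injective U hμ ?_⟩
  simp only [smul_smul, mul_div_cancel₀ _ hμ]
  exact hc u

theorem r2' {e y : W} (he : e ≠ 0) (hy : y ∉ Submodule.span F {e}) (hey : f₁ e y = 0)
    {θ : U →ₗ[F] U} (hO : Orb t M (t y + t e ∘ₗ θ)) : ∃ c : F, ∀ u, θ u = c • u :=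
  h.r2 hM hT he hy hey one_ne_zero (h.hasX hM hO 1)

/-- Rigidity: a member of the orbit orthogonal to `e ⊗ U` is rational. -/
theorem rat_of_perp {e : W} (he : e ≠ 0) {ψ : U →ₗ[F] V} (hψ : Orb t M ψ)
    (h0 : ∀ u, dag h.nd B (t e) (ψ u) = 0) : Rat t ψ := by
  have := h.nontrivial
  obtain ⟨e', he'⟩ := exists_form_one h.nd₁ he
  let P : W → U →ₗ[F] U := fun x => dag h.nd B (t x) ∘ₗ ψ
  have hP : ∀ x u, dag h.nd B (t x) (ψ u) = P x u := fun _ _ => rfl
  have hPf : ∀ x u v, f (P x u) v = B (ψ u) (t x v) := fun x u v => dag_form h.nd B (t x) (ψ u) v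
  have hQ : ∀ x u, dag h.nd B ψ (t x u) = -adj h.nd (P x) u := fun x u => h.dag_swap _ _ u
  have hz := h.alt₁.self_eq_zero
  have hPe : ∀ y ∈ Submodule.span F {e}, P y = 0 := fun y hy => by
    obtain ⟨c, rfl⟩ := Submodule.mem_span_singleton.1 hy
    ext u
    simp [P, dag_smul, h0]
  have h1 : ∀ x y, f₁ e x = 0 → f₁ e y = 0 → ∃ c : F, ∀ u, P x (adj h.nd (P y) u) = c • u := by
    intro x y hx hy
    by_cases hy' : y ∈ Submodule.span F {e}
    · exact ⟨0, fun u => by simp [hPe y hy', adj_zero]⟩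
    have hy0 : y ≠ 0 := fun e => hy' (by simp [e])
    have hO : Orb t M (ψ + t e ∘ₗ P x) := hψ.map (h.hasE hM hx) fun u => by simp [h0, hP]
    obtain ⟨c, hc⟩ := h.r2' hM hT he hy' hy (θ := -(P x ∘ₗ adj h.nd (P y)))
      ((orb_t hy0).map ((h.hasX hM hO 1).comp (h.hasX hM hψ (-1)))
        fun u => by
          simp [dag_add, dag_comp, hQ, h0, h.orb_self hψ, h.dag_t, alt_zero h.alt₁ hy])
    exact ⟨-c, fun u => by simpa [neg_eq_iff_eq_neg] using hc u⟩
  by_cases hc : ∃ x y, f₁ e x = 0 ∧ f₁ e y = 0 ∧ ∃ u, P x (adj h.nd (P y) u) ≠ 0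
  · obtain ⟨x, y, hx, hy, u₀, hu₀⟩ := hc
    obtain ⟨κ, hκ⟩ := h1 x y hx hy
    have hκ0 : κ ≠ 0 := fun e => hu₀ (by simp [hκ, e])
    have hsurj : Function.Surjective (adj h.nd (P y)) :=
      LinearMap.injective_iff_surjective.1 ((injective_iff_map_eq_zero _).2 fun u hu => by
        simpa [hu, hκ0] using (hκ u).symm)
    obtain ⟨u₁, hu₁⟩ := exists_ne (0 : U)
    obtain ⟨w₁, hw₁⟩ := exists_form_one h.nd hu₁
    let l : W →ₗ[F] F := κ⁻¹ • B (ψ (adj h.nd (P y) u₁)) ∘ₗ t.flip w₁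
    have h2 : ∀ z, f₁ e z = 0 → ∀ u, P z u = l z • P x u := fun z hz u => by
      obtain ⟨u, rfl⟩ := hsurj u
      obtain ⟨c, hc⟩ := h1 z y hz hy
      have : l z = κ⁻¹ * c := by
        change κ⁻¹ * B (ψ _) (t z w₁) = _
        rw [← hPf, hc]; simp [hw₁]
      rw [hc, hκ, this, smul_smul]; congr 1; field_simp
    obtain ⟨p, hp⟩ := exists_rep h.nd₁ l
    have hpe : f₁ p e = 0 := by
      rw [← hp]
      change κ⁻¹ * B (ψ _) (t e w₁) = _
      rw [← dag_form h.nd, h0]; simp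
    have hinj : Function.Injective (P x) := fun a b hab => by
      obtain ⟨a, rfl⟩ := hsurj a
      obtain ⟨b, rfl⟩ := hsurj b
      rw [hκ, hκ] at hab
      rw [smul_right_injective U hκ0 hab]
    let A := LinearEquiv.ofInjectiveEndo (P x) hinj
    let θ : U →ₗ[F] U := dag h.nd B (t e') ∘ₗ (ψ - t p ∘ₗ P x) ∘ₗ A.symm.toLinearMap
    have h3 : ψ = (t p + t e ∘ₗ θ) ∘ₗ P x := LinearMap.ext fun u => by
      have := h.perpA he' (v := ψ u - t p (P x u)) fun z hz w => by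
        simp [← hPf, h2 z hz, h.form, hp]
      have e : A.symm (P x u) = u := A.symm_apply_apply u
      simp only [θ, LinearMap.comp_apply, LinearMap.add_apply, LinearEquiv.coe_coe, e,
        LinearMap.sub_apply, ← this]
      abel
    obtain ⟨μ, hμ⟩ := h1 x x hx hx
    have hμ0 : μ ≠ 0 := fun e => hu₁ (h.nd.2 u₁ fun v => by
      obtain ⟨w, hw⟩ := LinearMap.injective_iff_surjective.1 hinj u₁
      have h4 : adj h.nd (P x) v = 0 := hinj (by simp [hμ, e])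
      rw [← hw, ← dag_form h.nd, h4]; simp)
    by_cases hp' : p ∈ Submodule.span F {e}
    · obtain ⟨c, rfl⟩ := Submodule.mem_span_singleton.1 hp'
      exact ⟨e, fun u => ⟨c • P x u + θ (P x u), by rw [h3]; simp⟩⟩
    obtain ⟨c, hc⟩ := h.r2 hM hT he hp' (alt_zero h.alt₁ hpe) (θ := θ) hμ0
      ((h.hasX hM hψ 1).congr fun v => by
        conv_lhs => rw [h3, dag_comp, LinearMap.comp_apply, hμ, map_smul, one_smul])
    exact ⟨p + c • e, fun u => ⟨P x u, by rw [h3]; simp [hc]⟩⟩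
  push Not at hc
  refine ⟨e, fun u => ⟨_, h.perpA he' fun y hy w => ?_⟩⟩
  by_cases hy' : y ∈ Submodule.span F {e}
  · simp [← hPf, hPe y hy']
  have hy0 : y ≠ 0 := fun e => hy' (by simp [e])
  have h2 : ∀ u, ψ (adj h.nd (P y) u) = t e (dag h.nd B (t e') (ψ (adj h.nd (P y) u))) := fun u =>
    h.perpA he' fun x hx w => by simp [← hPf, hc x y hx hy]
  obtain ⟨c, hc'⟩ := h.r2' hM hT he hy' hy (θ := dag h.nd B (t e') ∘ₗ ψ ∘ₗ adj h.nd (P y))
    ((orb_t hy0).map (h.hasX hM hψ (-1)) fun u => by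
      simp [hQ, ← h2])
  have h3 : ∀ u, ψ (adj h.nd (P y) u) = c • t e u := fun u => by
    rw [h2, ← map_smul, ← hc']; rfl
  have h4 : c = 0 := by
    by_contra hc0
    have hsurj : Function.Surjective (adj h.nd (P y)) :=
      LinearMap.injective_iff_surjective.1 ((injective_iff_map_eq_zero _).2 fun u hu => by
        by_contra hu0
        exact h.t_ne_zero he hu0 (by simpa [hu, hc0] using (h3 u).symm))
    obtain ⟨u₁, hu₁⟩ := exists_ne (0 : U)
    refine h.t_ne_zero he hu₁ ((smul_eq_zero.1 ?_).resolve_left hc0)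
    rw [← h3, show adj h.nd (P y) u₁ = 0 from h.nd.1 _ fun v => by
      obtain ⟨v, rfl⟩ := hsurj v
      simp [hc y y hy hy], map_zero]
  have h5 : adj h.nd (P y) w = 0 := h.orb_inj hψ (by rw [h3, h4, zero_smul])
  rw [← hPf, h.sym, ← dag_form h.nd, h5]; simp

end TS

end Cfsg.Agent.Cl.MaxSp.Ten
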