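import Mathlib
import Cfsg.Agent.Cl.MaxSpTenA
import Cfsg.Agent.Cl.MaxUnits

/-!
# Overgroups of `Sp(W) ∘ O(U)` in `Sp(W ⊗ U)`, II

The cases `dim W = 2` and `dim U = 3`, `dim W ≤ 4`; passage to matrix groups.
-/

set_option autoImplicit false
set_option linter.unusedSectionVars false
set_option linter.unusedVariables false

namespace Cfsg.Agent.Cl.MaxSp.Ten

open Module

variable {F : Type*} [Field F] {W U V : Type*} [AddCommGroup W] [Module F W]
  [FiniteDimensional F W] [AddCommGroup U] [Module F U] [FiniteDimensional F U]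
  [AddCommGroup V] [Module F V] [FiniteDimensional F V]
  {f₁ : LinearMap.BilinForm F W} {f : LinearMap.BilinForm F U} {B : LinearMap.BilinForm F V}
  {t : W →ₗ[F] U →ₗ[F] V} {M : Subgroup (SpG B)}

theorem cp_inv_cp (g : SpG B) (φ : U →ₗ[F] V) : cp g⁻¹ (cp g φ) = φ :=
  LinearMap.ext fun u => sp_inv_apply_apply g _

theorem cp_cp_inv (g : SpG B) (φ : U →ₗ[F] V) : cp g (cp g⁻¹ φ) = φ :=
  LinearMap.ext fun u => sp_apply_inv_apply g _

theorem two_dim_perp (hf : f₁.Nondegenerate) (hA : f₁.IsAlt) (h2 : finrank F W ≤ 2) {e x : W}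
    (he : e ≠ 0) (hx : f₁ e x = 0) : ∃ c : F, x = c • e := by
  obtain ⟨e', he'⟩ := exists_form_one hf he
  refine ⟨f₁ x e', eq_of_form hf fun y => ?_⟩
  rw [alt_rank_two hA (by omega) he' x y, alt_zero hA hx]
  simp

namespace TS

variable (h : TS f₁ f B t)
include h

theorem tnorm_of_rat (g : SpG B) (hg : ∀ x, x ≠ 0 → Rat t (cp g (t x))) : TNorm t g := by
  have := h.nontrivial
  obtain ⟨u₀, hu₀⟩ := exists_ne (0 : U)
  have h1 : ∀ x, x ≠ 0 → ∃ (x' : W) (a : U →ₗ[F] U), Function.Surjective a ∧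
      ∀ u, g.1 (t x u) = t x' (a u) := fun x hx => by
    obtain ⟨x', H⟩ := hg x hx
    have hx' : x' ≠ 0 := fun e => by
      obtain ⟨u', hu'⟩ := H u₀
      exact h.t_ne_zero hx hu₀ (by simpa [e] using hu')
    obtain ⟨y, hy⟩ := exists_form_one h.nd₁ hx'
    have h2 : ∀ u, g.1 (t x u) = t x' ((dag h.nd B (t y) ∘ₗ cp g (t x)) u) := fun u => by
      obtain ⟨u', hu'⟩ := H u
      rw [LinearMap.comp_apply, hu', h.dag_t, hy, one_smul, ← hu', cp_apply]
    refine ⟨x', _, LinearMap.injective_iff_surjective.1 ((injective_iff_map_eq_zero _).2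
      fun u hu => ?_), h2⟩
    by_contra hu0
    exact h.t_ne_zero hx hu0 (by simpa [hu] using h2 u)
  by_cases hW : ∃ e : W, e ≠ 0
  swap
  · push Not at hW
    exact ⟨0, 0, fun w u => by simp [hW w]⟩
  obtain ⟨e, he⟩ := hW
  obtain ⟨e', a, ha, H⟩ := h1 e he
  have h2 : ∀ x, ∃ x', ∀ u, g.1 (t x u) = t x' (a u) := fun x => by
    by_cases hx : x = 0
    · exact ⟨0, fun u => by simp [hx]⟩
    obtain ⟨x', b, -, Hb⟩ := h1 x hx
    obtain ⟨z, h3, h4⟩ := sp_exists_ne_zero_two h.nd₁ he hx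
    obtain ⟨z', c, hc, Hc⟩ := h1 z (ne_zero_left h3)
    have h5 : ∀ u v, f₁ z' e' * f (c v) (a u) = f₁ z e * f v u := fun u v => by
      rw [← h.form, ← h.form, ← H, ← Hc, spG_form]
    have h6 : ∀ u v, f₁ z' x' * f (c v) (b u) = f₁ z x * f v u := fun u v => by
      rw [← h.form, ← h.form, ← Hb, ← Hc, spG_form]
    obtain ⟨v₀, hv₀⟩ := exists_form_one' h.nd hu₀
    have h7 : f₁ z' x' ≠ 0 := fun e => h4 (by simpa [e, hv₀] using (h6 u₀ v₀).symm)
    refine ⟨(f₁ z x * f₁ z' e' / (f₁ z e * f₁ z' x')) • x', fun u => ?_⟩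
    rw [Hb, map_smul, LinearMap.smul_apply, ← map_smul]
    congr 1
    refine eq_of_form h.nd fun y => ?_
    obtain ⟨v, rfl⟩ := hc y
    rw [map_smul, LinearMap.smul_apply, smul_eq_mul, h.sym (b u), h.sym (a u)]
    field_simp
    linear_combination f₁ z e * h6 u v - f₁ z x * h5 u v
  obtain ⟨u₁, hu₁⟩ := ha u₀
  obtain ⟨w₀, hw₀⟩ := exists_form_one h.nd hu₀
  refine ⟨h.pi w₀ ∘ₗ (g.1 : V →ₗ[F] V) ∘ₗ t.flip u₁, a, fun x u => ?_⟩
  obtain ⟨x', H'⟩ := h2 x
  simp [H', h.pi_t, hu₁, hw₀]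

theorem exists_not {e : W} (he : e ≠ 0) : ∃ g : SpG B, ¬ TNorm t g := by
  obtain ⟨a, -, ha, qa⟩ := h.sing ⊤ (by simpa using h.three)
  obtain ⟨u, hu⟩ := exists_form_one' h.nd ha
  obtain ⟨e', he'⟩ := exists_form_one' h.nd₁ he
  refine ⟨spT h.altB (t e a) 1, fun ⟨k, b, H⟩ => ?_⟩
  have h1 := H e' u
  rw [spT_apply, h.form, he', hu] at h1
  have h2 := congrArg (dag h.nd B (t e)) h1
  have h3 := congrArg (dag h.nd B (t e')) h1
  simp only [map_add, h.dag_t, he', h.alt₁.self_eq_zero, ← h.alt₁.neg_eq e' e, mul_one, one_smul,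
    zero_smul, add_zero, zero_add, neg_smul] at h2 h3
  have h4 := congrArg (f a) h2
  have h5 := congrArg (f a) h3
  simp only [map_smul, map_neg, smul_eq_mul, qa, h.sym a u, hu, neg_zero] at h4 h5
  rcases mul_eq_zero.1 h5.symm with h6 | h6
  · exact ha (by simpa [h6] using h3)
  · simp [h6] at h4

theorem perp_two (h2 : finrank F W ≤ 2) {φ : U →ₗ[F] V} (hφ : Orb t M φ) {v : V}
    (hv : dag h.nd B φ v = 0) : ∃ u, v = φ u := by
  obtain ⟨g, hg, x, hx, rfl⟩ := hφ
  obtain ⟨v, rfl⟩ := g.1.surjective v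
  rw [dag_cp_cp] at hv
  obtain ⟨x', hx'⟩ := exists_form_one h.nd₁ hx
  refine ⟨_, congrArg g.1 (h.perpA hx' fun y hy u => ?_)⟩
  obtain ⟨c, rfl⟩ := two_dim_perp h.nd₁ h.alt₁ h2 hx hy
  simp [← dag_form h.nd, hv]

/-- A member of the orbit whose image is stable under all reflections is rational. -/
theorem rat_of_stable {φ : U →ₗ[F] V} (hφ : Orb t M φ)
    (H : ∀ w, f w w ≠ 0 → ∀ u, ∃ u', t (h.pi w (φ u)) w = φ u') : Rat t φ := by
  have := h.nontrivial
  obtain ⟨u₁, hu₁⟩ := exists_ne (0 : U)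
  obtain ⟨w₁, q₁, hw₁⟩ : ∃ w, f w w ≠ 0 ∧ h.pi w (φ u₁) ≠ 0 := by
    by_contra! hc
    refine hu₁ (h.orb_inj hφ (h.eq_of fun x w => ?_))
    rw [map_zero, LinearMap.zero_apply]
    exact eq_zero_of_aniso h.sym h.two h.nd (B (φ u₁) ∘ₗ t x) (fun w hw => by
      rw [LinearMap.comp_apply, ← h.pi_form, hc w hw]; simp) w
  set x := h.pi w₁ (φ u₁)
  have h1 := irr h.sym h.two (T := (LinearMap.range φ).comap (t x)) (nondegOn_top h.nd)
    (Or.inl (by simpa using h.three)) (fun z ⟨u, hu⟩ _ v _ qv hzv => by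
      obtain ⟨u', hu'⟩ := H v qv u
      rw [hu, h.pi_t] at hu'
      exact ⟨(f z v)⁻¹ • u', by rw [map_smul, ← hu']; simp [smul_smul, hzv]⟩)
    (show w₁ ∈ _ from (H w₁ q₁ u₁).imp fun u' e => e.symm) trivial (ne_zero_left q₁)
  have h2 : LinearMap.range (t x) = LinearMap.range φ := Submodule.eq_of_le_of_finrank_eq
    (by rintro _ ⟨u, rfl⟩; exact h1 (trivial : u ∈ ⊤)) (by
      rw [LinearMap.finrank_range_of_inj fun a b => h.t_inj hw₁,
        LinearMap.finrank_range_of_inj ((injective_iff_map_eq_zero φ).2 fun a => h.orb_inj hφ)])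
  exact ⟨x, fun u => (show φ u ∈ LinearMap.range (t x) from h2 ▸ ⟨u, rfl⟩).imp fun _ e => e.symm⟩

variable (hM : ∀ g, TNorm t g → g ∈ M) (hT : M ≠ ⊤)
include hM hT

/-- Orthogonal members of the orbit with a common vector have the same image. -/
theorem range_of_perp {φ ψ : U →ₗ[F] V} (hφ : Orb t M φ) (hψ : Orb t M ψ)
    (h0 : ∀ u, dag h.nd B φ (ψ u) = 0) {a b : U} (ha : a ≠ 0) (hab : φ a = ψ b) (u : U) :
    ∃ u', ψ u = φ u' := by
  obtain ⟨g, hg, x, hx, rfl⟩ := hφ
  obtain ⟨y, hy⟩ := h.rat_of_perp hM hT hx (hψ.cp (M.inv_mem hg)) fun u => by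
    rw [cp_apply, ← dag_cp, h0]
  obtain ⟨b', hb'⟩ := hy b
  rw [cp_apply, ← hab, cp_apply, sp_inv_apply_apply] at hb'
  obtain ⟨w, hw⟩ := exists_form_one h.nd ha
  have h1 := congrArg (h.pi w) hb'
  rw [h.pi_t, h.pi_t, hw, one_smul] at h1
  have h2 : f b' w ≠ 0 := fun e => hx (by simpa [e] using h1)
  obtain ⟨u', hu'⟩ := hy u
  refine ⟨(f b' w)⁻¹ • u', ?_⟩
  rw [← sp_apply_inv_apply g (ψ u), ← cp_apply, hu', h1]
  simp [smul_smul, h2]

theorem rat_of_refl (hd : finrank F W < 2 * finrank F U) {φ : U →ₗ[F] V} (hφ : Orb t M φ)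
    (H : ∀ w, f w w ≠ 0 → ∀ u v, f₁ (h.pi w (φ u)) (h.pi w (φ v)) = 0) : Rat t φ := by
  refine h.rat_of_stable hφ fun w hw u => ?_
  obtain ⟨g, hg, -, hg'⟩ := h.exists_refl hM hw
  obtain ⟨a, ha, ha0⟩ : ∃ a, h.pi w (φ a) = 0 ∧ a ≠ 0 := by
    by_contra! hc
    have h1 := LinearMap.finrank_range_of_inj ((injective_iff_map_eq_zero (h.pi w ∘ₗ φ)).2 hc)
    have h2 := Submodule.finrank_mono (show LinearMap.range (h.pi w ∘ₗ φ) ≤
      f₁.orthogonal (LinearMap.range (h.pi w ∘ₗ φ)) by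
        rintro _ ⟨u, rfl⟩ _ ⟨v, rfl⟩; exact H w hw v u)
    rw [LinearMap.BilinForm.finrank_orthogonal h.nd₁, h1] at h2
    omega
  obtain ⟨u', hu'⟩ := h.range_of_perp hM hT hφ (hφ.cp hg) (fun u => eq_of_form h.nd fun v => by
    rw [cp_apply, hg', map_sub, h.orb_self hφ, map_smul, zero_sub, map_neg, map_smul,
      LinearMap.neg_apply, LinearMap.smul_apply, dag_form, ← h.altB.neg_eq, ← h.pi_form, H w hw]
    simp) ha0 (b := a) (by simp [hg', ha]) u
  refine ⟨(2 / f w w)⁻¹ • (u - u'), ?_⟩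
  rw [map_smul, map_sub, ← hu', cp_apply, hg', sub_sub_cancel, smul_smul,
    inv_mul_cancel₀ (div_ne_zero h.two hw), one_smul]

omit hT in
/-- A non-rational member of the orbit gives a pair with skew product of rank two. -/
theorem exists_pair (h3 : finrank F W ≤ 3 ∨ finrank F U ≤ 3) {φ : U →ₗ[F] V} (hφ : Orb t M φ)
    {w : U} (hw : f w w ≠ 0) {u v : U} (huv : f₁ (h.pi w (φ u)) (h.pi w (φ v)) ≠ 0) :
    ∃ ψ, Orb t M ψ ∧ ∃ a b u₁ v₁, f a u₁ = 0 ∧ f a v₁ = 1 ∧ f b u₁ = -1 ∧ f b v₁ = 0 ∧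
      ∀ u, dag h.nd B φ (ψ u) = f u a • b - f u b • a := by
  obtain ⟨g, hg, -, hg'⟩ := h.exists_refl hM hw
  let P := dag h.nd B φ ∘ₗ cp g φ
  let ω : LinearMap.BilinForm F U := f ∘ₗ P
  let ω₁ : LinearMap.BilinForm F W := (-(2 / f w w)) • f₁
  have h1 : ∀ u v, ω u v = ω₁ (h.pi w (φ u)) (h.pi w (φ v)) := fun u v => by
    change f (dag h.nd B φ (g.1 (φ u))) v = -(2 / f w w) * f₁ _ _
    rw [hg', map_sub, h.orb_self hφ, map_smul, zero_sub, map_neg, map_smul,
      LinearMap.neg_apply, LinearMap.smul_apply, dag_form, ← h.altB.neg_eq, ← h.pi_form,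
      h.alt₁.neg_eq, smul_eq_mul, neg_mul]
  have hA₁ : ω₁.IsAlt := fun x => by simp [ω₁, h.alt₁.self_eq_zero]
  have hA : ω.IsAlt := fun x => by rw [h1, hA₁.self_eq_zero]
  have h2 : ω u v ≠ 0 := by
    rw [h1]; exact mul_ne_zero (neg_ne_zero.2 (div_ne_zero h.two hw)) huv
  set v₁ := (ω u v)⁻¹ • v
  have h4 : ω u v₁ = 1 := by simp [v₁, h2]
  have h5 : ∀ x y, ω x y = ω x v₁ * ω u y - ω x u * ω v₁ y := fun x y => by
    rcases h3 with h3 | h3
    · simp only [h1] at h4 ⊢
      exact alt_rank_two hA₁ h3 h4 _ _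
    · exact alt_rank_two hA h3 h4 x y
  have h6 : ∀ x y, f (P x) y = ω x y := fun _ _ => rfl
  refine ⟨cp g φ, hφ.cp hg, P u, P v₁, u, v₁, hA.self_eq_zero u, h4, by rw [h6, ← hA.neg_eq, h4],
    hA.self_eq_zero v₁, fun x => eq_of_form h.nd fun y => ?_⟩
  change ω x y = _
  simp only [map_sub, map_smul, LinearMap.sub_apply, LinearMap.smul_apply, smul_eq_mul,
    h.sym x (P _), h6, h5 x y, ← hA.neg_eq x u, ← hA.neg_eq x v₁]
  ring

theorem false_of_null (h2 : finrank F W ≤ 2) (h5 : 5 ≤ finrank F U) {e : W} (he : e ≠ 0)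
    {φ : U →ₗ[F] V} (hφ : Orb t M φ) {a b u₁ v₁ : U} (e1 : f a u₁ = 0) (e2 : f a v₁ = 1)
    (e3 : f b u₁ = -1) (e4 : f b v₁ = 0) (hP : ∀ u, dag h.nd B φ (t e u) = f u a • b - f u b • a)
    (qa : f a a = 0) (qab : f a b = 0) (qb : f b b = 0) : False := by
  have hz := h.alt₁.self_eq_zero
  have hQ : ∀ u, dag h.nd B (t e) (φ u) = f u a • b - f u b • a := fun u =>
    eq_of_form h.nd fun y => by
      rw [dag_form, ← h.altB.neg_eq, ← dag_form h.nd, hP]
      simp [h.sym y, h.sym u]; ring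
  obtain ⟨a', ha'⟩ := h.perp_two h2 (orb_t (M := M) he) (v := φ a) (by simp [hQ, qa, qab])
  obtain ⟨b', hb'⟩ := h.perp_two h2 (orb_t (M := M) he) (v := φ b) (by simp [hQ, qb, h.sym b a, qab])
  let β : U →ₗ[F] U := (f.flip a).smulRight b' - (f.flip b).smulRight a'
  have hβ : ∀ u, β u = f u a • b' - f u b • a' := fun _ => rfl
  have hβ' : ∀ u, adj h.nd β u = f u b' • a - f u a' • b := fun u => eq_of_form h.nd fun y => by
    simp [hβ, h.sym y]; ring
  have h1 : ∀ u, φ (dag h.nd B φ (t e u)) = t e (β u) := fun u => by simp [hP, hβ, ha', hb']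
  obtain ⟨d, hd, d1, d2, d3, d4⟩ := exists_perp_four (B := f) h5 a b a' b'
  have h3 : ∀ c : F, ∀ u, c • β u + c • adj h.nd β u + (c * c) • β (adj h.nd β u) = 0 := by
    intro c u
    obtain ⟨κ, hκ⟩ := h.orb_scalar hM hT (orb_t he) (a := LinearMap.id + c • β)
      ((orb_t he).map (h.hasX hM hφ c) fun u => by simp [h1])
    simp only [dag_add, dag_smul, adj_id, LinearMap.add_apply, LinearMap.smul_apply,
      LinearMap.id_apply, map_add, map_smul] at hκ
    have h4 : κ = 1 := by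
      have := hκ d
      have i1 : β d = 0 := by simp [hβ, h.sym d, d1, d2]
      have i2 : adj h.nd β d = 0 := by simp [hβ', h.sym d, d3, d4]
      simp only [i1, i2, smul_zero, add_zero, map_zero] at this
      exact smul_left_injective F hd (this.symm.trans (one_smul F d).symm)
    have := hκ u
    rw [h4] at this
    linear_combination (norm := module) this
  have h4 : ∀ u, adj h.nd β u = -β u := fun u => smul_right_injective U h.two (by
    linear_combination (norm := module) h3 1 u - h3 (-1) u)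
  have h6 : ∀ u, β (β u) = 0 := fun u => by simpa [h4] using h3 1 u
  have h7 : ∀ u v, f u (β v) = -f (β u) v := fun u v => by rw [← dag_form h.nd, h4]; simp
  obtain ⟨g, hg, H⟩ := h.hasX hM hφ 1
  obtain ⟨k, hk, H'⟩ := h.exists_right hM (a := LinearMap.id - β) fun u v => by
    simp [h7, h6]
  obtain ⟨S, hS⟩ := h.exists_fix he (k * g) fun x hx u => by
    obtain ⟨c, rfl⟩ := two_dim_perp h.nd₁ h.alt₁ h2 he hx
    simp [spG_mul_apply, H, h1, H', h6]
  obtain ⟨μ, hμ⟩ := h.r1_t hM hT he ⟨k * g, M.mul_mem hk hg, hS⟩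
  obtain ⟨e', he'⟩ := exists_form_one' h.nd₁ he
  have h8 : ∀ x u, φ (dag h.nd B φ (t x u)) = t x (β u) + (μ * f₁ x e) • t e (u + β u) := by
    intro x u
    apply k.1.injective
    have := hS (t x u)
    simp only [spG_mul_apply, H, one_smul, map_add, hμ, h.dag_t, H'] at this
    simp only [map_add, map_smul, H', LinearMap.sub_apply, LinearMap.id_apply, map_sub, h6,
      map_zero] at this ⊢
    linear_combination (norm := module) this
  have h9 : μ = 0 := by
    have := congrArg (fun v => φ (dag h.nd B φ v)) (h8 e' u₁)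
    simp only [h.orb_self hφ] at this
    simp only [map_zero, map_add, map_smul, h8, h6, he', hz, mul_one, mul_zero,
      zero_smul, add_zero, zero_add] at this
    rw [← two_smul F] at this
    refine (smul_eq_zero.1 ((smul_eq_zero.1 this.symm).resolve_left h.two)).resolve_right ?_
    rw [hβ, h.sym u₁, h.sym u₁, e1, e3]
    simp only [zero_smul, neg_smul, one_smul, zero_sub, neg_neg, ← ha']
    exact fun e => by simpa [h.orb_inj hφ e] using e2
  obtain ⟨x, hx, x1, x2, x3, x4⟩ := exists_perp_four (B := f) h5 a b u₁ v₁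
  obtain ⟨y, y1, y2⟩ := exists_perp_ne h.nd (W := Submodule.span F {a, b}) (y := x) fun hx' => by
    obtain ⟨c, c', rfl⟩ := Submodule.mem_span_pair.1 hx'
    simp [h.sym u₁, h.sym v₁, e1, e2, e3, e4] at x3 x4
    simp [x3, x4] at hx
  have h10 : ∀ z u, f a u = 0 → f b u = 0 → ∃ u', t z u = φ u' := fun z u i1 i2 =>
    h.perp_two h2 hφ (h.orb_inj hφ (by simp [h8, h9, hβ, h.sym u, i1, i2]))
  obtain ⟨x', hx'⟩ := h10 e' x x1 x2
  obtain ⟨y', hy'⟩ := h10 e y (y1 a (Submodule.subset_span (by simp)))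
    (y1 b (Submodule.subset_span (by simp)))
  have := h.form e' e x y
  rw [hx', hy', ← dag_form h.nd, h.orb_self hφ, he'] at this
  exact y2 (by simpa using this.symm)

theorem false_of_nondeg (h2 : finrank F W ≤ 2) (h5 : 5 ≤ finrank F U) {e : W} (he : e ≠ 0)
    {ψ : U →ₗ[F] V} (hψ : Orb t M ψ) {a b : U}
    (hP : ∀ u, dag h.nd B (t e) (ψ u) = f u a • b - f u b • a)
    (hΔ : f a a * f b b - f a b ^ 2 ≠ 0) : False := by
  have hz := h.alt₁.self_eq_zero
  set Δ := f a a * f b b - f a b ^ 2 with hΔ'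
  let P : U →ₗ[F] U := (f.flip a).smulRight b - (f.flip b).smulRight a
  have hP' : ∀ u, P u = f u a • b - f u b • a := fun _ => rfl
  have hQ : ∀ u, dag h.nd B ψ (t e u) = P u := fun u => eq_of_form h.nd fun y => by
    rw [dag_form, ← h.altB.neg_eq, ← dag_form h.nd, hP, hP']
    simp [h.sym y, h.sym u]; ring
  let χ : U →ₗ[F] V := t e + ψ ∘ₗ P
  have hχ : Orb t M χ := (orb_t he).map (h.hasX hM hψ 1) fun u => by simp [χ, hQ]
  let D : Submodule F U := LinearMap.ker (f a) ⊓ LinearMap.ker (f b)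
  have hD : ∀ d, d ∈ D ↔ f a d = 0 ∧ f b d = 0 := fun d => Iff.rfl
  have h1 : ∀ d ∈ D, χ d = t e d := fun d hd => by simp [χ, hP', h.sym d, hd.1, ((hD d).1 hd).1,
    ((hD d).1 hd).2]
  have h3 : ∀ u v, B (χ u) (t e v) = f (P (P u)) v := fun u v => by
    rw [← dag_form h.nd]; simp [χ, h.dag_t, hz, hP, hP' (P u)]
  have h4 : ∀ u, ∀ d ∈ D, f (P u) d = 0 := fun u d hd => by
    simp [hP', ((hD d).1 hd).1, ((hD d).1 hd).2]
  have hDn : NondegOn f D := fun d hd hd0 => by
    obtain ⟨u, hu⟩ := exists_form_one' h.nd hd0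
    refine ⟨u + Δ⁻¹ • P (P u), ⟨?_, ?_⟩, by simp [h4 _ d hd, hu]⟩
    · change f a _ = 0
      simp only [hP', map_add, map_smul, map_sub, LinearMap.sub_apply, LinearMap.smul_apply,
        smul_eq_mul, h.sym b a, h.sym u]
      field_simp
      rw [hΔ']; ring
    · change f b _ = 0
      simp only [hP', map_add, map_smul, map_sub, LinearMap.sub_apply, LinearMap.smul_apply,
        smul_eq_mul, h.sym b a, h.sym u]
      field_simp
      rw [hΔ']; ring
  have h6 : ∀ d ∈ D, f d d ≠ 0 → ∀ u, h.pi d (χ u) = f u d • e := fun d hd qd => by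
    obtain ⟨e', he'⟩ := exists_form_one h.nd₁ he
    obtain ⟨m, hm⟩ := exists_rep h.nd (f₁.flip e' ∘ₗ h.pi d ∘ₗ χ)
    have i1 : ∀ u, h.pi d (χ u) = f m u • e := fun u => by
      obtain ⟨c, hc⟩ := two_dim_perp h.nd₁ h.alt₁ h2 he (x := h.pi d (χ u)) (alt_zero h.alt₁ (by
        rw [h.pi_form, h3, h4 _ d hd]))
      rw [← hm]
      change _ = f₁ (h.pi d (χ u)) e' • e
      rw [hc]; simp [he']
    obtain ⟨g, hg, -, hg'⟩ := h.exists_refl hM qd
    obtain ⟨c, hc⟩ := h.orb_scalar hM hT hχ (a := LinearMap.id - (2 / f d d) • (f m).smulRight d)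
      (hχ.map ⟨g, hg, hg'⟩ fun u => by simp [i1, h1 d hd])
    have i2 : ∀ u, adj h.nd (LinearMap.id - (2 / f d d) • (f m).smulRight d) u =
        u - (2 / f d d * f u d) • m := fun u => eq_of_form h.nd fun y => by simp; ring
    have i3 : f m d = f d d := by
      have := i1 d
      rw [h1 d hd, h.pi_t] at this
      exact (smul_left_injective F he this).symm
    simp only [i2, LinearMap.sub_apply, LinearMap.smul_apply, LinearMap.id_apply,
      LinearMap.smulRight_apply, map_sub, map_smul, smul_eq_mul] at hc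
    obtain ⟨x, -, hx0, x1, x2⟩ := exists_perp_two (B := f) (W := ⊤) (by simpa using h.three) d m
    have i4 : c = 1 := by
      have := hc x
      simp only [x1, h.sym m x, x2, mul_zero, zero_smul, sub_zero, smul_zero] at this
      exact smul_left_injective F hx0 (this.symm.trans (one_smul F x).symm)
    have i5 := hc d
    rw [i4, div_mul_cancel₀ _ qd, i3] at i5
    have i6 : m = (f m m / f d d * 2 - 1) • d := smul_right_injective U h.two (by
      simp only
      rw [smul_smul, smul_smul, div_mul_cancel₀ _ qd] at i5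
      linear_combination (norm := module) -i5)
    have i7 : f m m / f d d * 2 - 1 = 1 := by
      have := congrArg (fun x => f x d) i6
      simp only [map_smul, LinearMap.smul_apply, smul_eq_mul, i3] at this
      exact (mul_eq_right₀ qd).1 this.symm
    intro u
    rw [i1, i6, i7, one_smul, h.sym]
  have d1 := finrank_le_inf_ker ⊤ (f a)
  have d2 := finrank_le_inf_ker (LinearMap.ker (f a)) (f b)
  rw [finrank_top, top_inf_eq] at d1
  obtain ⟨s, hs, hs0, qs⟩ := h.sing D (by simp only [D]; omega)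
  have h7 : ∀ u x, B (χ u) (t x s) = f u s * f₁ e x := fun u x => by
    have : B (χ u) (t x s) - f₁ e x * f u s = 0 :=
      le_of_aniso h.sym h.two (T := LinearMap.ker (B (χ u) ∘ₗ t x - f₁ e x • f u)) hDn
        (fun d hd qd => by
          change B (χ u) (t x d) - f₁ e x * f u d = 0
          rw [← h.pi_form, h6 d hd qd]; simp [mul_comm]) hs
    linear_combination this
  have h8 : ∀ u, h.pi s (χ u) = f u s • e := fun u => eq_of_form h.nd₁ fun x => by simp [h7]
  obtain ⟨z, hz', qz⟩ : ∃ z ∈ Submodule.span F {a, b}, f z z ≠ 0 := by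
    by_contra! hc
    have ia := hc a (Submodule.subset_span (by simp))
    obtain ⟨w, hw, qw⟩ := exists_aniso h.sym h.two (D := Submodule.span F {a, b})
      (Submodule.subset_span (by simp)) (Submodule.subset_span (by simp))
      (show f a b ≠ 0 from fun e => hΔ (by simp [hΔ', ia, e]))
    exact qw (hc w hw)
  have h9 : ∀ u, f (P (P u)) z = -Δ * f u z := fun u => by
    obtain ⟨c, c', rfl⟩ := Submodule.mem_span_pair.1 hz'
    simp only [hP', map_add, map_smul, map_sub, LinearMap.sub_apply, LinearMap.smul_apply,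
      smul_eq_mul, h.sym b a, hΔ']
    ring
  have h10 : f z s = 0 := by
    obtain ⟨c, c', rfl⟩ := Submodule.mem_span_pair.1 hz'
    simp [((hD s).1 hs).1, ((hD s).1 hs).2]
  let E : U →ₗ[F] U := LinearMap.id + (f.flip s).smulRight z - (f.flip z).smulRight s -
    (f z z / 2) • (f.flip s).smulRight s
  have hE : ∀ u, E u = u + f u s • z - f u z • s - (f z z / 2) • f u s • s := fun _ => rfl
  obtain ⟨g, hg, H⟩ := h.exists_right hM (a := E) fun u v => by
    have := h.two
    simp only [hE, map_add, map_sub, map_smul, LinearMap.add_apply, LinearMap.sub_apply,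
      LinearMap.smul_apply, smul_eq_mul, qs, h10, h.sym s z, h.sym s v, h.sym z v]
    field_simp
    ring
  have h11 : ∀ v, g.1 v = v + t (h.pi s v) z - t (h.pi z v) s - (f z z / 2) • t (h.pi s v) s :=
    h.ext (L := g.1) (L' := LinearMap.id + t.flip z ∘ₗ h.pi s - t.flip s ∘ₗ h.pi z -
      (f z z / 2) • (t.flip s ∘ₗ h.pi s)) fun x u => by simp [H, hE, h.pi_t]
  have h12 : ∀ u, dag h.nd B χ (cp g χ u) = Δ • oS f s z u := fun u => eq_of_form h.nd fun v => by
    have i1 : B (χ u) (χ v) = 0 := by rw [← dag_form h.nd, h.orb_self hχ]; simp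
    have i2 : f₁ e (h.pi z (χ u)) = Δ * f u z := by
      rw [← h.alt₁.neg_eq, h.pi_form, h3, h9]; ring
    simp only [dag_form, cp_apply, h11, map_add, map_sub, map_smul, LinearMap.add_apply,
      LinearMap.sub_apply, LinearMap.smul_apply, smul_eq_mul, h8, i1, oS_apply,
      ← h.altB.neg_eq (χ v) (t _ _), h7, h3, h9, i2, hz, h4 _ s hs, h.sym s v, h.sym z v]
    ring
  obtain ⟨c, hc⟩ := h.word hM hT hχ (hχ.cp hg) (P := Δ • oS f s z) (Q := -Δ • oS f s z) h12
    (fun u => eq_of_form h.nd fun v => by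
      rw [dag_form, ← h.altB.neg_eq, ← dag_form h.nd, h12]
      simp [oS_apply, h.sym v, h.sym u]; ring) (ν := 0)
    (fun u => by simp [oS_apply, qs, h10, h.sym s z]) (Or.inl rfl)
  have h13 : c = 0 := by simpa [oS_apply, qs, h.sym s z, h10, hs0] using (hc s).symm
  obtain ⟨u, hu⟩ := exists_form_one' h.nd hs0
  have := hc u
  simp [oS_apply, qs, h.sym s z, h10, hs0, h13, hu, hΔ, qz] at this

theorem tnorm_small (hc : (finrank F W ≤ 2 ∧ 5 ≤ finrank F U) ∨
    (finrank F W ≤ 5 ∧ finrank F U = 3 ∧ ∃ a : F, a ≠ 0 ∧ a ^ 2 ≠ 1)) {g : SpG B} (hg : g ∈ M) :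
    TNorm t g := by
  refine h.tnorm_of_rat g fun x hx => ?_
  have hφ := (orb_t (t := t) hx).cp hg
  refine h.rat_of_refl hM hT (by omega) hφ fun w hw u v => by_contra fun huv => ?_
  obtain ⟨ψ, hψ, a, b, u₁, v₁, e1, e2, e3, e4, hP⟩ := h.exists_pair hM (by omega) hφ hw huv
  by_cases hq : f a a * f b b - f a b ^ 2 = 0 ∨ ∃ a : F, a ≠ 0 ∧ a ^ 2 ≠ 1
  · let P : U →ₗ[F] U := (f.flip a).smulRight b - (f.flip b).smulRight a
    have hP' : ∀ u, P u = f u a • b - f u b • a := fun _ => rfl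
    obtain ⟨c, hc'⟩ := h.word hM hT hφ hψ (P := P) (Q := P) hP
      (fun u => eq_of_form h.nd fun y => by
        rw [dag_form, ← h.altB.neg_eq, ← dag_form h.nd, hP, hP']
        simp [h.sym y, h.sym u]; ring) (ν := -(f a a * f b b - f a b ^ 2))
      (fun u => by
        simp only [hP', map_sub, map_smul, LinearMap.sub_apply, LinearMap.smul_apply, smul_eq_mul,
          h.sym b a]
        module) (hq.imp_left fun e => by rw [e, neg_zero])
    obtain ⟨d, -, hd, d1, d2⟩ := exists_perp_two (B := f) (W := ⊤) (by simpa using h.three) a b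
    have h1 : c = 0 := by simpa [hP' d, d1, d2, hd] using (hc' d).symm
    have h2 : P a = 0 := by simpa [hP' u₁, h.sym u₁, e1, e3, h1] using hc' u₁
    have h3 : P b = 0 := by simpa [hP' v₁, h.sym v₁, e2, e4, h1] using hc' v₁
    have qa : f a a = 0 := by simpa [hP', e1, e3] using congrArg (fun x => f x u₁) h2
    have qab : f a b = 0 := by simpa [hP', e2, e4] using congrArg (fun x => f x v₁) h2
    have qb : f b b = 0 := by simpa [hP', e2, e4] using congrArg (fun x => f x v₁) h3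
    rcases hc with ⟨h4, h5⟩ | ⟨-, h4, -⟩
    · obtain ⟨k, hk, y, hy, rfl⟩ := hψ
      exact h.false_of_null hM hT h4 h5 hy (hφ.cp (M.inv_mem hk)) e1 e2 e3 e4
        (fun u => by rw [dag_cp, inv_inv, ← hP, cp_apply]) qa qab qb
    · have : LinearIndependent F ![a, b, u₁, v₁] := Fintype.linearIndependent_iff.2 fun c hc i => by
        have e : ∀ z, f (∑ i, c i • ![a, b, u₁, v₁] i) z = 0 := fun z => by simp [hc]
        have i1 := e a
        have i2 := e b
        have i3 := e u₁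
        have i4 := e v₁
        simp [Fin.sum_univ_four, qa, qab, qb, h.sym b a, h.sym u₁ a, h.sym v₁ a, h.sym u₁ b,
          h.sym v₁ b, e1, e2, e3, e4] at i1 i2
        simp [Fin.sum_univ_four, e1, e2, e3, e4, i1, i2] at i3 i4
        fin_cases i <;> simp [i1, i2, i3, i4]
      have := this.fintype_card_le_finrank
      simp at this
      omega
  · push Not at hq
    rcases hc with ⟨h4, h5⟩ | ⟨-, -, a, ha, ha1⟩
    · exact h.false_of_nondeg hM hT h4 h5 hx (hψ.cp (M.inv_mem hg))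
        (fun u => by rw [cp_apply, ← dag_cp, hP]) hq.1
    · exact ha1 (hq.2 a ha)

end TS

end Cfsg.Agent.Cl.MaxSp.Ten

namespace Cfsg.Agent.Cl.MaxSp

open Module Matrix Cfsg.Geo Ten
open scoped Kronecker

variable {F : Type*} [Field F]

/-- A bilinear two-argument function as a bilinear form. -/
def Ten.toB {κ : Type} [Fintype κ] [DecidableEq κ] {f : (κ → F) → (κ → F) → F}
    (hf : IsBilinearForm f) : LinearMap.BilinForm F (κ → F) :=
  LinearMap.mk₂ F f hf.add_left hf.smul_left hf.add_right fun c v x => hf.smul_right c v x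

theorem Ten.toB_eq_sum {κ : Type} [Fintype κ] [DecidableEq κ] {f : (κ → F) → (κ → F) → F}
    (hf : IsBilinearForm f) (x y : κ → F) : f x y = ∑ i, ∑ j, x i * gramMatrix f i j * y j := by
  have := Matrix.toBilin'_apply (LinearMap.BilinForm.toMatrix' (Ten.toB hf)) x y
  rw [Matrix.toBilin'_toMatrix'] at this
  exact this.trans (by simp [gramMatrix, Ten.toB])

/-- The tensor case, from the corresponding statement on abstract tensor products. -/
theorem max_tensor_of [Fintype F] {m : ℕ} (hm : 1 ≤ m) (hodd : Odd (Fintype.card F)) {n₁ n₂ : ℕ}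
    (hn₂ : 3 ≤ n₂) (hbig : 4 ≤ n₂ ∨ ∃ a : F, a ≠ 0 ∧ a ^ 2 ≠ 1)
    (e : (Fin m ⊕ Fin m) ≃ Fin n₁ × Fin n₂) (P : GL (Fin m ⊕ Fin m) F)
    (f₁ : (Fin n₁ → F) → (Fin n₁ → F) → F) (f₂ : (Fin n₂ → F) → (Fin n₂ → F) → F)
    (hf₁ : IsSymplecticForm f₁) (hf₂ : IsSymmetricForm f₂)
    (hT : IsTensorFormStructure id (sympForm m F) f₁ f₂ e P)
    (H : ∀ (g₁ : LinearMap.BilinForm F (Fin n₁ → F)) (g₂ : LinearMap.BilinForm F (Fin n₂ → F))
      (t : (Fin n₁ → F) →ₗ[F] (Fin n₂ → F) →ₗ[F] (Fin m ⊕ Fin m → F)), TS g₁ g₂ (spB m F) t →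
      ∀ M : Subgroup (SpG (spB m F)), (∀ g, TNorm t g → g ∈ M) → M ≠ ⊤ → ∀ g ∈ M, TNorm t g) :
    IsMaximalIn (spGL m F) (tensorProductSubgroup n₁ n₂ e P ⊓ spGL m F) := by
  obtain ⟨c, hc, hT⟩ := hT
  let t : (Fin n₁ → F) →ₗ[F] (Fin n₂ → F) →ₗ[F] (Fin m ⊕ Fin m → F) :=
    LinearMap.mk₂ F (fun w u => Max.trV e P fun p => w p.1 * u p.2)
      (fun a b u => by rw [← map_add]; congr 1; ext p; simp [add_mul])
      (fun c a u => by rw [← map_smul]; congr 1; ext p; simp [mul_assoc])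
      (fun a u v => by rw [← map_add]; congr 1; ext p; simp [mul_add])
      (fun c a u => by rw [← map_smul]; congr 1; ext p; simp [mul_left_comm])
  have ht : ∀ w u, t w u = Max.trV e P fun p => w p.1 * u p.2 := fun _ _ => rfl
  have hs : ∀ x y, toB hf₂.bilinear x y = toB hf₂.bilinear y x := hf₂.symm
  have hnd : (toB hf₂.bilinear).Nondegenerate :=
    ⟨fun x hx => by_contra fun h0 => (hf₂.nondegenerate x h0).2.elim fun y hy => hy (hx y),
      fun x hx => by_contra fun h0 => (hf₂.nondegenerate x h0).1.elim fun y hy => hy (hx y)⟩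
  have hd : Fintype.card (Fin m ⊕ Fin m) = n₁ * n₂ := by rw [Fintype.card_congr e]; simp
  have h : TS (c • toB hf₁.bilinear) (toB hf₂.bilinear) (spB m F) t :=
    { nd₁ := ⟨fun x hx => by_contra fun h0 => (hf₁.nondegenerate x h0).2.elim fun y hy =>
          hy ((mul_eq_zero.1 (hx y)).resolve_left hc),
        fun x hx => by_contra fun h0 => (hf₁.nondegenerate x h0).1.elim fun y hy =>
          hy ((mul_eq_zero.1 (hx y)).resolve_left hc)⟩
      alt₁ := fun x => show c * f₁ x x = 0 by rw [hf₁.alternating, mul_zero]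
      nd := hnd
      sym := hs
      ndB := spB_nondegenerate
      altB := spB_isAlt
      form := fun x y u v => by
        change _ = c * f₁ x y * f₂ u v
        rw [spB_apply, ht, ht, Max.trV_apply, Max.trV_apply, hT, toB_eq_sum hf₁.bilinear,
          toB_eq_sum hf₂.bilinear, mul_assoc]
        congr 1
        simp only [formOfGram, Fintype.sum_prod_type, kroneckerMap_apply, id]
        rw [Finset.sum_mul_sum]
        refine Finset.sum_congr rfl fun i _ => Finset.sum_congr rfl fun j _ => ?_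
        rw [Finset.sum_mul_sum]
        refine Finset.sum_congr rfl fun k _ => Finset.sum_congr rfl fun l _ => by ring
      span := eq_top_iff.2 fun v _ => by
        obtain ⟨v, rfl⟩ := (Max.trV e P).surjective v
        rw [← Finset.univ_sum_single v, map_sum]
        refine Submodule.sum_mem _ fun p _ => Submodule.subset_span
          ⟨(Pi.single p.1 (v p), Pi.single p.2 1), ?_⟩
        beta_reduce
        rw [ht]
        congr 1
        ext q
        by_cases h1 : q.1 = p.1 <;> by_cases h2 : q.2 = p.2 <;>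
          simp [Pi.single_apply, Prod.ext_iff, h1, h2]
      dim := by simp only [finrank_fintype_fun_eq_card, hd, Fintype.card_fin]
      two := two_ne_zero_of_odd hodd
      three := by simpa
      big := by simpa using hbig
      sing := fun D hD => exists_sing hs hodd hD
      rk := fun N hN S hS h1 h2 => exists_rank_one hs (two_ne_zero_of_odd hodd) hodd hnd
        (by simpa) (by simpa using hbig) N hN hS h1 h2 }
  have hn₁ : 0 < n₁ := Nat.pos_of_ne_zero fun h0 => by simp [h0] at hd; omega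
  have hx₀ : (Pi.single ⟨0, hn₁⟩ 1 : Fin n₁ → F) ≠ 0 := by simp
  have hu₀ : (Pi.single ⟨0, by omega⟩ 1 : Fin n₂ → F) ≠ 0 := by simp
  refine isMaximalIn_sp _ (TNorm t) (fun g => ?_) (h.exists_not hx₀) fun M hM g hg hn =>
    by_contra fun hT => hn (H _ _ t h M hM hT g hg)
  rw [Max.mem_tensorProductSubgroup]
  constructor
  · rintro ⟨a, b, hab⟩
    exact ⟨Matrix.toLin' a.1, Matrix.toLin' b.1, fun w u => by
      rw [← spι_mulVec, hab, ht, ht, Max.tr_mulVec, Max.kron_mulVec_pure]; rfl⟩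
  · rintro ⟨k, a, hka⟩
    have hk : Function.Injective k := (injective_iff_map_eq_zero k).2 fun w hw => by_contra
      fun h0 => h.t_ne_zero h0 hu₀ (by simpa [hw] using hka w _)
    have ha : Function.Injective a := (injective_iff_map_eq_zero a).2 fun u hu => by_contra
      fun h0 => h.t_ne_zero hx₀ h0 (by simpa [hu] using hka _ u)
    refine ⟨(glEquiv _ F).symm (LinearEquiv.ofInjectiveEndo k hk),
      (glEquiv _ F).symm (LinearEquiv.ofInjectiveEndo a ha),
      Matrix.toLin'.injective (LinearMap.ext (h.ext fun w u => ?_))⟩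
    rw [Matrix.toLin'_apply, Matrix.toLin'_apply, spι_mulVec, hka, ht, ht, Max.tr_mulVec,
      Max.kron_mulVec_pure, glEquiv_symm_mulVec, glEquiv_symm_mulVec]
    rfl

theorem max_tensor_small [Fintype F] {m : ℕ} (hm : 1 ≤ m) (hodd : Odd (Fintype.card F))
    {n₁ n₂ : ℕ} (hc : (n₁ ≤ 2 ∧ 5 ≤ n₂) ∨ (n₁ ≤ 5 ∧ n₂ = 3 ∧ 5 ≤ Fintype.card F))
    (e : (Fin m ⊕ Fin m) ≃ Fin n₁ × Fin n₂) (P : GL (Fin m ⊕ Fin m) F)
    (f₁ : (Fin n₁ → F) → (Fin n₁ → F) → F) (f₂ : (Fin n₂ → F) → (Fin n₂ → F) → F)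
    (hf₁ : IsSymplecticForm f₁) (hf₂ : IsSymmetricForm f₂)
    (hT : IsTensorFormStructure id (sympForm m F) f₁ f₂ e P) :
    IsMaximalIn (spGL m F) (tensorProductSubgroup n₁ n₂ e P ⊓ spGL m F) := by
  have hq : 5 ≤ Fintype.card F → ∃ a : F, a ≠ 0 ∧ a ^ 2 ≠ 1 := fun h =>
    sp_exists_sq_ne_one (by rw [Nat.card_eq_fintype_card]; omega)
  refine max_tensor_of hm hodd (by omega) (hc.imp (fun h => by omega) fun h => hq h.2.2) e P f₁ f₂
    hf₁ hf₂ hT fun g₁ g₂ t h M hM hT g hg => h.tnorm_small hM hT ?_ hg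
  simp only [finrank_fintype_fun_eq_card, Fintype.card_fin]
  exact hc.imp_right fun h => ⟨h.1, h.2.1, hq h.2.2⟩

end Cfsg.Agent.Cl.MaxSp
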