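import Mathlib
import Cfsg.Agent.Cl.MaxSpTenB

/-!
# Overgroups of `Sp(W) ∘ O(U)` in `Sp(W ⊗ U)`, III

The case `dim W ≥ 4`, by a transfer argument on `V ⊗ V`.
-/

set_option autoImplicit false
set_option linter.unusedSectionVars false
set_option linter.unusedVariables false

namespace Cfsg.Agent.Cl.MaxSp.Ten

open Module TensorProduct

theorem sum_free {G X Y : Type*} [Group G] [Fintype G] [MulAction G X] [Fintype X]
    [AddCommMonoid Y] (x₀ : X) (hx₀ : ∀ g : G, g • x₀ = x₀)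
    (hfree : ∀ (g : G) x, x ≠ x₀ → g • x = x → g = 1) (Φ : X → Y)
    (h : ∀ x, ∑ g : G, Φ (g • x) = 0) : ∑ x, Φ x = Φ x₀ := by
  classical
  rw [← Finset.add_sum_erase _ _ (Finset.mem_univ x₀),
    Finset.sum_cancels_of_partition_cancels (MulAction.orbitRel G X) fun x hx => ?_, add_zero]
  have hx' := Finset.ne_of_mem_erase hx
  rw [← h x]
  symm
  refine Finset.sum_bij (fun g _ => g • x) (fun g _ => ?_) (fun g _ k _ e => ?_)
    (fun y hy => ?_) fun _ _ => rfl
  · refine Finset.mem_filter.2 ⟨Finset.mem_erase.2 ⟨fun e => hx' ?_, Finset.mem_univ _⟩, ⟨g, rfl⟩⟩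
    rw [← hx₀ g⁻¹, ← e, inv_smul_smul]
  · exact (inv_mul_eq_one.1 (hfree (k⁻¹ * g) x hx' (by rw [mul_smul, e, inv_smul_smul]))).symm
  · obtain ⟨g, hg⟩ := (Finset.mem_filter.1 hy).2
    exact ⟨g, Finset.mem_univ _, hg⟩

variable {F : Type*} [Field F] {W U V : Type*} [AddCommGroup W] [Module F W]
  [FiniteDimensional F W] [AddCommGroup U] [Module F U] [FiniteDimensional F U]
  [AddCommGroup V] [Module F V] [FiniteDimensional F V]
  {f₁ : LinearMap.BilinForm F W} {f : LinearMap.BilinForm F U} {B : LinearMap.BilinForm F V}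
  {t : W →ₗ[F] U →ₗ[F] V} {M : Subgroup (SpG B)}

theorem sum_quad [Fintype F] (h2 : (2 : F) ≠ 0) (y₀ y₁ y₂ y₃ y₄ y₅ : V) :
    ∑ p : F × F, (y₀ + p.1 • y₁ + p.2 • y₂ + (p.1 * p.1) • y₃ + (p.1 * p.2) • y₄ +
      (p.2 * p.2) • y₅) = 0 := by
  have h0 : (Fintype.card F : F) = 0 := FiniteField.cast_card_eq_zero F
  have h1 : ∑ c : F, c = 0 := mul_left_cancel₀ h2 (by
    have : ∑ c : F, -c = ∑ c : F, c := Equiv.sum_comp (Equiv.neg F) fun c => c
    rw [Finset.sum_neg_distrib] at this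
    linear_combination -this)
  have h3 : ∀ y : V, Fintype.card F • y = 0 := fun y => by
    rw [← Nat.cast_smul_eq_nsmul F, h0, zero_smul]
  have h4 : ∀ a : F, ∑ c : F, a * c = 0 := fun a => by rw [← Finset.mul_sum, h1, mul_zero]
  rw [Fintype.sum_prod_type]
  simp only [Finset.sum_add_distrib, ← Finset.sum_smul, Finset.sum_const,
    Finset.card_univ, nsmul_eq_mul, h0, h1, h3, h4, zero_mul, Finset.sum_const_zero, zero_smul,
    add_zero, smul_zero]

namespace TS

variable (h : TS f₁ f B t)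
include h

theorem lift_bij : Function.Bijective (TensorProduct.lift t) := by
  have hs : Function.Surjective (TensorProduct.lift t) := by
    rw [← LinearMap.range_eq_top, eq_top_iff, ← h.span, Submodule.span_le]
    rintro _ ⟨p, rfl⟩
    exact ⟨p.1 ⊗ₜ p.2, rfl⟩
  exact ⟨(LinearMap.injective_iff_surjective_of_finrank_eq_finrank
    (by rw [Module.finrank_tensorProduct, h.dim])).2 hs, hs⟩

theorem exists_tau : ∃ τ : V ⊗[F] V →ₗ[F] V ⊗[F] V,
    ∀ x u y u', τ (t x u ⊗ₜ t y u') = t y u ⊗ₜ t x u' := by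
  let e := LinearEquiv.ofBijective _ h.lift_bij
  have he : ∀ w u, e.symm (t w u) = w ⊗ₜ u := fun w u => e.symm_apply_eq.2 rfl
  have he' : ∀ w u, e (w ⊗ₜ u) = t w u := fun _ _ => rfl
  refine ⟨TensorProduct.map e.toLinearMap e.toLinearMap ∘ₗ
    (tensorTensorTensorComm F W W U U).toLinearMap ∘ₗ
    TensorProduct.map (TensorProduct.comm F W W).toLinearMap LinearMap.id ∘ₗ
    (tensorTensorTensorComm F W U W U).toLinearMap ∘ₗ
    TensorProduct.map e.symm.toLinearMap e.symm.toLinearMap, fun x u y u' => ?_⟩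
  simp [he, he']

theorem ext₂ {X : Type*} [AddCommGroup X] [Module F X] {L L' : V ⊗[F] V →ₗ[F] X}
    (e : ∀ x u y u', L (t x u ⊗ₜ t y u') = L' (t x u ⊗ₜ t y u')) : L = L' :=
  TensorProduct.ext' fun v v' => LinearMap.congr_fun (h.ext (L := TensorProduct.curry L)
    (L' := TensorProduct.curry L') (fun x u => LinearMap.ext (h.ext (e x u))) v) v'

/-- A quadratic element of the tensor stabiliser acts on one factor only. -/
theorem scalar_or {g : SpG B} {k : W →ₗ[F] W} {a : U →ₗ[F] U}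
    (hg : ∀ w u, g.1 (t w u) = t (k w) (a u)) (hq : ∀ v, g.1 (g.1 v - v) = g.1 v - v) :
    (∃ c : F, ∀ w, k w = c • w) ∨ ∃ c : F, ∀ u, a u = c • u := by
  by_cases ha : ∀ u, ¬ LinearIndependent F ![u, a u]
  · obtain ⟨c, hc⟩ := a.exists_eq_smul_id_of_forall_notLinearIndependent ha
    exact Or.inr ⟨c, fun u => by simp [hc]⟩
  push Not at ha
  obtain ⟨u, hu⟩ := ha
  obtain ⟨w₁, h1, h2⟩ := exists_perp_ne h.nd (W := Submodule.span F {a u}) (y := u) fun e => by
    obtain ⟨c, hc⟩ := Submodule.mem_span_singleton.1 e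
    simpa using (LinearIndependent.pair_iff.1 hu (-1) c (by simp [hc])).1
  obtain ⟨w₂, h3, h4⟩ := exists_perp_ne h.nd (W := Submodule.span F {u}) (y := a u) fun e => by
    obtain ⟨c, hc⟩ := Submodule.mem_span_singleton.1 e
    simpa using (LinearIndependent.pair_iff.1 hu c (-1) (by simp [hc])).2
  replace h1 := h1 _ (Submodule.mem_span_singleton_self _)
  replace h3 := h3 _ (Submodule.mem_span_singleton_self _)
  have h5 : ∀ w x, f (a (a u)) w • k (k x) - f (a u) w • k x = f (a u) w • k x - f u w • x :=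
    fun w x => by simpa [hg, h.pi_t] using congrArg (h.pi w) (hq (t x u))
  by_cases hα : f (a (a u)) w₁ = 0
  · exact Or.inl ⟨0, fun x => by
      rw [show x = 0 by simpa [hα, h1, h2] using h5 w₁ x]; simp⟩
  refine Or.inl ⟨-(f (a (a u)) w₂ * f u w₁) / (2 * f (a u) w₂ * f (a (a u)) w₁), fun x =>
    smul_right_injective W (mul_ne_zero (mul_ne_zero h.two h4) hα) ?_⟩
  have e1 := h5 w₁ x
  have e2 := h5 w₂ x
  simp only [h1, h3, zero_smul, sub_zero, zero_sub] at e1 e2
  simp only [smul_smul, mul_div_cancel₀ _ (mul_ne_zero (mul_ne_zero h.two h4) hα)]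
  linear_combination (norm := module) f (a (a u)) w₂ • e1 - f (a (a u)) w₁ • e2

theorem tnorm_inv {g : SpG B} (hg : TNorm t g) {e : W} (he : e ≠ 0) : TNorm t g⁻¹ := by
  obtain ⟨k, a, H⟩ := hg
  have := h.nontrivial
  obtain ⟨u₀, hu₀⟩ := exists_ne (0 : U)
  have hk : Function.Injective k := (injective_iff_map_eq_zero k).2 fun w hw => by_contra
    fun h0 => h.t_ne_zero h0 hu₀ (by simpa [hw] using H w _)
  have ha : Function.Injective a := (injective_iff_map_eq_zero a).2 fun u hu => by_contra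
    fun h0 => h.t_ne_zero he h0 (by simpa [hu] using H _ u)
  refine ⟨(LinearEquiv.ofInjectiveEndo k hk).symm, (LinearEquiv.ofInjectiveEndo a ha).symm,
    fun w u => g.1.injective ?_⟩
  rw [sp_apply_inv_apply, H]
  exact congrArg₂ (fun x y => t x y) ((LinearEquiv.ofInjectiveEndo k hk).apply_symm_apply w).symm
    ((LinearEquiv.ofInjectiveEndo a ha).apply_symm_apply u).symm

variable (hM : ∀ g, TNorm t g → g ∈ M) (hT : M ≠ ⊤) (h4 : 4 ≤ finrank F W)
include hM hT h4

/-- One rational image suffices. -/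
theorem tnorm_of_one {g : SpG B} (hg : g ∈ M) {x : W} (hx : x ≠ 0) (hr : Rat t (cp g (t x))) :
    TNorm t g := by
  have := h.nontrivial
  obtain ⟨u₀, hu₀⟩ := exists_ne (0 : U)
  have key : ∀ x y, x ≠ 0 → y ≠ 0 → f₁ y x = 0 → Rat t (cp g (t x)) → Rat t (cp g (t y)) := by
    intro x y hx hy hxy ⟨x', H⟩
    have hx' : x' ≠ 0 := fun e => by
      obtain ⟨u', hu'⟩ := H u₀
      exact h.t_ne_zero hx hu₀ (by simpa [e] using hu')
    obtain ⟨z, hz⟩ := exists_form_one h.nd₁ hx'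
    have h2 : ∀ u, g.1 (t x u) = t x' ((dag h.nd B (t z) ∘ₗ cp g (t x)) u) := fun u => by
      obtain ⟨u', hu'⟩ := H u
      rw [LinearMap.comp_apply, hu', h.dag_t, hz, one_smul, ← hu', cp_apply]
    have h3 : Function.Surjective (dag h.nd B (t z) ∘ₗ cp g (t x)) :=
      LinearMap.injective_iff_surjective.1 ((injective_iff_map_eq_zero _).2 fun u hu => by
        by_contra hu0
        exact h.t_ne_zero hx hu0 (by simpa [hu] using h2 u))
    refine h.rat_of_perp hM hT hx' ((orb_t hy).cp hg) fun u => eq_of_form h.nd fun v => ?_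
    obtain ⟨v, rfl⟩ := h3 v
    rw [dag_form, ← h2, cp_apply, spG_form, h.form, hxy]; simp
  refine h.tnorm_of_rat g fun y hy => ?_
  obtain ⟨z, -, hz, h1, h2⟩ := exists_perp_two (B := f₁) (W := ⊤) (by simp; omega) x y
  exact key z y hz hy (alt_zero h.alt₁ h2) (key x z hx hz h1 hr)

theorem eq_zero_of_null {e : W} (he : e ≠ 0) {φ : U →ₗ[F] V} (hφ : Orb t M φ)
    (h0 : ∀ u, dag h.nd B (t e) (φ (dag h.nd B φ (t e u))) = 0) (u : U) :
    dag h.nd B φ (t e u) = 0 := by
  revert u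
  by_contra! hne
  obtain ⟨u₀, hu₀⟩ := hne
  have hz := h.alt₁.self_eq_zero
  obtain ⟨e', he'⟩ := exists_form_one h.nd₁ he
  obtain ⟨a, ha, ha0⟩ : ∃ a, dag h.nd B φ (t e a) = 0 ∧ a ≠ 0 := by
    by_contra! hc
    have hs := LinearMap.injective_iff_surjective.1
      ((injective_iff_map_eq_zero (dag h.nd B φ ∘ₗ t e)).2 hc)
    refine hu₀ (eq_of_form h.nd fun v => ?_)
    obtain ⟨v, rfl⟩ := hs v
    rw [dag_form, ← h.altB.neg_eq, ← dag_form h.nd, LinearMap.comp_apply, h0]; simp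
  let β : U →ₗ[F] U := dag h.nd B (t e') ∘ₗ φ ∘ₗ dag h.nd B φ ∘ₗ t e
  have h1 : ∀ u, φ (dag h.nd B φ (t e u)) = t e (β u) := fun u => by
    obtain ⟨u', hu'⟩ := h.range_of_perp hM hT (orb_t he) (ψ := t e + φ ∘ₗ dag h.nd B φ ∘ₗ t e)
      ((orb_t he).map (h.hasX hM hφ 1) fun u => by simp) (fun u => by simp [h.dag_t, hz, h0]) ha0
      (b := a) (by simp [ha]) u
    have e1 : φ (dag h.nd B φ (t e u)) = t e (u' - u) := by rw [map_sub, ← hu']; simp
    rw [show β u = dag h.nd B (t e') (φ (dag h.nd B φ (t e u))) from rfl, e1, h.dag_t, he',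
      one_smul]
  have hO : ∀ c : F, Orb t M (t e ∘ₗ (LinearMap.id + c • β)) := fun c =>
    (orb_t he).map (h.hasX hM hφ c) fun u => by simp [h1]
  have h2 : ∀ c : F, ∃ κ : F, ∀ u, u + c • β u + c • adj h.nd β u + (c * c) • β (adj h.nd β u) =
      κ • u := fun c => by
    obtain ⟨κ, hκ⟩ := h.orb_scalar hM hT (orb_t he) (hO c)
    refine ⟨κ, fun u => ?_⟩
    rw [← hκ u]
    simp only [dag_add, dag_smul, adj_id, LinearMap.add_apply, LinearMap.smul_apply,
      LinearMap.id_apply, map_add, map_smul]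
    module
  obtain ⟨κ₁, hκ₁⟩ := h2 1
  obtain ⟨κ₂, hκ₂⟩ := h2 (-1)
  have hβa : β a = 0 := by simp [β, ha]
  have hβ0 : β u₀ ≠ 0 := fun e => hu₀ (h.orb_inj hφ (by rw [h1, e, map_zero]))
  have h3 : ∀ u, β (adj h.nd β u) = 0 := by
    have e1 : ∀ u, (2 : F) • β (adj h.nd β u) = (κ₁ + κ₂ - 2) • u := fun u => by
      linear_combination (norm := module) hκ₁ u + hκ₂ u
    by_cases hk : κ₁ + κ₂ - 2 = 0
    · exact fun u => by simpa [hk, h.two] using e1 u
    · refine absurd (LinearMap.injective_iff_surjective.2 (fun u => ⟨((κ₁ + κ₂ - 2)⁻¹ * 2) •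
        adj h.nd β u, by rw [map_smul, mul_smul, e1, inv_smul_smul₀ hk]⟩)
        (hβa.trans (map_zero β).symm)) ha0
  have h5 : ∀ u, (2 : F) • (β u + adj h.nd β u) = (κ₁ - κ₂) • u := fun u => by
    linear_combination (norm := module) hκ₁ u - hκ₂ u
  have h6 : κ₁ - κ₂ = 0 := by
    by_contra hk
    refine hβ0 (h.orb_inj (hO (-2 / (κ₁ - κ₂))) ?_)
    have := congrArg β (h5 u₀)
    simp only [map_smul, map_add, h3, add_zero] at this
    rw [LinearMap.comp_apply, LinearMap.add_apply, LinearMap.smul_apply, LinearMap.id_apply,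
      show (-2 / (κ₁ - κ₂)) • β (β u₀) = -(κ₁ - κ₂)⁻¹ • (2 : F) • β (β u₀) by
        rw [smul_smul]; congr 1; ring, this, smul_smul]
    simp [hk]
  have h7 : ∀ u, adj h.nd β u = -β u := fun u => eq_neg_of_add_eq_zero_right
    ((smul_eq_zero.1 ((h5 u).trans (by rw [h6, zero_smul]))).resolve_left h.two)
  have h8 : ∀ u, β (β u) = 0 := fun u => by simpa [h7] using h3 u
  have h9 : ∀ u v, f u (β v) = -f (β u) v := fun u v => by rw [← dag_form h.nd, h7]; simp
  obtain ⟨g, hg, H⟩ := h.hasX hM hφ 1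
  simp only [one_smul] at H
  obtain ⟨k, b, hkb⟩ := h.tnorm_of_one hM hT h4 hg he ⟨e, fun u => ⟨u + β u, by simp [H, h1]⟩⟩
  have h10 : ∀ w u, φ (dag h.nd B φ (t w u)) = t w (β u) := by
    rcases h.scalar_or hkb (fun v => by simp [H, h.orb_self hφ]) with ⟨c, hc⟩ | ⟨c, hc⟩
    · intro w u
      have e1 := hkb e u
      have e2 := hkb w u
      rw [H, hc, map_smul, LinearMap.smul_apply, ← map_smul] at e1 e2
      rw [h1, ← map_add] at e1
      rw [← h.t_inj he e1, map_add] at e2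
      exact add_left_cancel e2
    · have e1 := fun u => congrArg (dag h.nd B (t e')) (hkb e u)
      simp only [H, h1, hc, map_add, map_smul, h.dag_t, he', one_smul] at e1
      have e2 := e1 a
      have e3 := e1 u₀
      rw [hβa, add_zero, smul_smul] at e2
      rw [smul_smul, ← smul_left_injective F ha0 ((one_smul F a).trans e2), one_smul] at e3
      exact absurd (add_eq_left.1 e3) hβ0
  let R := LinearMap.range β
  have h11 : finrank F W * finrank F R ≤ finrank F U := by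
    have hi : Function.Injective (TensorProduct.lift t ∘ₗ R.subtype.lTensor W) :=
      h.lift_bij.1.comp (Module.Flat.lTensor_preserves_injective_linearMap _ R.injective_subtype)
    rw [← Module.finrank_tensorProduct, ← LinearMap.finrank_range_of_inj hi]
    refine (Submodule.finrank_mono (t := LinearMap.range φ) ?_).trans φ.finrank_range_le
    rintro _ ⟨ξ, rfl⟩
    induction ξ with
    | zero => simp
    | tmul w r => obtain ⟨_, u, rfl⟩ := r; exact ⟨_, h10 w u⟩
    | add x y hx hy => rw [map_add]; exact Submodule.add_mem _ hx hy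
  obtain ⟨v₀, hv₀⟩ := exists_form_one h.nd hβ0
  have h12 : f (β u₀) u₀ = 0 := mul_left_cancel₀ h.two (by
    linear_combination h9 u₀ u₀ - h.sym u₀ (β u₀))
  have h13 : f (β v₀) u₀ = -1 := by rw [h.sym, h9, hv₀]
  have h14 : 2 ≤ finrank F R := by
    have : LinearIndependent F ![(⟨β u₀, u₀, rfl⟩ : R), ⟨β v₀, v₀, rfl⟩] :=
      LinearIndependent.pair_iff.2 fun c c' hc => by
        have e1 : c • β u₀ + c' • β v₀ = 0 := congrArg Subtype.val hc
        have e2 : c' = 0 := by simpa [h12, h13] using congrArg (fun x => f x u₀) e1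
        exact ⟨by simpa [e2, hβ0] using e1, e2⟩
    simpa using this.fintype_card_le_finrank
  obtain ⟨C, hC⟩ := Submodule.exists_isCompl R
  have d1 := Submodule.finrank_add_eq_of_isCompl hC
  have d2 := Submodule.finrank_sup_add_finrank_inf_eq (f.orthogonal R) C
  have d3 := Submodule.finrank_le (f.orthogonal R ⊔ C)
  have d4 := LinearMap.BilinForm.finrank_orthogonal h.nd R
  have d5 : 4 * finrank F R ≤ finrank F U := (Nat.mul_le_mul_right _ h4).trans h11
  obtain ⟨s, ⟨hs1, hs2⟩, hs0, qs⟩ := h.sing (f.orthogonal R ⊓ C) (by omega)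
  have hsR : s ∉ R := fun e => hs0 (Submodule.disjoint_def.1 hC.disjoint s e hs2)
  have hs3 : ∀ u, f (β u) s = 0 := fun u => hs1 _ ⟨u, rfl⟩
  obtain ⟨z, z1, z2⟩ := exists_perp_ne h.nd (W := Submodule.span F {s, β u₀}) (y := β v₀)
    fun e => by
      obtain ⟨c, c', hc⟩ := Submodule.mem_span_pair.1 e
      by_cases hc0 : c = 0
      · simpa [hc0, h12, h13] using congrArg (fun x => f x u₀) hc
      · exact hsR ⟨c⁻¹ • (v₀ - c' • u₀), by simp [← hc, hc0]⟩
  have z3 : f s z = 0 := z1 _ (Submodule.subset_span (by simp))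
  have z4 : f (β u₀) z = 0 := z1 _ (Submodule.subset_span (by simp))
  let E : U →ₗ[F] U := LinearMap.id + (f.flip s).smulRight z - (f.flip z).smulRight s -
    (f z z / 2) • (f.flip s).smulRight s
  have hE : ∀ u, E u = u + f u s • z - f u z • s - (f z z / 2) • f u s • s := fun _ => rfl
  obtain ⟨m, hm, Hm⟩ := h.exists_right hM (a := E) fun u v => by
    have := h.two
    simp only [hE, map_add, map_sub, map_smul, LinearMap.add_apply, LinearMap.sub_apply,
      LinearMap.smul_apply, smul_eq_mul, qs, z3, h.sym z s, h.sym s v, h.sym z v]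
    field_simp
    ring
  have h15 : ∀ w, (∀ u, f (β u) w = 0) → ∀ u x, B (φ u) (t x w) = 0 := fun w hw u x => by
    have e1 : dag h.nd B φ (t x w) = 0 := h.orb_inj hφ (by
      rw [h10, show β w = 0 from h.nd.1 _ fun y => by rw [← neg_eq_zero, ← h9, h.sym, hw], map_zero])
    rw [← h.altB.neg_eq, ← dag_form h.nd, e1]; simp
  have h16 : ∀ v, m.1 v = v + t (h.pi s v) z - t (h.pi z v) s - (f z z / 2) • t (h.pi s v) s :=
    h.ext (L := m.1) (L' := LinearMap.id + t.flip z ∘ₗ h.pi s - t.flip s ∘ₗ h.pi z -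
      (f z z / 2) • (t.flip s ∘ₗ h.pi s)) fun x u => by simp [Hm, hE, h.pi_t]
  have h17 : ∀ u, h.pi s (φ u) = 0 := fun u => h.nd₁.1 _ fun x => by rw [h.pi_form, h15 s hs3]
  obtain ⟨u', hu'⟩ := h.range_of_perp hM hT hφ (hφ.cp hm) (fun u => eq_of_form h.nd fun v => by
      rw [cp_apply, h16, h17, dag_form]
      simp [← dag_form h.nd B φ (φ u), h.orb_self hφ, ← h.altB.neg_eq (φ v), h15 s hs3])
    hu₀ (b := dag h.nd B φ (t e u₀)) (by simp [h10, Hm, hE, hs3, z4]) (dag h.nd B φ (t e v₀))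
  rw [cp_apply, h10, Hm, hE, hs3, zero_smul, zero_smul, smul_zero, add_zero, sub_zero, map_sub,
    ← h10, map_smul] at hu'
  obtain ⟨w, w1, w2⟩ := exists_perp_ne h.nd hsR
  have := congrArg (fun v => B v (t e' w)) hu'
  simp [h15 w fun u => w1 _ ⟨u, rfl⟩, h.form, he', z2, w2] at this

/-- An element of `M` conjugating `T_e^c T_{e'}^{c'} ⊗ 1` into the stabiliser lies in it. -/
theorem tnorm_of_conj {e e' y : W} (hee : f₁ e e' = 0) (hy : f₁ y e ≠ 0) (hy' : f₁ y e' = 0)
    {c c' : F} (hc : c ≠ 0) {a g : SpG B} (hg : g ∈ M)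
    (ha : ∀ v, a.1 v = v + c • t e (dag h.nd B (t e) v) + c' • t e' (dag h.nd B (t e') v))
    (hn : TNorm t (g * a * g⁻¹)) : TNorm t g := by
  have he : e ≠ 0 := ne_zero_right hy
  have hz := h.alt₁.self_eq_zero
  have hee' := alt_zero h.alt₁ hee
  refine h.tnorm_of_one hM hT h4 hg he ?_
  have hφ := (orb_t (t := t) he).cp hg
  set φ := cp g (t e)
  set a' := g * a * g⁻¹
  have h1 : ∀ v, a'.1 v - v = c • φ (dag h.nd B φ v) +
      c' • cp g (t e') (dag h.nd B (cp g (t e')) v) := fun v => by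
    simp [a', φ, spG_mul_apply, ha, dag_cp, sp_apply_inv_apply]; abel
  have h2 : ∀ u v, B (φ u) (a'.1 v - v) = 0 := fun u v => by
    simp [h1, φ, spG_form, h.form, hz, hee]
  have h3 : ∀ u, ∃ v, φ u = a'.1 v - v := fun u => ⟨g.1 (t y ((c * f₁ y e)⁻¹ • u)), by
    rw [h1]
    simp only [φ, dag_cp_cp, h.dag_t, hy', zero_smul, map_zero, smul_zero, add_zero, map_smul,
      smul_smul]
    rw [show c * ((c * f₁ y e)⁻¹ * f₁ y e) = 1 by field_simp, one_smul]⟩
  obtain ⟨k, b, hkb⟩ := hn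
  have := h.nontrivial
  obtain ⟨u₀, hu₀⟩ := exists_ne (0 : U)
  have hq : ∀ v, a'.1 (a'.1 v - v) = a'.1 v - v := fun v => by
    rw [← sub_eq_zero, h1 (a'.1 v - v), h1 v]
    simp only [φ, map_add, map_smul, cp_apply, dag_cp_cp, h.dag_t, hz, hee, hee', zero_smul,
      smul_zero, add_zero, map_zero]
  clear_value a'
  rcases h.scalar_or hkb hq with ⟨κ, hκ⟩ | ⟨κ, hκ⟩
  · let β : U →ₗ[F] U := κ • b - LinearMap.id
    have h5 : ∀ w u, a'.1 (t w u) - t w u = t w (β u) := fun w u => by simp [hkb, hκ, β]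
    have h6 : ∀ v, dag h.nd B (t e) (a'.1 v - v) = β (dag h.nd B (t e) v) := fun v => by
      have := h.ext (L := dag h.nd B (t e) ∘ₗ ((a'.1 : V →ₗ[F] V) - LinearMap.id))
        (L' := β ∘ₗ dag h.nd B (t e)) (fun w u => by
          simp only [LinearMap.comp_apply, LinearMap.sub_apply, LinearMap.id_apply,
            LinearEquiv.coe_coe, h5, h.dag_t, map_smul]) v
      simpa only [LinearMap.comp_apply, LinearMap.sub_apply, LinearMap.id_apply,
        LinearEquiv.coe_coe] using this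
    have h7 : ∀ u, dag h.nd B φ (t e (dag h.nd B (t e) (φ u))) = 0 := fun u => by
      obtain ⟨v, hv⟩ := h3 u
      refine eq_of_form h.nd fun u' => ?_
      rw [hv, h6, ← h5, dag_form, ← h.altB.neg_eq, h2]; simp
    obtain ⟨ν, hν⟩ := h.word hM hT (orb_t he) hφ (P := dag h.nd B (t e) ∘ₗ φ)
      (Q := dag h.nd B φ ∘ₗ t e) (fun _ => rfl) (fun _ => rfl) (ν := 0) (fun u => by simp [h7])
      (Or.inl rfl)
    have h8 : ∀ u, dag h.nd B φ (t e u) = 0 := by
      by_cases hν0 : ν = 0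
      · exact h.eq_zero_of_null hM hT h4 he hφ fun u => by simpa [hν0] using hν u
      · intro u
        have := h7 (dag h.nd B φ (t e u))
        rw [show dag h.nd B (t e) (φ (dag h.nd B φ (t e u))) = ν • u from hν u] at this
        simpa [hν0] using this
    exact h.rat_of_perp hM hT he hφ fun u => eq_of_form h.nd fun v => by
      rw [dag_form, ← h.altB.neg_eq, ← dag_form h.nd, h8]; simp
  · have h5 : ∀ w u, a'.1 (t w u) - t w u = t (κ • k w - w) u := fun w u => by simp [hkb, hκ]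
    obtain ⟨w, hw⟩ : ∃ w, κ • k w - w ≠ 0 := by
      by_contra! hc'
      obtain ⟨v, hv⟩ := h3 u₀
      exact hu₀ (h.orb_inj hφ (hv.trans (h.ext (L := (a'.1 : V →ₗ[F] V) - LinearMap.id) (L' := 0)
        (fun w u => (h5 w u).trans (by simp [hc' w])) v)))
    exact h.rat_of_perp hM hT hw hφ fun u => eq_of_form h.nd fun v => by
      rw [dag_form, ← h5, h2]; simp

theorem tnorm_large [Fintype F] {g : SpG B} (hg : g ∈ M) : TNorm t g := by
  classical
  have hz := h.alt₁.self_eq_zero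
  have : Finite V := Module.finite_of_finite F
  have : Finite (SpG B) := Finite.of_injective (fun g : SpG B => (g.1 : V → V))
    fun a b e => spG_ext (congrFun e)
  obtain ⟨e₀, -, he₀, -⟩ := exists_perp_two (B := f₁) (W := ⊤) (by simp; omega) 0 0
  obtain ⟨τ, hτ⟩ := h.exists_tau
  let H : Subgroup M :=
    { carrier := {g | TNorm t g.1}
      one_mem' := ⟨LinearMap.id, LinearMap.id, fun _ _ => rfl⟩
      mul_mem' := fun ⟨k, a, H⟩ ⟨k', a', H'⟩ =>
        ⟨k ∘ₗ k', a ∘ₗ a', fun w u => by simp [spG_mul_apply, H, H']⟩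
      inv_mem' := fun H => h.tnorm_inv H he₀ }
  let ρ : M →* Module.End F (V ⊗[F] V) :=
    { toFun := fun g => TensorProduct.map (g.1.1 : V →ₗ[F] V) (g.1.1 : V →ₗ[F] V)
      map_one' := TensorProduct.ext' fun _ _ => rfl
      map_mul' := fun _ _ => TensorProduct.ext' fun _ _ => rfl }
  have hρ : ∀ g v v', ρ g (v ⊗ₜ v') = g.1.1 v ⊗ₜ g.1.1 v' := fun _ _ _ => rfl
  have hτH : ∀ g ∈ H, ρ g * τ = τ * ρ g := fun g ⟨k, a, H⟩ => h.ext₂ fun x u y u' => by
    simp [hτ, hρ, H]
  let Φ : M ⧸ H → Module.End F (V ⊗[F] V) := Quotient.lift (fun g => ρ g * τ * ρ g⁻¹)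
    fun a b hab => by
      have h1 := hτH _ (QuotientGroup.leftRel_apply.1 hab)
      calc ρ a * τ * ρ a⁻¹ = ρ a * (τ * ρ (a⁻¹ * b)) * ρ b⁻¹ := by
            simp only [mul_assoc, ← map_mul, mul_inv_cancel, mul_one]
        _ = ρ b * τ * ρ b⁻¹ := by rw [← h1, ← mul_assoc, ← map_mul, mul_inv_cancel_left]
  have hΦ : ∀ (m : M) c, Φ (m • c) = ρ m * Φ c * ρ m⁻¹ := fun m c => by
    induction c using QuotientGroup.induction_on with
    | H g =>
      change ρ (m * g) * τ * ρ (m * g)⁻¹ = ρ m * (ρ g * τ * ρ g⁻¹) * ρ m⁻¹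
      simp only [mul_inv_rev, map_mul, mul_assoc]
  have := Fintype.ofFinite (M ⧸ H)
  let S := ∑ c, Φ c
  have hS : ∀ m : M, ρ m * S * ρ m⁻¹ = S := fun m => by
    simp only [S, Finset.mul_sum, Finset.sum_mul, ← hΦ]
    exact Equiv.sum_comp (MulAction.toPerm m) Φ
  have key : ∀ e e' y y' : W, f₁ e e' = 0 → f₁ y e ≠ 0 → f₁ y e' = 0 → f₁ y' e' ≠ 0 →
      f₁ y' e = 0 → ∀ ξ, (∀ (c c' : F) (L : V →ₗ[F] V), (∀ w u, L (t w u) =
        t (w + (c * f₁ w e) • e + (c' * f₁ w e') • e') u) → TensorProduct.map L L ξ = ξ) →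
      S ξ = τ ξ := by
    intro e e' y y' hee h1 h2 h3 h5 ξ hξ
    have hee' := alt_zero h.alt₁ hee
    have : ∀ p : F × F, ∃ a : M, ∀ v, a.1.1 v =
        v + p.1 • t e (dag h.nd B (t e) v) + p.2 • t e' (dag h.nd B (t e') v) := fun p => by
      obtain ⟨a, ha, H⟩ := (h.hasX hM (orb_t (ne_zero_right h3)) p.2).comp
        (h.hasX hM (orb_t (ne_zero_right h1)) p.1)
      exact ⟨⟨a, ha⟩, fun v => by simp [H, h.dag_t, hee]⟩
    choose a ha using this
    have ha' : ∀ p w u, (a p).1.1 (t w u) = t (w + (p.1 * f₁ w e) • e + (p.2 * f₁ w e') • e') u :=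
      fun p w u => by simp [ha, h.dag_t, smul_smul]
    let α : Multiplicative (F × F) →* M := MonoidHom.mk' (fun p => a p.toAdd) fun p q =>
      Subtype.ext (spG_ext fun v => by
        change _ = (a p.toAdd).1.1 ((a q.toAdd).1.1 v)
        simp [ha, h.dag_t, hz, hee, hee']; module)
    have hαH : ∀ p, α p ∈ H := fun p => ⟨LinearMap.id + p.toAdd.1 • (f₁.flip e).smulRight e +
      p.toAdd.2 • (f₁.flip e').smulRight e', LinearMap.id, fun w u => by
        rw [show (α p).1.1 (t w u) = _ from ha' _ w u]; simp [smul_smul]⟩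
    letI : MulAction (Multiplicative (F × F)) (M ⧸ H) := MulAction.compHom _ α
    have h6 := sum_free (G := Multiplicative (F × F)) ((1 : M) : M ⧸ H)
      (fun p => QuotientGroup.eq.2 (by simpa using hαH p)) (fun p c hc e => by
        induction c using QuotientGroup.induction_on with
        | H g =>
          have h7 : TNorm t (g.1⁻¹ * (a p.toAdd).1 * g.1⁻¹⁻¹) := by
            have h8 : g⁻¹ * (α p * g) ∈ H := QuotientGroup.eq.1 e.symm
            rw [inv_inv, mul_assoc]; exact h8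
          by_contra hp
          refine hc (QuotientGroup.eq.2 (show TNorm t _ by
            rw [mul_one]
            by_cases hp1 : p.toAdd.1 = 0
            · exact h.tnorm_of_conj hM hT h4 hee' h3 h5 (c := p.toAdd.2) (c' := p.toAdd.1)
                (fun hp2 => hp (Prod.ext hp1 hp2)) (M.inv_mem g.2) (fun v => by rw [ha]; abel) h7
            · exact h.tnorm_of_conj hM hT h4 hee h1 h2 hp1 (M.inv_mem g.2) (ha _) h7)))
      (fun c => Φ c ξ) fun c => by
        have h7 : ∀ p : Multiplicative (F × F), Φ (p • c) ξ = ρ (α p) (Φ c ξ) := fun p => by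
          rw [show p • c = α p • c from rfl, hΦ, ← map_inv, Module.End.mul_apply,
            Module.End.mul_apply, show ρ (α p⁻¹) ξ = ξ from hξ _ _ _ (ha' _)]
        simp only [h7]
        induction Φ c ξ with
        | zero => simp
        | add x y hx hy => simp only [map_add, Finset.sum_add_distrib, hx, hy, add_zero]
        | tmul v v' =>
          set n := t e (dag h.nd B (t e) v)
          set n' := t e' (dag h.nd B (t e') v)
          set m := t e (dag h.nd B (t e) v')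
          set m' := t e' (dag h.nd B (t e') v')
          rw [← sum_quad h.two (v ⊗ₜ[F] v') (n ⊗ₜ v' + v ⊗ₜ m) (n' ⊗ₜ v' + v ⊗ₜ m') (n ⊗ₜ m)
            (n ⊗ₜ m' + n' ⊗ₜ m) (n' ⊗ₜ m')]
          refine Fintype.sum_equiv Multiplicative.toAdd _ _ fun p => ?_
          rw [hρ, show (α p).1.1 v = _ from ha _ v, show (α p).1.1 v' = _ from ha _ v']
          simp only [add_tmul, tmul_add, ← smul_tmul', tmul_smul]
          module
    rw [LinearMap.sum_apply, h6]
    change (ρ 1 * τ * ρ 1⁻¹) ξ = _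
    simp
  have pair : ∀ e e' : W, e ≠ 0 → e' ∉ Submodule.span F {e} → ∃ y y', f₁ y e ≠ 0 ∧ f₁ y e' = 0 ∧
      f₁ y' e' ≠ 0 ∧ f₁ y' e = 0 := fun e e' he he' => by
    obtain ⟨y', i1, i2⟩ := exists_perp_ne h.nd₁ he'
    obtain ⟨y, i3, i4⟩ := exists_perp_ne h.nd₁ (W := Submodule.span F {e'}) (y := e) fun H => by
      obtain ⟨c, rfl⟩ := Submodule.mem_span_singleton.1 H
      have hc : c ≠ 0 := fun e => he (by simp [e])
      exact he' (Submodule.mem_span_singleton.2 ⟨c⁻¹, by simp [hc]⟩)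
    exact ⟨y, y', alt_ne h.alt₁ i4, alt_zero h.alt₁ (i3 _ (Submodule.mem_span_singleton_self _)),
      alt_ne h.alt₁ i2, alt_zero h.alt₁ (i1 _ (Submodule.mem_span_singleton_self _))⟩
  have perp : ∀ x y u u', f₁ x y = 0 → S (t x u ⊗ₜ t y u') = τ (t x u ⊗ₜ t y u') := by
    intro x y u u' hxy
    by_cases hx : x = 0
    · simp [hx]
    obtain ⟨e', h1, h2, h3⟩ : ∃ e', e' ∉ Submodule.span F {x} ∧ f₁ x e' = 0 ∧ f₁ y e' = 0 := by
      by_cases hy : y ∈ Submodule.span F {x}
      · obtain ⟨c, rfl⟩ := Submodule.mem_span_singleton.1 hy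
        obtain ⟨x', hx'⟩ := exists_form_one h.nd₁ hx
        obtain ⟨e', -, i0, i1, i2⟩ := exists_perp_two (B := f₁) (W := ⊤) (by simp; omega) x x'
        refine ⟨e', fun H => ?_, alt_zero h.alt₁ i1, by simp [alt_zero h.alt₁ i1]⟩
        obtain ⟨c, rfl⟩ := Submodule.mem_span_singleton.1 H
        exact i0 (by rw [show c = 0 by simpa [hx'] using i2, zero_smul])
      · exact ⟨y, hy, hxy, hz y⟩
    obtain ⟨z, z', i1, i2, i3, i4⟩ := pair x e' hx h1
    exact key x e' z z' h2 i1 i2 i3 i4 _ fun c c' L hL => by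
      simp [hL, hz, h2, h3, alt_zero h.alt₁ hxy]
  have hSτ : S = τ := h.ext₂ fun x u y u' => by
    by_cases hxy : f₁ x y = 0
    · exact perp x y u u' hxy
    obtain ⟨e', -, i0, i1, i2⟩ := exists_perp_two (B := f₁) (W := ⊤) (by simp; omega) x y
    obtain ⟨z, z', j1, j2, j3, j4⟩ := pair x e' (ne_zero_left hxy) fun H => by
      obtain ⟨c, rfl⟩ := Submodule.mem_span_singleton.1 H
      exact i0 (by rw [show c = 0 by simpa [hxy] using i2, zero_smul])
    have e1 := key x e' z z' (alt_zero h.alt₁ i1) j1 j2 j3 j4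
      (t x u ⊗ₜ t y u' - t y u ⊗ₜ t x u') fun c c' L hL => by
        simp [hL, hz, alt_zero h.alt₁ i1, alt_zero h.alt₁ i2, tmul_add, add_tmul, ← smul_tmul']
    have e2 := perp (x + y) (x + y) u u' (hz _)
    have e3 := perp x x u u' (hz _)
    have e4 := perp y y u u' (hz _)
    simp only [map_add, map_sub, LinearMap.add_apply, tmul_add, add_tmul] at e1 e2
    exact smul_right_injective _ h.two (by linear_combination (norm := module) e1 + e2 - e3 - e4)
  refine h.tnorm_of_rat g fun x hx => ?_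
  have h1 : ∀ u u', τ (g.1 (t x u) ⊗ₜ g.1 (t x u')) = g.1 (t x u) ⊗ₜ g.1 (t x u') := fun u u' => by
    have := LinearMap.congr_fun (hS ⟨g, hg⟩) (g.1 (t x u) ⊗ₜ g.1 (t x u'))
    rw [hSτ, Module.End.mul_apply, Module.End.mul_apply, hρ] at this
    rw [← this]
    change ρ _ (τ ((g⁻¹).1 _ ⊗ₜ (g⁻¹).1 _)) = _
    rw [sp_inv_apply_apply, sp_inv_apply_apply, hτ, hρ]
  have h2 : ∀ z w z' w', TensorProduct.lift ((LinearMap.mul F F).compl₁₂ (B.flip (t z w))
      (B.flip (t z' w'))) ∘ₗ τ = TensorProduct.lift ((LinearMap.mul F F).compl₁₂ (B.flip (t z' w))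
      (B.flip (t z w'))) := fun z w z' w' => h.ext₂ fun x u y u' => by
    simp [hτ, h.form]; ring
  have := h.nontrivial
  obtain ⟨u₀, hu₀⟩ := exists_ne (0 : U)
  obtain ⟨z₀, w₀, h3⟩ : ∃ z w, B (g.1 (t x u₀)) (t z w) ≠ 0 := by
    by_contra! hc
    exact h.t_ne_zero hx hu₀ (by simpa using h.eq_of (v := g.1 (t x u₀)) (v' := 0) (by simpa using hc))
  refine ⟨h.pi w₀ (g.1 (t x u₀)), fun u => ⟨(B (g.1 (t x u₀)) (t z₀ w₀))⁻¹ •
    dag h.nd B (t z₀) (g.1 (t x u)), h.eq_of fun z w => ?_⟩⟩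
  have := LinearMap.congr_fun (h2 z₀ w₀ z w) (g.1 (t x u₀) ⊗ₜ g.1 (t x u))
  simp only [LinearMap.comp_apply, h1, lift.tmul, LinearMap.compl₁₂_apply,
    LinearMap.BilinForm.flip_apply, LinearMap.mul_apply'] at this
  rw [h.form, h.pi_form, map_smul, LinearMap.smul_apply, dag_form, cp_apply, smul_eq_mul]
  field_simp
  linear_combination this

end TS

end Cfsg.Agent.Cl.MaxSp.Ten

namespace Cfsg.Agent.Cl.MaxSp

open Module Matrix Cfsg.Geo Ten

theorem max_tensor {F : Type*} [Field F] [Fintype F] {m : ℕ} (hm : 5 ≤ m)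
    (hodd : Odd (Fintype.card F)) {n₁ n₂ : ℕ} (hn₂ : 3 ≤ n₂)
    (hex : ¬ (Fintype.card F = 3 ∧ n₂ = 3))
    (e : (Fin m ⊕ Fin m) ≃ Fin n₁ × Fin n₂) (P : GL (Fin m ⊕ Fin m) F)
    (f₁ : (Fin n₁ → F) → (Fin n₁ → F) → F) (f₂ : (Fin n₂ → F) → (Fin n₂ → F) → F)
    (hf₁ : IsSymplecticForm f₁) (hf₂ : IsSymmetricForm f₂)
    (hT : IsTensorFormStructure id (sympForm m F) f₁ f₂ e P) :
    IsMaximalIn (spGL m F) (tensorProductSubgroup n₁ n₂ e P ⊓ spGL m F) := by
  have hd : m + m = n₁ * n₂ := by simpa using Fintype.card_congr e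
  by_cases h2 : n₁ ≤ 2
  · exact max_tensor_small (by omega) hodd (Or.inl ⟨h2, by nlinarith⟩) e P f₁ f₂ hf₁ hf₂ hT
  refine max_tensor_of (by omega) hodd hn₂ ?_ e P f₁ f₂ hf₁ hf₂ hT
    fun g₁ g₂ t h M hM hT g hg => h.tnorm_large hM hT ?_ hg
  · by_cases h4 : 4 ≤ n₂
    · exact Or.inl h4
    refine Or.inr (sp_exists_sq_ne_one ?_)
    have := Fintype.one_lt_card (α := F)
    obtain ⟨k, hk⟩ := hodd
    rw [Nat.card_eq_fintype_card]
    omega
  · obtain ⟨k, hk⟩ := sp_even_finrank h.nd₁ h.alt₁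
    simp only [finrank_fintype_fun_eq_card, Fintype.card_fin] at hk ⊢
    omega

end Cfsg.Agent.Cl.MaxSp
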