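import Mathlib
import Cfsg.Agent.Cl.MaxSpTenB

/-!
# Overgroups of `Sp₂ ∘ O₄⁻` in `Sp₈`
-/

set_option autoImplicit false
set_option linter.unusedSectionVars false
set_option linter.unusedVariables false

namespace Cfsg.Agent.Cl.MaxSp.Ten

open Module

variable {F : Type*} [Field F] {W U V : Type*} [AddCommGroup W] [Module F W]
  [FiniteDimensional F W] [AddCommGroup U] [Module F U] [FiniteDimensional F U]
  [AddCommGroup V] [Module F V] [FiniteDimensional F V]
  {f₁ : LinearMap.BilinForm F W} {f : LinearMap.BilinForm F U} {B : LinearMap.BilinForm F V}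
  {t : W →ₗ[F] U →ₗ[F] V} {M : Subgroup (SpG B)}

namespace TS

variable (h : TS f₁ f B t) (hM : ∀ g, TNorm t g → g ∈ M) (hT : M ≠ ⊤)
include h hM hT

theorem sq_zero {φ ψ : U →ₗ[F] V} (hφ : Orb t M φ) (hψ : Orb t M ψ) {a b : U}
    (hP : ∀ u, dag h.nd B φ (ψ u) = f u a • b - f u b • a)
    (hq : f a a * f b b - f a b ^ 2 = 0 ∨ ∃ a : F, a ≠ 0 ∧ a ^ 2 ≠ 1) {u x : U}
    (e : f u a • b - f u b • a = x) : f x a • b - f x b • a = 0 := by
  let P : U →ₗ[F] U := (f.flip a).smulRight b - (f.flip b).smulRight a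
  have hP' : ∀ u, P u = f u a • b - f u b • a := fun _ => rfl
  obtain ⟨c, hc'⟩ := h.word hM hT hφ hψ (P := P) (Q := P) hP
    (fun u => eq_of_form h.nd fun y => by
      rw [dag_form, ← h.altB.neg_eq, ← dag_form h.nd, hP, hP']
      simp [h.sym y, h.sym u]; ring) (ν := -(f a a * f b b - f a b ^ 2))
    (fun u => by
      simp only [hP', map_sub, map_smul, LinearMap.sub_apply, LinearMap.smul_apply, smul_eq_mul,
        h.sym b a]
      module) (hq.imp_left fun e => by rw [e, neg_zero])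
  obtain ⟨d, -, hd, d1, d2⟩ := exists_perp_two (B := f) (W := ⊤) (by simpa using h.three) a b
  have h1 : c = 0 := by simpa [hP' d, d1, d2, hd] using (hc' d).symm
  rw [← hP', ← e, ← hP', hc', h1, zero_smul]

theorem exists_chi (h2 : finrank F W ≤ 2) {e : W} (he : e ≠ 0)
    {ψ : U →ₗ[F] V} (hψ : Orb t M ψ) {a b : U}
    (hP : ∀ u, dag h.nd B (t e) (ψ u) = f u a • b - f u b • a)
    (hΔ : f a a * f b b - f a b ^ 2 ≠ 0) : ∃ χ, Orb t M χ ∧
      (∀ d, f a d = 0 → f b d = 0 → χ d = t e d) ∧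
      (∀ u x s, f a s = 0 → f b s = 0 → B (χ u) (t x s) = f u s * f₁ e x) ∧
      ∀ z ∈ Submodule.span F {a, b}, ∀ u,
        B (χ u) (t e z) = -(f a a * f b b - f a b ^ 2) * f u z := by
  have hz := h.alt₁.self_eq_zero
  set Δ := f a a * f b b - f a b ^ 2 with hΔ'
  let P : U →ₗ[F] U := (f.flip a).smulRight b - (f.flip b).smulRight a
  have hP' : ∀ u, P u = f u a • b - f u b • a := fun _ => rfl
  have hQ : ∀ u, dag h.nd B ψ (t e u) = P u := fun u => eq_of_form h.nd fun y => by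
    rw [dag_form, ← h.altB.neg_eq, ← dag_form h.nd, hP, hP']
    simp [h.sym y, h.sym u]; ring
  let χ : U →ₗ[F] V := t e + ψ ∘ₗ P
  have hχ : Orb t M χ := (orb_t he).map (h.hasX hM hψ 1) fun u => by simp [χ, hQ]
  let D : Submodule F U := LinearMap.ker (f a) ⊓ LinearMap.ker (f b)
  have hD : ∀ d, d ∈ D ↔ f a d = 0 ∧ f b d = 0 := fun d => Iff.rfl
  have h1 : ∀ d ∈ D, χ d = t e d := fun d hd => by simp [χ, hP', h.sym d, hd.1, ((hD d).1 hd).1,
    ((hD d).1 hd).2]
  have h3 : ∀ u v, B (χ u) (t e v) = f (P (P u)) v := fun u v => by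
    rw [← dag_form h.nd]; simp [χ, h.dag_t, hz, hP, hP' (P u)]
  have h4 : ∀ u, ∀ d ∈ D, f (P u) d = 0 := fun u d hd => by
    simp [hP', ((hD d).1 hd).1, ((hD d).1 hd).2]
  have hDn : NondegOn f D := fun d hd hd0 => by
    obtain ⟨u, hu⟩ := exists_form_one' h.nd hd0
    refine ⟨u + Δ⁻¹ • P (P u), ⟨?_, ?_⟩, by simp [h4 _ d hd, hu]⟩
    · change f a _ = 0
      simp only [hP', map_add, map_smul, map_sub, LinearMap.sub_apply, LinearMap.smul_apply,
        smul_eq_mul, h.sym b a, h.sym u]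
      field_simp
      rw [hΔ']; ring
    · change f b _ = 0
      simp only [hP', map_add, map_smul, map_sub, LinearMap.sub_apply, LinearMap.smul_apply,
        smul_eq_mul, h.sym b a, h.sym u]
      field_simp
      rw [hΔ']; ring
  have h6 : ∀ d ∈ D, f d d ≠ 0 → ∀ u, h.pi d (χ u) = f u d • e := fun d hd qd => by
    obtain ⟨e', he'⟩ := exists_form_one h.nd₁ he
    obtain ⟨m, hm⟩ := exists_rep h.nd (f₁.flip e' ∘ₗ h.pi d ∘ₗ χ)
    have i1 : ∀ u, h.pi d (χ u) = f m u • e := fun u => by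
      obtain ⟨c, hc⟩ := two_dim_perp h.nd₁ h.alt₁ h2 he (x := h.pi d (χ u)) (alt_zero h.alt₁ (by
        rw [h.pi_form, h3, h4 _ d hd]))
      rw [← hm]
      change _ = f₁ (h.pi d (χ u)) e' • e
      rw [hc]; simp [he']
    obtain ⟨g, hg, -, hg'⟩ := h.exists_refl hM qd
    obtain ⟨c, hc⟩ := h.orb_scalar hM hT hχ (a := LinearMap.id - (2 / f d d) • (f m).smulRight d)
      (hχ.map ⟨g, hg, hg'⟩ fun u => by simp [i1, h1 d hd])
    have i2 : ∀ u, adj h.nd (LinearMap.id - (2 / f d d) • (f m).smulRight d) u =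
        u - (2 / f d d * f u d) • m := fun u => eq_of_form h.nd fun y => by simp; ring
    have i3 : f m d = f d d := by
      have := i1 d
      rw [h1 d hd, h.pi_t] at this
      exact (smul_left_injective F he this).symm
    simp only [i2, LinearMap.sub_apply, LinearMap.smul_apply, LinearMap.id_apply,
      LinearMap.smulRight_apply, map_sub, map_smul, smul_eq_mul] at hc
    obtain ⟨x, -, hx0, x1, x2⟩ := exists_perp_two (B := f) (W := ⊤) (by simpa using h.three) d m
    have i4 : c = 1 := by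
      have := hc x
      simp only [x1, h.sym m x, x2, mul_zero, zero_smul, sub_zero, smul_zero] at this
      exact smul_left_injective F hx0 (this.symm.trans (one_smul F x).symm)
    have i5 := hc d
    rw [i4, div_mul_cancel₀ _ qd, i3] at i5
    have i6 : m = (f m m / f d d * 2 - 1) • d := smul_right_injective U h.two (by
      simp only
      rw [smul_smul, smul_smul, div_mul_cancel₀ _ qd] at i5
      linear_combination (norm := module) -i5)
    have i7 : f m m / f d d * 2 - 1 = 1 := by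
      have := congrArg (fun x => f x d) i6
      simp only [map_smul, LinearMap.smul_apply, smul_eq_mul, i3] at this
      exact (mul_eq_right₀ qd).1 this.symm
    intro u
    rw [i1, i6, i7, one_smul, h.sym]
  refine ⟨χ, hχ, fun d i j => h1 d ⟨i, j⟩, fun u x s i j => ?_, fun z hz' u => ?_⟩
  · have : B (χ u) (t x s) - f₁ e x * f u s = 0 :=
      le_of_aniso h.sym h.two (T := LinearMap.ker (B (χ u) ∘ₗ t x - f₁ e x • f u)) hDn
        (fun d hd qd => by
          change B (χ u) (t x d) - f₁ e x * f u d = 0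
          rw [← h.pi_form, h6 d hd qd]; simp [mul_comm]) (show s ∈ D from ⟨i, j⟩)
    linear_combination this
  · obtain ⟨c, c', rfl⟩ := Submodule.mem_span_pair.1 hz'
    simp only [h3, hP', map_add, map_smul, map_sub, LinearMap.sub_apply, LinearMap.smul_apply,
      smul_eq_mul, h.sym b a, hΔ']
    ring

theorem false_of_chi {χ : U →ₗ[F] V} (hχ : Orb t M χ) {e : W} {Δ : F} (hΔ : Δ ≠ 0) {s z : U}
    (hs0 : s ≠ 0) (qs : f s s = 0) (qz : f z z ≠ 0) (h10 : f z s = 0)
    (h7 : ∀ u x, B (χ u) (t x s) = f u s * f₁ e x) (h9 : ∀ u, B (χ u) (t e z) = -Δ * f u z) :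
    False := by
  have hz := h.alt₁.self_eq_zero
  have h8 : ∀ u, h.pi s (χ u) = f u s • e := fun u => eq_of_form h.nd₁ fun x => by simp [h7]
  let E : U →ₗ[F] U := LinearMap.id + (f.flip s).smulRight z - (f.flip z).smulRight s -
    (f z z / 2) • (f.flip s).smulRight s
  have hE : ∀ u, E u = u + f u s • z - f u z • s - (f z z / 2) • f u s • s := fun _ => rfl
  obtain ⟨g, hg, H⟩ := h.exists_right hM (a := E) fun u v => by
    have := h.two
    simp only [hE, map_add, map_sub, map_smul, LinearMap.add_apply, LinearMap.sub_apply,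
      LinearMap.smul_apply, smul_eq_mul, qs, h10, h.sym s z, h.sym s v, h.sym z v]
    field_simp
    ring
  have h11 : ∀ v, g.1 v = v + t (h.pi s v) z - t (h.pi z v) s - (f z z / 2) • t (h.pi s v) s :=
    h.ext (L := g.1) (L' := LinearMap.id + t.flip z ∘ₗ h.pi s - t.flip s ∘ₗ h.pi z -
      (f z z / 2) • (t.flip s ∘ₗ h.pi s)) fun x u => by simp [H, hE, h.pi_t]
  have h12 : ∀ u, dag h.nd B χ (cp g χ u) = Δ • oS f s z u := fun u => eq_of_form h.nd fun v => by
    have i1 : B (χ u) (χ v) = 0 := by rw [← dag_form h.nd, h.orb_self hχ]; simp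
    have i2 : f₁ e (h.pi z (χ u)) = Δ * f u z := by
      rw [← h.alt₁.neg_eq, h.pi_form, h9]; ring
    simp only [dag_form, cp_apply, h11, map_add, map_sub, map_smul, LinearMap.add_apply,
      LinearMap.sub_apply, LinearMap.smul_apply, smul_eq_mul, h8, i1, oS_apply,
      ← h.altB.neg_eq (χ v) (t _ _), h7, h9, i2, hz, h.sym s v, h.sym z v]
    ring
  obtain ⟨c, hc⟩ := h.word hM hT hχ (hχ.cp hg) (P := Δ • oS f s z) (Q := -Δ • oS f s z) h12
    (fun u => eq_of_form h.nd fun v => by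
      rw [dag_form, ← h.altB.neg_eq, ← dag_form h.nd, h12]
      simp [oS_apply, h.sym v, h.sym u]; ring) (ν := 0)
    (fun u => by simp [oS_apply, qs, h10, h.sym s z]) (Or.inl rfl)
  have h13 : c = 0 := by simpa [oS_apply, qs, h.sym s z, h10, hs0] using (hc s).symm
  obtain ⟨u, hu⟩ := exists_form_one' h.nd hs0
  have := hc u
  simp [oS_apply, qs, h.sym s z, h10, hs0, h13, hu, hΔ, qz] at this

omit hM hT in
theorem exists_aniso_span {a b : U} (hΔ : f a a * f b b - f a b ^ 2 ≠ 0) :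
    ∃ z ∈ Submodule.span F {a, b}, f z z ≠ 0 := by
  by_contra! hc
  have ia := hc a (Submodule.subset_span (by simp))
  obtain ⟨w, hw, qw⟩ := exists_aniso h.sym h.two (D := Submodule.span F {a, b})
    (Submodule.subset_span (by simp)) (Submodule.subset_span (by simp))
    (show f a b ≠ 0 from fun e => hΔ (by simp [ia, e]))
  exact qw (hc w hw)

theorem false_of_sing (h2 : finrank F W ≤ 2) {φ ψ : U →ₗ[F] V} (hφ : Orb t M φ)
    (hψ : Orb t M ψ) {a b : U} (hP : ∀ u, dag h.nd B φ (ψ u) = f u a • b - f u b • a)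
    (hΔ : f a a * f b b - f a b ^ 2 ≠ 0) {s : U} (hs0 : s ≠ 0) (qs : f s s = 0) (sa : f a s = 0)
    (sb : f b s = 0) : False := by
  obtain ⟨g, hg, e, he, rfl⟩ := hφ
  obtain ⟨χ, hχ, -, h7, h9⟩ := h.exists_chi hM hT h2 he (hψ.cp (M.inv_mem hg))
    (fun u => by rw [cp_apply, ← dag_cp, hP]) hΔ
  obtain ⟨z, hz, qz⟩ := h.exists_aniso_span hΔ
  refine h.false_of_chi hM hT hχ hΔ hs0 qs qz ?_ (fun u x => h7 u x s sa sb) (h9 z hz)
  obtain ⟨c, c', rfl⟩ := Submodule.mem_span_pair.1 hz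
  simp [sa, sb]

theorem false_of_frame (h2 : finrank F W ≤ 2) (hq : ∀ a : F, a ≠ 0 → a ^ 2 = 1)
    {χ : U →ₗ[F] V} (hχ : Orb t M χ) {e : W} (he : e ≠ 0) {Δ : F} (hΔ : Δ ≠ 0) {a a' d d' : U}
    (qa : f a a ≠ 0) (qa' : f a' a' = -f a a) (qd : f d d = f a a) (qd' : f d' d' = f a a)
    (aa : f a a' = 0) (ad : f a d = 0) (ad' : f a d' = 0) (a'd : f a' d = 0) (a'd' : f a' d' = 0)
    (dd : f d d' = 0) (h1 : χ d = t e d) (h1' : χ d' = t e d')
    (h7 : ∀ u x, B (χ u) (t x d) = f u d * f₁ e x) (h9 : ∀ u, B (χ u) (t e a) = -Δ * f u a) :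
    False := by
  have hz := h.alt₁.self_eq_zero
  have sy := h.sym
  obtain ⟨e', he'⟩ := exists_form_one h.nd₁ he
  obtain ⟨m, hm⟩ := exists_rep h.nd (B.flip (t e' a) ∘ₗ χ)
  have hm' : ∀ u, B (χ u) (t e' a) = f m u := hm
  have md : f m d = 0 := by rw [← hm', h1, h.form, sy, ad, mul_zero]
  have md' : f m d' = 0 := by rw [← hm', h1', h.form, sy, ad', mul_zero]
  have qw : f (a + d) (a + d) = 2 * f a a := by simp [ad, sy d a, qd]; ring
  obtain ⟨g, hg, -, hg'⟩ := h.exists_refl hM (w := a + d) (qw ▸ mul_ne_zero h.two qa)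
  set b := (Δ / f a a) • (m + d) with hb
  have hP : ∀ u, dag h.nd B χ (cp g χ u) = f u a • b - f u b • a := fun u =>
    eq_of_form h.nd fun v => by
      have i1 : B (χ u) (χ v) = 0 := by rw [← dag_form h.nd, h.orb_self hχ]; simp
      rw [dag_form, cp_apply, hg', map_sub, LinearMap.sub_apply, i1, map_smul,
        LinearMap.smul_apply, ← h.altB.neg_eq, ← h.pi_form,
        alt_rank_two h.alt₁ (by omega) he', ← h.alt₁.neg_eq _ e, ← h.alt₁.neg_eq _ e', qw]
      simp only [h.pi_form, map_add, hm', h7, h9, he', hz, hb, map_sub, map_smul,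
        LinearMap.sub_apply, LinearMap.smul_apply, LinearMap.add_apply, smul_eq_mul, sy a v,
        sy d v, sy u m]
      have := h.two
      field_simp
      ring
  by_cases hΔ' : f a a * f b b - f a b ^ 2 = 0
  · have := congrArg (f · d) (h.sq_zero hM hT hχ (hχ.cp hg) hP (.inl hΔ') (u := d) rfl)
    simp [hb, sy d a, ad, sy d m, md, qd, qa, hΔ] at this
  by_cases hl : f m a' = 0
  · exact h.false_of_sing hM hT h2 hχ (hχ.cp hg) hP hΔ' (s := a' + d')
      (fun e => by simpa [qd', a'd', qa] using congrArg (f · d') e)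
      (by simp [qa', qd', a'd', sy d' a']) (by simp [aa, ad'])
      (by simp [hb, hl, md', sy d a', a'd, dd])
  · have i := hq _ hl
    have j := hq _ qa
    refine h.false_of_sing hM hT h2 hχ (hχ.cp hg) hP hΔ' (s := f a a • d - f m a' • a')
      (fun e => by simpa [qd, a'd, qa, hl] using congrArg (f · d) e) ?_ (by simp [aa, ad]) ?_
    · simp [qa', qd, a'd, sy d a']
      linear_combination f a a * (j - i)
    · simp [hb, md, sy d a', a'd, qd]
      linear_combination Δ / f a a * (j - i)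

theorem tnorm_minus (h2 : finrank F W ≤ 2) (h4 : 4 ≤ finrank F U)
    (hm : ∀ a b u v, f a u = 0 → f a v ≠ 0 → f b u ≠ 0 → f a a = 0 → f a b = 0 → f b b = 0 →
      False) {g : SpG B} (hg : g ∈ M) : TNorm t g := by
  have sy := h.sym
  refine h.tnorm_of_rat g fun x hx => ?_
  have hφ := (orb_t (t := t) hx).cp hg
  refine h.rat_of_refl hM hT (by omega) hφ fun w hw u v => by_contra fun huv => ?_
  obtain ⟨ψ, hψ, a, b, u₁, v₁, e1, e2, e3, e4, hP⟩ := h.exists_pair hM (by omega) hφ hw huv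
  by_cases hq : f a a * f b b - f a b ^ 2 = 0 ∨ ∃ a : F, a ≠ 0 ∧ a ^ 2 ≠ 1
  · have h2 := h.sq_zero hM hT hφ hψ hP hq (u := u₁) (x := a) (by simp [sy u₁, e1, e3])
    have h3 := h.sq_zero hM hT hφ hψ hP hq (u := v₁) (x := b) (by simp [sy v₁, e2, e4])
    exact hm a b u₁ v₁ e1 (by simp [e2]) (by simp [e3])
      (by simpa [e1, e3] using congrArg (fun x => f x u₁) h2)
      (by simpa [e2, e4] using congrArg (fun x => f x v₁) h2)
      (by simpa [e2, e4] using congrArg (fun x => f x v₁) h3)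
  push Not at hq
  obtain ⟨hΔ, hq⟩ := hq
  have an : ∀ s, s ≠ 0 → f a s = 0 → f b s = 0 → f s s ≠ 0 := fun s s0 i j qs =>
    h.false_of_sing hM hT h2 hφ hψ hP hΔ s0 qs i j
  obtain ⟨χ, hχ, h1, h7, h9⟩ := h.exists_chi hM hT h2 hx (hψ.cp (M.inv_mem hg))
    (fun u => by rw [cp_apply, ← dag_cp, hP]) hΔ
  obtain ⟨z, hz, qz⟩ := h.exists_aniso_span hΔ
  obtain ⟨d, -, d0, da, db⟩ := exists_perp_two (B := f) (W := ⊤) (by simpa using h.three) a b
  have d1 := finrank_le_inf_ker ⊤ (f d)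
  rw [finrank_top, top_inf_eq] at d1
  obtain ⟨d', dd, d0', da', db'⟩ := exists_perp_two (B := f) (W := LinearMap.ker (f d))
    (by omega) a b
  rw [sy] at da db da' db'
  replace dd : f d d' = 0 := dd
  set y := f z a • b - f z b • a with hy
  have hy' : y ∈ Submodule.span F {a, b} :=
    Submodule.mem_span_pair.2 ⟨-f z b, f z a, by rw [hy]; module⟩
  have zy : f z y = 0 := by simp [hy]; ring
  have qy : f y y ≠ 0 := by
    obtain ⟨c, c', rfl⟩ := Submodule.mem_span_pair.1 hz
    refine fun e => mul_ne_zero hΔ qz ?_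
    simp only [hy, map_add, map_smul, map_sub, LinearMap.sub_apply, LinearMap.smul_apply,
      LinearMap.add_apply, smul_eq_mul, sy b a] at e ⊢
    linear_combination e
  have pp : ∀ z ∈ Submodule.span F {a, b}, f z d = 0 ∧ f z d' = 0 := fun z hz => by
    obtain ⟨c, c', rfl⟩ := Submodule.mem_span_pair.1 hz
    simp [da, db, da', db']
  obtain ⟨zd, zd'⟩ := pp z hz
  obtain ⟨yd, yd'⟩ := pp y hy'
  have qd := an d d0 da db
  have pm : ∀ c : F, c ≠ 0 → c = f d d ∨ c = -f d d := fun c hc =>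
    sq_eq_sq_iff_eq_or_eq_neg.1 ((hq c hc).trans (hq _ qd).symm)
  have qd' : f d' d' = f d d := (pm _ (an d' d0' da' db')).resolve_right fun e =>
    an (d + d') (fun e => by simpa [qd, sy d' d, dd] using congrArg (f · d) e) (by simp [da, da'])
      (by simp [db, db']) (by simp [e, dd, sy d' d])
  have h3 : (3 : F) = 0 := by linear_combination hq 2 h.two
  rcases pm _ qz with i | i <;> rcases pm _ qy with j | j
  · refine hm (z + y + d) (z - y + d') d' d (by simp [zd', yd', dd]) (by simp [zd, yd, qd])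
      (by simp [zd', yd', qd', qd]) ?_ ?_ ?_ <;>
    simp [zy, sy y z, zd, zd', yd, yd', sy d z, sy d y, sy d' z, sy d' y, dd, i, j, qd']
    all_goals linear_combination f d d * h3
  · exact h.false_of_frame hM hT h2 hq hχ hx hΔ qz (j.trans (by rw [i])) i.symm (qd'.trans i.symm)
      zy zd zd' yd yd' dd (h1 d da db) (h1 d' da' db') (fun u x => h7 u x d da db) (h9 z hz)
  · exact h.false_of_frame hM hT h2 hq hχ hx hΔ qy (i.trans (by rw [j])) j.symm (qd'.trans j.symm)
      ((sy _ _).trans zy) yd yd' zd zd' dd (h1 d da db) (h1 d' da' db')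
      (fun u x => h7 u x d da db) (h9 y hy')
  · refine hm (z + d) (y + d') d' d (by simp [zd', dd]) (by simp [zd, qd])
      (by simp [yd', qd', qd]) ?_ ?_ ?_ <;>
    simp [zy, sy y z, zd, zd', yd, yd', sy d z, sy d y, sy d' z, sy d' y, dd, i, j, qd']

end TS

end Cfsg.Agent.Cl.MaxSp.Ten

namespace Cfsg.Agent.Cl.MaxSp

open Module Matrix Cfsg.Geo Ten
open scoped Kronecker

variable {F : Type*} [Field F]

theorem max_tensor_of' [Fintype F] {m : ℕ} (hm : 1 ≤ m) (hodd : Odd (Fintype.card F)) {n₁ n₂ : ℕ}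
    (hn₂ : 3 ≤ n₂) (hbig : 4 ≤ n₂ ∨ ∃ a : F, a ≠ 0 ∧ a ^ 2 ≠ 1)
    (e : (Fin m ⊕ Fin m) ≃ Fin n₁ × Fin n₂) (P : GL (Fin m ⊕ Fin m) F)
    (f₁ : (Fin n₁ → F) → (Fin n₁ → F) → F) (f₂ : (Fin n₂ → F) → (Fin n₂ → F) → F)
    (hf₁ : IsSymplecticForm f₁) (hf₂ : IsSymmetricForm f₂)
    (hT : IsTensorFormStructure id (sympForm m F) f₁ f₂ e P)
    (H : ∀ (g₁ : LinearMap.BilinForm F (Fin n₁ → F)) (g₂ : LinearMap.BilinForm F (Fin n₂ → F))
      (t : (Fin n₁ → F) →ₗ[F] (Fin n₂ → F) →ₗ[F] (Fin m ⊕ Fin m → F)), TS g₁ g₂ (spB m F) t →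
      (∀ u v, g₂ u v = f₂ u v) →
      ∀ M : Subgroup (SpG (spB m F)), (∀ g, TNorm t g → g ∈ M) → M ≠ ⊤ → ∀ g ∈ M, TNorm t g) :
    IsMaximalIn (spGL m F) (tensorProductSubgroup n₁ n₂ e P ⊓ spGL m F) := by
  obtain ⟨c, hc, hT⟩ := hT
  let t : (Fin n₁ → F) →ₗ[F] (Fin n₂ → F) →ₗ[F] (Fin m ⊕ Fin m → F) :=
    LinearMap.mk₂ F (fun w u => Max.trV e P fun p => w p.1 * u p.2)
      (fun a b u => by rw [← map_add]; congr 1; ext p; simp [add_mul])
      (fun c a u => by rw [← map_smul]; congr 1; ext p; simp [mul_assoc])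
      (fun a u v => by rw [← map_add]; congr 1; ext p; simp [mul_add])
      (fun c a u => by rw [← map_smul]; congr 1; ext p; simp [mul_left_comm])
  have ht : ∀ w u, t w u = Max.trV e P fun p => w p.1 * u p.2 := fun _ _ => rfl
  have hs : ∀ x y, toB hf₂.bilinear x y = toB hf₂.bilinear y x := hf₂.symm
  have hnd : (toB hf₂.bilinear).Nondegenerate :=
    ⟨fun x hx => by_contra fun h0 => (hf₂.nondegenerate x h0).2.elim fun y hy => hy (hx y),
      fun x hx => by_contra fun h0 => (hf₂.nondegenerate x h0).1.elim fun y hy => hy (hx y)⟩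
  have hd : Fintype.card (Fin m ⊕ Fin m) = n₁ * n₂ := by rw [Fintype.card_congr e]; simp
  have h : TS (c • toB hf₁.bilinear) (toB hf₂.bilinear) (spB m F) t :=
    { nd₁ := ⟨fun x hx => by_contra fun h0 => (hf₁.nondegenerate x h0).2.elim fun y hy =>
          hy ((mul_eq_zero.1 (hx y)).resolve_left hc),
        fun x hx => by_contra fun h0 => (hf₁.nondegenerate x h0).1.elim fun y hy =>
          hy ((mul_eq_zero.1 (hx y)).resolve_left hc)⟩
      alt₁ := fun x => show c * f₁ x x = 0 by rw [hf₁.alternating, mul_zero]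
      nd := hnd
      sym := hs
      ndB := spB_nondegenerate
      altB := spB_isAlt
      form := fun x y u v => by
        change _ = c * f₁ x y * f₂ u v
        rw [spB_apply, ht, ht, Max.trV_apply, Max.trV_apply, hT, toB_eq_sum hf₁.bilinear,
          toB_eq_sum hf₂.bilinear, mul_assoc]
        congr 1
        simp only [formOfGram, Fintype.sum_prod_type, kroneckerMap_apply, id]
        rw [Finset.sum_mul_sum]
        refine Finset.sum_congr rfl fun i _ => Finset.sum_congr rfl fun j _ => ?_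
        rw [Finset.sum_mul_sum]
        refine Finset.sum_congr rfl fun k _ => Finset.sum_congr rfl fun l _ => by ring
      span := eq_top_iff.2 fun v _ => by
        obtain ⟨v, rfl⟩ := (Max.trV e P).surjective v
        rw [← Finset.univ_sum_single v, map_sum]
        refine Submodule.sum_mem _ fun p _ => Submodule.subset_span
          ⟨(Pi.single p.1 (v p), Pi.single p.2 1), ?_⟩
        beta_reduce
        rw [ht]
        congr 1
        ext q
        by_cases h1 : q.1 = p.1 <;> by_cases h2 : q.2 = p.2 <;>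
          simp [Pi.single_apply, Prod.ext_iff, h1, h2]
      dim := by simp only [finrank_fintype_fun_eq_card, hd, Fintype.card_fin]
      two := two_ne_zero_of_odd hodd
      three := by simpa
      big := by simpa using hbig
      sing := fun D hD => exists_sing hs hodd hD
      rk := fun N hN S hS h1 h2 => exists_rank_one hs (two_ne_zero_of_odd hodd) hodd hnd
        (by simpa) (by simpa using hbig) N hN hS h1 h2 }
  have hn₁ : 0 < n₁ := Nat.pos_of_ne_zero fun h0 => by simp [h0] at hd; omega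
  have hx₀ : (Pi.single ⟨0, hn₁⟩ 1 : Fin n₁ → F) ≠ 0 := by simp
  have hu₀ : (Pi.single ⟨0, by omega⟩ 1 : Fin n₂ → F) ≠ 0 := by simp
  refine isMaximalIn_sp _ (TNorm t) (fun g => ?_) (h.exists_not hx₀) fun M hM g hg hn =>
    by_contra fun hT => hn (H _ _ t h (fun _ _ => rfl) M hM hT g hg)
  rw [Max.mem_tensorProductSubgroup]
  constructor
  · rintro ⟨a, b, hab⟩
    exact ⟨Matrix.toLin' a.1, Matrix.toLin' b.1, fun w u => by
      rw [← spι_mulVec, hab, ht, ht, Max.tr_mulVec, Max.kron_mulVec_pure]; rfl⟩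
  · rintro ⟨k, a, hka⟩
    have hk : Function.Injective k := (injective_iff_map_eq_zero k).2 fun w hw => by_contra
      fun h0 => h.t_ne_zero h0 hu₀ (by simpa [hw] using hka w _)
    have ha : Function.Injective a := (injective_iff_map_eq_zero a).2 fun u hu => by_contra
      fun h0 => h.t_ne_zero hx₀ h0 (by simpa [hu] using hka _ u)
    refine ⟨(glEquiv _ F).symm (LinearEquiv.ofInjectiveEndo k hk),
      (glEquiv _ F).symm (LinearEquiv.ofInjectiveEndo a ha),
      Matrix.toLin'.injective (LinearMap.ext (h.ext fun w u => ?_))⟩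
    rw [Matrix.toLin'_apply, Matrix.toLin'_apply, spι_mulVec, hka, ht, ht, Max.tr_mulVec,
      Max.kron_mulVec_pure, glEquiv_symm_mulVec, glEquiv_symm_mulVec]
    rfl

theorem max_tensor_minus [Fintype F] (hodd : Odd (Fintype.card F))
    (e : (Fin 4 ⊕ Fin 4) ≃ Fin 2 × Fin 4) (P : GL (Fin 4 ⊕ Fin 4) F)
    (f₁ : (Fin 2 → F) → (Fin 2 → F) → F) (f₂ : (Fin 4 → F) → (Fin 4 → F) → F)
    (hf₁ : IsSymplecticForm f₁) (hf₂ : IsSymmetricForm f₂)
    (hm : ¬ IsPlusTypeOn (fun v : Fin 4 → F => f₂ v v) ⊤)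
    (hT : IsTensorFormStructure id (sympForm 4 F) f₁ f₂ e P) :
    IsMaximalIn (spGL 4 F) (tensorProductSubgroup 2 4 e P ⊓ spGL 4 F) := by
  refine max_tensor_of' (by omega) hodd (by omega) (.inl le_rfl) e P f₁ f₂ hf₁ hf₂ hT
    fun g₁ g₂ t h hg M hM hT g hgM => h.tnorm_minus hM hT (by simp) (by simp)
      (fun a b u v e1 e2 e3 qa qab qb => hm ⟨Submodule.span F (Set.range ![a, b]), le_top,
        fun w hw => ?_, ?_⟩) hgM
  · rw [Matrix.range_cons_cons_empty] at hw
    obtain ⟨c, c', rfl⟩ := Submodule.mem_span_pair.1 hw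
    simp [← hg, qa, qab, qb, h.sym b a]
  · rw [finrank_span_eq_card (LinearIndependent.pair_iff.2 fun c c' e => ?_)]
    · simp
    · have i : c' = 0 := by simpa [e1, e3] using congrArg (g₂ · u) e
      exact ⟨by simpa [i, e2] using congrArg (g₂ · v) e, i⟩

end Cfsg.Agent.Cl.MaxSp
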