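import Mathlib
import Cfsg.Agent.Cl.MinIdxSL

/-!
# More counting tools for the minimal index of classical groups

`ncard_mul_le'` (double counting with multiplicities), the subgroup `lifts` of the elements of `P`
lying in `Q H`, and the number `eps F = gcd(2, q - 1)`.
-/

set_option autoImplicit false

namespace Cfsg.Agent.Cl.MI

open MulAction

section Group

variable {G : Type*} [Group G] [Finite G] {Λ : Type*} [MulAction G Λ]

/-- Double counting: `S` is invariant under `H ∩ P` and contains the `R`-orbit of `x`, while `T` is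
contained in the `P`-orbit of `x`. -/
theorem ncard_mul_le' {H R P : Subgroup G} (hR : R ≤ P) {x : Λ} {S T : Set Λ} (hS : S.Finite)
    (h0 : ∀ g ∈ H, g ∈ P → ∀ y ∈ S, g • y ∈ S) (h1 : ∀ g ∈ R, g • x ∈ S)
    (h2 : ∀ y ∈ T, ∃ g ∈ P, g • x = y) :
    T.ncard * H.relIndex R ≤ H.relIndex P * S.ncard := by
  classical
  have hT : T.Finite := (Set.finite_range fun g : G => g • x).subset fun y hy => by
    obtain ⟨g, -, rfl⟩ := h2 y hy
    exact ⟨g, rfl⟩
  have := Fintype.ofFinite (P ⧸ H.subgroupOf P)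
  have := Fintype.ofFinite (R ⧸ H.subgroupOf R)
  rw [Set.ncard_eq_toFinset_card T hT, Subgroup.relIndex, Subgroup.relIndex, Subgroup.index,
    Subgroup.index, Nat.card_eq_fintype_card, Nat.card_eq_fintype_card, ← Finset.card_univ,
    ← Finset.card_univ]
  refine Finset.card_mul_le_card_mul
    (fun (y : Λ) (ω : P ⧸ H.subgroupOf P) => (ω.out.1)⁻¹ • y ∈ S) (fun y hy => ?_) fun ω _ => ?_
  · obtain ⟨g, hg, rfl⟩ := h2 y (hT.mem_toFinset.1 hy)
    refine Finset.card_le_card_of_injOn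
      (fun ρ => QuotientGroup.mk (⟨g * ρ.out.1, P.mul_mem hg (hR ρ.out.2)⟩ : P))
      (fun ρ _ => ?_) fun ρ _ ρ' _ e => ?_
    · obtain ⟨h, e⟩ := QuotientGroup.mk_out_eq_mul (H.subgroupOf P)
        (⟨g * ρ.out.1, P.mul_mem hg (hR ρ.out.2)⟩ : P)
      simp only [Finset.coe_bipartiteAbove, Finset.mem_univ, true_and,
        Set.mem_ofPred_eq, e, Subgroup.coe_mul, mul_inv_rev, mul_smul, inv_smul_smul]
      exact h0 _ (H.inv_mem h.2) (P.inv_mem h.1.2) _ (h1 _ (R.inv_mem ρ.out.2))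
    · have e1 := QuotientGroup.eq.1 e
      rw [← ρ.out_eq, ← ρ'.out_eq]
      refine QuotientGroup.eq.2 ?_
      simpa [Subgroup.mem_subgroupOf, mul_assoc] using e1
  · rw [Set.ncard_eq_toFinset_card S hS]
    exact Finset.card_le_card_of_injOn (fun y => (ω.out.1)⁻¹ • y)
      (fun y hy => by simpa using (Finset.mem_bipartiteBelow _ |>.1 hy).2)
      fun y _ y' _ e => smul_left_cancel _ e

omit [Finite G] in
/-- The elements of `P` in `Q H`, for `Q` normalised by `P`. -/
def lifts (H : Subgroup G) {Q P : Subgroup G} (hN : ∀ g ∈ P, ∀ r ∈ Q, g * r * g⁻¹ ∈ Q) :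
    Subgroup G where
  carrier := {g | g ∈ P ∧ ∃ r ∈ Q, r * g ∈ H}
  one_mem' := ⟨P.one_mem, 1, Q.one_mem, by simp⟩
  mul_mem' := fun {g k} ⟨hg, r, hr, h⟩ ⟨hk, s, hs, h'⟩ =>
    ⟨P.mul_mem hg hk, r * (g * s * g⁻¹), Q.mul_mem hr (hN g hg s hs), by
      simpa [mul_assoc] using H.mul_mem h h'⟩
  inv_mem' := fun {g} ⟨hg, r, hr, h⟩ =>
    ⟨P.inv_mem hg, g⁻¹ * r⁻¹ * g⁻¹⁻¹, hN _ (P.inv_mem hg) _ (Q.inv_mem hr), by
      simpa [mul_assoc] using H.inv_mem h⟩

theorem relIndex_mul_lifts (H : Subgroup G) {Q R P : Subgroup G}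
    (hN : ∀ g ∈ P, ∀ r ∈ Q, g * r * g⁻¹ ∈ Q) (hQ : Q ≤ R) (hR : R ≤ P) :
    H.relIndex Q * (lifts H hN).relIndex R ≤ H.relIndex R :=
  relIndex_mul_le' (fun g hg => ⟨⟨hR (hQ hg), g⁻¹, Q.inv_mem hg, by simp⟩, hQ hg⟩)
    fun g hg => ⟨hR hg.2, 1, Q.one_mem, by simpa using hg.1⟩

/-- A one-parameter subgroup bounds the relative index from below. -/
theorem index_le_relIndex {A : Type*} [AddGroup A] {K R : Subgroup G} (f : A → G)
    (hf : ∀ a, f a ∈ R) (S : AddSubgroup A) (h : ∀ a b, (f a)⁻¹ * f b ∈ K → -a + b ∈ S) :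
    S.index ≤ K.relIndex R :=
  card_le_relIndex (fun a : A ⧸ S => f a.out) (fun _ => hf _) fun a b e => by
    rw [← a.out_eq, ← b.out_eq]
    exact QuotientAddGroup.eq.2 (h _ _ e)

end Group

section Eps

variable (F : Type*) [Field F]

open Classical in
/-- The number of square roots of `1`. -/
noncomputable def eps : ℕ := if (2 : F) = 0 then 1 else 2

variable {F}

theorem eps_cases : (2 : F) = 0 ∧ eps F = 1 ∨ (2 : F) ≠ 0 ∧ eps F = 2 := by
  unfold eps
  split_ifs with h <;> simp [h]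

theorem eps_lt_index {V : Type*} [AddCommGroup V] [Module F V] [Finite V] {S : AddSubgroup V}
    (h : S ≠ ⊤) : eps F < S.index := by
  have h0 : S.index ≠ 0 := S.index_ne_zero_of_finite
  have h1 : S.index ≠ 1 := mt AddSubgroup.index_eq_one.1 h
  rcases eps_cases (F := F) with ⟨-, e⟩ | ⟨h2, e⟩
  · omega
  · have : S.index ≠ 2 := fun h3 => h (eq_top_iff.2 fun v _ => by
      have := S.add_self_mem_of_index_two h3 ((2 : F)⁻¹ • v)
      rwa [← two_smul F, smul_inv_smul₀ h2] at this)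
    omega

theorem eps_lt_card [Finite F] : eps F < Nat.card F := by
  simpa using eps_lt_index (F := F) (S := (⊥ : AddSubgroup F)) bot_ne_top

theorem ncard_sq_le [Finite F] (S : Set F) {l : F} (hl : l ≠ 0) :
    {b : F | b ^ 2 * l ∈ S}.ncard ≤ eps F * S.ncard := by
  classical
  have := Fintype.ofFinite F
  rw [Set.ncard_eq_toFinset_card', Set.ncard_eq_toFinset_card']
  refine Finset.card_le_mul_card_image_of_maps_to (f := fun b => b ^ 2 * l) (by simp) _
    fun c _ => ?_
  by_cases h : ∃ b, b ^ 2 * l = c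
  · obtain ⟨b, rfl⟩ := h
    refine (Finset.card_le_card (t := {b, -b}) fun a ha => ?_).trans ?_
    · have := (Finset.mem_filter.1 ha).2
      simpa [sq_eq_sq_iff_eq_or_eq_neg] using mul_right_cancel₀ hl this
    · rcases eps_cases (F := F) with ⟨h2, e⟩ | ⟨h2, e⟩
      · rw [e, show -b = b by linear_combination (-b) * h2]
        simp
      · exact e ▸ Finset.card_le_two
  · rw [Finset.filter_eq_empty_iff.2 fun b _ e => h ⟨b, e⟩]
    simp

/-- An additive subgroup invariant under `t` is invariant under `(t - 1)⁻¹`. -/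
theorem mem_of_sub_one_mul [Finite F] {S : AddSubgroup F} {t c : F} (h : ∀ a ∈ S, t * a ∈ S)
    (ht : t ≠ 1) (hc : (t - 1) * c ∈ S) : c ∈ S := by
  have h1 : Function.Injective fun a : S =>
      (⟨(t - 1) * a, by rw [sub_one_mul]; exact S.sub_mem (h _ a.2) a.2⟩ : S) := fun a b e =>
    Subtype.ext (mul_left_cancel₀ (sub_ne_zero.2 ht) (congrArg Subtype.val e))
  obtain ⟨a, e⟩ := Finite.surjective_of_injective h1 ⟨_, hc⟩
  rw [← mul_left_cancel₀ (sub_ne_zero.2 ht) (congrArg Subtype.val e)]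
  exact a.2

theorem eq_top_of_mul {S : AddSubgroup F} {t : F} (ht : t ≠ 0) (h : ∀ a, a * t ∈ S) : S = ⊤ :=
  eq_top_iff.2 fun c _ => by simpa [ht] using h (c / t)

variable {V : Type*} [AddCommGroup V] [Module F V]

theorem ncard_span_single [Finite F] {x : V} (hx : x ≠ 0) :
    ((F ∙ x : Submodule F V) : Set V).ncard = Nat.card F :=
  Nat.card_congr (LinearEquiv.toSpanNonzeroSingleton F V x hx).toEquiv.symm

theorem ncard_submodule [Finite F] [Finite V] (U : Submodule F V) :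
    (U : Set V).ncard = Nat.card F ^ Module.finrank F U :=
  Module.natCard_eq_pow_finrank (V := U)

theorem ncard_smul_set {x : V} (hx : x ≠ 0) (S : Set F) :
    ((fun b : F => b • x) '' S).ncard = S.ncard :=
  Set.ncard_image_of_injective _ (smul_left_injective F hx)

end Eps

end Cfsg.Agent.Cl.MI
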