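import Mathlib
import Cfsg.Agent.Cl.MinIdxB
import Cfsg.Agent.Cl.MaxSpX

/-!
# Minimal index of a proper subgroup of `Sp(V)`: the radical of a point stabiliser

`Qe x w c = E(w, x) T(x, c)` are the elements of the radical `Qx x`; `Zs H x`, `Ys H x` describe
`H ∩ Qx x`, and `As ψ H x` is the annihilator of `Ys H x`.
-/

set_option autoImplicit false

namespace Cfsg.Agent.Cl.MI

open MulAction Module Submodule MaxSp

variable {F : Type*} [Field F] {V : Type*} [AddCommGroup V] [Module F V]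
  {B : LinearMap.BilinForm F V} (hA : B.IsAlt)

/-- The general element of the radical of the stabiliser of `x`. -/
def Qe (x w : V) (c : F) : SpG B := spE hA w x * spT hA x c

theorem Qe_apply {x w : V} (h : B w x = 0) (c : F) (v : V) :
    (Qe hA x w c).1 v = v + B v w • x + B v x • w + (c * B v x) • x := by
  rw [Qe, spG_mul_apply, spE_apply hA h, spT_apply]
  simp only [map_add, map_smul, LinearMap.add_apply, LinearMap.smul_apply, alt_zero hA h,
    hA.self_eq_zero]
  module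

theorem Qe_apply_perp {x w v : V} (h : B w x = 0) (c : F) (hv : B v x = 0) :
    (Qe hA x w c).1 v = v + B v w • x := by
  rw [Qe_apply hA h, hv]; simp

theorem Qe_apply_self {x w : V} (h : B w x = 0) (c : F) : (Qe hA x w c).1 x = x := by
  rw [Qe_apply_perp hA h c (hA.self_eq_zero x), alt_zero hA h]; simp

@[simp] theorem Qe_zero (x : V) (c : F) : Qe hA x 0 c = spT hA x c := by simp [Qe]

theorem Qe_mul {x w w' : V} (h : B w x = 0) (h' : B w' x = 0) (c c' : F) :
    Qe hA x w c * Qe hA x w' c' = Qe hA x (w + w') (c + c' + B w' w) := by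
  have := (spT_commute_spE hA h' (alt_zero hA h') (hA.self_eq_zero x) c).eq
  rw [Qe, Qe, Qe, mul_assoc, ← mul_assoc (spT hA x c), this, ← mul_assoc, ← mul_assoc,
    spE_mul hA h h', mul_assoc, mul_assoc, spT_mul, spT_mul]
  congr 2; ring

theorem Qe_inv {x w : V} (h : B w x = 0) (c : F) : (Qe hA x w c)⁻¹ = Qe hA x (-w) (-c) :=
  inv_eq_of_mul_eq_one_right (by
    rw [Qe_mul hA h (by simp [h])]; simp [hA.self_eq_zero])

theorem Qe_conj (g : SpG B) (x w : V) (c : F) :
    g * Qe hA x w c * g⁻¹ = Qe hA (g.1 x) (g.1 w) c := by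
  rw [Qe, Qe, ← spE_conj, ← spT_conj]; group

theorem Qe_smul {x w : V} (h : B w x = 0) (b c : F) :
    Qe hA (b • x) w c = Qe hA x (b • w) (b ^ 2 * c) := by
  rw [Qe, Qe, spE_smul hA h, spT_smul]

theorem Qe_add_smul {x w : V} (h : B w x = 0) (t c : F) :
    Qe hA x (w + t • x) c = Qe hA x w (c + 2 * t) :=
  spG_ext fun v => by
    rw [Qe_apply hA h, Qe_apply hA (by simp [h, hA.self_eq_zero])]
    simp only [map_add, map_smul, smul_eq_mul]
    module

theorem spT_add_smul {x a : V} (h : B a x = 0) (t d : F) :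
    spT hA (a + t • x) d = Qe hA x ((t * d) • a) (t ^ 2 * d) * spT hA a d :=
  spG_ext fun v => by
    rw [spG_mul_apply, Qe_apply hA (by simp [h])]
    simp only [spT_apply, map_add, map_smul, LinearMap.add_apply, LinearMap.smul_apply, h,
      hA.self_eq_zero, smul_eq_mul]
    module

theorem Qe_shift {x y : V} (h : B y x = 0) (m t c : F) :
    Qe hA (x + t • y) (m • y) c =
      Qe hA y ((m + t * c) • x) (t ^ 2 * c + 2 * t * m) * spT hA x c :=
  spG_ext fun v => by
    have := alt_zero hA h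
    rw [spG_mul_apply, Qe_apply hA (by simp [h, hA.self_eq_zero]), Qe_apply hA (by simp [this])]
    simp only [spT_apply, map_add, map_smul, LinearMap.add_apply, LinearMap.smul_apply, h, this,
      hA.self_eq_zero, smul_eq_mul]
    module

theorem Qe_swap {x y : V} (h : B y x = 0) (m : F) : Qe hA x (m • y) 0 = Qe hA y (m • x) 0 := by
  simpa using Qe_shift hA h m 0 0

/-- The radical of the stabiliser of the point `⟨x⟩`. -/
def Qx (x : V) : Subgroup (SpG B) where
  carrier := {g | ∃ w c, B w x = 0 ∧ g = Qe hA x w c}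
  one_mem' := ⟨0, 0, by simp, by simp⟩
  mul_mem' := by
    rintro _ _ ⟨w, c, h, rfl⟩ ⟨w', c', h', rfl⟩
    exact ⟨_, _, by simp [h, h'], Qe_mul hA h h' c c'⟩
  inv_mem' := by
    rintro _ ⟨w, c, h, rfl⟩
    exact ⟨_, _, by simp [h], Qe_inv hA h c⟩

theorem perp_of_smul {g : SpG B} {x w : V} {b : F} (hb : b ≠ 0) (hg : g.1 x = b • x)
    (h : B w x = 0) : B (g.1 w) x = 0 := by
  have := spG_form g w x
  rw [hg, h] at this
  simpa [hb] using this

theorem Qe_conj' {g : SpG B} {x w : V} {b : F} (hb : b ≠ 0) (hg : g.1 x = b • x) (h : B w x = 0)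
    (c : F) : g * Qe hA x w c * g⁻¹ = Qe hA x (b • g.1 w) (b ^ 2 * c) := by
  rw [Qe_conj, hg, Qe_smul hA (perp_of_smul hb hg h)]

theorem Qx_normal (x : V) : ∀ g ∈ pst F (SpG B) x, ∀ r ∈ Qx hA x, g * r * g⁻¹ ∈ Qx hA x := by
  rintro g hg _ ⟨w, c, h, rfl⟩
  obtain ⟨b, hb, e⟩ := mem_pst.1 hg
  exact ⟨_, _, by simp [perp_of_smul hb e h], Qe_conj' hA hb e h c⟩

variable (H : Subgroup (SpG B))

/-- The parameters of the transvections with centre `x` in `H`. -/
def Zs (x : V) : AddSubgroup F where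
  carrier := {c | spT hA x c ∈ H}
  zero_mem' := by simp
  add_mem' := fun h h' => by simpa [spT_mul] using H.mul_mem h h'
  neg_mem' := fun h => by simpa [spT_inv] using H.inv_mem h

/-- The image of `H ∩ Qx x` in `x^⊥`. -/
def Ys (x : V) : AddSubgroup V where
  carrier := {w | B w x = 0 ∧ ∃ c, Qe hA x w c ∈ H}
  zero_mem' := ⟨by simp, 0, by simp⟩
  add_mem' := fun ⟨h, c, e⟩ ⟨h', c', e'⟩ =>
    ⟨by simp [h, h'], _, Qe_mul hA h h' c c' ▸ H.mul_mem e e'⟩
  neg_mem' := fun ⟨h, c, e⟩ => ⟨by simp [h], _, Qe_inv hA h c ▸ H.inv_mem e⟩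

variable {hA H}

theorem mem_Zs {x : V} {c : F} : c ∈ Zs hA H x ↔ spT hA x c ∈ H := Iff.rfl

theorem Zs_eq_top {x : V} : Zs hA H x = ⊤ ↔ x ∈ XS hA H := AddSubgroup.eq_top_iff' _

theorem XS_of_mul {x : V} {t : F} (ht : t ≠ 0) (h : ∀ a, spT hA x (a * t) ∈ H) : x ∈ XS hA H :=
  Zs_eq_top.1 (eq_top_of_mul ht h)

theorem smul_mem_Ys (x : V) (t : F) : t • x ∈ Ys hA H x :=
  ⟨by simp [hA.self_eq_zero], -(2 * t), by
    rw [← zero_add (t • x), Qe_add_smul hA (by simp)]; simp⟩

theorem sub_mem_Zs {x w : V} {c c' : F} (h : B w x = 0) (e : Qe hA x w c ∈ H)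
    (e' : Qe hA x w c' ∈ H) : c' - c ∈ Zs hA H x := by
  have := H.mul_mem (H.inv_mem e) e'
  rw [Qe_inv hA h, Qe_mul hA (by simp [h]) h] at this
  simpa [hA.self_eq_zero, mem_Zs, neg_add_eq_sub] using this

theorem Qe_mem_of {x w : V} {c c' : F} (h : B w x = 0) (e : Qe hA x w c ∈ H)
    (e' : c' - c ∈ Zs hA H x) : Qe hA x w c' ∈ H := by
  have := H.mul_mem e e'
  rw [← Qe_zero, Qe_mul hA h (by simp)] at this
  simpa using this

theorem conj_mem {g s : SpG B} (hg : g ∈ H) (hs : s ∈ H) : g * s * g⁻¹ ∈ H :=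
  H.mul_mem (H.mul_mem hg hs) (H.inv_mem hg)

theorem Zs_smul {g : SpG B} (hg : g ∈ H) {x : V} {b c : F} (e : g.1 x = b • x)
    (hc : c ∈ Zs hA H x) : b ^ 2 * c ∈ Zs hA H x := by
  have := conj_mem hg hc
  rwa [spT_conj, e, spT_smul] at this

theorem Ys_smul {g : SpG B} (hg : g ∈ H) {x w : V} {b : F} (hb : b ≠ 0) (e : g.1 x = b • x)
    (hw : w ∈ Ys hA H x) : b • g.1 w ∈ Ys hA H x := by
  obtain ⟨h, c, hc⟩ := hw
  exact ⟨by simp [perp_of_smul hb e h], _, Qe_conj' hA hb e h c ▸ conj_mem hg hc⟩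

/-- Commutators in the radical. -/
theorem comm_mem_Zs {x w w' : V} (hw : w ∈ Ys hA H x) (hw' : w' ∈ Ys hA H x) :
    2 * B w' w ∈ Zs hA H x := by
  obtain ⟨h, c, hc⟩ := hw
  obtain ⟨h', c', hc'⟩ := hw'
  have e := H.mul_mem hc hc'
  have e' := H.mul_mem hc' hc
  rw [Qe_mul hA h h'] at e
  rw [Qe_mul hA h' h, add_comm w'] at e'
  have := sub_mem_Zs (by simp [h, h']) e' e
  rwa [← hA.neg_eq w' w, show c + c' + B w' w - (c' + c + -B w' w) = 2 * B w' w by ring] at this

/-- Conjugating an element of the radical by a lift of a transvection, characteristic two. -/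
theorem trick (h2 : (2 : F) = 0) {x z w : V} {m : F} (hz : B z x = 0) (hw : w ∈ Ys hA H x)
    {r : SpG B} (hr : r ∈ Qx hA x) (h : r * spT hA z m ∈ H) :
    Qe hA x ((m * B w z) • z) (-(m * B w z ^ 2)) ∈ H := by
  obtain ⟨hwx, c, hc⟩ := hw
  obtain ⟨u, d, hu, rfl⟩ := hr
  have h1 := conj_mem h hc
  have h3 : B (w + (m * B w z) • z) x = 0 := by simp [hwx, hz]
  rw [Qe_conj, spG_mul_apply, spG_mul_apply, spT_apply, spT_apply, alt_zero hA hz, mul_zero,
    zero_smul, add_zero, Qe_apply_self hA hu, Qe_apply_perp hA hu d h3, Qe_add_smul hA h3, h2,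
    zero_mul, add_zero] at h1
  have h4 := H.mul_mem h1 (H.inv_mem hc)
  rw [Qe_inv hA hwx, Qe_mul hA h3 (by simp [hwx])] at h4
  convert h4 using 2
  · abel
  · simp [hA.self_eq_zero, sq, mul_assoc]

theorem XS_of_trick (h2 : (2 : F) = 0) (h3 : ∃ a : F, a ≠ 0 ∧ a ≠ 1) {x z w : V} (hz : B z x = 0)
    (hw : ∀ t : F, t • w ∈ Ys hA H x) (hwz : B w z ≠ 0)
    (h : ∀ m, ∃ r ∈ Qx hA x, r * spT hA z m ∈ H) : x ∈ XS hA H := by
  have k : ∀ t : F, t ≠ 0 → Qe hA x z (-t) ∈ H := fun t ht => by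
    obtain ⟨r, hr, e⟩ := h t⁻¹
    have := trick h2 hz (hw (t / B w z)) hr e
    simpa [hwz, ht, sq] using this
  obtain ⟨a, ha, ha1⟩ := h3
  refine XS_of_mul (t := a - 1) (sub_ne_zero.2 ha1) fun c => ?_
  rcases eq_or_ne c 0 with rfl | hc
  · simp
  · have := sub_mem_Zs hz (k _ (mul_ne_zero hc ha)) (k c hc)
    rwa [show -c - -(c * a) = c * (a - 1) by ring] at this

variable (B) in
/-- The form as a biadditive map. -/
def bA : V →+ V →+ F := LinearMap.toAddMonoidHom'.comp B.toAddMonoidHom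

@[simp] theorem bA_apply (u v : V) : bA B u v = B u v := rfl

variable (B) in
/-- The orthogonal complement of a vector. -/
def pp (x : V) : Submodule F V := LinearMap.ker (B.flip x)

@[simp] theorem mem_pp {x v : V} : v ∈ pp B x ↔ B v x = 0 := Iff.rfl

variable (hA H) in
/-- The annihilator of `Ys H x`. -/
def As (ψ : AddChar F ℂ) (x : V) : AddSubgroup V := ann ψ (bA B) (Ys hA H x)

variable (hA H) in
/-- The index of `Ys H x` in `x^⊥`. -/
noncomputable def al (x : V) : ℕ := (Ys hA H x).relIndex (pp B x).toAddSubgroup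

variable {ψ : AddChar F ℂ}

theorem As_map {g : SpG B} (hg : g ∈ H) {x a : V} (e : g.1 x = x) (ha : a ∈ As hA H ψ x) :
    g.1 a ∈ As hA H ψ x := fun w hw => by
  have h1 : (g⁻¹).1 x = (1 : F) • x := by rw [one_smul]; conv_lhs => rw [← e, sp_inv_apply_apply]
  have := ha _ (Ys_smul (H.inv_mem hg) one_ne_zero h1 hw)
  rwa [one_smul, bA_apply, ← spG_form g, sp_apply_inv_apply] at this

theorem smul_mem_As (x : V) (t : F) : t • x ∈ As hA H ψ x := fun w hw => by
  simp [alt_zero hA hw.1]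

theorem As_le (hψ : ∀ a : F, (∀ c, ψ (c * a) = 1) → a = 0) {x a : V} (ha : a ∈ As hA H ψ x) :
    B a x = 0 := hψ _ fun c => by simpa using ha _ (smul_mem_Ys x c)

theorem perp_of_As (hψ : ∀ a : F, (∀ c, ψ (c * a) = 1) → a = 0) {x a w : V}
    (ha : ∀ t : F, t • a ∈ As hA H ψ x) (hw : w ∈ Ys hA H x) : B a w = 0 :=
  hψ _ fun c => by simpa using ha c w hw

variable [Finite V] (hB : B.Nondegenerate) (hψ : ∀ a : F, (∀ c, ψ (c * a) = 1) → a = 0)
include hB hψ

theorem mem_Ys {x w : V} (h : ∀ a ∈ As hA H ψ x, B a w = 0) : w ∈ Ys hA H x :=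
  mem_of_ann (ψ := ψ) (β := bA B) (fun u hu => hB.2 u fun v => hψ _ fun c => by simpa using hu (c • v))
    (fun u hu => hB.1 u fun v => hψ _ fun c => by simpa using hu (c • v)) h

theorem card_As [Finite F] {x : V} (hx : x ≠ 0) :
    (As hA H ψ x : Set V).ncard = Nat.card F * al hA H x := by
  have h1 := card_ann (ψ := ψ) (β := bA B)
    (fun u hu => hB.2 u fun v => hψ _ fun c => by simpa using hu (c • v)) (Ys hA H x)
  have h2 := ((Ys hA H x).addSubgroupOf (pp B x).toAddSubgroup).card_mul_index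
  rw [Nat.card_congr (AddSubgroup.addSubgroupOfEquivOfLe (H := Ys hA H x)
    (K := (pp B x).toAddSubgroup) fun w hw => hw.1).toEquiv] at h2
  have h3 := (LinearMap.ker (B.flip x).toAddMonoidHom.toIntLinearMap).card_eq_card_quotient_mul_card
  have h4 := AddSubgroup.card_mul_index (pp B x).toAddSubgroup
  have h5 : (pp B x).toAddSubgroup.index = Nat.card F := by
    rw [show (pp B x).toAddSubgroup = (B.flip x).toAddMonoidHom.ker from rfl,
      AddSubgroup.index_ker, AddMonoidHom.range_eq_top.2, AddSubgroup.card_top]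
    obtain ⟨y, hy⟩ : ∃ y, B y x ≠ 0 := by
      by_contra! h
      exact hx (hB.2 x h)
    exact fun c => ⟨(c / B y x) • y, by simp [hy]⟩
  refine Nat.eq_of_mul_eq_mul_left (Nat.card_pos (α := Ys hA H x)) ?_
  rw [mul_left_comm, al, AddSubgroup.relIndex, h2, mul_comm (Nat.card F), ← h5, h4]
  exact h1

end Cfsg.Agent.Cl.MI
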