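import Mathlib
import Cfsg.Agent.Cl.MinIdxSp

/-!
# Minimal index of a proper subgroup of `Sp(V)`: counting
-/

set_option autoImplicit false

namespace Cfsg.Agent.Cl.MI

open MulAction Module Submodule MaxSp

theorem num_key {q Q a r k M : ℕ} (h : (q - 1) * (Q - 1) * (a * r * k) ≤ M * (r - 1) * (a - 1))
    (ha : 2 ≤ a) (haQ : a ≤ Q) (hr : 2 ≤ r) (hrq : r ≤ q) : k * q * Q ≤ M := by
  obtain ⟨a, rfl⟩ := Nat.exists_eq_add_of_le' (show 1 ≤ a by omega)
  obtain ⟨r, rfl⟩ := Nat.exists_eq_add_of_le' (show 1 ≤ r by omega)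
  obtain ⟨q, rfl⟩ := Nat.exists_eq_add_of_le' (show 1 ≤ q by omega)
  obtain ⟨Q, rfl⟩ := Nat.exists_eq_add_of_le' (show 1 ≤ Q by omega)
  simp only [Nat.add_sub_cancel] at h
  refine Nat.le_of_mul_le_mul_right ?_ (Nat.mul_pos (show 0 < r by omega) (show 0 < a by omega))
  calc _ = k * ((q + 1) * r) * ((Q + 1) * a) := by ring
    _ ≤ k * (q * (r + 1)) * (Q * (a + 1)) := by gcongr ?_ * ?_ * ?_ <;> nlinarith
    _ ≤ _ := by nlinarith

variable {F : Type*} [Field F] {V : Type*} [AddCommGroup V] [Module F V]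
  {B : LinearMap.BilinForm F V} {hA : B.IsAlt} {H : Subgroup (SpG B)} {ψ : AddChar F ℂ}

theorem spG_smul (g : SpG B) (v : V) : g • v = g.1 v := rfl

theorem Qx_le_stab (x : V) : Qx hA x ≤ stabilizer (SpG B) x := by
  rintro _ ⟨w, c, h, rfl⟩
  exact Qe_apply_self hA h c

theorem Qx_apply {x v : V} {r : SpG B} (hr : r ∈ Qx hA x) (hv : B v x = 0) :
    ∃ t : F, r.1 v = v + t • x := by
  obtain ⟨w, c, h, rfl⟩ := hr
  exact ⟨_, Qe_apply_perp hA h c hv⟩

theorem li_of_notMem {x a : V} (hx : x ≠ 0) (ha : a ∉ F ∙ x) : LinearIndependent F ![x, a] :=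
  (LinearIndependent.pair_iff' hx).2 fun t e => ha (mem_span_singleton.2 ⟨t, e⟩)

theorem notMem_map {g : SpG B} {x a : V} {b : F} (e : g.1 x = b • x) (hx : x ≠ 0)
    (ha : a ∉ F ∙ x) : g.1 a ∉ F ∙ x := fun h => by
  obtain ⟨t, ht⟩ := mem_span_singleton.1 h
  have hb : b ≠ 0 := by rintro rfl; exact sp_apply_ne_zero g hx (by simpa using e)
  refine ha (mem_span_singleton.2 ⟨t / b, g.1.injective ?_⟩)
  rw [map_smul, e, smul_smul, div_mul_cancel₀ _ hb, ht]

variable (hA H) in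
/-- The elements of the point stabiliser in `Qx x * H`. -/
def LF (x : V) : Subgroup (SpG B) := lifts H (Qx_normal hA x)

variable [Finite V]

instance finite_spG : Finite (SpG B) :=
  Finite.of_injective (fun g : SpG B => (g.1 : V → V)) fun _ _ e => spG_ext (congrFun e)

theorem al_mul_le (x : V) : al hA H x * (Zs hA H x).index ≤ H.relIndex (Qx hA x) := by
  rw [al, AddSubgroup.relIndex, AddSubgroup.index, AddSubgroup.index, ← Nat.card_prod]
  refine card_le_relIndex (fun p => Qe hA x p.1.out.1 p.2.out) (fun p => ⟨_, _, p.1.out.2, rfl⟩)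
    fun p p' e => ?_
  have h1 : B p.1.out.1 x = 0 := p.1.out.2
  have h2 : B p'.1.out.1 x = 0 := p'.1.out.2
  rw [Qe_inv hA h1, Qe_mul hA (by simp [h1]) h2] at e
  have h3 : p.1 = p'.1 := by
    rw [← p.1.out_eq, ← p'.1.out_eq]
    exact QuotientAddGroup.eq.2 ⟨by simp [h1, h2], _, e⟩
  refine Prod.ext h3 ?_
  rw [← p.2.out_eq, ← p'.2.out_eq]
  refine QuotientAddGroup.eq.2 ?_
  simpa [h3, hA.self_eq_zero, mem_Zs] using e

theorem al_mul_LF {x : V} {R : Subgroup (SpG B)} (hQ : Qx hA x ≤ R) (hR : R ≤ pst F (SpG B) x) :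
    al hA H x * (Zs hA H x).index * (LF hA H x).relIndex R ≤ H.relIndex R :=
  (Nat.mul_le_mul_right _ (al_mul_le x)).trans (relIndex_mul_lifts H _ hQ hR)

variable [Finite F]

theorem eps_lt_Zs {x : V} (hx : x ∉ XS hA H) : eps F < (Zs hA H x).index :=
  eps_lt_index (mt Zs_eq_top.1 hx)

theorem Zs_le (x : V) : (Zs hA H x).index ≤ Nat.card F :=
  Nat.le_of_dvd Nat.card_pos (Zs hA H x).index_dvd_card

/-- If no element of `LF` multiplies `x` by a scalar outside `S`. -/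
theorem card_le_LF {x : V} (hx : x ≠ 0) {R : Subgroup (SpG B)} {S : Set F}
    (h1 : ∀ g ∈ LF hA H x, g ∈ R → ∃ b ∈ S, g.1 x = b • x)
    (h2 : ∀ b : F, b ≠ 0 → ∃ g ∈ R, g.1 x = b • x) :
    Nat.card F - 1 ≤ (LF hA H x).relIndex R * S.ncard := by
  have := ncard_le (K := LF hA H x) (P := R) (x := x) (S := (fun b : F => b • x) '' S)
    (T := (fun b : F => b • x) '' {0}ᶜ) (Set.toFinite _)
    (fun g hg hg' => let ⟨b, hb, e⟩ := h1 g hg hg'; ⟨b, hb, e.symm⟩)
    (by rintro _ ⟨b, hb, rfl⟩; exact h2 b hb)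
  rwa [ncard_smul_set hx, ncard_smul_set hx, Set.ncard_compl, Set.ncard_singleton] at this

variable (hB : B.Nondegenerate)
include hB

theorem ncard_pp (hA : B.IsAlt) {x : V} (hx : x ≠ 0) {Q : ℕ} (hQ : Nat.card V = Nat.card F ^ 2 * Q) :
    ((pp B x : Set V) \ (F ∙ x : Submodule F V)).ncard = Nat.card F * (Q - 1) := by
  obtain ⟨ψ, hψ⟩ := exists_addChar F
  have h1 := card_ann (ψ := ψ) (β := bA B)
    (fun u hu => hB.2 u fun v => hψ _ fun c => by simpa using hu (c • v)) (F ∙ x).toAddSubgroup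
  have h2 : ann ψ (bA B) (F ∙ x).toAddSubgroup = (pp B x).toAddSubgroup := by
    ext v
    refine ⟨fun h => hψ _ fun c => ?_, fun h u hu => ?_⟩
    · simpa using h (c • x) (smul_mem _ c (mem_span_singleton_self x))
    · obtain ⟨c, rfl⟩ := mem_span_singleton.1 hu
      simp [show B v x = 0 from h]
  have h3 := ncard_span_single (F := F) hx
  rw [h2, hQ, show Nat.card (F ∙ x).toAddSubgroup = Nat.card F from h3, sq, mul_assoc] at h1
  rw [Set.ncard_sdiff, h3, Nat.mul_sub_one, ← Nat.eq_of_mul_eq_mul_left Nat.card_pos h1]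
  · rfl
  · intro v hv
    obtain ⟨c, rfl⟩ := mem_span_singleton.1 hv
    simp [hA.self_eq_zero]

theorem le_index_of_fix (hA : B.IsAlt) {y : V} (hy : y ≠ 0) (h : ∀ g ∈ H, ∃ a : F, g.1 y = a • y) :
    Nat.card V - 1 ≤ H.index * (Nat.card F - 1) := by
  have := Module.Finite.of_finite (R := F) (M := V)
  have := le_of_fix (F := F) (H := H) hy (X := {0}ᶜ) (fun v hv => by
    obtain ⟨g, hg, e⟩ := sp_transitive hB hA hy hv
    exact ⟨⟨g, hg⟩, trivial, 1, one_ne_zero, by rw [one_smul]; exact e.symm⟩) h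
  rwa [Set.ncard_compl, Set.ncard_singleton] at this

variable (hψ : ∀ a : F, (∀ c, ψ (c * a) = 1) → a = 0)
include hψ

theorem stab_le_mx {x : V} (hx : x ∉ XS hA H) :
    (Nat.card F - 1) * H.relIndex (stabilizer (SpG B) x) ≤
      mx F H x * (eps F * ((Zs hA H x).index - 1)) := by
  have := Module.Finite.of_finite (R := F) (M := V)
  have hx0 : x ≠ 0 := by rintro rfl; exact hx (tClosed_XS hA H).zero_mem
  set L := ann ψ AddMonoidHom.mul (Zs hA H x)
  have h1 : Nat.card L = (Zs hA H x).index := Nat.eq_of_mul_eq_mul_left Nat.card_pos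
    ((card_ann (ψ := ψ) hψ _).trans (Zs hA H x).card_mul_index.symm)
  have h2 := eps_lt_Zs hx
  obtain ⟨l, hl, hl0⟩ : ∃ l ∈ L, l ≠ 0 := by
    by_contra! h
    rw [show L = ⊥ from eq_bot_iff.2 h, AddSubgroup.card_bot] at h1
    rcases eps_cases (F := F) with h | h <;> omega
  have h3 := ncard_mul_le (K := H) (P := pst F (SpG B) x) (x := x)
    (S := (fun b : F => b • x) '' {b | b ^ 2 * l ∈ (L : Set F) \ {0}})
    (T := (fun b : F => b • x) '' {0}ᶜ) (Set.toFinite _) (fun g hg hg' => by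
      obtain ⟨b, hb, e⟩ := mem_pst.1 hg'
      refine ⟨b, ⟨fun c hc => ?_, by simp [hb, hl0]⟩, e.symm⟩
      simpa [mul_assoc, mul_left_comm l] using hl _ (Zs_smul hg e hc))
    (by
      rintro _ ⟨b, hb, rfl⟩
      obtain ⟨g, hg, e⟩ := sp_transitive hB hA hx0 (smul_ne_zero hb hx0)
      exact ⟨⟨g, hg⟩, mem_pst.2 ⟨b, hb, e⟩, e⟩)
  rw [ncard_smul_set hx0, ncard_smul_set hx0, Set.ncard_compl, Set.ncard_singleton,
    inf_eq_left.2 (stabilizer_le_pst x)] at h3
  refine h3.trans (Nat.mul_le_mul_left _ ((ncard_sq_le _ hl0).trans ?_))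
  rw [Set.ncard_sdiff_singleton_of_mem L.zero_mem, ← h1]
  rfl

theorem ncard_As {x : V} (hx : x ≠ 0) :
    ((As hA H ψ x : Set V) \ (F ∙ x : Submodule F V)).ncard = Nat.card F * (al hA H x - 1) := by
  rw [Set.ncard_sdiff, card_As hB hψ hx, ncard_span_single hx, Nat.mul_sub_one]
  intro v hv
  obtain ⟨t, rfl⟩ := mem_span_singleton.1 hv
  exact smul_mem_As x t

theorem al_bounds {x a : V} (hx : x ≠ 0) (ha : a ∈ As hA H ψ x) (ha' : a ∉ F ∙ x) {Q : ℕ}
    (hQ : Nat.card V = Nat.card F ^ 2 * Q) : 2 ≤ al hA H x ∧ al hA H x ≤ Q := by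
  have h2 : 0 < Nat.card F * (al hA H x - 1) := by
    rw [← ncard_As hB hψ hx, Set.ncard_pos]
    exact ⟨a, ha, ha'⟩
  have h3 : Nat.card F * (al hA H x - 1) ≤ Nat.card F * (Q - 1) := by
    rw [← ncard_As hB hψ hx, ← ncard_pp hB hA hx hQ]
    exact Set.ncard_le_ncard (Set.sdiff_subset_sdiff_left fun v hv => mem_pp.2 (As_le hψ hv))
  have h4 := Nat.le_of_mul_le_mul_left h3 Nat.card_pos
  have h5 := Nat.pos_of_mul_pos_left h2
  omega

theorem key {x a : V} (hx : x ∉ XS hA H) (ha : a ∈ As hA H ψ x) (ha' : a ∉ F ∙ x) {Q : ℕ}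
    (hQ : Nat.card V = Nat.card F ^ 2 * Q) {R : Subgroup (SpG B)} (hR : Qx hA x ≤ R)
    (hR' : ∀ g ∈ R, g.1 x = x ∧ ∃ t : F, g.1 a = a + t • x) :
    (Nat.card F - 1) * (Q - 1) * (al hA H x * (Zs hA H x).index * (LF hA H x).relIndex R) ≤
      mx F H x * eps F * ((Zs hA H x).index - 1) * (al hA H x - 1) := by
  have := Module.Finite.of_finite (R := F) (M := V)
  have hx0 : x ≠ 0 := by rintro rfl; exact hx (tClosed_XS hA H).zero_mem
  have h1 := ncard_mul_le' (H := H) (R := R) (P := stabilizer (SpG B) x) (fun g hg => (hR' g hg).1)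
    (x := a) (S := (As hA H ψ x : Set V) \ (F ∙ x : Submodule F V))
    (T := (pp B x : Set V) \ (F ∙ x : Submodule F V)) (Set.toFinite _)
    (fun g hg e v hv => ⟨As_map hg e hv.1, notMem_map (b := 1) (by rw [one_smul]; exact e) hx0 hv.2⟩)
    (fun g hg => by
      obtain ⟨e, t, ht⟩ := hR' g hg
      exact ⟨(spG_smul g a).trans ht ▸ (As hA H ψ x).add_mem ha (smul_mem_As x t),
        notMem_map (b := 1) (by rw [one_smul]; exact e) hx0 ha'⟩)
    fun v hv => by
      obtain ⟨g, hg, e, e'⟩ := sp_transitive_pair hB hA (li_of_notMem hx0 ha')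
        (li_of_notMem hx0 hv.2) (by rw [alt_zero hA hv.1, alt_zero hA (As_le hψ ha)])
      exact ⟨⟨g, hg⟩, e, e'⟩
  rw [ncard_pp hB hA hx0 hQ, ncard_As hB hψ hx0, mul_assoc, mul_left_comm _ (Nat.card F)] at h1
  have h2 := (Nat.mul_le_mul_left _ (al_mul_LF hR fun g hg =>
    stabilizer_le_pst x (hR' g hg).1)).trans (Nat.le_of_mul_le_mul_left h1 Nat.card_pos)
  calc _ ≤ (Nat.card F - 1) * (H.relIndex (stabilizer (SpG B) x) * (al hA H x - 1)) := by
        rw [mul_assoc]; exact Nat.mul_le_mul_left _ h2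
    _ ≤ _ := by
      rw [← mul_assoc, mul_assoc (mx F H x)]
      exact Nat.mul_le_mul_right _ (stab_le_mx hB hψ hx)

omit hB hψ [Finite V] [Finite F] in
/-- The elements fixing `x` and `a` modulo `x`. -/
def R0 (B : LinearMap.BilinForm F V) (x a : V) : Subgroup (SpG B) where
  carrier := {g | g.1 x = x ∧ ∃ t : F, g.1 a = a + t • x}
  one_mem' := ⟨rfl, 0, by simp⟩
  mul_mem' := fun {g k} ⟨e, t, h⟩ ⟨e', t', h'⟩ => ⟨by rw [spG_mul_apply, e', e], t + t', by
    rw [spG_mul_apply, h', map_add, map_smul, h, e, add_smul, add_assoc]⟩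
  inv_mem' := fun {g} ⟨e, t, h⟩ => by
    have h1 : (g⁻¹).1 x = x := by conv_lhs => rw [← e, sp_inv_apply_apply]
    refine ⟨h1, -t, ?_⟩
    have := sp_inv_apply_apply g a
    rw [h, map_add, map_smul, h1] at this
    rw [neg_smul, ← sub_eq_add_neg, eq_sub_iff_add_eq, this]

theorem key_mx {x a : V} (hx : x ∉ XS hA H) (ha : a ∈ As hA H ψ x) (ha' : a ∉ F ∙ x) {Q : ℕ}
    (hQ : Nat.card V = Nat.card F ^ 2 * Q) :
    (LF hA H x).relIndex (R0 B x a) * Nat.card F * Q ≤ mx F H x * eps F := by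
  have hx0 : x ≠ 0 := by rintro rfl; exact hx (tClosed_XS hA H).zero_mem
  have h1 := al_bounds hB hψ hx0 ha ha' hQ
  have h2 := eps_lt_Zs hx
  exact num_key (key hB hψ hx ha ha' hQ (fun g hg => ⟨Qx_le_stab x hg, Qx_apply hg (As_le hψ ha)⟩)
    fun g hg => hg) h1.1 h1.2 (by rcases eps_cases (F := F) with h | h <;> omega) (Zs_le x)

/-- Transvections stabilising `x` and `a` lift to `H`. -/
theorem main_lift (hlt : H.index * (Nat.card F - 1) < Nat.card V) {x a : V} (hx : x ∉ XS hA H)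
    (ha : a ∈ As hA H ψ x) (ha' : a ∉ F ∙ x) {Q : ℕ} (hQ : Nat.card V = Nat.card F ^ 2 * Q)
    {z : V} (hzx : B z x = 0) (hza : B a z = 0) (m : F) : ∃ r ∈ Qx hA x, r * spT hA z m ∈ H := by
  have h1 := key_mx hB hψ hx ha ha' hQ
  by_contra h
  have h2 : Zs hA (LF hA H x) z ≠ ⊤ := fun e => h (Zs_eq_top.1 e m).2
  have h3 := (eps_lt_index (F := F) h2).trans_le (index_le_relIndex (K := LF hA H x) (R := R0 B x a)
    (spT hA z) (fun c => ⟨by simp [alt_zero hA hzx], 0, by simp [hza]⟩) _ fun c d e => by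
      rwa [spT_inv, spT_mul] at e)
  have h4 := mx_le (F := F) H x
  have h5 := eps_lt_card (F := F)
  rw [hQ] at hlt
  obtain ⟨q, hq⟩ := Nat.exists_eq_add_of_le' (Nat.card_pos (α := F))
  rw [hq] at h1 h5 hlt
  rw [Nat.add_sub_cancel] at hlt
  have h6 : (eps F + 1) * (q + 1) * Q ≤ H.index * eps F :=
    (Nat.mul_le_mul_right _ (Nat.mul_le_mul_right _ h3)).trans
      (h1.trans (Nat.mul_le_mul_right _ h4))
  have h7 : eps F * (q + 1) ≤ (eps F + 1) * q := by nlinarith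
  have h8 : 0 < eps F := by rcases eps_cases (F := F) with h | h <;> omega
  nlinarith [Nat.mul_le_mul_right q h6, Nat.mul_le_mul_right ((q + 1) * Q) h7,
    Nat.mul_lt_mul_of_pos_left hlt h8]

end Cfsg.Agent.Cl.MI
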