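import Mathlib
import Cfsg.Agent.Cl.MinIdxSpB

/-!
# Minimal index of a proper subgroup of `Sp(V)`: the cases `Ys = x^⊥` and `Ys = ⟨x⟩`
-/

set_option autoImplicit false

namespace Cfsg.Agent.Cl.MI

open MulAction Module Submodule MaxSp

/-- A submonoid of a finite group is a subgroup. -/
def mkFin {G : Type*} [Group G] [Finite G] (S : Submonoid G) : Subgroup G where
  toSubmonoid := S
  inv_mem' := fun {g} hg => by
    have := S.pow_mem hg (orderOf g - 1)
    rwa [eq_inv_of_mul_eq_one_left (show g ^ (orderOf g - 1) * g = 1 by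
      rw [← pow_succ, Nat.sub_add_cancel (orderOf_pos g), pow_orderOf_eq_one])] at this

variable {F : Type*} [Field F] {V : Type*} [AddCommGroup V] [Module F V]
  {B : LinearMap.BilinForm F V} {hA : B.IsAlt} {H : Subgroup (SpG B)} {ψ : AddChar F ℂ}

theorem finrank_span_pair_le (x y : V) : finrank F (span F {x, y}) ≤ 2 := by
  classical
  refine (finrank_span_le_card (R := F) ({x, y} : Set V)).trans ?_
  simpa using Finset.card_le_two

theorem finrank_span_pair {x y : V} (h : LinearIndependent F ![x, y]) :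
    finrank F (span F {x, y}) = 2 := by
  have := finrank_span_eq_card h
  rwa [Matrix.range_cons, Matrix.range_cons, Matrix.range_empty, Set.union_empty,
    Set.singleton_union] at this

theorem span_pair_eq [Module.Finite F V] {x y : V} {U : Submodule F V} (hU : finrank F U ≤ 2)
    (h : LinearIndependent F ![x, y]) (hx : x ∈ U) (hy : y ∈ U) : span F {x, y} = U :=
  eq_of_le_of_finrank_le (span_le.2 (by rintro _ (rfl | rfl) <;> assumption))
    (finrank_span_pair h ▸ hU)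

theorem perp_pair {x a z : V} (hx : B x z = 0) (ha : B a z = 0) : ∀ u ∈ span F {x, a}, B u z = 0 :=
  fun u hu => by
    obtain ⟨s, t, rfl⟩ := mem_span_pair.1 hu
    simp [hx, ha]

theorem ne_zero_of_XS {x : V} (hx : x ∉ XS hA H) : x ≠ 0 := by
  rintro rfl; exact hx (tClosed_XS hA H).zero_mem

theorem four_le_card [Finite F] (h2 : (2 : F) = 0) (h : 3 ≤ Nat.card F) : 4 ≤ Nat.card F := by
  by_contra h3
  have := Fintype.ofFinite F
  have h4 := FiniteField.cast_card_eq_zero F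
  rw [← Nat.card_eq_fintype_card, show Nat.card F = 3 by omega] at h4
  exact one_ne_zero (α := F) (by linear_combination (norm := (push_cast; ring)) h4 - h2)

theorem shift_mem (h2 : (2 : F) = 0) {x z u : V} (hz : B z x = 0) (hu : u ∈ Ys hA H z) {m c : F}
    (e : Qe hA x (m • z) c ∈ H) : Qe hA z ((B x u * c) • x) (B x u ^ 2 * c) ∈ H := by
  obtain ⟨hu, d, hd⟩ := hu
  have hxz := alt_zero hA hz
  have h4 := conj_mem hd e
  rw [Qe_conj, map_smul, Qe_apply_self hA hu, Qe_apply_perp hA hu d hxz, Qe_shift hA hz, h2] at h4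
  have h3 := Qe_shift hA hz m 0 c
  rw [zero_smul, add_zero] at h3
  have h5 := H.mul_mem h4 (H.inv_mem e)
  rw [h3, mul_inv_rev, mul_assoc, mul_inv_cancel_left, Qe_inv hA (by simp [hxz]),
    Qe_mul hA (by simp [hxz]) (by simp [hxz])] at h5
  simpa [hA.self_eq_zero, add_smul] using h5

section Dim

variable [Module.Finite F V] (hB : B.Nondegenerate)
include hB

theorem exists_orth {U : Submodule F V} (h : 2 * finrank F U < finrank F V) :
    ∃ w, (∀ u ∈ U, B u w = 0) ∧ w ∉ U := by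
  have := LinearMap.BilinForm.finrank_orthogonal hB U
  exact exists_notMem_of_finrank_lt (A := B.orthogonal U) (by omega)

theorem exists_orth_pair {U : Submodule F V} (h : 2 * finrank F U < finrank F V) :
    ∃ w z, (∀ u ∈ U, B u w = 0) ∧ (∀ u ∈ U, B u z = 0) ∧ B w z ≠ 0 := by
  obtain ⟨w, h1, h2⟩ := exists_orth hB h
  obtain ⟨z, h3⟩ := exists_perp_ne hB h2
  exact ⟨w, z, h1, h3⟩

theorem exists_pp_pair (hA : B.IsAlt) (h : 2 < finrank F V) (x : V) :
    ∃ w z, B w x = 0 ∧ B z x = 0 ∧ B w z ≠ 0 := by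
  obtain ⟨w, z, h1, h2, h3⟩ := exists_orth_pair hB (U := F ∙ x) (by
    have := finrank_span_single_le (F := F) x; omega)
  exact ⟨w, z, alt_zero hA (h1 x (mem_span_singleton_self x)),
    alt_zero hA (h2 x (mem_span_singleton_self x)), h3⟩

theorem exists_pp_ne (hA : B.IsAlt) {x z : V} (h : z ∉ F ∙ x) (t : F) :
    ∃ w, B w x = 0 ∧ B z w = t := by
  obtain ⟨w, h1, h2⟩ := exists_perp_ne hB h
  exact ⟨(t / B z w) • w, by simp [alt_zero hA (h1 x (mem_span_singleton_self x))], by simp [h2]⟩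

theorem mem_span_of_perp (hA : B.IsAlt) {x w : V} (h : ∀ v, B v x = 0 → B v w = 0) : w ∈ F ∙ x := by
  by_contra h'
  obtain ⟨v, h1, h2⟩ := exists_pp_ne hB hA h' 1
  exact one_ne_zero (h2 ▸ alt_zero hA (h v h1))

theorem mem_Qx {x : V} (hx : x ≠ 0) {g : SpG B} (e : g.1 x = x)
    (h : ∀ v, B v x = 0 → ∃ t : F, g.1 v = v + t • x) : g ∈ Qx hA x := by
  obtain ⟨y, -, hy⟩ := exists_pp_ne hB hA (x := 0) (z := x) (by simpa) (-1)
  have hy' : B y x = 1 := by rw [← hA.neg_eq, hy, neg_neg]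
  have hu : B (g.1 y - y) x = 0 := by
    rw [map_sub, LinearMap.sub_apply, sub_eq_zero]
    conv_lhs => rw [← e, spG_form]
  refine ⟨g.1 y - y, -B y (g.1 y - y), hu, spG_ext fun v => ?_⟩
  have h1 : B (v - B v x • y) x = 0 := by simp [hy']
  obtain ⟨t, ht⟩ := h _ h1
  have h2 := spG_form g (v - B v x • y) y
  have h3 := spG_form g x y
  rw [e] at h3
  rw [ht, map_add, map_smul, LinearMap.add_apply, LinearMap.smul_apply, h3, hy] at h2
  rw [Qe_apply hA hu, ← sub_add_cancel v (B v x • y), map_add, map_smul, ht, sub_add_cancel]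
  simp only [map_sub, map_smul, LinearMap.sub_apply, LinearMap.smul_apply, smul_eq_mul,
    hA.self_eq_zero] at h2 ⊢
  rw [show t = B v (g.1 y) - B v y - B v x * B y (g.1 y) by linear_combination -h2]
  module

/-- There is a point whose radical is not covered by `H`. -/
theorem exists_not_cover (h3 : ∃ a : F, a ≠ 0 ∧ a ≠ 1) [Finite F] (hd : 2 < finrank F V) {x : V}
    (hx : x ∉ XS hA H) : ∃ z, z ∉ XS hA H ∧ ∃ w, B w z = 0 ∧ w ∉ Ys hA H z := by
  by_contra! h
  obtain ⟨w, w', h1, h1', hw⟩ := exists_pp_pair hB hA hd x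
  by_cases h2 : (2 : F) = 0
  swap
  · exact hx (XS_of_mul (mul_ne_zero h2 hw) fun t => by
      simpa [mul_left_comm, mem_Zs] using comm_mem_Zs (h x hx w' h1') (h x hx (t • w) (by simp [h1])))
  have k0 : ∀ x z, x ∉ XS hA H → B z x = 0 → z ∉ F ∙ x → z ∉ XS hA H := fun x z hx hz hz' hX => by
    obtain ⟨u, hu, e⟩ := exists_pp_ne hB hA hz' 1
    exact hx (XS_of_trick (w := u) h2 h3 hz (fun t => h x hx _ (by simp [hu])) (alt_ne hA (by simp [e]))
      fun m => ⟨1, one_mem _, by simpa using hX m⟩)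
  have k1 : ∀ x z, x ∉ XS hA H → B z x = 0 → z ∉ F ∙ x → x ∉ F ∙ z := fun x z hx _ hz' hh => by
    obtain ⟨t, rfl⟩ := mem_span_singleton.1 hh
    have ht : t ≠ 0 := by rintro rfl; exact ne_zero_of_XS hx (zero_smul _ _)
    exact hz' (mem_span_singleton.2 ⟨t⁻¹, inv_smul_smul₀ ht z⟩)
  have k2 : ∀ x z, x ∉ XS hA H → B z x = 0 → z ∉ F ∙ x → ∀ m c : F, Qe hA x (m • z) c ∈ H →
      ∀ t, Qe hA z ((t * c) • x) (t ^ 2 * c) ∈ H := fun x z hx hz hz' m c e t => by
    obtain ⟨u, hu, e'⟩ := exists_pp_ne hB hA (k1 x z hx hz hz') t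
    exact e' ▸ shift_mem h2 hz (h z (k0 x z hx hz hz') u hu) e
  have k3 : ∀ x z, x ∉ XS hA H → B z x = 0 → z ∉ F ∙ x → ∀ m c m' c' : F, Qe hA x (m • z) c ∈ H →
      Qe hA x (m' • z) c' ∈ H → c ≠ 0 → c' ≠ 0 → c = c' := fun x z hx hz hz' m c m' c' e e' hc hc' => by
    by_contra hne
    refine k0 x z hx hz hz' (XS_of_mul (t := c⁻¹ - c'⁻¹) (by simpa [sub_eq_zero]) fun s => ?_)
    have : CharP F 2 := CharTwo.of_one_ne_zero_of_two_eq_zero one_ne_zero h2
    obtain ⟨s, rfl⟩ := (frobeniusEquiv F 2).surjective s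
    have h4 := k2 x z hx hz hz' m c e (s / c)
    have h5 := k2 x z hx hz hz' m' c' e' (s / c')
    rw [div_mul_cancel₀ _ hc] at h4
    rw [div_mul_cancel₀ _ hc'] at h5
    convert mem_Zs.1 (sub_mem_Zs (by simp [alt_zero hA hz]) h5 h4) using 2
    rw [coe_frobeniusEquiv, frobenius_def]
    field_simp
  have k4 : ∀ z, B z x = 0 → z ∉ F ∙ x → ∀ c : F, Qe hA x z c ∈ H → c = 0 := fun z hz hz' c e => by
    by_contra hc
    obtain ⟨a, ha, ha1⟩ := h3
    have h4 := k2 x z hx hz hz' 1 c (by rwa [one_smul])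
    have := k3 z x (k0 x z hx hz hz') (alt_zero hA hz) (k1 x z hx hz hz') _ _ _ _ (h4 a) (h4 1)
      (by simp [ha, hc]) (by simpa)
    rw [mul_left_inj' hc, one_pow] at this
    exact ha1 (sub_eq_zero.1 (pow_eq_zero_iff two_ne_zero |>.1
      (show (a - 1) ^ 2 = 0 by linear_combination this + (1 - a) * h2)))
  have k5 : ∀ u v, B u x = 0 → B v x = 0 → B u v ≠ 0 → u ∉ F ∙ x := fun u v _ hv h hu => by
    obtain ⟨t, rfl⟩ := mem_span_singleton.1 hu
    simp [alt_zero hA hv] at h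
  obtain ⟨-, c, hc⟩ := h x hx w h1
  obtain ⟨-, c', hc'⟩ := h x hx w' h1'
  have h4 := H.mul_mem hc' hc
  rw [Qe_mul hA h1' h1, k4 w h1 (k5 w w' h1 h1' hw) c hc,
    k4 w' h1' (k5 w' w h1' h1 (alt_ne hA hw)) c' hc'] at h4
  exact hw (by simpa using k4 _ (by simp [h1, h1']) (k5 _ w' (by simp [h1, h1']) h1'
    (by simpa [hA.self_eq_zero])) _ h4)

end Dim

variable [Finite V] [Finite F] (hB : B.Nondegenerate) (hψ : ∀ a : F, (∀ c, ψ (c * a) = 1) → a = 0)
  (hlt : H.index * (Nat.card F - 1) < Nat.card V - 1) {Q : ℕ}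
  (hQ : Nat.card V = Nat.card F ^ 2 * Q) {x : V} (hx : x ∉ XS hA H)
include hB hψ hlt hQ hx

theorem perp_le_As {a b z : V} (ha : a ∈ As hA H ψ x) (ha' : a ∉ F ∙ x) (hb : b ∈ As hA H ψ x)
    (hb' : b ∉ span F {x, a}) (hzx : B z x = 0) (hza : B a z = 0) : z ∈ As hA H ψ x := by
  have := Module.Finite.of_finite (R := F) (M := V)
  have k : ∀ z, B z x = 0 → B a z = 0 → B b z ≠ 0 → z ∈ As hA H ψ x := fun z hzx hza h => by
    obtain ⟨r, hr, e⟩ := main_lift hB hψ (by omega) hx ha ha' hQ hzx hza (B b z)⁻¹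
    have h1 := As_map e (by
      rw [spG_mul_apply, spT_apply, alt_zero hA hzx, mul_zero, zero_smul, add_zero]
      exact Qx_le_stab x hr) hb
    obtain ⟨t, ht⟩ := Qx_apply (v := b + z) hr (by simp [As_le hψ hb, hzx])
    rw [spG_mul_apply, spT_apply, inv_mul_cancel₀ h, one_smul, ht] at h1
    simpa using sub_mem (sub_mem h1 (smul_mem_As x t)) hb
  by_cases h : B b z = 0
  · obtain ⟨y, h1, h2⟩ := exists_perp_ne hB hb'
    have h3 := alt_zero hA (h1 x (subset_span (by simp)))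
    have h4 := h1 a (subset_span (by simp))
    simpa using sub_mem (k (z + y) (by simp [hzx, h3]) (by simp [hza, h4]) (by simpa [h])) (k y h3 h4 h2)
  · exact k z hzx hza h

theorem pp_le_As {a b v : V} (ha : a ∈ As hA H ψ x) (ha' : a ∉ F ∙ x) (hb : b ∈ As hA H ψ x)
    (hb' : b ∉ span F {x, a}) (hv : B v x = 0) : v ∈ As hA H ψ x := by
  have := Module.Finite.of_finite (R := F) (M := V)
  have h1 : b ∉ F ∙ x := fun h => hb' (span_mono (by simp) h)
  have h2 : a ∉ span F {x, b} := fun h => by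
    obtain ⟨s, t, rfl⟩ := mem_span_pair.1 h
    have ht : t ≠ 0 := by rintro rfl; exact ha' (mem_span_singleton.2 ⟨s, by simp⟩)
    exact hb' (mem_span_pair.2 ⟨-(s / t), t⁻¹, by
      rw [smul_add, inv_smul_smul₀ ht, smul_smul, ← add_assoc, ← add_smul]
      simp [div_eq_inv_mul]⟩)
  obtain ⟨y, h3, h4⟩ := exists_perp_ne hB h2
  have h5 := alt_zero hA (h3 x (subset_span (by simp)))
  have h6 := h3 b (subset_span (by simp))
  simpa using add_mem (perp_le_As hB hψ hlt hQ hx ha ha' hb hb' (z := v - (B a v / B a y) • y)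
    (by simp [hv, h5]) (by simp [h4])) (perp_le_As hB hψ hlt hQ hx hb h1 ha h2
      (z := (B a v / B a y) • y) (by simp [h5]) (by simp [h6]))

omit hB hψ hlt hQ hx [Finite F] in
/-- The elements acting trivially on `x^⊥ / ⟨x⟩`. -/
def PT (B : LinearMap.BilinForm F V) (x : V) : Subgroup (SpG B) := mkFin
  { carrier := {g | (∃ b : F, g.1 x = b • x) ∧ ∀ v, B v x = 0 → ∃ t : F, g.1 v = v + t • x}
    one_mem' := ⟨⟨1, by simp⟩, fun v _ => ⟨0, by simp⟩⟩
    mul_mem' := fun {g k} ⟨⟨b, e⟩, h⟩ ⟨⟨b', e'⟩, h'⟩ =>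
      ⟨⟨b' * b, by rw [spG_mul_apply, e', map_smul, e, smul_smul]⟩, fun v hv => by
        obtain ⟨t, ht⟩ := h v hv
        obtain ⟨t', ht'⟩ := h' v hv
        exact ⟨t + t' * b, by
          rw [spG_mul_apply, ht', map_add, map_smul, ht, e, smul_smul, add_smul, add_assoc]⟩⟩ }

variable (h3 : 3 ≤ Nat.card F) (hall : ∀ v, B v x = 0 → v ∈ As hA H ψ x)
include h3 hall

omit hlt h3 in
theorem le_al : Q ≤ al hA H x := by
  have hx0 := ne_zero_of_XS hx
  have h1 : Nat.card F * (Q - 1) ≤ Nat.card F * (al hA H x - 1) := by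
    rw [← ncard_As hB hψ hx0, ← ncard_pp hB hA hx0 hQ]
    exact Set.ncard_le_ncard (Set.sdiff_subset_sdiff_left fun v hv => hall v hv)
  have h2 := Nat.le_of_mul_le_mul_left h1 Nat.card_pos
  have h3 : 0 < al hA H x := Nat.pos_of_ne_zero AddSubgroup.index_ne_zero_of_finite
  omega

theorem exists_central : ∃ g ∈ H, ∃ b : F, b ≠ 1 ∧ g.1 x = b • x ∧
    ∀ v, B v x = 0 → ∃ t : F, g.1 v = v + t • x := by
  have := Module.Finite.of_finite (R := F) (M := V)
  have hx0 := ne_zero_of_XS hx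
  have hQ' : Qx hA x ≤ PT B x := fun r hr =>
    ⟨⟨1, by rw [one_smul]; exact Qx_le_stab x hr⟩, fun v hv => Qx_apply hr hv⟩
  by_contra! h
  have h1 := card_le_LF (hA := hA) (H := H) hx0 (R := PT B x) (S := {1}) (fun g hg hg' => by
    obtain ⟨-, r, hr, e⟩ := hg
    obtain ⟨b, hb⟩ := hg'.1
    refine ⟨b, by_contra fun hb1 => ?_, hb⟩
    obtain ⟨v, h1, h2⟩ := h _ e b hb1 (by
      rw [spG_mul_apply, hb, map_smul, show r.1 x = x from Qx_le_stab x hr])
    obtain ⟨t, ht⟩ := (mul_mem (hQ' hr) hg').2 v h1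
    exact h2 t ht) fun b hb => by
      obtain ⟨y, -, hy⟩ := exists_pp_ne hB hA (x := 0) (z := x) (by simpa) (b - 1)
      obtain ⟨g, κ, hg⟩ := exists_spR hB hA x y (by simpa [hy])
      exact ⟨g, ⟨⟨b, by simp [hg, hy, hA.self_eq_zero, sub_smul]⟩, fun v hv =>
        ⟨_, by rw [hg, hv, mul_zero, zero_smul, add_zero]⟩⟩,
        by simp [hg, hy, hA.self_eq_zero, sub_smul]⟩
  have h2 := (al_mul_LF (H := H) hQ' fun g hg => let ⟨b, hb⟩ := hg.1; mem_pst_of_eq hx0 hb).trans
    (relIndex_le_index _ _)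
  have h4 := le_al hB hψ hQ hx hall
  have h5 := eps_lt_Zs hx
  rw [Set.ncard_singleton, mul_one] at h1
  have h6 : Q * (eps F + 1) * (Nat.card F - 1) ≤ H.index :=
    (Nat.mul_le_mul (Nat.mul_le_mul h4 h5) h1).trans h2
  have h7 := (Nat.mul_le_mul_right _ h6).trans_lt (hlt.trans_le (Nat.sub_le _ _))
  have h8 := four_le_card (F := F)
  rw [hQ] at h7
  obtain ⟨q, hq⟩ := Nat.exists_eq_add_of_le' (Nat.card_pos (α := F))
  rw [hq] at h3 h7 h8
  rw [Nat.add_sub_cancel, mul_assoc, mul_assoc, mul_comm _ Q] at h7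
  have h9 := Nat.lt_of_mul_lt_mul_left h7
  rcases eps_cases (F := F) with ⟨h2, e⟩ | ⟨h2, e⟩ <;> rw [e] at h9
  · have := h8 h2 h3
    nlinarith
  · nlinarith

theorem case_a (hd : 2 < finrank F V) (hexc : Nat.card F = 3 → 4 < finrank F V) : False := by
  have := Module.Finite.of_finite (R := F) (M := V)
  have hx0 := ne_zero_of_XS hx
  have hY : ∀ w ∈ Ys hA H x, w ∈ F ∙ x := fun w hw => mem_span_of_perp hB hA fun v hv =>
    perp_of_As hψ (fun t => hall _ (by simp [hv])) hw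
  obtain ⟨g, hg, b, hb, gx, gv⟩ := exists_central hB hψ hlt hQ hx h3 hall
  let W : Submodule F V := pp B x ⊓ LinearMap.ker (g.1.toLinearMap - LinearMap.id)
  have hW : ∀ v, v ∈ W ↔ B v x = 0 ∧ g.1 v = v := fun v => by simp [W, sub_eq_zero]
  have hb' : 1 - b ≠ 0 := sub_ne_zero.2 hb.symm
  have w1 : ∀ v, B v x = 0 → ∃ t : F, v + t • x ∈ W := fun v hv => by
    obtain ⟨t, ht⟩ := gv v hv
    refine ⟨t / (1 - b), (hW _).2 ⟨by simp [hv, hA.self_eq_zero], ?_⟩⟩
    rw [map_add, map_smul, ht, gx, smul_smul, add_assoc, ← add_smul]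
    congr 2; field_simp; ring
  have w2 : ∀ t : F, t • x ∈ W → t = 0 := fun t h => by
    have := ((hW _).1 h).2
    rw [map_smul, gx, smul_smul, ← sub_eq_zero, ← sub_smul, smul_eq_zero_iff_left hx0] at this
    exact (mul_eq_zero.1 (show t * (1 - b) = 0 by linear_combination -this)).resolve_right hb'
  have w3 : ∀ w, B w x = 0 → (∀ u ∈ W, B u w = 0) → w ∈ F ∙ x := fun w hw h =>
    mem_span_of_perp hB hA fun v hv => by
      obtain ⟨t, ht⟩ := w1 v hv
      simpa [alt_zero hA hw] using h _ ht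
  have hN : NondegOn B W := fun w hw h0 => by
    by_contra! h
    obtain ⟨t, rfl⟩ := mem_span_singleton.1 (w3 w ((hW w).1 hw).1 h)
    exact h0 (by rw [w2 t hw, zero_smul])
  have w4 : ∀ h ∈ H, h.1 x = x → ∀ v ∈ W, h.1 v ∈ W := fun h hh e v hv => by
    obtain ⟨hv, hv'⟩ := (hW v).1 hv
    have e' : (h⁻¹).1 x = x := by conv_lhs => rw [← e, sp_inv_apply_apply]
    have h1 : ∀ v, B v x = 0 → B (h.1 v) x = 0 := fun v hv =>
      perp_of_smul one_ne_zero (by rw [one_smul, e]) hv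
    have hb0 : b ≠ 0 := by rintro rfl; exact sp_apply_ne_zero g hx0 (by simpa using gx)
    have g1 : (g⁻¹).1 x = b⁻¹ • x := by
      rw [eq_inv_smul_iff₀ hb0, ← map_smul, ← gx, sp_inv_apply_apply]
    obtain ⟨w, c, hw, e2⟩ := mem_Qx (hA := hA) hB hx0 (g := g⁻¹ * (h⁻¹ * g * h)) (by
      simp only [spG_mul_apply, e, gx, map_smul, e', g1, smul_inv_smul₀ hb0]) fun u hu => by
        obtain ⟨t, ht⟩ := gv _ (h1 u hu)
        obtain ⟨s, hs⟩ := gv u hu
        refine ⟨(t - s) * b⁻¹, ?_⟩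
        simp only [spG_mul_apply, ht, map_add, map_smul, e', sp_inv_apply_apply]
        rw [mul_smul, ← g1, sub_smul, ← add_sub_assoc, add_sub_right_comm]
        conv_rhs => rw [← sp_inv_apply_apply g u, hs, map_add, map_smul, add_sub_cancel_right]
    obtain ⟨t, rfl⟩ := mem_span_singleton.1 (hY w ⟨hw, c, e2 ▸ mul_mem (inv_mem hg)
      (mul_mem (mul_mem (inv_mem hh) hg) hh)⟩)
    have h2 := congrArg (fun k : SpG B => h.1 (g.1 (k.1 v))) e2
    simp only [spG_mul_apply, sp_apply_inv_apply, Qe_apply_perp hA hw c hv] at h2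
    exact (hW _).2 ⟨h1 v hv, by simpa [hv, hv'] using h2⟩
  have w5 : ∀ z ∈ W, ∀ m, ∃ c, spT hA x c * spT hA z m ∈ H := fun z hz m => by
    rcases eq_or_ne z 0 with rfl | hz0
    · exact ⟨0, by simp⟩
    have hzx := ((hW z).1 hz).1
    obtain ⟨_, ⟨w, c, hw, rfl⟩, e⟩ := main_lift hB hψ (by omega) hx (hall z hzx) (fun h => by
      obtain ⟨t, rfl⟩ := mem_span_singleton.1 h
      exact hz0 (by rw [w2 t hz, zero_smul])) hQ hzx (hA.self_eq_zero z) m
    obtain ⟨t, rfl⟩ := mem_span_singleton.1 (w3 w hw fun u hu => w2 _ (by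
      have h1 := w4 _ e (by
        rw [spG_mul_apply, spT_apply, alt_zero hA hzx, mul_zero, zero_smul, add_zero,
          Qe_apply_self hA hw]) _ (W.add_mem hu (W.smul_mem (-m * B u z) hz))
      rw [← spT_apply hA, ← spG_mul_apply, mul_assoc, spT_mul, add_neg_cancel, spT_zero, mul_one,
        Qe_apply_perp hA hw c ((hW u).1 hu).1] at h1
      exact (W.add_mem_iff_right hu).1 h1))
    rw [← zero_add (t • x), Qe_add_smul hA (by simp), Qe_zero] at e
    exact ⟨_, e⟩
  have w6 : ∀ z ∈ W, ∀ z' ∈ W, B z z' ≠ 0 → ∀ m, spT hA z' m * (spT hA z m)⁻¹ ∈ H :=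
    fun z hz z' hz' h m => by
      obtain ⟨c, hc⟩ := w5 z hz m
      obtain ⟨d, hd⟩ := w5 _ (W.sub_mem hz' hz) (B z z')⁻¹
      have h1 := conj_mem hd hc
      have h2 := alt_zero hA ((hW z).1 hz).1
      have h3 := alt_zero hA ((hW z').1 hz').1
      rw [← conj_mul, spT_conj, spT_conj] at h1
      simp only [spG_mul_apply, spT_apply, map_sub, h2, h3, hA.self_eq_zero, sub_zero, mul_zero,
        zero_smul, add_zero, inv_mul_cancel₀ h, one_smul, add_sub_cancel, alt_zero hA h3] at h1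
      have h4 := mul_mem h1 (inv_mem hc)
      rwa [(spT_commute hA h3 c m).eq, mul_inv_rev, (spT_commute hA h2 c m).inv_inv.eq.symm,
        mul_assoc, mul_inv_cancel_left] at h4
  have w7 : ∀ z ∈ W, ∀ z' ∈ W, z ≠ 0 → z' ≠ 0 → ∀ m, spT hA z' m * (spT hA z m)⁻¹ ∈ H :=
    fun z hz z' hz' h h' m => by
      obtain ⟨y, hy, h1, h2⟩ := exists_two_ne (hN z hz h) (hN z' hz' h')
      simpa [mul_assoc] using mul_mem (w6 y hy z' hz' h2 m) (w6 z hz y hy (alt_ne hA h1) m)
  have w8 : ∀ z ∈ W, z ∈ XS hA H := fun z hz => by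
    rcases eq_or_ne z 0 with rfl | hz0
    · exact (tClosed_XS hA H).zero_mem
    by_cases h4 : Nat.card F = 3
    · have h2 : (2 : F) ≠ 0 := fun h2 => by have := four_le_card h2 h3; omega
      obtain ⟨w, h5, h6⟩ := exists_orth hB (U := span F {x, z}) (by
        have := finrank_span_pair_le (F := F) x z
        have := hexc h4
        omega)
      obtain ⟨t, ht⟩ := w1 w (alt_zero hA (h5 x (subset_span (by simp))))
      have h7 : ∀ s : F, w + t • x + s • z ≠ 0 := fun s e =>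
        h6 (mem_span_pair.2 ⟨-t, -s, by linear_combination (norm := module) -e⟩)
      have h8 : B z (w + t • x) = 0 := by simp [h5 z (subset_span (by simp)), ((hW z).1 hz).1]
      generalize w + t • x = y at ht h7 h8
      have h9 := alt_zero hA h8
      have hy : y ≠ 0 := by simpa using h7 0
      refine XS_of_mul h2 fun m => ?_
      convert mul_mem (w7 y ht _ (W.add_mem ht hz) hy (by simpa using h7 1) m)
        (w7 y ht _ (W.sub_mem ht hz) hy (by simpa [sub_eq_add_neg] using h7 (-1)) m) using 1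
      refine spG_ext fun v => ?_
      simp only [spG_mul_apply, spT_inv, spT_apply, map_add, map_sub, map_smul, LinearMap.add_apply,
        LinearMap.sub_apply, LinearMap.smul_apply, h8, h9, hA.self_eq_zero, smul_eq_mul]
      module
    · obtain ⟨a, ha, ha1⟩ := sp_exists_sq_ne_one (F := F) (by omega)
      refine XS_of_mul (sub_ne_zero.2 ha1) fun m => ?_
      have := w7 z hz _ (W.smul_mem a hz) hz0 (smul_ne_zero ha hz0) m
      rwa [spT_smul, spT_inv, spT_mul, show a ^ 2 * m + -m = m * (a ^ 2 - 1) by ring] at this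
  obtain ⟨u, v, hu, hv, huv⟩ : ∃ u v, u ∈ W ∧ v ∈ W ∧ B u v ≠ 0 := by
    obtain ⟨u, v, hu, hv, h⟩ := exists_pp_pair hB hA hd x
    obtain ⟨s, hs⟩ := w1 u hu
    obtain ⟨t, ht⟩ := w1 v hv
    exact ⟨_, _, hs, ht, by simpa [hu, alt_zero hA hv, hA.self_eq_zero]⟩
  obtain ⟨a, ha⟩ : ∃ a : F, a ≠ 0 ∧ a ≠ 1 := by
    have := Fintype.ofFinite F
    exact exists_ne_zero_one (by rw [← Nat.card_eq_fintype_card]; omega)
  obtain ⟨U, hWU, hU1, hU2⟩ := (tClosed_XS hA H).exists_comp hA hN w8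
    (TClosed.big_of_ne hA ⟨a, ha⟩ hu hv huv)
  have hD : finrank F (B.orthogonal W) ≤ 2 := by
    obtain ⟨y, -, hy⟩ := exists_pp_ne hB hA (x := 0) (z := x) (by simpa) (-1)
    obtain ⟨w, hw, r, hr, rfl⟩ := hN.exists_add hA y
    have h1 : B r x = 1 := by
      rw [← hA.neg_eq, neg_eq_iff_eq_neg, ← hy, map_add, alt_zero hA ((hW w).1 hw).1, zero_add]
    refine (finrank_mono (t := span F {x, r}) fun d hd => ?_).trans (finrank_span_pair_le x r)
    obtain ⟨t, ht⟩ := w1 (d - B d x • r) (by simp [h1])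
    have := hN.eq_zero ht fun u hu => by
      simp [show B u d = 0 from hd u hu, show B u r = 0 from hr u hu, ((hW u).1 hu).1]
    exact mem_span_pair.2 ⟨-t, B d x, by linear_combination (norm := module) -this⟩
  have hxD : x ∈ B.orthogonal W := fun u hu => ((hW u).1 hu).1
  have h4 : ∀ h ∈ H, ∀ w ∈ W, h.1 w ∈ U := fun h hh => by
    rcases le_or_le (A := W.map h.1.toLinearMap) (U := U) (U' := B.orthogonal U) (by
      rintro _ ⟨w, hw, rfl⟩
      exact hU1 _ (XS_map hA hh (w8 w hw))) with h1 | h1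
    · exact fun w hw => h1 ⟨w, hw, rfl⟩
    · have h2 : B (h.1 u) (h.1 v) ≠ 0 := by rwa [spG_form]
      refine absurd ((tClosed_XS hA H).span_pair (XS_map hA hh (w8 u hu)) (XS_map hA hh (w8 v hv))
        h2 x ?_) hx
      rwa [span_pair_eq hD (sp_linearIndependent_pair hA h2)
        (B.orthogonal_le hWU (h1 ⟨u, hu, rfl⟩)) (B.orthogonal_le hWU (h1 ⟨v, hv, rfl⟩))]
  obtain ⟨p, -, hp⟩ := SetLike.exists_of_lt (lt_top_iff_ne_top.2 fun e =>
    hx ((tClosed_XS hA H).of_top hB hU2 e x))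
  obtain ⟨y, h5, h6⟩ := exists_perp_ne hB hp
  have hy := ne_zero_right h6
  have h7 : ∀ h ∈ H, h.1 y ∈ B.orthogonal W := fun h hh w hw => by
    have := h5 _ (h4 _ (inv_mem hh) w hw)
    rwa [← spG_form h, sp_apply_inv_apply] at this
  by_cases h8 : ∀ h ∈ H, h.1 y ∈ F ∙ y
  · exact (le_index_of_fix hB hA hy fun h hh =>
      let ⟨t, e⟩ := mem_span_singleton.1 (h8 h hh); ⟨t, e.symm⟩).not_gt hlt
  push Not at h8
  obtain ⟨k, hk, h8⟩ := h8
  obtain ⟨s, t, e⟩ := mem_span_pair.1 (span_pair_eq hD (li_of_notMem hy h8)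
    (h7 1 (one_mem _)) (h7 k hk) ▸ hxD)
  have h9 := mul_mx_le (F := F) (H := H) hx0 (X := {0}ᶜ) (T := (B.orthogonal W : Set V) \ {0})
    (fun v hv => by
      obtain ⟨g, hg, e⟩ := sp_transitive hB hA hx0 hv
      exact ⟨⟨g, hg⟩, trivial, 1, one_ne_zero, by rw [one_smul]; exact e.symm⟩) (by
      rintro _ ⟨h, hh, c, hc, rfl⟩
      refine ⟨smul_mem _ c ?_, smul_ne_zero hc (sp_apply_ne_zero h hx0)⟩
      rw [spG_smul, ← e, map_add, map_smul, map_smul]
      exact add_mem (smul_mem _ s (h7 h hh)) (smul_mem _ t (h7 _ (mul_mem hh hk))))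
  rw [Set.ncard_compl, Set.ncard_singleton, Set.ncard_sdiff_singleton_of_mem (zero_mem _),
    ncard_submodule] at h9
  have h10 := (al_mul_le (hA := hA) (H := H) x).trans ((relIndex_mono H (Qx_le_stab x)).trans
    (relIndex_le_mx (F := F) H x))
  have h11 := le_al hB hψ hQ hx hall
  have h12 := eps_lt_Zs hx
  have h13 : Nat.card F ≤ Q := by
    rw [Module.natCard_eq_pow_finrank (K := F), show finrank F V = 2 + (finrank F V - 2) by omega,
      pow_add] at hQ
    rw [← Nat.eq_of_mul_eq_mul_left (by positivity) hQ]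
    exact Nat.le_self_pow (by omega) _
  have h14 : Nat.card F + 1 ≤ mx F H x := by
    rcases eps_cases (F := F) with ⟨-, e⟩ | ⟨-, e⟩ <;> nlinarith
  have h15 := (Nat.mul_le_mul_left _ h14).trans (h9.trans (Nat.mul_le_mul_left _
    (Nat.sub_le_sub_right (Nat.pow_le_pow_right Nat.card_pos hD) 1)))
  rw [← one_pow 2, Nat.sq_sub_sq, one_pow, mul_comm (_ + 1), ← mul_assoc] at h15
  exact (Nat.le_of_mul_le_mul_right h15 (by omega)).not_gt hlt

end Cfsg.Agent.Cl.MI
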