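import Mathlib
import Cfsg.Agent.Cl.MinIdxSpC

/-!
# Minimal index of a proper subgroup of `Sp(V)`, `q ≥ 3`
-/

set_option autoImplicit false

namespace Cfsg.Agent.Cl.MI

open MulAction Module Submodule MaxSp

variable {F : Type*} [Field F] {V : Type*} [AddCommGroup V] [Module F V]
  {B : LinearMap.BilinForm F V} {hA : B.IsAlt} {H : Subgroup (SpG B)} {ψ : AddChar F ℂ}

theorem Qe_mem_iff_of {x w : V} {c c' : F} (h : c = c') (e : Qe hA x w c ∈ H) : Qe hA x w c' ∈ H :=
  h ▸ e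

/-- A short root group and a long root group in `H` commuting with `x`. -/
theorem orth_of_root {x y y' : V} (hx : x ∉ XS hA H) (hyx : B y x = 0) (hy : y ∈ XS hA H)
    (hE : ∀ m : F, Qe hA x (m • y) 0 ∈ H) (hy' : y' ∈ XS hA H) : B y y' = 0 := by
  by_contra h
  have hxy := alt_zero hA hyx
  set t := -(B x y' / B y y') with ht
  have h1 : B (x + t • y) y' = 0 := by simp [ht, h]
  have h2 : B y (x + t • y) = 0 := by simp [hyx, hA.self_eq_zero]
  have h3 : ∀ m c : F, Qe hA y (m • x) c ∈ H := fun m c =>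
    Qe_mem_of (by simp [hxy]) (Qe_swap hA hyx m ▸ hE m) (hy _)
  have h4 : ∀ m : F, Qe hA (x + t • y) (m • y) 0 ∈ H := fun m => by
    rw [Qe_shift hA hyx]; simpa using h3 _ _
  have h5 : x + t • y ∉ XS hA H := fun h5 => hx fun c => by
    have := h5 c
    rw [← Qe_zero, ← zero_smul F y, Qe_shift hA hyx] at this
    exact (H.mul_mem_cancel_left (h3 _ _)).1 this
  generalize x + t • y = z at h1 h2 h4 h5
  have h6 := alt_zero hA h1
  have h7 := conj_mem (hy' (B y y')⁻¹) (h4 1)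
  rw [Qe_conj, spT_apply, spT_apply, h1, one_smul, inv_mul_cancel₀ h, mul_zero, zero_smul,
    add_zero, one_smul] at h7
  have h8 := mul_mem (h4 (-1)) h7
  rw [Qe_mul hA (by simp [h2]) (by simp [h2, h6]), neg_one_smul, neg_add_cancel_left] at h8
  refine h5 (XS_of_mul (t := B y' y ^ 2) (pow_ne_zero 2 (alt_ne hA h)) fun m => ?_)
  have h9 := conj_mem (hy (-m)) h8
  rw [Qe_conj, spT_apply, spT_apply, alt_zero hA h2, mul_zero, zero_smul, add_zero] at h9
  have h10 := mul_mem h9 (inv_mem h8)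
  rw [Qe_inv hA h6, Qe_mul hA (by simp [h2, h6]) (by simp [h6]), add_neg_cancel_comm] at h10
  simpa [hA.self_eq_zero, sq, mul_assoc, mem_Zs] using sub_mem_Zs (by simp [h2]) (h4 _) h10

variable [Finite V]

/-- A parabolic-type subgroup with prescribed eigenvalues. -/
def Rn (B : LinearMap.BilinForm F V) (n : ℤ) (x a : V) : Subgroup (SpG B) := mkFin
  { carrier := {g | ∃ b t : F, g.1 x = b • x ∧ g.1 a = b ^ n • a + t • x}
    one_mem' := ⟨1, 0, by simp, by simp⟩
    mul_mem' := fun {g k} ⟨b, t, e, h⟩ ⟨b', t', e', h'⟩ =>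
      ⟨b' * b, b' ^ n * t + t' * b, by rw [spG_mul_apply, e', map_smul, e, smul_smul], by
        rw [spG_mul_apply, h', map_add, map_smul, map_smul, h, e, mul_zpow]; module⟩ }

variable [Finite F] (hB : B.Nondegenerate)
include hB

theorem le_index_of_line (hA : B.IsAlt) (hd : finrank F V = 4) {y z : V} (hy : y ≠ 0)
    (hz : z ∉ F ∙ y) (hzy : B z y = 0) (h1 : ∀ h ∈ H, h.1 y ∈ span F {y, z})
    (h2 : ∀ h ∈ H, h.1 z ∈ span F {y, z}) : Nat.card V - 1 ≤ H.index * (Nat.card F - 1) := by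
  have := Module.Finite.of_finite (R := F) (M := V)
  have hQ : Nat.card V = Nat.card F ^ 2 * Nat.card F ^ 2 := by
    rw [Module.natCard_eq_pow_finrank (K := F), hd, ← pow_add]
  have h3 := ncard_mul_le (K := H) (P := ⊤) (x := y) (S := (span F {y, z} : Set V) \ {0})
    (T := {0}ᶜ) (Set.toFinite _) (fun g hg _ => ⟨h1 g hg, sp_apply_ne_zero g hy⟩) fun v hv => by
      obtain ⟨g, hg, e⟩ := sp_transitive hB hA hy hv
      exact ⟨⟨g, hg⟩, trivial, e⟩
  have h4 := ncard_le (K := H) (P := stabilizer (SpG B) y) (x := z)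
    (S := (span F {y, z} : Set V) \ (F ∙ y : Submodule F V))
    (T := (pp B y : Set V) \ (F ∙ y : Submodule F V)) (Set.toFinite _)
    (fun g hg e => ⟨h2 g hg, notMem_map (b := 1) (by rw [one_smul]; exact e) hy hz⟩) fun v hv => by
      obtain ⟨g, hg, e, e'⟩ := sp_transitive_pair hB hA (li_of_notMem hy hz)
        (li_of_notMem hy hv.2) (by rw [alt_zero hA hv.1, alt_zero hA hzy])
      exact ⟨⟨g, hg⟩, e, e'⟩
  rw [Set.ncard_compl, Set.ncard_singleton, Set.ncard_sdiff_singleton_of_mem (zero_mem _),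
    ncard_submodule, finrank_span_pair (li_of_notMem hy hz), inf_top_eq,
    Subgroup.relIndex_top_right] at h3
  rw [ncard_pp hB hA hy hQ, Set.ncard_sdiff (span_mono (by simp)), ncard_submodule,
    finrank_span_pair (li_of_notMem hy hz), ncard_span_single hy] at h4
  obtain ⟨q, hq⟩ := Nat.exists_eq_add_of_le' (Nat.card_pos (α := F))
  have h5 : 0 < q := by have := Finite.one_lt_card (α := F); omega
  rw [hq] at h3 h4 ⊢
  rw [show (q + 1) ^ 2 - 1 = q * (q + 2) from Nat.sub_eq_of_eq_add (by ring)] at h3 h4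
  rw [show (q + 1) ^ 2 - (q + 1) = (q + 1) * q from Nat.sub_eq_of_eq_add (by ring)] at h4
  have h6 : q + 2 ≤ H.relIndex (stabilizer (SpG B) y) :=
    Nat.le_of_mul_le_mul_right (by nlinarith) (show 0 < (q + 1) * q by positivity)
  refine Nat.le_of_mul_le_mul_right ((Nat.mul_le_mul_left _ h6).trans (h3.trans_eq ?_))
    (show 0 < q + 2 by omega)
  rw [Nat.add_sub_cancel, mul_assoc]

variable (hψ : ∀ a : F, (∀ c, ψ (c * a) = 1) → a = 0)
  (hlt : H.index * (Nat.card F - 1) < Nat.card V - 1) {x a : V} (hx : x ∉ XS hA H)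
  (ha : a ∈ As hA H ψ x) (ha' : a ∉ F ∙ x) (hle : ∀ b ∈ As hA H ψ x, b ∈ span F {x, a})
include hψ hlt hx ha ha' hle

omit hlt hx ha ha' [Finite F] in
theorem perp_le_Ys {w : V} (h1 : B x w = 0) (h2 : B a w = 0) : w ∈ Ys hA H x :=
  mem_Ys hB hψ fun b hb => perp_pair h1 h2 b (hle b hb)

theorem case_c_big (h3 : 3 ≤ Nat.card F) {Q : ℕ} (hQ : Nat.card V = Nat.card F ^ 2 * Q)
    (hd : 4 < finrank F V) : False := by
  have := Module.Finite.of_finite (R := F) (M := V)
  obtain ⟨w, z, h1, h2, h⟩ := exists_orth_pair hB (U := span F {x, a}) (by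
    have := finrank_span_pair_le (F := F) x a; omega)
  have k1 : x ∈ span F {x, a} := subset_span (by simp)
  have k2 : a ∈ span F {x, a} := subset_span (by simp)
  have hw : ∀ t : F, t • w ∈ Ys hA H x := fun t =>
    perp_le_Ys hB hψ hle (by simp [h1 x k1]) (by simp [h1 a k2])
  by_cases h4 : (2 : F) = 0
  · have := Fintype.ofFinite F
    exact hx (XS_of_trick h4 (exists_ne_zero_one (by rw [← Nat.card_eq_fintype_card]; omega))
      (alt_zero hA (h2 x k1)) hw h
      (main_lift hB hψ (by omega) hx ha ha' hQ (alt_zero hA (h2 x k1)) (h2 a k2)))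
  · exact hx (XS_of_mul (mul_ne_zero h4 h) fun t => by
      simpa [mul_left_comm, mem_Zs] using
        comm_mem_Zs (perp_le_Ys hB hψ hle (h2 x k1) (h2 a k2)) (hw t))

variable (h4 : 4 ≤ Nat.card F) (hd : finrank F V = 4)
include h4 hd

theorem Ys_perp {w : V} (hw : w ∈ Ys hA H x) : B a w = 0 := by
  by_contra h
  have hx0 := ne_zero_of_XS hx
  have hxa := alt_zero hA (As_le hψ ha)
  rcases eps_cases (F := F) with ⟨h2, e⟩ | ⟨h2, e⟩
  swap
  · exact hx (XS_of_mul (mul_ne_zero h2 h) fun t => by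
      simpa [mul_left_comm, mem_Zs] using comm_mem_Zs hw (perp_le_Ys hB hψ hle (w := t • a)
        (by simp [hxa]) (by simp [hA.self_eq_zero])))
  have hQ : Nat.card V = Nat.card F ^ 2 * Nat.card F ^ 2 := by
    rw [Module.natCard_eq_pow_finrank (K := F), hd, ← pow_add]
  have h1 := key hB hψ hx ha ha' hQ (R := R0 B x a)
    (fun g hg => ⟨Qx_le_stab x hg, Qx_apply hg (As_le hψ ha)⟩) fun g hg => hg
  have h3 : As hA H ψ x ≤ (span F {x, a}).toAddSubgroup := hle
  have h5 : Nat.card (span F {x, a}).toAddSubgroup = Nat.card F ^ 2 :=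
    (ncard_submodule _).trans (by rw [finrank_span_pair (li_of_notMem hx0 ha')])
  have h6 : Nat.card (As hA H ψ x) = Nat.card F * al hA H x := card_As hB hψ hx0
  obtain ⟨k, hk⟩ := AddSubgroup.card_dvd_of_le h3
  have h7 : k ≠ 1 := by
    rintro rfl
    refine h (perp_of_As hψ (fun t => ?_) hw)
    rw [AddSubgroup.eq_of_le_of_card_ge h3 (by omega)]
    exact smul_mem _ t (subset_span (by simp))
  rw [h5, h6, sq, mul_assoc, Nat.mul_right_inj Nat.card_pos.ne'] at hk
  have h8 := (al_bounds hB hψ hx0 ha ha' hQ).1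
  have h9 := eps_lt_Zs hx
  have h10 := Zs_le (hA := hA) (H := H) x
  have h11 := relIndex_pos (LF hA H x) (R0 B x a)
  have h12 := mx_le (F := F) H x
  rw [e, mul_one] at h1
  rw [hQ] at hlt
  generalize al hA H x = α at *
  generalize (Zs hA H x).index = r at *
  obtain ⟨α, rfl⟩ := Nat.exists_eq_add_of_le' (show 1 ≤ α by omega)
  obtain ⟨r, rfl⟩ := Nat.exists_eq_add_of_le' (show 1 ≤ r by omega)
  obtain ⟨q, hq⟩ := Nat.exists_eq_add_of_le' (show 2 ≤ Nat.card F by omega)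
  have h13 : 2 * (α + 1) ≤ q + 2 := by
    rcases k with _ | _ | k
    · omega
    · omega
    · nlinarith
  rw [hq] at h1 hlt h10
  rw [show (q + 2) ^ 2 - 1 = (q + 1) * (q + 3) from Nat.sub_eq_of_eq_add (by ring)] at h1
  simp only [Nat.add_sub_cancel, show q + 2 - 1 = q + 1 from rfl] at h1 hlt
  have h14 : (q + 1) * (q + 3) * ((q + 2) * (q + 2)) * (r * α) ≤ H.index * q * (r * α) :=
    calc _ = (q + 1) * (q + 3) * ((q + 2) * r) * ((q + 2) * α) := by ring
      _ ≤ (q + 1) * (q + 3) * ((q + 1) * (r + 1)) * (q * (α + 1)) := by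
        gcongr ?_ * ?_ * ?_ <;> nlinarith
      _ ≤ (q + 1) * ((q + 1) * (q + 3)) * ((α + 1) * (r + 1) * _) * q := by
        nlinarith [Nat.mul_le_mul_left ((q + 1) * ((q + 1) * (q + 3)) * ((α + 1) * (r + 1)) * q) h11]
      _ ≤ H.index * r * α * q := Nat.mul_le_mul_right _ (h1.trans (by gcongr))
      _ = _ := by ring
  have h15 := Nat.le_of_mul_le_mul_right h14 (Nat.mul_pos (by omega) (by omega))
  have h16 : H.index * (q + 1) < (q + 2) ^ 2 * (q + 2) ^ 2 := by omega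
  nlinarith [Nat.mul_le_mul_right (q + 1) h15, Nat.mul_le_mul_right q h16.le]

theorem exists_torus (n : ℤ) : ∃ g ∈ H, ∃ b t : F, b ≠ 0 ∧ b ^ 2 ≠ 1 ∧ g.1 x = b • x ∧
    g.1 a = b ^ n • a + t • x := by
  have := Module.Finite.of_finite (R := F) (M := V)
  have hx0 := ne_zero_of_XS hx
  have hax := As_le hψ ha
  have hxa := alt_zero hA hax
  have hQ : Nat.card V = Nat.card F ^ 2 * Nat.card F ^ 2 := by
    rw [Module.natCard_eq_pow_finrank (K := F), hd, ← pow_add]
  have hb0 : ∀ (g : SpG B) (b : F), g.1 x = b • x → b ≠ 0 := by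
    rintro g _ e rfl; exact sp_apply_ne_zero g hx0 (by simpa using e)
  have hQ' : Qx hA x ≤ Rn B n x a := fun r hr => let ⟨t, ht⟩ := Qx_apply hr hax
    ⟨1, t, by rw [one_smul]; exact Qx_le_stab x hr, by simpa using ht⟩
  have hR : Rn B n x a ≤ pst F (SpG B) x := fun g ⟨b, _, e, _⟩ => mem_pst_of_eq hx0 e
  have hU : span F {x, a} = B.orthogonal (span F {x, a}) := eq_of_le_of_finrank_le
    (fun v hv => by
      obtain ⟨s, t, rfl⟩ := mem_span_pair.1 hv
      exact perp_pair (by simp [hxa, hA.self_eq_zero]) (by simp [hax, hA.self_eq_zero]))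
    (by rw [LinearMap.BilinForm.finrank_orthogonal hB, finrank_span_pair (li_of_notMem hx0 ha'), hd])
  have hY : ∀ w, w ∈ Ys hA H x ↔ w ∈ span F {x, a} := fun w => by
    rw [hU]
    exact ⟨fun h => perp_pair (alt_zero hA h.1) (Ys_perp hB hψ hlt hx ha ha' hle h4 hd h),
      fun h => perp_le_Ys hB hψ hle (h x (subset_span (by simp))) (h a (subset_span (by simp)))⟩
  by_contra! h
  have h1 := card_le_LF (hA := hA) (H := H) hx0 (R := Rn B n x a)
    (S := {b | b ^ 2 * 1 ∈ ({1} : Set F)}) (fun g hg hg' => by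
      obtain ⟨-, r, hr, e⟩ := hg
      obtain ⟨b, t, e1, e2⟩ := mul_mem (hQ' hr) hg'
      refine ⟨b, by_contra fun hb1 => h _ e b t (hb0 _ _ e1) (by simpa using hb1) e1 e2, ?_⟩
      rw [← sp_inv_apply_apply r (g.1 x), ← spG_mul_apply r, e1, map_smul,
        show (r⁻¹).1 x = x from Qx_le_stab x (inv_mem hr)]) fun b hb => by
      obtain ⟨g, hg, e, e'⟩ := sp_transitive_pair hB hA (li_of_notMem hx0 ha')
        (li_of_notMem (smul_ne_zero hb hx0) (a := b ^ n • a) (by
          rwa [span_singleton_smul_eq hb.isUnit, smul_mem_iff _ (zpow_ne_zero n hb)]))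
        (by simp [hxa])
      exact ⟨⟨g, hg⟩, ⟨b, 0, e, by simpa using e'⟩, e⟩
  have h2 := ncard_sq_le ({1} : Set F) one_ne_zero
  have h3 := ncard_mul_le' (H := H) hR (x := a)
    (S := (span F {x, a} : Set V) \ (F ∙ x : Submodule F V))
    (T := (pp B x : Set V) \ (F ∙ x : Submodule F V)) (Set.toFinite _)
    (fun g hg e v hv => by
      obtain ⟨b, hb, e⟩ := mem_pst.1 e
      exact ⟨(smul_mem_iff _ hb).1 ((hY _).1 (Ys_smul hg hb e ((hY v).2 hv.1))),
        notMem_map e hx0 hv.2⟩)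
    (fun g ⟨b, t, e, e'⟩ => ⟨mem_span_pair.2 ⟨t, b ^ n, (add_comm _ _).trans e'.symm⟩,
      notMem_map e hx0 ha'⟩)
    fun v hv => by
      obtain ⟨g, hg, e, e'⟩ := sp_transitive_pair hB hA (li_of_notMem hx0 ha')
        (li_of_notMem hx0 hv.2) (by rw [alt_zero hA hv.1, hxa])
      exact ⟨⟨g, hg⟩, stabilizer_le_pst x e, e'⟩
  rw [ncard_pp hB hA hx0 hQ, Set.ncard_sdiff (span_mono (by simp)), ncard_submodule,
    finrank_span_pair (li_of_notMem hx0 ha'), ncard_span_single hx0] at h3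
  have h5 := al_mul_LF (H := H) hQ' hR
  have h6 : Nat.card F ^ 2 ≤ Nat.card F * al hA H x := by
    rw [← card_As hB hψ hx0, ← finrank_span_pair (li_of_notMem hx0 ha'), ← ncard_submodule]
    refine Set.ncard_le_ncard fun v hv w hw => ?_
    rw [bA_apply, show B v w = 0 from (hU ▸ (hY w).1 hw :) v hv, AddChar.map_zero_eq_one]
  rw [sq] at h6
  have h7 := Nat.le_of_mul_le_mul_left h6 Nat.card_pos
  have h8 := eps_lt_Zs hx
  have h9 : H.relIndex (pst F (SpG B) x) ≤ H.index := relIndex_le_index _ _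
  rw [Set.ncard_singleton, mul_one] at h2
  replace h1 := h1.trans (Nat.mul_le_mul_left _ h2)
  rw [hQ] at hlt
  obtain ⟨q, hq⟩ := Nat.exists_eq_add_of_le' (show 1 ≤ Nat.card F by omega)
  rw [hq] at h1 h3 h4 h7 hlt
  rw [show (q + 1) ^ 2 - 1 = q * (q + 2) from Nat.sub_eq_of_eq_add (by ring),
    show (q + 1) ^ 2 - (q + 1) = (q + 1) * q from Nat.sub_eq_of_eq_add (by ring)] at h3
  rw [Nat.add_sub_cancel] at h1 hlt
  have h10 : (q + 2) * H.relIndex (Rn B n x a) ≤ H.index :=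
    Nat.le_of_mul_le_mul_right (by nlinarith [Nat.mul_le_mul_right ((q + 1) * q) h9])
      (show 0 < (q + 1) * q by positivity [show 0 < q by omega])
  have h11 : (q + 2) * ((q + 1) * (eps F + 1) * q) ≤ H.index * eps F :=
    calc _ ≤ (q + 2) * (al hA H x * (Zs hA H x).index * (_ * eps F)) := by gcongr; exact h8
      _ ≤ _ := by
        rw [← mul_assoc _ _ (eps F), ← mul_assoc]
        exact Nat.mul_le_mul_right _ ((Nat.mul_le_mul_left _ h5).trans h10)
  have h12 : H.index * q < (q + 1) ^ 2 * (q + 1) ^ 2 := by omega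
  obtain ⟨q, rfl⟩ := Nat.exists_eq_add_of_le' (show 3 ≤ q by omega)
  rcases eps_cases (F := F) with ⟨-, e⟩ | ⟨-, e⟩ <;> rw [e] at h11 <;>
    nlinarith [Nat.mul_le_mul_right (q + 3) h11, sq_nonneg q, pow_nonneg q.zero_le 3,
      pow_nonneg q.zero_le 4]

theorem exists_root : ∃ y, y ∉ F ∙ x ∧ B y x = 0 ∧ y ∈ XS hA H ∧ ∀ m : F, Qe hA x (m • y) 0 ∈ H := by
  have hx0 := ne_zero_of_XS hx
  have hQ : Nat.card V = Nat.card F ^ 2 * Nat.card F ^ 2 := by
    rw [Module.natCard_eq_pow_finrank (K := F), hd, ← pow_add]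
  obtain ⟨g, hg, b, t, hb, hb2, gx, ga⟩ := exists_torus hB hψ hlt hx ha ha' hle h4 hd 0
  obtain ⟨k, hk, c, s, hc, hc2, kx, ka⟩ := exists_torus hB hψ hlt hx ha ha' hle h4 hd (-1)
  have hb1 : 1 - b ≠ 0 := fun h => hb2 (by rw [← sub_eq_zero.1 h, one_pow])
  have hY : ∀ w ∈ Ys hA H x, B (a + (t / (1 - b)) • x) w = 0 := fun w hw => by
    simp [Ys_perp hB hψ hlt hx ha ha' hle h4 hd hw, alt_zero hA hw.1]
  have hY' : ∀ w, B w x = 0 → B (a + (t / (1 - b)) • x) w = 0 → w ∈ Ys hA H x := fun w h1 h2 =>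
    perp_le_Ys hB hψ hle (alt_zero hA h1) (by simpa [alt_zero hA h1] using h2)
  have gy : g.1 (a + (t / (1 - b)) • x) = a + (t / (1 - b)) • x := by
    rw [map_add, map_smul, ga, gx, smul_smul, zpow_zero, one_smul, add_assoc, ← add_smul]
    congr 2; field_simp; ring
  obtain ⟨s, ky⟩ : ∃ s : F, k.1 (a + (t / (1 - b)) • x) = c⁻¹ • (a + (t / (1 - b)) • x) + s • x :=
    ⟨s + t / (1 - b) * (c - c⁻¹), by rw [map_add, map_smul, ka, kx, zpow_neg_one]; module⟩
  have hy := add_mem ha (smul_mem_As x (t / (1 - b)))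
  have hy' : a + (t / (1 - b)) • x ∉ F ∙ x := by
    rwa [Submodule.add_mem_iff_left _ (smul_mem _ _ (mem_span_singleton_self x))]
  generalize a + (t / (1 - b)) • x = y at hY hY' gy ky hy hy'
  have hyx := As_le hψ hy
  have hxy := alt_zero hA hyx
  have hm : ∀ m : F, B (m • y) x = 0 := fun m => by simp [hyx]
  have hc1 : c ^ 2 - 1 ≠ 0 := sub_ne_zero.2 hc2
  have k1 : ∀ m : F, Qe hA x (m • y) (m * (2 * (-(c * s) / (c ^ 2 - 1)))) ∈ H := fun m => by
    obtain ⟨-, d, hd⟩ := hY' _ (hm m) (by simp [hA.self_eq_zero])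
    have h1 := conj_mem hk hd
    rw [Qe_conj' hA hc kx (hm m), map_smul, ky, show c • m • (c⁻¹ • y + s • x) =
      m • y + (c * m * s) • x by rw [smul_comm, smul_add, smul_inv_smul₀ hc]; module,
      Qe_add_smul hA (hm m)] at h1
    refine Qe_mem_of (hm m) hd (neg_mem_iff.1 (mem_of_sub_one_mul
      (fun _ => Zs_smul hk kx) hc2 ?_))
    convert sub_mem_Zs (hm m) hd h1 using 1
    field_simp; ring
  have k2 : ∀ m : F, Qe hA x (m • y) 0 ∈ H := by
    generalize 2 * (-(c * s) / (c ^ 2 - 1)) = δ at k1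
    rcases eq_or_ne δ 0 with rfl | hδ
    · simpa using k1
    refine (hx (XS_of_mul (mul_ne_zero (mul_ne_zero hb hb1) hδ) fun m => ?_)).elim
    have h1 := conj_mem hg (k1 m)
    rw [Qe_conj' hA hb gx (hm m), map_smul, gy, smul_smul] at h1
    convert mem_Zs.1 (sub_mem_Zs (hm _) h1 (k1 _)) using 2
    ring
  refine ⟨y, hy', hyx, fun d => ?_, k2⟩
  obtain ⟨_, ⟨w, e, hw, rfl⟩, h1⟩ := main_lift hB hψ (by omega) hx hy hy' hQ hyx
    (hA.self_eq_zero y) d
  have h2 := conj_mem hg h1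
  rw [← conj_mul, Qe_conj' hA hb gx hw, spT_conj, gy] at h2
  have h3 := mul_mem h2 (inv_mem h1)
  have hgw := perp_of_smul hb gx hw
  rw [mul_inv_rev, mul_assoc, mul_inv_cancel_left, Qe_inv hA hw,
    Qe_mul hA (by simp [hgw]) (by simp [hw])] at h3
  have h5 := hY _ ⟨by simp [hgw, hw], _, h3⟩
  have h6 := spG_form g y w
  rw [gy] at h6
  obtain ⟨-, e', h7⟩ := hY' w hw (by
    simp only [map_add, map_smul, map_neg, h6, smul_eq_mul] at h5
    exact (mul_eq_zero.1 (show (1 - b) * B y w = 0 by linear_combination -h5)).resolve_left hb1)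
  have h8 := mul_mem (inv_mem h7) h1
  rw [← mul_assoc, Qe_inv hA hw, Qe_mul hA (by simp [hw]) hw, neg_add_cancel, Qe_zero] at h8
  generalize -e' + e + B w (-w) = γ at h8
  have h9 := conj_mem hg h8
  rw [← conj_mul, spT_conj, spT_conj, gx, gy, spT_smul] at h9
  have h10 := mul_mem h9 (inv_mem h8)
  rw [mul_inv_rev, mul_assoc, mul_inv_cancel_left, spT_inv, spT_mul] at h10
  exact (H.mul_mem_cancel_left (mem_Zs.1 (mem_of_sub_one_mul (fun _ => Zs_smul hg gx) hb2
    (mem_Zs.2 (by rwa [sub_one_mul, sub_eq_add_neg]))))).1 h8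

theorem case_c : False := by
  have := Module.Finite.of_finite (R := F) (M := V)
  obtain ⟨y, hy', hyx, hy, hE⟩ := exists_root hB hψ hlt hx ha ha' hle h4 hd
  have hy0 : y ≠ 0 := by rintro rfl; exact hy' (zero_mem _)
  have h1 : ∀ h ∈ H, ∀ k ∈ H, B (h.1 y) (k.1 y) = 0 := fun h hh k hk => by
    rw [← sp_apply_inv_apply h (k.1 y), spG_form, ← spG_mul_apply]
    exact orth_of_root hx hyx hy hE (XS_map hA (mul_mem (inv_mem hh) hk) hy)
  by_cases h8 : ∀ h ∈ H, h.1 y ∈ F ∙ y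
  · exact (le_index_of_fix hB hA hy0 fun h hh =>
      let ⟨t, e⟩ := mem_span_singleton.1 (h8 h hh); ⟨t, e.symm⟩).not_gt hlt
  push Not at h8
  obtain ⟨k, hk, h8⟩ := h8
  have h2 : ∀ h ∈ H, h.1 y ∈ B.orthogonal (span F {y, k.1 y}) := fun h hh =>
    perp_pair (h1 1 (one_mem _) h hh) (h1 k hk h hh)
  rw [← span_pair_eq (U := B.orthogonal (span F {y, k.1 y})) (by
    rw [LinearMap.BilinForm.finrank_orthogonal hB, finrank_span_pair (li_of_notMem hy0 h8), hd])
    (li_of_notMem hy0 h8) (h2 1 (one_mem _)) (h2 k hk)] at h2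
  exact (le_index_of_line hB hA hd hy0 h8 (h1 k hk 1 (one_mem _)) h2
    fun h hh => h2 _ (mul_mem hh hk)).not_gt hlt

omit hψ hlt hx ha ha' hle h4 hd in
theorem sp_index (hA : B.IsAlt) (h3 : 3 ≤ Nat.card F) (hd : 4 ≤ finrank F V)
    (hexc : Nat.card F = 3 → finrank F V ≠ 4) (hH : H ≠ ⊤) :
    Nat.card V - 1 ≤ H.index * (Nat.card F - 1) := by
  have := Module.Finite.of_finite (R := F) (M := V)
  by_contra! hlt
  obtain ⟨ψ, hψ⟩ := exists_addChar F
  have hQ : Nat.card V = Nat.card F ^ 2 * Nat.card F ^ (finrank F V - 2) := by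
    rw [Module.natCard_eq_pow_finrank (K := F), ← pow_add]
    congr 1; omega
  obtain ⟨x, hx⟩ := not_forall.1 (mt (eq_top_of_XS hB hA) hH)
  obtain ⟨x, hx, w, hw, hw'⟩ := exists_not_cover hB (by
    have := Fintype.ofFinite F
    exact exists_ne_zero_one (by rw [← Nat.card_eq_fintype_card]; omega)) (by omega) hx
  obtain ⟨a, ha, ha'⟩ : ∃ a ∈ As hA H ψ x, a ∉ F ∙ x := by
    by_contra! h
    refine hw' (mem_Ys hB hψ fun a ha => ?_)
    obtain ⟨t, rfl⟩ := mem_span_singleton.1 (h a ha)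
    simp [alt_zero hA hw]
  by_cases hle : ∀ b ∈ As hA H ψ x, b ∈ span F {x, a}
  · rcases hd.eq_or_lt with hd | hd
    · exact case_c hB hψ hlt hx ha ha' hle (by have := hexc; omega) hd.symm
    · exact case_c_big hB hψ hlt hx ha ha' hle h3 hQ hd
  · push Not at hle
    obtain ⟨b, hb, hb'⟩ := hle
    exact case_a hB hψ hlt hQ hx h3 (fun v => pp_le_As hB hψ hlt hQ hx ha ha' hb hb') (by omega)
      fun h => by have := hexc h; omega

end Cfsg.Agent.Cl.MI
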