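import Mathlib
import Cfsg.Agent.Cl.MinIdxSpC

/-!
# Minimal index of a proper subgroup of `Sp(V)` over the field with two elements
-/

set_option autoImplicit false

namespace Cfsg.Agent.Cl.MI

open MulAction Module Submodule MaxSp

variable {F : Type*} [Field F] {V : Type*} [AddCommGroup V] [Module F V]
  {B : LinearMap.BilinForm F V} {hA : B.IsAlt} {H : Subgroup (SpG B)}

theorem two_cases (h : Nat.card F = 2) (a : F) : a = 0 ∨ a = 1 := by
  by_contra! h'
  obtain ⟨y, -, hy⟩ := (Nat.card_eq_two_iff' (0 : F)).1 h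
  exact h'.2 ((hy a h'.1).trans (hy 1 one_ne_zero).symm)

theorem two_eq_zero_of (h : ∀ a : F, a = 0 ∨ a = 1) : (2 : F) = 0 :=
  (h 2).resolve_right fun e => one_ne_zero (by linear_combination e)

open Classical in
/-- The sign character. -/
noncomputable def sg (c : F) : ℤ := if c = 0 then 1 else -1

theorem sg_add (h : ∀ a : F, a = 0 ∨ a = 1) (a b : F) : sg (a + b) = sg a * sg b := by
  rcases h a with rfl | rfl <;> rcases h b with rfl | rfl <;>
    simp [sg, one_add_one_eq_two, two_eq_zero_of h]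

/-- The stabiliser of a function on `V`. -/
def OQ (B : LinearMap.BilinForm F V) (Q : V → F) : Subgroup (SpG B) where
  carrier := {g | ∀ v, Q (g.1 v) = Q v}
  one_mem' := fun _ => rfl
  mul_mem' := fun h h' v => (h _).trans (h' v)
  inv_mem' := fun {g} h v => by rw [← h, sp_apply_inv_apply]

section Quad

variable (h : ∀ a : F, a = 0 ∨ a = 1) {Q : V → F} (hQ : ∀ u v, Q (u + v) = Q u + Q v + B u v)
include h hQ

omit h in
theorem quad_zero : Q 0 = 0 := by simpa using hQ 0 0

theorem quad_spT {z : V} (hz : Q z = 0) (v : V) : Q ((spT hA z 1).1 v) = Q v + B v z := by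
  rw [spT_apply, one_mul]
  rcases h (B v z) with e | e <;> simp [e, hQ, hz]

theorem sum_sg_shift [Fintype V] (z : V) : ∑ v, sg (Q v + B v z) = sg (Q z) * ∑ v, sg (Q v) := by
  rw [← Equiv.sum_comp (Equiv.addRight z) fun v => sg (Q v), Finset.mul_sum]
  refine Finset.sum_congr rfl fun v _ => ?_
  rw [← sg_add h, Equiv.coe_addRight, hQ]
  congr 1
  linear_combination (-Q z) * two_eq_zero_of h

theorem sum_sg_sq [Fintype V] (hB : B.Nondegenerate) : (∑ v, sg (Q v)) ^ 2 = Nat.card V := by
  rw [sq, Finset.sum_mul, Finset.sum_congr rfl fun u _ => (sum_sg_shift h hQ u).symm,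
    Finset.sum_comm, Finset.sum_eq_single 0]
  · simp [quad_zero hQ, sg]
  · intro v _ hv
    obtain ⟨y, hy⟩ : ∃ y, B v y ≠ 0 := by
      by_contra! h'
      exact hv (hB.1 v h')
    have := Equiv.sum_comp (Equiv.addRight y) fun u => sg (Q v + B v u)
    simp only [Equiv.coe_addRight, map_add, ← add_assoc, sg_add h _ (B v y), ← Finset.sum_mul,
      show sg (B v y) = -1 from if_neg hy] at this
    linarith
  · simp

omit h hQ in
theorem two_mul_zeros [Fintype V] :
    2 * (Nat.card {v // Q v = 0} : ℤ) = Nat.card V + ∑ v, sg (Q v) := by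
  classical
  rw [Nat.card_eq_fintype_card, Fintype.card_subtype, Nat.card_eq_fintype_card, ← Finset.card_univ,
    Finset.card_eq_sum_ones, Finset.card_eq_sum_ones, Finset.sum_filter]
  push_cast
  rw [Finset.mul_sum, ← Finset.sum_add_distrib]
  exact Finset.sum_congr rfl fun v _ => by unfold sg; split_ifs <;> simp

theorem index_OQ [Finite V] (hA : B.IsAlt) (hB : B.Nondegenerate) :
    (OQ B Q).index = Nat.card {v // Q v = 0} := by
  have := Fintype.ofFinite V
  have := Module.Finite.of_finite (R := F) (M := V)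
  have h2 := two_eq_zero_of h
  have hn : ∀ a : F, -a = a := fun a => by linear_combination (-a) * h2
  refine (Nat.card_congr (Equiv.ofBijective
    (fun z : {v // Q v = 0} => (spT hA z.1 1 : SpG B ⧸ OQ B Q)) ⟨fun z z' e => ?_, fun g => ?_⟩)).symm
  · have h1 : ∀ v, B v z' * (1 + B z' z) = B v z := fun v => by
      have := QuotientGroup.eq.1 e v
      rw [spT_inv, hn, spG_mul_apply, quad_spT h hQ z.2, quad_spT h hQ z'.2, spT_apply] at this
      simp only [map_add, map_smul, LinearMap.add_apply, LinearMap.smul_apply, smul_eq_mul] at this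
      linear_combination this - B v z * h2
    rcases h (B z' z) with e | e
    · exact Subtype.ext (sub_eq_zero.1 (hB.2 _ fun v => by simp [← h1 v, e]))
    · rw [hB.2 z fun v => by rw [← h1, e, one_add_one_eq_two, h2, mul_zero]] at e
      simp at e
  · obtain ⟨g, rfl⟩ := QuotientGroup.mk_surjective g
    let l : V →ₗ[F] F :=
      { toFun := fun v => Q ((g⁻¹).1 v) - Q v
        map_add' := fun u v => by rw [map_add, hQ, hQ, spG_form]; ring
        map_smul' := fun c v => by rcases h c with rfl | rfl <;> simp [quad_zero hQ] }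
    obtain ⟨z, hz⟩ := (LinearMap.BilinForm.toDual B.flip hB.flip).surjective l
    have h1 : ∀ v, Q v + B v z = Q ((g⁻¹).1 v) := fun v => by
      rw [show B v z = l v by rw [← hz]; rfl]; simp [l]
    have h3 := sum_sg_shift h hQ z
    simp only [h1] at h3
    replace h3 := (Equiv.sum_comp (g⁻¹).1.toEquiv fun v => sg (Q v)).symm.trans h3
    have h4 : Q z = 0 := by_contra fun h4 => by
      have h5 := sum_sg_sq h hQ hB
      rw [show sg (Q z) = -1 from if_neg h4] at h3
      rw [show ∑ v, sg (Q v) = 0 by linarith] at h5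
      exact Nat.card_pos.ne (by exact_mod_cast h5)
    refine ⟨⟨z, h4⟩, QuotientGroup.eq.2 fun v => ?_⟩
    rw [spT_inv, hn, spG_mul_apply, quad_spT h hQ h4, h1, sp_inv_apply_apply]

end Quad

open Classical in
variable (hA H) in
/-- The indicator function of the centres of the transvections in `H`. -/
noncomputable def qf (v : V) : F := if v ∈ XS hA H ∧ v ≠ 0 then 1 else 0

theorem qf_of_mem {v : V} (h : v ∈ XS hA H) (h0 : v ≠ 0) : qf hA H v = 1 := if_pos ⟨h, h0⟩

theorem qf_of_notMem {v : V} (h : v ∉ XS hA H) : qf hA H v = 0 := if_neg fun e => h e.1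

theorem qf_map {g : SpG B} (hg : g ∈ H) (v : V) : qf hA H (g.1 v) = qf hA H v := by
  have : g.1 v ∈ XS hA H ↔ v ∈ XS hA H :=
    ⟨fun h => sp_inv_apply_apply g v ▸ XS_map hA (inv_mem hg) h, XS_map hA hg⟩
  classical
  exact if_congr (and_congr this g.1.map_ne_zero_iff) rfl rfl

theorem orth_apply {U : Submodule F V} {y u : V} (h : y ∈ B.orthogonal U) (hu : u ∈ U) :
    B u y = 0 := h u hu

variable [Module.Finite F V] (hB : B.Nondegenerate) (h : ∀ a : F, a = 0 ∨ a = 1)
  (hd : 6 ≤ finrank F V) (hc : ∀ x, x ∉ XS hA H → ∀ w, B w x = 0 → w ∈ Ys hA H x)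
include h

omit [Module.Finite F V] in
theorem eq_of_Qe {x w : V} {c c' : F} (hx : x ∉ XS hA H) (hw : B w x = 0) (e : Qe hA x w c ∈ H)
    (e' : Qe hA x w c' ∈ H) : c = c' := by
  by_contra hne
  refine hx (XS_of_mul (sub_ne_zero.2 (Ne.symm hne)) fun a => ?_)
  rcases h a with rfl | rfl
  · simp
  · simpa using mem_Zs.1 (sub_mem_Zs hw e e')

omit [Module.Finite F V] in
theorem notMem_span_two {x v : V} (h0 : v ≠ 0) (h1 : v ≠ x) : v ∉ F ∙ x := fun e => by
  obtain ⟨t, rfl⟩ := mem_span_singleton.1 e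
  rcases h t with rfl | rfl <;> simp at h0 h1

include hB hc

theorem Qe_one {x z : V} (hx : x ∉ XS hA H) (hz : B z x = 0) (hz' : z ∉ F ∙ x) (hX : z ∈ XS hA H) :
    Qe hA x z 1 ∈ H := by
  obtain ⟨u, hu, e⟩ := exists_pp_ne hB hA hz' (-1)
  have := trick (m := 1) (two_eq_zero_of h) hz (hc x hx u hu) (one_mem _) (by simpa using hX 1)
  rw [← hA.neg_eq, e] at this
  simpa [show (-1 : F) = 1 by linear_combination -two_eq_zero_of h] using this

include hd

theorem Qe_qf {x z : V} (hx : x ∉ XS hA H) (hz : B z x = 0) (hz' : z ∉ F ∙ x) :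
    Qe hA x z (qf hA H z) ∈ H := by
  have h2 := two_eq_zero_of h
  have hz0 : z ≠ 0 := by rintro rfl; exact hz' (zero_mem _)
  by_cases hX : z ∈ XS hA H
  · exact qf_of_mem hX hz0 ▸ Qe_one hB h hc hx hz hz' hX
  obtain ⟨-, c, e⟩ := hc x hx z hz
  rcases h c with rfl | rfl
  · rwa [qf_of_notMem hX]
  exfalso
  have hxz := alt_zero hA hz
  have h1 : x ∉ F ∙ z := notMem_span_two h (ne_zero_of_XS hx) (by
    rintro rfl; exact hz' (mem_span_singleton_self _))
  obtain ⟨w, hw, e1⟩ := exists_pp_ne hB hA h1 1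
  have h3 := mul_mem (inv_mem e) (shift_mem (m := 1) h2 hz (hc z hX w hw) (by rwa [one_smul]))
  rw [e1, Qe, Qe, one_mul, one_smul, one_pow, one_mul, spE_comm hA hz, mul_inv_rev, mul_assoc,
    inv_mul_cancel_left, spT_inv] at h3
  obtain ⟨u, hu, hux, huz, h4⟩ : ∃ u, u ∉ span F {x, z} ∧ B u x = 0 ∧ B u z = 0 ∧
      Qe hA x u 0 ∈ H := by
    obtain ⟨u, h4, h5⟩ := exists_orth hB (U := span F {x, z}) (by
      have := finrank_span_pair_le (F := F) x z; omega)
    have h6 := alt_zero hA (h4 x (subset_span (by simp)))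
    have h7 := h4 z (subset_span (by simp))
    obtain ⟨-, c, e2⟩ := hc x hx u h6
    rcases h c with rfl | rfl
    · exact ⟨u, h5, h6, alt_zero hA h7, e2⟩
    · refine ⟨u + z, by rwa [Submodule.add_mem_iff_left _ (subset_span (by simp))],
        by simp [h6, hz], by simp [alt_zero hA h7, hA.self_eq_zero], ?_⟩
      simpa [Qe_mul hA h6 hz, h7, one_add_one_eq_two, h2] using mul_mem e2 e
  have h5 : u ∉ XS hA H := fun h5 => zero_ne_one (eq_of_Qe h hx hux h4
    (Qe_one hB h hc hx hux (fun e => hu (span_mono (by simp) e)) h5))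
  obtain ⟨y, h6, h7⟩ := exists_perp_ne hB (W := span F {u, z}) (y := x) fun e => by
    obtain ⟨s, t, rfl⟩ := mem_span_pair.1 e
    rcases h s with rfl | rfl
    · exact h1 (mem_span_singleton.2 ⟨t, by simp⟩)
    · exact hu (mem_span_pair.2 ⟨1, -t, by simp⟩)
  have h8 := alt_zero hA (h6 u (subset_span (by simp)))
  have h9 := alt_zero hA (h6 z (subset_span (by simp)))
  have hxu := alt_zero hA hux
  obtain ⟨-, d, e2⟩ := hc u h5 y h8
  have h10 := conj_mem h3 e2
  have h11 := mul_mem e2 (show Qe hA u x 0 ∈ H by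
    rwa [← one_smul F x, ← Qe_swap hA hux, one_smul])
  rw [Qe_mul hA h8 hxu] at h11
  rw [Qe_conj] at h10
  simp only [spG_mul_apply, spT_apply, hux, huz, h9, mul_zero, zero_smul, add_zero,
    ← hA.neg_eq x y, (h _).resolve_left h7, mul_neg, mul_one, neg_neg, one_smul] at h10
  exact h7 (by simpa using eq_of_Qe h h5 (by simp [h8, hxu]) h10 h11)

theorem qf_add_of {x u v : V} (hx : x ∉ XS hA H) (hu : B u x = 0) (hv : B v x = 0) (hu' : u ∉ F ∙ x)
    (hv' : v ∉ F ∙ x) (huv : u + v ∉ F ∙ x) :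
    qf hA H (u + v) = qf hA H u + qf hA H v + B u v := by
  have := mul_mem (Qe_qf hB h hd hc hx hv hv') (Qe_qf hB h hd hc hx hu hu')
  rw [Qe_mul hA hv hu, add_comm v, add_comm (qf hA H v)] at this
  exact eq_of_Qe h hx (by simp [hu, hv]) (Qe_qf hB h hd hc hx (by simp [hu, hv]) huv) this

theorem exists_notMem_XS {U : Submodule F V} (hU : finrank F U ≤ 3) {x a b : V} (hx : x ∉ XS hA H)
    (hxU : x ∈ U) (ha : a ∈ U) (ha' : a ∈ B.orthogonal U) (ha0 : a ≠ 0) (hb : b ∈ U)
    (hbx : B b x ≠ 0) : ∃ y ∈ B.orthogonal U, y ∉ XS hA H := by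
  by_contra! k
  obtain ⟨p, hp, hp'⟩ := exists_notMem_of_finrank_lt (U := F ∙ a) (A := B.orthogonal U) (by
    have := LinearMap.BilinForm.finrank_orthogonal hB U
    have := finrank_span_single_le (F := F) a
    omega)
  have k1 : ∀ y ∈ B.orthogonal U, y ≠ 0 → y ∉ F ∙ x := fun y hy h0 =>
    notMem_span_two h h0 (by rintro rfl; exact hbx (hy b hb))
  have h0 : p ≠ 0 := by rintro rfl; exact hp' (zero_mem _)
  have h1 : a + p ≠ 0 := fun e => hp' (mem_span_singleton.2 ⟨-1, by
    rw [neg_one_smul, neg_eq_of_add_eq_zero_right e]⟩)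
  have := qf_add_of hB h hd hc hx (alt_zero hA (ha' x hxU)) (alt_zero hA (hp x hxU)) (k1 a ha' ha0)
    (k1 p hp h0) (k1 _ (add_mem ha' hp) h1)
  rw [qf_of_mem (k _ (add_mem ha' hp)) h1, qf_of_mem (k _ ha') ha0, qf_of_mem (k _ hp) h0,
    show B a p = 0 from hp a ha] at this
  simp at this

theorem qf_add {x : V} (hx : x ∉ XS hA H) (u v : V) :
    qf hA H (u + v) = qf hA H u + qf hA H v + B u v := by
  have h2 := two_eq_zero_of h
  have h0 : qf hA H 0 = 0 := if_neg fun e => e.2 rfl
  have hvv : ∀ v : V, v + v = 0 := fun v => by rw [← two_smul F, h2, zero_smul]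
  have hs : ∀ u v, B v u = B u v := fun u v => by
    rw [← hA.neg_eq]; linear_combination (-B u v) * h2
  have fr : ∀ x y z : V, finrank F (span F {x, y, z}) ≤ 3 := fun x y z =>
    (finrank_span_insert_le x _).trans (Nat.add_le_add_right (finrank_span_pair_le y z) 1)
  rcases eq_or_ne u 0 with rfl | hu
  · simp [h0]
  rcases eq_or_ne v 0 with rfl | hv
  · simp [h0]
  rcases eq_or_ne u v with rfl | huv
  · rw [hvv, h0, hA.self_eq_zero, ← two_mul, h2]; simp
  have hw : u + v ≠ 0 := fun e => huv (by rw [← add_zero u, ← hvv v, ← add_assoc, e, zero_add])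
  have k0 : (∃ y, y ∉ XS hA H ∧ B u y = 0 ∧ B v y = 0 ∧ u ≠ y ∧ v ≠ y ∧ u + v ≠ y) →
      qf hA H (u + v) = qf hA H u + qf hA H v + B u v := fun ⟨y, h1, h3, h4, h5, h6, h7⟩ =>
    qf_add_of hB h hd hc h1 h3 h4 (notMem_span_two h hu h5) (notMem_span_two h hv h6)
      (notMem_span_two h hw h7)
  rcases h (B u v) with e | e
  · have k1 : ∀ u v, u ∉ XS hA H → B v u = 0 → v ≠ 0 → v ≠ u → qf hA H (v + u) = qf hA H v :=
      fun u v h1 h3 h4 h5 => by
        have h6 := notMem_span_two h h4 h5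
        have := Qe_qf hB h hd hc h1 (z := v + (1 : F) • u) (by simp [h3, hA.self_eq_zero]) (by
          rwa [Submodule.add_mem_iff_left _ (smul_mem _ _ (mem_span_singleton_self u))])
        rw [Qe_add_smul hA h3, h2, zero_mul, add_zero, one_smul] at this
        exact eq_of_Qe h h1 h3 this (Qe_qf hB h hd hc h1 h3 h6)
    by_cases h1 : u ∈ XS hA H
    swap
    · rw [add_comm, k1 u v h1 (hs u v ▸ e) hv huv.symm, qf_of_notMem h1, e]; simp
    by_cases h3 : v ∈ XS hA H
    swap
    · rw [k1 v u h3 e hu huv, qf_of_notMem h3, e]; simp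
    by_cases h4 : u + v ∈ XS hA H
    swap
    · rw [qf_of_notMem h4, qf_of_mem h1 hu, qf_of_mem h3 hv, e, add_zero, one_add_one_eq_two, h2]
    suffices ∃ y, y ∉ XS hA H ∧ B u y = 0 ∧ B v y = 0 from
      let ⟨y, h5, h6, h7⟩ := this
      k0 ⟨y, h5, h6, h7, by rintro rfl; exact h5 h1, by rintro rfl; exact h5 h3,
        by rintro rfl; exact h5 h4⟩
    have k2 : ∀ a b, a ∈ span F {u, v} → a ≠ 0 → B x a = 0 → b ∈ span F {u, v} → B b x ≠ 0 →
        ∃ y, y ∉ XS hA H ∧ B u y = 0 ∧ B v y = 0 := fun a b ha ha0 hxa hb hbx => by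
      have h5 : span F {u, v} ≤ span F {x, u, v} := span_mono (Set.subset_insert _ _)
      obtain ⟨y, h6, h7⟩ := exists_notMem_XS hB h hd hc (fr x u v) hx (subset_span (by simp))
        (h5 ha) (fun p hp => by
          obtain ⟨r, p, hp', rfl⟩ := mem_span_insert.1 hp
          have : B p a = 0 := by
            obtain ⟨s, t, rfl⟩ := mem_span_pair.1 ha
            exact perp_pair (x := u) (a := v) (by simp [e, hA.self_eq_zero])
              (by simp [alt_zero hA e, hA.self_eq_zero]) p hp'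
          change B _ _ = 0
          simp [hxa, this]) ha0 (h5 hb) hbx
      exact ⟨y, h7, orth_apply h6 (subset_span (by simp)), orth_apply h6 (subset_span (by simp))⟩
    have m1 : u ∈ span F {u, v} := subset_span (by simp)
    have m2 : v ∈ span F {u, v} := subset_span (by simp)
    rcases h (B u x) with e1 | e1 <;> rcases h (B v x) with e2 | e2
    · exact ⟨x, hx, e1, e2⟩
    · exact k2 u v m1 hu (hs u x ▸ e1) m2 (by simp [e2])
    · exact k2 v u m2 hv (hs v x ▸ e2) m1 (by simp [e1])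
    · exact k2 _ u (add_mem m1 m2) hw (by
        rw [map_add, hs u, hs v, e1, e2, one_add_one_eq_two, h2]) m1 (by simp [e1])
  · have k1 : ∀ u v, u ∈ XS hA H → B v u = 1 → qf hA H (v + u) = qf hA H v := fun u v h1 h3 => by
      simpa [h3] using qf_map (h1 1) v
    by_cases h1 : u ∈ XS hA H
    · rw [add_comm, k1 u v h1 (hs u v ▸ e), qf_of_mem h1 hu, e]; linear_combination -h2
    by_cases h3 : v ∈ XS hA H
    · rw [k1 v u h3 e, qf_of_mem h3 hv, e]; linear_combination -h2
    by_cases h4 : u + v ∈ XS hA H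
    · rw [qf_of_mem h4 hw, qf_of_notMem h1, qf_of_notMem h3, e]; simp
    obtain ⟨p, h5, h6⟩ := exists_orth hB (U := span F {u, v}) (by
      have := finrank_span_pair_le (F := F) u v; omega)
    obtain ⟨y, h7, h8⟩ := exists_notMem_XS hB h hd hc (fr p u v) (a := p) (b := v) h1
      (subset_span (by simp)) (subset_span (by simp)) (fun r hr => by
        obtain ⟨s, r, hr', rfl⟩ := mem_span_insert.1 hr
        change B _ _ = 0
        simp [h5 r hr', hA.self_eq_zero]) (by rintro rfl; exact h6 (zero_mem _))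
      (subset_span (by simp)) (by simp [hs u v, e])
    have h9 : B u y = 0 := orth_apply h7 (subset_span (by simp))
    have h10 : B v y = 0 := orth_apply h7 (subset_span (by simp))
    exact k0 ⟨y, h8, h9, h10, by rintro rfl; simp [hs u v, e] at h10, by rintro rfl; simp [e] at h9,
      by rintro rfl; simp [e, hA.self_eq_zero] at h9⟩

omit [Module.Finite F V] h hc in
theorem sp_index_two [Finite V] (hA : B.IsAlt) (hq : Nat.card F = 2) {n : ℕ}
    (hn : Nat.card V = n ^ 2) (hH : H ≠ ⊤) : n ^ 2 ≤ 2 * H.index + n := by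
  have : Finite F := Nat.finite_of_card_ne_zero (by omega)
  have := Module.Finite.of_finite (R := F) (M := V)
  have := Fintype.ofFinite V
  have h := two_cases hq
  obtain ⟨x, hx⟩ := not_forall.1 (mt (eq_top_of_XS hB hA) hH)
  by_cases hc : ∀ x, x ∉ XS hA H → ∀ w, B w x = 0 → w ∈ Ys hA H x
  · have h1 := qf_add hB h hd hc hx
    have h2 := Nat.le_of_dvd (Nat.pos_of_ne_zero H.index_ne_zero_of_finite)
      (Subgroup.index_dvd_of_le (show H ≤ OQ B (qf hA H) from fun g hg => qf_map hg))
    have h3 := two_mul_zeros (Q := qf hA H)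
    have h4 := sum_sg_sq h h1 hB
    rw [← index_OQ h h1 hA hB, hn] at h3
    rw [hn] at h4
    push_cast at h3 h4
    zify at h2 ⊢
    rcases sq_eq_sq_iff_eq_or_eq_neg.1 h4 with e | e <;> linarith
  · push Not at hc
    obtain ⟨x, hx, w, hw, hw'⟩ := hc
    obtain ⟨ψ, hψ⟩ := exists_addChar F
    have hQ : Nat.card V = Nat.card F ^ 2 * Nat.card F ^ (finrank F V - 2) := by
      rw [Module.natCard_eq_pow_finrank (K := F), ← pow_add]
      congr 1; omega
    obtain ⟨a, ha, ha'⟩ : ∃ a ∈ As hA H ψ x, a ∉ F ∙ x := by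
      by_contra! h
      refine hw' (mem_Ys hB hψ fun a ha => ?_)
      obtain ⟨t, rfl⟩ := mem_span_singleton.1 (h a ha)
      simp [alt_zero hA hw]
    have h1 := key_mx hB hψ hx ha ha' hQ
    have h2 := relIndex_pos (LF hA H x) (R0 B x a)
    have h3 := mx_le (F := F) H x
    rw [show eps F = 1 from if_pos (two_eq_zero_of h)] at h1
    rw [hq] at h1 hQ
    nlinarith

end Cfsg.Agent.Cl.MI
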