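import Mathlib
import Cfsg.Agent.Cl.MinIdxB
import Cfsg.Agent.Cl.MaxSUSub
import Cfsg.Agent.Cl.UCount

/-!
# Minimal index of a proper subgroup of `SU(V)`: tools

Relative orbit counting, additive subgroups isotropic for `ψ ∘ B`, the Chevalley–Warning bound for
anisotropic additive subgroups, diagonal elements, and the intersection of a subgroup `H` with the
radical of a point stabiliser.
-/

set_option autoImplicit false

namespace Cfsg.Agent.Cl.MI.U

open MulAction Module Submodule Pointwise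

variable {F : Type*} [Field F] {σ : F →+* F} {V : Type*} [AddCommGroup V] [Module F V]
  {B : V →ₗ[F] V →ₛₗ[σ] F} {q : ℕ}

theorem corb_le {G : Type*} [Group G] [DistribMulAction G V] [SMulCommClass G F V] [Finite F]
    [Finite V] {K P : Subgroup G} {x : V} (hx : x ≠ 0) {X T : Set V} (hX : X ⊆ corb F P x)
    (hT : corb F (K ⊓ P) x ⊆ T) :
    X.ncard * K.relIndex (pst F G x ⊓ P) ≤ K.relIndex P * T.ncard := by
  have h1 := relIndex_mul_orbit (K := K ⊓ P) inf_le_right (F ∙ x)
  have h2 : (K ⊓ P).relIndex (stabilizer G (F ∙ x) ⊓ P) = K.relIndex (pst F G x ⊓ P) := by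
    rw [← Subgroup.inf_relIndex_right K, ← Subgroup.inf_relIndex_right (K ⊓ P), pst]
    congr 1
    ext g
    simp only [Subgroup.mem_inf]
    tauto
  rw [h2, Subgroup.inf_relIndex_right] at h1
  calc _ ≤ (corb F P x).ncard * K.relIndex (pst F G x ⊓ P) :=
        Nat.mul_le_mul_right _ (Set.ncard_le_ncard hX)
    _ = K.relIndex P * (corb F (K ⊓ P) x).ncard := by
        rw [ncard_corb P hx, ncard_corb _ hx, ← mul_assoc, h1]; ring
    _ ≤ _ := Nat.mul_le_mul_left _ (Set.ncard_le_ncard hT)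

/-- A non-degenerate additive character. -/
def ND (ψ : AddChar F ℂ) : Prop := ∀ a : F, (∀ c, ψ (c * a) = 1) → a = 0

theorem ND.mulShift {ψ : AddChar F ℂ} (h : ND ψ) {l : F} (hl : l ≠ 0) : ND (ψ.mulShift l) :=
  fun a ha => (mul_eq_zero.1 (h (l * a) fun c => by
    simpa [mul_left_comm] using ha c)).resolve_left hl

variable (B) in
/-- The form as a biadditive map. -/
def bU : V →+ V →+ F := LinearMap.toAddMonoidHom'.comp B.toAddMonoidHom

@[simp] theorem bU_apply (u v : V) : bU B u v = B u v := rfl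

variable {ψ : AddChar F ℂ}

theorem nd_right (hB : IsHerm B) (hψ : ND ψ) (u : V) (h : ∀ v, ψ (bU B v u) = 1) : u = 0 :=
  hB.nondeg' u fun v => hψ _ fun c => by simpa using h (c • v)

theorem nd_left (hB : IsHerm B) (hψ : ND ψ) (v : V) (h : ∀ u, ψ (bU B v u) = 1) : v = 0 :=
  hB.nondeg v fun u => hψ _ fun c => by simpa [hB.invol] using h (σ c • u)

theorem card_V (hq : UField σ q) [FiniteDimensional F V] : Nat.card V = q ^ (2 * finrank F V) := by
  rw [Module.natCard_eq_pow_finrank (K := F), hq.card, pow_mul]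

theorem finite_V (hq : UField σ q) [FiniteDimensional F V] : Finite V :=
  have := hq.finite
  Module.finite_of_finite F

theorem ncard_sub (hq : UField σ q) [FiniteDimensional F V] (W : Submodule F V) :
    (W : Set V).ncard = q ^ (2 * finrank F W) := card_V (V := W) hq

/-- Isotropic additive subgroups are small. -/
theorem card_le_of_iso (hB : IsHerm B) (hq : UField σ q) [FiniteDimensional F V] (hψ : ND ψ)
    {Y : AddSubgroup V} (h : ∀ y ∈ Y, ∀ y' ∈ Y, ψ (B y y') = 1) :
    Nat.card Y ≤ q ^ finrank F V ∧ q ^ finrank F V ≤ Y.index := by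
  have := finite_V (V := V) hq
  have h1 := card_ann (nd_right hB hψ) Y
  have h2 : Nat.card Y ≤ Nat.card (ann ψ (bU B) Y) :=
    AddSubgroup.card_le_of_le fun y hy y' hy' => h y hy y' hy'
  have h3 := Y.card_mul_index
  rw [card_V (V := V) hq, two_mul, pow_add] at h1 h3
  have h4 : Nat.card Y ≤ q ^ finrank F V := by
    by_contra! h4
    exact (Nat.mul_lt_mul'' h4 (h4.trans_le h2)).ne' h1
  refine ⟨h4, ?_⟩
  by_contra! h5
  exact (Nat.mul_lt_mul_of_le_of_lt h4 h5 (by omega)).ne h3

/-- Chevalley–Warning: an additive subgroup of order `> q²` contains an isotropic vector. -/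
theorem exists_iso (hB : IsHerm B) (hq : UField σ q) [Finite V] {A : AddSubgroup V}
    (hA : q ^ 2 < Nat.card A) : ∃ a ∈ A, a ≠ 0 ∧ B a a = 0 := by
  classical
  obtain ⟨p, e, hp, hF, -, rfl⟩ := hq.exists_prime_pow
  have := Fact.mk hp
  have := hq.finite
  let _ := ZMod.algebra F p
  let _ : Module (ZMod p) V := Module.compHom V (algebraMap (ZMod p) F)
  have hs : ∀ (x : ZMod p) (v : V), x • v = algebraMap (ZMod p) F x • v := fun _ _ => rfl
  have hσ : ∀ x : ZMod p, σ (algebraMap (ZMod p) F x) = algebraMap (ZMod p) F x := fun x =>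
    RingHom.congr_fun (RingHom.ext_zmod (σ.comp (algebraMap _ F)) (algebraMap _ F)) x
  let A' := AddSubgroup.toZModSubmodule p A
  let S := AddSubgroup.toZModSubmodule p (uFix σ).toAddSubgroup
  have h1 : Nat.card A = p ^ finrank (ZMod p) A' := by
    have := Module.natCard_eq_pow_finrank (K := ZMod p) (V := A')
    rwa [Nat.card_zmod] at this
  have h2 : p ^ e = p ^ finrank (ZMod p) S := by
    have := Module.natCard_eq_pow_finrank (K := ZMod p) (V := S)
    rw [Nat.card_zmod] at this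
    exact hq.card_uFix.symm.trans this
  rw [h1, ← pow_mul, Nat.pow_lt_pow_iff_right hp.one_lt] at hA
  have h3 := Nat.pow_right_injective hp.two_le h2
  let b := finBasis (ZMod p) A'
  let c := finBasis (ZMod p) S
  obtain ⟨π, hπ⟩ := LinearMap.exists_leftInverse_of_injective S.subtype S.ker_subtype
  let f : Fin (finrank (ZMod p) S) → MvPolynomial (Fin (finrank (ZMod p) A')) (ZMod p) := fun j =>
    ∑ i, ∑ l, MvPolynomial.C (c.repr (π (B (b i) (b l))) j) * (MvPolynomial.X i * MvPolynomial.X l)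
  have h4 : ∀ j, (f j).totalDegree ≤ 2 := fun j =>
    MvPolynomial.totalDegree_finsetSum_le fun i _ => MvPolynomial.totalDegree_finsetSum_le
      fun l _ => (MvPolynomial.totalDegree_mul _ _).trans (by
        have := MvPolynomial.totalDegree_mul (MvPolynomial.X (R := ZMod p) i) (MvPolynomial.X l)
        simpa using this)
  have h5 := char_dvd_card_solutions_of_fintype_sum_lt p (f := f) (by
    refine (Finset.sum_le_sum fun j _ => h4 j).trans_lt ?_
    simp; omega)
  have h6 : ∀ x j, MvPolynomial.eval x (f j) =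
      c.repr (π (B (b.equivFun.symm x) (b.equivFun.symm x))) j := fun x j => by
    have : B (b.equivFun.symm x) (b.equivFun.symm x) = ∑ i, ∑ l, (x i * x l) • B (b i) (b l) := by
      simp only [Basis.equivFun_symm_apply, Submodule.coe_sum, Submodule.coe_smul, hs, map_sum,
        LinearMap.sum_apply, map_smulₛₗ, LinearMap.smul_apply, hσ, RingHom.id_apply, smul_eq_mul,
        Algebra.smul_def, map_mul]
      rw [Finset.sum_comm]
      exact Finset.sum_congr rfl fun _ _ => by
        rw [Finset.mul_sum]; exact Finset.sum_congr rfl fun _ _ => by ring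
    rw [this]
    simp only [f, map_sum, map_mul, MvPolynomial.eval_C, MvPolynomial.eval_X, map_smul,
      Finsupp.coe_finsetSum, Finset.sum_apply, Finsupp.smul_apply, smul_eq_mul]
    exact Finset.sum_congr rfl fun _ _ => Finset.sum_congr rfl fun _ _ => mul_comm _ _
  by_contra! h
  have h9 : ∀ x, (∀ j, MvPolynomial.eval x (f j) = 0) → x = 0 := fun x hx => by
    by_contra hx0
    refine h _ (b.equivFun.symm x).2 (by
      rwa [Ne, Submodule.coe_eq_zero, LinearEquiv.map_eq_zero_iff]) ?_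
    have h7 := LinearMap.congr_fun hπ ⟨_, (hB.fixed (b.equivFun.symm x) :)⟩
    have h8 : π (B (b.equivFun.symm x) (b.equivFun.symm x)) = 0 :=
      c.repr.map_eq_zero_iff.1 (Finsupp.ext fun j => (h6 x j).symm.trans (hx j))
    exact congrArg Subtype.val (h7.symm.trans h8)
  rw [Fintype.card_eq_nat_card, Nat.card_eq_one_iff_exists.2
    ⟨⟨0, fun j => by rw [h6]; simp⟩, fun ⟨x, hx⟩ => Subtype.ext (h9 x hx)⟩] at h5
  exact hp.one_lt.ne' (Nat.dvd_one.1 h5)

/-- The diagonal element `e ↦ a e`, `f ↦ (σ a)⁻¹ f`, `r ↦ (σ a / a) r`. -/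
theorem exists_diag (hB : IsHerm B) [FiniteDimensional F V] {e f r : V} (h : UHypPair B e f)
    (hr : B r r ≠ 0) (he : B r e = 0) (hf : B r f = 0) {a : F} (ha : a ≠ 0) :
    ∃ g ∈ USG B, ∀ v, g v = v + ((a - 1) * B v f) • e + (((σ a)⁻¹ - 1) * B v e) • f +
      ((σ a / a - 1) / B r r * B v r) • r := by
  have h0 : σ a ≠ 0 := (map_ne_zero σ).2 ha
  have h1 : σ a / a * σ (σ a / a) = 1 := by rw [map_div₀, hB.invol]; field_simp
  have h2 := hB.uRefl_quasi hr h1
  refine ⟨uHyp B e f a * uRefl B r _, mem_USG'.2 ⟨mul_mem (hB.uHyp_mem h ha) (hB.uRefl_mem h2), ?_⟩,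
    fun v => ?_⟩
  · rw [LinearEquiv.coe_toLinearMap_mul, map_mul, h.det_uHyp ha, hB.det_quasi hr h1]
    field_simp
  · rw [LinearEquiv.mul_apply, h.uHyp_apply ha, h2.apply]
    simp only [map_add, map_smul, LinearMap.add_apply, LinearMap.smul_apply, he, hf]
    module

/-- An isotropic partner orthogonal to a given subspace. -/
theorem exists_pair (hB : IsHerm B) [FiniteDimensional F V] {W : Submodule F V} {z : V}
    (hz : B z z = 0) (h1 : z ∉ W) (h2 : z ∈ uPerp B W) : ∃ w ∈ uPerp B W, UHypPair B z w := by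
  obtain ⟨w, hw, e⟩ := hB.exists_perp_eq_one h1
  obtain ⟨w, hw, e, e'⟩ := hB.exists_mem_partner h2 hw hz (by simp [e])
  exact ⟨w, hw, hB.uHypPair hz e e'⟩

theorem exists_add_iso (hB : IsHerm B) {v a : V} (ha : B a a = 0) (h : B v a ≠ 0) :
    ∃ t : F, B (v + t • a) (v + t • a) = 0 := by
  obtain ⟨s, hs⟩ := hB.exists_trace_eq (a := -B v v) (by rw [map_neg, hB.fixed])
  have h' : B a v ≠ 0 := mt hB.eq_zero_symm h
  refine ⟨s / B a v, ?_⟩
  simp only [map_add, map_smulₛₗ, LinearMap.add_apply, LinearMap.smul_apply, ha, map_div₀, hB.symm,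
    RingHom.id_apply, smul_eq_mul]
  rw [div_mul_cancel₀ _ h', mul_zero, add_zero, div_mul_cancel₀ _ h]
  linear_combination hs

theorem eich_inj (hB : IsHerm B) [FiniteDimensional F V] {y u u' : V} (hy : B y y = 0)
    (hy0 : y ≠ 0) (hu : B u y = 0) (hu' : B u' y = 0) {s s' : F}
    (h : uEich B y u s = uEich B y u' s') : u - u' ∈ F ∙ y := by
  rw [← hB.uPerp_uPerp (F ∙ y)]
  refine mem_uPerp.2 fun v hv => ?_
  have hv' := hB.eq_zero_symm (mem_uPerp_span_singleton.1 hv)
  have := LinearEquiv.congr_fun h v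
  rw [(hB.uEich0 hy hu).apply_of_perp s hv', (hB.uEich0 hy hu').apply_of_perp s' hv',
    add_right_inj] at this
  rw [map_sub, smul_left_injective F hy0 this, sub_self]

section Point

variable (H : Subgroup (V ≃ₗ[F] V))

/-- The parameters `c` of the transvections `uRefl y (c - σ c)` in `H`. -/
def Zs {y : V} (hy : B y y = 0) : AddSubgroup F where
  carrier := {c | uRefl B y (c - σ c) ∈ H}
  zero_mem' := by simp [uRefl_zero_right]
  add_mem' := fun {a b} h h' => by
    have := H.mul_mem h h'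
    rwa [uRefl_mul_of_isotropic hy, show a - σ a + (b - σ b) = a + b - σ (a + b) by
      rw [map_add]; ring] at this
  neg_mem' := fun {a} h => by
    have := H.inv_mem h
    rwa [uRefl_inv_of_isotropic hy, show -(a - σ a) = -a - σ (-a) by rw [map_neg]; ring] at this

/-- The orthogonal complement of a hyperbolic pair. -/
abbrev U0 (B : V →ₗ[F] V →ₛₗ[σ] F) (y y' : V) : Submodule F V := uPerp B (span F {y, y'})

/-- The image of `H ∩ Q_y` in the orthogonal complement of a hyperbolic pair. -/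
def Y0 (hB : IsHerm B) {y : V} (hy : B y y = 0) (y' : V) : AddSubgroup (U0 B y y') :=
  (uYadd hB H hy).comap (U0 B y y').subtype.toAddMonoidHom

variable {H} {y y' : V}

theorem mem_Zs {hy : B y y = 0} {c : F} : c ∈ Zs H hy ↔ uRefl B y (c - σ c) ∈ H := Iff.rfl

theorem mem_Y0 {hB : IsHerm B} {hy : B y y = 0} {u : U0 B y y'} :
    u ∈ Y0 H hB hy y' ↔ u.1 ∈ uYadd hB H hy := Iff.rfl

theorem exists_sub (h : UInvol σ) {c : F} (hc : c + σ c = 0) : ∃ d, d - σ d = c := by
  obtain ⟨b, hb⟩ := h.exists_trace_one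
  exact ⟨c * b, by rw [map_mul]; linear_combination c * hb - σ b * hc⟩

theorem Zs_ne_top (hB : IsHerm B) {hy : B y y = 0} (h : ¬ UTv B H y) : Zs H hy ≠ ⊤ := fun e =>
  h fun c hc => by
    obtain ⟨d, rfl⟩ := exists_sub hB.toUInvol hc
    exact (e ▸ AddSubgroup.mem_top d : d ∈ Zs H hy)

theorem fix_le_Zs (hy : B y y = 0) : (uFix σ).toAddSubgroup ≤ Zs H hy := fun c hc => by
  rw [mem_Zs, show σ c = c from hc, sub_self, uRefl_zero_right]
  exact one_mem _

theorem mem_Zs_of (hB : IsHerm B) {hy : B y y = 0} {u u' : V} (hu : u ∈ uYadd hB H hy)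
    (hu' : u' ∈ uYadd hB H hy) : B u u' ∈ Zs H hy := by
  rw [mem_Zs, hB.symm]
  exact hB.uRefl_mem_of_uYadd hu hu'

theorem exists_char [Finite F] {Z : AddSubgroup F} (h : Z ≠ ⊤) :
    ∃ ψ : AddChar F ℂ, ND ψ ∧ (∀ c ∈ Z, ψ c = 1) ∧
      ((ann ψ AddMonoidHom.mul Z : Set F) \ {0}).ncard = Z.index - 1 := by
  obtain ⟨ψ, hψ⟩ := exists_addChar F
  have k : ∀ ψ : AddChar F ℂ, ND ψ → Nat.card (ann ψ AddMonoidHom.mul Z) = Z.index := fun ψ hψ =>
    Nat.eq_of_mul_eq_mul_left Nat.card_pos ((card_ann (ψ := ψ) (β := AddMonoidHom.mul) hψ _).trans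
      Z.card_mul_index.symm)
  obtain ⟨l, hl, hl0⟩ : ∃ l ∈ ann ψ AddMonoidHom.mul Z, l ≠ 0 := by
    by_contra! h'
    have := k ψ hψ
    rw [show ann ψ AddMonoidHom.mul Z = ⊥ from eq_bot_iff.2 h', AddSubgroup.card_bot] at this
    exact h (AddSubgroup.index_eq_one.1 this.symm)
  refine ⟨ψ.mulShift l, ND.mulShift hψ hl0, hl, ?_⟩
  rw [Set.ncard_sdiff_singleton_of_mem (zero_mem _), ← k _ (ND.mulShift hψ hl0)]
  rfl

variable [FiniteDimensional F V] (hB : IsHerm B) (hq : UField σ q) (h : UHypPair B y y')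
include hB h

theorem U0_disjoint : Disjoint (U0 B y y') (uPerp B (U0 B y y')) :=
  hB.disjoint_uPerp (hB.disjoint_span_pair h.left h.right h.pair)

theorem U0_herm : IsHerm (uRes B (U0 B y y')) := hB.restrict (U0_disjoint hB h)

theorem U0_finrank : finrank F (U0 B y y') = finrank F V - 2 := by
  rw [hB.finrank_uPerp, hB.finrank_span_pair h.left h.right h.pair]

omit [FiniteDimensional F V] h in
theorem U0_left (u : U0 B y y') : B u y = 0 := hB.eq_zero_symm (mem_uPerp_span_pair.1 u.2).1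

omit [FiniteDimensional F V] h in
theorem U0_right (u : U0 B y y') : B u y' = 0 := hB.eq_zero_symm (mem_uPerp_span_pair.1 u.2).2

include hq

theorem al_mul_le : (Y0 H hB h.left y').index * (Zs H h.left).index ≤
    H.relIndex (uEichGroup hB h.left) := by
  have := hq.finite
  have := u_finite_linearEquiv (F := F) (V := V)
  choose s hs using fun u : V => hB.exists_trace_eq (a := -B u u) (by rw [map_neg, hB.fixed])
  have k : ∀ (u : V) (c : F), s u + (c - σ c) + σ (s u + (c - σ c)) + B u u = 0 := fun u c => by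
    rw [map_add, map_sub, hB.invol]; linear_combination hs u
  rw [AddSubgroup.index, AddSubgroup.index, ← Nat.card_prod]
  refine card_le_relIndex (fun p => uEich B y p.1.out.1 (s p.1.out + (p.2.out - σ p.2.out)))
    (fun p => ⟨_, _, U0_left hB _, k _ _, rfl⟩) fun p p' e => ?_
  have h1 := hB.uEich0 h.left (U0_left hB p.1.out)
  have h2 := hB.uEich0 h.left (U0_left hB p'.1.out)
  rw [h1.inv, h1.neg.mul h2] at e
  have h3 : p.1 = p'.1 := by
    rw [← p.1.out_eq, ← p'.1.out_eq]
    refine QuotientAddGroup.eq.2 ⟨(h1.neg.add h2).perp, _, ?_, e⟩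
    have h4 := k p.1.out p.2.out
    have h5 := k p'.1.out p'.2.out
    simp only [map_add, map_sub, map_neg, LinearMap.add_apply, LinearMap.neg_apply, hB.symm,
      LinearMap.toAddMonoidHom_coe, Submodule.subtype_apply] at h4 h5 ⊢
    linear_combination h5 - h4
  refine Prod.ext h3 ?_
  rw [← p.2.out_eq, ← p'.2.out_eq]
  refine QuotientAddGroup.eq.2 (mem_Zs.2 ?_)
  rw [h3, neg_add_cancel, uEich_zero h.left] at e
  convert e using 2
  simp only [map_add, map_neg]
  ring

theorem le_Y0_index (hT : ¬ UTv B H y) : q ^ (finrank F V - 2) ≤ (Y0 H hB h.left y').index := by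
  have := hq.finite
  obtain ⟨ψ, hψ, h1, -⟩ := exists_char (Zs_ne_top (hy := h.left) hB hT)
  rw [← U0_finrank hB h]
  exact (card_le_of_iso (U0_herm hB h) hq hψ fun u hu u' hu' => h1 _ (mem_Zs_of hB hu hu')).2

theorem two_mul_le (hT : ¬ UTv B H y) :
    q ^ (finrank F V - 2) * 2 ≤ H.relIndex (uEichGroup hB h.left) := by
  have := hq.finite
  have h1 : (Zs H h.left).index ≠ 0 := AddSubgroup.index_ne_zero_of_finite
  have h2 := mt AddSubgroup.index_eq_one.1 (Zs_ne_top (hy := h.left) hB hT)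
  exact (Nat.mul_le_mul (le_Y0_index hB hq h hT) (by omega)).trans (al_mul_le hB hq h)

omit h [FiniteDimensional F V] hq in
theorem Q_le {hy : B y y = 0} : uEichGroup hB hy ≤ stabilizer (V ≃ₗ[F] V) y ⊓ USG B := by
  refine le_inf ?_ (hB.uEichGroup_le hy)
  rintro _ ⟨u, s, hu, -, rfl⟩
  exact (hB.uEich0 hy hu).apply_self s

omit h in
/-- The contribution of the torus. -/
theorem stab_le (hn : 3 ≤ finrank F V) (hy0 : y ≠ 0) (hy : B y y = 0) (hT : ¬ UTv B H y) :
    (q - 1) * H.relIndex (stabilizer (V ≃ₗ[F] V) y ⊓ USG B) ≤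
      H.relIndex (pst F (V ≃ₗ[F] V) y ⊓ USG B) * ((Zs H hy).index - 1) := by
  classical
  have := hq.finite
  have := u_finite_linearEquiv (F := F) (V := V)
  have := Fintype.ofFinite F
  obtain ⟨ψ, hψ, h1, h2⟩ := exists_char (Zs_ne_top (hy := hy) hB hT)
  set L := (ann ψ AddMonoidHom.mul (Zs H hy) : Set F) \ {0}
  have h3 := ncard_mul_le (K := H) (P := pst F (V ≃ₗ[F] V) y ⊓ USG B) (x := y)
    (S := (fun b : F => b • y) '' {b | b ≠ 0 ∧ b * σ b ∈ L})
    (T := (fun b : F => b • y) '' {0}ᶜ) (Set.toFinite _) (fun g hg hg' => by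
      obtain ⟨b, hb, e⟩ := mem_pst.1 hg'.1
      refine ⟨b, ⟨hb, fun c hc => h1 _ (mem_Zs.2 ?_), by simp [hb]⟩, e.symm⟩
      have := H.mul_mem (H.mul_mem hg hc) (H.inv_mem hg)
      rw [uRefl_conj hg'.2.1, show g y = b • y from e, uRefl_smul] at this
      convert this using 2
      simp only [AddMonoidHom.mul_apply, map_mul, hB.invol]
      ring)
    (by
      rintro _ ⟨b, hb, rfl⟩
      obtain ⟨g, hg, e⟩ := hB.exists_USG_isotropic hn hy0 hy (smul_ne_zero hb hy0) (by simp [hy])
      exact ⟨g, ⟨mem_pst.2 ⟨b, hb, e⟩, hg⟩, e⟩)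
  have h4 : {b : F | b ≠ 0 ∧ b * σ b ∈ L}.ncard ≤ (q + 1) * L.ncard := by
    rw [Set.ncard_eq_toFinset_card', Set.ncard_eq_toFinset_card']
    refine Finset.card_le_mul_card_image_of_maps_to (f := fun b => b * σ b)
      (fun b hb => by simpa using (Set.mem_toFinset.1 hb).2) _ fun c _ => ?_
    by_cases hc : ∃ b, b ≠ 0 ∧ b * σ b = c
    · obtain ⟨b, hb, rfl⟩ := hc
      rw [← hq.card_norm_eq (a := b * σ b) (by simp [hb]) (hB.norm_fixed b),
        Nat.card_eq_fintype_card, Fintype.card_subtype]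
      exact Finset.card_le_card fun a ha => by simpa using (Finset.mem_filter.1 ha).2
    · rw [Finset.filter_eq_empty_iff.2 fun b hb e => hc ⟨b, (Set.mem_toFinset.1 hb).1, e⟩]
      simp
  rw [ncard_smul_set hy0, ncard_smul_set hy0, Set.ncard_compl, Set.ncard_singleton, ← inf_assoc,
    inf_eq_left.2 (stabilizer_le_pst y), hq.card] at h3
  rw [h2] at h4
  refine Nat.le_of_mul_le_mul_left ?_ (show 0 < q + 1 by omega)
  rw [← mul_assoc, ← Nat.sq_sub_sq, one_pow, mul_left_comm]
  exact h3.trans (Nat.mul_le_mul_left _ h4)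

end Point

end Cfsg.Agent.Cl.MI.U
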