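import Mathlib
import Cfsg.Agent.Cl.MinIdxU
import Cfsg.Agent.Cl.MinIdxSpC
import Cfsg.Agent.Cl.MaxSURat

/-!
# Minimal index of a proper subgroup of `SU(V)`: orbits of isotropic additive subgroups

`lemA`: in dimension at least three, the stabiliser in `SU(V)` of a non-zero additive subgroup `Y`
isotropic for `ψ ∘ B` has index at least `(1 + 1/q) |Y|`.
-/

set_option autoImplicit false

namespace Cfsg.Agent.Cl.MI.U

open MulAction Module Submodule Pointwise

variable {F : Type*} [Field F] {σ : F →+* F} {V : Type*} [AddCommGroup V] [Module F V]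
  {B : V →ₗ[F] V →ₛₗ[σ] F} {q : ℕ} {K : Subgroup (V ≃ₗ[F] V)}

theorem le_uIsoNum (hq : 1 ≤ q) (k : ℕ) : q ^ (k + 1) * (q ^ k - 1) ≤ uIsoNum q (k + 1) := by
  have h1 : 1 ≤ q ^ k := Nat.one_le_pow _ _ hq
  have h2 : q ^ k ≤ q ^ (k + 1) := Nat.pow_le_pow_right hq (by omega)
  rw [uIsoNum, Nat.add_sub_cancel]
  generalize q ^ (k + 1) = b at *
  generalize q ^ k = a at *
  obtain ⟨a, rfl⟩ := Nat.exists_eq_add_of_le' h1
  obtain ⟨b, rfl⟩ := Nat.exists_eq_add_of_le' (h1.trans h2)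
  split_ifs <;> simp only [Nat.add_sub_cancel] <;> nlinarith

theorem form_inv {g : V ≃ₗ[F] V} (hg : g ∈ UG B) (u v : V) : B (g u) v = B u (g⁻¹ v) :=
  UG_apply_left hg u v

variable [FiniteDimensional F V] (hB : IsHerm B) (hq : UField σ q)
include hB

theorem three_iso (h3 : finrank F V = 3) {u v : V} (hu0 : u ≠ 0) (hu : B u u = 0) (hv : B v v = 0)
    (h : B u v = 0) : v ∈ F ∙ u := by
  by_contra h1
  have := hB.two_mul_finrank_le (W := span F {u, v}) (span_le.2 (by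
    rintro _ (rfl | rfl) <;> exact mem_uPerp_span_pair.2 ⟨by simp [*], by simp [*, hB.eq_zero_symm h]⟩))
  rw [finrank_span_pair (li_of_notMem hu0 h1)] at this
  omega

include hq

theorem fix_iso {x : V} (hx0 : x ≠ 0) (hx : B x x = 0) {T : Set V}
    (hT : ∀ g ∈ K, g ∈ USG B → ∀ a : F, a ≠ 0 → a • g x ∈ T) :
    uIsoNum q (finrank F V) * K.relIndex (pst F (V ≃ₗ[F] V) x ⊓ USG B) ≤
      K.relIndex (USG B) * T.ncard := by
  have := hq.finite
  have := finite_V (V := V) hq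
  rw [← hB.card_isotropic hq rfl]
  refine corb_le (X := {v | v ≠ 0 ∧ B v v = 0}) hx0 (fun v hv => ?_) ?_
  · obtain ⟨g, hg, a, ha, e⟩ := hB.exists_USG_isotropic_smul hx0 hx hv.1 hv.2
    exact ⟨g, hg, a⁻¹, inv_ne_zero ha, by rw [show g • x = a • v from e, inv_smul_smul₀ ha]⟩
  · rintro _ ⟨g, hg, a, ha, rfl⟩
    exact hT g hg.1 hg.2 a ha

omit hB [FiniteDimensional F V] in
theorem ncard_pt {x : V} (hx0 : x ≠ 0) :
    (((F ∙ x : Submodule F V) : Set V) \ {0}).ncard = q ^ 2 - 1 := by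
  have := hq.finite
  rw [Set.ncard_sdiff_singleton_of_mem (zero_mem _), ncard_span_single hx0, hq.card]

theorem fix_iso' {x : V} (hx0 : x ≠ 0) (hx : B x x = 0) (h : ∀ g ∈ K, g ∈ USG B → g x ∈ F ∙ x) :
    uIsoNum q (finrank F V) * K.relIndex (pst F (V ≃ₗ[F] V) x ⊓ USG B) ≤
      K.relIndex (USG B) * (q ^ 2 - 1) :=
  ncard_pt hq hx0 ▸ fix_iso hB hq hx0 hx fun g hg hg' _ ha =>
    ⟨smul_mem _ _ (h g hg hg'), smul_ne_zero ha (g.map_ne_zero_iff.2 hx0)⟩

theorem ncard_non : {v | B v v ≠ 0}.ncard = (q - 1) * uUnitNum q (finrank F V) := by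
  have := finite_V (V := V) hq
  have h1 := u_card_total hq hB.fixed
  have h2 := Set.ncard_add_ncard_compl {v | B v v = 0}
  rw [hB.card_norm_one hq rfl] at h1
  exact Nat.add_left_cancel (h2.trans h1)

theorem non_subset (hn : 2 ≤ finrank F V) {x : V} (hx : B x x ≠ 0) :
    {v | B v v ≠ 0} ⊆ corb F (USG B) x := fun v hv => by
  have := hq.finite
  obtain ⟨a, ha⟩ := hB.exists_smul_norm_eq hx (hB.fixed v)
  obtain ⟨g, hg, e⟩ := hB.exists_USG_nonisotropic hn (ha ▸ hv) ha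
  exact ⟨g, hg, a, by rintro rfl; exact hv (by simpa using ha.symm), by
    rw [← e, map_smul]; rfl⟩

theorem fix_non (hn : 2 ≤ finrank F V) {x : V} (hx : B x x ≠ 0)
    (h : ∀ g ∈ K, g ∈ USG B → g x ∈ F ∙ x) :
    uUnitNum q (finrank F V) ≤ K.relIndex (USG B) * (q + 1) := by
  have := hq.finite
  have := finite_V (V := V) hq
  have := u_finite_linearEquiv (F := F) (V := V)
  have hx0 : x ≠ 0 := by rintro rfl; simp at hx
  have h1 := corb_le (K := K) (T := ((F ∙ x : Submodule F V) : Set V) \ {0}) hx0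
    (non_subset hB hq hn hx) (by
      rintro _ ⟨g, hg, a, ha, rfl⟩
      exact ⟨smul_mem _ _ (h g hg.1 hg.2), smul_ne_zero ha (g.map_ne_zero_iff.2 hx0)⟩)
  rw [ncard_pt hq hx0, ncard_non hB hq, ← one_pow 2, Nat.sq_sub_sq, ← mul_assoc] at h1
  have h2 := (Nat.le_mul_of_pos_right _ (relIndex_pos _ _)).trans h1
  rw [mul_comm] at h2
  exact Nat.le_of_mul_le_mul_right h2 (by have := hq.two_le; omega)

section A

variable {ψ : AddChar F ℂ} (hψ : ND ψ) {Y : AddSubgroup V} (hK : K ≤ USG B)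
  (hY : ∀ y ∈ Y, ∀ y' ∈ Y, ψ (B y y') = 1) (hKY : ∀ g ∈ K, ∀ y ∈ Y, g y ∈ Y)
  (hlt : q * K.relIndex (USG B) < (q + 1) * Nat.card Y) {m : ℕ} (hm : finrank F V = m + 3)

include hψ hK hKY hlt hm in
theorem keyA {a : V} (ha : a ∈ ann ψ (bU B) Y) (ha0 : a ≠ 0) (h : B a a = 0) :
    K.relIndex (uEichGroup hB h) * (q ^ (m + 2) - 1) < (q + 1) * q ^ (m + 2) := by
  have := hq.finite
  have := finite_V (V := V) hq
  have := u_finite_linearEquiv (F := F) (V := V)
  have h1 := ncard_mul_le (K := K) (P := USG B) (x := a) (S := ann ψ (bU B) Y)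
    (T := {v | v ≠ 0 ∧ B v v = 0}) (Set.toFinite _) (fun g hg _ y hy => by
      rw [bU_apply, show g • a = g a from rfl, form_inv (hK hg).1]
      exact ha _ (hKY _ (inv_mem hg) _ hy))
    fun v hv => hB.exists_USG_isotropic (by omega) ha0 h hv.1 hv.2
  rw [show {v | v ≠ 0 ∧ B v v = 0}.ncard = _ from hB.card_isotropic hq hm] at h1
  have h2 := (Nat.mul_le_mul (le_uIsoNum (by have := hq.two_le; omega) _)
    (relIndex_mono K (Q_le hB (hy := h)))).trans h1
  have h3 := card_ann (nd_right hB hψ) Y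
  have h4 := Nat.mul_lt_mul_of_pos_right hlt (Nat.card_pos (α := ann ψ (bU B) Y))
  rw [mul_assoc (q + 1), h3, card_V (V := V) hq, hm, mul_assoc] at h4
  have h5 := (Nat.mul_le_mul_left q h2).trans_lt h4
  refine Nat.lt_of_mul_lt_mul_left (a := q * q ^ (m + 3)) ?_
  calc _ = _ := by ring
    _ < _ := h5
    _ = _ := by ring

include hψ hK hKY hlt hm in
theorem uTv_of_A {a : V} (ha : a ∈ ann ψ (bU B) Y) (h : B a a = 0) : UTv B K a := by
  rcases eq_or_ne a 0 with rfl | ha0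
  · exact fun c _ => by rw [uRefl_zero_left]; exact one_mem _
  by_contra hT
  obtain ⟨a', h'⟩ := hB.exists_uHypPair ha0 h
  have h1 := (Nat.mul_le_mul_right _ (two_mul_le hB hq h' hT)).trans_lt
    (keyA hB hq hψ hK hKY hlt hm ha ha0 h)
  have h2 := hq.two_le
  have h3 : q ^ 2 ≤ q ^ (m + 2) := Nat.pow_le_pow_right (by omega) (by omega)
  rw [hm, show m + 3 - 2 = m + 1 from rfl, mul_assoc, show (q + 1) * q ^ (m + 2) =
    q ^ (m + 1) * ((q + 1) * q) by ring] at h1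
  have h4 := Nat.lt_of_mul_lt_mul_left h1
  generalize q ^ (m + 2) = t at *
  obtain ⟨t, rfl⟩ := Nat.exists_eq_add_of_le' (show 1 ≤ t by nlinarith)
  rw [Nat.add_sub_cancel] at h4
  nlinarith

include hψ hY hKY in
theorem le_relIndex_Q {a y : V} (ha0 : a ≠ 0) (h : B a a = 0) (hy : y ∈ Y) (hb : B y a ≠ 0) :
    q ^ (finrank F V - 2) ≤ K.relIndex (uEichGroup hB h) := by
  have := hq.finite
  obtain ⟨a', h'⟩ := hB.exists_uHypPair ha0 h
  refine le_trans ?_ ((Nat.le_mul_of_pos_right _ (Nat.pos_of_ne_zero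
    AddSubgroup.index_ne_zero_of_finite)).trans (al_mul_le hB hq h'))
  have k : ∀ u ∈ uYadd hB K h, ∃ t : F, t • a - B y a • u ∈ Y := fun u ⟨hu, s, _, e⟩ => by
    have := sub_mem (hKY _ e y hy) hy
    rw [(hB.uEich0 h hu).apply] at this
    exact ⟨B y u + s * B y a, by convert this using 1; module⟩
  rw [← U0_finrank hB h']
  refine (card_le_of_iso (U0_herm hB h') hq (hψ.mulShift (l := B y a * σ (B y a)) (by simp [hb]))
    fun u hu u' hu' => ?_).2
  obtain ⟨t, e⟩ := k _ hu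
  obtain ⟨t', e'⟩ := k _ hu'
  convert hY _ e _ e' using 1
  simp [h, U0_left hB u, hB.eq_zero_symm (U0_left hB u'), uRes_apply, mul_assoc]

include hψ hK hY hKY hlt hm in
theorem perp_big (h1 : 1 ≤ m) {a y : V} (ha : a ∈ ann ψ (bU B) Y) (h : B a a = 0) (hy : y ∈ Y) :
    B y a = 0 := by
  by_contra hb
  have ha0 : a ≠ 0 := by rintro rfl; simp at hb
  have h2 := (Nat.mul_le_mul_right _ (le_relIndex_Q hB hq hψ hY hKY ha0 h hy hb)).trans_lt
    (keyA hB hq hψ hK hKY hlt hm ha ha0 h)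
  have h3 : q ^ 3 ≤ q ^ (m + 2) := Nat.pow_le_pow_right (by have := hq.two_le; omega) (by omega)
  rw [hm, show m + 3 - 2 = m + 1 from rfl, show (q + 1) * q ^ (m + 2) =
    q ^ (m + 1) * ((q + 1) * q) by ring] at h2
  have h4 := Nat.lt_of_mul_lt_mul_left h2
  have h5 := hq.two_le
  have : q ^ 3 = q * q * q := by ring
  have : 2 * (q * q) ≤ q * q * q := by nlinarith
  have : 2 * q ≤ q * q := by nlinarith
  have : (q + 1) * q = q * q + q := by ring
  omega

include hψ hK hY hKY hlt in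
theorem perp_three (hm : finrank F V = 3) {a y : V} (ha : a ∈ ann ψ (bU B) Y) (h : B a a = 0)
    (hy : y ∈ Y) : B y a = 0 := by
  have := hq.finite
  have := u_finite_linearEquiv (F := F) (V := V)
  by_contra hb
  have hq2 := hq.two_le
  have hj := (card_le_of_iso hB hq hψ hY).1
  rw [hm] at hj
  obtain ⟨θ, hθ0, hθ⟩ := hB.exists_trace_zero
  let D : Set V := {v | v ≠ 0 ∧ B v v = 0 ∧ ∀ t, σ t = t → t • v ∈ Y}
  have d1 : ∀ v ∈ D, v ∈ Y := fun v hv => by simpa using hv.2.2 1 (map_one σ)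
  have d2 : ∀ g ∈ K, ∀ v ∈ D, g v ∈ D := fun g hg v hv => ⟨g.map_ne_zero_iff.2 hv.1,
    by rw [USG_map (hK hg), hv.2.1], fun t ht => by rw [← map_smul]; exact hKY g hg _ (hv.2.2 t ht)⟩
  have d3 : ∀ a ∈ ann ψ (bU B) Y, B a a = 0 → ∀ w ∈ Y, B w a ≠ 0 → (θ * B w a) • a ∈ D :=
    fun a ha h w hw hb => ⟨smul_ne_zero (mul_ne_zero hθ0 hb) (by rintro rfl; simp at hb),
      by simp [h], fun t ht => by
        have := sub_mem (hKY _ (uTv_of_A hB hq hψ hK hKY hlt (m := 0) hm ha h (t * θ)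
          (by rw [map_mul, ht, hθ]; ring)) w hw) hw
        rwa [uRefl_apply_of_isotropic h, add_sub_cancel_left, mul_assoc, mul_smul] at this⟩
  have d4 : ∀ u ∈ D, ∀ v ∈ D, v ∉ F ∙ u → B u v ≠ 0 ∧ B v u = -B u v := fun u hu v hv hn => by
    have h1 := mt (three_iso hB hm hu.1 hu.2.1 hv.2.1) hn
    refine ⟨h1, by_contra fun h2 => h1 (hB.eq_zero_symm (hψ _ fun c => ?_))⟩
    obtain ⟨α, hα, β, hβ, rfl⟩ := hB.exists_decomp (θ := θ * B u v) (fun e => h2 (by
      rw [map_mul, hθ, hB.symm] at e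
      exact mul_left_cancel₀ hθ0 (by linear_combination -e))) c
    have h3 := add_mem (hv.2.2 α hα) ((d3 v (fun w hw => hY v (d1 v hv) w hw) hv.2.1 u (d1 u hu)
      h1).2.2 β hβ)
    rw [smul_smul, ← add_smul, mul_comm β] at h3
    simpa using hY _ h3 u (d1 u hu)
  have ha0 : a ≠ 0 := by rintro rfl; simp at hb
  obtain ⟨a₁, h1, h2⟩ : ∃ a₁ ∈ D, F ∙ a₁ = F ∙ a :=
    ⟨_, d3 a ha h y hy hb, span_singleton_smul_eq (mul_ne_zero hθ0 hb).isUnit _⟩
  by_cases h3 : ∀ v ∈ D, v ∈ F ∙ a₁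
  · have h4 := fix_iso' (K := K) hB hq ha0 h fun g hg _ => by
      obtain ⟨t, rfl⟩ := mem_span_singleton.1 (h2 ▸ mem_span_singleton_self a : a ∈ F ∙ a₁)
      rw [map_smul, ← h2]
      exact smul_mem _ _ (h3 _ (d2 g hg _ h1))
    have h5 := (le_relIndex_Q hB hq hψ hY hKY ha0 h hy hb).trans (relIndex_mono K
      ((Q_le hB).trans (inf_le_inf_right _ (stabilizer_le_pst (F := F) a))))
    rw [hm, uIsoNum_three, mul_right_comm] at h4
    have h6 := Nat.le_of_mul_le_mul_right h4 (Nat.sub_pos_of_lt (by nlinarith))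
    rw [hm, pow_one] at h5
    have h7 := Nat.mul_le_mul_left (q ^ 3 + 1) (hq2.trans h5)
    nlinarith
  push Not at h3
  obtain ⟨b, h4, h5⟩ := h3
  have h6 := finrank_span_pair (li_of_notMem h1.1 h5)
  by_cases h7 : ∀ v ∈ D, v ∈ span F {a₁, b}
  · have h8 : finrank F (uPerp B (span F {a₁, b})) = 1 := by rw [hB.finrank_uPerp, h6, hm]
    obtain ⟨r, hr, hr0⟩ := exists_notMem_of_finrank_lt (U := ⊥) (A := uPerp B (span F {a₁, b}))
      (by rw [h8, finrank_bot]; omega)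
    have h9 : F ∙ r = uPerp B (span F {a₁, b}) := eq_of_le_of_finrank_eq
      ((span_singleton_le_iff_mem _ _).2 hr) (by rw [h8, finrank_span_singleton hr0])
    have h10 := fix_non (K := K) hB hq (by omega) (x := r) (fun e => by
      obtain ⟨t, rfl⟩ := mem_span_singleton.1
        (three_iso hB hm h1.1 h1.2.1 e (mem_uPerp_span_pair.1 hr).1)
      have := (mem_uPerp_span_pair.1 hr).2
      rw [map_smulₛₗ, (d4 _ h1 _ h4 h5).2, smul_eq_zero, neg_eq_zero, map_eq_zero] at this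
      exact hr0 (by simp [this.resolve_right (d4 _ h1 _ h4 h5).1])) fun g hg hg' => by
        have k : ∀ v ∈ D, B v (g r) = 0 := fun v hv => hB.eq_zero_symm (by
          rw [form_inv hg'.1]
          exact hB.eq_zero_symm (mem_uPerp.1 hr _ (h7 _ (d2 _ (inv_mem hg) _ hv))))
        exact h9 ▸ mem_uPerp_span_pair.2 ⟨k _ h1, k _ h4⟩
    rw [hm, uUnitNum, if_neg (by decide)] at h10
    have h11 : K.relIndex (USG B) < (q + 1) * q ^ 2 :=
      Nat.lt_of_mul_lt_mul_left (a := q) (by nlinarith)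
    have h12 : q ^ 2 * (q ^ 3 + 1) < q ^ 2 * ((q + 1) * (q + 1)) :=
      (h10.trans_lt (Nat.mul_lt_mul_of_pos_right h11 (by omega))).trans_eq (by ring)
    have h13 := Nat.lt_of_mul_lt_mul_left h12
    nlinarith [Nat.mul_le_mul hq2 (Nat.mul_le_mul hq2 hq2), Nat.mul_le_mul hq2 (le_refl (q * q)),
      Nat.mul_le_mul hq2 (le_refl q)]
  push Not at h7
  obtain ⟨c, h8, h9⟩ := h7
  have h10 := d4 _ h1 _ h4 h5
  have h11 := d4 _ h1 _ h8 fun e => h9 (span_mono (by simp) e)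
  have h12 := d4 _ h4 _ h8 fun e => h9 (span_mono (by simp) e)
  have h13 : span F (insert c {a₁, b}) = ⊤ := eq_top_of_finrank_eq (le_antisymm (finrank_le _) (by
    have := finrank_lt_finrank_of_lt (s := span F {a₁, b}) (t := span F (insert c {a₁, b}))
      (lt_of_le_of_ne (span_mono (by simp)) fun e => h9 (e ▸ subset_span (by simp)))
    omega))
  have h14 : B b c • a₁ + B c a₁ • b + B a₁ b • c = 0 := hB.nondeg' _ fun v => by
    refine (mem_uPerp (W := span F (insert c {a₁, b}))).1 (mem_uPerp_span.2 ?_) v (h13 ▸ mem_top)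
    rintro _ (rfl | rfl | rfl) <;> refine hB.eq_zero_symm ?_ <;>
      simp [h1.2.1, h4.2.1, h8.2.1, h10.2, h11.2, h12.2, mul_comm]
  refine h9 ((smul_mem_iff _ h10.1).1 ?_)
  rw [eq_neg_of_add_eq_zero_right h14]
  exact neg_mem (mem_span_pair.2 ⟨_, _, rfl⟩)

include hψ hK hY hKY hlt hm in
theorem exists_perp_A (hY0 : Y ≠ ⊥) : ∃ w, w ≠ 0 ∧ ∀ a ∈ ann ψ (bU B) Y, B a w = 0 := by
  have := finite_V (V := V) hq
  have k : ∀ a ∈ ann ψ (bU B) Y, B a a = 0 → ∀ y ∈ Y, B a y = 0 := fun a ha h y hy => by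
    refine hB.eq_zero_symm ?_
    rcases m with _ | m
    · exact perp_three hB hq hψ hK hY hKY hlt hm ha h hy
    · exact perp_big hB hq hψ hK hY hKY hlt hm (by omega) ha h hy
  have k' : ∀ a ∈ ann ψ (bU B) Y, B a a = 0 → ∀ t : F, t • a ∈ ann ψ (bU B) Y :=
    fun a ha h t y hy => by simp [k a ha h y hy]
  obtain ⟨a, ha, ha0, h⟩ := exists_iso hB hq (A := ann ψ (bU B) Y) (by
    have h1 := card_ann (nd_right hB hψ) Y
    rw [← Y.card_mul_index, Nat.mul_right_inj Nat.card_pos.ne'] at h1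
    rw [h1]
    exact (Nat.pow_lt_pow_right hq.two_le (by omega)).trans_le (card_le_of_iso hB hq hψ hY).2)
  by_cases h1 : ∀ v ∈ ann ψ (bU B) Y, B v a = 0
  · exact ⟨a, ha0, h1⟩
  push Not at h1
  obtain ⟨v, hv, h1⟩ := h1
  obtain ⟨y, hy, hy0⟩ := (AddSubgroup.bot_or_exists_ne_zero Y).resolve_left hY0
  have k2 : ∀ v ∈ ann ψ (bU B) Y, B v a ≠ 0 → B v y = 0 := fun v hv h1 => by
    obtain ⟨t, ht⟩ := exists_add_iso hB h h1
    simpa [k a ha h y hy] using k _ (add_mem hv (k' a ha h t)) ht y hy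
  refine ⟨y, hy0, fun w hw => by_contra fun h2 => h2 (k2 w hw fun h3 => h2 ?_)⟩
  simpa [k2 v hv h1] using k2 _ (add_mem hw hv) (by simpa [h3])

omit hq in
theorem succ_le_mx [Finite F] (hq : UField σ q) {W : Submodule F V} (hW : W ≤ uPerp B W)
    (hKW : ∀ g ∈ K, ∀ w ∈ W, g w ∈ W) {a b : V} (ha : a ∈ W) (hb : b ∈ W) (h : b ∉ F ∙ a) :
    q + 1 ≤ K.relIndex (pst F (V ≃ₗ[F] V) a ⊓ USG B) := by
  have := u_finite_linearEquiv (F := F) (V := V)
  have k : ∀ u ∈ W, ∀ v ∈ W, B u v = 0 := fun u hu v hv => mem_uPerp.1 (hW hv) u hu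
  obtain ⟨b', h1, h2⟩ := exists_pair hB (k b hb b hb) h (mem_uPerp_span_singleton.2 (k a ha b hb))
  rw [mem_uPerp_span_singleton] at h1
  obtain ⟨θ, hθ0, hθ⟩ := hB.exists_trace_zero
  have t1 : ∀ z c, B z z = 0 → B a z = 0 → c + σ c = 0 →
      uRefl B z c ∈ pst F (V ≃ₗ[F] V) a ⊓ USG B := fun z c h1 h2 h3 =>
    ⟨stabilizer_le_pst a (uRefl_apply_of_perp c h2), hB.uRefl_mem_USG h1 h3⟩
  let f : Option {c : F // c + σ c = 0} → V ≃ₗ[F] V := fun o =>
    o.elim (uRefl B b (-θ⁻¹) * uRefl B b' θ) fun c => uRefl B b' c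
  have f1 : ∀ o, f o ∈ pst F (V ≃ₗ[F] V) a ⊓ USG B := by
    rintro (_ | c)
    · exact mul_mem (t1 _ _ h2.left (k a ha b hb) (by simp [hθ])) (t1 _ _ h2.right h1 (by simp [hθ]))
    · exact t1 _ _ h2.right h1 c.2
  have f2 : f none b = θ • b' := by
    simp [f, uRefl_apply_of_isotropic h2.left, uRefl_apply_of_isotropic h2.right, h2.left, h2.pair,
      h2.pair', hθ0]
  have f3 : ∀ c, f (some c) b = b + c.1 • b' := fun c => by
    simp [f, uRefl_apply_of_isotropic h2.right, h2.pair]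
  have := Fintype.ofFinite {c : F // c + σ c = 0}
  rw [← hq.card_trace_zero, Nat.card_eq_fintype_card, ← Fintype.card_option,
    ← Nat.card_eq_fintype_card]
  refine card_le_relIndex f f1 fun o o' e => ?_
  have h3 : B (f o b) (f o' b) = 0 := (form_inv (f1 o).2.1 _ _).trans (k _ hb _ (hKW _ e b hb))
  rcases o with _ | c <;> rcases o' with _ | c' <;>
    simp [f2, f3, h2.left, h2.right, h2.pair, h2.pair', hθ0] at h3 ⊢
  exact Subtype.ext (by linear_combination h3 - c'.2)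

end A

/-- The orbit of a non-zero isotropic additive subgroup is long. -/
theorem lemA (hn : 3 ≤ finrank F V) (hK : K ≤ USG B) {ψ : AddChar F ℂ} (hψ : ND ψ)
    {Y : AddSubgroup V} (hY0 : Y ≠ ⊥) (hY : ∀ y ∈ Y, ∀ y' ∈ Y, ψ (B y y') = 1)
    (hKY : ∀ g ∈ K, ∀ y ∈ Y, g y ∈ Y) : (q + 1) * Nat.card Y ≤ q * K.relIndex (USG B) := by
  have := hq.finite
  have := finite_V (V := V) hq
  have := u_finite_linearEquiv (F := F) (V := V)
  have hq2 := hq.two_le
  by_contra! hlt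
  obtain ⟨m, hm⟩ := Nat.exists_eq_add_of_le' hn
  obtain ⟨a, ha0, ha⟩ := exists_perp_A hB hq hψ hK hY hKY hlt hm hY0
  let W := uPerp B (span F (ann ψ (bU B) Y : Set V))
  have w1 : ∀ w, w ∈ W ↔ ∀ a ∈ ann ψ (bU B) Y, B a w = 0 := fun w => mem_uPerp_span
  have w2 : ∀ w ∈ W, w ∈ Y := fun w hw =>
    mem_of_ann (nd_right hB hψ) (nd_left hB hψ) ((w1 w).1 hw)
  have w3 : ∀ y ∈ Y, y ∈ uPerp B W := fun y hy => hB.mem_uPerp'.2 fun w hw =>
    (w1 w).1 hw y (hY y hy)
  have w4 : W ≤ uPerp B W := fun w hw => w3 w (w2 w hw)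
  have w5 : ∀ g ∈ K, ∀ w ∈ W, g w ∈ W := fun g hg w hw => (w1 _).2 fun a ha => by
    rw [UG_apply_right (hK hg).1]
    refine (w1 w).1 hw _ fun y hy => ?_
    rw [bU_apply, ← UG_apply_right (hK hg).1]
    exact ha _ (hKY g hg y hy)
  replace ha := (w1 a).2 ha
  have haa : B a a = 0 := mem_uPerp.1 (w4 ha) a ha
  have h1 := fix_iso (K := K) hB hq ha0 haa (T := (W : Set V) \ {0}) fun g hg _ t ht =>
    ⟨smul_mem _ _ (w5 g hg a ha), smul_ne_zero ht (g.map_ne_zero_iff.2 ha0)⟩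
  rw [Set.ncard_sdiff_singleton_of_mem (zero_mem _), ncard_sub hq, hm] at h1
  have h2 := hB.two_mul_finrank_le w4
  have h3 : 1 ≤ finrank F W := Nat.pos_of_ne_zero fun e => ha0 (finrank_eq_zero.1 e ▸ ha :)
  have h4 := (card_le_of_iso hB hq hψ hY).1
  have h5 := relIndex_pos K (pst F (V ≃ₗ[F] V) a ⊓ USG B)
  have h6 : K.relIndex (USG B) < (q + 1) * q ^ (m + 2) := Nat.lt_of_mul_lt_mul_left (a := q)
    ((hlt.trans_le (Nat.mul_le_mul_left _ h4)).trans_eq (by rw [hm]; ring))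
  have h7 : ∀ n, 1 ≤ n → 0 < q ^ n - 1 := fun n hn =>
    Nat.sub_pos_of_lt (Nat.one_lt_pow (by omega) (by omega))
  rcases (show 2 * finrank F W = m + 3 ∨ 2 * finrank F W = m + 2 ∨ 2 * finrank F W ≤ m + 1 by
    omega) with h | h | h
  · obtain ⟨b, hb, hb'⟩ := exists_notMem_of_finrank_lt (U := F ∙ a) (A := W) (by
      have := finrank_span_single_le (F := F) a; omega)
    rw [h, uIsoNum, if_pos ⟨finrank F W, by omega⟩, mul_assoc, mul_comm] at h1
    have h8 := (Nat.mul_le_mul_left _ (succ_le_mx hB hq w4 w5 ha hb hb')).trans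
      (Nat.le_of_mul_le_mul_right h1 (h7 _ (by omega)))
    rw [show m + 3 - 1 = m + 2 from rfl] at h8
    nlinarith
  · rw [h, uIsoNum, if_neg (by rw [Nat.even_iff]; omega), mul_right_comm] at h1
    have h8 := (Nat.le_of_mul_le_mul_right h1 (h7 _ (by omega))).trans_lt h6
    have h9 : pst F (V ≃ₗ[F] V) a ⊓ USG B ≤ K := Subgroup.relIndex_eq_one.1 (by
      by_contra h9
      have := Nat.mul_le_mul_left (q ^ (m + 3) + 1)
        (show 2 ≤ K.relIndex (pst F (V ≃ₗ[F] V) a ⊓ USG B) by omega)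
      rw [pow_succ q (m + 2)] at this h8
      nlinarith [Nat.mul_le_mul_left (q ^ (m + 2)) hq2])
    obtain ⟨y, hy, hy'⟩ : ∃ y ∈ Y, y ∉ W := by
      by_contra! h10
      have h11 := Set.ncard_le_ncard (s := (Y : Set V)) (t := W) h10
      rw [ncard_sub hq, h] at h11
      have h12 := (Nat.mul_le_mul_left q ((Nat.le_mul_of_pos_right _ h5).trans
        (Nat.le_of_mul_le_mul_right h1 (h7 _ (by omega))))).trans_lt
        (hlt.trans_le (Nat.mul_le_mul_left _ h11))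
      rw [pow_succ q (m + 2)] at h12
      nlinarith [Nat.mul_le_mul_left (q ^ (m + 2)) (show q + 1 ≤ q * q by nlinarith)]
    have h10 : B y y ≠ 0 := fun e => by
      have h11 : W ⊔ F ∙ y ≤ uPerp B (W ⊔ F ∙ y) := by
        rw [uPerp_sup]
        exact sup_le (le_inf w4 (hB.le_uPerp_comm.1 ((span_singleton_le_iff_mem _ _).2 (w3 y hy))))
          ((span_singleton_le_iff_mem _ _).2 ⟨w3 y hy, mem_uPerp_span_singleton.2 e⟩)
      have h12 := hB.two_mul_finrank_le h11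
      have h13 := finrank_lt_finrank_of_lt (s := W) (t := W ⊔ F ∙ y) (left_lt_sup.2 fun e =>
        hy' (e (mem_span_singleton_self y)))
      omega
    have h11 : B a y = 0 := mem_uPerp.1 (w3 y hy) a ha
    obtain ⟨a', h12, h13⟩ := exists_pair hB haa (W := F ∙ y) (fun e => by
      obtain ⟨t, rfl⟩ := mem_span_singleton.1 e
      exact ha0 (by simp [show t = 0 by simpa [h10] using h11])) (mem_uPerp_span_singleton.2 (hB.eq_zero_symm h11))
    let Λ : AddSubgroup F := Y.comap (LinearMap.toSpanSingleton F V y).toAddMonoidHom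
    have h14 : Nat.card Λ * Nat.card Λ ≤ q ^ 2 := by
      rw [← hq.card, ← card_ann (ψ := ψ.mulShift (B y y)) (β := AddMonoidHom.mul.compl₂ σ.toAddMonoidHom)
        (fun u hu => (map_eq_zero σ).1 (hψ.mulShift h10 _ hu)) Λ]
      refine Nat.mul_le_mul_left _ (AddSubgroup.card_le_of_le fun c hc d hd => ?_)
      simpa [mul_comm, mul_left_comm, mul_assoc] using hY _ hc _ hd
    have h15 : q + 1 ≤ Nat.card Λ := by
      rw [← hq.card_norm_eq one_ne_zero (map_one σ)]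
      refine Set.ncard_le_ncard (s := {x : F | x * σ x = 1}) (t := Λ) fun μ hμ => ?_
      obtain ⟨b, hb, rfl⟩ := hB.hilbert90 hμ
      obtain ⟨g, hg, e⟩ := exists_diag hB h13 h10 (hB.eq_zero_symm h11)
        (mem_uPerp_span_singleton.1 h12) (a := σ b) (by simpa)
      have h16 := hKY g (h9 ⟨mem_pst_of_eq ha0 (a := σ b) (by
        simp [e, haa, h13.pair, h11, sub_smul]), hg⟩) y hy
      rw [e, hB.eq_zero_symm h11, mem_uPerp_span_singleton.1 h12, div_mul_cancel₀ _ h10,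
        hB.invol] at h16
      simpa [Λ, sub_smul, div_eq_mul_inv] using h16
    nlinarith
  · have h8 : q ^ (2 * finrank F W) - 1 ≤ q ^ (m + 1) :=
      (Nat.sub_le _ _).trans (Nat.pow_le_pow_right (by omega) h)
    have h9 := ((le_uIsoNum (by omega) _).trans (Nat.le_mul_of_pos_right _ h5)).trans
      (h1.trans (Nat.mul_le_mul_left _ h8))
    have h10 := h9.trans_lt (Nat.mul_lt_mul_of_pos_right h6 (by positivity))
    rw [show (q + 1) * q ^ (m + 2) * q ^ (m + 1) = q ^ (m + 3) * ((q + 1) * q ^ m) by ring] at h10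
    have h11 := Nat.lt_of_mul_lt_mul_left h10
    have h12 : 1 ≤ q ^ m := Nat.one_le_pow _ _ (by omega)
    rw [pow_add] at h11
    have := Nat.mul_le_mul_left (q ^ m) (show q + 2 ≤ q ^ 2 by nlinarith)
    rw [mul_add] at this
    rw [add_mul, mul_comm q] at h11
    omega

end Cfsg.Agent.Cl.MI.U
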