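import Mathlib
import Cfsg.Agent.Cl.MinIdxUA

/-!
# Minimal index of a proper subgroup of `SU(V)`, `dim V ≥ 5`: the local analysis

If `[SU(V) : H] < (q + 1) q ^ (2 n - 4)` and `H` does not contain the transvection group of the
isotropic point `y`, then `H_y` is a complement to the radical `Q_y` (`good`), and every totally
isotropic line through `y` has exactly one point whose transvection group lies in `H`.
-/

set_option autoImplicit false

namespace Cfsg.Agent.Cl.MI.U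

open MulAction Module Submodule Pointwise

variable {F : Type*} [Field F] {σ : F →+* F} {V : Type*} [AddCommGroup V] [Module F V]
  {B : V →ₗ[F] V →ₛₗ[σ] F} {q : ℕ} {H : Subgroup (V ≃ₗ[F] V)}

/-- `H_y` is a complement to the radical in the stabiliser of the point `y`. -/
structure Good (hB : IsHerm B) (H : Subgroup (V ≃ₗ[F] V)) {y : V} (hy : B y y = 0) : Prop where
  inj : ∀ r ∈ uEichGroup hB hy, r ∈ H → r = 1
  lift : ∀ g ∈ USG B, ∀ a : F, a ≠ 0 → g y = a • y → ∃ r ∈ uEichGroup hB hy, r * g ∈ H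

theorem Q_apply (hB : IsHerm B) {y v : V} {hy : B y y = 0} {r : V ≃ₗ[F] V}
    (hr : r ∈ uEichGroup hB hy) (hv : B v y = 0) : ∃ t : F, r v = v + t • y := by
  obtain ⟨u, s, hu, -, rfl⟩ := hr
  exact ⟨_, (hB.uEich0 hy hu).apply_of_perp s hv⟩

theorem Q_normal (hB : IsHerm B) {y : V} (hy : B y y = 0) :
    ∀ g ∈ pst F (V ≃ₗ[F] V) y ⊓ USG B, ∀ r ∈ uEichGroup hB hy, g * r * g⁻¹ ∈ uEichGroup hB hy :=
  fun _ hg _ hr => let ⟨_, _, e⟩ := mem_pst.1 hg.1; hB.conj_mem_uEichGroup hy hg.2.1 e hr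

variable (B) in
/-- The elements of the centre of the radical of the stabiliser of the line `⟨y, z⟩`. -/
noncomputable def Zl (y z : V) (s l c : F) : V ≃ₗ[F] V := uEich B y (l • z) s * uRefl B z c

section Zl

variable (hB : IsHerm B) {y z : V} (hy : B y y = 0) (hz : B z z = 0) (hzy : B z y = 0)
include hB hy hz hzy

theorem Zl_apply (s l c : F) (v : V) :
    Zl B y z s l c v = v + (s * B v y + σ l * B v z) • y + (c * B v z - l * B v y) • z := by
  rw [Zl, LinearEquiv.mul_apply, (hB.uEich0 hy (by simp [hzy])).apply, uRefl_apply_of_isotropic hz]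
  simp only [map_add, map_smulₛₗ, LinearMap.add_apply, LinearMap.smul_apply, hz, hzy,
    RingHom.id_apply]
  module

theorem Zl_mul (s l c s' l' c' : F) :
    Zl B y z s l c * Zl B y z s' l' c' = Zl B y z (s + s') (l + l') (c + c') := by
  ext v
  simp only [LinearEquiv.mul_apply, Zl_apply hB hy hz hzy, map_add, map_smulₛₗ,
    LinearMap.add_apply, LinearMap.smul_apply, hz, hzy, hy, hB.eq_zero_symm hzy, RingHom.id_apply]
  module

theorem uRefl_eq_Zl (a b c : F) (hc : c + σ c = 0) : uRefl B (a • y + b • z) c =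
    Zl B y z (a * σ a * c) (-(σ a * c * b)) (b * σ b * c) := by
  ext v
  rw [uRefl_apply_of_isotropic (by simp [hy, hz, hzy, hB.eq_zero_symm hzy]), Zl_apply hB hy hz hzy]
  simp only [map_add, map_smulₛₗ, map_neg, map_mul, hB.invol, eq_neg_of_add_eq_zero_right hc]
  module

omit hz in
theorem Zl_mem (hz : B z z = 0) {s : F} (hs : s + σ s = 0) (l : F) :
    uEich B y (l • z) s ∈ uEichGroup hB hy := ⟨l • z, s, by simp [hzy], by simp [hz, hs], rfl⟩

variable [FiniteDimensional F V]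

theorem Good.uniq (h : Good hB H hy) (hy0 : y ≠ 0) (hn : z ∉ F ∙ y) {s l c s' l' : F}
    (hs : s + σ s = 0) (hs' : s' + σ s' = 0) (h1 : Zl B y z s l c ∈ H) (h2 : Zl B y z s' l' c ∈ H) :
    s = s' ∧ l = l' := by
  have h3 := Zl_mul hB hy hz hzy (s - s') (l - l') 0 s' l' c
  rw [sub_add_cancel, sub_add_cancel, zero_add] at h3
  rw [← h3, H.mul_mem_cancel_right h2, Zl, uRefl_zero_right, mul_one] at h1
  have h4 := h.inj _ (Zl_mem hB hy hzy hz (by rw [map_sub]; linear_combination hs - hs') _) h1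
  have h5 := eich_inj hB hy hy0 (by simp [hzy]) (by simp) (h4.trans (uEich_zero_zero hy).symm)
  have h6 : l - l' = 0 := by_contra fun e => hn ((smul_mem_iff _ e).1 (by simpa using h5))
  rw [h6, zero_smul, uEich_zero hy, hB.uRefl_eq_one_iff hy0 (by simp [hy])] at h4
  exact ⟨sub_eq_zero.1 h4, sub_eq_zero.1 h6⟩

theorem Good.uniq_X (h : Good hB H hy) (hy0 : y ≠ 0) (hn : z ∉ F ∙ y) {a : F} (h1 : UTv B H z)
    (h2 : UTv B H (z + a • y)) : a = 0 := by
  obtain ⟨θ, hθ0, hθ⟩ := hB.exists_trace_zero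
  have h3 : θ + σ θ = 0 := by simp [hθ]
  have h4 := uRefl_eq_Zl hB hy hz hzy a 1 θ h3
  have h5 := uRefl_eq_Zl hB hy hz hzy 0 1 θ h3
  rw [one_smul, add_comm] at h4 h5
  rw [zero_smul, add_zero] at h5
  have h6 := h2 θ h3
  have h7 := h1 θ h3
  rw [h4] at h6
  rw [h5] at h7
  simpa [hθ0] using (h.uniq hB hy hz hzy hy0 hn (by
    rw [map_mul, hB.norm_fixed, hθ]; ring) (by simp) h6 h7).2

end Zl

theorem perp_of_non (hB : IsHerm B) {W : Submodule F V} (hW : ¬ W ≤ uPerp B W) {u : V}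
    (h : ∀ r ∈ W, B r r ≠ 0 → B r u = 0) : u ∈ uPerp B W := by
  obtain ⟨r, hr, hr0⟩ := hB.exists_mem_nonisotropic' hW
  obtain ⟨θ, hθ0, hθ⟩ := hB.exists_trace_zero
  refine mem_uPerp.2 fun v hv => by_contra fun h1 => ?_
  have h2 : B v v = 0 := by_contra fun e => h1 (h v hv e)
  have k : ∀ t : F, t ≠ 0 → t * B r v + σ (t * B r v) = 0 → False := fun t ht e => by
    have h3 : B (v + t • r) (v + t • r) = t * σ t * B r r := by
      rw [map_mul, hB.symm] at e
      simp only [map_add, map_smulₛₗ, LinearMap.add_apply, LinearMap.smul_apply, h2,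
        RingHom.id_apply, smul_eq_mul]
      linear_combination e
    exact h1 (by
      simpa [h r hr hr0] using h (v + t • r) (add_mem hv (smul_mem _ _ hr)) (by
        rw [h3]; simp [ht, hr0]))
  by_cases h3 : B r v = 0
  · exact k 1 one_ne_zero (by simp [h3])
  · exact k (θ / B r v) (div_ne_zero hθ0 h3) (by simp [h3, hθ])

variable [FiniteDimensional F V] (hB : IsHerm B)
include hB

theorem good (hq : UField σ q) (hH : H ≤ USG B) {m : ℕ} (hm : finrank F V = m + 5)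
    (hlt : H.relIndex (USG B) < (q + 1) * q ^ (2 * (m + 3))) {y : V} (hy : B y y = 0)
    (hy0 : y ≠ 0) (hT : ¬ UTv B H y) : Good hB H hy := by
  have := hq.finite
  have := finite_V (V := V) hq
  have := u_finite_linearEquiv (F := F) (V := V)
  have hq2 := hq.two_le
  obtain ⟨y', h⟩ := hB.exists_uHypPair hy0 hy
  have hk : finrank F (U0 B y y') = m + 3 := by rw [U0_finrank hB h, hm]; rfl
  have hyU : y ∈ uPerp B (U0 B y y') := hB.le_uPerp_uPerp _ (subset_span (by simp))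
  let K := (lifts H (Q_normal hB hy)).comap (hB.uExt (U0_disjoint hB h)) ⊓ USG (uRes B (U0 B y y'))
  have hR : stabilizer (V ≃ₗ[F] V) y ⊓ USG B ≤ pst F (V ≃ₗ[F] V) y ⊓ USG B :=
    inf_le_inf_right _ (stabilizer_le_pst y)
  have h1 : K.relIndex (USG (uRes B (U0 B y y'))) ≤
      (lifts H (Q_normal hB hy)).relIndex (stabilizer (V ≃ₗ[F] V) y ⊓ USG B) := by
    rw [Subgroup.inf_relIndex_right, Subgroup.relIndex_comap]
    refine relIndex_mono _ ?_
    rintro _ ⟨g, hg, rfl⟩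
    exact ⟨hB.uExt_right _ g hyU, (hB.uExt_mem_USG _).2 hg⟩
  have h2 := al_mul_le (H := H) hB hq h
  have h3 := (Nat.mul_le_mul_left (q - 1) ((Nat.mul_le_mul h2 h1).trans
    (relIndex_mul_lifts H _ (Q_le hB) hR))).trans (stab_le hB hq (by omega) hy0 hy hT)
  have h4 := (relIndex_mono H (inf_le_right (a := pst F (V ≃ₗ[F] V) y))).trans_lt hlt
  have h5 := (Y0 H hB hy y').card_mul_index
  rw [card_V (V := U0 B y y') hq, hk] at h5
  have h6 : (uFix σ).toAddSubgroup.index = q := by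
    have := (uFix σ).toAddSubgroup.card_mul_index
    rw [hq.card, show Nat.card (uFix σ).toAddSubgroup = q from hq.card_uFix, sq] at this
    exact Nat.eq_of_mul_eq_mul_left (by omega) this
  have h7 := AddSubgroup.index_dvd_of_le (fix_le_Zs (H := H) hy)
  rw [h6] at h7
  have h8 := mt AddSubgroup.index_eq_one.1 (Zs_ne_top (hy := hy) hB hT)
  have h9 := Nat.le_of_dvd (by omega) h7
  have := u_finite_linearEquiv (F := F) (V := U0 B y y')
  have h10 := relIndex_pos K (USG (uRes B (U0 B y y')))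
  obtain ⟨r, hr⟩ := Nat.exists_eq_add_of_le' (Nat.pos_of_dvd_of_pos h7 (by omega))
  obtain ⟨p, rfl⟩ := Nat.exists_eq_add_of_le' (show 1 ≤ q by omega)
  rw [hr] at h2 h3 h7 h8 h9
  simp only [Nat.add_sub_cancel] at h3
  have k : ∀ t, t * r ≤ p * (r + 1) → t * ((Y0 H hB hy y').index *
      K.relIndex (USG (uRes B (U0 B y y')))) < (p + 1 + 1) * (p + 1) ^ (2 * (m + 3)) :=
    fun t ht => (Nat.le_of_mul_le_mul_right (c := r) (by
      refine le_trans ?_ h3
      rw [mul_right_comm, mul_right_comm _ (r + 1), mul_comm _ (r + 1), ← mul_assoc p]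
      exact Nat.mul_le_mul_right _ ht) (by omega)).trans_lt h4
  have h11 : Y0 H hB hy y' = ⊥ := by
    by_contra h11
    obtain ⟨ψ, hψ, h12, -⟩ := exists_char (Zs_ne_top (hy := hy) hB hT)
    have h13 := lemA (K := K) (U0_herm hB h) hq (by omega) inf_le_right hψ h11
      (fun u hu u' hu' => h12 _ (mem_Zs_of hB hu hu')) fun g ⟨⟨_, r, hr, e⟩, _⟩ u hu => by
        have h13 := hB.uYadd_map' (hH.trans inf_le_left) (mem_Y0.1 hu) e (by
          rw [LinearEquiv.mul_apply, hB.uExt_right _ g hyU]; exact (Q_le hB hr).1)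
        obtain ⟨t, ht⟩ := Q_apply hB hr (U0_left hB (g u))
        rw [LinearEquiv.mul_apply, hB.uExt_left, ht] at h13
        simpa [mem_Y0] using sub_mem h13 (hB.smul_self_mem_uYadd hy t)
    have h14 := k (p + 1) (by nlinarith)
    rw [← h5] at h14
    nlinarith [Nat.mul_le_mul_left (Y0 H hB hy y').index h13]
  rw [h11, AddSubgroup.card_bot, one_mul] at h5
  rw [h11, h5] at h2 k
  have h12 : r = p := by
    by_contra h12
    obtain ⟨c, hc⟩ := h7
    have h13 : 2 * (r + 1) ≤ p + 1 := by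
      rcases c with _ | _ | c
      · omega
      · omega
      · nlinarith
    have := k (p + 1 + 1) (by nlinarith)
    nlinarith [Nat.mul_le_mul_left ((p + 1 + 1) * (p + 1) ^ (2 * (m + 3))) h10]
  have h13 : (uFix σ).toAddSubgroup = Zs H hy := by
    refine AddSubgroup.eq_of_le_of_card_ge (fix_le_Zs hy) (Nat.le_of_mul_le_mul_right (c := p + 1)
      ?_ (by omega))
    rw [← h6, AddSubgroup.card_mul_index, h6, ← h12, ← hr, AddSubgroup.card_mul_index]
  refine ⟨fun r hr e => ?_, fun g hg a ha e => exists_mul_mem ((Q_le hB).trans hR)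
    (Subgroup.le_normalizer_iff.2 (Q_normal hB hy)) ?_ ⟨mem_pst.2 ⟨a, ha, e⟩, hg⟩⟩
  · obtain ⟨u, s, hu, hu', hs, rfl⟩ := (hB.mem_uEichGroup_iff_of_pair h).1 hr
    have h14 : (⟨u, mem_uPerp_span_pair.2 ⟨hB.eq_zero_symm hu, hB.eq_zero_symm hu'⟩⟩ :
      U0 B y y') ∈ Y0 H hB hy y' := ⟨hu, s, hs, e⟩
    obtain rfl : u = 0 := by simpa [h11] using h14
    obtain ⟨d, rfl⟩ := exists_sub hB.toUInvol (c := s) (by simpa using hs)
    rw [uEich_zero hy] at e ⊢
    rw [show σ d = d from (h13 ▸ mem_Zs.2 e : d ∈ (uFix σ).toAddSubgroup), sub_self,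
      uRefl_zero_right]
  · rw [h12] at h2
    nlinarith

theorem not_le_perp {W : Submodule F V} (h : 2 * finrank F W < finrank F V) :
    ¬ uPerp B W ≤ uPerp B (uPerp B W) := fun e => by
  have := hB.two_mul_finrank_le e
  rw [hB.finrank_uPerp] at this
  omega

omit [FiniteDimensional F V] in
theorem notMem_pair {z y r : V} (hz : B z z = 0) (hy : B y y = 0) (hr : B r r ≠ 0)
    (h : B y r = 0) (hn : z ∉ F ∙ y) : z ∉ span F {y, r} := fun e => by
  obtain ⟨a, b, rfl⟩ := mem_span_pair.1 e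
  have : b = 0 := by simpa [hy, h, hB.eq_zero_symm h, hr] using hz
  exact hn (mem_span_singleton.2 ⟨a, by simp [this]⟩)

variable {y z : V} {hy : B y y = 0} (h : Good hB H hy) (hH : H ≤ USG B) (hn : 5 ≤ finrank F V)
  (hy0 : y ≠ 0) (hz : B z z = 0) (hzy : B z y = 0) (hz' : z ∉ F ∙ y)
include h hH hn hy0 hz hzy hz'

theorem Good.mem_span {u : V} {s c : F} (hu : B u y = 0) (hs : s + σ s + B u u = 0)
    (hc : c + σ c = 0) (e : uEich B y u s * uRefl B z c ∈ H) : u ∈ span F {y, z} := by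
  have h1 := finrank_span_pair_le (F := F) y z
  obtain ⟨μ, hμ, hμ'⟩ := hB.exists_norm_one_ne
  have hμ0 : μ ≠ 0 := by rintro rfl; simp at hμ
  have hyz := hB.eq_zero_symm hzy
  have k : ∀ r ∈ uPerp B (span F {y, z}), B r r ≠ 0 → B r u = 0 := fun r hr hr0 => by
    obtain ⟨h2, h3⟩ := mem_uPerp_span_pair.1 hr
    obtain ⟨z', h4, h5⟩ := exists_pair hB hz (notMem_pair hB hz hy hr0 h2 hz')
      (mem_uPerp_span_pair.2 ⟨hyz, hB.eq_zero_symm h3⟩)
    obtain ⟨h6, h7⟩ := mem_uPerp_span_pair.1 h4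
    obtain ⟨g, hg, eg⟩ := exists_diag hB h5 hr0 (hB.eq_zero_symm h3) h7 hμ0
    have g1 : g y = y := by simp [eg, h2, h6, hyz]
    have g2 : g z = μ • z := by simp [eg, hz, h3, h5.pair, sub_smul]
    obtain ⟨ρ, hρ, h8⟩ := h.lift g hg 1 one_ne_zero (by simp [g1])
    have g3 : (ρ * g) y = y := by rw [LinearEquiv.mul_apply, g1]; exact (Q_le hB hρ).1
    obtain ⟨κ, g4⟩ := Q_apply hB hρ (v := μ • z) (by simp [hzy])
    have g5 : B (g u) y = 0 := by rw [← g1, USG_map hg, hu]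
    obtain ⟨κ', g6⟩ := Q_apply hB hρ g5
    have h9 := H.mul_mem (H.mul_mem h8 e) (H.inv_mem h8)
    rw [← conj_mul, (hB.uEich0 hy hu).conj (hH h8).1, uRefl_conj (hH h8).1, g3,
      LinearEquiv.mul_apply, LinearEquiv.mul_apply, g2, g4, g6, add_comm (μ • z),
      uRefl_eq_Zl hB hy hz hzy _ _ _ hc, hμ, one_mul, Zl, ← mul_assoc] at h9
    have h10 := H.mul_mem h9 (H.inv_mem e)
    rw [mul_inv_rev, mul_assoc, mul_inv_cancel_left] at h10
    have g7 : B (g u + κ' • y) y = 0 := by simp [g5, hy]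
    have g8 : uEich B y (g u + κ' • y) s ∈ uEichGroup hB hy :=
      ⟨_, s, g7, by simpa [g5, hB.eq_zero_symm g5, hy, USG_map hg] using hs, rfl⟩
    have g9 : uEich B y u s ∈ uEichGroup hB hy := ⟨u, s, hu, hs, rfl⟩
    have h11 := h.inj _ (mul_mem (mul_mem g8 (Zl_mem hB hy hzy hz (by
        rw [map_mul, hB.norm_fixed]; linear_combination κ * σ κ * hc) _)) (inv_mem g9)) h10
    rw [mul_inv_eq_one, (hB.uEich0 hy g7).mul (hB.uEich0 hy (by simp [hzy]))] at h11
    obtain ⟨t, ht⟩ := mem_span_singleton.1 (eich_inj hB hy hy0 (by simp [g5, hy, hzy]) hu h11)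
    have h12 := congrArg (B · r) ht
    simp only [eg, map_add, map_sub, map_smul, LinearMap.add_apply, LinearMap.sub_apply,
      LinearMap.smul_apply, h2, h3, hB.eq_zero_symm h7, smul_eq_mul] at h12
    have h13 : (σ μ / μ - 1) * B u r = 0 := by
      field_simp at h12 ⊢
      linear_combination -h12
    exact hB.eq_zero_symm ((mul_eq_zero.1 h13).resolve_left (by
      rwa [sub_eq_zero, div_eq_one_iff_eq hμ0]))
  rw [← hB.uPerp_uPerp (span F {y, z})]
  exact perp_of_non hB (not_le_perp hB (by omega)) k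

theorem Good.lift_tv {c : F} (hc : c + σ c = 0) : ∃ s l, s + σ s = 0 ∧ Zl B y z s l c ∈ H := by
  obtain ⟨_, ⟨u, s, hu, hs, rfl⟩, e⟩ := h.lift _ (hB.uRefl_mem_USG hz hc) 1 one_ne_zero
    (by rw [uRefl_apply_of_perp c (hB.eq_zero_symm hzy), one_smul])
  obtain ⟨a, l, rfl⟩ := mem_span_pair.1 (h.mem_span hB hH hn hy0 hz hzy hz' hu hs hc e)
  rw [add_comm, (hB.uEich0 hy (by simp [hzy])).add_smul_self] at e
  refine ⟨_, l, ?_, e⟩
  simp only [map_add, map_smulₛₗ, LinearMap.add_apply, LinearMap.smul_apply, hy, hz, hzy,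
    hB.eq_zero_symm hzy, map_sub, hB.invol, smul_zero, add_zero] at hs ⊢
  linear_combination hs

theorem Good.exists_partner (hq : UField σ q) : ∃ a : F, ∀ c, c + σ c = 0 →
    ∃ s, s + σ s = 0 ∧ (q ≠ 2 → s = 0) ∧ Zl B y (z + a • y) s 0 c ∈ H := by
  have := hq.finite
  have h1 := finrank_span_pair_le (F := F) y z
  obtain ⟨b, hb0, hb1, hb⟩ : ∃ b : F, b ≠ 0 ∧ b ≠ 1 ∧ (q ≠ 2 → b * σ b ≠ 1) := by
    by_cases h2 : q = 2
    · obtain ⟨b, hb, hb'⟩ := hB.exists_norm_one_ne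
      exact ⟨b, by rintro rfl; simp at hb, by rintro rfl; simp at hb', fun h => (h h2).elim⟩
    · obtain ⟨a, ha, ha0, ha1⟩ := hq.exists_fixed_ne h2
      obtain ⟨b, rfl⟩ := hq.exists_norm_eq ha
      exact ⟨b, left_ne_zero_of_mul ha0, by rintro rfl; simp at ha1, fun _ => ha1⟩
  obtain ⟨r, hr, hr0⟩ := hB.exists_mem_nonisotropic' (not_le_perp hB (W := span F {y, z}) (by omega))
  obtain ⟨h2, h3⟩ := mem_uPerp_span_pair.1 hr
  obtain ⟨y', h4, h5⟩ := exists_pair hB hy (notMem_pair hB hy hz hr0 h3 fun e => hz' (by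
    obtain ⟨t, rfl⟩ := mem_span_singleton.1 e
    rw [span_singleton_smul_eq (left_ne_zero_of_smul hy0).isUnit]
    exact mem_span_singleton_self z)) (mem_uPerp_span_pair.2 ⟨hzy, hB.eq_zero_symm h2⟩)
  obtain ⟨h6, h7⟩ := mem_uPerp_span_pair.1 h4
  obtain ⟨g, hg, eg⟩ := exists_diag hB h5 hr0 (hB.eq_zero_symm h2) h7 hb0
  have g1 : g y = b • y := by simp [eg, hy, h2, h5.pair, sub_smul]
  obtain ⟨ρ, hρ, h8⟩ := h.lift g hg b hb0 g1
  have g3 : (ρ * g) y = b • y := by
    rw [LinearEquiv.mul_apply, g1, map_smul, show ρ y = y from (Q_le hB hρ).1]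
  obtain ⟨κ, g4⟩ := Q_apply hB hρ hzy
  have hb' : 1 - b ≠ 0 := sub_ne_zero.2 hb1.symm
  have g5 : (ρ * g) (z + (κ / (1 - b)) • y) = z + (κ / (1 - b)) • y := by
    rw [map_add, map_smul, g3, LinearEquiv.mul_apply, show g z = z by simp [eg, hzy, h3, h6], g4,
      smul_smul, add_assoc, ← add_smul]
    congr 2; field_simp; ring
  refine ⟨κ / (1 - b), fun c hc => ?_⟩
  have k1 : B (z + (κ / (1 - b)) • y) y = 0 := by simp [hzy, hy]
  have k2 : B (z + (κ / (1 - b)) • y) (z + (κ / (1 - b)) • y) = 0 := by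
    simp [hzy, hy, hz, hB.eq_zero_symm hzy]
  have k3 : z + (κ / (1 - b)) • y ∉ F ∙ y := by
    rwa [Submodule.add_mem_iff_left _ (smul_mem _ _ (mem_span_singleton_self y))]
  generalize z + (κ / (1 - b)) • y = w at g5 k1 k2 k3
  obtain ⟨s, l, hs, e⟩ := h.lift_tv hB hH hn hy0 k2 k1 k3 hc
  have h9 := H.mul_mem (H.mul_mem h8 e) (H.inv_mem h8)
  rw [Zl, ← conj_mul, (hB.uEich0 hy (by simp [k1])).conj (hH h8).1, uRefl_conj (hH h8).1, g3,
    map_smul, g5, hB.uEich_smul (hB.uEich0 hy (by simp [k1])), smul_smul] at h9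
  obtain ⟨h10, h11⟩ := h.uniq hB hy k2 k1 hy0 k3 (by
    rw [map_mul, hB.norm_fixed]; linear_combination b * σ b * hs) hs h9 e
  obtain rfl : l = 0 := (mul_eq_zero.1 (show (σ b - 1) * l = 0 by linear_combination h11)).resolve_left
    (by rw [sub_eq_zero, hB.eq_iff, map_one]; exact hb1)
  exact ⟨s, hs, fun h2 => (mul_eq_zero.1 (show (b * σ b - 1) * s = 0 by
    linear_combination h10)).resolve_left (sub_ne_zero.2 (hb h2)), e⟩

end Cfsg.Agent.Cl.MI.U
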