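import Mathlib
import Cfsg.Agent.Cl.MinIdxUB
import Cfsg.Agent.Cl.UOrder

/-!
# Minimal index of a proper subgroup of `SU(V)`, `dim V ≥ 5`: the global analysis

The isotropic points whose transvection groups lie in a proper subgroup `H` of small index span a
hyperplane, so that `H` fixes a point (`su_index`).
-/

set_option autoImplicit false

namespace Cfsg.Agent.Cl.MI.U

open MulAction Module Submodule Pointwise

variable {F : Type*} [Field F] {σ : F →+* F} {V : Type*} [AddCommGroup V] [Module F V]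
  {B : V →ₗ[F] V →ₛₗ[σ] F} {q : ℕ} {H : Subgroup (V ≃ₗ[F] V)}

theorem uTv_zero : UTv B H 0 := fun _ _ => by rw [uRefl_zero_left]; exact one_mem _

theorem two_cases (hq : UField σ 2) : (2 : F) = 0 ∧ ∀ c : F, c + σ c = 0 → c = 0 ∨ c = 1 := by
  have h2 : (2 : F) = 0 := hq.cast_eq_zero
  refine ⟨h2, fun c hc => ?_⟩
  rw [hq.pow] at hc
  exact (mul_eq_zero.1 (show c * (c - 1) = 0 by linear_combination hc - c * h2)).imp_right
    sub_eq_zero.1

theorem exists_trace (hB : IsHerm B) [FiniteDimensional F V] [Finite F] (hn : 3 ≤ finrank F V)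
    {w w' : V} (h : ∀ t : F, σ t = t → w' ≠ t • w) :
    ∃ z, B z z = 0 ∧ B w z + B z w = 0 ∧ B w' z + B z w' ≠ 0 := by
  obtain ⟨θ, hθ0, hθ⟩ := hB.exists_trace_zero
  obtain ⟨b, hb⟩ := hB.exists_trace_one
  have k : ∀ z, B z z = 0 → B w z = 0 → B w' z ≠ 0 →
      ∃ z, B z z = 0 ∧ B w z + B z w = 0 ∧ B w' z + B z w' ≠ 0 := fun z h1 h2 h3 => by
    have h4 : B z w' ≠ 0 := mt hB.eq_zero_symm h3
    refine ⟨(b / B z w') • z, by simp [h1], by simp [h2, hB.eq_zero_symm h2], ?_⟩
    simp only [map_smulₛₗ, LinearMap.smul_apply, map_div₀, hB.symm, RingHom.id_apply, smul_eq_mul]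
    rw [div_mul_cancel₀ _ h3, div_mul_cancel₀ _ h4, add_comm, hb]
    exact one_ne_zero
  by_cases h1 : w' ∈ F ∙ w
  · obtain ⟨t, rfl⟩ := mem_span_singleton.1 h1
    have ht : σ t ≠ t := fun e => h t e rfl
    obtain ⟨z, hz, h2⟩ : ∃ z, B z z = 0 ∧ B z w ≠ 0 := by
      by_contra! h2
      have := hB.eq_top_of_isotropic (by omega) (U := uPerp B (F ∙ w)) fun z hz =>
        mem_uPerp_span_singleton.2 (hB.eq_zero_symm (h2 z hz))
      exact h 0 (map_zero σ) (by
        rw [hB.nondeg w fun v => mem_uPerp_span_singleton.1 (this ▸ mem_top)]; simp)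
    have h3 : B w z ≠ 0 := mt hB.eq_zero_symm h2
    refine ⟨(θ / B z w) • z, by simp [hz], ?_, ?_⟩ <;>
      simp only [map_smulₛₗ, LinearMap.smul_apply, map_div₀, hB.symm, RingHom.id_apply,
        smul_eq_mul, hθ] <;> field_simp
    · ring
    · simpa [hθ0, neg_add_eq_zero] using ht.symm
  by_cases h2 : B w w = 0
  · by_cases h3 : B w' w = 0
    swap
    · exact k w h2 h2 h3
    rcases eq_or_ne w 0 with rfl | hw0
    · by_contra h4
      have := hB.eq_top_of_isotropic (by omega) (U := uPerp B (F ∙ w')) fun z hz =>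
        mem_uPerp_span_singleton.2 (by_contra fun e => h4 (k z hz (by simp) e))
      exact h1 (by rw [hB.nondeg w' fun v => mem_uPerp_span_singleton.1 (this ▸ mem_top)]; simp)
    obtain ⟨u, hu, e⟩ := hB.exists_perp_eq_one h1
    obtain ⟨u', hu', e'⟩ := hB.exists_perp_eq_one (W := F ∙ w') (u := w) fun h4 => h1 (by
      obtain ⟨t, rfl⟩ := mem_span_singleton.1 h4
      rw [span_singleton_smul_eq (left_ne_zero_of_smul hw0).isUnit]
      exact mem_span_singleton_self _)
    rw [mem_uPerp_span_singleton] at hu hu'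
    obtain ⟨t, ht⟩ := exists_add_iso hB (v := b • u + θ • u') h2 (by
      simp [hB.eq_zero_symm hu, hB.eq_one_symm e', hθ0])
    refine ⟨_, ht, ?_, ?_⟩ <;>
      simp [hu, hu', e, e', h2, h3, hB.eq_zero_symm hu, hB.eq_zero_symm hu', hB.eq_one_symm e,
        hB.eq_one_symm e', hB.eq_zero_symm h3, hθ, add_comm (σ b), hb]
  · by_contra h4
    refine h1 (hB.uPerp_uPerp (F ∙ w) ▸ (hB.le_uPerp_comm (W' := F ∙ w')).1 ?_
      (mem_span_singleton_self w'))
    refine hB.le_of_isotropic (hB.disjoint_uPerp (hB.disjoint_span_singleton h2)) (by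
      have := finrank_span_single_le (F := F) w
      rw [hB.finrank_uPerp]; omega) fun z hz hz' => mem_uPerp_span_singleton.2 ?_
    exact by_contra fun e => h4 (k z hz' (mem_uPerp_span_singleton.1 hz) e)

theorem exists_trace' (hB : IsHerm B) [FiniteDimensional F V] [Finite F] (hn : 3 ≤ finrank F V)
    {w w' : V} (h : ∀ t : F, σ t = t → w' ≠ t • w) :
    ∃ z, B z z = 0 ∧ B w z + B z w = 0 ∧ B (w' - w - z) (w' - w - z) = 0 := by
  obtain ⟨z, h1, h2, h3⟩ := exists_trace hB hn h
  have h4 : σ (B (w' - w) (w' - w) / (B w' z + B z w')) = B (w' - w) (w' - w) / (B w' z + B z w') := by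
    rw [map_div₀, hB.fixed, map_add, hB.symm, hB.symm, add_comm]
  refine ⟨(B (w' - w) (w' - w) / (B w' z + B z w')) • z, by simp [h1], ?_, ?_⟩
  · simp only [map_smulₛₗ, LinearMap.smul_apply, h4, RingHom.id_apply, smul_eq_mul]
    rw [← mul_add, h2, mul_zero]
  · have h5 := div_mul_cancel₀ (B (w' - w) (w' - w)) h3
    generalize B (w' - w) (w' - w) / (B w' z + B z w') = t at h4 h5
    simp only [map_sub, map_smulₛₗ, LinearMap.sub_apply, LinearMap.smul_apply, h4, h1,
      RingHom.id_apply, smul_eq_mul] at h5 ⊢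
    linear_combination t * h2 - h5

section Main

variable [FiniteDimensional F V] (hB : IsHerm B) (hq : UField σ q) (hH : H ≤ USG B)
  (hn : 5 ≤ finrank F V) (hG : ∀ w (hw : B w w = 0), w ≠ 0 → ¬ UTv B H w → Good hB H hw)
include hB hH hG

theorem add_X {x x' : V} (hx : B x x = 0) (hx' : B x' x' = 0) (h : UTv B H x) (h' : UTv B H x')
    (h1 : B (x + x') (x + x') = 0) : UTv B H (x + x') := by
  by_cases h2 : B x x' = 0
  · by_contra h3
    have h4 : x + x' ≠ 0 := fun e => h3 (e ▸ uTv_zero)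
    by_cases h5 : x ∈ F ∙ (x + x')
    · obtain ⟨t, ht⟩ := mem_span_singleton.1 h5
      rcases eq_or_ne t 0 with rfl | h6
      · exact h3 (by rwa [← ht, zero_smul, zero_add])
      · have := h.smul hB t⁻¹
        rw [← ht, inv_smul_smul₀ h6] at this
        exact h3 this
    · simpa using (hG _ h1 h4 h3).uniq_X hB h1 hx (by simp [hx, h2]) h4 h5 (a := -1) h (by
        simpa using h'.smul hB (-1))
  · have h3 : (B x x')⁻¹ + σ (B x x')⁻¹ = 0 := by
      have h4 : B x' x ≠ 0 := mt hB.eq_zero_symm h2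
      simp only [map_add, LinearMap.add_apply, hx, hx'] at h1
      rw [map_inv₀, hB.symm]
      field_simp
      linear_combination h1
    simpa [uRefl_apply_of_isotropic hx', h2] using h.map (hH.trans inf_le_left) (h' _ h3)

include hq hn

theorem exists_X {y z : V} (hy : B y y = 0) (hT : ¬ UTv B H y) (hz : B z z = 0)
    (hzy : B z y = 0) (hz' : z ∉ F ∙ y) : ∃ a : F, UTv B H (z + a • y) := by
  have hy0 : y ≠ 0 := fun e => hT (e ▸ uTv_zero)
  obtain ⟨a, h⟩ := (hG y hy hy0 hT).exists_partner hB hH hn hy0 hz hzy hz' hq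
  have k1 : B (z + a • y) y = 0 := by simp [hzy, hy]
  have k2 : B (z + a • y) (z + a • y) = 0 := by simp [hzy, hy, hz, hB.eq_zero_symm hzy]
  have k3 : z + a • y ∉ F ∙ y := by
    rwa [Submodule.add_mem_iff_left _ (smul_mem _ _ (mem_span_singleton_self y))]
  refine ⟨a, by_contra fun h1 => ?_⟩
  generalize z + a • y = w at *
  have k4 : ∀ c, Zl B y w 0 0 c = uRefl B w c := fun c => by
    rw [Zl, zero_smul, uEich_zero_zero hy, one_mul]
  obtain rfl : q = 2 := by_contra fun h2 => h1 fun c hc => by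
    obtain ⟨s, -, h3, e⟩ := h c hc
    rwa [h3 h2, k4] at e
  obtain ⟨h2, h3⟩ := two_cases hq
  have h4 : (1 : F) + σ 1 = 0 := by rw [map_one]; linear_combination h2
  have h5 : Zl B y w 1 0 1 ∈ H := by
    obtain ⟨s, hs, -, e⟩ := h 1 h4
    rcases h3 s hs with rfl | rfl
    · refine (h1 fun c hc => ?_).elim
      rcases h3 c hc with rfl | rfl
      · rw [uRefl_zero_right]; exact one_mem _
      · rwa [k4] at e
    · exact e
  have u := fun s l c s' l' => (hG y hy hy0 hT).uniq hB hy k2 k1 hy0 k3 (s := s) (l := l) (c := c)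
    (s' := s') (l' := l')
  have h6 := uRefl_eq_Zl hB hy k2 k1 1 1 1 h4
  simp only [one_smul, map_one, mul_one] at h6
  have h7 : ¬ UTv B H (y + w) := fun e =>
    one_ne_zero (neg_eq_zero.1 (u _ _ _ _ _ h4 h4 (h6 ▸ e 1 h4) h5).2)
  have h8 : B (y + w) (y + w) = 0 := by simp [hy, k1, k2, hB.eq_zero_symm k1]
  have h9 : y + w ≠ 0 := fun e => h7 (e ▸ uTv_zero)
  obtain ⟨b, h10⟩ := (hG _ h8 h9 h7).exists_partner hB hH hn h9 hy
    (by simp [hy, hB.eq_zero_symm k1]) (fun e => k3 (by
      obtain ⟨t, ht⟩ := mem_span_singleton.1 e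
      have ht0 : t ≠ 0 := by rintro rfl; exact hy0 (by simpa using ht.symm)
      exact mem_span_singleton.2 ⟨t⁻¹ - 1, by
        rw [sub_smul, ← ht, inv_smul_smul₀ ht0, one_smul, ht, add_sub_cancel_left]⟩)) hq
  obtain ⟨s, hs, -, e⟩ := h10 1 h4
  have h11 := uRefl_eq_Zl hB hy k2 k1 1 1 s hs
  simp only [one_smul, map_one, mul_one, one_mul] at h11
  rw [Zl, zero_smul, uEich_zero h8, show y + b • (y + w) = (1 + b) • y + b • w by module,
    uRefl_eq_Zl hB hy k2 k1 _ _ _ h4, h11, Zl_mul hB hy k2 k1] at e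
  have h12 : ∀ c : F, s + c * σ c * 1 + σ (s + c * σ c * 1) = 0 := fun c => by
    rw [map_add, mul_one, hB.norm_fixed]; linear_combination hs + c * σ c * h2
  rcases h3 _ (h12 b) with h13 | h13 <;> rw [h13] at e
  · obtain ⟨h14, h15⟩ := u _ _ _ 0 0 (h12 _) (by simp) e (by
      rw [k4, uRefl_zero_right]; exact one_mem _)
    rw [map_add, map_one] at h14 h15
    obtain rfl : b = 0 := by linear_combination -h15 - h13
    exact one_ne_zero (α := F) (by rw [map_zero] at h14; linear_combination h14 - h13)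
  · obtain ⟨h14, h15⟩ := u _ _ _ _ _ (h12 _) h4 e h5
    rw [map_add, map_one] at h14 h15
    obtain rfl : b = -1 := by linear_combination -h15 - h13
    exact one_ne_zero (α := F) (by
      rw [map_neg, map_one] at h13; linear_combination h13 - h14)

omit hq hn in
/-- An element of `P_y` acting as a scalar on `S / ⟨y⟩` gives a linear form vanishing on the points
of `X` in `S`. -/
theorem exists_form {y y' : V} (h : UHypPair B y y') (hT : ¬ UTv B H y) {g : V ≃ₗ[F] V}
    (hg : g ∈ USG B) {a b : F} (ha : a ≠ 0) (hb : b ≠ 0) (hab : a ≠ b) (e : g y = a • y) :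
    ∃ f : V →ₗ[F] F, f y = 1 ∧ ∀ x, B x x = 0 → UTv B H x → B x y = 0 →
      (∃ t : F, g x = b • x + t • y) → f x = 0 := by
  have hy0 := h.left_ne_zero
  obtain ⟨ρ, hρ, h1⟩ := (hG y h.left hy0 hT).lift g hg a ha e
  have h2 : a - b ≠ 0 := sub_ne_zero.2 hab
  refine ⟨(a - b)⁻¹ • B.flip y' ∘ₗ ((ρ * g).toLinearMap - b • LinearMap.id), ?_,
    fun x hx hX hxy ⟨t, ht⟩ => ?_⟩
  · simp [e, show ρ y = y from (Q_le hB hρ).1, h.pair, h2]
  · by_cases h3 : x ∈ F ∙ y
    · obtain ⟨s, rfl⟩ := mem_span_singleton.1 h3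
      obtain rfl : s = 0 := by_contra fun hs => hT (by simpa [hs] using hX.smul hB s⁻¹)
      simp
    · obtain ⟨s, hs⟩ := Q_apply hB hρ (v := g x) (by simp [ht, hxy, h.left])
      have h4 := hX.map (hH.trans inf_le_left) h1
      rw [LinearEquiv.mul_apply, hs, ht, add_assoc, ← add_smul] at h4
      have h5 := (hG y h.left hy0 hT).uniq_X hB h.left (by simp [hx]) (by simp [hxy]) hy0
        (by rwa [smul_mem_iff _ hb]) (hX.smul hB b) h4
      rw [ht, add_assoc, ← add_smul, h5, zero_smul, add_zero] at hs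
      simp [ht, hs]

omit hq in
theorem exists_form_two (hq : UField σ 2) (h6 : 6 ≤ finrank F V) {y y' : V} (h : UHypPair B y y')
    (hT : ¬ UTv B H y) :
    ∃ f : V →ₗ[F] F, f y = 1 ∧ ∀ x, B x x = 0 → UTv B H x → B x y = 0 → f x = 0 := by
  have := hq.finite
  obtain ⟨h2, h3⟩ := two_cases hq
  obtain ⟨ω, hω, hω'⟩ := hB.exists_norm_one_ne
  have hω0 : ω ≠ 0 := by rintro rfl; simp at hω
  have hω1 : ω ≠ 1 := by rintro rfl; simp at hω'
  obtain ⟨m, hm⟩ := Nat.exists_eq_add_of_le' h6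
  obtain ⟨b, hb⟩ := (U0_herm hB h).exists_orthonormal_basis (n := m + 4)
    (by rw [U0_finrank hB h, hm]; rfl)
  simp only [uRes_apply] at hb
  have b1 : ∀ i, B (b i) y = 0 := fun i => U0_left hB _
  have b2 : ∀ i, B (b i) y' = 0 := fun i => U0_right hB _
  have b3 : ∀ i, B y (b i) = 0 := fun i => hB.eq_zero_symm (b1 i)
  have b4 : ∀ v, B v y = 0 → v = B v y' • y + ∑ j, B v (b j) • (b j).1 := fun v hv => by
    let u : U0 B y y' := ⟨v - B v y' • y, mem_uPerp_span_pair.2
      ⟨hB.eq_zero_symm (by simp [hv, h.left]), hB.eq_zero_symm (by simp [h.pair])⟩⟩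
    have h4 := congrArg Subtype.val (b.sum_repr u)
    simp only [Submodule.coe_sum, Submodule.coe_smul] at h4
    have h5 : ∀ j, b.repr u j = B v (b j) := fun j => by
      simpa [u, hb, b3] using congrArg (B · (b j)) h4
    simp only [h5] at h4
    rw [h4, add_sub_cancel]
  have c : ∀ i, ∃ f : V →ₗ[F] F, f y = 1 ∧ ∀ x, B x x = 0 → UTv B H x → B x y = 0 →
      B x (b i) = 0 → f x = 0 := fun i => by
    obtain ⟨g, hg, e⟩ := exists_diag hB h (r := b i) (by simp [hb]) (b1 i) (b2 i) hω0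
    obtain ⟨f, h4, h5⟩ := exists_form hB hH hG h hT hg hω0 one_ne_zero hω1 (by
      simp [e, h.left, h.pair, b3, sub_smul])
    exact ⟨f, h4, fun x h1 h2 h3 h4 => h5 x h1 h2 h3 ⟨_, by rw [e, h3, h4]; simp; rfl⟩⟩
  choose f f1 f2 using c
  have c0 : ∀ j l (s t : F), j ≠ l → s * σ s = 1 → t * σ t = 1 →
      ∃ a : F, B (s • (b j).1 + t • b l + a • y) (s • (b j).1 + t • b l + a • y) = 0 ∧
        UTv B H (s • (b j).1 + t • b l + a • y) := fun j l s t hjl hs ht => by
    have h4 : B (s • (b j).1 + t • b l) (s • (b j).1 + t • b l) = 0 := by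
      simp [hb, hjl, hjl.symm, hs, ht, one_add_one_eq_two, h2]
    obtain ⟨a, ha⟩ := exists_X hB hq hH hn hG h.left hT h4 (by simp [b1]) fun e => by
      obtain ⟨c, hc⟩ := mem_span_singleton.1 e
      simpa [b3, hb, hjl.symm, (left_ne_zero_of_mul_eq_one hs).symm] using congrArg (B · (b j)) hc
    refine ⟨a, ?_, ha⟩
    have h5 : B (s • (b j).1 + t • b l) y = 0 := by simp [b1]
    generalize s • (b j).1 + t • b l = w at h4 h5
    simp [h4, h5, hB.eq_zero_symm h5, h.left]
  have c1 : ∀ i i' j, i ≠ j → i' ≠ j → f i (b j) = f i' (b j) := fun i i' j hi hi' => by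
    obtain ⟨l, -, hl⟩ := Finset.exists_mem_notMem_of_card_lt_card (s := {i, i', j})
      (t := Finset.univ) (Finset.card_le_three.trans_lt (by simp))
    simp only [Finset.mem_insert, Finset.mem_singleton, not_or] at hl
    have k : ∀ t : F, t * σ t = 1 → f i (b j) + t * f i (b l) = f i' (b j) + t * f i' (b l) :=
      fun t ht => by
        obtain ⟨a, h4, h5⟩ := c0 j l 1 t (Ne.symm hl.2.2) (by simp) ht
        have h7 := f2 i _ h4 h5 (by simp [b1, h.left]) (by simp [b3, hb, hi.symm, hl.1])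
        have h8 := f2 i' _ h4 h5 (by simp [b1, h.left]) (by simp [b3, hb, hi'.symm, hl.2.1])
        simp only [map_add, map_smul, f1, smul_eq_mul] at h7 h8
        linear_combination h7 - h8
    exact mul_left_cancel₀ (sub_ne_zero.2 hω1) (by
      linear_combination ω * k 1 (by simp) - k ω hω)
  let φ : V →ₗ[F] F := B.flip y' + ∑ j, f (if j = 0 then 1 else 0) (b j) • B.flip (b j)
  have c2 : ∀ x i, B x x = 0 → UTv B H x → B x y = 0 → B x (b i) = 0 → φ x = 0 :=
    fun x i h4 h5 h7 h8 => by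
      rw [← f2 i x h4 h5 h7 h8]
      conv_rhs => rw [b4 x h7]
      simp only [φ, LinearMap.add_apply, LinearMap.sum_apply, LinearMap.smul_apply,
        LinearMap.flip_apply, map_add, map_smul, map_sum, f1, smul_eq_mul, mul_one]
      refine congrArg _ (Finset.sum_congr rfl fun j _ => ?_)
      rcases eq_or_ne i j with rfl | hij
      · simp [h8]
      · rw [mul_comm, c1 i _ j hij]
        split_ifs with h9 <;> simp [h9, eq_comm]
  refine ⟨φ, by simp [φ, h.pair, b3], fun x h4 h5 h7 => ?_⟩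
  by_cases h8 : ∃ i, B x (b i) = 0
  · exact h8.elim fun i hi => c2 x i h4 h5 h7 hi
  push Not at h8
  have h9 : ∀ i, B x (b i) * σ (B x (b i)) = 1 := fun i =>
    (h3 _ (by rw [hB.norm_fixed]; linear_combination (B x (b i) * σ (B x (b i))) * h2)).resolve_left
      (by simp [h8 i])
  have h01 : (0 : Fin (m + 4)) ≠ 1 := by simp
  obtain ⟨a, h10, h11⟩ := c0 0 1 _ _ h01 (h9 0) (h9 1)
  have h12 : B x (B x (b 0) • (b 0).1 + B x (b 1) • b 1 + a • y) = 0 := by
    simp only [map_add, map_smulₛₗ, h7, smul_eq_mul]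
    linear_combination h9 0 + h9 1 + h2
  have h13 := c2 _ 2 h10 h11 (by simp [b1, h.left]) (by
    simp [b3, hb, Fin.ext_iff, Nat.mod_eq_of_lt (show 2 < m + 4 by omega)])
  have h14 : B (x + (-1 : F) • (B x (b 0) • (b 0).1 + B x (b 1) • b 1 + a • y)) (b 0) = 0 := by
    simp [b3, hb]
  have h15 : B (x + (-1 : F) • (B x (b 0) • (b 0).1 + B x (b 1) • b 1 + a • y)) y = 0 := by
    simp [b1, h7, h.left]
  generalize B x (b 0) • (b 0).1 + B x (b 1) • b 1 + a • y = w at *
  have h16 : B (x + (-1 : F) • w) (x + (-1 : F) • w) = 0 := by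
    simp [h4, h10, h12, hB.eq_zero_symm h12]
  simpa [h13] using c2 _ 0 h16 (add_X hB hH hG h4 (by simp [h10]) h5 (h11.smul hB _) h16) h15 h14

theorem exists_pair_X {y : V} (hy : B y y = 0) (hT : ¬ UTv B H y) :
    ∃ y', UHypPair B y y' ∧ ∀ x, B x x = 0 → UTv B H x → B x y = 0 → B x y' = 0 := by
  obtain ⟨y', h⟩ := hB.exists_uHypPair (z := y) (fun e => hT (e ▸ uTv_zero)) hy
  obtain ⟨f, h1, h2⟩ :
      ∃ f : V →ₗ[F] F, f y = 1 ∧ ∀ x, B x x = 0 → UTv B H x → B x y = 0 → f x = 0 := by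
    by_cases h2 : q = 2
    · subst h2
      rcases hn.eq_or_lt with h5 | h6
      swap
      · exact exists_form_two hB hH hn hG hq h6 h hT
      obtain ⟨ω, hω, hω'⟩ := hB.exists_norm_one_ne
      have hω0 : ω ≠ 0 := by rintro rfl; simp at hω
      have h3 : ω ^ 3 = 1 := by rw [← hω, hq.norm_eq_pow]
      obtain ⟨f, h1, h2⟩ := exists_form hB hH hG h hT (a := 1) (b := ω)
        (g := LinearEquiv.smulOfNeZero F V ω hω0 * uHyp B y y' ω⁻¹) (mem_USG'.2 ⟨mul_mem
          (mem_UG.2 fun u v => by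
            simp [mul_comm (σ ω)]; linear_combination B u v * hω)
          (hB.uHyp_mem h (inv_ne_zero hω0)), by
            rw [LinearEquiv.coe_toLinearMap_mul, map_mul, h.det_uHyp (inv_ne_zero hω0),
              show (LinearEquiv.smulOfNeZero F V ω hω0).toLinearMap = ω • LinearMap.id from rfl,
              LinearMap.det_smul, LinearMap.det_id, ← h5, map_inv₀, inv_inv, hq.pow]
            field_simp
            linear_combination (ω ^ 3 + 1) * h3⟩) one_ne_zero hω0
        (by rintro rfl; simp at hω') (by simp [h.uHyp_left (inv_ne_zero hω0), hω0])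
      exact ⟨f, h1, fun x h3 h4 h5 => h2 x h3 h4 h5 ⟨_, by
        rw [LinearEquiv.mul_apply, h.uHyp_apply (inv_ne_zero hω0), h5]
        simp [smul_smul]; rfl⟩⟩
    · obtain ⟨a, ha, ha0, ha1⟩ := hq.exists_fixed_ne h2
      obtain ⟨f, h1, h2⟩ := exists_form hB hH hG h hT (g := uHyp B y y' a) (mem_USG'.2
        ⟨hB.uHyp_mem h ha0, by rw [h.det_uHyp ha0, ha, mul_inv_cancel₀ ha0]⟩) ha0 one_ne_zero ha1
        (h.uHyp_left ha0)
      exact ⟨f, h1, fun x h3 h4 h5 => h2 x h3 h4 h5 ⟨_, by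
        rw [h.uHyp_apply ha0, h5]; simp; rfl⟩⟩
  obtain ⟨w, hw⟩ := hB.exists_rep f
  obtain ⟨a, b, h3, h4⟩ := hB.exists_partner_of_ne hy (y := w) (by simp [hw, h1])
  exact ⟨_, hB.uHypPair hy h3 h4, fun x h5 h6 h7 => by simp [hw, h2 x h5 h6 h7, h7]⟩

theorem exists_fix {y : V} (hy : B y y = 0) (hT : ¬ UTv B H y) :
    ∃ p, p ≠ 0 ∧ ∀ g ∈ H, g p ∈ F ∙ p := by
  have := hq.finite
  obtain ⟨y', h, h1⟩ := exists_pair_X hB hq hH hn hG hy hT
  have hk : 3 ≤ finrank F (U0 B y y') := by rw [U0_finrank hB h]; omega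
  have w1 : ∀ z : U0 B y y', B z z = 0 → UTv B H z := fun z hz => by
    rcases eq_or_ne z 0 with rfl | hz0
    · exact uTv_zero
    obtain ⟨a, ha⟩ := exists_X hB hq hH hn hG hy hT hz (U0_left hB z) fun e => by
      obtain ⟨t, ht⟩ := mem_span_singleton.1 e
      have := congrArg (B · y') ht
      simp only [map_smul, LinearMap.smul_apply, h.pair, U0_right hB z, smul_eq_mul, mul_one] at this
      exact hz0 (Subtype.ext (by simp [← ht, this]))
    have := h1 _ (by simp [hz, hy, U0_left hB z, hB.eq_zero_symm (U0_left hB z)]) ha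
      (by simp [hy, U0_left hB z])
    simpa [show a = 0 by simpa [U0_right hB z, h.pair] using this] using ha
  let π : V → U0 B y y' := fun v => ⟨v - B v y' • y - B v y • y', mem_uPerp_span_pair.2
    ⟨hB.eq_zero_symm (by simp [h.left, h.pair']), hB.eq_zero_symm (by simp [h.right, h.pair])⟩⟩
  have p1 : ∀ v (z : U0 B y y'), B (π v) z = B v z := fun v z => by
    simp [π, hB.eq_zero_symm (U0_left hB z), hB.eq_zero_symm (U0_right hB z)]
  have p2 : ∀ v (z : U0 B y y'), B z (π v) = B z v := fun v z => by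
    simp [π, U0_left hB z, U0_right hB z]
  have w2 : ∀ x (z : U0 B y y'), B x x = 0 → UTv B H x → B z z = 0 → B (π x) z + B z (π x) = 0 →
      B (x + z) (x + z) = 0 ∧ UTv B H (x + z) := fun x z h2 h3 h4 h5 => by
    have h6 : B (x + z) (x + z) = 0 := by
      rw [p1, p2] at h5
      simpa [h2, h4, add_comm] using h5
    exact ⟨h6, add_X hB hH hG h2 h4 h3 (w1 z h4) h6⟩
  have w3 : ∀ x x', B x x = 0 → UTv B H x → B x y = 1 → B x' x' = 0 → UTv B H x' → B x' y = 1 →
      (∀ t : F, σ t = t → π x' ≠ t • π x) → B x' y' = B x y' := fun x x' h2 h3 h4 h5 h6 h7 h8 => by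
    obtain ⟨z, h9, h10, h11⟩ := exists_trace' (U0_herm hB h) hk h8
    obtain ⟨h12, h13⟩ := w2 x z h2 h3 h9 h10
    have h14 : x' + (-1 : F) • (x + z) = (π x' - π x - z).1 + (B x' y' - B x y') • y := by
      simp only [π, h4, h7, Submodule.coe_sub]; module
    have h15 : B (x' + (-1 : F) • (x + z)) (x' + (-1 : F) • (x + z)) = 0 := by
      rw [uRes_apply] at h11
      generalize π x' - π x - z = u at h11 h14
      rw [h14]
      simp [h11, hy, U0_left hB u, hB.eq_zero_symm (U0_left hB u)]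
    have := h1 _ h15 (add_X hB hH hG h5 (by
      rw [map_smulₛₗ, map_smul, LinearMap.smul_apply, h12]; simp) h6 (h13.smul hB _) h15)
      (by simp [h4, h7, U0_left hB z])
    simpa [U0_right hB z, add_neg_eq_zero] using this
  have w4 : ∀ x x', B x x = 0 → UTv B H x → B x y = 1 → B x' x' = 0 → UTv B H x' → B x' y = 1 →
      B x' y' = B x y' := fun x x' h2 h3 h4 h5 h6 h7 => by
    by_cases h8 : ∀ t : F, σ t = t → π x' ≠ t • π x
    · exact w3 x x' h2 h3 h4 h5 h6 h7 h8
    by_cases h9 : ∀ t : F, σ t = t → π x ≠ t • π x'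
    · exact (w3 x' x h5 h6 h7 h2 h3 h4 h9).symm
    push Not at h8 h9
    obtain ⟨t, -, ht⟩ := h8
    obtain ⟨u, hu, hu'⟩ := exists_notMem_of_finrank_lt (U := F ∙ π x)
      (A := uPerp (uRes B (U0 B y y')) (F ∙ π x)) (by
        have := finrank_span_single_le (F := F) (π x)
        rw [(U0_herm hB h).finrank_uPerp]; omega)
    obtain ⟨z, h10, h11, h12⟩ := exists_trace (U0_herm hB h) hk (w := π x) (w' := u)
      fun t _ e => hu' (mem_span_singleton.2 ⟨t, e.symm⟩)
    obtain ⟨h13, h14⟩ := w2 x z h2 h3 h10 h11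
    have h15 : π (x + z) = π x + z := Subtype.ext (by
      simp only [π, map_add, LinearMap.add_apply, U0_left hB z, U0_right hB z, Submodule.coe_add]
      module)
    have h16 : z ∉ F ∙ π x := fun e => by
      obtain ⟨s, rfl⟩ := mem_span_singleton.1 e
      rw [mem_uPerp_span_singleton] at hu
      exact h12 (by
        rw [map_smulₛₗ, map_smul, LinearMap.smul_apply, hu, (U0_herm hB h).eq_zero_symm hu]; simp)
    rcases eq_or_ne (π x') 0 with h17 | h17
    · obtain ⟨s, -, hs⟩ := h9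
      rw [h17, smul_zero] at hs
      rw [← w3 x' (x + z) h5 h6 h7 h13 h14 (by simp [h4, U0_left hB z]) fun s _ e => h16 (by
        rw [h15, h17, hs, zero_add, smul_zero] at e; simp [e])]
      simp [U0_right hB z]
    · rw [w3 (x + z) x' h13 h14 (by simp [h4, U0_left hB z]) h5 h6 h7 fun s _ e => h16 (by
        have hs : s ≠ 0 := by rintro rfl; exact h17 (by simpa using e)
        rw [h15, ht, smul_add] at e
        refine (smul_mem_iff _ hs).1 (mem_span_singleton.2 ⟨t - s, ?_⟩)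
        rw [sub_smul, e, add_sub_cancel_left])]
      simp [U0_right hB z]
  obtain ⟨z, z', hz⟩ := (U0_herm hB h).exists_uHypPair' (by omega)
  have z1 : B z z = 0 := hz.left
  have z2 : B z' z' = 0 := hz.right
  have z3 : B z' z = 1 := hz.pair'
  have h2 : B (y + z) (y + z) = 0 := by
    simp [hy, z1, U0_left hB z, hB.eq_zero_symm (U0_left hB z)]
  obtain ⟨a, h3⟩ := exists_X hB hq hH hn hG h2 (fun e => by
      simpa [h.pair, U0_right hB z] using h1 _ h2 e (by simp [hy, U0_left hB z])) (z := y' - z')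
    (by simp [h.right, z2, U0_right hB z', hB.eq_zero_symm (U0_right hB z')])
    (by simp [h.pair', z3, U0_left hB z', hB.eq_zero_symm (U0_right hB z)]) fun e => by
      obtain ⟨t, ht⟩ := mem_span_singleton.1 e
      simpa [hy, U0_left hB z, U0_left hB z', h.pair'] using congrArg (B · y) ht
  have h4 : B (y' - z' + a • (y + z)) y = 1 := by simp [hy, U0_left hB z, U0_left hB z', h.pair']
  have h5 : B (y' - z' + a • (y + z)) (y' - z' + a • (y + z)) = 0 := by
    have e1 : B (y' - z') (y + z) = 0 := by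
      simp [h.pair', z3, U0_left hB z', hB.eq_zero_symm (U0_right hB z)]
    rw [map_add, map_add, LinearMap.add_apply, LinearMap.add_apply]
    simp only [map_smulₛₗ, LinearMap.smul_apply, e1, hB.eq_zero_symm e1, h2]
    simp [h.right, z2, U0_right hB z', hB.eq_zero_symm (U0_right hB z')]
  generalize y' - z' + a • (y + z) = x at h3 h4 h5
  have w5 : ∀ v, B v v = 0 → UTv B H v → B v (y' - σ (B x y') • y) = 0 := fun v h6 h7 => by
    by_cases h8 : B v y = 0
    · simp [h8, h1 v h6 h7 h8]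
    · have := w4 x _ h5 h3 h4 (by simp [h6]) (h7.smul hB (B v y)⁻¹) (by simp [h8])
      simp only [map_smul, LinearMap.smul_apply, smul_eq_mul] at this
      simp only [map_sub, map_smulₛₗ, hB.invol, ← this, smul_eq_mul]
      field_simp
      ring
  refine ⟨y' - σ (B x y') • y, fun e => by simpa [hy, h.pair] using congrArg (B y) e,
    fun g hg => ?_⟩
  have w6 : ∀ v, B v v = 0 → UTv B H v → B v (g (y' - σ (B x y') • y)) = 0 := fun v h6 h7 => by
    rw [UG_apply_right (hH hg).1]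
    exact w5 _ (by rw [← h6]; exact USG_map (hH (inv_mem hg)) v v)
      (h7.map (hH.trans inf_le_left) (inv_mem hg))
  generalize g (y' - σ (B x y') • y) = p at w6
  have h6 : p ∈ span F {y, y'} := by
    rw [← hB.uPerp_uPerp (span F {y, y'})]
    refine hB.le_uPerp_comm.1 (hB.le_of_isotropic (U0_disjoint hB h) (by omega) fun v hv h6 =>
      mem_uPerp_span_singleton.2 (hB.eq_zero_symm (w6 v h6 (w1 ⟨v, hv⟩ h6))))
      (mem_span_singleton_self p)
  obtain ⟨s, t, rfl⟩ := mem_span_pair.1 h6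
  have h7 := hB.eq_zero_symm (w6 x h5 h3)
  simp only [map_add, map_smul, LinearMap.add_apply, LinearMap.smul_apply, hB.eq_one_symm h4,
    smul_eq_mul, ← hB.symm x y'] at h7
  exact mem_span_singleton.2 ⟨t, by
    rw [show s = -(t * σ (B x y')) by linear_combination h7]; module⟩

omit hG in
/-- A proper subgroup of `SU(V)`, `dim V ≥ 5`, has index at least the number of isotropic points or
the number of non-isotropic points. -/
theorem su_index (h : ¬ USG B ≤ H) :
    uIsoNum q (finrank F V) ≤ H.relIndex (USG B) * (q ^ 2 - 1) ∨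
      uUnitNum q (finrank F V) ≤ H.relIndex (USG B) * (q + 1) := by
  have := hq.finite
  have := u_finite_linearEquiv (F := F) (V := V)
  have hq2 := hq.two_le
  obtain ⟨m, hm⟩ := Nat.exists_eq_add_of_le' hn
  by_cases hlt : H.relIndex (USG B) < (q + 1) * q ^ (2 * (m + 3))
  · obtain ⟨y, hy, hT⟩ : ∃ y, B y y = 0 ∧ ¬ UTv B H y := by
      by_contra! h1
      refine h (hB.closure_uTransvs hq (by omega) ▸ (Subgroup.closure_le _).2 ?_)
      rintro _ ⟨z, c, hz, hc, rfl⟩
      exact h1 z hz c hc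
    obtain ⟨p, hp, h1⟩ := exists_fix hB hq hH hn (fun w hw hw0 => good hB hq hH hm hlt hw hw0) hy hT
    by_cases h2 : B p p = 0
    · exact Or.inl ((Nat.le_mul_of_pos_right _ (relIndex_pos _ _)).trans
        (fix_iso' hB hq hp h2 fun g hg _ => h1 g hg))
    · exact Or.inr (fix_non hB hq (by omega) h2 fun g hg _ => h1 g hg)
  · refine Or.inl (le_trans ?_ (Nat.mul_le_mul_right _ (not_lt.1 hlt)))
    have h1 : uIsoNum q (m + 5) ≤ q ^ (m + 5) * (q ^ (m + 4) + 1) := by
      have h2 : q ^ (m + 4) ≤ q ^ (m + 5) := Nat.pow_le_pow_right (by omega) (by omega)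
      have h3 : 1 ≤ q ^ (m + 4) := Nat.one_le_pow _ _ (by omega)
      rw [uIsoNum, show m + 5 - 1 = m + 4 from rfl]
      split_ifs
      · exact Nat.mul_le_mul_right _ (Nat.sub_le _ _)
      · obtain ⟨a, ha⟩ := Nat.exists_eq_add_of_le' h3
        rw [ha] at h2 ⊢
        rw [Nat.add_sub_cancel]
        nlinarith
    rw [hm]
    refine h1.trans ?_
    have h2 : 1 ≤ q ^ (m + 1) := Nat.one_le_pow _ _ (by omega)
    have h3 : q ^ 3 + 1 ≤ (q + 1) * (q ^ 2 - 1) := by
      obtain ⟨r, rfl⟩ := Nat.exists_eq_add_of_le' hq2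
      rw [show (r + 2) ^ 2 - 1 = (r + 1) * (r + 3) from Nat.sub_eq_of_eq_add (by ring)]
      nlinarith
    calc _ ≤ q ^ (m + 5) * (q ^ (m + 1) * (q ^ 3 + 1)) := by
          rw [mul_add (q ^ (m + 1)), ← pow_add, mul_one]; gcongr
      _ ≤ q ^ (m + 5) * (q ^ (m + 1) * ((q + 1) * (q ^ 2 - 1))) := by gcongr
      _ = _ := by ring

end Main

section Std

variable {n b : ℕ} (hq : UField σ q) (hn : 2 ≤ n)
  (h1 : ∀ H : Subgroup ((Fin n → F) ≃ₗ[F] (Fin n → F)), H ≤ USG (uStd σ (Fin n)) →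
    (∀ g ∈ USG (uStd σ (Fin n)), (∃ a : F, ∀ x, g x = a • x) → g ∈ H) →
    ¬ USG (uStd σ (Fin n)) ≤ H → b ≤ H.relIndex (USG (uStd σ (Fin n))))
include hq hn h1

theorem psu_lower (H : Subgroup (PSU n F q)) (hH : H ≠ ⊤) : b ≤ H.index := by
  have := hq.finite
  let f := (USG (uStd σ (Fin n))).subtype.comp (hq.suEquiv n).toMonoidHom
  have hf : f.range = USG (uStd σ (Fin n)) := by
    rw [MonoidHom.range_comp, MonoidHom.range_eq_top.2 (hq.suEquiv n).surjective,
      ← MonoidHom.range_eq_map, Subgroup.range_subtype]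
  have hf' : Function.Injective f := Subtype.val_injective.comp (hq.suEquiv n).injective
  have h2 := QuotientGroup.mk'_surjective (Subgroup.center (SU n F q))
  rw [← H.index_comap_of_surjective h2]
  have := h1 ((H.comap (QuotientGroup.mk' _)).map f) (hf ▸ Subgroup.map_le_range _ _)
    (fun g hg ha => by
      obtain ⟨k, hk⟩ := (hq.suEquiv n).surjective ⟨g, hg⟩
      have h3 := ((hq.isHerm_uStd (Fin n)).mem_center_USG_iff (by simpa) (g := ⟨g, hg⟩)).2 ha
      refine ⟨k, Subgroup.ker_le_comap _ _ ?_, congrArg Subtype.val hk⟩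
      rw [QuotientGroup.ker_mk', Subgroup.mem_center_iff]
      exact fun l => (hq.suEquiv n).injective (by
        rw [map_mul, map_mul, hk, Subgroup.mem_center_iff.1 h3]))
    fun e => hH (by
      rw [← hf, MonoidHom.range_eq_map, Subgroup.map_le_map_iff_of_injective hf'] at e
      refine eq_top_iff.2 fun g _ => ?_
      obtain ⟨g, rfl⟩ := h2 g
      exact e trivial)
  rwa [← hf, MonoidHom.range_eq_map, Subgroup.relIndex_map_map_of_injective _ _ hf',
    Subgroup.relIndex_top_right] at this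

omit h1 in
theorem psu_pst {x : Fin n → F} (hx : x ≠ 0)
    (h2 : (corb F (USG (uStd σ (Fin n))) x).ncard = b * (q ^ 2 - 1)) :
    ∃ H : Subgroup (PSU n F q), H.index = b := by
  have := hq.finite
  let f := (USG (uStd σ (Fin n))).subtype.comp (hq.suEquiv n).toMonoidHom
  have hf : f.range = USG (uStd σ (Fin n)) := by
    rw [MonoidHom.range_comp, MonoidHom.range_eq_top.2 (hq.suEquiv n).surjective,
      ← MonoidHom.range_eq_map, Subgroup.range_subtype]
  refine ⟨((pst F _ x).comap f).map (QuotientGroup.mk' _), ?_⟩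
  have h3 : Subgroup.center (SU n F q) ≤ (pst F _ x).comap f := fun g hg => by
    obtain ⟨a, ha⟩ := ((hq.isHerm_uStd (Fin n)).mem_center_USG_iff (by simpa)
      (g := hq.suEquiv n g)).1 (Subgroup.mem_center_iff.2 fun k => by
        obtain ⟨k, rfl⟩ := (hq.suEquiv n).surjective k
        rw [← map_mul, ← map_mul, Subgroup.mem_center_iff.1 hg])
    exact mem_pst_of_eq hx (ha x)
  rw [Subgroup.index_map, QuotientGroup.ker_mk', sup_eq_left.2 h3,
    MonoidHom.range_eq_top.2 (QuotientGroup.mk'_surjective _), Subgroup.index_top, mul_one,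
    Subgroup.index_comap, hf, pst, relIndex_stabilizer]
  rw [ncard_corb _ hx, hq.card] at h2
  exact Nat.eq_of_mul_eq_mul_right (Nat.sub_pos_of_lt (by nlinarith [hq.two_le])) h2

omit h1 in
theorem psu_iso (h2 : uIsoNum q n = b * (q ^ 2 - 1)) : ∃ H : Subgroup (PSU n F q), H.index = b := by
  have := hq.finite
  have hB := hq.isHerm_uStd (Fin n)
  obtain ⟨x, y, h⟩ := hB.exists_uHypPair' (by simpa)
  refine psu_pst hq hn h.left_ne_zero (h2 ▸ hB.card_isotropic hq (finrank_fin_fun F) ▸ ?_)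
  refine congrArg Set.ncard (Set.Subset.antisymm ?_ fun v hv => ?_)
  · rintro _ ⟨g, hg, a, ha, rfl⟩
    exact ⟨smul_ne_zero ha (g.map_ne_zero_iff.2 h.left_ne_zero), by
      simp [USG_map hg, h.left]⟩
  · obtain ⟨g, hg, a, ha, e⟩ := hB.exists_USG_isotropic_smul h.left_ne_zero h.left hv.1 hv.2
    exact ⟨g, hg, a⁻¹, inv_ne_zero ha, by rw [show g • x = a • v from e, inv_smul_smul₀ ha]⟩

omit h1 in
theorem psu_non (h2 : uUnitNum q n = b * (q + 1)) : ∃ H : Subgroup (PSU n F q), H.index = b := by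
  have := hq.finite
  have hB := hq.isHerm_uStd (Fin n)
  have : Nonempty (Fin n) := ⟨⟨0, by omega⟩⟩
  obtain ⟨x, h⟩ := hB.exists_norm_one
  have h3 := ncard_non hB hq
  rw [finrank_fin_fun, h2, mul_comm, mul_assoc, ← Nat.sq_sub_sq, one_pow] at h3
  refine psu_pst hq hn (x := x) (by rintro rfl; simp at h) (h3 ▸ ?_)
  refine congrArg Set.ncard (Set.Subset.antisymm ?_ (non_subset hB hq (by simpa) (by simp [h])))
  rintro _ ⟨g, hg, a, ha, rfl⟩
  simp [USG_map hg, h, ha]

end Std

end Cfsg.Agent.Cl.MI.U
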