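/-
Overgroups of tensor product subgroups of orthogonal groups.
-/
import Mathlib
import Cfsg.Agent.Cl.MxO3

set_option autoImplicit false
set_option linter.unusedSectionVars false
set_option linter.unusedVariables false

namespace Cfsg.Agent.Cl.Mx

open Matrix Cfsg.Geo Cfsg.Agent.Cl.Max QuadraticMap Module
open scoped Kronecker commutatorElement

variable {ι : Type} [Fintype ι] [DecidableEq ι] {F : Type*} [Field F]
variable {κ : Type} [Fintype κ] [DecidableEq κ] {τ : Type} [Fintype τ] [DecidableEq τ]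
variable {Q : QuadraticForm F (ι → F)}

theorem omegaGL_eq (Q : (ι → F) → F) : omegaGL Q = ⁅isometryGroup F Q, isometryGroup F Q⁆ := by
  rw [omegaGL, Omega, commutator_def, Subgroup.map_commutator, ← MonoidHom.range_eq_map,
    Subgroup.range_subtype]

theorem map_omega_le {Q' : (κ → F) → F} {Q : (ι → F) → F} (φ : GL κ F →* GL ι F)
    (h : ∀ g ∈ isometryGroup F Q', φ g ∈ isometryGroup F Q) {g : GL κ F} (hg : g ∈ omegaGL Q') :
    φ g ∈ omegaGL Q := by
  have h1 : (isometryGroup F Q').map φ ≤ isometryGroup F Q := by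
    rintro _ ⟨g, hg, rfl⟩; exact h g hg
  rw [omegaGL_eq] at hg ⊢
  exact Subgroup.commutator_mono h1 h1 (Subgroup.map_commutator _ _ φ ▸ Subgroup.mem_map_of_mem φ hg)

/-- A group acting on one block. -/
noncomputable def bmHom (i : τ) : GL κ F →* GL (κ × τ) F :=
  MonoidHom.mk' (fun x => bm 1 (Function.update 1 i x)) fun x y =>
    Units.ext (Matrix.toLin'.injective (LinearMap.ext fun v => blk_ext fun k => by
      have h := fun A w => blk_bm (κ := κ) (F := F) 1 A w k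
      simp only [Equiv.Perm.coe_one, id] at h
      rw [toLin'_apply, toLin'_apply, Units.val_mul, ← mulVec_mulVec, h, h, h]
      by_cases hk : k = i <;> simp [hk]))

theorem o_tensor_three_between [Fintype F] (hq : Fintype.card F = 3)
    (hQ : (polarBilin Q).Nondegenerate) {b : ℕ} (hb : 5 ≤ b) {f₁ : (Fin 3 → F) → (Fin 3 → F) → F}
    {f₂ : (Fin b → F) → (Fin b → F) → F} (hf₁ : IsSymmetricForm f₁) (hf₂ : IsSymmetricForm f₂)
    {e : ι ≃ Fin 3 × Fin b} {P : GL ι F} (hT : IsTensorFormStructure id (polar ⇑Q) f₁ f₂ e P) :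
    ∃ K, tensorProductSubgroup 3 b e P ⊓ omegaGL ⇑Q < K ∧ K < omegaGL ⇑Q := by
  have hn : 5 ≤ Fintype.card ι := by simp [Fintype.card_congr e]; omega
  haveI : Nonempty ι := Fintype.card_pos_iff.1 (by omega)
  have h2 := two_ne_zero_of_card_three hq
  obtain ⟨P', hT', he⟩ := tensor_three_model h2 (hform_of_symmetric hf₁)
    (tStr_of_tensor (σ := RingHom.id F) rfl hT).swap
  have h₂ := hform_of_symmetric hf₂
  obtain ⟨x, hx, hns⟩ := SetLike.not_le_iff_exists.1
    (qs_omega (toQF_nondeg (h₂.quad h2)) (by simpa using hb)).not_le_scalars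
  rw [← tensorProductSubgroup_swap, ← he]
  refine tensor_frame_between (qs_omega hQ hn) (by norm_num) _ P' (fun g hg hs => ?_) hns ?_
  · obtain ⟨x, -, y, hy, rfl⟩ := exists_kron_sim (hform_polar hQ) hT' h₂
      (hform_dForm (τ := Fin 3) fun _ => rfl) hg
      (isoG_le_similarityGroup _ (isometryGroup_le_isoG _ (omegaGL_le _ hs)))
    exact ⟨x, y, rfl, monomial_three hq hy⟩
  · rw [tForm_dForm h₂] at hT'
    refine map_omega_le ((trG _ P').toMonoidHom.comp (bmHom _)) (fun g hg => mem_iso_of_polar h2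
      (hT'.trG_mem_isoG_iff.2 (bm_update_mem_isoG (σ := RingHom.id F) _ fun u v => ?_))) hx
    have h3 : polar _ _ _ = polar _ _ _ := isometryGroup_le_isoG _ hg u v
    simp only [coe_toQF, h₂.polar_self] at h3
    exact mul_left_cancel₀ h2 h3

/-- A pure tensor. -/
def tv (e : ι ≃ κ × τ) (P : GL ι F) (x : κ → F) (y : τ → F) : ι → F :=
  trV e P fun p => x p.1 * y p.2

theorem tv_kron (e : ι ≃ κ × τ) (P : GL ι F) (a : GL κ F) (b : GL τ F) (x : κ → F) (y : τ → F) :
    (trG e P (kronG a b) : Matrix ι ι F) *ᵥ tv e P x y =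
      tv e P ((a : Matrix κ κ F) *ᵥ x) ((b : Matrix τ τ F) *ᵥ y) := by
  rw [tv, trG_mulVec, kronG_mulVec_pure, tv]

theorem polar_tv {ε₁ ε₂ : F} {f : (ι → F) → (ι → F) → F} {f₁ : (κ → F) → (κ → F) → F}
    {f₂ : (τ → F) → (τ → F) → F} (h₁ : HForm (RingHom.id F) ε₁ f₁)
    (h₂ : HForm (RingHom.id F) ε₂ f₂) {e : ι ≃ κ × τ} {P : GL ι F}
    (hT : TStr (RingHom.id F) f (tForm (RingHom.id F) f₁ f₂) e P) :
    ∃ c : F, c ≠ 0 ∧ ∀ x y x' y', f (tv e P x y) (tv e P x' y') = c * (f₁ x x' * f₂ y y') := by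
  obtain ⟨c, hc, hT⟩ := hT
  exact ⟨c, hc, fun x y x' y' => by rw [tv, tv, hT, tForm_pure h₁ h₂]⟩

theorem exists_tv_of_mem {a b : ℕ} {e : ι ≃ Fin a × Fin b} {P g : GL ι F}
    (hg : g ∈ tensorProductSubgroup a b e P) (x : Fin a → F) (y : Fin b → F) :
    ∃ x' y', (g : Matrix ι ι F) *ᵥ tv e P x y = tv e P x' y' := by
  obtain ⟨A, B, h⟩ := (mem_tensorProductSubgroup e P g).1 hg
  exact ⟨_, _, by rw [h]; exact tv_kron e P A B x y⟩

theorem HForm.exists_perp_two {σ : F →+* F} {ε : F} {f : (κ → F) → (κ → F) → F}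
    (h : HForm σ ε f) (hn : 3 ≤ Fintype.card κ) (x y : κ → F) :
    ∃ a, a ≠ 0 ∧ f a x = 0 ∧ f a y = 0 := by
  let l := (fL h 1 x).prod (fL h 1 y)
  have h1 := l.finrank_range_add_finrank_ker
  have h2 : finrank F (LinearMap.range l) ≤ 2 := (Submodule.finrank_le _).trans (by simp)
  rw [finrank_fun] at h1
  obtain ⟨a, ha, ha0⟩ := (LinearMap.ker l).ne_bot_iff.1 fun h => by
    rw [h, finrank_bot] at h1; omega
  exact ⟨a, ha0, by simpa [l, fL_apply] using ha⟩

theorem o_tensor_two_between [Fintype F] (hq : Fintype.card F = 2)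
    (hQ : (polarBilin Q).Nondegenerate) {b : ℕ} (hb : 3 ≤ b) {f₁ : (Fin 2 → F) → (Fin 2 → F) → F}
    {f₂ : (Fin b → F) → (Fin b → F) → F} (hf₁ : IsSymplecticForm f₁) (hf₂ : IsSymplecticForm f₂)
    {e : ι ≃ Fin 2 × Fin b} {P : GL ι F} (hT : IsTensorFormStructure id (polar ⇑Q) f₁ f₂ e P)
    (hp : ∀ x y, Q (tv e P x y) = 0) :
    ∃ K, tensorProductSubgroup 2 b e P ⊓ omegaGL ⇑Q < K ∧ K < omegaGL ⇑Q := by
  have hn : 5 ≤ Fintype.card ι := by simp [Fintype.card_congr e]; omega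
  haveI : Nonempty ι := Fintype.card_pos_iff.1 (by omega)
  haveI := nonempty_right e
  have h2 := two_eq_zero_of_card_two hq
  have h₁ := hform_of_symplectic hf₁
  have h₂ := hform_of_symplectic hf₂
  have hT' := tStr_of_tensor (σ := RingHom.id F) rfl hT
  obtain ⟨c, hc, hf⟩ := polar_tv h₁ h₂ hT'
  have hd : f₁ ![1, 0] ![0, 1] ≠ 0 := fun h0 => by
    have := h₁.nondeg ![0, 1] fun x => by rw [alt_two hf₁, h0, zero_mul]
    simpa using congrFun this 1
  replace hf : ∀ x y x' y', polar Q (tv e P x y) (tv e P x' y') = jForm F x x' * f₂ y y' :=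
    fun x y x' y' => by rw [hf, alt_two hf₁, (eq_of_card_two hq _).resolve_left hc,
      (eq_of_card_two hq _).resolve_left hd, one_mul, one_mul]
  let a : GL (Fin 2) F := mkGL (om2 F) (om2 F * om2 F) (by
    ext i j; fin_cases i <;> fin_cases j <;> simp [om2, Matrix.mul_apply])
  obtain ⟨k, hk⟩ := exists_og (Q := Q) (g := trG e P (kronG a 1)) (mem_iso_of_span
    (hT'.trG_mem_isoG_iff.2 (kron_mem_isoG h₁ h₂ (fun u v => by
      change f₁ (om2 F *ᵥ u) (om2 F *ᵥ v) = f₁ u v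
      rw [alt_two hf₁, alt_two hf₁ u]
      simp [jForm, om2, mulVec, dotProduct]
      ring_nf; simp) (one_mem _))) (top_le_span_trV e P) (by
    rintro _ ⟨p, rfl⟩
    dsimp only
    rw [single_eq_pure]
    exact (congrArg Q (tv_kron e P a 1 _ _)).trans ((hp _ _).trans (hp _ _).symm)))
  have hk' : ∀ x y, k.1 (tv e P x y) = tv e P ![x 1, -x 0 - x 1] y := fun x y => by
    rw [← og_mulVec, hk, tv_kron, Units.val_one, one_mulVec]
    congr 1
    funext i; fin_cases i <;> simp [a, coe_mkGL, om2, mulVec, dotProduct, sub_eq_add_neg]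
  obtain ⟨z₁, hz₁⟩ := exists_ne (0 : Fin b → F)
  obtain ⟨z, hz⟩ := h₂.exists_ne_zero hz₁
  replace hz := (eq_of_card_two hq _).resolve_left hz
  obtain ⟨z₃, h30, h31, h3⟩ := HForm.exists_perp_two h₂ (by simpa using hb) z₁ z
  obtain ⟨z₄, hz₄⟩ := h₂.exists_ne_zero h30
  have hs : ∀ x y, f₂ x y = -f₂ y x := fun x y => by simpa using h₂.herm x y
  have ha := hf₂.alternating
  let u := tv e P ![1, 0] z₁ + tv e P ![0, 1] (z₁ + z₃)
  have hu : Q u = 0 := by
    simp [u, o_qadd, hp, hf, jForm, h₂.add_right, ha, hs z₁ z₃, h31]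
  have hku : k.1 u = tv e P ![0, -1] z₁ + tv e P ![1, -1] (z₁ + z₃) := by
    simp [u, hk']
  have huk : polar Q u (k.1 u) = 0 := by
    simp [hku, u, oexp, hf, jForm, h₂.add_right, h₂.add_left, ha, hs z₁ z₃, h31]
  have hkk : k.1 (k.1 u) = -u - k.1 u := by
    rw [hku, map_add, hk', hk']
    simp only [u, tv, ← map_add, ← map_neg, ← map_sub]
    congr 1
    funext ⟨i, j⟩
    fin_cases i
    · simp; ring
    · simp
  refine exists_between_of (inf_le_left.trans (tensor_two_le hq e P))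
    ⟨og Q (eich Q u (k.1 u)), mem_normalizer_adjoin_of_commute ?_, eich_mem_om hQ hn _ _,
      fun h => ?_⟩ (SetLike.not_le_iff_exists.1 ((qs_omega hQ hn).not_le_field
      (isFieldSubalgebra_quad (psiL_quad e P om2_sq) (irr_of_card_two hq)) one_lt_two))
  · have h4 : eich Q (k.1 u) (k.1 (k.1 u)) = eich Q u (k.1 u) := by
      rw [hkk, sub_eq_add_neg, ← neg_one_smul F (k.1 u), eich_add_smul_self (by simpa using hu)
        (by rw [polar_neg_right, polar_comm, huk, neg_zero]), eich_swap (Q := Q) (u := -u)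
          (by simpa using hu) (by simpa using hu) (by simpa using huk), ← neg_one_smul F u,
        eich_smul_left hu (by simpa using huk)]
      simp
    have h5 := congrArg (fun g => (og Q g : Matrix ι ι F)) (mul_eich k u (k.1 u))
    simp only [map_mul, h4, hk, Units.val_mul] at h5
    exact h5.symm
  · obtain ⟨x', y', h4⟩ := exists_tv_of_mem h ![1, 0] z
    rw [og_mulVec, eich_app hu huk, OG.map_app, hu, hku] at h4
    have e1 := congrArg (polar Q · (tv e P ![0, 1] z₁)) h4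
    have e2 := congrArg (polar Q · (tv e P ![1, 0] z₁)) h4
    have e3 := congrArg (polar Q · (tv e P ![1, 0] z₄)) h4
    simp [u, oexp, hf, jForm, h₂.add_right, h₂.add_left, ha, h31, hs z z₃, h3, hz] at e1 e2 e3
    rcases e2 with e2 | e2
    · rw [e2, zero_mul] at e3
      exact hz₄ (by rw [hs]; linear_combination e3)
    · simp [e2] at e1

/-- A pure tensor in dimension four. -/
def p4 (s t : Fin 2 → F) : Fin 4 → F := ![s 0 * t 0, s 0 * t 1, s 1 * t 0, s 1 * t 1]

theorem jjForm_p4 (s t s' t' : Fin 2 → F) :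
    jjForm F (p4 s t) (p4 s' t') = jForm F s s' * jForm F t t' := by
  simp [jjForm, p4, jForm]; ring

theorem family_of_det [Finite F] (h2 : (2 : F) ≠ 0) {B : GL (Fin 4) F} (hB : B ∈ isoG (jjForm F))
    (hd : (B : Matrix (Fin 4) (Fin 4) F).det = 1) :
    ∃ φ ψ : (Fin 2 → F) → Fin 2 → F, ∀ s t,
      (B : Matrix (Fin 4) (Fin 4) F) *ᵥ p4 s t = p4 (φ s) (ψ t) := by
  have hQ := toQF_nondeg ((hform_jjForm (F := F)).quad h2)
  obtain ⟨k, rfl⟩ := exists_og (Q := toQF ((hform_jjForm (F := F)).quad h2)) (g := B)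
    (mem_isometryGroup_iff.2 fun v => hB v v)
  have hr : ∀ y, toQF ((hform_jjForm (F := F)).quad h2) y ≠ 0 →
      ∃ φ ψ : (Fin 2 → F) → Fin 2 → F, ∀ s t,
      (orefl (toQF ((hform_jjForm (F := F)).quad h2)) y).1 (p4 s t) = p4 (φ t) (ψ s) := by
    intro y hy
    have h1 : y 0 * y 3 - y 1 * y 2 ≠ 0 := fun h => hy (by
      change jjForm F y y = 0
      simp only [jjForm]; linear_combination 2 * h)
    refine ⟨fun t => (y 0 * y 3 - y 1 * y 2)⁻¹ • ![y 1 * t 0 - y 0 * t 1, y 3 * t 0 - y 2 * t 1],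
      fun s => ![s 1 * y 0 - s 0 * y 2, s 1 * y 1 - s 0 * y 3], fun s t => ?_⟩
    rw [orefl_app, coe_toQF, hform_jjForm.polar_self,
      show jjForm F y y = 2 * (y 0 * y 3 - y 1 * y 2) by simp only [jjForm]; ring]
    funext i
    fin_cases i <;> simp [p4, jjForm] <;> field_simp <;> ring
  have key := o_induction_orefl hQ (not_oExc_of_two_ne_zero h2) (P := fun g =>
    (dickson hQ g = 1 ∧ ∃ φ ψ : (Fin 2 → F) → Fin 2 → F, ∀ s t, g.1 (p4 s t) = p4 (φ s) (ψ t)) ∨
    (dickson hQ g = -1 ∧ ∃ φ ψ : (Fin 2 → F) → Fin 2 → F, ∀ s t, g.1 (p4 s t) = p4 (φ t) (ψ s)))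
    (Or.inl ⟨map_one _, id, id, fun s t => rfl⟩) (fun y hy g hg => by
      obtain ⟨φ', ψ', h'⟩ := hr y hy
      rw [map_mul, dickson_orefl hQ hy]
      rcases hg with ⟨h1, φ, ψ, h⟩ | ⟨h1, φ, ψ, h⟩
      · exact Or.inr ⟨by simp [h1], φ' ∘ ψ, ψ' ∘ φ, fun s t => by rw [OG.mul_app, h, h']; rfl⟩
      · exact Or.inl ⟨by simp [h1], φ' ∘ ψ, ψ' ∘ φ, fun s t => by rw [OG.mul_app, h, h']; rfl⟩) k
  have h1 : dickson hQ k = 1 := (det_eq_one_iff_dickson hQ h2 k).1 (by
    rw [← hd, ← LinearMap.det_toLin']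
    exact congrArg _ (LinearMap.ext fun v => (og_mulVec k v).symm))
  rcases key with ⟨-, h⟩ | ⟨h, -⟩
  · simpa only [og_mulVec] using h
  · rw [h1] at h; exact absurd h (by decide)

theorem det_of_mem_omega {g : GL ι F} (hg : g ∈ omegaGL ⇑Q) : (g : Matrix ι ι F).det = 1 := by
  rw [omegaGL_eq] at hg
  have : ⁅isometryGroup F ⇑Q, isometryGroup F ⇑Q⁆ ≤ (GeneralLinearGroup.det (n := ι) (R := F)).ker :=
    Subgroup.commutator_le.2 fun a _ b _ => by
      rw [MonoidHom.mem_ker, map_commutatorElement, commutatorElement_eq_one_iff_mul_comm, mul_comm]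
  exact congrArg Units.val (MonoidHom.mem_ker.1 (this hg))

theorem o_tensor_plus_between [Fintype F] (h2 : (2 : F) ≠ 0) (hQ : (polarBilin Q).Nondegenerate)
    {f₁ : (Fin 3 → F) → (Fin 3 → F) → F} {f₂ : (Fin 4 → F) → (Fin 4 → F) → F}
    (hf₁ : IsSymmetricForm f₁) (hf₂ : IsSymmetricForm f₂) (hp : IsPlusTypeOn (fun v => f₂ v v) ⊤)
    {e : ι ≃ Fin 3 × Fin 4} {P : GL ι F} (hT : IsTensorFormStructure id (polar ⇑Q) f₁ f₂ e P) :
    ∃ K, tensorProductSubgroup 3 4 e P ⊓ omegaGL ⇑Q < K ∧ K < omegaGL ⇑Q := by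
  have hn : 5 ≤ Fintype.card ι := by simp [Fintype.card_congr e]
  haveI : Nonempty ι := ⟨e.symm (0, 0)⟩
  have h₁ := hform_of_symmetric hf₁
  have h₂ := hform_of_symmetric hf₂
  obtain ⟨g, hg⟩ := exists_isom_plus h2 hform_jjForm h₂ plus_jjForm hp
  obtain ⟨P', hT', he⟩ := @TStr.change_right ι _ _ F _ (Fin 4) _ _ _ _ _ _ f₂ _ _ _ _ _ _ _
    (tStr_of_tensor (σ := RingHom.id F) rfl hT) h₂ hform_jjForm g _ one_ne_zero hg
  obtain ⟨c, hc, hf⟩ := polar_tv h₁ hform_jjForm hT'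
  obtain ⟨a, ha, -⟩ := o_exists_nonsingular_perp_one (toQF_nondeg (h₁.quad h2)) (by simp) 0
  obtain ⟨b, hb, hab⟩ := o_exists_nonsingular_perp_one (toQF_nondeg (h₁.quad h2)) (by simp) a
  rw [coe_toQF, h₁.polar_self] at hab
  replace hab := (mul_eq_zero.1 hab).resolve_left h2
  replace ha : f₁ a a ≠ 0 := ha
  replace hb : f₁ b b ≠ 0 := hb
  have hba : f₁ b a = 0 := by rw [h₁.symm, hab]
  let S := fun s x y => tv e P' x (p4 s ![1, 0]) + tv e P' y (p4 s ![0, 1])
  have hS : ∀ s x y s' x' y', polar Q (S s x y) (S s' x' y') =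
      c * jForm F s s' * (f₁ x y' - f₁ y x') := fun s x y s' x' y' => by
    simp [S, oexp, hf, jjForm_p4, jForm]; ring
  have hS0 : ∀ s x y, Q (S s x y) = 0 := fun s x y => mul_left_cancel₀ h2 (by
    rw [← o_polar_self, hS]; simp [jForm, mul_comm])
  have huw : polar Q (S ![1, 0] a b) (S ![0, 1] a b) = 0 := by simp [hS, hab, hba]
  have hE : ∀ s x y, (eich Q (S ![1, 0] a b) (S ![0, 1] a b)).1 (S s x y) =
      S s (x - (c * (f₁ x b - f₁ y a)) • a) (y - (c * (f₁ x b - f₁ y a)) • b) := fun s x y => by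
    rw [eich_app (hS0 _ _ _) huw, hS0, hS, hS]
    simp only [S, tv, ← map_add, ← map_smul, ← map_sub]
    congr 1
    funext ⟨i, j⟩
    fin_cases j <;> simp [p4, jForm] <;> ring
  have hz : ∀ w, tv e P' 0 w = 0 := fun w => by
    rw [tv, ← map_zero (trV e P')]; congr 1; funext p; simp
  have ha0 : a ≠ 0 := fun h => ha (by simp [h, h₁.zero_left])
  have hb0 : b ≠ 0 := fun h => hb (by simp [h, h₁.zero_left])
  rw [← he]
  refine o_between_set hQ hn {v | ∃ s x y, v = S s x y} (fun k hk hkT v hv => ?_)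
    ⟨_, MaxO.eich_mem_omega hQ (by rwa [finrank_fun]) (S ![1, 0] a b) (S ![0, 1] a b),
      fun v ⟨s, x, y, hv⟩ => ⟨s, _, _, (congrArg _ hv).trans (hE s x y)⟩, fun h => ?_⟩
    ⟨S ![1, 0] a 0, ⟨_, _, _, rfl⟩, S ![1, 0] a 0 + S ![0, 1] 0 b, ?_,
      o_ne_zero_of_polar_left (Q := Q) (y := S ![0, 1] 0 a) (by simp [hS, jForm, hc, ha, h₁.zero_left]),
      o_ne_zero_of_polar_left (Q := Q) (y := S ![0, 1] 0 a)
        (by simp [polar_add_left, hS, jForm, hc, ha, h₁.zero_left]),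
      by simp [o_qadd, hS0, hS, hab, h₁.zero_left]⟩
  · obtain ⟨s, x, y, rfl⟩ := hv
    have hi := isometryGroup_le_isoG _ (og_mem_iso k)
    obtain ⟨A, hA, B, hB, e1⟩ := exists_kron_sim (hform_polar hQ) hT' h₁ hform_jjForm hkT
      (isoG_le_similarityGroup _ hi)
    obtain ⟨l, hl⟩ := mem_similarityGroup.1 hA
    obtain ⟨m, hm⟩ := mem_similarityGroup.1 hB
    have h3 : (l : F) * m = 1 := by
      have := hi (tv e P' a ![1, 0, 0, 1]) (tv e P' a ![1, 0, 0, 1])
      change polar Q ((og Q k : Matrix ι ι F) *ᵥ _) ((og Q k : Matrix ι ι F) *ᵥ _) = polar Q _ _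
        at this
      rw [e1, tv_kron, hf, hf, hl, hm] at this
      have h4 : jjForm F ![1, 0, 0, 1] ![1, 0, 0, 1] = 2 := by simp [jjForm]; ring
      rw [h4] at this
      exact mul_left_cancel₀ (mul_ne_zero hc (mul_ne_zero ha h2)) (by linear_combination this)
    have d1 := det_of_sim h₁ hl
    have d2 := det_of_sim hform_jjForm hm
    have d3 := det_of_mem_omega (og_mem_omega.2 hk)
    rw [e1, coe_trG, det_tr, show (kronG A B).val = A.val ⊗ₖ B.val from rfl, det_kronecker] at d3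
    simp only [RingHom.id_apply, Fintype.card_fin] at d1 d2 d3
    have d4 : (B : Matrix (Fin 4) (Fin 4) F).det = m ^ 2 := by
      have h5 : (l : F) ^ 6 * m ^ 4 * (B : Matrix (Fin 4) (Fin 4) F).det = 1 := by
        rw [show (l : F) ^ 6 = (l ^ 3) ^ 2 by ring, ← d1, ← d2]; linear_combination d3
      have h6 : ((l : F) * m) ^ 6 = 1 := by rw [h3, one_pow]
      exact mul_left_cancel₀ (mul_ne_zero (pow_ne_zero 6 l.ne_zero) (pow_ne_zero 4 m.ne_zero))
        (by linear_combination h5 - h6)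
    have h7 : ((A : Matrix (Fin 3) (Fin 3) F).det * m) ^ 2 * m = 1 := by
      have h6 : ((l : F) * m) ^ 3 = 1 := by rw [h3, one_pow]
      linear_combination (m : F) ^ 3 * d1 + h6
    generalize (A : Matrix (Fin 3) (Fin 3) F).det * m = r at h7
    have hr : r ≠ 0 := by rintro rfl; simp at h7
    obtain ⟨φ, ψ, h8⟩ := family_of_det h2 (B := GeneralLinearGroup.scalar _ (Units.mk0 r hr) * B)
      (fun u v => by
        change jjForm F ((scalar _ r * _) *ᵥ u) ((scalar _ r * _) *ᵥ v) = jjForm F u v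
        simp only [scalar_apply, ← smul_eq_diagonal_mul, smul_mulVec, hform_jjForm.smul_left,
          hform_jjForm.smul_right, hm, RingHom.id_apply]
        linear_combination jjForm F u v * h7)
      (by
        change Matrix.det (scalar _ r * B.val) = 1
        rw [scalar_apply, ← smul_eq_diagonal_mul, det_smul, d4, Fintype.card_fin]
        linear_combination (r ^ 2 * m + 1) * h7)
    replace h8 : ∀ s t, (B : Matrix (Fin 4) (Fin 4) F) *ᵥ p4 s t = r⁻¹ • p4 (φ s) (ψ t) :=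
      fun s t => by
        rw [← h8]
        change _ = r⁻¹ • (scalar _ r * _) *ᵥ _
        rw [scalar_apply, ← smul_eq_diagonal_mul, smul_mulVec, inv_smul_smul₀ hr]
    refine ⟨r⁻¹ • φ s, ψ ![1, 0] 0 • A.val *ᵥ x + ψ ![0, 1] 0 • A.val *ᵥ y,
      ψ ![1, 0] 1 • A.val *ᵥ x + ψ ![0, 1] 1 • A.val *ᵥ y, ?_⟩
    rw [← og_mulVec, e1, mulVec_add, tv_kron, tv_kron, h8, h8]
    simp only [S, tv, ← map_add]
    congr 1
    funext ⟨i, j⟩
    fin_cases j <;> simp [p4] <;> ring
  · obtain ⟨x', y', h4⟩ := exists_tv_of_mem h b (p4 ![1, 0] ![1, 0])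
    have h5 := hE ![1, 0] b 0
    simp only [S, hz, add_zero] at h5
    rw [og_mulVec, h5] at h4
    have e1 := congrArg (polar Q · (tv e P' a (p4 ![0, 1] ![0, 1]))) h4
    have e2 := congrArg (polar Q · (tv e P' b (p4 ![0, 1] ![1, 0]))) h4
    have e3 := congrArg (polar Q · (tv e P' a (p4 ![0, 1] ![1, 0]))) h4
    simp [oexp, hf, jjForm_p4, jForm, h₁.sub_left, h₁.smul_left, h₁.neg_left, h₁.zero_left, hba,
      hc] at e1 e2 e3
    rcases e3 with e3 | e3
    · simp [e3, hc, ha, hb] at e1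
    · simp [e3, hc, hb] at e2
  · rintro ⟨s, x, y, h⟩
    simp only [S, tv, ← map_add, EmbeddingLike.apply_eq_iff_eq] at h
    obtain ⟨i, hi⟩ := Function.ne_iff.1 ha0
    obtain ⟨j, hj⟩ := Function.ne_iff.1 hb0
    have e1 := congrFun h (i, 0)
    have e2 := congrFun h (i, 2)
    have e3 := congrFun h (j, 3)
    simp [p4] at e1 e2 e3
    rcases e2 with e2 | e2
    · exact hi (by simp [e1, e2])
    · exact hj (by simp [e3, e2])

end Cfsg.Agent.Cl.Mx
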