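/-
The maximal subgroups of the groups `Ω`: the list of cases.
-/
import Mathlib
import Cfsg.Agent.Cl.MxO4
import Cfsg.Agent.Cl.MaxAschO

set_option autoImplicit false
set_option linter.unusedSectionVars false
set_option linter.unusedVariables false

namespace Cfsg.Agent.Cl.Mx

open Matrix Cfsg.Geo Cfsg.Agent.Cl.Max QuadraticMap Module

variable {ι : Type} [Fintype ι] [DecidableEq ι] {F : Type*} [Field F]
variable {Q : QuadraticForm F (ι → F)}

theorem pair_operp {W : Submodule F (ι → F)} (hQ : (polarBilin Q).Nondegenerate)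
    (hW : IsNondegenerateOn (polar ⇑Q) W) (h0 : W ≠ ⊥)
    (hd : 2 * finrank F W = Fintype.card ι) :
    IsNondegenerateMDecomposition (polar ⇑Q) (finrank F W) ![W, operp Q W] := by
  have h := MaxO.nd_of_isNondegenerateOn hW
  have h1 := finrank_operp hQ W
  rw [finrank_fun] at h1
  refine ⟨isMDecomposition_pair h.isCompl h0 (by omega), fun i => ?_, fun i j hij => ?_⟩
  · fin_cases i
    · exact hW
    · exact isNondegenerateOn_of_nd (h.perp hQ)
  · fin_cases i <;> fin_cases j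
    · exact absurd rfl hij
    · exact fun u hu v hv => hv u hu
    · exact fun u hu v hv => (polar_comm _ _ _).trans (hu v hv)
    · exact absurd rfl hij

theorem stab_le_pair {W : Submodule F (ι → F)} {k : ℕ}
    (hD : IsMDecomposition k ![W, operp Q W]) {g : GL ι F} (hg : g ∈ isometryGroup F ⇑Q)
    (h : g ∈ subspaceStabilizer W) : g ∈ decompositionStabilizer ![W, operp Q W] :=
  mem_decompositionStabilizer_of_maps hD fun i => ⟨i, by
    fin_cases i
    · exact mem_subspaceStabilizer_iff_maps.1 h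
    · exact mem_subspaceStabilizer_iff_maps.1 (stab_operp hg h)⟩

theorem orth_of_isom {k : ℕ} {D : Fin 2 → Submodule F (ι → F)}
    (hD : IsNondegenerateMDecomposition (polar ⇑Q) k D) (h : AreIsometricFor ⇑Q (D 0) (D 1)) :
    IsOrthogonalMDecomposition ⇑Q k D := by
  refine ⟨hD, fun i j => ?_⟩
  obtain ⟨e, he⟩ := h
  fin_cases i <;> fin_cases j
  · exact ⟨LinearEquiv.refl _ _, fun _ => rfl⟩
  · exact ⟨e, he⟩
  · exact ⟨e.symm, fun w => (he (e.symm w)).symm.trans (by rw [e.apply_symm_apply])⟩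
  · exact ⟨LinearEquiv.refl _ _, fun _ => rfl⟩

theorem isom_of_plus [Finite F] {k : ℕ} {D : Fin 2 → Submodule F (ι → F)}
    (hD : IsNondegenerateMDecomposition (polar ⇑Q) k D) (hk : Even k)
    (hp : IsPlusTypeOn ⇑Q ⊤) : AreIsometricFor ⇑Q (D 0) (D 1) := by
  have h0 := hD.decomp.finrank_eq 0
  have h1 := hD.decomp.finrank_eq 1
  have hs : D 0 ⊔ D 1 = ⊤ := by
    rw [eq_top_iff, ← hD.decomp.iSup_eq_top]
    exact iSup_le (Fin.forall_fin_two.2 ⟨le_sup_left, le_sup_right⟩)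
  have := (plusOn_sup_iff (MaxO.nd_of_isNondegenerateOn (hD.nondegenerate 0))
    (MaxO.nd_of_isNondegenerateOn (hD.nondegenerate 1)) (hD.orthogonal 0 1 (by decide))
    (h0 ▸ hk) (h1 ▸ hk)).1 (hs ▸ hp)
  rw [plusOn_iff, plusOn_iff] at this
  exact isom_of_type (restrict_nondeg (hD.nondegenerate 0)) (restrict_nondeg (hD.nondegenerate 1))
    (h0 ▸ hk) (h1.trans h0.symm) this

theorem isSquare_neg_one_pow [Fintype F] (ho : Odd (Fintype.card F)) (m : ℕ) :
    IsSquare ((-1 : F) ^ m) ↔ Even m ∨ Fintype.card F % 4 = 1 := by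
  rcases Nat.even_or_odd m with h | h
  · rw [h.neg_one_pow]; exact iff_of_true IsSquare.one (Or.inl h)
  · rw [h.neg_one_pow, FiniteField.isSquare_neg_one_iff]
    obtain ⟨a, ha⟩ := ho
    obtain ⟨b, hb⟩ := h
    constructor
    · intro h; right; omega
    · rintro (⟨c, h⟩ | h) <;> omega

theorem odd_of_odd_nondeg [Fintype F] (hQ : (polarBilin Q).Nondegenerate)
    {W : Submodule F (ι → F)} (hW : IsNondegenerateOn (polar ⇑Q) W) (h : Odd (finrank F W)) :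
    Odd (Fintype.card F) :=
  quad_odd_of_two_ne_zero fun h2 => Nat.not_even_iff_odd.2 h
    (even_of_nondeg (hform_polar hQ) (fun v => by rw [polar_self, two_smul, ← two_mul, h2, zero_mul]) hW)

theorem even_of_symplectic {a : ℕ} {f : (Fin a → F) → (Fin a → F) → F} (hf : IsSymplecticForm f) :
    Even a := by
  have h₁ := hform_of_symplectic hf
  simpa using even_of_nondeg (W := ⊤) h₁ hf.alternating (h₁.isNondegenerateOn_iff.2
    (eq_bot_iff.2 fun x hx => h₁.nondeg' x fun y => hx.2 y trivial))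

/-- What is known about a maximal stabiliser of an orthogonal decomposition. -/
theorem o_decomp_facts [Fintype F] (hQ : (polarBilin Q).Nondegenerate) {m : ℕ}
    (hn : Fintype.card ι = 2 * m) (hm : 4 ≤ m) {H : Subgroup (GL ι F)}
    (hH : IsMaximalIn (omegaGL ⇑Q) H) {t k : ℕ} {D : Fin t → Submodule F (ι → F)}
    (hD : IsOrthogonalMDecomposition ⇑Q k D) (hle : H ≤ decompositionStabilizer D) :
    t * k = 2 * m ∧ 2 ≤ t ∧
      (Odd k → Odd (Fintype.card F) ∧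
        (IsPlusTypeOn ⇑Q ⊤ ↔ Even m ∨ Fintype.card F % 4 = 1)) ∧
      (Even k → ∀ i, (IsPlusTypeOn ⇑Q ⊤ ↔ IsPlusTypeOn ⇑Q (D i) ∨ Even t)) ∧
      ((∀ i, IsPlusTypeOn ⇑Q (D i)) ∨ ∀ i, ¬ IsPlusTypeOn ⇑Q (D i)) ∧
      (k = 2 → Fintype.card F ≠ 3) ∧
      (k = 2 → (∀ i, IsPlusTypeOn ⇑Q (D i)) → 7 ≤ Fintype.card F) ∧
      (k = 3 → Fintype.card F ≠ 3) ∧
      (k = 4 → (∀ i, IsPlusTypeOn ⇑Q (D i)) → 3 ≤ Fintype.card F) ∧
      H = decompositionStabilizer D ⊓ omegaGL ⇑Q := by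
  have h5 : 5 ≤ Fintype.card ι := by omega
  have he := eq_of_isMaximalIn hH hle (o_not_le_decomp hQ h5 hD.decomp)
  have hc := (IsMDecomposition.mul_eq hD.decomp.decomp).trans hn
  have ht := hD.decomp.decomp.two_le
  refine ⟨hc, ht, fun hk => ?_, fun hk i => plus_iff_of_isom_even hD hk i, ?_, ?_, ?_, ?_, ?_, he⟩
  · have ho := odd_of_odd_nondeg hQ (hD.decomp.nondegenerate ⟨0, by omega⟩)
      ((hD.decomp.decomp.finrank_eq _).symm ▸ hk)
    refine ⟨ho, ?_⟩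
    rw [← isSquare_neg_one_pow ho]
    refine plus_iff_of_isom (quad_two_ne_zero_of_odd ho) hQ hn hD ?_
    have : Even (t * k) := hc ▸ even_two_mul m
    exact (Nat.even_mul.1 this).resolve_right (Nat.not_even_iff_odd.2 hk)
  · by_cases h : ∃ i, IsPlusTypeOn ⇑Q (D i)
    · obtain ⟨i, hi⟩ := h
      exact Or.inl fun j => plusOn_of_isom (hD.isometric i j) hi
    · exact Or.inr fun i hi => h ⟨i, hi⟩
  · rintro rfl h3
    exact not_isMaximalIn_of_between hH he (o_planes_three_between hQ h5 (by omega) h3 hD)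
  · rintro rfl hp
    by_contra h7
    have := card_ne_six (F := F)
    exact not_isMaximalIn_of_between hH he
      (o_plus_planes_between hQ h5 (by omega) (by omega) hD.decomp hp)
  · rintro rfl h3
    exact not_isMaximalIn_of_between hH he (o_three_between hQ h5 h3 hD)
  · rintro rfl hp
    by_contra h3
    have := two_le_card (F := F)
    exact not_isMaximalIn_of_between hH he (o_four_between hQ h5 (by omega) hD.decomp hp)

theorem o_cases [Fintype F] (hQ : (polarBilin Q).Nondegenerate) {m : ℕ}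
    (hn : Fintype.card ι = 2 * m) (hm : 4 ≤ m) {H : Subgroup (GL ι F)}
    (hH : IsMaximalIn (omegaGL ⇑Q) H) :
    (∃ W : Submodule F (ι → F), W ≠ ⊥ ∧ IsTotallySingularQuad ⇑Q W ∧
      (IsPlusTypeOn ⇑Q ⊤ → finrank F W + 1 ≠ m) ∧ H = subspaceStabilizer W ⊓ omegaGL ⇑Q) ∨
    (Odd (Fintype.card F) ∧ ∃ W : Submodule F (ι → F), W ≠ ⊥ ∧ W ≠ ⊤ ∧ Odd (finrank F W) ∧
      2 * finrank F W ≠ 2 * m ∧ IsNondegenerateOn (polar ⇑Q) W ∧
      H = subspaceStabilizer W ⊓ omegaGL ⇑Q) ∨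
    (∃ W : Submodule F (ι → F), Even (finrank F W) ∧ 0 < finrank F W ∧ finrank F W ≤ m ∧
      IsNondegenerateOn (polar ⇑Q) W ∧
      (finrank F W = 2 → IsPlusTypeOn ⇑Q W → 4 ≤ Fintype.card F) ∧
      (finrank F W = m → ¬ IsPlusTypeOn ⇑Q ⊤) ∧ H = subspaceStabilizer W ⊓ omegaGL ⇑Q) ∨
    (¬ Odd (Fintype.card F) ∧ ∃ v : ι → F, Q v ≠ 0 ∧
      H = subspaceStabilizer (Submodule.span F {v}) ⊓ omegaGL ⇑Q) ∨
    (∃ (t k : ℕ) (D : Fin t → Submodule F (ι → F)), IsOrthogonalMDecomposition ⇑Q k D ∧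
      (k = 1 → (Fintype.card F).Prime) ∧ t * k = 2 * m ∧ 2 ≤ t ∧
      (Odd k → Odd (Fintype.card F) ∧
        (IsPlusTypeOn ⇑Q ⊤ ↔ Even m ∨ Fintype.card F % 4 = 1)) ∧
      (Even k → ∀ i, (IsPlusTypeOn ⇑Q ⊤ ↔ IsPlusTypeOn ⇑Q (D i) ∨ Even t)) ∧
      ((∀ i, IsPlusTypeOn ⇑Q (D i)) ∨ ∀ i, ¬ IsPlusTypeOn ⇑Q (D i)) ∧
      (k = 2 → Fintype.card F ≠ 3) ∧
      (k = 2 → (∀ i, IsPlusTypeOn ⇑Q (D i)) → 7 ≤ Fintype.card F) ∧
      (k = 3 → Fintype.card F ≠ 3) ∧
      (k = 4 → (∀ i, IsPlusTypeOn ⇑Q (D i)) → 3 ≤ Fintype.card F) ∧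
      H = decompositionStabilizer D ⊓ omegaGL ⇑Q) ∨
    (Odd m ∧ Odd (Fintype.card F) ∧ (IsPlusTypeOn ⇑Q ⊤ ↔ Fintype.card F % 4 ≠ 1) ∧
      ∃ D : Fin 2 → Submodule F (ι → F), IsNondegenerateMDecomposition (polar ⇑Q) m D ∧
      ¬ AreIsometricFor ⇑Q (D 0) (D 1) ∧ H = decompositionStabilizer D ⊓ omegaGL ⇑Q) ∨
    (IsPlusTypeOn ⇑Q ⊤ ∧ Even m ∧ ∃ D : Fin 2 → Submodule F (ι → F), IsMDecomposition m D ∧
      (∀ i, IsTotallySingularQuad ⇑Q (D i)) ∧ H = decompositionStabilizer D ⊓ omegaGL ⇑Q) ∨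
    (∃ (r : ℕ) (K : Subalgebra F (Matrix ι ι F)), r.Prime ∧ 3 * r ≤ 2 * m ∧ r ∣ 2 * m ∧
      (¬ Odd (Fintype.card F) → r ∣ m) ∧ IsFieldSubalgebra r K ∧
      IsSelfAdjointFor (polar ⇑Q) K ∧ H = subalgebraNormalizer K ⊓ omegaGL ⇑Q) ∨
    ((IsPlusTypeOn ⇑Q ⊤ → Even m) ∧ ∃ K : Subalgebra F (Matrix ι ι F), IsFieldSubalgebra 2 K ∧
      IsAdjointClosedFor (polar ⇑Q) K ∧ ¬ IsSelfAdjointFor (polar ⇑Q) K ∧
      (∀ k ∈ K, ∃ c : F, ∀ v : ι → F, Q (k *ᵥ v) = c * Q v) ∧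
      H = subalgebraNormalizer K ⊓ omegaGL ⇑Q) ∨
    (∃ (a b : ℕ) (e : ι ≃ Fin a × Fin b) (P : GL ι F)
      (f₁ : (Fin a → F) → (Fin a → F) → F) (f₂ : (Fin b → F) → (Fin b → F) → F),
      a * b = 2 * m ∧ Even a ∧ Even b ∧ a ≤ b ∧
      (a = 2 → IsPlusTypeOn ⇑Q ⊤ ∧ 3 ≤ Fintype.card F) ∧ IsSymplecticForm f₁ ∧
      IsSymplecticForm f₂ ∧ IsTensorFormStructure id (polar ⇑Q) f₁ f₂ e P ∧
      (∀ (x₁ : Fin a → F) (x₂ : Fin b → F),
        Q ((P : Matrix ι ι F) *ᵥ ((fun p : Fin a × Fin b => x₁ p.1 * x₂ p.2) ∘ e)) = 0) ∧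
      H = tensorProductSubgroup a b e P ⊓ omegaGL ⇑Q) ∨
    (Odd (Fintype.card F) ∧ ∃ (a b : ℕ) (e : ι ≃ Fin a × Fin b) (P : GL ι F)
      (f₁ : (Fin a → F) → (Fin a → F) → F) (f₂ : (Fin b → F) → (Fin b → F) → F),
      a * b = 2 * m ∧ 3 ≤ a ∧ a ≤ b ∧ (a = 3 → 5 ≤ Fintype.card F) ∧
      (a = 3 → b = 4 → ¬ IsPlusTypeOn ⇑Q ⊤ ∧ ¬ IsPlusTypeOn (fun v => f₂ v v) ⊤) ∧
      IsSymmetricForm f₁ ∧ IsSymmetricForm f₂ ∧ IsTensorFormStructure id (polar ⇑Q) f₁ f₂ e P ∧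
      H = tensorProductSubgroup a b e P ⊓ omegaGL ⇑Q) ∨
    (∃ (F₀ : Subfield F) (r : ℕ) (P : GL ι F) (ζ : F), r.Prime ∧ (r = 2 → IsPlusTypeOn ⇑Q ⊤) ∧
      Fintype.card F = Nat.card F₀ ^ r ∧ ζ ≠ 0 ∧
      IsQuadFormRationalStructure (fun v : ι → F => ζ * Q v) F₀ P ∧
      H = subfieldSubgroup F₀ P ⊓ omegaGL ⇑Q) ∨
    (∃ k t : ℕ, 2 ≤ t ∧ k ^ t = 2 * m ∧ (IsPlusTypeOn ⇑Q ⊤ ∨ 3 ≤ k)) ∨
    InOrthogonalResidualClass H := by
  have h5 : 5 ≤ Fintype.card ι := by omega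
  have hS := qs_omega hQ h5
  have hI := hH.1.le.trans (omegaGL_le _)
  have hq2 := two_le_card (F := F)
  have hnd : ∀ W : Submodule F (ι → F), W ≠ ⊥ → finrank F W ≤ m → Even (finrank F W) →
      IsNondegenerateOn (polar ⇑Q) W → H ≤ subspaceStabilizer W →
      H = subspaceStabilizer W ⊓ omegaGL ⇑Q ∧
        (finrank F W = 2 → IsPlusTypeOn ⇑Q W → 4 ≤ Fintype.card F) := fun W h0 h1 h2 h3 h4 => by
    have he := eq_of_isMaximalIn hH h4 (hS.not_le_stab h0 fun h => by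
      rw [h, finrank_top, finrank_fun] at h1; omega)
    refine ⟨he, fun hd hp => ?_⟩
    by_contra h6
    exact not_isMaximalIn_of_between hH he (o_plane_between hQ h5 (by omega) hd h3 hp)
  rcases asch_orth (isNondegenerateQuadraticForm_of_QF Q hQ) (by omega) hI with
    (⟨W, h0, h1, hle⟩ | ⟨W, h0, h1, h2, hle⟩ | ⟨ho, v, hv, hle⟩ | ⟨t, k, D, hD, h1, hle⟩ |
    ⟨k, D, hD, h1, hle⟩ | ⟨r, K, hr, h1, h2, hK, h3, hle⟩ | ⟨K, hK, h1, h2, h3, hle⟩ |
    ⟨a, b, e, P, f₁, f₂, hab, hf₁, hf₂, hT, hp, hle⟩ |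
    ⟨ho, a, b, e, P, f₁, f₂, ha, hab, h1, hf₁, hf₂, hT, hle⟩ |
    ⟨F₀, r, P, ζ, hr, hc, hζ, h1, hle⟩ | ⟨ho, k, t, e, P, f₁, hk, ht, -⟩ | ⟨hp, k, t, ht, hc⟩) | h
  · have he := eq_of_isMaximalIn hH hle (o_not_le_singular hQ h5 h0 h1)
    exact Or.inl ⟨W, h0, h1, fun hp hd => not_isMaximalIn_of_between hH he
      (o_sub_max_between hQ h5 hp h1 (by omega)), he⟩
  · have hW := MaxO.nd_of_isNondegenerateOn h2
    have hd := finrank_operp hQ W
    rw [finrank_fun] at hd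
    have hpos := Submodule.one_le_finrank_iff.2 h0
    have hlt := Submodule.finrank_lt h1
    rw [finrank_fun] at hlt
    by_cases hm' : finrank F W = m
    · have hD := pair_operp hQ h2 h0 (by omega)
      have hle' : H ≤ decompositionStabilizer ![W, operp Q W] :=
        fun g hg => stab_le_pair hD.decomp (hI hg) (hle hg)
      by_cases hi : AreIsometricFor ⇑Q (![W, operp Q W] 0) (![W, operp Q W] 1)
      · iterate 4 right
        exact Or.inl ⟨2, _, _, orth_of_isom hD hi, fun h => by omega,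
          o_decomp_facts hQ hn hm hH (orth_of_isom hD hi) hle'⟩
      rcases Nat.even_or_odd (finrank F W) with hk | hk
      · obtain ⟨he, h3⟩ := hnd W h0 hm'.le hk h2 hle
        exact Or.inr (Or.inr (Or.inl ⟨W, hk, hpos, hm'.le, h2, h3,
          fun _ hp => hi (isom_of_plus hD hk hp), he⟩))
      · have ho := odd_of_odd_nondeg hQ h2 hk
        iterate 5 right
        refine Or.inl ⟨hm' ▸ hk, ho, ?_, _, hm' ▸ hD, hi,
          eq_of_isMaximalIn hH hle' (o_not_le_decomp hQ h5 hD)⟩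
        rw [plus_iff_pair (quad_two_ne_zero_of_odd ho) hQ hD, isSquare_neg_one_pow ho]
        have := Nat.not_even_iff_odd.2 hk
        tauto
    rcases Nat.even_or_odd (finrank F W) with hk | hk
    · right; right; left
      rcases lt_or_gt_of_ne hm' with hl | hl
      · obtain ⟨he, h3⟩ := hnd W h0 hl.le hk h2 hle
        exact ⟨W, hk, hpos, hl.le, h2, h3, fun h => absurd h hm', he⟩
      · have hk' : Even (finrank F (operp Q W)) := by
          obtain ⟨c, hc⟩ := hk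
          exact ⟨m - c, by omega⟩
        have h4 := isNondegenerateOn_of_nd (hW.perp hQ)
        obtain ⟨he, h3⟩ := hnd (operp Q W) (Submodule.one_le_finrank_iff.1 (by omega)) (by omega)
          hk' h4 fun g hg => stab_operp (hI hg) (hle hg)
        exact ⟨_, hk', by omega, by omega, h4, h3, fun h => by omega, he⟩
    · exact Or.inr (Or.inl ⟨odd_of_odd_nondeg hQ h2 hk, W, h0, h1, hk, by omega, h2,
        eq_of_isMaximalIn hH hle (hS.not_le_stab h0 h1)⟩)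
  · iterate 3 right
    exact Or.inl ⟨ho, v, hv, eq_of_isMaximalIn hH hle (o_not_le_point hQ h5 hv)⟩
  · iterate 4 right
    exact Or.inl ⟨t, k, D, hD, h1, o_decomp_facts hQ hn hm hH hD hle⟩
  · have hc := IsMDecomposition.mul_eq hD
    obtain rfl : k = m := by omega
    have he := eq_of_isMaximalIn hH hle (hS.not_le_decomp_two hD)
    iterate 6 right
    refine Or.inl ⟨⟨D 0, le_top, h1 0, by rw [hD.finrank_eq, finrank_top, finrank_fun, hn]⟩, ?_,
      D, hD, h1, he⟩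
    by_contra hk
    exact not_isMaximalIn_of_between hH he
      (o_pair_between hQ h5 (Nat.not_even_iff_odd.1 hk) hD h1)
  · iterate 7 right
    exact Or.inl ⟨r, K, hr, hn ▸ h1, hn ▸ IsFieldSubalgebra.dvd_card hK,
      fun h => Nat.dvd_of_mul_dvd_mul_left two_pos (hn ▸ h2 h), hK, h3,
      eq_of_isMaximalIn hH hle (hS.not_le_field hK hr.one_lt)⟩
  · iterate 8 right
    refine Or.inl ⟨fun hp => ?_, K, hK, h1, h2, h3,
      eq_of_isMaximalIn hH hle (hS.not_le_field hK one_lt_two)⟩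
    obtain ⟨c, hc⟩ := even_of_plus_field hQ h5 hK h3 hp
    exact ⟨c, by omega⟩
  · have hc := Fintype.card_congr e
    simp only [Fintype.card_fin, Fintype.card_prod, hn] at hc
    have he := eq_of_isMaximalIn hH hle (o_not_le_tensor_sp hQ h5 hf₁ hf₂ hT hp)
    iterate 9 right
    refine Or.inl ⟨a, b, e, P, f₁, f₂, hc.symm, even_of_symplectic hf₁, even_of_symplectic hf₂,
      hab, ?_, hf₁, hf₂, hT, hp, he⟩
    rintro rfl
    refine ⟨plus_of_pure e P hp, ?_⟩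
    by_contra h3
    exact not_isMaximalIn_of_between hH he
      (o_tensor_two_between (by omega) hQ (by omega) hf₁ hf₂ hT hp)
  · have hc := Fintype.card_congr e
    simp only [Fintype.card_fin, Fintype.card_prod, hn] at hc
    have h2 := quad_two_ne_zero_of_odd ho
    have he := eq_of_isMaximalIn hH hle
      (o_not_le_tensor hQ h5 h2 (by omega) (by omega) hf₁ hf₂ hT)
    iterate 10 right
    refine Or.inl ⟨ho, a, b, e, P, f₁, f₂, hc.symm, ha, hab, fun h => ?_, ?_, hf₁, hf₂, hT, he⟩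
    · obtain ⟨c, hc⟩ := ho
      by_contra h6
      exact h1 ⟨by omega, h⟩
    · rintro rfl rfl
      have h6 : ¬ IsPlusTypeOn (fun v => f₂ v v) ⊤ := fun hp =>
        not_isMaximalIn_of_between hH he (o_tensor_plus_between h2 hQ hf₁ hf₂ hp hT)
      exact ⟨(plus_iff_tensor h2 hQ (hform_of_symmetric hf₁) (hform_of_symmetric hf₂)
        (tStr_of_tensor rfl hT)).not.2 h6, h6⟩
  · iterate 11 right
    refine Or.inl ⟨F₀, r, P, ζ, hr, ?_, hc, hζ, h1,
      eq_of_isMaximalIn hH hle (o_not_le_subfield hQ h5 (ne_top_of_prime_index hr hc) P)⟩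
    rintro rfl
    exact plus_of_subfield_two hQ (hn ▸ even_two_mul m) hc hζ h1
  · have hc := Fintype.card_congr e
    simp only [Fintype.card_fin, Fintype.card_pi, Finset.prod_const, Finset.card_univ, hn] at hc
    iterate 12 right
    exact Or.inl ⟨k, t, ht, hc.symm, Or.inr hk⟩
  · iterate 12 right
    exact Or.inl ⟨k, t, ht, hc.symm.trans hn, Or.inl hp⟩
  · iterate 13 right
    exact h

theorem o_odd_cases [Fintype F] (ho : Odd (Fintype.card F)) {m : ℕ} (hm : 3 ≤ m)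
    {H : Subgroup (GL (Unit ⊕ (Fin m ⊕ Fin m)) F)}
    (hH : IsMaximalIn (omegaGL (quadFormOdd m F)) H) :
    (∃ W : Submodule F (Unit ⊕ (Fin m ⊕ Fin m) → F), W ≠ ⊥ ∧
      IsTotallySingularQuad (quadFormOdd m F) W ∧
      H = subspaceStabilizer W ⊓ omegaGL (quadFormOdd m F)) ∨
    (∃ W : Submodule F (Unit ⊕ (Fin m ⊕ Fin m) → F), W ≠ ⊥ ∧ Even (finrank F W) ∧
      IsNondegenerateOn (polar (quadFormOdd m F)) W ∧
      ¬ (Fintype.card F = 3 ∧ finrank F W = 2 ∧ IsPlusTypeOn (quadFormOdd m F) W) ∧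
      H = subspaceStabilizer W ⊓ omegaGL (quadFormOdd m F)) ∨
    (∃ (t k : ℕ) (D : Fin t → Submodule F (Unit ⊕ (Fin m ⊕ Fin m) → F)), t * k = 2 * m + 1 ∧
      2 ≤ t ∧ (k = 1 → (Fintype.card F).Prime) ∧ (k = 3 → 5 ≤ Fintype.card F) ∧
      IsOrthogonalMDecomposition (quadFormOdd m F) k D ∧
      H = decompositionStabilizer D ⊓ omegaGL (quadFormOdd m F)) ∨
    (∃ (r : ℕ) (K : Subalgebra F (Matrix (Unit ⊕ (Fin m ⊕ Fin m)) (Unit ⊕ (Fin m ⊕ Fin m)) F)),
      r.Prime ∧ 2 * m + 1 ≠ r ∧ r ∣ 2 * m + 1 ∧ IsFieldSubalgebra r K ∧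
      IsSelfAdjointFor (polar (quadFormOdd m F)) K ∧
      H = subalgebraNormalizer K ⊓ omegaGL (quadFormOdd m F)) ∨
    (∃ a b : ℕ, 3 ≤ a ∧ a < b ∧ a * b = 2 * m + 1) ∨
    (∃ (F₀ : Subfield F) (r : ℕ) (P : GL (Unit ⊕ (Fin m ⊕ Fin m)) F), r.Prime ∧
      Fintype.card F = Nat.card F₀ ^ r ∧ IsQuadFormRationalStructure (quadFormOdd m F) F₀ P ∧
      H = subfieldSubgroup F₀ P ⊓ omegaGL (quadFormOdd m F)) ∨
    (∃ (k t : ℕ) (e : (Unit ⊕ (Fin m ⊕ Fin m)) ≃ (Fin t → Fin k))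
      (P : GL (Unit ⊕ (Fin m ⊕ Fin m)) F) (f₁ : (Fin k → F) → (Fin k → F) → F),
      k ^ t = 2 * m + 1 ∧ 3 ≤ k ∧ 2 ≤ t ∧ (k = 3 → 5 ≤ Fintype.card F) ∧ IsSymmetricForm f₁ ∧
      IsTensorPowerFormStructure id (polar (quadFormOdd m F)) f₁ e P ∧
      H = tensorWreathSubgroup k t e P ⊓ omegaGL (quadFormOdd m F)) ∨
    InOrthogonalResidualClass H := by
  have h2 := quad_two_ne_zero_of_odd ho
  have hQ : (polarBilin (quad_odd m F)).Nondegenerate := quad_odd_nondeg h2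
  have hn : Fintype.card (Unit ⊕ (Fin m ⊕ Fin m)) = 2 * m + 1 := by simp; omega
  have h5 : 5 ≤ Fintype.card (Unit ⊕ (Fin m ⊕ Fin m)) := by omega
  have hS : QS (omegaGL (quadFormOdd m F)) := qs_omega hQ h5
  have hI := hH.1.le.trans (omegaGL_le _)
  have hq2 := two_le_card (F := F)
  have hq5 : Fintype.card F ≠ 3 → 5 ≤ Fintype.card F := by
    obtain ⟨c, hc⟩ := ho
    omega
  have hnd : ∀ W : Submodule F (Unit ⊕ (Fin m ⊕ Fin m) → F), W ≠ ⊥ → Even (finrank F W) →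
      IsNondegenerateOn (polar (quadFormOdd m F)) W → H ≤ subspaceStabilizer W →
      ¬ (Fintype.card F = 3 ∧ finrank F W = 2 ∧ IsPlusTypeOn (quadFormOdd m F) W) ∧
        H = subspaceStabilizer W ⊓ omegaGL (quadFormOdd m F) := fun W h0 h1 h3 h4 => by
    have he := eq_of_isMaximalIn hH h4 (hS.not_le_stab h0 fun h => by
      rw [h, finrank_top, finrank_fun, hn] at h1
      obtain ⟨c, hc⟩ := h1
      omega)
    exact ⟨fun ⟨h6, hd, hp⟩ => not_isMaximalIn_of_between hH he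
      (o_plane_between (Q := quad_odd m F) hQ h5 h6.le hd h3 hp), he⟩
  have hdec : ∀ (t k : ℕ) (D : Fin t → Submodule F (Unit ⊕ (Fin m ⊕ Fin m) → F)),
      IsOrthogonalMDecomposition (quadFormOdd m F) k D → H ≤ decompositionStabilizer D →
      t * k = 2 * m + 1 ∧ 2 ≤ t ∧ (k = 3 → 5 ≤ Fintype.card F) ∧
        H = decompositionStabilizer D ⊓ omegaGL (quadFormOdd m F) := fun t k D hD hle => by
    have he := eq_of_isMaximalIn hH hle (o_not_le_decomp (Q := quad_odd m F) hQ h5 hD.decomp)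
    refine ⟨(IsMDecomposition.mul_eq hD.decomp.decomp).trans hn, hD.decomp.decomp.two_le, ?_, he⟩
    rintro rfl
    exact hq5 fun h3 => not_isMaximalIn_of_between hH he
      (o_three_between (Q := quad_odd m F) (D := D) hQ h5 h3 hD)
  rcases asch_orth_odd ho hm hI with ⟨M, hM, hle⟩ | h
  swap
  · iterate 7 right
    exact h
  rcases hM with ⟨W, h0, h1, rfl⟩ | ⟨W, h0, h1, h3, rfl⟩ | ⟨t, k, D, hk, hD, rfl⟩ |
    ⟨t, D, hp, hD, rfl⟩ | ⟨r, K, hr, h1, hK, h3, rfl⟩ |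
    ⟨a, b, e, P, f₁, f₂, ha, hab, -⟩ | ⟨F₀, r, P, hr, hc, h1, rfl⟩ |
    ⟨k, t, e, P, f₁, hk, ht, h1, hf₁, hT, rfl⟩
  · exact Or.inl ⟨W, h0, h1, eq_of_isMaximalIn hH (hle.trans inf_le_left)
      (o_not_le_singular (Q := quad_odd m F) hQ h5 h0 h1)⟩
  · right; left
    replace hle := hle.trans inf_le_left
    rcases Nat.even_or_odd (finrank F W) with hk | hk
    · exact ⟨W, h0, hk, h3, hnd W h0 hk h3 hle⟩
    · have hW := MaxO.nd_of_isNondegenerateOn (P := quad_odd m F) h3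
      have hd := finrank_operp hQ W
      have hlt := Submodule.finrank_lt h1
      rw [finrank_fun, hn] at hd hlt
      have hk' : Even (finrank F (operp (quad_odd m F) W)) := by
        obtain ⟨c, hc⟩ := hk
        exact ⟨m - c, by omega⟩
      have h4 := isNondegenerateOn_of_nd (hW.perp hQ)
      have h6 : operp (quad_odd m F) W ≠ ⊥ := Submodule.one_le_finrank_iff.1 (by omega)
      exact ⟨_, h6, hk', h4, hnd _ h6 hk' h4
        fun g hg => stab_operp (Q := quad_odd m F) (hI hg) (hle hg)⟩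
  · obtain ⟨h1, h3, h4, he⟩ := hdec t k D hD (hle.trans inf_le_left)
    exact Or.inr (Or.inr (Or.inl ⟨t, k, D, h1, h3, fun h => by omega, h4, hD, he⟩))
  · obtain ⟨h1, h3, h4, he⟩ := hdec t 1 D hD (hle.trans inf_le_left)
    exact Or.inr (Or.inr (Or.inl ⟨t, 1, D, h1, h3, fun _ => hp, h4, hD, he⟩))
  · iterate 3 right
    exact Or.inl ⟨r, K, hr, h1, hn ▸ IsFieldSubalgebra.dvd_card hK, hK, h3,
      eq_of_isMaximalIn hH (hle.trans inf_le_left) (hS.not_le_field hK hr.one_lt)⟩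
  · have hc := Fintype.card_congr e
    simp only [Fintype.card_fin, Fintype.card_prod, hn] at hc
    iterate 4 right
    exact Or.inl ⟨a, b, ha, hab, hc.symm⟩
  · iterate 5 right
    exact Or.inl ⟨F₀, r, P, hr, hc, h1, eq_of_isMaximalIn hH (hle.trans inf_le_left)
      (o_not_le_subfield (Q := quad_odd m F) hQ h5 (ne_top_of_prime_index hr hc) P)⟩
  · have hc := Fintype.card_congr e
    simp only [Fintype.card_fin, Fintype.card_pi, Finset.prod_const, Finset.card_univ, hn] at hc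
    iterate 6 right
    exact Or.inl ⟨k, t, e, P, f₁, hc.symm, hk, ht, fun h => hq5 fun h3 => h1 ⟨h3, h⟩, hf₁, hT,
      eq_of_isMaximalIn hH (hle.trans inf_le_left)
      (o_not_le_wreath (Q := quad_odd m F) hQ h5 h2 (by omega) ht hf₁ hT)⟩

theorem pow_ne_of_two_le {k t n : ℕ} (ht : 2 ≤ t) (h : k ^ t = n) (hn : n = 10 ∨ n = 12) : False := by
  rcases Nat.lt_or_ge k 3 with hk | hk
  · have h3 : t < 4 := by
      by_contra h4
      interval_cases k
      · rw [zero_pow (by omega)] at h; omega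
      · rw [one_pow] at h; omega
      · have : 2 ^ 4 ≤ 2 ^ t := Nat.pow_le_pow_right (by omega) (by omega)
        omega
    interval_cases k <;> interval_cases t <;> omega
  · have := pow_cases hk ht h (by omega)
    omega

end Cfsg.Agent.Cl.Mx
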