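/-
In characteristic two the stabiliser of a tensor power of a symplectic space of dimension two or
four lies in a spin subgroup of the orthogonal group.
-/
import Mathlib
import Cfsg.Agent.Cl.MxO5

set_option autoImplicit false
set_option linter.unusedSectionVars false
set_option linter.unusedVariables false

namespace Cfsg.Agent.Cl.Mx

open Matrix Cfsg.Geo Cfsg.Agent.Cl.Max QuadraticMap Module

variable {ι : Type} [Fintype ι] [DecidableEq ι] {F : Type*} [Field F]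
variable {κ : Type} [Fintype κ] [DecidableEq κ] {τ : Type} [Fintype τ] [DecidableEq τ]

/-- A space of matrices generating a Clifford algebra. -/
structure SpinSp (f : (κ → F) → (κ → F) → F) (L : Submodule F (Matrix κ κ F)) : Prop where
  one : (1 : Matrix κ κ F) ∈ L
  adj : ∀ X ∈ L, adj (RingHom.id F) f X = X
  sq : ∀ X ∈ L, ∃ c : F, X * X = c • 1
  nd : ∀ X ∈ L, (∃ c : F, X = c • 1) ∨ ∃ Z ∈ L, X * Z + Z * X = 1
  norm : ∀ g ∈ similarityGroup f, ∀ X ∈ L, cj g X ∈ L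
  ex : ∃ A ∈ L, ∃ B ∈ L, A * A = 0 ∧ B * B = 0 ∧ A * B + B * A = 1

theorem SpinSp.anti {f : (κ → F) → (κ → F) → F} {L : Submodule F (Matrix κ κ F)} (h : SpinSp f L)
    {X Y : Matrix κ κ F} (hX : X ∈ L) (hY : Y ∈ L) : ∃ c : F, X * Y + Y * X = c • 1 := by
  obtain ⟨a, ha⟩ := h.sq X hX
  obtain ⟨b, hb⟩ := h.sq Y hY
  obtain ⟨c, hc⟩ := h.sq _ (L.add_mem hX hY)
  refine ⟨c - a - b, ?_⟩
  rw [sub_smul, sub_smul, ← ha, ← hb, ← hc]
  noncomm_ring

theorem spinSp_two (h2 : (2 : F) = 0) {f : (Fin 2 → F) → (Fin 2 → F) → F}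
    (h : IsSymplecticForm f) : SpinSp f (LinearMap.ker (traceLinearMap (Fin 2) F F)) := by
  have key : ∀ X ∈ LinearMap.ker (traceLinearMap (Fin 2) F F), ∃ a b c, X = !![a, b; c, a] :=
    fun X hX => ⟨X 0 0, X 0 1, X 1 0, by
      have h1 : X 0 0 + X 1 1 = 0 := by simpa [trace_fin_two] using hX
      rw [show X 0 0 = X 1 1 by linear_combination h1 - X 1 1 * h2]
      ext i j
      fin_cases i <;> fin_cases j <;> simp
      linear_combination h1 - X 1 1 * h2⟩
  refine ⟨by simpa using h2, fun X hX => ?_, fun X hX => ?_, fun X hX => ?_,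
    fun g _ X hX => by simpa [trace_cj] using hX, !![0, 1; 0, 0], by simp [trace_fin_two],
    !![0, 0; 1, 0], by simp [trace_fin_two], ?_, ?_, ?_⟩
  · obtain ⟨a, b, c, rfl⟩ := key X hX
    refine (hform_of_symplectic h).adj_eq fun u v => ?_
    rw [alt_two h, alt_two h u]
    congr 1
    simp [jForm, mulVec, dotProduct, Fin.sum_univ_two]
    linear_combination (b * u 1 * v 1 - c * u 0 * v 0) * h2
  · obtain ⟨a, b, c, rfl⟩ := key X hX
    refine ⟨a * a + b * c, ?_⟩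
    ext i j
    fin_cases i <;> fin_cases j <;> simp <;>
      first | ring1 | linear_combination (a * b) * h2 | linear_combination (a * c) * h2
  · obtain ⟨a, b, c, rfl⟩ := key X hX
    by_cases hb : b = 0
    · by_cases hc : c = 0
      · exact Or.inl ⟨a, by ext i j; fin_cases i <;> fin_cases j <;> simp [hb, hc]⟩
      · refine Or.inr ⟨!![0, c⁻¹; 0, 0], by simp [trace_fin_two], ?_⟩
        ext i j
        fin_cases i <;> fin_cases j <;> simp [hc]
        linear_combination (a * c⁻¹) * h2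
    · refine Or.inr ⟨!![0, 0; b⁻¹, 0], by simp [trace_fin_two], ?_⟩
      ext i j
      fin_cases i <;> fin_cases j <;> simp [hb]
      linear_combination (a * b⁻¹) * h2
  all_goals
    ext i j
    fin_cases i <;> fin_cases j <;> simp

/-- The five-dimensional space of matrices belonging to `Sp₄` in characteristic two. -/
def sp5 (a p r b c : F) : Matrix (Fin 2 ⊕ Fin 2) (Fin 2 ⊕ Fin 2) F :=
  fromBlocks !![a, p; r, a] !![0, b; b, 0] !![0, c; c, 0] !![a, r; p, a]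

theorem sp5_add (a p r b c a' p' r' b' c' : F) : sp5 a p r b c + sp5 a' p' r' b' c' =
    sp5 (a + a') (p + p') (r + r') (b + b') (c + c') := by
  simp [sp5, fromBlocks_add]

theorem sp5_smul (d a p r b c : F) :
    d • sp5 a p r b c = sp5 (d * a) (d * p) (d * r) (d * b) (d * c) := by
  simp [sp5, fromBlocks_smul]

theorem sp5_scalar (a : F) : sp5 a 0 0 0 0 = a • 1 := by
  ext (i | i) (j | j) <;> fin_cases i <;> fin_cases j <;> simp [sp5]

theorem sp5_anti (h2 : (2 : F) = 0) (a p r b c p' r' b' c' : F) :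
    sp5 a p r b c * sp5 0 p' r' b' c' + sp5 0 p' r' b' c' * sp5 a p r b c =
      (p * r' + r * p' + b * c' + c * b') • 1 := by
  haveI : CharP F 2 := (CharP.charP_iff_prime_eq_zero Nat.prime_two).2 (by simpa using h2)
  ext (i | i) (j | j) <;> fin_cases i <;> fin_cases j <;>
    simp [sp5, mul_apply, Fin.sum_univ_two] <;> grind

variable (F) in
/-- The five-dimensional space of matrices belonging to `Sp₄` in characteristic two. -/
def sp5L : Submodule F (Matrix (Fin 2 ⊕ Fin 2) (Fin 2 ⊕ Fin 2) F) where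
  carrier := {X | ∃ a p r b c, X = sp5 a p r b c}
  add_mem' := by
    rintro _ _ ⟨a, p, r, b, c, rfl⟩ ⟨a', p', r', b', c', rfl⟩
    exact ⟨_, _, _, _, _, sp5_add ..⟩
  zero_mem' := ⟨0, 0, 0, 0, 0, by rw [sp5_scalar, zero_smul]⟩
  smul_mem' := by
    rintro d _ ⟨a, p, r, b, c, rfl⟩
    exact ⟨_, _, _, _, _, sp5_smul ..⟩

theorem mem_sp5L (h2 : (2 : F) = 0) {X : Matrix (Fin 2 ⊕ Fin 2) (Fin 2 ⊕ Fin 2) F} :
    X ∈ sp5L F ↔ (∀ v, sympForm 2 F (X *ᵥ v) v = 0) ∧ ∃ c : F, X * X = c • 1 := by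
  haveI : CharP F 2 := (CharP.charP_iff_prime_eq_zero Nat.prime_two).2 (by simpa using h2)
  constructor
  · rintro ⟨a, p, r, b, c, rfl⟩
    refine ⟨fun v => ?_, a * a + p * r + b * c, ?_⟩
    · simp [sympForm_eq_sum, sp5, mulVec, dotProduct, Fin.sum_univ_two]
      grind
    · ext (i | i) (j | j) <;> fin_cases i <;> fin_cases j <;>
        simp [sp5, mul_apply, Fin.sum_univ_two] <;> grind
  · rintro ⟨h, d, hd⟩
    have e := fun i j => h (Pi.single i 1 + Pi.single j 1)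
    have e1 := h (Pi.single (.inl 0) 1)
    have e2 := h (Pi.single (.inl 1) 1)
    have e3 := h (Pi.single (.inr 0) 1)
    have e4 := h (Pi.single (.inr 1) 1)
    have e5 := e (.inl 0) (.inl 1)
    have e6 := e (.inl 0) (.inr 0)
    have e7 := e (.inl 0) (.inr 1)
    have e8 := e (.inl 1) (.inr 0)
    have e9 := e (.inl 1) (.inr 1)
    have e10 := e (.inr 0) (.inr 1)
    have e11 := congrFun (congrFun hd (.inl 0)) (.inl 0)
    have e12 := congrFun (congrFun hd (.inl 1)) (.inl 1)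
    simp [sympForm_eq_sum, mulVec_add, mul_apply, Fin.sum_univ_two] at e1 e2 e3 e4 e5 e6 e7 e8 e9 e10 e11 e12
    have e13 : X (.inl 1) (.inl 1) = X (.inl 0) (.inl 0) := by
      have : (X (.inl 1) (.inl 1) - X (.inl 0) (.inl 0)) ^ 2 = 0 := by grind
      exact sub_eq_zero.1 (pow_eq_zero_iff two_ne_zero |>.1 this)
    refine ⟨X (.inl 0) (.inl 0), X (.inl 0) (.inl 1), X (.inl 1) (.inl 0), X (.inl 0) (.inr 1),
      X (.inr 0) (.inl 1), ?_⟩
    ext (i | i) (j | j) <;> fin_cases i <;> fin_cases j <;> simp [sp5] <;> grind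

theorem spinSp_std (h2 : (2 : F) = 0) : SpinSp (sympForm 2 F) (sp5L F) := by
  have h := hform_of_symplectic (isSymplecticForm_sympForm (F := F) 2)
  refine ⟨⟨1, 0, 0, 0, 0, by rw [sp5_scalar, one_smul]⟩, fun X hX => h.adj_eq fun u v => ?_,
    fun X hX => ((mem_sp5L h2).1 hX).2, ?_, fun g hg X hX => ?_, _, ⟨0, 1, 0, 0, 0, rfl⟩, _,
    ⟨0, 0, 1, 0, 0, rfl⟩, ?_, ?_, by simpa using sp5_anti h2 0 1 0 0 0 0 1 0 0⟩
  · have h1 := ((mem_sp5L h2).1 hX).1
    have h3 := h1 (u + v)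
    rw [mulVec_add, h.add_left, h.add_right, h.add_right, h1, h1, h.herm (X *ᵥ v)] at h3
    simpa [← sub_eq_add_neg, sub_eq_zero] using h3
  · rintro _ ⟨a, p, r, b, c, rfl⟩
    by_cases hp : p = 0
    · by_cases hr : r = 0
      · by_cases hb : b = 0
        · by_cases hc : c = 0
          · exact Or.inl ⟨a, by rw [hp, hr, hb, hc, sp5_scalar]⟩
          · exact Or.inr ⟨_, ⟨0, 0, 0, c⁻¹, 0, rfl⟩, by simp [sp5_anti h2, hc]⟩
        · exact Or.inr ⟨_, ⟨0, 0, 0, 0, b⁻¹, rfl⟩, by simp [sp5_anti h2, hb]⟩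
      · exact Or.inr ⟨_, ⟨0, r⁻¹, 0, 0, 0, rfl⟩, by simp [sp5_anti h2, hr]⟩
    · exact Or.inr ⟨_, ⟨0, 0, p⁻¹, 0, 0, rfl⟩, by simp [sp5_anti h2, hp]⟩
  · obtain ⟨h1, c, hc⟩ := (mem_sp5L h2).1 hX
    obtain ⟨d, hd⟩ := hg
    refine (mem_sp5L h2).2 ⟨fun v => ?_, c, by rw [← map_mul, hc, map_smul, map_one]⟩
    obtain ⟨v, rfl⟩ := (toLinE g).surjective v
    exact (congrArg₂ _ (cj_mulVec g X v) rfl).trans ((hd _ v).trans (by rw [h1, mul_zero]))
  all_goals
    ext (i | i) (j | j) <;> fin_cases i <;> fin_cases j <;> simp [sp5, mul_apply, Fin.sum_univ_two]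

theorem exists_spinSp_four (h2 : (2 : F) = 0) {f : (Fin 4 → F) → (Fin 4 → F) → F}
    (h : IsSymplecticForm f) : ∃ L, SpinSp f L ∧ ∀ X ∈ L, ∀ v, f (X *ᵥ v) v = 0 := by
  have hf := hform_of_symplectic h
  obtain ⟨L, hL⟩ := sp_exists_equiv (B := hf.toB) (m := 2) ⟨hf.nondeg', hf.nondeg⟩ h.alternating
    (by simp)
  obtain ⟨P, hP⟩ := exists_trV (finSumFinEquiv (m := 2) (n := 2)).symm L.symm
  generalize (finSumFinEquiv (m := 2) (n := 2)).symm = e at hP
  have h1 : ∀ x y, f (trV e P x) (trV e P y) = sympForm 2 F x y := fun x y => by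
    rw [hP, ← hf.toB_apply, ← hL, spB_apply]; simp
  have h3 := spinSp_std h2
  refine ⟨(sp5L F).map (tr e P).toLinearMap, ⟨⟨1, h3.one, map_one (tr e P)⟩, ?_, ?_, ?_, ?_, ?_⟩,
    ?_⟩
  · rintro _ ⟨X, hX, rfl⟩
    exact (TStr.adj_tr ⟨1, one_ne_zero, fun x y => by rw [h1, one_mul]⟩ hf
      (hform_of_symplectic (isSymplecticForm_sympForm 2)) X).trans (congrArg _ (h3.adj X hX))
  · rintro _ ⟨X, hX, rfl⟩
    obtain ⟨c, hc⟩ := h3.sq X hX
    exact ⟨c, by simp [← map_mul, hc]⟩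
  · rintro _ ⟨X, hX, rfl⟩
    rcases h3.nd X hX with ⟨c, rfl⟩ | ⟨Z, hZ, hc⟩
    · exact Or.inl ⟨c, by simp⟩
    · exact Or.inr ⟨_, ⟨Z, hZ, rfl⟩, by simp [← map_mul, ← map_add, hc]⟩
  · rintro g ⟨d, hd⟩ _ ⟨X, hX, rfl⟩
    obtain ⟨g, rfl⟩ := (trG e P).surjective g
    exact ⟨_, h3.norm g ⟨d, fun u v => by rw [← h1, ← h1, ← hd, trG_mulVec, trG_mulVec]⟩ X hX,
      (cj_trG e P g X).symm⟩
  · obtain ⟨A, hA, B, hB, e1, e2, e3⟩ := h3.ex
    exact ⟨_, ⟨A, hA, rfl⟩, _, ⟨B, hB, rfl⟩, by simp [← map_mul, e1], by simp [← map_mul, e2],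
      by simp [← map_mul, ← map_add, e3]⟩
  · rintro _ ⟨X, hX, rfl⟩ v
    obtain ⟨v, rfl⟩ := (trV e P).surjective v
    exact (congrArg₂ _ (tr_mulVec e P X v) rfl).trans ((h1 _ _).trans (((mem_sp5L h2).1 hX).1 v))

/-- Pure tensors. -/
def pureV (xs : τ → κ → F) : (τ → κ) → F := fun a => ∏ i, xs i (a i)

theorem slot_mulVec_pureV (s : τ) (X : Matrix κ κ F) (xs : τ → κ → F) :
    slot s X *ᵥ pureV xs = pureV (Function.update xs s (X *ᵥ xs s)) := by
  refine (pureT_mulVec_pure _ xs).trans (congrArg pureV (funext fun i => ?_))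
  by_cases h : i = s
  · subst h; simp
  · simp [h]

theorem pForm_pureV {ε : F} {f : (κ → F) → (κ → F) → F} (h : HForm (RingHom.id F) ε f)
    (xs ys : τ → κ → F) :
    pForm (RingHom.id F) τ f (pureV xs) (pureV ys) = ∏ i, f (xs i) (ys i) := by
  simp only [h.eq_gram]
  refine (formOfGram_eq _ _ _ _).trans ((congrArg _ (pureT_mulVec_pure _ ys)).trans ?_)
  simp only [dotProduct, pureV, Finset.prod_univ_sum, Fintype.piFinset_univ,
    Finset.prod_mul_distrib]
  rfl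

theorem single_eq_pureV (p : τ → κ) :
    (Pi.single p 1 : (τ → κ) → F) = pureV fun i => Pi.single (p i) 1 := by
  funext a
  simp only [pureV, Pi.single_apply, Finset.prod_ite_zero, Finset.prod_const_one, Finset.mem_univ,
    forall_const, funext_iff]

/-- The stabiliser of a set of matrices under conjugation. -/
def cjStab (S : Set (Matrix ι ι F)) : Subgroup (GL ι F) where
  carrier := {g | ∀ x, cj g x ∈ S ↔ x ∈ S}
  one_mem' x := by rw [cj_one]
  mul_mem' {a b} ha hb x := by rw [cj_mul, ha, hb]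
  inv_mem' {a} ha x := by rw [← ha, cj_cj_inv]

theorem spin_between [Finite F] {Q : QuadraticForm F (ι → F)} (hQ : (polarBilin Q).Nondegenerate)
    (hn : 9 ≤ Fintype.card ι) (h2 : (2 : F) = 0) {k t : ℕ} {f : (Fin k → F) → (Fin k → F) → F}
    (hf : IsSymplecticForm f) {L : Submodule F (Matrix (Fin k) (Fin k) F)} (hL : SpinSp f L)
    {e : ι ≃ (Fin t → Fin k)} {P : GL ι F}
    (hT : TStr (RingHom.id F) (polar ⇑Q) (pForm (RingHom.id F) (Fin t) f) e P)
    (hp : ∀ xs, Q (trV e P (pureV xs)) = 0) {s₀ s₁ : Fin t} (h01 : s₀ ≠ s₁)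
    (hz : (∀ X ∈ L, ∀ v, f (X *ᵥ v) v = 0) ∨ ∃ s, s ≠ s₀ ∧ s ≠ s₁) :
    ∃ K, tensorWreathSubgroup k t e P ⊓ omegaGL ⇑Q < K ∧ K < omegaGL ⇑Q := by
  haveI : Nonempty ι := Fintype.card_pos_iff.1 (by omega)
  haveI : Nonempty (Fin k) := ⟨e (Classical.arbitrary ι) s₀⟩
  have h := hform_polar hQ
  have h₁ := hform_of_symplectic hf
  have hA2 : ∀ X : Matrix ι ι F, X + X = 0 := fun X => by rw [← two_smul F, h2, zero_smul]
  have hB2 : ∀ X : Matrix (Fin k) (Fin k) F, X + X = 0 := fun X => by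
    rw [← two_smul F, h2, zero_smul]
  have hcm : ∀ {s s'}, s ≠ s' → ∀ X Y, psiS e P s X * psiS e P s' Y = psiS e P s' Y * psiS e P s X :=
    fun hs X Y => by rw [psiS_apply, psiS_apply, ← map_mul, slot_commute hs, map_mul]
  obtain ⟨M, hM⟩ : ∃ M : Submodule F (Matrix ι ι F), ∀ Y, Y ∈ M ↔
      ∃ X : Fin t → Matrix (Fin k) (Fin k) F, (∀ s, X s ∈ L) ∧ ∑ s, psiS e P s (X s) = Y :=
    ⟨(Submodule.pi Set.univ fun _ => L).map
      (∑ s, (psiS e P s).toLinearMap ∘ₗ LinearMap.proj s), fun Y => by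
        simp [Submodule.mem_map, Submodule.mem_pi]⟩
  have hψ : ∀ s, ∀ X ∈ L, psiS e P s X ∈ M := fun s X hX => (hM _).2 ⟨Pi.single s X, fun s' => by
      rw [Pi.single_apply]; split_ifs; exacts [hX, L.zero_mem], by
    rw [Finset.sum_eq_single s] <;> simp +contextual⟩
  have hone : ∀ s, ∀ Z ∈ L, ∀ X : Fin t → Matrix (Fin k) (Fin k) F,
      (∑ s, psiS e P s (X s)) * psiS e P s Z + psiS e P s Z * ∑ s, psiS e P s (X s) =
        psiS e P s (X s * Z + Z * X s) := fun s Z hZ X => by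
    rw [Finset.sum_mul, Finset.mul_sum, ← Finset.sum_add_distrib, Finset.sum_eq_single s]
    · simp
    · exact fun s' _ hs => by rw [hcm hs, hA2]
    · simp
  have hanti : ∀ X ∈ M, ∀ Y ∈ M, ∃ c : F, X * Y + Y * X = c • 1 := fun X hX' Y hY' => by
    obtain ⟨X, hX, rfl⟩ := (hM X).1 hX'
    obtain ⟨Y, hY, rfl⟩ := (hM Y).1 hY'
    choose c hc using fun s => hL.anti (hX s) (hY s)
    refine ⟨∑ s, c s, ?_⟩
    rw [Finset.mul_sum _ _ (∑ s, psiS e P s (X s)), Finset.sum_mul _ _ (∑ s, psiS e P s (X s)),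
      ← Finset.sum_add_distrib, Finset.sum_smul]
    exact Finset.sum_congr rfl fun s _ => by rw [hone s _ (hY s), hc, map_smul, map_one]
  have hnd : ∀ Y ∈ M, (∃ c : F, Y = c • 1) ∨ ∃ Z, Y * Z + Z * Y = 1 := fun Y hY => by
    obtain ⟨X, hX, rfl⟩ := (hM Y).1 hY
    by_cases h3 : ∀ s, ∃ c : F, X s = c • 1
    · choose c hc using h3
      exact Or.inl ⟨∑ s, c s, by simp [hc, Finset.sum_smul]⟩
    · obtain ⟨s, hs⟩ := not_forall.1 h3
      obtain ⟨Z, hZ, h4⟩ := (hL.nd _ (hX s)).resolve_left hs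
      exact Or.inr ⟨_, by rw [hone s Z hZ, h4, map_one]⟩
  have hinv : ∀ Y (hY : Y * Y = 1), Y ∈ M → (∀ xs, Q (Y *ᵥ trV e P (pureV xs)) = 0) →
      mkGL Y Y hY ∈ isometryGroup F ⇑Q ⊓ cjStab M := fun Y hY hYM h3 => by
    have h4 : ∀ X ∈ M, cj (mkGL Y Y hY) X ∈ M := fun X hX => by
      obtain ⟨c, hc⟩ := hanti Y hYM X hX
      have h5 : Y * X * Y = c • Y - X := by
        rw [eq_sub_of_add_eq hc, sub_mul, smul_mul_assoc, one_mul, mul_assoc, hY, mul_one]
      change Y * X * Y ∈ M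
      exact h5 ▸ M.sub_mem (M.smul_mem c hYM) hX
    refine ⟨mem_iso_of_span (h.mem_isoG_of_adj ?_) (top_le_span_trV e P) ?_, fun X =>
      ⟨fun hX => ?_, h4 X⟩⟩
    · obtain ⟨X, hX, rfl⟩ := (hM Y).1 hYM
      rw [coe_mkGL, h.adj_sum]
      simpa only [hT.adj_psiS h h₁, hL.adj _ (hX _)] using hY
    · rintro _ ⟨p, rfl⟩
      simp only [single_eq_pureV, coe_mkGL, h3, hp]
    · have h5 := h4 _ hX
      rwa [← cj_mul, show mkGL Y Y hY * mkGL Y Y hY = 1 from Units.ext hY, cj_one] at h5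
  have hv : ∀ s X xs, psiS e P s X *ᵥ trV e P (pureV xs) =
      trV e P (pureV (Function.update xs s (X *ᵥ xs s))) := fun s X xs => by
    rw [psiS_apply, tr_mulVec, slot_mulVec_pureV]
  obtain ⟨A, hA, B, hB, hAA, hBB, hAB⟩ := hL.ex
  have hsq : ∀ {X : Matrix (Fin k) (Fin k) F}, X * X = 0 → (X + 1) * (X + 1) = 1 := fun hX => by
    rw [add_mul, mul_add, hX, zero_add, mul_one, one_mul, ← add_assoc, hB2, zero_add]
  have hxx : (psiS e P s₀ (A + 1) + psiS e P s₁ A) * (psiS e P s₀ (A + 1) + psiS e P s₁ A) = 1 := by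
    rw [add_mul, mul_add, mul_add, ← map_mul, ← map_mul, hsq hAA, hAA, hcm h01, map_zero, add_zero,
      add_assoc, hA2, map_one, add_zero]
  have hyy : psiS e P s₀ (B + 1) * psiS e P s₀ (B + 1) = 1 := by rw [← map_mul, hsq hBB, map_one]
  obtain ⟨hx1, hx2⟩ := hinv _ hxx (M.add_mem (hψ _ _ (L.add_mem hA hL.one)) (hψ _ _ hA)) fun xs => by
    obtain ⟨c, -, hc⟩ := hT
    have h3 := hc (pureV (Function.update xs s₀ ((A + 1) *ᵥ xs s₀)))
      (pureV (Function.update xs s₁ (A *ᵥ xs s₁)))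
    rw [pForm_pureV h₁, polar, hp, hp, sub_zero, sub_zero] at h3
    rw [add_mulVec, hv, hv, h3]
    rcases hz with hz | ⟨s, h4, h5⟩
    · rw [Finset.prod_eq_zero (Finset.mem_univ s₀), mul_zero]
      simpa [h01] using hz _ (L.add_mem hA hL.one) _
    · rw [Finset.prod_eq_zero (Finset.mem_univ s), mul_zero]
      simpa [h4, h5] using hf.alternating _
  obtain ⟨hy1, hy2⟩ := hinv _ hyy (hψ _ _ (L.add_mem hB hL.one)) fun xs => by rw [hv, hp]
  set x := mkGL _ _ hxx with hx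
  set y := mkGL _ _ hyy with hy
  have hyx : (x : Matrix ι ι F) * y + y * x = 1 := by
    rw [hx, hy, coe_mkGL, coe_mkGL, add_mul _ (psiS e P s₁ A), mul_add _ _ (psiS e P s₁ A),
      hcm h01, add_add_add_comm, hA2, add_zero, ← map_mul, ← map_mul, ← map_add,
      ← map_one (psiS e P s₀)]
    congr 1
    linear_combination (norm := noncomm_ring) hAB + hB2 (A + B + 1)
  have hx3 : (x : Matrix ι ι F) * x = 1 := hxx
  have hy3 : (y : Matrix ι ι F) * y = 1 := hyy
  have hxyx : (x : Matrix ι ι F) * y * x = x - y := by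
    rw [mul_assoc, eq_sub_of_add_eq' hyx, mul_sub, mul_one, ← mul_assoc, hx3, one_mul]
  have hxy : x * y * x⁻¹ * y⁻¹ = y * x := Units.ext (by
    change (x : Matrix ι ι F) * y * x * y = y * x
    rw [hxyx, sub_mul, hy3, ← hyx, sub_add_cancel_left, eq_comm, eq_neg_iff_add_eq_zero, hA2])
  have hnc : ∀ s, psiS e P s A * psiS e P s B ≠ psiS e P s B * psiS e P s A := fun s h3 => by
    have h4 := congrArg (psiS e P s) hAB
    rw [map_add, map_mul, map_mul, h3, hA2, map_one] at h4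
    exact zero_ne_one h4
  have hle : tensorWreathSubgroup k t e P ⊓ omegaGL ⇑Q ≤ cjStab M := fun g hg X =>
    Norms.iff (H := tensorWreathSubgroup k t e P ⊓ omegaGL ⇑Q) (fun g hg Y hY => by
      obtain ⟨X, hX, rfl⟩ := (hM Y).1 hY
      obtain ⟨σ, gs, h3⟩ := exists_cj_slot hg.1
      rw [map_sum]
      refine M.sum_mem fun s _ => (h3 s _).symm ▸ hψ _ _ (hL.norm _ ?_ _ (hX s))
      refine h₁.mem_sim_of_adj_cj fun Z => (psiS e P (σ s)).toRingHom.injective ?_
      change psiS e P (σ s) _ = psiS e P (σ s) _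
      rw [← hT.adj_psiS h h₁, psiS_apply, psiS_apply, ← h3, ← h3, h.adj_cj
        (isoG_le_similarityGroup _ (isometryGroup_le_isoG _ (omegaGL_le _ hg.2))), ← psiS_apply,
        hT.adj_psiS h h₁, psiS_apply]) hg X
  refine ⟨cjStab M ⊓ omegaGL ⇑Q, lt_of_le_not_ge (le_inf hle inf_le_right) fun h3 => ?_,
    lt_of_le_not_ge inf_le_right fun h3 => ?_⟩
  · have h4 : y * x ∈ tensorWreathSubgroup k t e P := by
      refine (h3 ⟨mul_mem hy2 hx2, ?_⟩).1
      obtain ⟨a, ha⟩ := exists_og hx1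
      obtain ⟨b, hb⟩ := exists_og hy1
      rw [← hxy, ← ha, ← hb, ← map_inv, ← map_inv, ← map_mul, ← map_mul, ← map_mul]
      exact og_mem_omega.2
        (Subgroup.commutator_mem_commutator (Subgroup.mem_top a) (Subgroup.mem_top b))
    obtain ⟨σ, gs, h5⟩ := exists_cj_slot h4
    have h6 : psiS e P s₀ (A + 1) + psiS e P s₁ A = psiS e P (σ s₀) (cj (gs s₀) (B + 1)) := by
      refine Eq.trans ?_ (h5 s₀ _)
      change (x : Matrix ι ι F) = (y * x) * y * (x * y)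
      rw [mul_assoc, mul_assoc, ← mul_assoc (x : Matrix ι ι F), ← mul_assoc (x * y : Matrix ι ι F),
        hxyx, sub_mul, hy3, ← hyx, sub_add_cancel_left, mul_neg, ← mul_assoc, hy3, one_mul,
        eq_neg_iff_add_eq_zero, hA2]
    by_cases h7 : σ s₀ = s₁
    · have h8 := hcm (h7 ▸ h01 : s₀ ≠ σ s₀) B (cj (gs s₀) (B + 1))
      rw [← h6, mul_add, add_mul, hcm h01, add_left_inj, map_add, map_one, mul_add, add_mul,
        mul_one, one_mul, add_left_inj] at h8
      exact hnc _ h8.symm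
    · have h8 := hcm h7 (cj (gs s₀) (B + 1)) B
      rw [← h6, mul_add, add_mul, hcm h01, add_right_inj] at h8
      exact hnc _ h8
  · have h5 : 5 ≤ finrank F (ι → F) := by rw [finrank_fun]; omega
    obtain ⟨u, hu0, hu⟩ := quad_exists_singular Q (by omega)
    obtain ⟨v, hv, huv, hvu⟩ := o_exists_singular_perp hQ h5 hu hu0
    obtain ⟨w, hw, hw'⟩ := o_exists_dual hQ hvu 1
    have hg := eich_mem_om hQ (by omega) u v
    have hfix : ∀ z, polar Q z u = 0 → polar Q z v = 0 →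
        (og Q (eich Q u v) : Matrix ι ι F) *ᵥ z = z := fun z h6 h7 => by
      rw [og_mulVec, eich_app_of_polar h6 h7]
    have hns : og Q (eich Q u v) ∉ scalars ι F :=
      notMem_scalars_of_fix hu0 (by rw [og_mulVec, eich_app_self]) (v := w) (by
        rw [og_mulVec, eich_app_of_polar_left hu huv (by
          rw [polar_comm]; exact hw' u (Submodule.mem_span_singleton_self u)), polar_comm, hw]
        simpa using hu0)
    generalize og Q (eich Q u v) = g at hg hfix hns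
    have h6 : ∀ X Z : Matrix ι ι F, ∃ z, z ≠ 0 ∧ (cj g X - X) *ᵥ z = 0 ∧
        (cj g X - X) *ᵥ Z *ᵥ z = 0 := fun X Z => by
      let φ := (polarBilin Q u).prod (polarBilin Q v)
      obtain ⟨z, hz, h0⟩ := Submodule.exists_mem_ne_zero_of_ne_bot
        (LinearMap.ker_ne_bot_of_finrank_lt (f := (φ.prod (φ ∘ₗ toLin' X)).prod
          ((φ ∘ₗ toLin' Z).prod (φ ∘ₗ toLin' (X * Z)))) (by simp; omega))
      simp only [LinearMap.mem_ker, LinearMap.prod_apply, Function.prod_apply, Prod.mk_eq_zero, φ,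
        LinearMap.comp_apply, toLin'_apply, polarBilin_apply_apply, polar_comm Q u,
        polar_comm Q v, ← mulVec_mulVec] at hz
      have h7 : ∀ z, (g : Matrix ι ι F) *ᵥ z = z → (g : Matrix ι ι F) *ᵥ X *ᵥ z = X *ᵥ z →
          (cj g X - X) *ᵥ z = 0 := fun z e1 e2 => by
        rw [sub_mulVec, sub_eq_zero, ← e2, ← cj_mulVec, e1]
      exact ⟨z, h0, h7 _ (hfix _ hz.1.1.1 hz.1.1.2) (hfix _ hz.1.2.1 hz.1.2.2),
        h7 _ (hfix _ hz.2.1.1 hz.2.1.2) (hfix _ hz.2.2.1 hz.2.2.2)⟩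
    have hN : Norms (omegaGL ⇑Q) (M : Set (Matrix ι ι F)) := fun g hg X => ((h3 hg).1 X).2
    have h7 : (g : Matrix ι ι F) ∈ Subalgebra.centralizer F (M : Set (Matrix ι ι F)) := by
      intro X hX
      rw [eq_comm, ← cj_eq_iff, ← sub_eq_zero]
      rcases hnd _ (M.sub_mem (hN g hg X hX) hX) with ⟨c, hc⟩ | ⟨Z, hZ⟩
      · obtain ⟨z, h0, h8, -⟩ := h6 X 0
        rw [hc, smul_mulVec, one_mulVec, smul_eq_zero] at h8
        rw [hc, h8.resolve_right h0, zero_smul]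
      · obtain ⟨z, h0, h8, h9⟩ := h6 X Z
        refine absurd ?_ h0
        rw [← one_mulVec z, ← hZ, add_mulVec, ← mulVec_mulVec, ← mulVec_mulVec, h8, h9]
        simp
    exact hnc _ ((qs_omega hQ (by omega)).mem_of_norm hN.centralizer h7
      (conj_mem_omega (omegaGL_le _ hg)) hns (psiS e P s₀ B) _ (hψ s₀ A hA))

theorem o_sp_wreath_between [Fintype F] {Q : QuadraticForm F (ι → F)}
    (hQ : (polarBilin Q).Nondegenerate) (hn : 9 ≤ Fintype.card ι) (h2 : ¬ Odd (Fintype.card F))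
    {k t : ℕ} (ht : 2 ≤ t) (hk : k ≤ 4) {e : ι ≃ (Fin t → Fin k)} {P : GL ι F}
    {f : (Fin k → F) → (Fin k → F) → F} (hf : IsSymplecticForm f)
    (hT : IsTensorPowerFormStructure id (polar ⇑Q) f e P) (hp : ∀ xs : Fin t → Fin k → F,
      Q ((P : Matrix ι ι F) *ᵥ ((fun a : Fin t → Fin k => ∏ i, xs i (a i)) ∘ e)) = 0) :
    ∃ K, tensorWreathSubgroup k t e P ⊓ omegaGL ⇑Q < K ∧ K < omegaGL ⇑Q := by
  have h3 := two_eq_zero_of_not_odd h2
  have h4 := (hform_of_symplectic hf).even_of_alt hf.alternating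
  have h5 := Fintype.card_congr e
  simp only [Fintype.card_fun, Fintype.card_fin] at h4 h5
  have h01 : (⟨0, by omega⟩ : Fin t) ≠ ⟨1, by omega⟩ := by simp
  interval_cases k
  · rw [zero_pow (by omega)] at h5; omega
  · exact absurd h4 (by decide)
  · have h6 : 3 ≤ t := by
      by_contra h6
      obtain rfl : t = 2 := by omega
      omega
    exact spin_between hQ hn h3 hf (spinSp_two h3 hf) (tStr_of_power rfl hT) hp h01
      (Or.inr ⟨⟨2, by omega⟩, by simp, by simp⟩)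
  · exact absurd h4 (by decide)
  · obtain ⟨L, hL, h6⟩ := exists_spinSp_four h3 hf
    exact spin_between hQ hn h3 hf hL (tStr_of_power rfl hT) hp h01 (Or.inl h6)

end Cfsg.Agent.Cl.Mx
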