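import Mathlib
import Cfsg.Agent.Cl.OrthCard
import Cfsg.Agent.Cl.MinIdxSL

/-!
# Minimal index of `Ω`: geometric lemmas

Transitivity of `EO Q` on the non-zero vectors of a given norm, additive subgroups invariant under
the Eichler transformations fixing a vector, and orbit bounds for additive subgroups under the
Eichler groups.
-/

set_option autoImplicit false

namespace Cfsg.Agent.Cl

open QuadraticMap Module Pointwise

variable {F V : Type*} [Field F] [AddCommGroup V] [Module F V] {Q : QuadraticForm F V}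

theorem o_mem_span_one {a w : V} : w ∈ Submodule.span F {a} ↔ ∃ c : F, w = c • a := by
  rw [Submodule.mem_span_singleton]
  exact ⟨fun ⟨c, h⟩ => ⟨c, h.symm⟩, fun ⟨c, h⟩ => ⟨c, h.symm⟩⟩

theorem o_finrank_span_pair_le (u v : V) :
    finrank F (Submodule.span F ({u, v} : Set V)) ≤ 2 := by
  classical
  refine (finrank_span_le_card ({u, v} : Set V)).trans ?_
  rw [Set.toFinset_insert, Set.toFinset_singleton]
  exact Finset.card_le_two

theorem eich_exists_map_perp {u y y' a : V} (hu : Q u = 0) (h : Q y = Q y')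
    (hc : polar Q y u = polar Q y' u) (hc0 : polar Q y u ≠ 0) (ha : polar Q a y = 0)
    (ha' : polar Q a y' = 0) :
    ∃ w, polar Q u w = 0 ∧ polar Q a w = 0 ∧ (eich Q u w).1 y = y' := by
  have h1 : polar Q u ((polar Q y u)⁻¹ • (y' - y)) = 0 := by
    simp only [oexp, polar_comm Q u, hc]; ring
  refine ⟨_, h1, by simp [ha, ha'], ?_⟩
  rw [eich_app hu h1, smul_smul, mul_inv_cancel₀ hc0]
  have : polar Q y ((polar Q y u)⁻¹ • (y' - y)) + Q ((polar Q y u)⁻¹ • (y' - y)) * polar Q y u
      = 0 := by
    simp only [oexp, ← h, polar_comm Q y' y]; field_simp; ring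
  rw [this]; module

/-- Product formula for Eichler transformations along a singular line. -/
theorem eich_mul_eich_line {e u y : V} (he : Q e = 0) (hu : Q u = 0) (heu : polar Q e u = 0)
    (hey : polar Q e y = 0) (huy : polar Q u y = 0) (c d : F) :
    eich Q e (c • y + d • u) * eich Q u y = eich Q (u + c • e) (y + (-d - c * Q y) • e) :=
  OG.ext fun v => by
    have hue : polar Q u e = 0 := by rwa [polar_comm]
    have hye : polar Q y e = 0 := by rwa [polar_comm]
    have hyu : polar Q y u = 0 := by rwa [polar_comm]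
    rw [OG.mul_app, eich_app he (by simp [hey, heu]), eich_app hu huy,
      eich_app (by simp [oexp, he, hu, hue]) (by simp [he, huy, hue, hey])]
    simp only [oexp, he, hu, hue, hye, hyu, huy]
    module

variable [FiniteDimensional F V]

theorem o_card_operp (hQ : (polarBilin Q).Nondegenerate) (W : Submodule F V) :
    Nat.card (operp Q W) = Nat.card F ^ (finrank F V - finrank F W) := by
  rw [Module.natCard_eq_pow_finrank (K := F), ← finrank_operp hQ W, Nat.add_sub_cancel]

/-- If `a^⊥` represents every non-zero value, `EO Q` moves `a` to every non-zero vector of the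
same norm. -/
theorem EO_exists_map_of_rep [Finite F] (hQ : (polarBilin Q).Nondegenerate) (hexc : ¬ OExc Q)
    (hn : 3 ≤ finrank F V) {x y : V} (h : Q x = Q y) (hx0 : x ≠ 0) (hy0 : y ≠ 0)
    (hrep : ∀ c : F, c ≠ 0 → ∃ v, polar Q x v = 0 ∧ Q v = c) : ∃ g ∈ EO Q, g.1 x = y := by
  obtain ⟨g, hg⟩ := o_exists_map_eq hQ h hx0 hy0
  have key : ∀ g : OG Q, ∃ k : OG Q, k.1 x = x ∧ g * k ∈ EO Q := by
    refine o_induction_orefl hQ hexc ⟨1, rfl, by simp⟩ ?_
    rintro v hv g ⟨k, hk, hgk⟩
    obtain ⟨w, hw, hw'⟩ := hrep (Q v) hv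
    refine ⟨k * orefl Q w, by rw [OG.mul_app, orefl_app_of_polar hw, hk], ?_⟩
    have h1 : orefl Q v * orefl Q w ∈ EO Q := by
      rw [← commutator_eq_EO_of_finite hQ hexc hn,
        orefl_mul_orefl_mem_commutator_iff hQ hexc hv (hw' ▸ hv), hw']
      exact IsSquare.mul_self _
    have := mul_mem ((EO_normal (Q := Q)).conj_mem _ hgk (orefl Q v)) h1
    convert this using 1
    rw [orefl_inv, mul_assoc (orefl Q v * (g * k)), ← mul_assoc (orefl Q v) (orefl Q v),
      orefl_mul_self]
    group
  obtain ⟨k, hk, hgk⟩ := key g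
  exact ⟨g * k, hgk, by rw [OG.mul_app, hk, hg]⟩

variable [Finite F] (hQ : (polarBilin Q).Nondegenerate)
include hQ

/-- In dimension at least five the complement of a vector contains a hyperbolic pair. -/
theorem o_exists_hyp_perp_vec (hn : 5 ≤ finrank F V) (a : V) :
    ∃ u u', Q u = 0 ∧ Q u' = 0 ∧ polar Q u u' = 1 ∧ polar Q a u = 0 ∧ polar Q a u' = 0 := by
  obtain ⟨b, hb⟩ : ∃ b, ∀ c : F, polar Q b (c • a) = 0 → c • a = 0 := by
    by_cases ha : a = 0
    · exact ⟨0, by simp [ha]⟩
    · obtain ⟨b, hb⟩ := o_exists_polar_eq hQ ha 1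
      exact ⟨b, fun c hc => by
        rw [o_polar_smul_right, polar_comm, hb, mul_one] at hc; simp [hc]⟩
  have h2 := o_finrank_span_pair_le (F := F) a b
  have h3 := finrank_operp hQ (Submodule.span F ({a, b} : Set V))
  obtain ⟨⟨u, hu⟩, hu0, hu'⟩ := quad_exists_singular
    (Q.restrict (operp Q (Submodule.span F ({a, b} : Set V)))) (by omega)
  rw [mem_operp_span] at hu
  obtain ⟨u', h4, h5, h6⟩ := o_exists_partner_perp_one hQ (u := u) (v := a) hu' (fun hm => by
    obtain ⟨c, rfl⟩ := o_mem_span_one.1 hm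
    exact hu0 (Subtype.ext (hb c (hu b (by simp))))) (hu a (by simp))
  exact ⟨u, u', hu', h4, h5, hu a (by simp), h6⟩

/-- **Transitivity of `Ω` on the non-zero vectors of a given norm** in dimension at least five. -/
theorem EO_exists_map_eq (hn : 5 ≤ finrank F V) {x y : V} (h : Q x = Q y) (hx0 : x ≠ 0)
    (hy0 : y ≠ 0) : ∃ g ∈ EO Q, g.1 x = y := by
  obtain ⟨u, u', hu, hu', huu', h1, h2⟩ := o_exists_hyp_perp_vec hQ hn x
  exact EO_exists_map_of_rep hQ (not_oExc_of_finrank (by omega)) (by omega) h hx0 hy0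
    fun c _ => ⟨u + c • u', by simp [h1, h2], o_norm_hyp' hu hu' huu' c⟩

omit [Finite F] in
/-- The singular vectors of `a^⊥` span `a^⊥` if it contains a hyperbolic pair. -/
theorem o_exists_singular_perp_ne {a w u u' : V} (hu : Q u = 0) (hu' : Q u' = 0)
    (huu' : polar Q u u' = 1) (h1 : polar Q a u = 0) (h2 : polar Q a u' = 0)
    (hw : w ∉ Submodule.span F {a}) : ∃ v, Q v = 0 ∧ polar Q a v = 0 ∧ polar Q w v ≠ 0 := by
  by_contra! H
  obtain ⟨y, hy, hy'⟩ := o_exists_dual hQ hw 1
  have hay := hy' a (Submodule.mem_span_singleton_self a)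
  obtain ⟨b, c⟩ := o_hyp_decomp hu hu' huu' y
  set y' := y - polar Q y u' • u - polar Q y u • u' with hy''
  have h3 : polar Q a y' = 0 := by simp [hy'', hay, h1, h2]
  have h4 : polar Q w y' = 1 := by simp [hy'', hy, H u hu h1, H u' hu' h2]
  have := H (y' + u - Q y' • u') (by
    simp only [oexp, hu, hu', huu', polar_comm Q y' u, polar_comm Q y' u', b, c]; ring)
    (by simp [h1, h2, h3])
  simp [h4, H u hu h1, H u' hu' h2] at this

omit [Finite F] in
/-- The polar form does not vanish on a subspace of more than half the dimension. -/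
theorem o_exists_polar_ne_of_finrank {E : Submodule F V} (h : finrank F V < 2 * finrank F E) :
    ∃ y ∈ E, ∃ y' ∈ E, polar Q y y' ≠ 0 := by
  by_contra! H
  have := Submodule.finrank_mono (show E ≤ operp Q E from fun x hx w hw => H w hw x hx)
  have := finrank_operp hQ E
  omega

/-- An additive subgroup invariant under the Eichler transformations with vectors in `a^⊥` lies
in `⟨a⟩` or contains `a^⊥`. -/
theorem o_perp_le_of_invariant (hn : 5 ≤ finrank F V) {A : AddSubgroup V} {a w : V}
    (hA : ∀ u y, Q u = 0 → polar Q u y = 0 → polar Q a u = 0 → polar Q a y = 0 →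
      ∀ v ∈ A, (eich Q u y).1 v ∈ A) (hw : w ∈ A) (hwa : w ∉ Submodule.span F {a}) {z : V}
    (hz : polar Q a z = 0) : z ∈ A := by
  obtain ⟨s, s', hs, hs', hss', h1, h2⟩ := o_exists_hyp_perp_vec hQ hn a
  have key : ∀ w ∈ A, w ∉ Submodule.span F {a} → ∃ u, Q u = 0 ∧ polar Q a u = 0 ∧
      polar Q w u ≠ 0 ∧ (∀ c : F, c • u ∈ A) ∧
      ∀ y, polar Q a y = 0 → polar Q u y = 0 → y ∈ A := by
    intro w hw hwa
    obtain ⟨u, hu, hau, hwu⟩ := o_exists_singular_perp_ne hQ hs hs' hss' h1 h2 hwa
    have e1 : ∀ y, polar Q a y = 0 → polar Q u y = 0 →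
        polar Q w u • y - (polar Q w y + Q y * polar Q w u) • u ∈ A := fun y hy hy' => by
      have := A.sub_mem (hA u y hu hy' hau hy w hw) hw
      rwa [eich_app hu hy', add_sub_assoc, add_sub_cancel_left] at this
    have e2 : ∀ c : F, c • u ∈ A := fun c => by
      have h3 := o_finrank_span_pair_le (F := F) a u
      have h4 := finrank_operp hQ (Submodule.span F ({a, u} : Set V))
      obtain ⟨y, hy, y', hy', hne⟩ := o_exists_polar_ne_of_finrank hQ
        (E := operp Q (Submodule.span F ({a, u} : Set V))) (by omega)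
      rw [mem_operp_span] at hy hy'
      have hy1 := hy a (by simp)
      have hy2 := hy u (by simp)
      have hy3 := hy' a (by simp)
      have hy4 := hy' u (by simp)
      have h5 := e1 y hy1 hy2
      set t := -c / (polar Q w u * polar Q y y')
      have := A.sub_mem (hA u (t • y') hu (by simp [hy4]) hau (by simp [hy3]) _ h5) h5
      rw [eich_app_of_polar_left hu (by simp [hy4])
        (by simp [hu, polar_comm Q y u, hy2]), sub_sub_cancel_left, ← neg_smul] at this
      convert this using 2
      simp only [oexp, hy4, t]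
      field_simp
      ring
    refine ⟨u, hu, hau, hwu, e2, fun y hy hy' => ?_⟩
    have := e1 ((polar Q w u)⁻¹ • y) (by simp [hy]) (by simp [hy'])
    rwa [smul_smul, mul_inv_cancel₀ hwu, one_smul, sub_eq_add_neg, ← neg_smul,
      A.add_mem_cancel_right (e2 _)] at this
  obtain ⟨u, hu, hau, -, h3, h4⟩ := key w hw hwa
  by_cases hua : u ∈ Submodule.span F {a}
  · obtain ⟨c, rfl⟩ := o_mem_span_one.1 hua
    exact h4 z hz (by simp [hz])
  · obtain ⟨u', -, hau', huu', h5, -⟩ := key u (by simpa using h3 1) hua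
    have := A.add_mem (h4 (z - (polar Q u z / polar Q u u') • u') (by simp [hz, hau'])
      (by simp only [oexp]; field_simp; ring)) (h5 (polar Q u z / polar Q u u'))
    rwa [sub_add_cancel] at this

omit hQ [FiniteDimensional F V] [Finite F] in
/-- Orbit bound for the Eichler group `E ≤ u^⊥` acting on a finite set `T` of additive subgroups:
`|E| ≤ |T| |D|` where `D` is the stabiliser of `A`. -/
theorem card_le_mul_of_eich [Finite V] {u : V} (hu : Q u = 0) (E : AddSubgroup V)
    (hE : ∀ y ∈ E, polar Q u y = 0) (A : AddSubgroup V) (T : Finset (AddSubgroup V))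
    (hT : ∀ y ∈ E, eich Q u y • A ∈ T) :
    ∃ D : AddSubgroup V, D ≤ E ∧ (∀ y ∈ E, y ∈ D ↔ eich Q u y • A = A) ∧
      Nat.card E ≤ T.card * Nat.card D := by
  classical
  let D : AddSubgroup V :=
    { carrier := {y | y ∈ E ∧ eich Q u y • A = A}
      zero_mem' := ⟨E.zero_mem, by simp⟩
      add_mem' := fun {a b} ha hb => ⟨E.add_mem ha.1 hb.1, by
        rw [← eich_mul hu (hE a ha.1) (hE b hb.1), mul_smul, hb.2, ha.2]⟩
      neg_mem' := fun {a} ha => ⟨E.neg_mem ha.1, by
        rw [← eich_inv, inv_smul_eq_iff, ha.2]⟩ }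
  refine ⟨D, fun y hy => hy.1, fun y hy => ⟨fun h => h.2, fun h => ⟨hy, h⟩⟩, ?_⟩
  choose! r hr using fun B (h : ∃ y : E, eich Q u y • A = B) => h
  rw [← Nat.card_eq_finsetCard, ← Nat.card_prod]
  refine Nat.card_le_card_of_injective (fun y : E => ((⟨_, hT y y.2⟩ : T),
    (⟨y - r (eich Q u y • A), E.sub_mem y.2 (r _).2, ?_⟩ : D))) fun y y' h => ?_
  · have := hr _ ⟨y, rfl⟩
    rw [sub_eq_neg_add, ← eich_mul hu (by simp [hE _ (r _).2]) (hE _ y.2), mul_smul, ← eich_inv,
      inv_smul_eq_iff, this]
  · have h1 : eich Q u y • A = eich Q u y' • A := congrArg (fun p => p.1.1) h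
    have h2 : (y : V) - r (eich Q u y • A) = y' - r (eich Q u y' • A) := congrArg (fun p => p.2.1) h
    rw [h1] at h2
    exact Subtype.ext (sub_left_injective h2)

omit hQ [FiniteDimensional F V] [Finite F] in
theorem o_mem_smul_iff {g : OG Q} {A : AddSubgroup V} {v : V} : g.1 v ∈ g • A ↔ v ∈ A :=
  AddSubgroup.smul_mem_pointwise_smul_iff (a := g)

omit hQ [FiniteDimensional F V] [Finite F] in
theorem o_mem_smul {g : OG Q} {A : AddSubgroup V} {v : V} : v ∈ g • A ↔ ∃ w ∈ A, g.1 w = v :=
  AddSubgroup.mem_smul_pointwise_iff_exists _ _ _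

omit hQ [FiniteDimensional F V] [Finite F] in
theorem o_card_smul (g : OG Q) (A : AddSubgroup V) : Nat.card ↥(g • A) = Nat.card A :=
  (Nat.card_congr (AddSubgroup.equivMapOfInjective A _ (MulAction.injective g)).toEquiv).symm

/-- A lower bound for the number of singular vectors in terms of a totally singular subspace. -/
theorem ozeros_ge_of_singular {U : Submodule F V} (hU : ∀ u ∈ U, Q u = 0) :
    Nat.card F ^ finrank F V + Nat.card F * Nat.card F ^ finrank F U ≤
      Nat.card F * ozeros Q + Nat.card F ^ (finrank F V - finrank F U) := by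
  classical
  have := Module.finite_of_finite F (M := V)
  have := Fintype.ofFinite V
  have := Fintype.ofFinite F
  let cl : V → (U → F) := fun v u => polar Q u v
  have hex' : ∀ φ : U → F, φ ≠ 0 → ∃ u : U, φ u ≠ 0 := fun φ h => Function.ne_iff.1 h
  choose! ch hch using hex'
  have hcl : ∀ v, v ∉ operp Q U ↔ cl v ≠ 0 := fun v => by
    rw [mem_operp, not_iff_not, funext_iff]
    exact ⟨fun h u => h u u.2, fun h u hu => h ⟨u, hu⟩⟩
  have hcl2 : ∀ v (c : F) (u : U), cl (v - c • (u : V)) = cl v := fun v c u => funext fun w => by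
    simp [cl, o_polar_eq_zero_of_singular hU w.2 u.2]
  let S₁ := Finset.univ.filter fun v : V => Q v = 0 ∧ v ∉ operp Q U
  have h1 : (Finset.univ.filter fun v : V => v ∉ operp Q U).card ≤
      (S₁ ×ˢ (Finset.univ : Finset F)).card := by
    refine Finset.card_le_card_of_injOn
      (fun v => (v - (Q v / cl v (ch (cl v))) • (ch (cl v) : V), Q v / cl v (ch (cl v))))
      (fun v hv => ?_) fun v hv v' hv' h => ?_
    · have hv' := (hcl v).1 (by simpa using hv)
      have h2 := hch _ hv'
      simp only [Finset.coe_product, Finset.coe_univ, Set.mem_prod, Set.mem_univ, and_true, S₁,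
        Finset.coe_filter, Finset.mem_univ, true_and, Set.mem_ofPred_eq, hcl, hcl2]
      refine ⟨?_, hv'⟩
      simp only [oexp, hU _ (ch (cl v)).2, polar_comm Q v]
      change _ + _ - _ * cl v _ = 0
      field_simp
      ring
    · obtain ⟨h2, h3⟩ := Prod.ext_iff.1 h
      have h4 := congrArg cl h2
      simp only [hcl2] at h4
      simp only at h2 h3
      rw [h3, h4] at h2
      exact sub_left_injective h2
  have h2 : (Finset.univ.filter fun v : V => v ∉ operp Q U).card +
      Nat.card F ^ (finrank F V - finrank F U) = Nat.card F ^ finrank F V := by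
    rw [← o_card_operp hQ, ← Module.natCard_eq_pow_finrank (K := F) (V := V),
      Nat.card_eq_fintype_card, Nat.card_eq_fintype_card, Fintype.card_subtype, add_comm,
      Finset.card_filter_add_card_filter_not, Finset.card_univ]
  have h3 : S₁.card + Nat.card F ^ finrank F U ≤ ozeros Q := by
    rw [← Module.natCard_eq_pow_finrank (K := F), ozeros, Nat.card_eq_fintype_card,
      Nat.card_eq_fintype_card, Fintype.card_subtype, Fintype.card_subtype,
      ← Finset.card_union_of_disjoint]
    · refine Finset.card_le_card fun v hv => ?_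
      simp only [S₁, Finset.mem_union, Finset.mem_filter, Finset.mem_univ, true_and] at hv ⊢
      exact hv.elim (·.1) (hU v)
    · rw [Finset.disjoint_left]
      intro v h1 h2
      simp only [S₁, Finset.mem_filter, Finset.mem_univ, true_and] at h1 h2
      exact h1.2 fun w hw => o_polar_eq_zero_of_singular hU hw h2
  rw [Finset.card_product, Finset.card_univ, ← Nat.card_eq_fintype_card] at h1
  nlinarith

end Cfsg.Agent.Cl
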