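import Mathlib
import Cfsg.Agent.Cl.OrthMinA

/-!
# Minimal index of `Ω`: invariant families of additive subgroups

For a finite family of additive subgroups of a quadratic space invariant under `EO Q` we bound the
number `omult` of members through a given vector from below.
-/

set_option autoImplicit false

namespace Cfsg.Agent.Cl

open QuadraticMap Module Pointwise

variable {F V : Type*} [Field F] [AddCommGroup V] [Module F V] {Q : QuadraticForm F V}

variable (Q) in
/-- A family of additive subgroups invariant under `EO Q`. -/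
def OFam (𝒜 : Finset (AddSubgroup V)) : Prop := ∀ g ∈ EO Q, ∀ A ∈ 𝒜, g • A ∈ 𝒜

variable (Q) in
/-- Invariance under similarities with all multipliers `t²`. -/
def OSc (𝒜 : Finset (AddSubgroup V)) : Prop :=
  ∀ t : F, t ≠ 0 → ∃ g : OG Q, ∀ A ∈ 𝒜, t • g • A ∈ 𝒜

open Classical in
/-- The number of members of `𝒜` containing `w`. -/
noncomputable def omult (𝒜 : Finset (AddSubgroup V)) (w : V) : ℕ := (𝒜.filter (w ∈ ·)).card

variable (Q) in
/-- The non-zero vectors whose norm differs from that of `a` by a non-zero square. -/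
def ocls (a : V) : Set V := {w | w ≠ 0 ∧ ∃ t : F, t ≠ 0 ∧ Q w = t ^ 2 * Q a}

variable (F) in
/-- Not contained in a one-dimensional subspace. -/
def OFat (A : AddSubgroup V) : Prop := ∀ a : V, ∃ w ∈ A, w ∉ Submodule.span F {a}

variable (F) in
/-- Closed under scalars. -/
def OClosed (A : AddSubgroup V) : Prop := ∀ (c : F), ∀ a ∈ A, c • a ∈ A

theorem polar_eich_self (u y w : V) : polar Q u ((eich Q u y).1 w) = polar Q u w := by
  conv_rhs => rw [← OG.polar_app (eich Q u y), eich_app_self]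

theorem omult_le_of_map {𝒜 : Finset (AddSubgroup V)} (φ : AddSubgroup V → AddSubgroup V)
    (hφ : Function.Injective φ) (h : ∀ A ∈ 𝒜, φ A ∈ 𝒜) {a b : V} (hab : ∀ A, a ∈ A → b ∈ φ A) :
    omult 𝒜 a ≤ omult 𝒜 b := by
  classical
  refine Finset.card_le_card_of_injOn φ (fun A hA => ?_) hφ.injOn
  simp only [Finset.coe_filter, Set.mem_ofPred_eq] at hA ⊢
  exact ⟨h A hA.1, hab A hA.2⟩

theorem OFam.omult_le {𝒜 : Finset (AddSubgroup V)} (h : OFam Q 𝒜) {g : OG Q} (hg : g ∈ EO Q)
    (a : V) : omult 𝒜 a ≤ omult 𝒜 (g.1 a) :=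
  omult_le_of_map (g • ·) (MulAction.injective g) (h g hg) fun _ => o_mem_smul_iff.2

theorem OFam.filter {𝒜 : Finset (AddSubgroup V)} (h : OFam Q 𝒜) (P : AddSubgroup V → Prop)
    [DecidablePred P] (hP : ∀ (g : OG Q) A, P A → P (g • A)) : OFam Q (𝒜.filter P) :=
  fun g hg A hA => Finset.mem_filter.2
    ⟨h g hg A (Finset.mem_filter.1 hA).1, hP g A (Finset.mem_filter.1 hA).2⟩

theorem omult_pos {𝒜 : Finset (AddSubgroup V)} {A : AddSubgroup V} (hA : A ∈ 𝒜) {a : V}
    (ha : a ∈ A) : 1 ≤ omult 𝒜 a := by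
  classical
  exact Finset.card_pos.2 ⟨A, by simp [hA, ha]⟩

theorem OClosed.smul {A : AddSubgroup V} (h : OClosed F A) (g : OG Q) : OClosed F (g • A) := by
  intro c a ha
  obtain ⟨w, hw, rfl⟩ := o_mem_smul.1 ha
  rw [← map_smul]
  exact o_mem_smul_iff.2 (h c w hw)

theorem o_singular_smul {A : AddSubgroup V} (h : ∀ v ∈ A, Q v = 0) (g : OG Q) :
    ∀ v ∈ g • A, Q v = 0 := by
  intro a ha
  obtain ⟨w, hw, rfl⟩ := o_mem_smul.1 ha
  rw [OG.map_app, h w hw]

theorem OClosed.span_eq {A : AddSubgroup V} (h : OClosed F A) :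
    (Submodule.span F (A : Set V)).toAddSubgroup = A := by
  refine le_antisymm (fun v hv => ?_) Submodule.subset_span
  induction (show v ∈ Submodule.span F (A : Set V) from hv) using Submodule.span_induction with
  | mem w hw => exact hw
  | zero => exact A.zero_mem
  | add a b ha hb h1 h2 => exact A.add_mem (h1 ha) (h2 hb)
  | smul c a ha h1 => exact h c a (h1 ha)

theorem o_singular_span {A : AddSubgroup V} (h : ∀ v ∈ A, Q v = 0) :
    ∀ v ∈ Submodule.span F (A : Set V), Q v = 0 := by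
  have hp : ∀ x ∈ A, ∀ y ∈ A, polar Q x y = 0 := fun x hx y hy => by
    simp [polar, h x hx, h y hy, h _ (A.add_mem hx hy)]
  have hp' : ∀ x ∈ Submodule.span F (A : Set V), ∀ y ∈ Submodule.span F (A : Set V),
      polar Q x y = 0 := fun x hx y hy =>
    mem_operp.1 ((Submodule.span_le (p := operp Q _)).2
      (fun y hy => mem_operp_span.2 fun x hx => hp x hx y hy) hy) x hx
  intro v hv
  induction hv using Submodule.span_induction with
  | mem w hw => exact h w hw
  | zero => simp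
  | add a b ha hb h1 h2 => rw [o_qadd, h1, h2, hp' a ha b hb]; simp
  | smul c a _ h1 => rw [o_qsmul, h1, mul_zero]

theorem OFat.exists_ne_zero {A : AddSubgroup V} (h : OFat F A) : ∃ a ∈ A, a ≠ 0 := by
  obtain ⟨a, ha, h0⟩ := h 0
  exact ⟨a, ha, by simpa using h0⟩

theorem oClosed_of_card_le_three [Finite F] (h : Nat.card F ≤ 3) (A : AddSubgroup V) :
    OClosed F A := by
  intro c a ha
  by_cases h0 : c = 0
  · simp [h0]
  by_cases h1 : c = 1
  · simpa [h1]
  by_cases h2 : c + 1 = 0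
  · rw [eq_neg_of_add_eq_zero_left h2, neg_smul, one_smul]; exact A.neg_mem ha
  exfalso
  classical
  have := Fintype.ofFinite F
  have h3 : ({0, 1, c, c + 1} : Finset F).card ≤ 3 :=
    (Finset.card_le_univ _).trans (by rwa [← Nat.card_eq_fintype_card])
  rw [Finset.card_insert_of_notMem (by simp [Ne.symm h0, Ne.symm h2]),
    Finset.card_insert_of_notMem (by simp [eq_comm, h0, h1]), Finset.card_pair (by simp)] at h3
  omega

theorem o_card_le_of_not_fat [Finite F] {A : AddSubgroup V} (h : ¬ OFat F A) :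
    Nat.card A ≤ Nat.card F := by
  simp only [OFat, not_forall, not_exists, not_and, not_not, o_mem_span_one] at h
  obtain ⟨a, ha⟩ := h
  choose c hc using ha
  exact Nat.card_le_card_of_injective (fun w : A => c w w.2) fun w w' h =>
    Subtype.ext (by rw [hc w w.2, hc w' w'.2, show c w w.2 = c w' w'.2 from h])

variable [Finite V]

theorem o_char_mul_card_le {p : ℕ} [CharP F p] [Fact p.Prime] {D E : AddSubgroup V} (h : D ≤ E)
    {y : V} (hy : y ∈ E) (hy' : y ∉ D) : p * Nat.card D ≤ Nat.card E := by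
  have h1 : addOrderOf ((⟨y, hy⟩ : E) : E ⧸ D.addSubgroupOf E) = p := by
    refine addOrderOf_eq_prime ?_ (by simpa [AddSubgroup.mem_addSubgroupOf])
    rw [← QuotientAddGroup.mk_nsmul]
    have : p • (⟨y, hy⟩ : E) = 0 := Subtype.ext (by
      simp [← Nat.cast_smul_eq_nsmul F])
    rw [this, QuotientAddGroup.mk_zero]
  rw [AddSubgroup.card_eq_card_quotient_mul_card_addSubgroup (D.addSubgroupOf E),
    Nat.card_congr (AddSubgroup.addSubgroupOfEquivOfLe h).toEquiv]
  exact Nat.mul_le_mul_right _ (Nat.le_of_dvd Nat.card_pos (h1 ▸ addOrderOf_dvd_natCard _))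

/-- Double counting. -/
theorem mul_ncard_add_card_le (𝒜 : Finset (AddSubgroup V)) {C : Set V} (h0 : (0 : V) ∉ C) {k : ℕ}
    (h : ∀ w ∈ C, k ≤ omult 𝒜 w) : k * C.ncard + 𝒜.card ≤ ∑ A ∈ 𝒜, Nat.card A := by
  classical
  have := Fintype.ofFinite V
  have h1 : ∑ A ∈ 𝒜, Nat.card A = ∑ w, omult 𝒜 w := by
    simp only [omult, Finset.card_filter]
    rw [Finset.sum_comm]
    refine Finset.sum_congr rfl fun A _ => ?_
    rw [Nat.card_eq_fintype_card, Fintype.card_subtype, Finset.card_filter]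
  have h2 : omult 𝒜 0 = 𝒜.card := by simp [omult]
  rw [h1, Set.ncard_eq_toFinset_card', mul_comm, ← h2, add_comm, ← smul_eq_mul]
  calc _ ≤ omult 𝒜 0 + ∑ w ∈ C.toFinset, omult 𝒜 w :=
        Nat.add_le_add_left (Finset.card_nsmul_le_sum _ _ _ (by simpa using h)) _
    _ = ∑ w ∈ insert 0 C.toFinset, omult 𝒜 w := by rw [Finset.sum_insert (by simpa)]
    _ ≤ _ := Finset.sum_le_sum_of_subset (Finset.subset_univ _)

omit [Finite V] in
theorem ocls_zero_notMem (a : V) : (0 : V) ∉ ocls Q a := fun h => h.1 rfl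

omit [Finite V] in
theorem ncard_ocls_singular {a : V} (ha : Q a = 0) : (ocls Q a).ncard = ozeros Q - 1 := by
  have : ocls Q a = {v | Q v = 0} \ {0} := by
    ext v
    simp only [ocls, ha, mul_zero, Set.mem_ofPred_eq, Set.mem_sdiff, Set.mem_singleton_iff]
    exact ⟨fun ⟨h, _, _, h'⟩ => ⟨h', h⟩, fun ⟨h, h'⟩ => ⟨h', 1, one_ne_zero, h⟩⟩
  rw [this, Set.ncard_sdiff_singleton_of_mem (by simp)]
  rfl

variable [FiniteDimensional F V] [Finite F] (hQ : (polarBilin Q).Nondegenerate)
  (hn : 5 ≤ finrank F V) {𝒜 : Finset (AddSubgroup V)} (h𝒜 : OFam Q 𝒜)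
include hQ hn h𝒜

omit [Finite V] in
theorem OFam.omult_le_of_eq {a b : V} (h : Q a = Q b) (ha : a ≠ 0) (hb : b ≠ 0) :
    omult 𝒜 a ≤ omult 𝒜 b := by
  obtain ⟨g, hg, rfl⟩ := EO_exists_map_eq hQ hn h ha hb
  exact h𝒜.omult_le hg a

omit [Finite V] in
theorem OFam.omult_le_of_cls (hs : OSc Q 𝒜) {a b : V} (ha : a ≠ 0) (hb : b ∈ ocls Q a) :
    omult 𝒜 a ≤ omult 𝒜 b := by
  obtain ⟨hb, t, ht, h⟩ := hb
  obtain ⟨g, hg⟩ := hs t ht
  refine (omult_le_of_map (fun A => t • g • A)
    ((MulAction.injective₀ ht).comp (MulAction.injective g)) hg (b := t • g.1 a) fun A hA =>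
      AddSubgroup.smul_mem_pointwise_smul _ _ _ (o_mem_smul_iff.2 hA)).trans ?_
  exact h𝒜.omult_le_of_eq hQ hn (by rw [o_qsmul, OG.map_app, h])
    (smul_ne_zero ht (OG.app_ne_zero g ha)) hb

theorem OFam.sum_ge_singular {a : V} (ha : Q a = 0) (ha0 : a ≠ 0) {k : ℕ} (hk : k ≤ omult 𝒜 a) :
    k * (ozeros Q - 1) + 𝒜.card ≤ ∑ A ∈ 𝒜, Nat.card A := by
  rw [← ncard_ocls_singular ha]
  exact mul_ncard_add_card_le 𝒜 (ocls_zero_notMem a) fun w ⟨hw, t, _, h⟩ =>
    hk.trans (h𝒜.omult_le_of_eq hQ hn (by rw [h, ha, mul_zero]) ha0 hw)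

theorem OFam.sum_ge_cls (hs : OSc Q 𝒜) {a : V} (ha0 : a ≠ 0) {k : ℕ} (hk : k ≤ omult 𝒜 a) :
    k * (ocls Q a).ncard + 𝒜.card ≤ ∑ A ∈ 𝒜, Nat.card A :=
  mul_ncard_add_card_le 𝒜 (ocls_zero_notMem a) fun _ hw =>
    hk.trans (h𝒜.omult_le_of_cls hQ hn hs ha0 hw)

/-- At least `p` members pass through each non-zero vector of a proper member that is not
contained in a one-dimensional subspace. -/
theorem OFam.char_le_omult {p : ℕ} [CharP F p] [Fact p.Prime] {A : AddSubgroup V} (hA : A ∈ 𝒜)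
    (htop : A ≠ ⊤) (hfat : OFat F A) {b : V} (hb : b ∈ A) (hb0 : b ≠ 0) : p ≤ omult 𝒜 b := by
  classical
  by_contra! hlt
  have key : ∀ b ∈ A, omult 𝒜 b < p → ∀ z, polar Q b z = 0 → z ∈ A := by
    intro b hb hlt z hz
    obtain ⟨w, hw, hwb⟩ := hfat b
    refine o_perp_le_of_invariant hQ hn (fun u y hu huy hbu hby v hv => ?_) hw hwb hz
    obtain ⟨D, h1, h2, h3⟩ := card_le_mul_of_eich hu
      (operp Q (Submodule.span F {b, u})).toAddSubgroup
      (fun y hy => mem_operp_span.1 hy u (by simp)) A (𝒜.filter (b ∈ ·)) fun y hy => by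
        refine Finset.mem_filter.2 ⟨h𝒜 _ (eich_mem_EO u y) A hA, ?_⟩
        rw [← eich_app_of_polar hbu (mem_operp_span.1 hy b (by simp))]
        exact o_mem_smul_iff.2 hb
    have hy : y ∈ (operp Q (Submodule.span F {b, u})).toAddSubgroup :=
      mem_operp_span.2 (by simp [hby, huy])
    by_cases hyD : y ∈ D
    · rw [← (h2 y hy).1 hyD]
      exact o_mem_smul_iff.2 hv
    · have := (o_char_mul_card_le (F := F) h1 hy hyD).trans h3
      exact absurd (Nat.le_of_mul_le_mul_right this Nat.card_pos) (not_le.2 hlt)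
  obtain ⟨u, u', hu, hu', huu', h1, h2⟩ := o_exists_hyp_perp_vec hQ hn b
  have h3 : polar Q (u + Q b • u') u' = 1 := by simp [huu', hu']
  have h4 := key _ (key b hb hlt (u + Q b • u') (by simp [h1, h2]))
    ((h𝒜.omult_le_of_eq hQ hn (o_norm_hyp' hu hu' huu' _)
      (o_ne_zero_of_polar_left (by rw [h3]; exact one_ne_zero)) hb0).trans_lt hlt)
  refine htop (eq_top_iff.2 fun v _ => ?_)
  have := A.add_mem (h4 (v - polar Q (u + Q b • u') v • u') (by
    rw [polar_sub_right, o_polar_smul_right, h3]; ring))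
    (key b hb hlt (polar Q (u + Q b • u') v • u') (by simp [h2]))
  rwa [sub_add_cancel] at this

/-- Members through a vector of a totally singular member spanning a space of dimension `i`. -/
theorem OFam.omult_ge_singular {p : ℕ} [CharP F p] [Fact p.Prime] {A : AddSubgroup V}
    (hA : A ∈ 𝒜) (hts : ∀ v ∈ A, Q v = 0) (hfat : OFat F A) {a : V} (ha : a ∈ A) :
    Nat.card F ^ (finrank F V - 2 - finrank F (Submodule.span F (A : Set V))) + 1 ≤ omult 𝒜 a ∧
    ((∃ t : F, t • a ∉ A) → p *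
      Nat.card F ^ (finrank F V - 2 - finrank F (Submodule.span F (A : Set V))) + 1 ≤
        omult 𝒜 a) := by
  classical
  have hU := o_singular_span (F := F) hts
  set U := Submodule.span F (A : Set V)
  have hAU : ∀ v ∈ A, v ∈ U := fun v hv => Submodule.subset_span hv
  obtain ⟨w, hw, hwa⟩ := hfat a
  have haw : polar Q a w = 0 := o_polar_eq_zero_of_singular hU (hAU a ha) (hAU w hw)
  obtain ⟨s, s', hs, hs', hss', h1, h2⟩ := o_exists_hyp_perp_vec hQ hn a
  obtain ⟨v, hv, hav, hwv⟩ := o_exists_singular_perp_ne hQ hs hs' hss' h1 h2 hwa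
  let K : Submodule F V := LinearMap.ker (polarBilin Q v)
  have hK : ∀ y, y ∈ K ↔ polar Q v y = 0 := fun y => Iff.rfl
  let T := 𝒜.filter fun B => a ∈ B ∧ ¬ B ≤ K.toAddSubgroup
  obtain ⟨D, h3, h4, h5⟩ := card_le_mul_of_eich hv
    (operp Q (Submodule.span F {a, v})).toAddSubgroup
    (fun y hy => mem_operp_span.1 hy v (by simp)) A T fun y hy => by
      refine Finset.mem_filter.2 ⟨h𝒜 _ (eich_mem_EO v y) A hA, ?_, fun h => hwv ?_⟩
      · rw [← eich_app_of_polar hav (mem_operp_span.1 hy a (by simp))]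
        exact o_mem_smul_iff.2 ha
      · have := (hK _).1 (h (o_mem_smul_iff.2 hw))
        rwa [polar_eich_self, polar_comm] at this
  -- the stabiliser is small
  have h6 : Nat.card D ≤ Nat.card ↥(A ⊓ K.toAddSubgroup) * Nat.card F := by
    rw [← Nat.card_prod]
    have e : ∀ y ∈ D, polar Q v y = 0 := fun y hy => mem_operp_span.1 (h3 hy) v (by simp)
    refine Nat.card_le_card_of_injective (fun y : D =>
      ((⟨polar Q w v • y.1 - (polar Q w y + Q y * polar Q w v) • v, ?_, ?_⟩ :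
        ↥(A ⊓ K.toAddSubgroup)), polar Q w y + Q y * polar Q w v)) fun y y' h => ?_
    · have h7 : (eich Q v y).1 w ∈ A := by
        rw [← (h4 y (h3 y.2)).1 y.2]
        exact o_mem_smul_iff.2 hw
      have := A.sub_mem h7 hw
      rwa [eich_app hv (e y y.2), add_sub_assoc, add_sub_cancel_left] at this
    · exact (hK _).2 (by simp [e y y.2, hv])
    · have h7 := congrArg (fun p => p.1.1) h
      have h8 := congrArg Prod.snd h
      simp only at h7 h8
      rw [h8, sub_left_inj] at h7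
      exact Subtype.ext (smul_right_injective V hwv h7)
  -- one more member
  have h7 : T.card + 1 ≤ omult 𝒜 a := by
    obtain ⟨b, hb, hab, hwb⟩ := o_exists_nonsingular_perp_pair hQ hn a w
    have e1 : polar Q w (b - (polar Q v b / polar Q w v) • w) = 0 := by simp [hwb, hts w hw]
    set b' := b - (polar Q v b / polar Q w v) • w with hb'
    have e2 : Q b' = Q b := by
      simp only [hb', oexp, hts w hw, polar_comm Q b w, hwb]; ring
    have e3 : polar Q v b' = 0 := by
      simp only [hb', oexp, polar_comm Q v w]; field_simp; ring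
    have e4 : polar Q a b' = 0 := by simp [hb', hab, haw]
    set z := (eich Q w b').1 v with hz
    have z1 : Q z = 0 := by rw [hz, OG.map_app, hv]
    have z2 : polar Q w z = polar Q w v := by
      rw [hz, polar_eich_self]
    have z3 : polar Q a z = 0 := by
      rw [hz, ← eich_app_of_polar haw e4, OG.polar_app, hav]
    have z4 : polar Q v z ≠ 0 := by
      rw [hz, eich_app (hts w hw) e1]
      simpa [oexp, hv, e3, e2, polar_comm Q v w, hwv] using hb
    obtain ⟨y, -, hy, hy'⟩ := eich_exists_map_perp (y := w) (a := a)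
      (y' := (polar Q w z / polar Q v z) • v) z1 (by simp [o_qsmul, hv, hts w hw])
      (by rw [o_polar_smul_left]; field_simp) (z2 ▸ hwv) haw (by simp [hav])
    have hle : eich Q z y • A ≤ K.toAddSubgroup := fun x hx => by
      obtain ⟨x, hx', rfl⟩ := o_mem_smul.1 hx
      have := OG.polar_app (eich Q z y) w x
      rw [hy', o_polar_smul_left, o_polar_eq_zero_of_singular hU (hAU w hw) (hAU x hx')] at this
      exact (hK _).2 ((mul_eq_zero.1 this).resolve_left (div_ne_zero (z2 ▸ hwv) z4))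
    rw [← Finset.card_insert_of_notMem (a := eich Q z y • A) (by simp [T, hle])]
    refine Finset.card_le_card fun B hB => ?_
    rcases Finset.mem_insert.1 hB with rfl | hB
    · refine Finset.mem_filter.2 ⟨h𝒜 _ (eich_mem_EO z y) A hA, ?_⟩
      rw [← eich_app_of_polar z3 hy]
      exact o_mem_smul_iff.2 ha
    · exact Finset.mem_filter.2 ⟨(Finset.mem_filter.1 hB).1, (Finset.mem_filter.1 hB).2.1⟩
  have h8 : finrank F ↥(U ⊓ K) < finrank F U := Submodule.finrank_lt_finrank_of_lt
    (lt_of_le_of_ne inf_le_left fun h => hwv (by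
      rw [polar_comm]; exact (h.ge (hAU w hw)).2))
  have h9 := o_two_mul_finrank_le hQ hU
  have h10 : A ⊓ K.toAddSubgroup ≤ (U ⊓ K).toAddSubgroup := fun x hx => ⟨hAU x hx.1, hx.2⟩
  have h11 : Nat.card (U ⊓ K).toAddSubgroup * Nat.card F ≤ Nat.card F ^ finrank F U := by
    rw [show Nat.card (U ⊓ K).toAddSubgroup = _ from Module.natCard_eq_pow_finrank (K := F)
      (V := ↥(U ⊓ K)), ← pow_succ]
    exact Nat.pow_le_pow_right Nat.card_pos h8
  have h12 : Nat.card F ^ (finrank F V - 2 - finrank F U) * Nat.card F ^ finrank F U ≤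
      T.card * (Nat.card ↥(A ⊓ K.toAddSubgroup) * Nat.card F) := by
    refine le_trans ?_ (h5.trans (Nat.mul_le_mul_left _ h6))
    rw [← pow_add, show Nat.card (operp Q (Submodule.span F {a, v})).toAddSubgroup = _ from
      o_card_operp hQ _]
    have := o_finrank_span_pair_le (F := F) a v
    exact Nat.pow_le_pow_right Nat.card_pos (by omega)
  have hpos : 0 < Nat.card F ^ finrank F U := pow_pos Nat.card_pos _
  constructor
  · refine le_trans (Nat.add_le_add_right (Nat.le_of_mul_le_mul_right (h12.trans ?_) hpos) 1) h7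
    exact Nat.mul_le_mul_left _
      ((Nat.mul_le_mul_right _ (AddSubgroup.card_le_of_le h10)).trans h11)
  · rintro ⟨t, ht⟩
    have := o_char_mul_card_le (F := F) (p := p) h10 (y := t • a)
      ⟨U.smul_mem t (hAU a ha), (hK _).2 (by simp [polar_comm Q v a, hav])⟩ fun h => ht h.1
    refine le_trans (Nat.add_le_add_right (Nat.le_of_mul_le_mul_right ?_ hpos) 1) h7
    calc _ ≤ p * (T.card * (Nat.card ↥(A ⊓ K.toAddSubgroup) * Nat.card F)) := by
          rw [mul_assoc]; exact Nat.mul_le_mul_left _ h12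
      _ = T.card * (p * Nat.card ↥(A ⊓ K.toAddSubgroup) * Nat.card F) := by ring
      _ ≤ _ := Nat.mul_le_mul_left _ ((Nat.mul_le_mul_right _ this).trans h11)

/-- An invariant family of totally singular subspaces of dimension `j ≥ 2` is large. -/
theorem OFam.card_ge_singular {j : ℕ} (hj : 2 ≤ j) (hne : 𝒜.Nonempty)
    (h : ∀ A ∈ 𝒜, (∀ v ∈ A, Q v = 0) ∧ OClosed F A ∧ Nat.card A = Nat.card F ^ j) :
    2 * j ≤ finrank F V ∧
    (Nat.card F ^ j - 1) * (Nat.card F ^ (finrank F V - 1 - j) + 1) ≤ ozeros Q - 1 ∧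
    (Nat.card F ^ (finrank F V - 2 - j) + 1) * (Nat.card F ^ (finrank F V - 1 - j) + 1) ≤
      𝒜.card := by
  obtain ⟨A, hA⟩ := hne
  obtain ⟨h1, h2, h3⟩ := h A hA
  have hq : 1 < Nat.card F := Finite.one_lt_card
  have hd : finrank F (Submodule.span F (A : Set V)) = j := by
    refine Nat.pow_right_injective hq ?_
    simp only
    rw [← Module.natCard_eq_pow_finrank, ← h3]
    exact congrArg (fun B : AddSubgroup V => Nat.card B) h2.span_eq
  have hfat : OFat F A := by
    by_contra hc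
    have := o_card_le_of_not_fat hc
    have := Nat.pow_lt_pow_right hq (show 1 < j by omega)
    rw [pow_one] at this
    omega
  obtain ⟨a, ha, ha0⟩ := hfat.exists_ne_zero
  have := Fintype.ofFinite F
  obtain ⟨p, hp⟩ := CharP.exists F
  have : Fact p.Prime := ⟨CharP.char_is_prime F p⟩
  have h4 := h𝒜.sum_ge_singular hQ hn (h1 a ha) ha0
    (h𝒜.omult_ge_singular hQ hn (p := p) hA h1 hfat ha).1
  have h5 := ozeros_ge_of_singular hQ (o_singular_span (F := F) h1)
  have h6 := o_two_mul_finrank_le hQ (o_singular_span (F := F) h1)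
  rw [Finset.sum_congr rfl fun B hB => (h B hB).2.2, Finset.sum_const, smul_eq_mul, hd] at h4
  rw [hd] at h5 h6
  obtain ⟨k, hk⟩ : ∃ k, finrank F V = j + k + 2 := ⟨finrank F V - j - 2, by omega⟩
  rw [hk] at h4 h5 ⊢
  rw [show j + k + 2 - 2 - j = k by omega] at h4 ⊢
  rw [show j + k + 2 - 1 - j = k + 1 by omega]
  rw [show j + k + 2 - j = k + 2 by omega] at h5
  obtain ⟨x, hx⟩ : ∃ x, Nat.card F ^ j = x + 1 := ⟨_, (Nat.sub_add_cancel (Nat.one_le_pow _ _ (by omega))).symm⟩
  have hx0 : 0 < x := by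
    have := Nat.one_lt_pow (n := j) (by omega) hq
    omega
  have h7 : x * (Nat.card F ^ (k + 1) + 1) ≤ ozeros Q - 1 := by
    refine Nat.le_sub_one_of_lt (Nat.lt_of_succ_le (Nat.le_of_mul_le_mul_left ?_ (show 0 < Nat.card F by omega)))
    rw [add_assoc, pow_add, hx] at h5
    have : Nat.card F ^ (k + 2) = Nat.card F * Nat.card F ^ (k + 1) := by ring
    rw [this] at h5
    nlinarith
  rw [hx] at h4 ⊢
  refine ⟨by omega, h7, Nat.le_of_mul_le_mul_left ?_ hx0⟩
  nlinarith [Nat.mul_le_mul_left (Nat.card F ^ k + 1) h7]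

end Cfsg.Agent.Cl
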