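import Mathlib
import Cfsg.Agent.Cl.OrthMinB

/-!
# Minimal index of `Ω`: classification of small families, and actions of `EO Q`

`OFam.good` describes the members of an invariant family of small total size.  For an action of
`EO Q` on a set `X`, `oSV u x` is the stabiliser of `x` in the Eichler group of `u`, and `oU x` is
the set of singular vectors whose Eichler group fixes `x`.
-/

set_option autoImplicit false

namespace Cfsg.Agent.Cl

open QuadraticMap Module Pointwise

variable {F V : Type*} [Field F] [AddCommGroup V] [Module F V] {Q : QuadraticForm F V}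

theorem OClosed.card_eq {A : AddSubgroup V} [FiniteDimensional F V] (h : OClosed F A) :
    Nat.card A = Nat.card F ^ finrank F (Submodule.span F (A : Set V)) := by
  rw [← Module.natCard_eq_pow_finrank]
  exact congrArg (fun B : AddSubgroup V => Nat.card B) h.span_eq.symm

theorem o_card_eq_ker_mul_range {A B : Type*} [AddGroup A] [AddGroup B] (φ : A →+ B) :
    Nat.card A = Nat.card φ.range * Nat.card φ.ker := by
  rw [AddSubgroup.card_eq_card_quotient_mul_card_addSubgroup φ.ker,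
    Nat.card_congr (QuotientAddGroup.quotientKerEquivRange φ).toEquiv]

section Good

variable [Finite V] [FiniteDimensional F V] [Finite F] (hQ : (polarBilin Q).Nondegenerate)
  (hn : 5 ≤ finrank F V) {𝒜 : Finset (AddSubgroup V)} (h𝒜 : OFam Q 𝒜)
include hQ hn h𝒜

theorem OFam.sum_ge_two_cls (hs : OSc Q 𝒜) {a b : V} (ha0 : a ≠ 0) (hb0 : b ≠ 0) {k : ℕ}
    (ha : k ≤ omult 𝒜 a) (hb : k ≤ omult 𝒜 b) (hd : Disjoint (ocls Q a) (ocls Q b)) :
    k * ((ocls Q a).ncard + (ocls Q b).ncard) + 𝒜.card ≤ ∑ A ∈ 𝒜, Nat.card A := by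
  rw [← Set.ncard_union_eq hd]
  exact mul_ncard_add_card_le 𝒜 (by simp [ocls_zero_notMem]) fun w hw => hw.elim
    (fun hw => ha.trans (h𝒜.omult_le_of_cls hQ hn hs ha0 hw))
    fun hw => hb.trans (h𝒜.omult_le_of_cls hQ hn hs hb0 hw)

/-- The members of a small invariant family. -/
theorem OFam.good (hs : OSc Q 𝒜) {p : ℕ} [CharP F p] [Fact p.Prime] {q S τ C : ℕ}
    (hq : Nat.card F = q) (hS : ozeros Q - 1 = S) (hτ : ∑ A ∈ 𝒜, Nat.card A < τ)
    (hC : ∀ b, Q b ≠ 0 → C ≤ (ocls Q b).ncard) (hK4 : 4 ≤ q → τ ≤ p * C)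
    (hK3 : q = 3 → τ ≤ 3 * (C + C) ∧ τ ≤ 3 * (C + S)) (hK2 : q = 2 → τ ≤ 2 * 2 ^ finrank F V)
    (hT : τ ≤ (q ^ 2 + 1) * S) (hT' : 4 ≤ q → τ ≤ 2 * q * S)
    (hx : finrank F V = 6 → q ≤ 3 → (q ^ 3 - 1) * (q ^ 2 + 1) ≤ S →
      τ ≤ q ^ 3 * ((q + 1) * (q ^ 2 + 1))) {A : AddSubgroup V} (hA : A ∈ 𝒜) (htop : A ≠ ⊤) :
    Nat.card A ≤ q ∨ (Nat.card A ≤ q ^ 2 ∧ OClosed F A) ∨
      (finrank F V = 6 ∧ 4 ≤ q ∧ (∀ v ∈ A, Q v = 0) ∧ OClosed F A ∧ Nat.card A = q ^ 3) := by
  classical
  have := Fintype.ofFinite F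
  have hq1 : 1 < q := hq ▸ Finite.one_lt_card
  have hp2 : 2 ≤ p := (Fact.out : p.Prime).two_le
  have hpq : p ∣ q := by
    rw [← CharP.cast_eq_zero_iff F, ← hq, Nat.card_eq_fintype_card, FiniteField.cast_card_eq_zero]
  by_cases hfat : OFat F A
  swap
  · exact Or.inl (hq ▸ o_card_le_of_not_fat hfat)
  have hK := fun b hb hb0 => h𝒜.char_le_omult hQ hn (p := p) hA htop hfat (b := b) hb hb0
  right
  by_cases hts : ∀ v ∈ A, Q v = 0
  · have h1 := o_two_mul_finrank_le hQ (o_singular_span (F := F) hts)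
    have h2 := fun a ha => h𝒜.omult_ge_singular hQ hn (p := p) hA hts hfat (a := a) ha
    have h3 := fun a ha ha0 k hk => h𝒜.sum_ge_singular hQ hn (hts a ha) ha0 (k := k) hk
    rw [hq] at h2
    rw [hS] at h3
    set i := finrank F (Submodule.span F (A : Set V)) with hi
    obtain ⟨a, ha, ha0⟩ := hfat.exists_ne_zero
    have h4 : finrank F V - 2 - i < 2 := by
      by_contra! h
      have := h3 a ha ha0 (q ^ 2 + 1)
        ((Nat.add_le_add_right (Nat.pow_le_pow_right (by omega) h) 1).trans (h2 a ha).1)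
      omega
    rw [show finrank F V - 2 - i = 1 by omega, pow_one] at h2
    have hcl : OClosed F A := by
      by_contra hc
      have hq4 : 4 ≤ q := by
        by_contra h
        exact hc (oClosed_of_card_le_three (by omega) A)
      simp only [OClosed, not_forall] at hc
      obtain ⟨c, b, hb, hcb⟩ := hc
      have := h3 b hb (by rintro rfl; simp at hcb) (2 * q)
        (le_trans (by nlinarith) ((h2 b hb).2 ⟨c, hcb⟩))
      have := hT' hq4
      omega
    have h5 := hcl.card_eq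
    rw [hq, ← hi] at h5
    by_cases h6 : i = 2
    · exact Or.inl ⟨by rw [h5, h6], hcl⟩
    have h7 : i = 3 := by omega
    have h8 : finrank F V = 6 := by omega
    rw [h7] at h5
    refine Or.inr ⟨h8, ?_, hts, hcl, h5⟩
    by_contra! hq3
    let ℬ := 𝒜.filter fun B => (∀ v ∈ B, Q v = 0) ∧ OClosed F B ∧ Nat.card B = Nat.card F ^ 3
    obtain ⟨-, h9, h10⟩ := OFam.card_ge_singular hQ hn (𝒜 := ℬ)
      (h𝒜.filter _ fun g B hB => ⟨o_singular_smul hB.1 g, hB.2.1.smul g, by
        rw [o_card_smul, hB.2.2]⟩) (j := 3) (by omega)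
      ⟨A, Finset.mem_filter.2 ⟨hA, hts, hcl, hq ▸ h5⟩⟩ fun B hB => (Finset.mem_filter.1 hB).2
    rw [h8, hq] at h9 h10
    rw [hS] at h9
    have h11 : ∑ B ∈ ℬ, Nat.card B ≤ ∑ B ∈ 𝒜, Nat.card B :=
      Finset.sum_le_sum_of_subset (Finset.filter_subset _ _)
    rw [Finset.sum_congr rfl fun B hB => (Finset.mem_filter.1 hB).2.2.2, Finset.sum_const,
      smul_eq_mul, hq] at h11
    have h12 := hx h8 (by omega) h9
    have := Nat.mul_le_mul_left (q ^ 3) h10
    norm_num at this
    nlinarith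
  · push Not at hts
    obtain ⟨b, hb, hb'⟩ := hts
    have hb0 := o_ne_zero_of_norm hb'
    left
    by_cases hq4 : 4 ≤ q
    · have := h𝒜.sum_ge_cls hQ hn hs hb0 (hK b hb hb0)
      have := Nat.mul_le_mul_left p (hC b hb')
      have := hK4 hq4
      omega
    have hsq : ∀ t : F, t ≠ 0 → t ^ 2 = 1 := fun t ht => by
      have := FiniteField.pow_card_sub_one_eq_one t ht
      rw [← Nat.card_eq_fintype_card, hq] at this
      obtain h | h : q = 2 ∨ q = 3 := by omega
      · rw [h, pow_one] at this; rw [this, one_pow]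
      · rwa [h] at this
    have hdis : ∀ a, Q a ≠ Q b → Disjoint (ocls Q b) (ocls Q a) := fun a h =>
      Set.disjoint_left.2 fun w ⟨_, t, ht, e⟩ ⟨_, t', ht', e'⟩ => h (by
        rw [hsq t ht, one_mul] at e; rw [hsq t' ht', one_mul] at e'; rw [← e, e'])
    have key : ∀ a ∈ A, a ≠ 0 → Q a = Q b := by
      intro a ha ha0
      by_contra h
      have h1 := h𝒜.sum_ge_two_cls hQ hn hs hb0 ha0 (hK b hb hb0) (hK a ha ha0) (hdis a h)
      obtain h2 | h2 : q = 2 ∨ q = 3 := by omega
      · have h3 : ocls Q b ∪ ocls Q a = Set.univ \ {0} := by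
          ext w
          simp only [ocls, Set.mem_union, Set.mem_ofPred_eq, Set.mem_sdiff, Set.mem_univ,
            true_and, Set.mem_singleton_iff]
          refine ⟨fun h => h.elim (·.1) (·.1), fun hw => ?_⟩
          have h4 : ∀ t : F, t ≠ 0 → t = 1 := fun t ht => by
            have := FiniteField.pow_card_sub_one_eq_one t ht
            rwa [← Nat.card_eq_fintype_card, hq, h2, pow_one] at this
          by_cases h5 : Q w = 0
          · refine Or.inr ⟨hw, 1, one_ne_zero, ?_⟩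
            by_contra h6
            exact h ((h4 _ fun h7 => h6 (by rw [h5, h7, mul_zero])).trans (h4 _ hb').symm)
          · exact Or.inl ⟨hw, 1, one_ne_zero, by rw [h4 _ h5, h4 _ hb']; simp⟩
        rw [← Set.ncard_union_eq (hdis a h), h3, Set.ncard_sdiff_singleton_of_mem (by simp),
          Set.ncard_univ, Module.natCard_eq_pow_finrank (K := F), hq, h2] at h1
        have h4 : omult 𝒜 b ≤ 𝒜.card := Finset.card_filter_le _ _
        have := hK b hb hb0
        have := hK2 h2
        have := Nat.mul_le_mul_right (2 ^ finrank F V - 1) hp2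
        omega
      · have h3 : p = 3 := (Nat.prime_dvd_prime_iff_eq Fact.out Nat.prime_three).1 (h2 ▸ hpq)
        have h4 := hC b hb'
        obtain ⟨h5, h6⟩ := hK3 h2
        rw [h3] at h1
        by_cases h7 : Q a = 0
        · rw [ncard_ocls_singular h7, hS] at h1; omega
        · have := hC a h7; omega
    have hcl := oClosed_of_card_le_three (F := F) (by omega) A
    refine ⟨?_, hcl⟩
    rw [hcl.card_eq, hq]
    refine Nat.pow_le_pow_right (by omega) (not_lt.1 fun h => ?_)
    obtain ⟨⟨a, ha⟩, h1, h2⟩ := quad_exists_singular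
      (Q.restrict (Submodule.span F (A : Set V))) h
    exact hb' ((key a (hcl.span_eq.le ha) (by simpa using h1)).symm.trans h2)

end Good

/-! ### Actions of `EO Q` -/

variable (Q) in
/-- Eichler transformations as elements of `EO Q`. -/
noncomputable def eE (u y : V) : EO Q := ⟨eich Q u y, eich_mem_EO u y⟩

theorem eE_mul {u v w : V} (hu : Q u = 0) (hv : polar Q u v = 0) (hw : polar Q u w = 0) :
    eE Q u v * eE Q u w = eE Q u (v + w) := Subtype.ext (eich_mul hu hv hw)

theorem eE_inv (u v : V) : (eE Q u v)⁻¹ = eE Q u (-v) := Subtype.ext (eich_inv u v)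

@[simp] theorem eE_zero (u : V) : eE Q u 0 = 1 := Subtype.ext (eich_zero_right u)

theorem eE_of_not {u v : V} (h : ¬ (Q u = 0 ∧ polar Q u v = 0)) : eE Q u v = 1 :=
  Subtype.ext (eich_of_not h)

theorem mul_eE (g : EO Q) (u v : V) : g * eE Q u v = eE Q (g.1.1 u) (g.1.1 v) * g :=
  Subtype.ext (mul_eich g.1 u v)

theorem eE_swap {u v : V} (hu : Q u = 0) (hv : Q v = 0) (huv : polar Q u v = 0) :
    eE Q v u = (eE Q u v)⁻¹ := by
  rw [eE_inv]; exact Subtype.ext (eich_swap hu hv huv)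

variable {X : Type*} [MulAction (EO Q) X]

theorem smul_eE_smul (g : EO Q) (u v : V) (x : X) :
    g • eE Q u v • x = eE Q (g.1.1 u) (g.1.1 v) • g • x := by
  rw [← mul_smul, mul_eE, mul_smul]

theorem eE_smul_eq_iff (g : EO Q) (u v : V) (x : X) :
    eE Q (g.1.1 u) (g.1.1 v) • g • x = g • x ↔ eE Q u v • x = x := by
  rw [← smul_eE_smul, smul_left_cancel_iff]

variable (Q) in
/-- The stabiliser of `x` in the Eichler group of `u`. -/
def oSV (u : V) (x : X) : AddSubgroup V where
  carrier := {y | polar Q u y = 0 ∧ eE Q u y • x = x}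
  zero_mem' := by simp
  add_mem' := fun {a b} ha hb => ⟨by rw [polar_add_right, ha.1, hb.1, add_zero], by
    by_cases hu : Q u = 0
    · rw [← eE_mul hu ha.1 hb.1, mul_smul, hb.2, ha.2]
    · rw [eE_of_not fun h => hu h.1, one_smul]⟩
  neg_mem' := fun {a} ha => ⟨by rw [polar_neg_right, ha.1, neg_zero], by
    rw [← eE_inv, inv_smul_eq_iff, ha.2]⟩

theorem mem_oSV {u y : V} {x : X} : y ∈ oSV Q u x ↔ polar Q u y = 0 ∧ eE Q u y • x = x := Iff.rfl

theorem oSV_smul (g : EO Q) (u : V) (x : X) : oSV Q (g.1.1 u) (g • x) = g.1 • oSV Q u x := by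
  ext y
  obtain ⟨y, rfl⟩ := g.1.1.surjective y
  rw [o_mem_smul_iff, mem_oSV, mem_oSV, eE_smul_eq_iff, OG.polar_app]

theorem smul_self_mem_oSV {u : V} (hu : Q u = 0) (c : F) (x : X) : c • u ∈ oSV Q u x :=
  ⟨by simp [hu], by rw [show eE Q u (c • u) = 1 from Subtype.ext (eich_smul_self u c), one_smul]⟩

theorem mem_oSV_swap {u v : V} (hu : Q u = 0) (hv : Q v = 0) {x : X} {c : F}
    (h : c • v ∈ oSV Q u x) (huv : polar Q u v = 0) : c • u ∈ oSV Q v x := by
  have hvu : polar Q v u = 0 := by rwa [polar_comm]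
  refine ⟨by simp [hvu], ?_⟩
  rw [show eE Q v (c • u) = eE Q (c • v) u from Subtype.ext (eich_smul_left hv hvu c).symm,
    eE_swap hu (by simp [o_qsmul, hv]) h.1, inv_smul_eq_iff, h.2]

variable (Q) in
/-- The polar form as a bi-additive map. -/
def obeta : V →+ V →+ F :=
  AddMonoidHom.mk' (fun v => (polarBilin Q v).toAddMonoidHom) fun a b => by
    ext; simp

@[simp] theorem obeta_apply (x y : V) : obeta Q x y = polar Q x y := rfl

theorem obeta_nondeg (hQ : (polarBilin Q).Nondegenerate) {ψ : AddChar F ℂ} {c : F} (hc : ψ c ≠ 1)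
    (u : V) (h : ∀ v, ψ (obeta Q v u) = 1) : u = 0 := by
  by_contra hu
  obtain ⟨v, hv⟩ := o_exists_polar_eq hQ hu c
  exact hc (by rw [← hv, polar_comm, ← obeta_apply, h])

variable [Finite V] [Finite F]

/-- The basic inequality along a singular line. -/
theorem o_line_ineq (hQ : (polarBilin Q).Nondegenerate) {u v : V} (hu : Q u = 0) (hv : Q v = 0)
    (huv : polar Q u v = 0) (x : X) {c₀ : F} (hc : c₀ • v ∉ oSV Q u x) {d : ℕ}
    (hd : ∀ I : AddSubgroup F, (∀ c, c ∈ I ↔ c • v ∈ oSV Q u x) → d * Nat.card I ≤ Nat.card F) :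
    d ^ 2 * (Nat.card (oSV Q u x) * Nat.card (oSV Q v x)) ≤ Nat.card V * Nat.card F ^ 2 := by
  let I : AddSubgroup F := (oSV Q u x).comap (LinearMap.toSpanSingleton F V v).toAddMonoidHom
  have hd' := hd I fun c => Iff.rfl
  have hvu : polar Q v u = 0 := by rwa [polar_comm]
  obtain ⟨χ, hχ⟩ := (AddChar.exists_apply_ne_zero (a := (c₀ : F ⧸ I))).2
    fun h => hc ((QuotientAddGroup.eq_zero_iff (N := I) c₀).1 h)
  let ψ := χ.compAddMonoidHom (QuotientAddGroup.mk' I)
  have key : ∀ u v : V, Q u = 0 → polar Q u v = 0 → (∀ c : F, c • v ∈ oSV Q u x → c ∈ I) →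
      ∃ T : AddSubgroup V, d * Nat.card (oSV Q u x) ≤ Nat.card T * Nat.card F ∧
        ∀ y ∈ T, ∃ z ∈ oSV Q u x, polar Q v z = 0 ∧ ∃ c : F, y = z + c • v := by
    intro u v hu huv hI
    by_cases hv0 : v = 0
    · have := hI c₀ (by simp [hv0])
      exact absurd this hc
    let φ : oSV Q u x →+ F := (obeta Q v).comp (oSV Q u x).subtype
    let θ : φ.ker × F →+ V := ((oSV Q u x).subtype.comp φ.ker.subtype).coprod
      (LinearMap.toSpanSingleton F V v).toAddMonoidHom
    have h1 := o_card_eq_ker_mul_range φ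
    have h2 := o_card_eq_ker_mul_range θ
    have h3 : Nat.card θ.ker ≤ Nat.card I := by
      have e : ∀ z : θ.ker, z.1.2 • v = -(z.1.1.1 : V) := fun z =>
        eq_neg_of_add_eq_zero_right z.2
      refine Nat.card_le_card_of_injective (fun z : θ.ker => (⟨z.1.2, hI _ ?_⟩ : I))
        fun z z' h => ?_
      · rw [e]; exact neg_mem z.1.1.1.2
      · have h4 : z.1.2 = z'.1.2 := congrArg Subtype.val h
        refine Subtype.ext (Prod.ext (Subtype.ext (Subtype.ext (neg_injective ?_))) h4)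
        rw [← e, ← e, h4]
    have h4 : Nat.card φ.range ≤ Nat.card F := Nat.card_le_card_of_injective _ Subtype.val_injective
    rw [Nat.card_prod] at h2
    refine ⟨θ.range, Nat.le_of_mul_le_mul_right ?_ (Nat.card_pos (α := I)), ?_⟩
    · calc _ = d * Nat.card I * Nat.card φ.range * Nat.card φ.ker := by rw [h1]; ring
        _ ≤ Nat.card F * Nat.card F * Nat.card φ.ker := by gcongr
        _ = Nat.card F * (Nat.card θ.range * Nat.card θ.ker) := by rw [← h2]; ring
        _ ≤ Nat.card F * (Nat.card θ.range * Nat.card I) := by gcongr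
        _ = _ := by ring
    · rintro _ ⟨⟨z, c⟩, rfl⟩
      exact ⟨z.1.1, z.1.2, z.2, c, rfl⟩
  obtain ⟨T, h1, h2⟩ := key u v hu huv fun c h => h
  obtain ⟨T', h3, h4⟩ := key v u hv hvu fun c h => mem_oSV_swap hv hu h hvu
  have h5 : T' ≤ MI.ann ψ (obeta Q) T := by
    intro y' hy' y hy
    obtain ⟨z, hz, hvz, c, rfl⟩ := h2 y hy
    obtain ⟨z', hz', huz', c', rfl⟩ := h4 y' hy'
    have e1 := (eE_smul_eq_iff (eE Q u z) v z' x).2 hz'.2
    rw [hz.2] at e1
    have e2 : (eE Q u z).1.1 v = v := eich_app_of_polar hvu hvz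
    have e3 : (eE Q u z).1.1 z' = z' - polar Q z' z • u :=
      eich_app_of_polar_left hu hz.1 (by rwa [polar_comm])
    rw [e2, e3] at e1
    have e4 := (oSV Q v x).sub_mem hz' (show z' - polar Q z' z • u ∈ oSV Q v x from
      ⟨by simp [hz'.1, hvu], e1⟩)
    rw [sub_sub_cancel] at e4
    have e5 : polar Q z' z ∈ I := mem_oSV_swap hv hu e4 hvu
    have e6 : obeta Q (z' + c' • u) (z + c • v) = polar Q z' z := by
      simp [hz.1, huv, polar_comm Q z' v, hz'.1]
    rw [e6, AddChar.compAddMonoidHom_apply, QuotientAddGroup.mk'_apply,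
      (QuotientAddGroup.eq_zero_iff _).2 e5, AddChar.map_zero_eq_one]
  have h6 := MI.card_ann (obeta_nondeg hQ (ψ := ψ) (c := c₀) hχ) T
  have h7 := AddSubgroup.card_le_of_le h5
  calc _ = (d * Nat.card (oSV Q u x)) * (d * Nat.card (oSV Q v x)) := by ring
    _ ≤ (Nat.card T * Nat.card F) * (Nat.card (MI.ann ψ (obeta Q) T) * Nat.card F) :=
        Nat.mul_le_mul h1 (h3.trans (Nat.mul_le_mul_right _ h7))
    _ = _ := by rw [← h6]; ring

omit [Finite V] [Finite F] in
theorem eE_smul_left_smul {u : V} {x : X} (hu : Q u = 0) (h : ∀ y, eE Q u y • x = x) (c : F)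
    (y : V) : eE Q (c • u) y • x = x := by
  by_cases hy : polar Q u y = 0
  · rw [show eE Q (c • u) y = eE Q u (c • y) from Subtype.ext (eich_smul_left hu hy c), h]
  by_cases hc : c = 0
  · rw [hc, zero_smul, show eE Q 0 y = 1 from Subtype.ext (eich_zero_left y), one_smul]
  · rw [eE_of_not (by simp [hc, hy]), one_smul]

variable [FiniteDimensional F V]

omit [Finite V] [Finite F] in
/-- The singular vectors whose Eichler group fixes `x` form a subspace. -/
theorem oU_add_mem (hQ : (polarBilin Q).Nondegenerate) {x : X} (hx : ∃ g : EO Q, g • x ≠ x)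
    {a b : V} (ha : Q a = 0 ∧ ∀ y, eE Q a y • x = x) (hb : Q b = 0 ∧ ∀ y, eE Q b y • x = x) :
    Q (a + b) = 0 ∧ ∀ y, eE Q (a + b) y • x = x := by
  have hab : polar Q a b = 0 := by
    by_contra h
    obtain ⟨g, hg⟩ := hx
    obtain ⟨k, hk, e⟩ := EO_le_of_pair hQ (u' := (polar Q a b)⁻¹ • b) ha.1
      (by simp [o_qsmul, hb.1]) (by simp [h])
      (H := (MulAction.stabilizer (EO Q) x).map (EO Q).subtype)
      (fun w => ⟨eE Q a w, ha.2 w, rfl⟩)
      (fun w => ⟨eE Q _ w, eE_smul_left_smul hb.1 hb.2 _ w, rfl⟩) g.2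
    exact hg (by rw [← Subtype.ext e]; exact hk)
  refine ⟨by simp [o_qadd, ha.1, hb.1, hab], fun y => ?_⟩
  by_cases h : b ∈ Submodule.span F {a}
  · obtain ⟨c, rfl⟩ := o_mem_span_one.1 h
    rw [show a + c • a = (1 + c) • a by module]
    exact eE_smul_left_smul ha.1 ha.2 _ y
  · obtain ⟨w, hw, hw'⟩ := o_exists_dual hQ h (-1)
    have e : (eE Q a w).1.1 b = a + b := by
      change (eich Q a w).1 b = _
      rw [eich_app_of_polar_left ha.1 (hw' a (Submodule.mem_span_singleton_self a))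
        (by rwa [polar_comm]), hw]
      module
    obtain ⟨y, rfl⟩ := (eE Q a w).1.1.surjective y
    have := (eE_smul_eq_iff (eE Q a w) b y x).2 (hb.2 y)
    rwa [e, ha.2 w] at this

end Cfsg.Agent.Cl
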