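import Mathlib
import Cfsg.Agent.Cl.OrthMinC

/-!
# Minimal index of `Ω`: the radical of a point stabiliser

`oH Q` is `Q` plus a hyperbolic plane `⟨oe, of⟩`; the Eichler group of `oe` is `{oρ w}`.  For an
action of `EO (oH Q)` on a finite set, `oS x` is the stabiliser of `x` in it and `oA ψ x` its
annihilator.
-/

set_option autoImplicit false

namespace Cfsg.Agent.Cl

open QuadraticMap Module Pointwise

variable {F W : Type*} [Field F] [AddCommGroup W] [Module F W] {Q : QuadraticForm F W}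

variable (Q) in
/-- `Q` plus a hyperbolic plane. -/
abbrev oH : QuadraticForm F ((F × F) × W) := (ohyp F).prod Q

theorem oH_apply (v : (F × F) × W) : oH Q v = v.1.1 * v.1.2 + Q v.2 := rfl

theorem polar_oH (v w : (F × F) × W) :
    polar (oH Q) v w = v.1.1 * w.1.2 + v.1.2 * w.1.1 + polar Q v.2 w.2 := by
  simp [polar_ohyp]

variable (F W) in
/-- The first vector of the hyperbolic pair. -/
def oe : (F × F) × W := ((1, 0), 0)

variable (F W) in
/-- The second vector of the hyperbolic pair. -/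
def of : (F × F) × W := ((0, 1), 0)

theorem oH_oe : oH Q (oe F W) = 0 := by simp [oe]
theorem oH_of : oH Q (of F W) = 0 := by simp [of]
theorem polar_oe (v : (F × F) × W) : polar (oH Q) (oe F W) v = v.1.2 := by simp [oe, polar_ohyp]
theorem polar_of (v : (F × F) × W) : polar (oH Q) (of F W) v = v.1.1 := by simp [of, polar_ohyp]
theorem polar_oe_of : polar (oH Q) (oe F W) (of F W) = 1 := polar_oe _
omit [Module F W] in
theorem oe_ne_zero : oe F W ≠ 0 := by simp [oe]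
theorem oH_inr (w : W) : oH Q (0, w) = Q w := by simp
theorem polar_inr (w w' : W) : polar (oH Q) (0, w) (0, w') = polar Q w w' := by simp

theorem finrank_oH [FiniteDimensional F W] : finrank F ((F × F) × W) = finrank F W + 2 := by
  simp [add_comm]

variable (Q) in
/-- The elements of the Eichler group of `oe`. -/
noncomputable def oρ (w : W) : EO (oH Q) := eE (oH Q) (oe F W) (0, w)

theorem oρ_add (w w' : W) : oρ Q (w + w') = oρ Q w * oρ Q w' := by
  rw [oρ, oρ, oρ, eE_mul oH_oe (polar_oe _) (polar_oe _), Prod.mk_add_mk, add_zero]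

@[simp] theorem oρ_zero : oρ Q 0 = 1 := eE_zero _

theorem oρ_neg (w : W) : oρ Q (-w) = (oρ Q w)⁻¹ :=
  eq_inv_of_mul_eq_one_left (by rw [← oρ_add, neg_add_cancel, oρ_zero])

theorem eE_oe {y : (F × F) × W} (hy : y.1.2 = 0) : eE (oH Q) (oe F W) y = oρ Q y.2 := by
  have : y = (0, y.2) + y.1.1 • oe F W := by ext <;> simp [oe, hy]
  conv_lhs => rw [this]
  exact Subtype.ext (eich_add_smul_self oH_oe (polar_oe _) _)

theorem inr_mem_EO {g : OG Q} (hg : g ∈ EO Q) : OG.inr (ohyp F) Q g ∈ EO (oH Q) :=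
  (EO_le_iff (H := (EO (oH Q)).comap (OG.inr (ohyp F) Q))).2 (fun u v _ _ => by
    rw [Subgroup.mem_comap, OG.inr_eich]; exact eich_mem_EO _ _) hg

/-- `k` acts on `oe` as the scalar `t` and on `W` as `g`. -/
def OLev (k : EO (oH Q)) (t : F) (g : OG Q) : Prop :=
  t ≠ 0 ∧ k.1.1 (oe F W) = t • oe F W ∧ ∀ w, k.1.1 (0, w) = (0, g.1 w)

theorem oLev_inr {g : OG Q} (hg : g ∈ EO Q) : OLev ⟨_, inr_mem_EO hg⟩ 1 g :=
  ⟨one_ne_zero, by simp [OG.inr_apply, oe], fun w => by simp [OG.inr_apply]⟩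

theorem OLev.mul_oρ {k : EO (oH Q)} {t : F} {g : OG Q} (h : OLev k t g) (w : W) :
    k * oρ Q w = oρ Q (t • g.1 w) * k := by
  rw [oρ, mul_eE, h.2.1, h.2.2, oρ]
  congr 1
  exact Subtype.ext ((eich_smul_left oH_oe (polar_oe _) t).trans (by simp [eE]))

theorem exists_oLev_sq [FiniteDimensional F W] (hQ : (polarBilin Q).Nondegenerate)
    (hn : 1 ≤ finrank F W) {c : F} (hc : c ≠ 0) :
    ∃ z, OLev (Q := Q) z (c ^ 2) 1 ∧ z.1.1 (of F W) = (c ^ 2)⁻¹ • of F W :=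
  ⟨⟨_, otor_sq_mem_EO (o_prod_nondeg ohyp_nondeg hQ) oH_oe oH_of polar_oe_of
      (by rw [finrank_oH]; omega) hc⟩,
    ⟨pow_ne_zero _ hc, otor_left oH_oe oH_of polar_oe_of (pow_ne_zero _ hc),
      fun _ => otor_perp _ (polar_oe _) (polar_of _)⟩,
    otor_right oH_oe oH_of polar_oe_of (pow_ne_zero _ hc)⟩

theorem exists_oLev [FiniteDimensional F W] [Finite F] (hQ : (polarBilin Q).Nondegenerate)
    (hn : 3 ≤ finrank F W) {t : F} (ht : t ≠ 0) : ∃ k g, OLev (Q := Q) k t g := by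
  obtain ⟨u, hu0, hu⟩ := quad_exists_singular Q hn
  obtain ⟨u', hu', huu'⟩ := o_exists_partner hQ hu hu0
  have hP := o_prod_nondeg (ohyp_nondeg (F := F)) hQ
  have hexc : ¬ OExc (oH Q) := not_oExc_of_finrank (by rw [finrank_oH]; omega)
  have h1 : OG.inr (ohyp F) Q (otor Q u u' t) = otor (oH Q) (0, u) (0, u') t := by
    simp [otor, OG.inr_orefl]
  have h2 := (oH_inr u).trans hu
  have h3 := (oH_inr u').trans hu'
  have h4 := (polar_inr u u').trans huu'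
  refine ⟨⟨otor (oH Q) (oe F W) (of F W) t * OG.inr (ohyp F) Q (otor Q u u' t), ?_⟩,
    otor Q u u' t, ht, ?_, fun w => ?_⟩
  · rw [← commutator_eq_EO_of_finite hP hexc (by rw [finrank_oH]; omega),
      mem_commutator_OG_iff hP hexc, map_mul, map_mul, h1,
      dickson_otor oH_oe oH_of polar_oe_of hP ht, dickson_otor h2 h3 h4 hP ht,
      ospin_otor oH_oe oH_of polar_oe_of hP ht, ospin_otor h2 h3 h4 hP ht]
    simp
  · rw [← otor_left (Q := oH Q) oH_oe oH_of polar_oe_of ht]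
    simp [OG.inr_apply, oe]
  · rw [← otor_perp (Q := oH Q) (w := (0, (otor Q u u' t).1 w)) t (polar_oe _) (polar_of _)]
    simp [OG.inr_apply]

theorem o_arith_fix₁ {q m z c : ℕ} (h7 : 1 * (z - 1) + c ≤ c * (q + 2) ^ 1)
    (h8 : (q + 2) ^ (m + 5) + (q + 2) * (q + 2) ^ 1 ≤ (q + 2) * z + (q + 2) ^ (m + 4)) :
    (q + 2) ^ (1 + 1) ≤ (q + 1) * c + 1 := by
  have h9 : (q + 2) ^ 4 ≤ (q + 2) ^ (m + 4) := Nat.pow_le_pow_right (by omega) (by omega)
  rw [pow_succ _ (m + 4)] at h8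
  generalize (q + 2) ^ (m + 4) = y at h8 h9
  have h11 : (q + 2) ^ 2 ≤ z := by
    refine Nat.le_of_mul_le_mul_left ?_ (show 0 < q + 2 by omega)
    nlinarith [Nat.zero_le (q ^ 4), Nat.zero_le (q ^ 3), Nat.zero_le (y * q)]
  have : 0 < (q + 2) ^ 2 := by positivity
  obtain ⟨z, rfl⟩ : ∃ z', z = z' + 1 := ⟨z - 1, by omega⟩
  simp only [Nat.add_sub_cancel] at h7
  change (q + 2) ^ 2 ≤ _
  nlinarith

theorem o_arith_fix₂ (q : ℕ) {j a : ℕ} (h : j ≤ a + 3) :
    (q + 2) ^ (j + 1) ≤ (q + 1) * (((q + 2) ^ (a + 1) + 1) * ((q + 2) ^ (a + 2) + 1)) + 1 := by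
  by_cases h9 : j + 1 ≤ (a + 1) + (a + 2)
  · have := Nat.pow_le_pow_right (show 0 < q + 2 by omega) h9
    rw [pow_add (q + 2) (a + 1) (a + 2)] at this
    generalize (q + 2) ^ (a + 1) = x at this ⊢
    generalize (q + 2) ^ (a + 2) = y at this ⊢
    nlinarith [Nat.zero_le (q * ((x + 1) * (y + 1)))]
  · rw [show j = 3 by omega, show a = 0 by omega]
    exact le_of_eq (by ring)

theorem o_arith_fix₃ {v u n y z r : ℕ} (hv : 0 < v) (h6 : y ≤ r * v + 1) (h7 : v * z + u ≤ u * y)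
    (h8 : u ≤ n) : z ≤ r * n := by
  refine Nat.le_of_mul_le_mul_left ?_ hv
  nlinarith [Nat.mul_le_mul_left u h6, Nat.mul_le_mul_left (r * v) h8]

variable {X : Type*} [MulAction (EO (oH Q)) X]

variable (Q) in
/-- The stabiliser of `x` in the Eichler group of `oe`. -/
def oS (x : X) : AddSubgroup W := (oSV (oH Q) (oe F W) x).comap (AddMonoidHom.inr (F × F) W)

theorem mem_oS {x : X} {w : W} : w ∈ oS Q x ↔ oρ Q w • x = x := and_iff_right (polar_oe _)

theorem mem_oSV_oe {x : X} {y : (F × F) × W} :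
    y ∈ oSV (oH Q) (oe F W) x ↔ y.1.2 = 0 ∧ y.2 ∈ oS Q x := by
  rw [mem_oSV, polar_oe, mem_oS]
  exact and_congr_right fun h => by rw [eE_oe h]

theorem card_oSV_oe (x : X) :
    Nat.card (oSV (oH Q) (oe F W) x) = Nat.card F * Nat.card (oS Q x) := by
  rw [← Nat.card_prod]
  exact Nat.card_congr
    { toFun := fun y => (y.1.1.1, ⟨y.1.2, (mem_oSV_oe.1 y.2).2⟩)
      invFun := fun p => ⟨((p.1, 0), p.2), mem_oSV_oe.2 ⟨rfl, p.2.2⟩⟩
      left_inv := fun y => Subtype.ext (Prod.ext (Prod.ext rfl (mem_oSV_oe.1 y.2).1.symm) rfl)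
      right_inv := fun _ => rfl }

theorem oρ_smul_eq_iff {x : X} {w w' : W} : oρ Q w • x = oρ Q w' • x ↔ -w + w' ∈ oS Q x := by
  rw [mem_oS, oρ_add, oρ_neg, mul_smul, inv_smul_eq_iff, eq_comm]

theorem oS_oρ (w : W) (x : X) : oS Q (oρ Q w • x) = oS Q x := by
  ext v
  rw [mem_oS, mem_oS, ← mul_smul, ← oρ_add, add_comm, oρ_add, mul_smul, smul_left_cancel_iff]

theorem OLev.smul_oρ {k : EO (oH Q)} {t : F} {g : OG Q} (h : OLev k t g) (w : W) (x : X) :
    k • oρ Q w • x = oρ Q (t • g.1 w) • k • x := by rw [← mul_smul, h.mul_oρ, mul_smul]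

theorem OLev.mem_oS {k : EO (oH Q)} {t : F} {g : OG Q} (h : OLev k t g) {w : W} {x : X} :
    t • g.1 w ∈ oS Q (k • x) ↔ w ∈ oS Q x := by
  rw [Cl.mem_oS, Cl.mem_oS, ← h.smul_oρ, smul_left_cancel_iff]

variable (Q) in
/-- The annihilator of the stabiliser of `x` in the Eichler group of `oe`. -/
def oA (ψ : AddChar F ℂ) (x : X) : AddSubgroup W := MI.ann ψ (obeta Q) (oS Q x)

variable {ψ : AddChar F ℂ}

theorem oA_oρ (w : W) (x : X) : oA Q ψ (oρ Q w • x) = oA Q ψ x := by rw [oA, oS_oρ, oA]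

theorem OLev.oA_eq {k : EO (oH Q)} {t : F} {g : OG Q} (h : OLev k t g) (x : X) :
    oA Q ψ (k • x) = t⁻¹ • g • oA Q ψ x := by
  ext v
  obtain ⟨v, rfl⟩ : ∃ v', t⁻¹ • g.1 v' = v := ⟨(g⁻¹).1 (t • v), by simp [h.1]⟩
  rw [AddSubgroup.smul_mem_pointwise_smul_iff₀ (inv_ne_zero h.1), o_mem_smul_iff]
  have e : ∀ s, obeta Q (t⁻¹ • g.1 v) (t • g.1 s) = obeta Q v s := fun s => by
    simp [h.1]
  refine ⟨fun H s hs => by rw [← e, H _ (h.mem_oS.2 hs)], fun H s hs => ?_⟩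
  obtain ⟨s, rfl⟩ : ∃ s', t • g.1 s' = s := ⟨(g⁻¹).1 (t⁻¹ • s), by simp [h.1]⟩
  rw [e, H _ (h.mem_oS.1 hs)]

variable [Finite W] [Finite F] (hQ : (polarBilin Q).Nondegenerate) {c₀ : F} (hψ : ψ c₀ ≠ 1)
include hQ hψ

omit [Finite F] in
theorem card_oS_mul (x : X) : Nat.card (oS Q x) * Nat.card (oA Q ψ x) = Nat.card W :=
  MI.card_ann (obeta_nondeg hQ hψ) _

omit [Finite F] in
theorem ncard_oρ_orbit (x : X) : (Set.range fun w => oρ Q w • x).ncard = Nat.card (oA Q ψ x) := by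
  refine Nat.eq_of_mul_eq_mul_left (Nat.card_pos (α := oS Q x)) ?_
  rw [card_oS_mul hQ hψ, AddSubgroup.card_eq_card_quotient_mul_card_addSubgroup (oS Q x), mul_comm,
    ← Nat.card_coe_set_eq, ← Nat.card_congr (Setoid.quotientKerEquivRange _)]
  congr 3
  ext w w'
  rw [QuotientAddGroup.leftRel_apply, Setoid.ker_def, oρ_smul_eq_iff]

omit [Finite F] in
theorem oA_eq_top_iff {x : X} : oA Q ψ x = ⊤ ↔ oS Q x = ⊥ := by
  rw [← AddSubgroup.card_eq_one, ← AddSubgroup.card_eq_iff_eq_top, ← card_oS_mul hQ hψ x]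
  exact ⟨fun h => (Nat.mul_eq_right Nat.card_pos.ne').1 h.symm, fun h => by rw [h, one_mul]⟩

omit [Finite F] in
theorem oA_eq_bot_iff {x : X} : oA Q ψ x = ⊥ ↔ oS Q x = ⊤ := by
  rw [← AddSubgroup.card_eq_one, ← AddSubgroup.card_eq_iff_eq_top, ← card_oS_mul hQ hψ x]
  exact ⟨fun h => by rw [h, mul_one], fun h => (Nat.mul_eq_left Nat.card_pos.ne').1 h.symm⟩

omit [Finite F] in
theorem oS_eq_ann (x : X) : oS Q x = MI.ann ψ (obeta Q) (oA Q ψ x) := by
  have h : (obeta Q).flip = obeta Q := by ext; simp [polar_comm]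
  conv_rhs => rw [← h]
  exact (MI.ann_ann (obeta_nondeg hQ hψ)
    (fun v hv => obeta_nondeg hQ hψ v fun u => by simpa [polar_comm] using hv u) _).symm

omit [Finite F] in
theorem oClosed_oS {x : X} (h : OClosed F (oA Q ψ x)) : OClosed F (oS Q x) := by
  rw [oS_eq_ann hQ hψ]
  intro c a ha u hu
  simpa using ha _ (h c u hu)

open Classical in
omit [Finite F] in
/-- Counting points by their annihilators; `k` moves every point of `Y` off its orbit. -/
theorem sum_card_oA_le (Y : Finset X) (hY : ∀ w, ∀ x ∈ Y, oρ Q w • x ∈ Y) :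
    ∑ A ∈ Y.image (oA Q ψ), Nat.card A ≤ Y.card ∧
    ((∀ x ∈ Y, ∃ y ∈ Y, oA Q ψ y = oA Q ψ x ∧ ∀ w, oρ Q w • x ≠ y) →
      2 * ∑ A ∈ Y.image (oA Q ψ), Nat.card A ≤ Y.card) := by
  have h1 : ∀ x ∈ Y, ∀ y ∈ Y, oA Q ψ y = oA Q ψ x → (Set.range fun w => oρ Q w • y) ⊆
      (Y.filter (oA Q ψ · = oA Q ψ x) : Finset X) := by
    rintro x - y hy h _ ⟨w, rfl⟩
    simp [hY w y hy, oA_oρ, h]
  rw [Finset.card_eq_sum_card_image (oA Q ψ) Y, Finset.mul_sum]
  refine ⟨Finset.sum_le_sum fun A hA => ?_, fun H => Finset.sum_le_sum fun A hA => ?_⟩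
  · obtain ⟨x, hx, rfl⟩ := Finset.mem_image.1 hA
    rw [← ncard_oρ_orbit hQ hψ, ← Set.ncard_coe_finset]
    exact Set.ncard_le_ncard (h1 x hx x hx rfl)
  · obtain ⟨x, hx, rfl⟩ := Finset.mem_image.1 hA
    obtain ⟨y, hy, h2, h3⟩ := H x hx
    rw [two_mul, ← Set.ncard_coe_finset]
    nth_rw 2 [← h2]
    rw [← ncard_oρ_orbit hQ hψ, ← ncard_oρ_orbit hQ hψ, ← Set.ncard_union_eq]
    · exact Set.ncard_le_ncard (Set.union_subset (h1 x hx x hx rfl) (h1 x hx y hy h2))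
    · rw [Set.disjoint_left]
      rintro _ ⟨w, rfl⟩ ⟨w', h⟩
      refine h3 (-w' + w) ?_
      rw [oρ_add, mul_smul, oρ_neg, inv_smul_eq_iff]
      exact h.symm

omit hQ hψ [Finite W] [Finite F] in
open Classical in
theorem oFam_image {Y : Finset X}
    (hY : ∀ g (hg : g ∈ EO Q), ∀ x ∈ Y, (⟨_, inr_mem_EO hg⟩ : EO (oH Q)) • x ∈ Y) :
    OFam Q (Y.image (oA Q ψ)) := by
  intro g hg A hA
  obtain ⟨x, hx, rfl⟩ := Finset.mem_image.1 hA
  exact Finset.mem_image.2 ⟨_, hY g hg x hx, by rw [(oLev_inr hg).oA_eq, inv_one, one_smul]⟩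

omit hψ [Finite W] in
open Classical in
theorem oSc_image [FiniteDimensional F W] (hn : 3 ≤ finrank F W) {Y : Finset X}
    (hY : ∀ k t (g : OG Q), OLev k t g → ∀ x ∈ Y, k • x ∈ Y) : OSc Q (Y.image (oA Q ψ)) := by
  intro t ht
  obtain ⟨k, g, h⟩ := exists_oLev hQ hn (inv_ne_zero ht)
  refine ⟨g, fun A hA => ?_⟩
  obtain ⟨x, hx, rfl⟩ := Finset.mem_image.1 hA
  exact Finset.mem_image.2 ⟨_, hY _ _ _ h x hx, by rw [h.oA_eq, inv_inv]⟩

omit hψ in
/-- If some point is fixed by the whole Eichler group, there are at least as many points as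
singular points of the space. -/
theorem o_case_fix [FiniteDimensional F W] [Finite X] (hn : 5 ≤ finrank F W)
    (hx : ∀ x : X, ∃ g : EO (oH Q), g • x ≠ x) {x₀ : X} (h : oS Q x₀ = ⊤) :
    ozeros (oH Q) - 1 ≤ (Nat.card F - 1) * Nat.card X := by
  classical
  have := Fintype.ofFinite X
  have hP := o_prod_nondeg (ohyp_nondeg (F := F)) hQ
  let U : X → AddSubgroup ((F × F) × W) := fun x =>
    { carrier := {v | oH Q v = 0 ∧ ∀ y, eE (oH Q) v y • x = x}
      zero_mem' := ⟨map_zero _, fun y => by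
        rw [show eE (oH Q) 0 y = 1 from Subtype.ext (eich_zero_left y), one_smul]⟩
      add_mem' := oU_add_mem hP (hx x)
      neg_mem' := fun {a} ha => ⟨by rw [o_qneg, ha.1], by
        rw [← neg_one_smul F a]; exact eE_smul_left_smul ha.1 ha.2 _⟩ }
  have hU : ∀ x v, v ∈ U x ↔ oH Q v = 0 ∧ ∀ y, eE (oH Q) v y • x = x := fun _ _ => Iff.rfl
  have hUc : ∀ x, OClosed F (U x) := fun x c a ha =>
    ⟨by rw [o_qsmul, ha.1, mul_zero], eE_smul_left_smul ha.1 ha.2 _⟩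
  have hUg : ∀ (g : EO (oH Q)) x, U (g • x) = g.1 • U x := fun g x => by
    ext v
    obtain ⟨v, rfl⟩ := g.1.1.surjective v
    rw [o_mem_smul_iff, hU, hU, OG.map_app, g.1.1.surjective.forall]
    simp only [eE_smul_eq_iff]
  have he : oe F W ∈ U x₀ := ⟨oH_oe, fun y => by
    by_cases hy : y.1.2 = 0
    · rw [eE_oe hy, ← mem_oS, h]; trivial
    · rw [eE_of_not fun h => hy ((polar_oe y).symm.trans h.2), one_smul]⟩
  obtain ⟨q, hq⟩ : ∃ q, Nat.card F = q + 2 := ⟨_, (Nat.sub_add_cancel Finite.one_lt_card).symm⟩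
  let 𝒰 := (Finset.univ.image U).filter
    fun B : AddSubgroup ((F × F) × W) => Nat.card B = Nat.card (U x₀)
  have h𝒰 : OFam (oH Q) 𝒰 := OFam.filter (fun g hg A hA => by
    obtain ⟨x, -, rfl⟩ := Finset.mem_image.1 hA
    exact Finset.mem_image.2 ⟨_, Finset.mem_univ _, hUg ⟨g, hg⟩ x⟩) _ fun g A hA => by
      rw [o_card_smul, hA]
  have hmem : ∀ B ∈ 𝒰, (∀ v ∈ B, oH Q v = 0) ∧ OClosed F B ∧ Nat.card B = Nat.card (U x₀) := by
    intro B hB
    obtain ⟨h1, h2⟩ := Finset.mem_filter.1 hB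
    obtain ⟨x, -, rfl⟩ := Finset.mem_image.1 h1
    exact ⟨fun v hv => hv.1, hUc x, h2⟩
  let π : AddSubgroup ((F × F) × W) → AddSubgroup W := fun B => B.comap (AddMonoidHom.inr _ _)
  have hπ : ∀ B ∈ 𝒰, oe F W ∈ B → ∀ v, v ∈ B ↔ v.1.2 = 0 ∧ v.2 ∈ π B := by
    intro B hB heB v
    obtain ⟨h1, h2, -⟩ := hmem B hB
    have e : v.1.2 = 0 → (v ∈ B ↔ v.2 ∈ π B) := fun hv => by
      have : v = (0, v.2) + v.1.1 • oe F W := by ext <;> simp [oe, hv]
      conv_lhs => rw [this, B.add_mem_cancel_right (h2 _ _ heB)]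
      rfl
    refine ⟨fun hv => ?_, fun hv => (e hv.1).2 hv.2⟩
    have : v.1.2 = 0 := by
      have := h1 _ (B.add_mem heB hv)
      rwa [o_qadd, h1 _ heB, h1 _ hv, polar_oe, zero_add, zero_add] at this
    exact ⟨this, (e this).1 hv⟩
  let 𝒱 := (𝒰.filter (oe F W ∈ ·)).image π
  have h𝒱 : OFam Q 𝒱 := fun g hg A hA => by
    obtain ⟨B, hB, rfl⟩ := Finset.mem_image.1 hA
    obtain ⟨h1, h2⟩ := Finset.mem_filter.1 hB
    have hl := oLev_inr hg
    refine Finset.mem_image.2 ⟨_, Finset.mem_filter.2 ⟨h𝒰 _ (inr_mem_EO hg) B h1, ?_⟩, ?_⟩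
    · rw [← one_smul F (oe F W), ← hl.2.1]; exact o_mem_smul_iff.2 h2
    · ext w
      obtain ⟨w, rfl⟩ := g.1.surjective w
      rw [o_mem_smul_iff]
      change ((0, g.1 w) : (F × F) × W) ∈ OG.inr (ohyp F) Q g • B ↔ _
      rw [← hl.2.2]
      exact o_mem_smul_iff
  have hx₀ : U x₀ ∈ 𝒰 := by simp [𝒰]
  have hV : ∀ A ∈ 𝒱, (∀ v ∈ A, Q v = 0) ∧ OClosed F A ∧
      Nat.card F * Nat.card A = Nat.card (U x₀) := by
    intro A hA
    obtain ⟨B, hB, rfl⟩ := Finset.mem_image.1 hA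
    obtain ⟨h1, h2⟩ := Finset.mem_filter.1 hB
    obtain ⟨h3, h4, h5⟩ := hmem B h1
    refine ⟨fun v hv => (oH_inr v).symm.trans (h3 _ hv), fun c a ha => ?_, ?_⟩
    · have := h4 c _ ha
      change ((0, c • a) : (F × F) × W) ∈ B
      simpa using this
    · rw [← h5, ← Nat.card_prod]
      exact Nat.card_congr
        { toFun := fun p => ⟨((p.1, 0), p.2), (hπ B h1 h2 _).2 ⟨rfl, p.2.2⟩⟩
          invFun := fun y => (y.1.1.1, ⟨y.1.2, ((hπ B h1 h2 _).1 y.2).2⟩)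
          left_inv := fun _ => rfl
          right_inv := fun y =>
            Subtype.ext (Prod.ext (Prod.ext rfl ((hπ B h1 h2 _).1 y.2).1.symm) rfl) }
  have hA₀ : π (U x₀) ∈ 𝒱 := Finset.mem_image_of_mem _ (Finset.mem_filter.2 ⟨hx₀, he⟩)
  obtain ⟨h1, h2, h3⟩ := hV _ hA₀
  have h4 := h2.card_eq
  set j := finrank F (Submodule.span F (π (U x₀) : Set W))
  have h5 : ∀ A ∈ 𝒱, Nat.card A = Nat.card F ^ j := fun A hA =>
    Nat.eq_of_mul_eq_mul_left Nat.card_pos ((hV A hA).2.2.trans (h4 ▸ h3.symm))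
  have h6 : Nat.card F ^ (j + 1) ≤ (Nat.card F - 1) * 𝒱.card + 1 := by
    obtain h6 | h6 | h6 : j = 0 ∨ j = 1 ∨ 2 ≤ j := by omega
    · have := Finset.card_pos.2 ⟨_, hA₀⟩
      rw [h6, hq, show q + 2 - 1 = q + 1 from rfl, zero_add, pow_one]
      exact Nat.succ_le_succ (Nat.le_mul_of_pos_right _ this)
    · obtain ⟨⟨a, ha⟩, ha0⟩ : ∃ a : π (U x₀), a ≠ 0 := by
        have : Nontrivial (π (U x₀)) := by
          rw [← Finite.one_lt_card_iff_nontrivial, h4, h6, hq, pow_one]; omega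
        exact exists_ne 0
      have h7 := h𝒱.sum_ge_singular hQ hn (h1 a ha) (by simpa using ha0) (omult_pos hA₀ ha)
      have h8 := ozeros_ge_of_singular hQ (o_singular_span (F := F) h1)
      rw [Finset.sum_congr rfl h5, Finset.sum_const, smul_eq_mul, h6] at h7
      obtain ⟨m, hm⟩ : ∃ m, finrank F W = m + 5 := ⟨_, (Nat.sub_add_cancel hn).symm⟩
      change _ + _ * _ ^ j ≤ _ + _ ^ (_ - j) at h8
      rw [h6, hm, hq, show m + 5 - 1 = m + 4 from rfl] at h8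
      rw [h6, hq, show q + 2 - 1 = q + 1 from rfl]
      rw [hq] at h7
      exact o_arith_fix₁ h7 h8
    · obtain ⟨h7, -, h8⟩ := h𝒱.card_ge_singular hQ hn h6 ⟨_, hA₀⟩
        fun A hA => ⟨(hV A hA).1, (hV A hA).2.1, h5 A hA⟩
      refine le_trans ?_ (Nat.add_le_add_right (Nat.mul_le_mul_left _ h8) 1)
      obtain ⟨a, ha⟩ : ∃ a, finrank F W = j + a + 3 := ⟨finrank F W - j - 3, by omega⟩
      rw [ha, show j + a + 3 - 2 - j = a + 1 by omega, show j + a + 3 - 1 - j = a + 2 by omega, hq,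
        show q + 2 - 1 = q + 1 from rfl]
      exact o_arith_fix₂ q (by omega)
  have h7 := h𝒰.sum_ge_singular hP (by rw [finrank_oH]; omega) oH_oe oe_ne_zero
    (k := 𝒱.card) Finset.card_image_le
  rw [Finset.sum_congr rfl fun B hB => (hmem B hB).2.2, Finset.sum_const, smul_eq_mul, ← h3, h4,
    ← pow_succ'] at h7
  have h8 : 𝒰.card ≤ Nat.card X := by
    rw [Nat.card_eq_fintype_card]
    exact (Finset.card_filter_le _ _).trans Finset.card_image_le
  exact o_arith_fix₃ (Finset.card_pos.2 ⟨_, hA₀⟩) h6 h7 h8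

end Cfsg.Agent.Cl
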