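import Mathlib
import Cfsg.Agent.Cl.OrthMinD

/-!
# Minimal index of `Ω`: three configurations that do not occur

The Eichler group of a point is not regular (`o_case_reg`), its stabilisers are not all of small
index (`o_case_small`), and in dimension eight they are not all planes unless there are many points
(`o_case_plane`).
-/

set_option autoImplicit false

namespace Cfsg.Agent.Cl

open QuadraticMap Module Pointwise

theorem o_exists_fixed_of_prime {G X : Type*} [Group G] [MulAction G X] [Finite X] {p : ℕ}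
    [Fact p.Prime] (hp : ¬ p ∣ Nat.card X) {s : G} (hs : s ^ p = 1) : ∃ x : X, s • x = x := by
  have := Fintype.ofFinite X
  exact Equiv.Perm.exists_fixed_point_of_prime (n := 1) (by rwa [← Nat.card_eq_fintype_card])
    (σ := MulAction.toPermHom G X s) (by rw [pow_one, ← map_pow, hs, map_one])

theorem o_exists_fixed_of_comm {G X : Type*} [Group G] [MulAction G X] [Finite X]
    (hp : ¬ 2 ∣ Nat.card X) {s t : G} (hs : s * s = 1) (ht : t * t = 1) (h : s * t = t * s) :
    ∃ x : X, s • x = x ∧ t • x = x := by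
  classical
  have := Fintype.ofFinite X
  have h1 := Equiv.Perm.card_fixedPoints_modEq (f := (fun x : X => s • x : Function.End X))
    (p := 2) (n := 1) (funext fun x => by
      change s • s • x = x
      rw [← mul_smul, hs, one_smul])
  obtain ⟨x, hx⟩ := Equiv.Perm.exists_fixed_point_of_prime (p := 2) (n := 1)
    (α := Function.fixedPoints fun x : X => s • x)
    (fun h2 => hp (by rw [Nat.card_eq_fintype_card]; exact (h1.dvd_iff dvd_rfl).2 h2))
    (σ := (MulAction.toPerm t).subtypePerm fun x => by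
      change s • t • x = t • x ↔ s • x = x
      rw [← mul_smul, h, mul_smul, smul_left_cancel_iff])
    (Equiv.ext fun x => Subtype.ext (by
      change t • t • x.1 = x.1
      rw [← mul_smul, ht, one_smul]))
  exact ⟨x.1, x.2, congrArg Subtype.val hx⟩

variable {F W : Type*} [Field F] [AddCommGroup W] [Module F W] {Q : QuadraticForm F W}

theorem OClosed.smul_eq {A : AddSubgroup W} (h : OClosed F A) {t : F} (ht : t ≠ 0) :
    t • A = A := by
  ext v
  rw [AddSubgroup.mem_pointwise_smul_iff_inv_smul_mem₀ ht]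
  exact ⟨fun hv => by simpa [ht] using h t _ hv, h _ _⟩

variable (Q) in
/-- A totally singular subspace with `q ^ j` elements. -/
def OTs (j : ℕ) (A : AddSubgroup W) : Prop :=
  (∀ v ∈ A, Q v = 0) ∧ OClosed F A ∧ Nat.card A = Nat.card F ^ j

theorem OTs.smul {j : ℕ} {A : AddSubgroup W} (h : OTs Q j A) (g : OG Q) : OTs Q j (g • A) :=
  ⟨o_singular_smul h.1 g, h.2.1.smul g, by rw [o_card_smul, h.2.2]⟩

theorem oTs_smul_iff {j : ℕ} {A : AddSubgroup W} {t : F} (ht : t ≠ 0) (g : OG Q) :
    OTs Q j (t • g • A) ↔ OTs Q j A := by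
  refine ⟨fun h => ?_, fun h => by rw [(h.smul g).2.1.smul_eq ht]; exact h.smul g⟩
  have := h.smul g⁻¹
  rwa [← h.2.1.smul_eq (inv_ne_zero ht), inv_smul_smul₀ ht, inv_smul_smul] at this

theorem OTs.polar_eq_zero {j : ℕ} {A : AddSubgroup W} (h : OTs Q j A) {x y : W} (hx : x ∈ A)
    (hy : y ∈ A) : polar Q x y = 0 := by
  simp [polar, h.1 x hx, h.1 y hy, h.1 _ (A.add_mem hx hy)]

variable {X : Type*} [MulAction (EO (oH Q)) X]

theorem oClosed_oSV_oe {x : X} (h : OClosed F (oS Q x)) : OClosed F (oSV (oH Q) (oe F W) x) :=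
  fun c _ ha => mem_oSV_oe.2 ⟨by simp [(mem_oSV_oe.1 ha).1], h c _ (mem_oSV_oe.1 ha).2⟩

theorem oLev_eE (u y : W) : OLev (eE (oH Q) (0, u) (0, y)) 1 (eich Q u y) := by
  have := oLev_inr (eich_mem_EO (Q := Q) u y)
  simp only [OG.inr_eich] at this
  exact this

variable [FiniteDimensional F W] [Finite F] (hQ : (polarBilin Q).Nondegenerate)
include hQ

theorem exists_oSV_eq (hn : 3 ≤ finrank F W) {u : (F × F) × W} (hu : oH Q u = 0) (hu0 : u ≠ 0)
    (x : X) : ∃ (g : OG (oH Q)) (x' : X), g.1 (oe F W) = u ∧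
      oSV (oH Q) u x = g • oSV (oH Q) (oe F W) x' := by
  obtain ⟨g, hg, rfl⟩ := EO_exists_map_eq (o_prod_nondeg ohyp_nondeg hQ)
    (by rw [finrank_oH]; omega) (oH_oe.trans hu.symm) oe_ne_zero hu0
  exact ⟨g, (⟨g, hg⟩ : EO (oH Q))⁻¹ • x, rfl, by
    rw [← oSV_smul (⟨g, hg⟩ : EO (oH Q)), smul_inv_smul]⟩

/-- The Eichler group of a point does not act regularly. -/
theorem o_case_reg [Finite X] (hn : 5 ≤ finrank F W) (h : ∀ x : X, oS Q x = ⊥)
    (hc : Nat.card X = Nat.card F ^ finrank F W) : False := by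
  have := Module.finite_of_finite F (M := W)
  have := Fintype.ofFinite F
  have hexc : ¬ OExc Q := not_oExc_of_finrank (by omega)
  have R2 : ∀ (x : X) w w', oρ Q w • x = oρ Q w' • x → w = w' := fun x w w' e => by
    rwa [oρ_smul_eq_iff, h, AddSubgroup.mem_bot, neg_add_eq_zero] at e
  have R1 : ∀ x y : X, ∃ w, oρ Q w • x = y := fun x =>
    ((Nat.bijective_iff_injective_and_card _).2
      ⟨R2 x, by rw [hc, Module.natCard_eq_pow_finrank (K := F)]⟩).2
  obtain ⟨u, hu0, hu⟩ := quad_exists_singular Q (by omega)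
  let E : W → EO (oH Q) := fun y => eE (oH Q) (0, u) (0, y)
  have E1 : ∀ y y', polar Q u y = 0 → polar Q u y' = 0 → E y * E y' = E (y + y') :=
    fun y y' h1 h2 => by
      simp only [E]
      rw [eE_mul ((oH_inr u).trans hu) ((polar_inr _ _).trans h1) ((polar_inr _ _).trans h2),
        Prod.mk_add_mk, add_zero]
  have E0 : E 0 = 1 := eE_zero _
  have E2 : ∀ y w (x : X), E y • oρ Q w • x = oρ Q ((eich Q u y).1 w) • E y • x := fun y w x => by
    rw [(oLev_eE u y).smul_oρ, one_smul]
  have E3 : ∀ t (ht : t ∈ EO Q) (x : X) y w, t.1 u = u →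
      (⟨_, inr_mem_EO ht⟩ : EO (oH Q)) • x = x → oρ Q w • x = E y • x →
      oρ Q (t.1 w) • x = E (t.1 y) • x := fun t ht x y w h1 h2 h3 => by
    have := congrArg ((⟨_, inr_mem_EO ht⟩ : EO (oH Q)) • ·) h3
    rwa [(oLev_inr ht).smul_oρ, smul_eE_smul, (oLev_inr ht).2.2, (oLev_inr ht).2.2, h1, h2,
      one_smul] at this
  have R4 : ∀ (x : X) y (c d : F), polar Q u y = 0 → oρ Q (c • y + d • u) • x = E y • x →
      Q y = 0 := fun x y c d hy e => by
    have h1 := eich_mul_eich_line (Q := oH Q) (u := (0, u)) (y := (0, y)) oH_oe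
      ((oH_inr u).trans hu) (polar_oe _) (polar_oe _) ((polar_inr _ _).trans hy) (-c) (-d)
    have h2 : oH Q ((0, u) + -c • oe F W) = 0 := by simp [oe, hu]
    obtain ⟨g, x', h3, h4⟩ := exists_oSV_eq hQ (by omega) h2
      (fun h => hu0 (by simpa [oe] using congrArg Prod.snd h)) x
    have h5 : (0, y) + (- -d - -c * oH Q (0, y)) • oe F W ∈
        oSV (oH Q) ((0, u) + -c • oe F W) x := by
      refine ⟨by simp [oe, hy, polar_ohyp], ?_⟩
      have : eE (oH Q) _ _ = (oρ Q (c • y + d • u))⁻¹ * E y := Subtype.ext (h1.symm.trans (by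
        rw [← oρ_neg]
        congr 2
        ext <;> simp [add_comm]))
      rw [this, mul_smul, inv_smul_eq_iff, e]
    rw [h4] at h5
    obtain ⟨v, hv, h6⟩ := o_mem_smul.1 h5
    obtain ⟨h7, h8⟩ := mem_oSV_oe.1 hv
    rw [h, AddSubgroup.mem_bot] at h8
    have h9 := OG.map_app g v
    rw [h6, oH_apply v, h7, h8] at h9
    simpa [oe] using h9
  obtain ⟨s, s', hs, hs', hss', hus, hus'⟩ := o_exists_hyp_perp_vec hQ hn u
  obtain ⟨g, hg, hug, hsg, hsg'⟩ : ∃ g, Q g ≠ 0 ∧ polar Q u g = 0 ∧ polar Q s g = 0 ∧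
      polar Q s' g = 0 := by
    obtain ⟨b, hb, h1, h2⟩ := o_exists_nonsingular_perp_pair hQ hn u s
    exact ⟨b - polar Q s' b • s, by simpa [oexp, hs, polar_comm Q b s, h2] using hb,
      by simp [h1, hus], by simp [h2, hs], by simp [polar_comm Q s' s, hss']⟩
  have hs's : polar Q s' s = 1 := by rwa [polar_comm]
  have hEO : ∀ a b, Q a ≠ 0 → Q b = Q a → orefl Q a * orefl Q b ∈ EO Q := fun a b ha hb => by
    rw [← commutator_eq_EO_of_finite hQ hexc (by omega),
      orefl_mul_orefl_mem_commutator_iff hQ hexc ha (hb ▸ ha), hb]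
    exact IsSquare.mul_self _
  by_cases h2 : (2 : F) = 0
  · obtain ⟨a, b, ha, hb, hab, hua, hub⟩ : ∃ a b, Q a = 1 ∧ Q b = 1 ∧ polar Q a b = 1 ∧
        polar Q u a = 0 ∧ polar Q u b = 0 := by
      obtain ⟨r, hr⟩ := quad_isSquare_of_two_eq_zero h2 (Q g)
      have hr0 : r ≠ 0 := by rintro rfl; exact hg (by simpa using hr)
      refine ⟨s + s', s + r⁻¹ • g, by simp [oexp, hs, hs', hss'], ?_,
        by simp [hs, hs's, hsg, hsg'], by simp [hus, hus'], by simp [hus, hug]⟩
      simp only [oexp, hs, hsg, hr]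
      field_simp
      ring
    have hba : polar Q b a = 1 := by rwa [polar_comm]
    have r1 : (orefl Q a).1 b = b - a := by simp [orefl_app, ha, hba]
    have r2 : (orefl Q b).1 a = a - b := by simp [orefl_app, hb, hab]
    have r3 : (orefl Q a).1 a = -a := orefl_app_self (by simp [ha])
    have r4 : (orefl Q b).1 b = -b := orefl_app_self (by simp [hb])
    have ht := hEO a b (by simp [ha]) (hb.trans ha.symm)
    set t := orefl Q a * orefl Q b with htdef
    have t1 : t.1 a = -b := by rw [htdef, OG.mul_app, r2, map_sub, r1, r3]; abel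
    have t2 : t.1 b = a - b := by rw [htdef, OG.mul_app, r4, map_neg, r1]; abel
    have t3 : t.1 u = u := by
      rw [htdef, OG.mul_app, orefl_app_of_polar hub, orefl_app_of_polar hua]
    have t4 : t ^ 3 = 1 := by
      have e1 := conj_orefl (orefl Q a) b
      have e2 := conj_orefl (orefl Q b) a
      rw [orefl_inv] at e1 e2
      rw [r2, ← neg_sub, orefl_neg, ← r1, ← e1] at e2
      calc t ^ 3 = (orefl Q a * orefl Q b * orefl Q a) * (orefl Q b * orefl Q a * orefl Q b) := by
            rw [htdef, pow_succ, pow_two]; group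
        _ = 1 := by rw [e2, e1, orefl_mul_self]
    have : Fact (Nat.Prime 3) := ⟨Nat.prime_three⟩
    obtain ⟨x, hx⟩ := o_exists_fixed_of_prime (X := X) (p := 3) (fun h3 => by
      rw [hc] at h3
      have h4 := Nat.prime_three.dvd_of_dvd_pow h3
      rw [Nat.card_eq_fintype_card, ← prime_dvd_char_iff_dvd_card, o_ringChar_eq_two h2] at h4
      omega) (s := (⟨_, inr_mem_EO ht⟩ : EO (oH Q))) (Subtype.ext (by
        change OG.inr _ _ t ^ 3 = 1
        rw [← map_pow, t4, map_one]))
    obtain ⟨w, hw⟩ := R1 x (E a • x)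
    have w1 := E3 t ht x _ _ t3 hx hw
    have w2 := E3 t ht x _ _ t3 hx w1
    rw [t1] at w1 w2
    rw [map_neg, t2] at w2
    have e1 : (eich Q u a).1 w + w = 0 := R2 x _ _ (by
      rw [oρ_add, mul_smul, hw, ← E2, hw, ← mul_smul, E1 a a hua hua, ← two_smul F, h2, zero_smul,
        E0, oρ_zero])
    have e2 : (eich Q u a).1 ((eich Q u (-b)).1 (t.1 (t.1 w)) + t.1 w) + w = 0 := R2 x _ _ (by
      rw [oρ_add, mul_smul, hw, ← E2, oρ_add, mul_smul, w1, ← E2, w2, ← mul_smul, ← mul_smul,
        E1 _ _ hua (by simp [hub]), E1 _ _ (by simp [hua, hub]) (by simp [hua, hub]),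
        show a + -b + -(a - b) = 0 by abel, E0, oρ_zero])
    rw [eich_app hu hua] at e1
    have e3 : polar Q w u = 0 := by
      have := congrArg (polar Q b) e1
      simp only [oexp, hba, polar_comm Q b u, hub] at this
      linear_combination this - polar Q b w * h2
    have e4 : polar Q w a = 0 := by
      have : polar Q w a • u = 0 := by
        rw [← neg_eq_zero, ← e1, e3]
        match_scalars <;> first | ring1 | linear_combination -h2
      exact (smul_eq_zero.1 this).resolve_right hu0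
    have e5 : t.1 w = w - polar Q w b • (b - a) := by
      rw [htdef, OG.mul_app, orefl_app b, hb, map_sub, map_smul, r1, orefl_app_of_polar e4]
      simp
    have e6 : t.1 (t.1 w) = w - polar Q w b • b := by
      conv_lhs => rw [e5, map_sub, map_smul, map_sub, t1, t2, e5]
      module
    have hau : polar Q a u = 0 := by rwa [polar_comm]
    have hbu : polar Q b u = 0 := by rwa [polar_comm]
    rw [e6, e5, eich_app_of_polar_left hu (show polar Q u (-b) = 0 by simp [hub])
      (by simp [e3, hbu]), eich_app_of_polar_left hu hua (by simp [e3, hau, hbu, hu])] at e2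
    generalize polar Q (w - polar Q w b • b) (-b) = c₁ at e2
    generalize polar Q (_ + _) a = c₂ at e2
    refine one_ne_zero (ha.symm.trans (R4 x a (polar Q w b) (c₁ + c₂) hua ?_))
    rw [← hw]
    congr 2
    rw [← sub_eq_zero, ← neg_eq_zero, ← e2]
    match_scalars <;> first | ring1 | linear_combination -h2 | linear_combination polar Q w b * h2
                            | linear_combination -polar Q w b * h2
  · obtain ⟨a, b, c, ha, hb, hc', hab, hac, hbc, hua, hub, huc⟩ : ∃ a b c, Q a ≠ 0 ∧ Q b = Q a ∧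
        Q c = Q a ∧ polar Q a b = 0 ∧ polar Q a c = 0 ∧ polar Q b c = 0 ∧ polar Q u a = 0 ∧
        polar Q u b = 0 ∧ polar Q u c = 0 := by
      obtain ⟨p, hp⟩ := CharP.exists F
      have : NeZero p := ⟨(CharP.char_is_prime F p).ne_zero⟩
      obtain ⟨x, y, hxy⟩ := CharP.sq_add_sq F p (-1)
      push_cast at hxy
      have hgs : polar Q g s = 0 := by rwa [polar_comm]
      have hgs' : polar Q g s' = 0 := by rwa [polar_comm]
      refine ⟨s - Q g • s', (x : F) • (s + Q g • s') + (y : F) • g,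
        -(y : F) • (s + Q g • s') + (x : F) • g, by simpa [oexp, hs, hs', hss'] using hg,
        ?_, ?_, ?_, ?_, ?_, ?_, ?_, ?_⟩ <;>
      simp only [oexp, hs, hs', hss', hs's, hsg, hsg', hgs, hgs', hus, hus', hug] <;>
      first | ring1 | linear_combination Q g * hxy
    have h1 := hEO a b ha hb
    have h3 := hEO a c ha hc'
    have c1 := orefl_comm_of_polar hab
    have c2 := orefl_comm_of_polar hac
    have c3 := orefl_comm_of_polar hbc
    have sq : ∀ b, orefl Q a * orefl Q b = orefl Q b * orefl Q a →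
        orefl Q a * orefl Q b * (orefl Q a * orefl Q b) = 1 := fun b h => by
      nth_rw 1 [h]
      rw [mul_assoc, ← mul_assoc (orefl Q a), orefl_mul_self, one_mul, orefl_mul_self]
    obtain ⟨x, hx, hx'⟩ := o_exists_fixed_of_comm (X := X) (fun h3 => by
        rw [hc] at h3
        have h4 := Nat.prime_two.dvd_of_dvd_pow h3
        have := o_odd_card_of_two_ne_zero h2
        rw [Nat.card_eq_fintype_card] at h4
        exact this.not_two_dvd_nat h4)
      (s := (⟨_, inr_mem_EO h1⟩ : EO (oH Q))) (t := ⟨_, inr_mem_EO h3⟩)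
      (Subtype.ext ((map_mul _ _ _).symm.trans (by rw [sq b c1, map_one]; rfl)))
      (Subtype.ext ((map_mul _ _ _).symm.trans (by rw [sq c c2, map_one]; rfl)))
      (Subtype.ext ((map_mul _ _ _).symm.trans (Eq.trans (by
        rw [mul_assoc, mul_assoc, ← mul_assoc (orefl Q b), ← mul_assoc (orefl Q c), ← c1, ← c2,
          mul_assoc, mul_assoc, c3]) (map_mul _ _ _))))
    obtain ⟨w, hw⟩ := R1 x (E a • x)
    have w1 := E3 _ h1 x _ _
      (by rw [OG.mul_app, orefl_app_of_polar hub, orefl_app_of_polar hua]) hx hw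
    have w2 := E3 _ h3 x _ _
      (by rw [OG.mul_app, orefl_app_of_polar huc, orefl_app_of_polar hua]) hx' hw
    rw [OG.mul_app _ _ a, orefl_app_of_polar hab, orefl_app_self ha] at w1
    rw [OG.mul_app _ _ a, orefl_app_of_polar hac, orefl_app_self ha] at w2
    have e1 : (orefl Q b).1 w = (orefl Q c).1 w :=
      (orefl Q a).1.injective (R2 x _ _ (w1.trans w2.symm))
    have e2 : polar Q w b = 0 := by
      have := congrArg (polar Q b) e1
      simp only [orefl_app, oexp, hbc, hb, polar_comm Q b w] at this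
      field_simp at this
      exact (mul_eq_zero.1 (show 2 * polar Q w b = 0 by linear_combination -this)).resolve_left h2
    have e3 : (eich Q u (-a)).1 w + (orefl Q a * orefl Q b).1 w = 0 := R2 x _ _ (by
      rw [oρ_add, mul_smul, w1, ← E2, hw, ← mul_smul, E1 _ _ (by simp [hua]) hua, neg_add_cancel,
        E0, oρ_zero])
    rw [OG.mul_app, orefl_app_of_polar e2, orefl_app, eich_app hu (by simp [hua])] at e3
    refine ha (R4 x a ((polar Q w u + (Q a)⁻¹ * polar Q w a) / 2)
      ((polar Q w (-a) + Q (-a) * polar Q w u) / 2) hua ?_)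
    rw [← hw]
    congr 2
    refine smul_right_injective W h2 ?_
    simp only
    rw [← sub_eq_zero, ← neg_eq_zero, ← e3]
    match_scalars <;> field_simp <;> ring

variable [Finite W] {ψ : AddChar F ℂ} {c₀ : F} (hψ : ψ c₀ ≠ 1)
include hψ

/-- If all annihilators are small, every point is fixed. -/
theorem o_case_small (hn : 5 ≤ finrank F W)
    (h : ∀ x : X, Nat.card (oA Q ψ x) ≤ Nat.card F ∨
      Nat.card (oA Q ψ x) ≤ Nat.card F ^ 2 ∧ OClosed F (oA Q ψ x)) (x : X) (g : EO (oH Q)) :
    g • x = x := by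
  have hP := o_prod_nondeg (ohyp_nondeg (F := F)) hQ
  obtain ⟨k, hk, e⟩ := EO_le_of_siegel hP (by rw [finrank_oH]; omega)
    (H := (MulAction.stabilizer (EO (oH Q)) x).map (EO (oH Q)).subtype) (fun u v hu hv huv => by
      refine ⟨eE (oH Q) u v, ?_, rfl⟩
      change eE (oH Q) u v • x = x
      by_contra hne
      have hu0 : u ≠ 0 := by
        rintro rfl
        exact hne (by rw [show eE (oH Q) 0 v = 1 from Subtype.ext (eich_zero_left v), one_smul])
      have hv0 : v ≠ 0 := by rintro rfl; simp at hne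
      have key : ∀ u, oH Q u = 0 → u ≠ 0 → ∃ α, Nat.card (oSV (oH Q) u x) * α =
          Nat.card F ^ (finrank F W + 1) ∧
          (α ≤ Nat.card F ∨ α ≤ Nat.card F ^ 2 ∧ OClosed F (oSV (oH Q) u x)) := by
        intro u hu hu0
        obtain ⟨g, x', -, h1⟩ := exists_oSV_eq hQ (by omega) hu hu0 x
        refine ⟨Nat.card (oA Q ψ x'), ?_, (h x').imp_right fun h2 => ⟨h2.1, ?_⟩⟩
        · rw [h1, o_card_smul, card_oSV_oe, mul_assoc, card_oS_mul hQ hψ,
            Module.natCard_eq_pow_finrank (K := F) (V := W), pow_succ']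
        · rw [h1]; exact (oClosed_oSV_oe (oClosed_oS hQ hψ h2.2)).smul g
      obtain ⟨α, h1, h2⟩ := key u hu hu0
      obtain ⟨β, h3, h4⟩ := key v hv hv0
      have hc : (1 : F) • v ∉ oSV (oH Q) u x := fun h => hne (by simpa using h.2)
      have h5 := fun d => o_line_ineq hP hu hv huv x hc (d := d)
      obtain ⟨m, hm⟩ : ∃ m, finrank F W = m + 5 := ⟨_, (Nat.sub_add_cancel hn).symm⟩
      rw [Module.natCard_eq_pow_finrank (K := F) (V := (F × F) × W), finrank_oH, hm] at h5
      rw [hm] at h1 h3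
      have hq : 1 < Nat.card F := Finite.one_lt_card
      set q := Nat.card F
      have h6 : ∀ d, d ^ 2 * (Nat.card (oSV (oH Q) u x) * Nat.card (oSV (oH Q) v x)) ≤
          q ^ (m + 5 + 2) * q ^ 2 → d ^ 2 * q ^ 3 ≤ α * β := fun d hd => by
        refine le_trans (Nat.mul_le_mul_left _ (Nat.pow_le_pow_right (by omega)
          (show 3 ≤ m + 3 by omega))) (Nat.le_of_mul_le_mul_left (c := q ^ (m + 5 + 2) * q ^ 2) ?_
            (by positivity))
        calc _ = d ^ 2 * (q ^ (m + 5 + 1) * q ^ (m + 5 + 1)) := by ring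
          _ = d ^ 2 * (Nat.card (oSV (oH Q) u x) * Nat.card (oSV (oH Q) v x)) * (α * β) := by
            nth_rw 1 [← h1]; rw [← h3]; ring
          _ ≤ _ := Nat.mul_le_mul_right _ hd
      have h7 : q ≤ q ^ 2 := by nlinarith
      by_cases hcl : OClosed F (oSV (oH Q) u x) ∨ OClosed F (oSV (oH Q) v x)
      · have h8 := h6 q (h5 q fun I hI => by
          rw [show I = ⊥ from eq_bot_iff.2 fun c hc' => by_contra fun h0 => hc ?_]
          · simp [q]
          have h9 := (hI c).1 hc'
          rw [← inv_mul_cancel₀ h0, mul_smul]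
          rcases hcl with h | h
          · exact h _ _ h9
          · rw [← mul_smul]
            refine mem_oSV_swap hv hu ?_ (by rwa [polar_comm])
            rw [mul_smul]
            exact h _ _ (mem_oSV_swap hu hv h9 huv))
        have h9 : α * β ≤ q ^ 2 * q ^ 2 := Nat.mul_le_mul (by omega) (by omega)
        have h10 : q ^ 2 * q ^ 2 < q ^ 2 * q ^ 3 :=
          Nat.mul_lt_mul_of_pos_left (Nat.pow_lt_pow_right hq (by omega)) (by positivity)
        omega
      · have h8 := h6 1 (h5 1 fun I _ => by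
          rw [one_mul]; exact Nat.card_le_card_of_injective _ Subtype.val_injective)
        have h9 : α * β ≤ q * q := Nat.mul_le_mul (by tauto) (by tauto)
        have h10 : q ^ 2 < q ^ 3 := Nat.pow_lt_pow_right hq (by omega)
        nlinarith) g.2
  rw [← Subtype.ext e]
  exact hk

/-- In dimension eight, if all annihilators are planes there are many points. -/
theorem o_case_plane [Finite X] (hn : finrank F W = 6) (hq : 3 < Nat.card F) (x₀ : X)
    (h : ∀ x : X, OTs Q 3 (oA Q ψ x)) :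
    2 * (Nat.card F ^ 3 * ((Nat.card F + 1) * (Nat.card F ^ 2 + 1))) ≤ Nat.card X := by
  classical
  have := Fintype.ofFinite X
  obtain ⟨c, hc, hc1⟩ := o_exists_sq_ne_one hq
  obtain ⟨z, hz, hzf⟩ := exists_oLev_sq hQ (by omega) hc
  have hz1 : ∀ v : (F × F) × W, z.1.1 v = ((c ^ 2 * v.1.1, (c ^ 2)⁻¹ * v.1.2), v.2) := fun v => by
    have : v = v.1.1 • oe F W + v.1.2 • of F W + (0, v.2) := by ext <;> simp [oe, of]
    conv_lhs => rw [this, map_add, map_add, map_smul, map_smul, hz.2.1, hzf, hz.2.2]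
    ext <;> simp [oe, of, mul_comm]
  let Y := Finset.univ.filter fun x : X => ∀ w, oρ Q w • x ≠ z • x
  have hY : ∀ x, x ∈ Y ↔ ∀ w, oρ Q w • x ≠ z • x := fun x => by simp [Y]
  by_cases hne : Y.Nonempty
  · have h1 := (sum_card_oA_le hQ hψ Y fun w x hx => (hY _).2 fun w' e => (hY x).1 hx
      (-(c ^ 2 • w) + (w' + w)) (by
        rw [oρ_add, oρ_add, mul_smul, mul_smul, e, hz.smul_oρ, oρ_neg, OG.one_app,
          inv_smul_smul])).2 fun x hx => ⟨z • x, (hY _).2 fun w e => (hY x).1 hx ((c ^ 2)⁻¹ • w) (by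
            rw [← smul_left_cancel_iff z, hz.smul_oρ, OG.one_app, smul_inv_smul₀ hz.1, e]),
          by rw [hz.oA_eq, one_smul, (h x).2.1.smul_eq (inv_ne_zero hz.1)], (hY x).1 hx⟩
    have h2 : ∀ A ∈ Y.image (oA Q ψ), OTs Q 3 A := fun A hA => by
      obtain ⟨x, -, rfl⟩ := Finset.mem_image.1 hA
      exact h x
    obtain ⟨-, -, h3⟩ := OFam.card_ge_singular hQ (by omega) (oFam_image (ψ := ψ) (Y := Y)
      fun g hg x hx => (hY _).2 fun w e => (hY x).1 hx ((g⁻¹).1 w) (by
        have : z * ⟨_, inr_mem_EO hg⟩ = ⟨_, inr_mem_EO hg⟩ * z := Subtype.ext (OG.ext fun v => by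
          simp [hz1, OG.inr_apply])
        rw [← smul_left_cancel_iff (⟨_, inr_mem_EO hg⟩ : EO (oH Q)), (oLev_inr hg).smul_oρ,
          OG.app_inv_app, one_smul, e, ← mul_smul, this, mul_smul])) (j := 3) (by omega)
      (hne.image _) h2
    rw [Finset.sum_congr rfl fun A hA => (h2 A hA).2.2, Finset.sum_const, smul_eq_mul] at h1
    rw [hn] at h3
    refine le_trans ?_ (h1.trans (by rw [Nat.card_eq_fintype_card]; exact Finset.card_le_univ _))
    rw [mul_comm (Nat.card F ^ 3)]
    norm_num at h3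
    gcongr
  exfalso
  obtain ⟨x, hx⟩ : ∃ x : X, z • x = x := by
    obtain ⟨w, hw⟩ : ∃ w, oρ Q w • x₀ = z • x₀ := by
      by_contra! H
      exact hne ⟨x₀, (hY _).2 H⟩
    refine ⟨oρ Q ((1 - c ^ 2)⁻¹ • w) • x₀, ?_⟩
    rw [hz.smul_oρ, ← hw, ← mul_smul, ← oρ_add, OG.one_app]
    congr 2
    have := sub_ne_zero.2 hc1.symm
    match_scalars
    field_simp
    ring
  have hS : ∀ u, oH Q u = 0 → u ≠ 0 → OTs (oH Q) 4 (oSV (oH Q) u x) := by
    intro u hu hu0
    obtain ⟨g, y, -, h1⟩ := exists_oSV_eq hQ (by omega) hu hu0 x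
    have h2 := card_oS_mul hQ hψ y
    rw [(h y).2.2, Module.natCard_eq_pow_finrank (K := F) (V := W), hn,
      show 6 = 3 + 3 from rfl, pow_add] at h2
    have h3 := Nat.eq_of_mul_eq_mul_right (by positivity) h2
    have h4 : oA Q ψ y = oS Q y := AddSubgroup.eq_of_le_of_card_ge (fun a ha => by
      rw [oS_eq_ann hQ hψ]
      exact fun b hb => by simp [(h y).polar_eq_zero ha hb]) (by rw [h3, (h y).2.2])
    rw [h1]
    refine OTs.smul ⟨fun v hv => ?_, oClosed_oSV_oe (h4 ▸ (h y).2.1), ?_⟩ g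
    · obtain ⟨h5, h6⟩ := mem_oSV_oe.1 hv
      rw [oH_apply, h5, (h y).1 _ (h4 ▸ h6)]; simp
    · rw [card_oSV_oe, h3]; ring
  have key : ∀ a, Q a = 0 → a ≠ 0 → (0, a) ∈ oSV (oH Q) (oe F W) x ∨
      (0, a) ∈ oSV (oH Q) (of F W) x := by
    intro a ha ha0
    have ha' := (oH_inr a).trans ha
    obtain ⟨h1, h2, h3⟩ := hS (0, a) ha' (by simpa)
    have h4 := oSV_smul z (0, a) x
    rw [hz.2.2, hx, OG.one_app] at h4
    set T := oSV (oH Q) (0, a) x
    obtain ⟨t, ht, ht0⟩ : ∃ t ∈ T, t.1 ≠ 0 := by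
      by_contra! H
      have h5 : OClosed F (T.comap (AddMonoidHom.inr (F × F) W)) := fun c a ha => by
        have := h2 c _ ha
        change ((0, c • a) : (F × F) × W) ∈ T
        simpa using this
      have h6 := o_two_mul_finrank_le hQ (o_singular_span (F := F)
        (A := T.comap (AddMonoidHom.inr (F × F) W)) fun v hv => (oH_inr v).symm.trans (h1 _ hv))
      have h7 : Nat.card T ≤ Nat.card (T.comap (AddMonoidHom.inr (F × F) W)) :=
        Nat.card_le_card_of_injective (fun t => ⟨t.1.2, by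
          change ((0, t.1.2) : (F × F) × W) ∈ T
          rw [← H _ t.2]; exact t.2⟩) fun t t' e =>
          Subtype.ext (Prod.ext ((H _ t.2).trans (H _ t'.2).symm) (congrArg Subtype.val e))
      rw [h3, h5.card_eq, Nat.pow_le_pow_iff_right (by omega)] at h7
      omega
    have h5 : z.1.1 t - t ∈ T := T.sub_mem (by rw [h4]; exact o_mem_smul_iff.2 ht) ht
    have h6 := h1 _ h5
    have h7 : c ^ 2 - 1 ≠ 0 := sub_ne_zero.2 hc1
    have h8 : (c ^ 2)⁻¹ - 1 ≠ 0 := by rwa [sub_ne_zero, Ne, inv_eq_one]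
    rw [hz1] at h5 h6
    have h9 : t.1.1 = 0 ∨ t.1.2 = 0 := by
      simpa [oH_apply, ← sub_one_mul, h7, h8] using h6
    rw [← one_smul F ((0, a) : (F × F) × W)]
    rcases h9 with h9 | h9
    · have h10 : t.1.2 ≠ 0 := fun h => ht0 (Prod.ext h9 h)
      refine Or.inr (mem_oSV_swap ha' oH_of ?_ (by rw [polar_comm, polar_of]; rfl))
      convert h2 (((c ^ 2)⁻¹ - 1) * t.1.2)⁻¹ _ h5 using 1
      ext <;> simp [of, h9, ← sub_one_mul]
      field_simp
    · have h10 : t.1.1 ≠ 0 := fun h => ht0 (Prod.ext h h9)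
      refine Or.inl (mem_oSV_swap ha' oH_oe ?_ (by rw [polar_comm, polar_oe]; rfl))
      convert h2 ((c ^ 2 - 1) * t.1.1)⁻¹ _ h5 using 1
      ext <;> simp [oe, h9, ← sub_one_mul]
      field_simp
  obtain ⟨u, hu0, hu⟩ := quad_exists_singular Q (by omega)
  obtain ⟨v, hv, huv⟩ := o_exists_partner hQ hu hu0
  obtain ⟨b, hb, hub, hvb⟩ := o_exists_nonsingular_perp_pair hQ (by omega) u v
  have e1 : polar Q u (v + b - Q b • u) = 1 := by simp [huv, hub, hu]
  have e2 : polar Q v (v + b - Q b • u) ≠ 0 := by simpa [hv, hvb, polar_comm Q v u, huv]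
  have p1 := fun a a' ha ha' => (polar_inr a a').symm.trans
    ((hS _ oH_oe oe_ne_zero).polar_eq_zero ha ha')
  have p2 := fun a a' ha ha' => (polar_inr a a').symm.trans
    ((hS _ oH_of (by simp [of])).polar_eq_zero ha ha')
  have e3 : polar Q u v ≠ 0 := by simp [huv]
  have e4 : polar Q u (v + b - Q b • u) ≠ 0 := by simp [e1]
  rcases key u hu hu0 with k1 | k1 <;>
  rcases key v hv (o_ne_zero_of_polar_right e3) with k2 | k2 <;>
  rcases key (v + b - Q b • u) (by
    simp only [oexp, hu, hv, hvb, polar_comm Q v u, polar_comm Q b u, huv, hub]; ring)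
    (o_ne_zero_of_polar_right e2) with k3 | k3 <;>
  first | exact e3 (p1 _ _ k1 k2) | exact e3 (p2 _ _ k1 k2) | exact e4 (p1 _ _ k1 k3)
        | exact e4 (p2 _ _ k1 k3) | exact e2 (p1 _ _ k2 k3) | exact e2 (p2 _ _ k2 k3)

end Cfsg.Agent.Cl
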