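import Mathlib
import Cfsg.Agent.Cl.OrthMinE

/-!
# Minimal index of `Ω`: the lower bound

`o_min_card`: a transitive action of `EO (oH Q)` without fixed points has at least `τ` points, for
`τ` subject to a list of numerical conditions.
-/

set_option autoImplicit false

namespace Cfsg.Agent.Cl

open QuadraticMap Module Pointwise

variable {F W : Type*} [Field F] [AddCommGroup W] [Module F W] {Q : QuadraticForm F W}

theorem corb_EO_top {V : Type*} [AddCommGroup V] [Module F V] {P : QuadraticForm F V}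
    [FiniteDimensional F V] [Finite F] (hP : (polarBilin P).Nondegenerate) (hn : 5 ≤ finrank F V)
    {a : V} (ha : a ≠ 0) : MI.corb F (⊤ : Subgroup (EO P)) a = ocls P a := by
  ext v
  constructor
  · rintro ⟨g, -, t, ht, rfl⟩
    exact ⟨smul_ne_zero ht (OG.app_ne_zero g.1 ha), t, ht, by
      rw [o_qsmul]; exact congrArg _ (OG.map_app g.1 a)⟩
  · rintro ⟨hv, t, ht, h⟩
    obtain ⟨g, hg, e⟩ := EO_exists_map_eq hP hn (x := t • a) (by rw [o_qsmul, h])
      (smul_ne_zero ht ha) hv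
    exact ⟨⟨g, hg⟩, trivial, t, ht, by rw [← e, map_smul]; rfl⟩

theorem index_pst_EO {V : Type*} [AddCommGroup V] [Module F V] {P : QuadraticForm F V}
    [FiniteDimensional F V] [Finite F] (hP : (polarBilin P).Nondegenerate) (hn : 5 ≤ finrank F V)
    {a : V} (ha : a ≠ 0) :
    (MI.pst F (EO P) a).index * (Nat.card F - 1) = (ocls P a).ncard := by
  have := Module.finite_of_finite F (M := V)
  rw [MI.index_pst ha, corb_EO_top hP hn ha]

theorem o_arith_thin {ι : Type*} {s : Finset ι} {f : ι → ℕ} {q c : ℕ} (h : ∀ i ∈ s, f i ≤ q + 1)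
    (hc : 1 * c + s.card ≤ ∑ i ∈ s, f i) : (q + 1) * c ≤ q * ∑ i ∈ s, f i := by
  have := Finset.sum_le_card_nsmul s f _ h
  rw [smul_eq_mul] at this
  nlinarith

theorem o_arith_fat {q c z k : ℕ} (hq : 0 < q) (h : 2 * c + k ≤ z) : (q + 1) * c ≤ q * z := by
  nlinarith

theorem o_arith_cube {q : ℕ} (hq : 0 < q) : q + 1 + 1 ≤ (q + 1) ^ 3 - 1 := by
  refine Nat.le_sub_one_of_lt ?_
  nlinarith [Nat.zero_le (q ^ 3), Nat.zero_le (q ^ 2)]

variable {X : Type*} [MulAction (EO (oH Q)) X]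

theorem oS_smul_eq_bot {k : EO (oH Q)} (hk : k ∈ MI.pst F (EO (oH Q)) (oe F W)) {x : X}
    (hx : oS Q x = ⊥) : oS Q (k • x) = ⊥ := by
  obtain ⟨t, ht, e⟩ := MI.mem_pst.1 hk
  have e' : k.1.1 (oe F W) = t • oe F W := e
  refine eq_bot_iff.2 fun y hy => ?_
  have h1 : ((0, t⁻¹ • y) : (F × F) × W) ∈ oSV (oH Q) (k.1.1 (oe F W)) (k • x) := by
    rw [e']
    refine ⟨by simp [oe], ?_⟩
    rw [show eE (oH Q) (t • oe F W) (0, t⁻¹ • y) = oρ Q y from Subtype.ext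
      ((eich_smul_left oH_oe (polar_oe _) t).trans (by simp [oρ, eE, ht]))]
    exact mem_oS.1 hy
  rw [oSV_smul] at h1
  obtain ⟨v, hv, h2⟩ := o_mem_smul.1 h1
  obtain ⟨h3, h4⟩ := mem_oSV_oe.1 hv
  rw [hx, AddSubgroup.mem_bot] at h4
  rw [show v = v.1.1 • oe F W by ext <;> simp [oe, h3, h4], map_smul, e'] at h2
  simpa [oe, ht] using (congrArg Prod.snd h2).symm

variable [FiniteDimensional F W] [Finite F] (hQ : (polarBilin Q).Nondegenerate)
include hQ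

/-- **Lower bound for the degree of `Ω`.** -/
theorem o_min_card [Finite X] [Nonempty X] [MulAction.IsPretransitive (EO (oH Q)) X]
    (hX : ∀ x : X, ∃ g : EO (oH Q), g • x ≠ x) (hn : 5 ≤ finrank F W) {p : ℕ} [CharP F p]
    {q S τ C N₀ : ℕ} (hq : Nat.card F = q + 1) (hS : ozeros Q = S + 1)
    (hN₀ : q * N₀ = q * (q + 1) ^ finrank F W + (q + 1) * S + q) (hτ : τ ≤ N₀)
    (h2 : τ ≤ 2 * (q + 1) ^ finrank F W) (hC : ∀ b, Q b ≠ 0 → C ≤ (ocls Q b).ncard)
    (hK4 : 3 ≤ q → τ ≤ p * C) (hK3 : q = 2 → τ ≤ 3 * (C + C) ∧ τ ≤ 3 * (C + S))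
    (hT : τ ≤ ((q + 1) ^ 2 + 1) * S) (hT' : 3 ≤ q → τ ≤ 2 * (q + 1) * S)
    (hx : finrank F W = 6 → q ≤ 2 → ((q + 1) ^ 3 - 1) * ((q + 1) ^ 2 + 1) ≤ S →
      τ ≤ (q + 1) ^ 3 * ((q + 1 + 1) * ((q + 1) ^ 2 + 1)))
    (hr : q * τ ≤ q * (q + 1) ^ finrank F W + (q + 1) * C)
    (h6 : finrank F W = 6 → 3 ≤ q → S ≤ ((q + 1) ^ 3 - 1) * ((q + 1) ^ 2 + 1) ∧
      (q + 1 + 1) * ((q + 1) ^ 2 + 1) ≤ C) : τ ≤ Nat.card X := by
  classical
  have := Module.finite_of_finite F (M := W)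
  have := Fintype.ofFinite X
  have := Fintype.ofFinite F
  have : Fact p.Prime := ⟨CharP.char_is_prime F p⟩
  have hp2 : 2 ≤ p := (Fact.out : p.Prime).two_le
  have hP := o_prod_nondeg (ohyp_nondeg (F := F)) hQ
  have hq0 : 0 < q := by have : 1 < Nat.card F := Finite.one_lt_card
                         omega
  have hW : Nat.card W = (q + 1) ^ finrank F W := by
    rw [Module.natCard_eq_pow_finrank (K := F), hq]
  have hz : ozeros (oH Q) - 1 = q * N₀ := by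
    rw [ozeros_ohyp_prod, hN₀, hq, hS, hW, Nat.add_sub_cancel, mul_add, mul_one, ← add_assoc,
      ← add_assoc, Nat.add_sub_cancel]
  have hS' : ozeros Q - 1 = S := by omega
  obtain ⟨ψ, hψ⟩ := (AddChar.exists_apply_ne_zero (a := (1 : F))).2 one_ne_zero
  by_contra! hlt
  have hbot : ∀ x : X, oA Q ψ x ≠ ⊥ := fun x h => by
    have := o_case_fix hQ hn hX ((oA_eq_bot_iff hQ hψ).1 h)
    rw [hz, hq, Nat.add_sub_cancel] at this
    have := Nat.le_of_mul_le_mul_left this hq0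
    omega
  -- families attached to invariant properties of the annihilators
  have fam : ∀ (R : AddSubgroup W → Prop), (∀ (t : F) (g : OG Q) A, t ≠ 0 → R A → R (t • g • A)) →
      ∃ 𝒜 : Finset (AddSubgroup W), OFam Q 𝒜 ∧ OSc Q 𝒜 ∧ (∀ A, A ∈ 𝒜 ↔ R A ∧ ∃ x : X, oA Q ψ x = A) ∧
        ∑ A ∈ 𝒜, Nat.card A ≤ {x : X | R (oA Q ψ x)}.ncard := by
    intro R hR
    have h1 : ∀ k t (g : OG Q), OLev k t g → ∀ x ∈ Finset.univ.filter fun x : X => R (oA Q ψ x),
        k • x ∈ Finset.univ.filter fun x : X => R (oA Q ψ x) := fun k t g h x hx => by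
      simp only [Finset.mem_filter, Finset.mem_univ, true_and] at hx ⊢
      rw [h.oA_eq]; exact hR _ _ _ (inv_ne_zero h.1) hx
    refine ⟨_, oFam_image fun g hg => h1 _ _ _ (oLev_inr hg), oSc_image hQ (by omega) h1,
      fun A => ?_, (sum_card_oA_le hQ hψ _ fun w x hx => by simpa [oA_oρ] using hx).1.trans
        (by rw [← Set.ncard_coe_finset]; simp)⟩
    simp only [Finset.mem_image, Finset.mem_filter, Finset.mem_univ, true_and]
    exact ⟨by rintro ⟨x, h, rfl⟩; exact ⟨h, x, rfl⟩, by rintro ⟨h, x, rfl⟩; exact ⟨x, h, rfl⟩⟩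
  have hsplit : ∀ R : X → Prop, {x | R x}.ncard + {x | ¬ R x}.ncard = Nat.card X := fun R =>
    Set.ncard_add_ncard_compl _
  have hne : ∀ {𝒜 : Finset (AddSubgroup W)}, OFam Q 𝒜 → OSc Q 𝒜 → ∀ x : X, oA Q ψ x ∈ 𝒜 →
      ∃ b ∈ oA Q ψ x, b ≠ 0 ∧ ∀ k, k ≤ omult 𝒜 b →
        k * S + 𝒜.card ≤ ∑ A ∈ 𝒜, Nat.card A ∨ k * C + 𝒜.card ≤ ∑ A ∈ 𝒜, Nat.card A := by
    intro 𝒜 h1 h2 x _
    obtain ⟨b, hb, hb0⟩ := (AddSubgroup.bot_or_exists_ne_zero _).resolve_left (hbot x)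
    refine ⟨b, hb, hb0, fun k hk => ?_⟩
    by_cases h : Q b = 0
    · exact Or.inl (hS' ▸ h1.sum_ge_singular hQ hn h hb0 hk)
    · exact Or.inr ((Nat.add_le_add_right (Nat.mul_le_mul_left _ (hC b h)) _).trans
        (h1.sum_ge_cls hQ hn h2 hb0 hk))
  obtain ⟨𝒜, a1, a2, a3, a4⟩ := fam (· ≠ ⊤) fun t g A ht h h' => h (eq_top_iff.2 fun v _ =>
    o_mem_smul_iff.1 ((AddSubgroup.smul_mem_pointwise_smul_iff₀ ht _ _).1 (h'.ge trivial)))
  replace a4 : _ ≤ {x : X | ¬ oA Q ψ x = ⊤}.ncard := a4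
  have hs := hsplit fun x => oA Q ψ x = ⊤
  set Y := Finset.univ.filter fun x : X => oA Q ψ x = ⊤ with hY
  have hY' : ∀ x, x ∈ Y ↔ oA Q ψ x = ⊤ := fun x => by simp [hY]
  rw [show {x : X | oA Q ψ x = ⊤}.ncard = Y.card by rw [← Set.ncard_coe_finset]; simp [hY]] at hs
  have good := fun A (hA : A ∈ 𝒜) => a1.good hQ hn a2 (p := p) hq hS' (τ := τ) (by omega) hC
    (fun h => hK4 (by omega)) (fun h => hK3 (by omega)) (fun h => by rwa [h] at h2) hT
    (fun h => hT' (by omega)) (fun h h' => hx h (by omega)) hA ((a3 A).1 hA).1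
  rcases Y.eq_empty_or_nonempty with hY0 | ⟨x₀, hx₀⟩
  · have htop : ∀ x : X, oA Q ψ x ≠ ⊤ := fun x h => by
      simpa [hY0] using (hY' x).2 h
    have good' := fun x : X => good _ ((a3 _).2 ⟨htop x, x, rfl⟩)
    by_cases hE : ∃ x : X, finrank F W = 6 ∧ 4 ≤ q + 1 ∧ OTs Q 3 (oA Q ψ x)
    · obtain ⟨x, e1, e2, e3⟩ := hE
      obtain ⟨h7, h8⟩ := h6 e1 (by omega)
      obtain ⟨ℬ, b1, -, b3, b4⟩ := fam (OTs Q 3) fun t g A ht => (oTs_smul_iff ht g).2
      obtain ⟨-, h9, h10⟩ := b1.card_ge_singular hQ hn (j := 3) (by omega)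
        ⟨_, (b3 _).2 ⟨e3, x, rfl⟩⟩ fun A hA => ((b3 A).1 hA).1
      rw [Finset.sum_congr rfl fun A hA => ((b3 A).1 hA).1.2.2, Finset.sum_const, smul_eq_mul,
        hq] at b4
      rw [e1, hq] at h9 h10
      rw [hS'] at h9
      have h11 : N₀ = ((q + 1) ^ 3 + 1) * ((q + 1 + 1) * ((q + 1) ^ 2 + 1)) := by
        refine Nat.eq_of_mul_eq_mul_left hq0 ?_
        rw [hN₀, le_antisymm h7 h9, e1, show (q + 1) ^ 3 - 1 = q ^ 3 + 3 * q ^ 2 + 3 * q from
          Nat.sub_eq_of_eq_add (by ring)]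
        ring
      norm_num at h10
      have h12 := Nat.mul_le_mul_right ((q + 1) ^ 3) h10
      have h13 : 1 ≤ (q + 1) ^ 3 := Nat.one_le_pow _ _ (by omega)
      by_cases hall : ∀ x : X, OTs Q 3 (oA Q ψ x)
      · have := o_case_plane hQ hψ e1 (by omega) x hall
        rw [hq] at this
        have := Nat.mul_le_mul_right ((q + 1 + 1) * ((q + 1) ^ 2 + 1)) h13
        rw [add_mul] at h11
        omega
      · obtain ⟨y, hy⟩ := not_forall.1 hall
        obtain ⟨𝒞, c1, c2, c3, c4⟩ := fam (¬ OTs Q 3 ·) fun t g A ht =>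
          (oTs_smul_iff ht g).not.2
        have hy' := (c3 _).2 ⟨hy, y, rfl⟩
        obtain ⟨b, hb, -, h14⟩ := hne c1 c2 y hy'
        replace c4 : _ ≤ {x : X | ¬ OTs Q 3 (oA Q ψ x)}.ncard := c4
        have h15 := h14 1 (omult_pos hy' hb)
        have h16 := hsplit fun x => OTs Q 3 (oA Q ψ x)
        have h17 : (q + 1 + 1) * ((q + 1) ^ 2 + 1) ≤ S := le_trans (Nat.mul_le_mul_right _
          (o_arith_cube hq0)) h9
        generalize (q + 1 + 1) * ((q + 1) ^ 2 + 1) = r at *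
        generalize (q + 1) ^ 3 = r' at *
        rw [add_mul, one_mul, mul_comm] at h11
        omega
    · obtain ⟨x⟩ := ‹Nonempty X›
      obtain ⟨g, hg⟩ := hX x
      refine hg (o_case_small hQ hψ hn (fun y => ?_) x g)
      rw [hq]
      rcases good' y with h | h | h
      · exact Or.inl h
      · exact Or.inr h
      · exact absurd ⟨y, h.1, h.2.1, h.2.2.1, h.2.2.2.1, hq ▸ h.2.2.2.2⟩ hE
  have hYρ : ∀ w, ∀ x ∈ Y, oρ Q w • x ∈ Y := fun w x hx => by rwa [hY', oA_oρ, ← hY']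
  have himg : Y.image (oA Q ψ) = {⊤} := Finset.eq_singleton_iff_unique_mem.2
    ⟨Finset.mem_image.2 ⟨x₀, hx₀, (hY' _).1 hx₀⟩, fun A hA => by
      obtain ⟨x, hx, rfl⟩ := Finset.mem_image.1 hA
      exact (hY' x).1 hx⟩
  obtain ⟨s1, s2⟩ := sum_card_oA_le hQ hψ Y hYρ
  rw [himg, Finset.sum_singleton, AddSubgroup.card_top, hW] at s1 s2
  obtain ⟨x₁, hx₁, hreg⟩ : ∃ x ∈ Y, ∀ y ∈ Y, ∃ w, oρ Q w • x = y := by
    by_contra! H
    have := s2 fun x hx => by
      obtain ⟨y, hy, h⟩ := H x hx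
      exact ⟨y, hy, ((hY' y).1 hy).trans ((hY' x).1 hx).symm, h⟩
    omega
  have hYe : (Y : Set X) = Set.range fun w => oρ Q w • x₁ :=
    Set.ext fun y => ⟨hreg y, by rintro ⟨w, rfl⟩; exact hYρ w _ hx₁⟩
  have hYc : Y.card = (q + 1) ^ finrank F W := by
    rw [← Set.ncard_coe_finset, hYe, ncard_oρ_orbit hQ hψ, (hY' _).1 hx₁, AddSubgroup.card_top, hW]
  rcases 𝒜.eq_empty_or_nonempty with h0 | ⟨A, hA⟩
  · have hall : ∀ x : X, oA Q ψ x = ⊤ := fun x => by_contra fun h => by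
      simpa [h0] using (a3 _).2 ⟨h, x, rfl⟩
    refine o_case_reg hQ hn (X := X) (fun x => (oA_eq_top_iff hQ hψ).1 (hall x)) ?_
    rw [hq, ← hYc, Nat.card_eq_fintype_card, hY, Finset.filter_true_of_mem fun x _ => hall x,
      Finset.card_univ]
  have hApos := Finset.card_pos.2 ⟨A, hA⟩
  set Z := ∑ A ∈ 𝒜, Nat.card A
  have hNZ : (q + 1) ^ finrank F W + Z ≤ Nat.card X := by omega
  generalize (q + 1) ^ finrank F W = y at *
  have key : (q + 1) * S ≤ q * Z ∨ (q + 1) * C ≤ q * Z := by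
    by_cases hfat : ∃ A ∈ 𝒜, OFat F A
    · obtain ⟨A, hA, hfat⟩ := hfat
      obtain ⟨h3, x, rfl⟩ := (a3 A).1 hA
      obtain ⟨b, hb, hb0, h4⟩ := hne a1 a2 x hA
      exact (h4 2 (hp2.trans (a1.char_le_omult hQ hn hA h3 hfat hb hb0))).imp
        (o_arith_fat hq0) (o_arith_fat hq0)
    · obtain ⟨-, x, rfl⟩ := (a3 A).1 hA
      obtain ⟨b, hb, -, h4⟩ := hne a1 a2 x hA
      have h5 : ∀ A ∈ 𝒜, Nat.card A ≤ q + 1 := fun A hA =>
        hq ▸ o_card_le_of_not_fat fun h => hfat ⟨A, hA, h⟩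
      exact (h4 1 (omult_pos hA hb)).imp (o_arith_thin h5) (o_arith_thin h5)
  rcases key with key | key
  swap
  · have := Nat.mul_le_mul_left q hNZ
    rw [mul_add] at this
    have : q * τ ≤ q * Nat.card X := by omega
    have := Nat.le_of_mul_le_mul_left this hq0
    omega
  have h3 : N₀ = Nat.card X + 1 := by
    have := Nat.mul_le_mul_left q hNZ
    rw [mul_add] at this
    have : q * N₀ ≤ q * (Nat.card X + 1) := by rw [mul_add]; omega
    have := Nat.le_of_mul_le_mul_left this hq0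
    omega
  have h4 := index_pst_EO hP (by rw [finrank_oH]; omega) (oe_ne_zero (F := F) (W := W))
  rw [ncard_ocls_singular oH_oe, hz, hq, Nat.add_sub_cancel, mul_comm] at h4
  have h5 := Nat.eq_of_mul_eq_mul_left hq0 h4
  have h7 : (MulAction.orbit (MI.pst F (EO (oH Q)) (oe F W)) x₁) = Y := by
    ext z
    constructor
    · rintro ⟨k, rfl⟩
      exact (hY' _).2 ((oA_eq_top_iff hQ hψ).2
        (oS_smul_eq_bot k.2 ((oA_eq_top_iff hQ hψ).1 ((hY' _).1 hx₁))))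
    · intro hz
      obtain ⟨w, rfl⟩ := hreg z hz
      exact ⟨⟨oρ Q w, MI.stabilizer_le_pst _ (eich_app_self _ _)⟩, rfl⟩
  have h8 := Subgroup.index_dvd_of_le
    (inf_le_left : MulAction.stabilizer (EO (oH Q)) x₁ ⊓ MI.pst F (EO (oH Q)) (oe F W) ≤ _)
  rw [← Subgroup.relIndex_mul_index inf_le_right, Subgroup.inf_relIndex_right,
    MI.relIndex_stabilizer, h7, Set.ncard_coe_finset, hYc, h5, h3,
    MulAction.index_stabilizer_of_transitive] at h8
  have h9 := Nat.le_of_dvd (by rw [← hW]; exact Nat.card_pos)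
    ((Nat.coprime_self_add_right.2 (Nat.coprime_one_right _)).dvd_of_dvd_mul_right h8)
  have h10 : 0 < Z := Finset.sum_pos (fun _ _ => Nat.card_pos) ⟨A, hA⟩
  omega

end Cfsg.Agent.Cl
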