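import Mathlib
import Cfsg.Agent.Cl.OrthMinF

/-!
# Minimal index of `PΩ`

Counting vectors of a given norm, and the numerical form of the minimal index theorem.
-/

set_option autoImplicit false

namespace Cfsg.Agent.Cl

open QuadraticMap Module Pointwise

variable {F W W' : Type*} [Field F] [AddCommGroup W] [Module F W] [AddCommGroup W'] [Module F W']
  {Q : QuadraticForm F W} {Q' : QuadraticForm F W'}

variable (Q) in
/-- The number of vectors of norm `c`. -/
noncomputable def ocnt (c : F) : ℕ := Nat.card {v // Q v = c}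

theorem ocnt_congr (e : W ≃ₗ[F] W') (h : ∀ v, Q' (e v) = Q v) (c : F) : ocnt Q c = ocnt Q' c :=
  Nat.card_congr (e.toEquiv.subtypeEquiv fun v => by simp [h])

theorem ocnt_oH [Finite F] [Finite W] (c : F) :
    ocnt (oH Q) c = (Nat.card F - 1) * Nat.card W + Nat.card F * ocnt Q c := by
  classical
  let e : {v // oH Q v = c} ≃ (Fˣ × W) ⊕ (F × {v // Q v = c}) :=
    { toFun := fun v => if h : v.1.1.1 = 0 then .inr (v.1.1.2, ⟨v.1.2, by simpa [h] using v.2⟩)
        else .inl (Units.mk0 _ h, v.1.2)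
      invFun := Sum.elim
        (fun p => ⟨(((p.1 : F), (c - Q p.2) / p.1), p.2), by simp; field_simp; ring⟩)
        fun p => ⟨((0, p.1), p.2.1), by simpa using p.2.2⟩
      left_inv := by
        rintro ⟨⟨⟨a, b⟩, v⟩, hv⟩
        by_cases h : a = 0
        · simp [h]
        · simp only [prod_apply, ohyp_apply] at hv
          simp only [h, dite_false, Sum.elim_inl, Units.val_mk0, Subtype.mk.injEq, Prod.mk.injEq,
            and_true, true_and]
          field_simp
          linear_combination -hv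
      right_inv := by
        rintro (⟨a, v⟩ | ⟨b, v⟩)
        · simp
        · simp }
  rw [ocnt, Nat.card_congr e, Nat.card_sum, Nat.card_prod, Nat.card_prod, Nat.card_units, ocnt]

theorem ocnt_plus_prod [Finite F] [FiniteDimensional F W] (c : F) (m : ℕ) :
    Nat.card F * ocnt ((quad_plus m F).prod Q) c + Nat.card F ^ (m + finrank F W) =
      Nat.card F ^ (2 * m + finrank F W) + Nat.card F ^ (m + 1) * ocnt Q c := by
  have : Finite W := Module.finite_of_finite F
  induction m with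
  | zero =>
    obtain ⟨e, he⟩ := exists_plus_prod_zero Q
    rw [ocnt_congr e he]
    simp [add_comm]
  | succ m ih =>
    obtain ⟨e, he⟩ := exists_plus_prod_succ m Q
    rw [ocnt_congr e he, ocnt_oH, o_card_plus_prod]
    obtain ⟨r, hr⟩ : ∃ r, Nat.card F = r + 1 := Nat.exists_eq_add_one.2 Nat.card_pos
    rw [hr] at ih ⊢
    rw [Nat.add_sub_cancel]
    zify at ih ⊢
    linear_combination (r + 1 : ℤ) * ih

theorem ocnt_le_ncard_ocls [Finite W] {b : W} (hb : Q b ≠ 0) :
    ocnt Q (Q b) ≤ (ocls Q b).ncard :=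
  Set.ncard_le_ncard (s := {v | Q v = Q b}) fun v (hv : Q v = Q b) =>
    ⟨o_ne_zero_of_norm (hv ▸ hb), 1, one_ne_zero, by simp [hv]⟩

theorem ncard_ocls_of_card_le_three [Finite F] (h : Nat.card F ≤ 3) {b : W} (hb : Q b ≠ 0) :
    (ocls Q b).ncard = ocnt Q (Q b) := by
  have : ocls Q b = {v | Q v = Q b} := by
    ext v
    refine ⟨fun ⟨_, t, ht, e⟩ => ?_, fun hv : Q v = Q b =>
      ⟨o_ne_zero_of_norm (hv ▸ hb), 1, one_ne_zero, by simp [hv]⟩⟩
    have := Fintype.ofFinite F
    have h1 := FiniteField.pow_card_sub_one_eq_one t ht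
    have h2 : 1 < Nat.card F := Finite.one_lt_card
    rw [← Nat.card_eq_fintype_card] at h1
    have : t ^ 2 = 1 := by
      obtain h3 | h3 : Nat.card F = 2 ∨ Nat.card F = 3 := by omega
      · rw [h3, pow_one] at h1; rw [h1, one_pow]
      · rwa [h3] at h1
    rw [this, one_mul] at e
    exact e
  rw [this]; rfl

theorem mul_ocnt_le [Finite F] [Finite W] {b : W} (hb : Q b ≠ 0) :
    (Nat.card F - 1) * ocnt Q (Q b) ≤ 2 * (ocls Q b).ncard ∧
      ((2 : F) = 0 → (Nat.card F - 1) * ocnt Q (Q b) ≤ (ocls Q b).ncard) := by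
  let f : Fˣ × {v // Q v = Q b} → ocls Q b := fun p => ⟨(p.1 : F) • p.2.1,
    smul_ne_zero p.1.ne_zero (o_ne_zero_of_norm (p.2.2.symm ▸ hb)), p.1, p.1.ne_zero, by
      rw [o_qsmul, p.2.2]⟩
  have h1 : ∀ p p', f p = f p' → p.1 = p'.1 ∨ p.1 = -p'.1 := fun p p' h => by
    have := congrArg (fun v : ocls Q b => Q v.1) h
    simp only [f, o_qsmul, p.2.2, p'.2.2, mul_left_inj' hb] at this
    exact (sq_eq_sq_iff_eq_or_eq_neg.1 this).imp Units.ext Units.ext
  have h2 : ∀ p p', f p = f p' → p.1 = p'.1 → p = p' := fun p p' h e => by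
    have := congrArg Subtype.val h
    simp only [f, e] at this
    exact Prod.ext e (Subtype.ext (smul_right_injective W p'.1.ne_zero this))
  rw [← Nat.card_units, ocnt, ← Nat.card_prod, ← Nat.card_coe_set_eq]
  constructor
  · classical
    have : Nonempty (Fˣ × {v // Q v = Q b}) := ⟨(1, ⟨b, rfl⟩)⟩
    choose! g hg using fun y (h : ∃ p, f p = y) => h
    rw [show 2 = Nat.card Bool by simp, ← Nat.card_prod]
    refine Nat.card_le_card_of_injective
      (fun p => (decide (p.1 = (g (f p)).1), f p)) fun p p' h => ?_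
    obtain ⟨h3, h4⟩ := Prod.ext_iff.1 h
    simp only [← show f p = f p' from h4, decide_eq_decide] at h3
    have h5 := hg _ ⟨p, rfl⟩
    refine h2 p p' h4 ?_
    by_cases h6 : p.1 = (g (f p)).1
    · rw [h6, h3.1 h6]
    · rw [(h1 _ _ h5.symm).resolve_left h6,
        (h1 _ _ (h5.trans h4).symm).resolve_left (h3.not.1 h6)]
  · refine fun h => Nat.card_le_card_of_injective f fun p p' e => h2 p p' e
      ((h1 p p' e).elim id fun e' => Units.ext ?_)
    rw [e', Units.val_neg]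
    linear_combination -(p'.1 : F) * h

theorem o_arith_min {r S M Y N : ℕ} (hr : 3 ≤ r) (hY : (r + 1) ^ 2 ≤ Y)
    (h1 : (r + 1) ^ 2 * Y ≤ S + Y) (h2 : S ≤ (r + 1) ^ 2 * Y + Y) (h3 : (r + 1) ^ 2 * Y ≤ M + Y)
    (hN : r * N = r * ((r + 1) ^ 3 * Y) + (r + 1) * S + r) :
    N ≤ 2 * ((r + 1) ^ 3 * Y) ∧ N ≤ (r + 3) * M ∧ N ≤ 2 * (r + 1) * S ∧
      r * N ≤ r * ((r + 1) ^ 3 * Y) + (r + 1) * (2 * M) := by
  obtain ⟨s, rfl⟩ := Nat.exists_eq_add_of_le' hr
  have hY1 : 1 ≤ Y := le_trans (Nat.one_le_pow _ _ (by omega)) hY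
  have e1 := Nat.mul_le_mul_left (s + 3 + 1) h2
  have p0 := Nat.zero_le (s * Y)
  have p1 := Nat.zero_le (s ^ 2 * Y)
  have p2 := Nat.zero_le (s ^ 3 * Y)
  have p3 := Nat.zero_le (s ^ 4 * Y)
  have p4 := Nat.mul_le_mul_left s hY1
  refine ⟨Nat.le_of_mul_le_mul_left (c := s + 3) ?_ (by omega),
    Nat.le_of_mul_le_mul_left (c := s + 3) ?_ (by omega),
    Nat.le_of_mul_le_mul_left (c := s + 3) ?_ (by omega), ?_⟩
  · nlinarith
  · nlinarith [Nat.mul_le_mul_left ((s + 3) * (s + 3 + 3)) h3]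
  · nlinarith [Nat.mul_le_mul_left ((s + 3 + 1) * (2 * (s + 3) - 1 + 0)) h1,
      Nat.mul_le_mul_left ((s + 3 + 1) * (2 * s + 5)) h1]
  · nlinarith [Nat.mul_le_mul_left (2 * (s + 3 + 1)) h3]

variable [FiniteDimensional F W] [Finite F]

/-- Numerical form of the lower bound. -/
theorem o_min_index (hQ : (polarBilin Q).Nondegenerate) (hn : 5 ≤ finrank F W) {r S M Y N₀ τ : ℕ}
    (hq : Nat.card F = r + 1) (hS : ozeros Q = S + 1) (hY : (r + 1) ^ (finrank F W - 3) = Y)
    (hM : ∀ c, c ≠ 0 → M ≤ ocnt Q c) (h1 : (r + 1) ^ 2 * Y ≤ S + Y)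
    (h2 : S ≤ (r + 1) ^ 2 * Y + Y) (h3 : (r + 1) ^ 2 * Y ≤ M + Y)
    (hN : r * N₀ = r * ((r + 1) ^ 3 * Y) + (r + 1) * S + r) (hτ : τ ≤ N₀)
    (h4 : r ≤ 2 → r * τ ≤ r * ((r + 1) ^ 3 * Y) + (r + 1) * M) (h5 : r = 1 → τ ≤ 16 * Y)
    (h6 : finrank F W = 6 → S ≤ ((r + 1) ^ 3 - 1) * ((r + 1) ^ 2 + 1) ∧
      (r ≤ 2 → ((r + 1) ^ 3 - 1) * ((r + 1) ^ 2 + 1) ≤ S →
        τ ≤ (r + 1) ^ 3 * ((r + 1 + 1) * ((r + 1) ^ 2 + 1))))
    (H : Subgroup (EO (oH Q))) (hH : H ≠ ⊤) : τ ≤ H.index := by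
  have := Module.finite_of_finite F (M := W)
  have := Fintype.ofFinite F
  have : Finite (EO (oH Q)) := by
    have : Finite (((F × F) × W) ≃ₗ[F] ((F × F) × W)) :=
      Finite.of_injective _ DFunLike.coe_injective
    infer_instance
  obtain ⟨p, hp⟩ := CharP.exists F
  have hpp := CharP.char_is_prime F p
  have hpq : p ∣ r + 1 := by
    rw [← CharP.cast_eq_zero_iff F, ← hq, Nat.card_eq_fintype_card, FiniteField.cast_card_eq_zero]
  have hr : 0 < r := by have : 1 < Nat.card F := Finite.one_lt_card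
                        omega
  have hy : (r + 1) ^ finrank F W = (r + 1) ^ 3 * Y := by
    rw [← hY, ← pow_add]; congr 1; omega
  have hY2 : (r + 1) ^ 2 ≤ Y := hY ▸ Nat.pow_le_pow_right (by omega) (by omega)
  have hX : ∀ x : EO (oH Q) ⧸ H, ∃ g : EO (oH Q), g • x ≠ x := fun x => by
    by_contra! h
    refine hH (Subgroup.index_eq_one.1 (Nat.card_eq_one_iff_exists.2 ⟨x, fun y => ?_⟩))
    obtain ⟨g, rfl⟩ := MulAction.exists_smul_eq (EO (oH Q)) x y
    exact h g
  by_cases hr3 : 3 ≤ r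
  · obtain ⟨a1, a2, a3, a4⟩ := o_arith_min hr3 hY2 h1 h2 h3 hN
    obtain ⟨C, c1, c2, c3⟩ : ∃ C, (∀ b, Q b ≠ 0 → C ≤ (ocls Q b).ncard) ∧ 2 * M ≤ C ∧
        (r + 3) * M ≤ p * C := by
      by_cases h2 : (2 : F) = 0
      · refine ⟨r * M, fun b hb => (Nat.mul_le_mul_left _ (hM _ hb)).trans ?_,
          Nat.mul_le_mul_right _ (by omega), ?_⟩
        · have := (mul_ocnt_le hb).2 h2
          rwa [hq, Nat.add_sub_cancel] at this
        · rw [← mul_assoc]; exact Nat.mul_le_mul_right _ (by nlinarith [hpp.two_le])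
      · have h7 := o_odd_card_of_two_ne_zero h2
        rw [← Nat.card_eq_fintype_card, hq] at h7
        obtain ⟨h, rfl⟩ : ∃ h, r = 2 * h := ⟨r / 2, by have := Nat.odd_iff.1 h7; omega⟩
        refine ⟨h * M, fun b hb => (Nat.mul_le_mul_left _ (hM _ hb)).trans ?_,
          Nat.mul_le_mul_right _ (by omega), ?_⟩
        · have := (mul_ocnt_le hb).1
          rw [hq, Nat.add_sub_cancel, mul_assoc] at this
          omega
        · rw [← mul_assoc]
          refine Nat.mul_le_mul_right _ ?_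
          have h8 : p ≠ 2 := by rintro rfl; omega
          by_cases h9 : h = 2
          · subst h9
            rw [(Nat.prime_dvd_prime_iff_eq hpp Nat.prime_five).1 hpq]
            omega
          · have := hpp.two_le
            nlinarith [show 3 ≤ p by omega, show 3 ≤ h by omega]
    refine o_min_card hQ hX hn (p := p) hq hS (hy ▸ hN) hτ (by omega) c1 (fun _ => by omega)
      (by omega) (le_trans (hτ.trans a3) (Nat.mul_le_mul_right _ (by nlinarith)))
      (fun _ => hτ.trans a3) (by omega) ?_ fun h _ => ⟨(h6 h).1, ?_⟩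
    · have := Nat.mul_le_mul_left r hτ
      have := Nat.mul_le_mul_left (r + 1) c2
      rw [hy]
      omega
    · rw [h] at hY
      subst hY
      refine le_trans ?_ c2
      obtain ⟨s, rfl⟩ := Nat.exists_eq_add_of_le' hr3
      norm_num at h3
      nlinarith [Nat.zero_le (s ^ 5), Nat.zero_le (s ^ 4), Nat.zero_le (s ^ 3), Nat.zero_le (s ^ 2)]
  · refine o_min_card hQ hX hn (p := p) (C := M) hq hS (hy ▸ hN) hτ ?_
      (fun b hb => (hM _ hb).trans (ocnt_le_ncard_ocls hb)) (by omega) ?_ ?_ (by omega)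
      (fun h h' => (h6 h).2 h') (hy ▸ h4 (by omega)) (by omega)
    · rw [hy]
      obtain rfl | rfl : r = 1 ∨ r = 2 := by omega
      all_goals omega
    · rintro rfl
      omega
    · obtain rfl | rfl : r = 1 ∨ r = 2 := by omega
      all_goals omega

/-- Transfer to `PΩ` of a standard form. -/
theorem pomega_min_index {ι : Type} [Fintype ι] [DecidableEq ι] (P : QuadraticForm F (ι → F))
    (e : (ι → F) ≃ₗ[F] (F × F) × W) (he : ∀ v, oH Q (e v) = P v)
    (hQ : (polarBilin Q).Nondegenerate) (hn : 3 ≤ finrank F W) {τ : ℕ}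
    (h1 : ∀ H : Subgroup (EO (oH Q)), H ≠ ⊤ → τ ≤ H.index) {a : (F × F) × W} (ha : a ≠ 0)
    (h2 : τ * (Nat.card F - 1) = (ocls (oH Q) a).ncard) :
    (∀ H : Subgroup (POmega F ⇑P), H ≠ ⊤ → τ ≤ H.index) ∧
      ∃ H : Subgroup (POmega F ⇑P), H.index = τ := by
  have hP := o_prod_nondeg (ohyp_nondeg (F := F)) hQ
  have hd : 5 ≤ finrank F ((F × F) × W) := by rw [finrank_oH]; omega
  let φ : POmega F ⇑P ≃* EO (oH Q) ⧸ Subgroup.center (EO (oH Q)) :=
    (pomegaEquivOG P).trans (centerQuotCongr ((commutatorCongr (OG.congr e he)).trans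
      (MulEquiv.subgroupCongr (commutator_eq_EO_of_finite hP
        (not_oExc_of_finrank (by omega)) (by omega)))))
  obtain ⟨h3, K, h4⟩ := MI.quot_min_index (Subgroup.center (EO (oH Q))) (fun H _ => h1 H)
    (MI.pst F (EO (oH Q)) a) (fun g hg => by
      rcases (mem_center_iff_of_EO_le hP (by omega) (quad_exists_singular _ (by omega))
        le_rfl g).1 hg with h | h
      · exact MI.mem_pst_of_eq ha (a := 1) (by change g.1.1 a = _; rw [h, one_smul]; rfl)
      · exact MI.mem_pst_of_eq ha (a := -1) (by change g.1.1 a = _; rw [h, neg_one_smul]; rfl))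
    (Nat.eq_of_mul_eq_mul_right (Nat.sub_pos_of_lt Finite.one_lt_card)
      ((index_pst_EO hP hd ha).trans h2.symm))
  refine ⟨fun H hH => ?_, K.comap φ.toMonoidHom, by
    rw [Subgroup.index_comap_of_surjective _ φ.surjective, h4]⟩
  rw [← Subgroup.index_comap_of_surjective H (f := φ.symm.toMonoidHom) φ.symm.surjective]
  refine h3 _ fun h => hH (eq_top_iff.2 fun g _ => ?_)
  simpa using h.ge (Subgroup.mem_top (φ g))

omit [FiniteDimensional F W] [Finite F] in
theorem exists_odd_eq_oH (k : ℕ) :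
    ∃ e : (Unit ⊕ (Fin (k + 1) ⊕ Fin (k + 1)) → F) ≃ₗ[F] (F × F) × ((Fin k ⊕ Fin k → F) × F),
      ∀ v, oH ((quad_plus k F).prod (QuadraticMap.sq (R := F) (A := F))) (e v) =
        quad_odd (k + 1) F v := by
  obtain ⟨e, he⟩ := exists_odd_eq_prod (F := F) (k + 1)
  obtain ⟨e', he'⟩ := exists_plus_prod_succ k (QuadraticMap.sq (R := F) (A := F))
  exact ⟨e.trans e', fun v => (he' _).trans (he v)⟩

omit [FiniteDimensional F W] [Finite F] in
theorem exists_minus_eq_oH (k : ℕ) (a b : F) :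
    ∃ e : ((Fin (k + 1) ⊕ Fin (k + 1)) ⊕ Fin 2 → F) ≃ₗ[F]
        (F × F) × ((Fin k ⊕ Fin k → F) × (Fin 2 → F)),
      ∀ v, oH ((quad_plus k F).prod (obin F a b)) (e v) = quad_minus (k + 1) F a b v := by
  obtain ⟨e, he⟩ := exists_minus_eq_prod (k + 1) a b
  obtain ⟨e', he'⟩ := exists_plus_prod_succ k (obin F a b)
  exact ⟨e.trans e', fun v => (he' _).trans (he v)⟩

theorem ocnt_plus (m : ℕ) {c : F} (hc : c ≠ 0) :
    ocnt (quad_plus (m + 1) F) c + Nat.card F ^ m = Nat.card F ^ (2 * m + 1) := by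
  obtain ⟨e, he⟩ := exists_plus_prod_punit (F := F) (m + 1)
  have := ocnt_plus_prod (Q := (0 : QuadraticForm F PUnit.{1})) c (m + 1)
  have h0 : ocnt (0 : QuadraticForm F PUnit.{1}) c = 0 := by
    simp [ocnt, hc.symm]
  rw [ocnt_congr e he, Module.finrank_zero_of_subsingleton, h0] at this
  refine Nat.eq_of_mul_eq_mul_left (Nat.card_pos (α := F)) ?_
  zify at this ⊢
  linear_combination this

theorem ocnt_odd (m : ℕ) (c : F) :
    ocnt ((quad_plus m F).prod (QuadraticMap.sq (R := F) (A := F))) c + Nat.card F ^ m =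
      Nat.card F ^ (2 * m) + Nat.card F ^ m * ocnt (QuadraticMap.sq (R := F) (A := F)) c := by
  have := ocnt_plus_prod (Q := QuadraticMap.sq (R := F) (A := F)) c m
  rw [Module.finrank_self] at this
  refine Nat.eq_of_mul_eq_mul_left (Nat.card_pos (α := F)) ?_
  zify at this ⊢
  linear_combination this

theorem ocnt_minus (m : ℕ) (a b c : F) :
    ocnt ((quad_plus m F).prod (obin F a b)) c + Nat.card F ^ (m + 1) =
      Nat.card F ^ (2 * m + 1) + Nat.card F ^ m * ocnt (obin F a b) c := by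
  have := ocnt_plus_prod (Q := obin F a b) c m
  rw [Module.finrank_fin_fun] at this
  refine Nat.eq_of_mul_eq_mul_left (Nat.card_pos (α := F)) ?_
  zify at this ⊢
  linear_combination this

theorem ncard_ocls_oe {r S : ℕ} (hq : Nat.card F = r + 1) (hS : ozeros Q = S + 1) :
    (ocls (oH Q) (oe F W)).ncard = r * (r + 1) ^ finrank F W + (r + 1) * S + r := by
  have := Module.finite_of_finite F (M := W)
  rw [ncard_ocls_singular oH_oe, ozeros_ohyp_prod, hS,
    Module.natCard_eq_pow_finrank (K := F) (V := W), hq, Nat.add_sub_cancel, mul_add, mul_one,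
    ← add_assoc, ← add_assoc, Nat.add_sub_cancel]

end Cfsg.Agent.Cl
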