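import Mathlib
import Cfsg.Agent.Cl.OrthMinG

/-!
# Minimal index of `PΩ`: the three families
-/

set_option autoImplicit false

namespace Cfsg.Agent.Cl

open QuadraticMap Module

variable {F : Type*} [Field F] [Finite F] {r x j N₀ τ : ℕ}

theorem ominH_pow (hx : (r + 1) ^ j = x) (a : ℕ) :
    (r + 1) ^ (j + a) = (r + 1) ^ a * x ∧ (r + 1) ^ (2 * j + a) = (r + 1) ^ a * x ^ 2 := by
  subst hx; constructor <;> ring

theorem ominH_le (hx : (r + 1) ^ j = x) {a b : ℕ} (h : a ≤ b) :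
    (r + 1) ^ a * x ≤ (r + 1) ^ b * x ^ 2 := by
  rw [← (ominH_pow hx a).1, ← (ominH_pow hx b).2]
  exact Nat.pow_le_pow_right (by omega) (by omega)

theorem ominH_odd (h2 : (2 : F) ≠ 0) (hq : Nat.card F = r + 1) (hx : (r + 1) ^ j = x)
    (hN : r * N₀ + 1 = (r + 1) ^ 6 * x ^ 2) :
    (ocls (oH ((quad_plus (j + 2) F).prod (QuadraticMap.sq (R := F) (A := F))))
      (oe F _)).ncard = r * N₀ ∧
    (τ ≤ N₀ → (r ≤ 2 → r * τ + (r + 1) ^ 3 * x ≤ (r + 1) ^ 6 * x ^ 2) →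
      ∀ H : Subgroup (EO (oH ((quad_plus (j + 2) F).prod (QuadraticMap.sq (R := F) (A := F))))),
        H ≠ ⊤ → τ ≤ H.index) := by
  have hd : finrank F ((Fin (j + 2) ⊕ Fin (j + 2) → F) × F) = 2 * j + 5 := by
    rw [finrank_prod, o_finrank_plus, finrank_self]; ring
  have hc := fun c => ocnt_odd (F := F) (j + 2) c
  simp only [hq, mul_add, (ominH_pow hx _).1, (ominH_pow hx _).2] at hc
  have h0 := hc 0
  rw [show ocnt (QuadraticMap.sq (R := F) (A := F)) 0 = 1 from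
    ozeros_of_aniso fun v hv => by simpa using hv, mul_one] at h0
  obtain ⟨S, hS⟩ := Nat.exists_eq_add_one.2 (ozeros_pos
    (Q := (quad_plus (j + 2) F).prod (QuadraticMap.sq (R := F) (A := F))))
  have hS' : S + 1 = (r + 1) ^ (2 * 2) * x ^ 2 := by
    rw [← hS]; exact Nat.add_right_cancel h0
  obtain ⟨M, hM⟩ := Nat.exists_eq_add_of_le (ominH_le hx (a := 2) (b := 2 * 2) (by norm_num))
  have h3 := ominH_le hx (a := 2) (b := 2) le_rfl
  have h7 : (r + 1) ^ 2 * ((r + 1) ^ 2 * x ^ 2) = (r + 1) ^ (2 * 2) * x ^ 2 := by ring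
  have hN' : r * N₀ = r * ((r + 1) ^ 3 * ((r + 1) ^ 2 * x ^ 2)) + (r + 1) * S + r := by
    zify at hN hS' ⊢
    linear_combination hN - (r + 1) * hS'
  refine ⟨?_, fun hτ h4 => o_min_index (o_prod_nondeg quad_plus_nondeg (osq_nondeg h2))
    (by omega) hq hS (M := M) (Y := (r + 1) ^ 2 * x ^ 2) (by rw [hd]; exact (ominH_pow hx 2).2)
    (fun c _ => by have := hc c; omega) ?_ ?_ ?_ hN' hτ (fun h => ?_) ?_ (by omega)⟩
  · rw [ncard_ocls_oe hq hS, hN', hd, (ominH_pow hx _).2]; ring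
  · have : 1 ≤ (r + 1) ^ 2 * x ^ 2 := by subst hx; exact Nat.succ_le_of_lt (by positivity)
    omega
  · omega
  · omega
  · have := h4 h
    zify at this hM ⊢
    nlinarith
  · rintro rfl
    have := Fintype.ofFinite F
    have := o_odd_card_of_two_ne_zero h2
    rw [← Nat.card_eq_fintype_card, hq] at this
    exact absurd this (by decide)

theorem ominH_plus (hq : Nat.card F = r + 1) (hx : (r + 1) ^ j = x)
    (hN : r * N₀ + (r + 1) ^ 3 * x + 1 = (r + 1) ^ 7 * x ^ 2 + (r + 1) ^ 4 * x) :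
    (ocls (oH (quad_plus (j + 3) F)) (oe F _)).ncard = r * N₀ ∧
    (τ ≤ N₀ → (r ≤ 2 → r = 1 ∧ τ + 8 * x ≤ 128 * x ^ 2) →
      ∀ H : Subgroup (EO (oH (quad_plus (j + 3) F))), H ≠ ⊤ → τ ≤ H.index) := by
  have hd : finrank F (Fin (j + 3) ⊕ Fin (j + 3) → F) = 2 * j + 6 := by
    rw [o_finrank_plus]; ring
  have h0 := ozeros_plus (F := F) (j + 2)
  have hc := fun c hc => ocnt_plus (F := F) (j + 2) (c := c) hc
  simp only [hq, mul_add, add_assoc, (ominH_pow hx _).1, (ominH_pow hx _).2] at hc h0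
  obtain ⟨S, hS⟩ := Nat.exists_eq_add_one.2 (ozeros_pos (Q := quad_plus (j + 3) F))
  have hS' : S + 1 + (r + 1) ^ 2 * x = (r + 1) ^ 5 * x ^ 2 + (r + 1) ^ 3 * x := hS ▸ h0
  obtain ⟨M, hM⟩ := Nat.exists_eq_add_of_le (ominH_le hx (a := 2) (b := 5) (by norm_num))
  have h3 := ominH_le hx (a := 3) (b := 3) le_rfl
  have hx1 : 1 ≤ x := hx ▸ Nat.one_le_pow _ _ (by omega)
  have h5 : (r + 1) ^ 2 * x ≤ (r + 1) ^ 3 * x :=
    Nat.mul_le_mul_right _ (Nat.pow_le_pow_right (by omega) (by omega))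
  have h6 : 1 ≤ (r + 1) ^ 3 * x := Nat.succ_le_of_lt (by positivity)
  have h7 : (r + 1) ^ 2 * ((r + 1) ^ 3 * x ^ 2) = (r + 1) ^ 5 * x ^ 2 := by ring
  have hN' : r * N₀ = r * ((r + 1) ^ 3 * ((r + 1) ^ 3 * x ^ 2)) + (r + 1) * S + r := by
    zify at hN hS' ⊢
    linear_combination hN - (r + 1) * hS'
  refine ⟨?_, fun hτ h4 => o_min_index quad_plus_nondeg
    (by omega) hq hS (M := M) (Y := (r + 1) ^ 3 * x ^ 2) (by rw [hd]; exact (ominH_pow hx 3).2)
    (fun c h => Nat.le_of_add_le_add_left (a := (r + 1) ^ 2 * x)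
      (by rw [← hM, add_comm (_ * x)]; exact (hc c h).ge)) (by omega) (by omega) (by omega) hN' hτ
    (fun h => ?_) (fun h => ?_) fun h => ?_⟩
  · rw [ncard_ocls_oe hq hS, hN', hd, (ominH_pow hx _).2]; ring
  · obtain ⟨rfl, h⟩ := h4 h
    omega
  · obtain ⟨rfl, h⟩ := h4 (by omega)
    omega
  · obtain rfl : j = 0 := by omega
    subst hx
    refine ⟨le_of_eq ?_, fun h _ => ?_⟩
    · zify [show 1 ≤ (r + 1) ^ 3 from Nat.one_le_pow _ _ (by omega)] at hS' ⊢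
      linear_combination hS'
    · obtain ⟨rfl, h⟩ := h4 h
      omega

theorem ominH_minus {a b : F}
    (hab : ∀ z₁ z₂ : F, z₁ ^ 2 + a * z₁ * z₂ + b * z₂ ^ 2 = 0 → z₁ = 0 ∧ z₂ = 0)
    (hq : Nat.card F = r + 1) (hx : (r + 1) ^ j = x)
    (hN : r * N₀ + (r + 1) ^ 4 * x + 1 = (r + 1) ^ 7 * x ^ 2 + (r + 1) ^ 3 * x) :
    (ocls (oH ((quad_plus (j + 2) F).prod (obin F a b))) (oe F _)).ncard = r * N₀ ∧
      ∀ H : Subgroup (EO (oH ((quad_plus (j + 2) F).prod (obin F a b)))),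
        H ≠ ⊤ → N₀ ≤ H.index := by
  have hd : finrank F ((Fin (j + 2) ⊕ Fin (j + 2) → F) × (Fin 2 → F)) = 2 * j + 6 := by
    rw [finrank_prod, o_finrank_plus, finrank_fin_fun]; ring
  have hnd := obin_nondeg (o_disc_ne_zero_of_anisotropic hab)
  have hc := fun c => ocnt_minus (F := F) (j + 2) a b c
  simp only [hq, mul_add, add_assoc, (ominH_pow hx _).1, (ominH_pow hx _).2] at hc
  have h0 := hc 0
  rw [show ocnt (obin F a b) 0 = 1 from ozeros_of_aniso (obin_aniso hab), mul_one] at h0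
  obtain ⟨S, hS⟩ := Nat.exists_eq_add_one.2 (ozeros_pos
    (Q := (quad_plus (j + 2) F).prod (obin F a b)))
  have hS' : S + 1 + (r + 1) ^ 3 * x = (r + 1) ^ 5 * x ^ 2 + (r + 1) ^ 2 * x := by
    rw [← hS]; exact h0
  have h3 := ominH_le hx (a := 3) (b := 3) le_rfl
  have hx1 : 1 ≤ x := hx ▸ Nat.one_le_pow _ _ (by omega)
  have hr : 0 < r := by have : 1 < Nat.card F := Finite.one_lt_card
                        omega
  have h5 : (r + 1) ^ 2 * x < (r + 1) ^ 3 * x :=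
    Nat.mul_lt_mul_of_lt_of_le (Nat.pow_lt_pow_right (by omega) (by omega)) le_rfl hx1
  have h6 : 1 ≤ (r + 1) ^ 2 * x := Nat.succ_le_of_lt (by positivity)
  have h7 : (r + 1) ^ 2 * ((r + 1) ^ 3 * x ^ 2) = (r + 1) ^ 5 * x ^ 2 := by ring
  have hN' : r * N₀ = r * ((r + 1) ^ 3 * ((r + 1) ^ 3 * x ^ 2)) + (r + 1) * S + r := by
    zify at hN hS' ⊢
    linear_combination hN - (r + 1) * hS'
  refine ⟨?_, o_min_index (o_prod_nondeg quad_plus_nondeg hnd)
    (by omega) hq hS (M := S + 1) (Y := (r + 1) ^ 3 * x ^ 2)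
    (by rw [hd]; exact (ominH_pow hx 3).2)
    (fun c _ => ?_) (by omega) (by omega) (by omega) hN' le_rfl
    (fun _ => by rw [hN', mul_add (r + 1)]; omega) (fun h => ?_) fun h => ?_⟩
  · rw [ncard_ocls_oe hq hS, hN', hd, (ominH_pow hx _).2]; ring
  · have h8 : 1 ≤ ocnt (obin F a b) c := by
      obtain ⟨v, hv⟩ := quad_exists_eq hnd (by simp) c
      have : Nonempty {v // obin F a b v = c} := ⟨⟨v, hv⟩⟩
      exact Nat.card_pos
    have := Nat.mul_le_mul_left ((r + 1) ^ 2 * x) h8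
    have := hc c
    norm_num at this
    omega
  · subst h
    omega
  · obtain rfl : j = 0 := by omega
    subst hx
    have h8 : ((r + 1) ^ 3 - 1) * ((r + 1) ^ 2 + 1) + (r + 1) ^ 2 + 1 =
        (r + 1) ^ 5 + (r + 1) ^ 3 := by
      zify [show 1 ≤ (r + 1) ^ 3 from Nat.one_le_pow _ _ (by omega)]
      ring
    simp only [pow_zero, one_pow, mul_one] at hS' h5
    omega

end Cfsg.Agent.Cl
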