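import Mathlib
import Cfsg.Agent.Cl.OrthMinG

/-!
# Minimal index of `Ω₆⁻(q)`: the four-dimensional space of minus type

Geometry of a four-dimensional quadratic space of Witt index one (`Min4`) and lower bounds for
families of additive subgroups invariant under `EO Q`.
-/

set_option autoImplicit false

namespace Cfsg.Agent.Cl.M4

open QuadraticMap Module Pointwise

variable {F W : Type*} [Field F] [AddCommGroup W] [Module F W] {Q : QuadraticForm F W}

variable (Q) in
/-- A four-dimensional quadratic space of minus type, described by its vector counts. -/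
structure Min4 : Prop where
  nd : (polarBilin Q).Nondegenerate
  dim : finrank F W = 4
  zeros : ozeros Q + Nat.card F ^ 2 = Nat.card F ^ 3 + Nat.card F
  cnt : ∀ c, c ≠ 0 → ocnt Q c = Nat.card F ^ 3 + Nat.card F

theorem notMem_span_of_ns {a u : W} (ha : Q a ≠ 0) (hu : Q u = 0) (hu0 : u ≠ 0) :
    u ∉ Submodule.span F {a} := fun hm => by
  obtain ⟨c, rfl⟩ := o_mem_span_one.1 hm
  rw [o_qsmul, mul_eq_zero, or_iff_left ha, pow_eq_zero_iff two_ne_zero] at hu
  simp [hu] at hu0

open Classical in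
/-- Double counting of incidences between members and vectors. -/
theorem sum_omult (𝒜 : Finset (AddSubgroup W)) (T : Finset W) :
    ∑ A ∈ 𝒜, (T.filter (· ∈ A)).card = ∑ w ∈ T, omult 𝒜 w := by
  simp only [omult, Finset.card_filter]
  rw [Finset.sum_comm]

/-- Double counting with two sets of vectors. -/
theorem two_ncard_le [Finite W] (𝒜 : Finset (AddSubgroup W)) {C D : Set W} (h0 : (0 : W) ∉ C)
    (h0' : (0 : W) ∉ D) (hd : Disjoint C D) {k l : ℕ} (h : ∀ w ∈ C, k ≤ omult 𝒜 w)
    (h' : ∀ w ∈ D, l ≤ omult 𝒜 w) :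
    k * C.ncard + l * D.ncard + 𝒜.card ≤ ∑ A ∈ 𝒜, Nat.card A := by
  classical
  have := Fintype.ofFinite W
  have h1 : ∑ A ∈ 𝒜, Nat.card A = ∑ w, omult 𝒜 w := by
    rw [← sum_omult]
    refine Finset.sum_congr rfl fun A _ => ?_
    rw [Nat.card_eq_fintype_card, Fintype.card_subtype]
  have h2 : omult 𝒜 0 = 𝒜.card := by simp [omult]
  have h3 : k * C.ncard ≤ ∑ w ∈ C.toFinset, omult 𝒜 w := by
    rw [Set.ncard_eq_toFinset_card', mul_comm, ← smul_eq_mul]
    exact Finset.card_nsmul_le_sum _ _ _ (by simpa using h)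
  have h4 : l * D.ncard ≤ ∑ w ∈ D.toFinset, omult 𝒜 w := by
    rw [Set.ncard_eq_toFinset_card', mul_comm, ← smul_eq_mul]
    exact Finset.card_nsmul_le_sum _ _ _ (by simpa using h')
  have h5 : ∑ w ∈ insert 0 (C.toFinset ∪ D.toFinset), omult 𝒜 w ≤ ∑ w, omult 𝒜 w :=
    Finset.sum_le_sum_of_subset (Finset.subset_univ _)
  rw [Finset.sum_insert (by simp [h0, h0']), Finset.sum_union (by simpa using hd)] at h5
  omega

variable [FiniteDimensional F W] [Finite F] (h : Min4 Q)
include h

theorem Min4.idx {u v : W} (hu : Q u = 0) (hv : Q v = 0) (huv : polar Q u v = 0) (hu0 : u ≠ 0) :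
    v ∈ Submodule.span F {u} := by
  by_contra hm
  have hU : ∀ w ∈ Submodule.span F ({u, v} : Set W), Q w = 0 := by
    intro w hw
    obtain ⟨a, b, rfl⟩ := Submodule.mem_span_pair.1 hw
    simp only [oexp, hu, hv, huv]; ring
  have hli : LinearIndependent F ![u, v] :=
    (LinearIndependent.pair_iff' hu0).2 fun c e => hm (o_mem_span_one.2 ⟨c, e.symm⟩)
  have hd : finrank F (Submodule.span F ({u, v} : Set W)) = 2 := by
    have := finrank_span_eq_card hli
    rwa [Matrix.range_cons, Matrix.range_cons, Matrix.range_empty, Set.union_empty,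
      Set.singleton_union, Fintype.card_fin] at this
  have h1 := ozeros_ge_of_singular h.nd hU
  have h2 := h.zeros
  rw [hd, h.dim] at h1
  have hq : 1 < Nat.card F := Finite.one_lt_card
  generalize Nat.card F = q at *
  norm_num at h1
  nlinarith [Nat.pow_lt_pow_right hq (show 2 < 3 by omega)]

theorem Min4.not_exc : ¬ OExc Q := by
  rintro ⟨-, -, u, v, hli, hu, hv, huv⟩
  have hu0 : u ≠ 0 := hli.ne_zero 0
  obtain ⟨c, hc⟩ := o_mem_span_one.1 (h.idx hu hv huv hu0)
  exact (LinearIndependent.pair_iff' hu0).1 hli c hc.symm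

/-- The complement of a hyperbolic pair is anisotropic. -/
theorem Min4.aniso {u u' y : W} (hu : Q u = 0) (huu' : polar Q u u' = 1) (hy : Q y = 0)
    (h1 : polar Q u y = 0) (h2 : polar Q u' y = 0) : y = 0 := by
  obtain ⟨c, rfl⟩ := o_mem_span_one.1 (h.idx hu hy h1
    (o_ne_zero_of_polar_left (by rw [huu']; exact one_ne_zero)))
  rw [o_polar_smul_right, polar_comm, huu', mul_one] at h2
  simp [h2]

omit [Finite F] in
theorem Min4.partner {a u : W} (ha : Q a ≠ 0) (hu : Q u = 0) (hu0 : u ≠ 0)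
    (hau : polar Q a u = 0) : ∃ u', Q u' = 0 ∧ polar Q u u' = 1 ∧ polar Q a u' = 0 :=
  o_exists_partner_perp_one h.nd hu (notMem_span_of_ns ha hu hu0) hau

theorem Min4.hyp_perp {a : W} (ha : Q a ≠ 0) :
    ∃ u u', Q u = 0 ∧ Q u' = 0 ∧ polar Q u u' = 1 ∧ polar Q a u = 0 ∧ polar Q a u' = 0 := by
  have h2 : finrank F (Submodule.span F ({a} : Set W)) ≤ 1 := by
    simpa using finrank_span_le_card (R := F) ({a} : Set W)
  have h3 := finrank_operp h.nd (Submodule.span F ({a} : Set W))
  have h4 := h.dim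
  obtain ⟨⟨u, hu⟩, hu0, hu'⟩ := quad_exists_singular
    (Q.restrict (operp Q (Submodule.span F ({a} : Set W)))) (by omega)
  rw [mem_operp_span] at hu
  obtain ⟨u', h5, h6, h7⟩ := h.partner (u := u) ha hu' (by simpa using hu0) (hu a (by simp))
  exact ⟨u, u', hu', h5, h6, hu a (by simp), h7⟩

/-- The complement of a hyperbolic pair takes every non-zero value. -/
theorem Min4.rep {u u' : W} (hu : Q u = 0) (huu' : polar Q u u' = 1) (c : F) :
    ∃ y, polar Q u y = 0 ∧ polar Q u' y = 0 ∧ Q y = c := by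
  have h2 := o_finrank_span_pair_le (F := F) u u'
  have h3 := finrank_operp h.nd (Submodule.span F ({u, u'} : Set W))
  have h4 := h.dim
  obtain ⟨⟨⟨y, hy⟩, t⟩, h0, h1⟩ := quad_exists_singular
    ((Q.restrict (operp Q (Submodule.span F ({u, u'} : Set W)))).prod
      (-c • QuadraticMap.sq (R := F) (A := F))) (by rw [finrank_prod, finrank_self]; omega)
  rw [mem_operp_span] at hy
  have h5 : Q y = c * t ^ 2 := by
    simp only [prod_apply, QuadraticMap.restrict_apply, _root_.smul_apply, sq_apply,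
      smul_eq_mul] at h1
    linear_combination h1
  by_cases ht : t = 0
  · subst ht
    have := h.aniso hu huu' (by simpa using h5) (hy u (by simp)) (hy u' (by simp))
    subst this
    exact absurd rfl h0
  · refine ⟨t⁻¹ • y, by simp [hy u (by simp)], by simp [hy u' (by simp)], ?_⟩
    rw [o_qsmul, h5]; field_simp

/-- Transitivity of `EO Q` on the non-zero vectors of a given norm. -/
theorem Min4.exists_map {x y : W} (e : Q x = Q y) (hx0 : x ≠ 0) (hy0 : y ≠ 0) :
    ∃ g ∈ EO Q, g.1 x = y := by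
  refine EO_exists_map_of_rep h.nd h.not_exc (by rw [h.dim]; omega) e hx0 hy0 fun c _ => ?_
  by_cases hx : Q x = 0
  · obtain ⟨x', -, h1⟩ := o_exists_partner h.nd hx hx0
    obtain ⟨v, h2, -, h3⟩ := h.rep hx h1 c
    exact ⟨v, h2, h3⟩
  · obtain ⟨u, u', hu, hu', huu', h1, h2⟩ := h.hyp_perp hx
    exact ⟨u + c • u', by simp [h1, h2], o_norm_hyp' hu hu' huu' c⟩

/-- A member that is not contained in a line contains a non-singular vector. -/
theorem Min4.exists_ns {A : AddSubgroup W} (hA : OFat F A) : ∃ b ∈ A, Q b ≠ 0 := by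
  by_contra! H
  obtain ⟨a, ha, ha0⟩ := hA.exists_ne_zero
  obtain ⟨w, hw, hwa⟩ := hA a
  exact hwa (h.idx (H a ha) (H w hw)
    (by simp [polar, H a ha, H w hw, H _ (A.add_mem ha hw)]) ha0)

/-- An additive subgroup invariant under the Eichler transformations with vectors in `a^⊥` lies
in `⟨a⟩` or contains `a^⊥`. -/
theorem Min4.perp_le (hq : 2 < Nat.card F) {A : AddSubgroup W} {a w : W} (ha : Q a ≠ 0)
    (hA : ∀ u y, Q u = 0 → polar Q u y = 0 → polar Q a u = 0 → polar Q a y = 0 →
      ∀ v ∈ A, (eich Q u y).1 v ∈ A) (hw : w ∈ A) (hwa : w ∉ Submodule.span F {a}) {z : W}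
    (hz : polar Q a z = 0) : z ∈ A := by
  have hQ := h.nd
  obtain ⟨s, s', hs, hs', hss', h1, h2⟩ := h.hyp_perp ha
  have e0 : ∀ w ∈ A, ∀ u y, Q u = 0 → polar Q a u = 0 → polar Q a y = 0 → polar Q u y = 0 →
      polar Q w u • y - (polar Q w y + Q y * polar Q w u) • u ∈ A := fun w hw u y hu hau hy hy' => by
    have := A.sub_mem (hA u y hu hy' hau hy w hw) hw
    rwa [eich_app hu hy', add_sub_assoc, add_sub_cancel_left] at this
  have key : ∀ w ∈ A, w ∉ Submodule.span F {a} → ∃ u, Q u = 0 ∧ polar Q a u = 0 ∧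
      polar Q w u ≠ 0 ∧ (∀ c : F, c • u ∈ A) ∧
      ∀ y, polar Q a y = 0 → polar Q u y = 0 → y ∈ A := by
    intro w hw hwa
    obtain ⟨u, hu, hau, hwu⟩ := o_exists_singular_perp_ne hQ hs hs' hss' h1 h2 hwa
    have e1 := fun y => e0 w hw u y hu hau
    obtain ⟨u', hu', huu', hau'⟩ := h.partner ha hu (o_ne_zero_of_polar_right hwu) hau
    have hua : polar Q u a = 0 := by rwa [polar_comm]
    have hua' : polar Q u' a = 0 := by rwa [polar_comm]
    have hu'u : polar Q u' u = 1 := by rwa [polar_comm]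
    have e2 : ∀ c : F, c • u ∈ A := fun c => by
      by_cases h2 : (2 : F) = 0
      · have haa : polar Q a a = 0 := by rw [o_polar_self, h2, zero_mul]
        obtain ⟨r, hr0, hr1⟩ : ∃ r : F, r ≠ 0 ∧ r ≠ 1 := by
          by_contra! H
          have : Nat.card F ≤ Nat.card Bool := by
            classical
            refine Nat.card_le_card_of_injective (fun x : F => decide (x = 0)) fun x y e => ?_
            simp only [decide_eq_decide] at e
            by_cases hx : x = 0
            · rw [hx, e.1 hx]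
            · rw [H x hx, H y (e.not.1 hx)]
          simp only [Nat.card_eq_fintype_card, Fintype.card_bool] at this
          omega
        obtain ⟨t, ht⟩ : ∃ t : F, t * polar Q w a + t ^ 2 * Q a * polar Q w u ≠ 0 := by
          by_contra! H
          have h3 := H 1
          have h4 := H r
          have : r * (r - 1) * Q a * polar Q w u = 0 := by linear_combination h4 - r * h3
          simp [hr0, sub_eq_zero, hr1, ha, hwu] at this
        set μ := t * polar Q w a + t ^ 2 * Q a * polar Q w u with hμ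
        have w1 := e1 (t • a) (by simp [haa]) (by simp [hua])
        have w2 : ∀ γ ρ : F, (γ * ρ) • a - (ρ ^ 2 * Q a * γ) • u ∈ A := fun γ ρ => by
          obtain ⟨τ, hτ⟩ := quad_isSquare_of_two_eq_zero h2 (γ / (Q a * μ))
          have w3 := e0 _ w1 u' (τ • a) hu' hau' (by simp [haa]) (by simp [hua'])
          have w4 := e0 _ w3 u (ρ • a) hu hau (by simp [haa]) (by simp [hua])
          have e : τ ^ 2 * Q a * μ = γ := by
            rw [pow_two, ← hτ]; field_simp
          convert w4 using 1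
          simp only [oexp, haa, hau, hau', huu', hu'u, hua, hua', ← hμ]
          rw [← e, hμ]
          module
        have := A.sub_mem (w2 (c / (Q a * (r ^ 2 - r)) * r) 1) (w2 (c / (Q a * (r ^ 2 - r))) r)
        convert this using 1
        have h3 : r ^ 2 - r ≠ 0 := by
          rw [pow_two, ← mul_sub_one]; exact mul_ne_zero hr0 (sub_ne_zero.2 hr1)
        match_scalars <;> field_simp <;> ring
      · obtain ⟨d, hd1, hd2, hd⟩ : ∃ d, polar Q a d = 0 ∧ polar Q u d = 0 ∧ Q d ≠ 0 := by
          have h3 : finrank F (Submodule.span F ({a, u, u'} : Set W)) ≤ 3 := by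
            classical
            refine (finrank_span_le_card ({a, u, u'} : Set W)).trans ?_
            rw [Set.toFinset_insert, Set.toFinset_insert, Set.toFinset_singleton]
            exact Finset.card_le_three
          have h4 := finrank_operp hQ (Submodule.span F ({a, u, u'} : Set W))
          have h5 := h.dim
          obtain ⟨⟨d, hd⟩, hd0⟩ := (finrank_pos_iff_exists_ne_zero (R := F)
            (M := operp Q (Submodule.span F ({a, u, u'} : Set W)))).1 (by omega)
          rw [mem_operp_span] at hd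
          exact ⟨d, hd a (by simp), hd u (by simp), fun e => hd0 (Subtype.ext
            (h.aniso hu huu' e (hd u (by simp)) (hd u' (by simp))))⟩
        have h5 := e1 d hd1 hd2
        set t := -c / (polar Q w u * (2 * Q d))
        have := A.sub_mem (hA u (t • d) hu (by simp [hd2]) hau (by simp [hd1]) _ h5) h5
        rw [eich_app_of_polar_left hu (by simp [hd2])
          (by simp [hu, polar_comm Q d u, hd2]), sub_sub_cancel_left, ← neg_smul] at this
        convert this using 2
        simp only [oexp, hd2, t]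
        field_simp
        ring
    refine ⟨u, hu, hau, hwu, e2, fun y hy hy' => ?_⟩
    have := e1 ((polar Q w u)⁻¹ • y) (by simp [hy]) (by simp [hy'])
    rwa [smul_smul, mul_inv_cancel₀ hwu, one_smul, sub_eq_add_neg, ← neg_smul,
      A.add_mem_cancel_right (e2 _)] at this
  obtain ⟨u, hu, hau, hwu, h3, h4⟩ := key w hw hwa
  obtain ⟨u', -, hau', huu', h5, -⟩ := key u (by simpa using h3 1)
    (notMem_span_of_ns ha hu (o_ne_zero_of_polar_right hwu))
  have := A.add_mem (h4 (z - (polar Q u z / polar Q u u') • u') (by simp [hz, hau'])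
    (by simp only [oexp]; field_simp; ring)) (h5 (polar Q u z / polar Q u u'))
  rwa [sub_add_cancel] at this

variable {𝒜 : Finset (AddSubgroup W)} (h𝒜 : OFam Q 𝒜)
include h𝒜

theorem Min4.omult_le_of_eq {a b : W} (e : Q a = Q b) (ha : a ≠ 0) (hb : b ≠ 0) :
    omult 𝒜 a ≤ omult 𝒜 b := by
  obtain ⟨g, hg, rfl⟩ := h.exists_map e ha hb
  exact h𝒜.omult_le hg a

theorem Min4.omult_le_of_cls (hs : OSc Q 𝒜) {a b : W} (ha : a ≠ 0) (hb : b ∈ ocls Q a) :
    omult 𝒜 a ≤ omult 𝒜 b := by
  obtain ⟨hb, t, ht, e⟩ := hb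
  obtain ⟨g, hg⟩ := hs t ht
  refine (omult_le_of_map (fun A => t • g • A)
    ((MulAction.injective₀ ht).comp (MulAction.injective g)) hg (b := t • g.1 a) fun A hA =>
      AddSubgroup.smul_mem_pointwise_smul _ _ _ (o_mem_smul_iff.2 hA)).trans ?_
  exact h.omult_le_of_eq h𝒜 (by rw [o_qsmul, OG.map_app, e])
    (smul_ne_zero ht (OG.app_ne_zero g ha)) hb

variable [Finite W]

theorem Min4.sum_ge_singular {a : W} (ha : Q a = 0) (ha0 : a ≠ 0) {k : ℕ} (hk : k ≤ omult 𝒜 a) :
    k * (ozeros Q - 1) + 𝒜.card ≤ ∑ A ∈ 𝒜, Nat.card A := by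
  rw [← ncard_ocls_singular ha]
  exact mul_ncard_add_card_le 𝒜 (ocls_zero_notMem a) fun w ⟨hw, t, _, e⟩ =>
    hk.trans (h.omult_le_of_eq h𝒜 (by rw [e, ha, mul_zero]) ha0 hw)

theorem Min4.sum_ge_cls (hs : OSc Q 𝒜) {a : W} (ha0 : a ≠ 0) {k : ℕ} (hk : k ≤ omult 𝒜 a) :
    k * (ocls Q a).ncard + 𝒜.card ≤ ∑ A ∈ 𝒜, Nat.card A :=
  mul_ncard_add_card_le 𝒜 (ocls_zero_notMem a) fun _ hw =>
    hk.trans (h.omult_le_of_cls h𝒜 hs ha0 hw)

/-- At least `p` members pass through each non-singular vector of a proper member that is not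
contained in a line. -/
theorem Min4.char_le_omult (hq : 2 < Nat.card F) {p : ℕ} [CharP F p] [Fact p.Prime]
    {A : AddSubgroup W} (hA : A ∈ 𝒜) (htop : A ≠ ⊤) (hfat : OFat F A) {b : W} (hb : b ∈ A)
    (hb0 : Q b ≠ 0) : p ≤ omult 𝒜 b := by
  classical
  by_contra! hlt
  have key : ∀ b ∈ A, Q b ≠ 0 → omult 𝒜 b < p → ∀ z, polar Q b z = 0 → z ∈ A := by
    intro b hb hb0 hlt z hz
    obtain ⟨w, hw, hwb⟩ := hfat b
    refine h.perp_le hq hb0 (fun u y hu huy hbu hby v hv => ?_) hw hwb hz
    obtain ⟨D, h1, h2, h3⟩ := card_le_mul_of_eich hu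
      (operp Q (Submodule.span F {b, u})).toAddSubgroup
      (fun y hy => mem_operp_span.1 hy u (by simp)) A (𝒜.filter (b ∈ ·)) fun y hy => by
        refine Finset.mem_filter.2 ⟨h𝒜 _ (eich_mem_EO u y) A hA, ?_⟩
        rw [← eich_app_of_polar hbu (mem_operp_span.1 hy b (by simp))]
        exact o_mem_smul_iff.2 hb
    have hy : y ∈ (operp Q (Submodule.span F {b, u})).toAddSubgroup :=
      mem_operp_span.2 (by simp [hby, huy])
    by_cases hyD : y ∈ D
    · rw [← (h2 y hy).1 hyD]
      exact o_mem_smul_iff.2 hv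
    · have := (o_char_mul_card_le (F := F) h1 hy hyD).trans h3
      exact absurd (Nat.le_of_mul_le_mul_right this Nat.card_pos) (not_le.2 hlt)
  obtain ⟨u, u', hu, hu', huu', h1, h2⟩ := h.hyp_perp hb0
  have h3 : polar Q (u + Q b • u') u' = 1 := by simp [huu', hu']
  have h5 := o_norm_hyp' hu hu' huu' (Q b)
  have h4 := key _ (key b hb hb0 hlt (u + Q b • u') (by simp [h1, h2])) (h5.symm ▸ hb0)
    ((h.omult_le_of_eq h𝒜 h5 (o_ne_zero_of_norm (h5.symm ▸ hb0)) (o_ne_zero_of_norm hb0)).trans_lt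
      hlt)
  refine htop (eq_top_iff.2 fun v _ => ?_)
  have := A.add_mem (h4 (v - polar Q (u + Q b • u') v • u') (by
    rw [polar_sub_right, o_polar_smul_right, h3]; ring))
    (key b hb hb0 hlt (polar Q (u + Q b • u') v • u') (by simp [h2]))
  rwa [sub_add_cancel] at this

end Cfsg.Agent.Cl.M4
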