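import Mathlib
import Cfsg.Agent.Cl.OrthMinU4A

/-!
# Minimal index of `Ω₆⁻(q)`: families with a large member, and fixed points of the radical
-/

set_option autoImplicit false

namespace Cfsg.Agent.Cl.M4

open QuadraticMap Module Pointwise

variable {F W : Type*} [Field F] [AddCommGroup W] [Module F W] {Q : QuadraticForm F W}

theorem eq_one_of_card_two [Finite F] (hq : Nat.card F = 2) (t : F) (ht : t ≠ 0) : t = 1 := by
  have := Fintype.ofFinite F
  have := FiniteField.pow_card_sub_one_eq_one t ht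
  rwa [← Nat.card_eq_fintype_card, hq, pow_one] at this

theorem two_eq_zero_of_card_two [Finite F] (hq : Nat.card F = 2) : (2 : F) = 0 := by
  by_contra h
  have := eq_one_of_card_two hq 2 h
  exact one_ne_zero (show (1 : F) = 0 by linear_combination this)

theorem arith_two {n c s a k l : ℕ} (h1 : n * c = 10 * k) (h2 : n * s = 5 * l)
    (h3 : c + s + 1 = a) (h4 : n * a < 27) (h5 : a = 4 ∨ a = 8) (h6 : 0 < n) (h7 : 0 < c) :
    s = 1 ∧ k = 1 := by
  have h8 : n ≤ 6 := by rcases h5 with rfl | rfl <;> omega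
  interval_cases n <;> omega

theorem arith_odd {q C s : ℕ} (hq : 5 ≤ q) (h : (q - 1) * (q ^ 3 + q) ≤ 2 * C) (h2 : 3 * C ≤ s) :
    q ^ 4 + q ^ 3 + q + 1 ≤ s := by
  obtain ⟨r, rfl⟩ := Nat.exists_eq_add_of_le' hq
  rw [show r + 5 - 1 = r + 4 from rfl] at h
  nlinarith [Nat.zero_le (r ^ 4), Nat.zero_le (r ^ 3), Nat.zero_le (r ^ 2)]

theorem arith_even {q C s : ℕ} (hq : 4 ≤ q) (h : (q - 1) * (q ^ 3 + q) ≤ C) (h2 : 2 * C ≤ s) :
    q ^ 4 + q ^ 3 + q + 1 ≤ s := by
  obtain ⟨r, rfl⟩ := Nat.exists_eq_add_of_le' hq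
  rw [show r + 4 - 1 = r + 3 from rfl] at h
  nlinarith [Nat.zero_le (r ^ 4), Nat.zero_le (r ^ 3), Nat.zero_le (r ^ 2)]

theorem arith_fix {q z n : ℕ} (h7 : 1 * z + n ≤ n * (q + 2) ^ 1)
    (h8 : z + 1 + (q + 2) ^ 2 = (q + 2) ^ 3 + (q + 2)) : (q + 2) ^ (1 + 1) ≤ (q + 1) * n + 1 := by
  change (q + 2) ^ 2 ≤ _
  nlinarith [Nat.zero_le (q ^ 3), Nat.zero_le (q ^ 2)]

variable [FiniteDimensional F W] [Finite F] [Finite W] (h : Min4 Q)
include h

section Fam

variable {𝒜 : Finset (AddSubgroup W)} (h𝒜 : OFam Q 𝒜)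
include h𝒜

theorem Min4.fat_two (hq : Nat.card F = 2) {A : AddSubgroup W} (hA : A ∈ 𝒜) (htop : A ≠ ⊤)
    (hfat : OFat F A) : 27 ≤ ∑ A ∈ 𝒜, Nat.card A := by
  classical
  have := Fintype.ofFinite W
  by_contra! hlt
  have F1 := eq_one_of_card_two hq
  have F2 := two_eq_zero_of_card_two hq
  let T₁ : Finset W := Finset.univ.filter (Q · ≠ 0)
  let T₀ : Finset W := Finset.univ.filter fun v => Q v = 0 ∧ v ≠ 0
  have t1 : T₁.card = 10 := by
    have := h.cnt 1 one_ne_zero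
    rw [hq, ocnt, Nat.card_eq_fintype_card, Fintype.card_subtype] at this
    refine Eq.trans (congrArg _ (Finset.filter_congr fun v _ => ?_)) this
    exact ⟨F1 _, fun e => by rw [e]; exact one_ne_zero⟩
  have t0 : T₀.card = 5 := by
    have h1 := h.zeros
    rw [hq, ozeros, Nat.card_eq_fintype_card, Fintype.card_subtype] at h1
    have h2 : (Finset.univ.filter fun v => Q v = 0) = insert 0 T₀ := by
      ext v
      by_cases hv : v = 0 <;> simp [T₀, hv]
    rw [h2, Finset.card_insert_of_notMem (by simp [T₀])] at h1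
    omega
  let c : AddSubgroup W → ℕ := fun B => (T₁.filter (· ∈ B)).card
  let s : AddSubgroup W → ℕ := fun B => (T₀.filter (· ∈ B)).card
  have hcs : ∀ B, c B + s B + 1 = Nat.card B := fun B => by
    rw [Nat.card_eq_fintype_card, Fintype.card_subtype, ← Finset.card_union_of_disjoint
      (Finset.disjoint_left.2 fun v h1 h2 => by simp [T₁, T₀] at h1 h2; exact h1.1 h2.1.1),
      ← Finset.card_insert_of_notMem (a := 0) (by simp [T₁, T₀])]
    congr 1
    ext v
    by_cases hv : v = 0 <;> by_cases hv' : Q v = 0 <;> simp [T₁, T₀, hv, hv']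
  have hc : ∀ (g : OG Q) B, c (g • B) = c B := fun g B => by
    symm
    refine Finset.card_bij (fun v _ => g.1 v) (fun v hv => ?_) (fun _ _ _ _ e => g.1.injective e)
      fun v hv => ?_
    · simpa [T₁, OG.map_app, o_mem_smul_iff] using hv
    · obtain ⟨v, rfl⟩ := g.1.surjective v
      exact ⟨v, by simpa [T₁, OG.map_app, o_mem_smul_iff] using hv, rfl⟩
  let ℬ := 𝒜.filter fun B => c B = c A ∧ Nat.card B = Nat.card A
  have hℬ : OFam Q ℬ := h𝒜.filter _ fun g B hB => by rwa [hc, o_card_smul]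
  have hAℬ : A ∈ ℬ := by simp [ℬ, hA]
  obtain ⟨b, hb, hb0⟩ := h.exists_ns hfat
  obtain ⟨u₀, hu₀, hu₀'⟩ := quad_exists_singular Q (by rw [h.dim]; omega)
  have e1 : ℬ.card * c A = 10 * omult ℬ b := by
    have := sum_omult ℬ T₁
    rw [Finset.sum_congr rfl fun B hB => (Finset.mem_filter.1 hB).2.1, Finset.sum_const,
      Finset.sum_congr rfl (g := fun _ => omult ℬ b) fun v hv => ?_, Finset.sum_const, t1] at this
    · exact this
    · have hv' : Q v ≠ 0 := by simpa [T₁] using hv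
      have e : Q v = Q b := (F1 _ hv').trans (F1 _ hb0).symm
      exact le_antisymm (h.omult_le_of_eq hℬ e (o_ne_zero_of_norm hv') (o_ne_zero_of_norm hb0))
        (h.omult_le_of_eq hℬ e.symm (o_ne_zero_of_norm hb0) (o_ne_zero_of_norm hv'))
  have e0 : ℬ.card * s A = 5 * omult ℬ u₀ := by
    have := sum_omult ℬ T₀
    rw [Finset.sum_congr rfl (g := fun _ => s A) fun B hB => ?_, Finset.sum_const,
      Finset.sum_congr rfl (g := fun _ => omult ℬ u₀) fun v hv => ?_, Finset.sum_const, t0] at this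
    · exact this
    · have hv' : Q v = 0 ∧ v ≠ 0 := by simpa [T₀] using hv
      exact le_antisymm (h.omult_le_of_eq hℬ (hv'.1.trans hu₀'.symm) hv'.2 hu₀)
        (h.omult_le_of_eq hℬ (hu₀'.trans hv'.1.symm) hu₀ hv'.2)
    · obtain ⟨-, h1, h2⟩ := Finset.mem_filter.1 hB
      have h3 := hcs B
      have h4 := hcs A
      change s B = s A
      omega
  have e2 : ℬ.card * Nat.card A < 27 := by
    refine lt_of_le_of_lt ?_ hlt
    refine le_trans ?_ (Finset.sum_le_sum_of_subset (Finset.filter_subset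
      (fun B => c B = c A ∧ Nat.card B = Nat.card A) 𝒜))
    rw [Finset.sum_congr rfl fun B hB => (Finset.mem_filter.1 hB).2.2, Finset.sum_const]
    rfl
  have e3 : Nat.card A = 4 ∨ Nat.card A = 8 := by
    have h1 := AddSubgroup.card_addSubgroup_dvd_card A
    have h2 : Nat.card A ≠ Nat.card W := fun e => htop (AddSubgroup.card_eq_iff_eq_top A |>.1 e)
    rw [Module.natCard_eq_pow_finrank (K := F) (V := W), hq, h.dim] at h1 h2
    obtain ⟨w, hw, hwb⟩ := hfat b
    have h3 : 3 ≤ Nat.card A := by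
      have h4 : ({0, b, w} : Finset W).card = 3 := Finset.card_eq_three.2 ⟨_, _, _,
        (o_ne_zero_of_norm hb0).symm, fun e => hwb (by simp [← e]),
        fun e => hwb (by simp [← e]), rfl⟩
      rw [← h4, Nat.card_eq_fintype_card, Fintype.card_subtype]
      exact Finset.card_le_card fun v hv => by
        simp only [Finset.mem_insert, Finset.mem_singleton] at hv
        rcases hv with rfl | rfl | rfl <;> simp [hb, hw]
    have h4 := Nat.le_of_dvd (by norm_num) h1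
    generalize Nat.card A = n at *
    interval_cases n <;> simp_all
  obtain ⟨e4, e5⟩ := arith_two e1 e0 (hcs A) e2 e3 (Finset.card_pos.2 ⟨A, hAℬ⟩)
    (Finset.card_pos.2 ⟨b, by simp [T₁, hb, hb0]⟩)
  obtain ⟨u, hu⟩ := Finset.card_eq_one.1 e4
  have hu' : ∀ v, (Q v = 0 ∧ v ≠ 0) ∧ v ∈ A ↔ v = u := fun v => by
    simpa [T₀] using Finset.ext_iff.1 hu v
  obtain ⟨⟨u1, u2⟩, u3⟩ := (hu' u).2 rfl
  have hbu : polar Q b u = 0 := by
    by_contra h1
    have h2 : Q (b + u) = 0 := by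
      rw [o_qadd, u1, F1 _ h1, F1 _ hb0]; linear_combination F2
    have := (hu' (b + u)).1 ⟨⟨h2, fun e => hb0 (by
      rw [eq_neg_of_add_eq_zero_left e, o_qneg, u1])⟩, A.add_mem hb u3⟩
    exact o_ne_zero_of_norm hb0 (by simpa using this)
  obtain ⟨u', v1, v2, v3⟩ := h.partner hb0 u1 u2 hbu
  have v4 : polar Q u' b = 0 := by rwa [polar_comm]
  obtain ⟨B, hB⟩ := Finset.card_eq_one.1 e5
  have hB' : ∀ B' ∈ ℬ, b ∈ B' → B' = B := fun B' h1 h2 =>
    Finset.mem_singleton.1 (hB ▸ Finset.mem_filter.2 ⟨h1, h2⟩)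
  have e6 : eich Q u' b • A = A := (hB' _ (hℬ _ (eich_mem_EO u' b) A hAℬ) (by
    have := eich_app_of_polar (Q := Q) (u := u') (v := b) v3 (by rw [o_polar_self, F2, zero_mul])
    exact o_mem_smul.2 ⟨b, hb, this⟩)).trans (hB' A hAℬ hb).symm
  have e7 : (eich Q u' b).1 u ∈ A := by rw [← e6]; exact o_mem_smul_iff.2 u3
  rw [eich_app v1 v4, v2, polar_comm Q u b, hbu, F1 _ hb0] at e7
  have e8 : u' ∈ A := by
    have := A.sub_mem (A.add_mem u3 hb) e7
    simpa using this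
  rw [(hu' u').1 ⟨⟨v1, o_ne_zero_of_polar_right (by rw [v2]; exact one_ne_zero)⟩, e8⟩,
    o_polar_self, u1, mul_zero] at v2
  exact zero_ne_one v2

theorem Min4.fat_three (hs : OSc Q 𝒜) (hq : Nat.card F = 3) {A : AddSubgroup W} (hA : A ∈ 𝒜)
    (htop : A ≠ ⊤) (hfat : OFat F A) : 112 ≤ ∑ A ∈ 𝒜, Nat.card A := by
  classical
  have := Fintype.ofFinite F
  have : Fact (Nat.Prime 3) := ⟨Nat.prime_three⟩
  have h3 : ((3 : ℕ) : F) = 0 := by
    rw [← hq, Nat.card_eq_fintype_card, FiniteField.cast_card_eq_zero]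
  have : CharP F 3 := (CharP.charP_iff_prime_eq_zero Nat.prime_three).2 h3
  obtain ⟨b, hb, hb0⟩ := h.exists_ns hfat
  have hK := fun b hb hb0 => h.char_le_omult h𝒜 (by omega) (p := 3) hA htop hfat (b := b) hb hb0
  obtain ⟨a, ha, ha0, hab⟩ : ∃ a ∈ A, a ≠ 0 ∧ Q a ≠ Q b := by
    by_contra! H
    obtain ⟨w, hw, hwb⟩ := hfat b
    have h1 := H w hw fun e => hwb (by simp [e])
    have h2 := H (w + b) (A.add_mem hw hb) fun e => hwb (by simp [eq_neg_of_add_eq_zero_left e])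
    have h4 := H (w - b) (A.sub_mem hw hb) fun e => hwb (by simp [sub_eq_zero.1 e])
    simp only [oexp] at h2 h4
    push_cast at h3
    exact hb0 (by linear_combination 2 * h1 - h2 - h4 + Q b * h3)
  have hsq : ∀ t : F, t ≠ 0 → t ^ 2 = 1 := fun t ht => by
    have := FiniteField.pow_card_sub_one_eq_one t ht
    rwa [← Nat.card_eq_fintype_card, hq] at this
  have hdis : Disjoint (ocls Q b) (ocls Q a) :=
    Set.disjoint_left.2 fun w ⟨_, t, ht, e⟩ ⟨_, t', ht', e'⟩ => hab (by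
      rw [hsq t ht, one_mul] at e; rw [hsq t' ht', one_mul] at e'; rw [← e, e'])
  have hC : ∀ b, Q b ≠ 0 → (ocls Q b).ncard = 30 := fun b hb => by
    rw [ncard_ocls_of_card_le_three hq.le hb, h.cnt _ hb, hq]; rfl
  have h1 := fun l (hl : l ≤ omult 𝒜 a) => two_ncard_le 𝒜 (ocls_zero_notMem b)
    (ocls_zero_notMem a) hdis (k := 3) (l := l)
    (fun w hw => (hK b hb hb0).trans (h.omult_le_of_cls h𝒜 hs (o_ne_zero_of_norm hb0) hw))
    fun w hw => hl.trans (h.omult_le_of_cls h𝒜 hs ha0 hw)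
  rw [hC b hb0] at h1
  by_cases h2 : Q a = 0
  · have h4 := h1 1 (omult_pos hA ha)
    have h5 := h.zeros
    have h6 : omult 𝒜 b ≤ 𝒜.card := Finset.card_filter_le _ _
    have h7 := hK b hb hb0
    rw [ncard_ocls_singular h2] at h4
    rw [hq] at h5
    omega
  · have h4 := h1 3 (hK a ha h2)
    rw [hC a h2] at h4
    omega

/-- A family with a proper member that is not contained in a line is large. -/
theorem Min4.fat (hs : OSc Q 𝒜) {A : AddSubgroup W} (hA : A ∈ 𝒜) (htop : A ≠ ⊤)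
    (hfat : OFat F A) :
    Nat.card F ^ 4 + Nat.card F ^ 3 + Nat.card F + 1 ≤ ∑ A ∈ 𝒜, Nat.card A := by
  have hq1 : 1 < Nat.card F := Finite.one_lt_card
  by_cases h2 : Nat.card F = 2
  · rw [h2]; exact h.fat_two h𝒜 h2 hA htop hfat
  by_cases h3 : Nat.card F = 3
  · rw [h3]; exact h.fat_three h𝒜 hs h3 hA htop hfat
  have := Fintype.ofFinite F
  obtain ⟨p, hp⟩ := CharP.exists F
  have hpp := CharP.char_is_prime F p
  have : Fact p.Prime := ⟨hpp⟩
  obtain ⟨b, hb, hb0⟩ := h.exists_ns hfat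
  have h4 := h.sum_ge_cls h𝒜 hs (o_ne_zero_of_norm hb0)
    (h.char_le_omult h𝒜 (by omega) (p := p) hA htop hfat hb hb0)
  obtain ⟨h5, h6⟩ := mul_ocnt_le hb0
  rw [h.cnt _ hb0] at h5 h6
  by_cases h7 : (2 : F) = 0
  · exact arith_even (by omega) (h6 h7)
      ((Nat.mul_le_mul_right _ hpp.two_le).trans ((Nat.le_add_right _ _).trans h4))
  · have h8 := o_odd_card_of_two_ne_zero h7
    rw [← Nat.card_eq_fintype_card, Nat.odd_iff] at h8
    have h9 : p ≠ 2 := by
      rintro rfl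
      exact h7 (by exact_mod_cast CharP.cast_eq_zero F 2)
    have := hpp.two_le
    exact arith_odd (by omega) h5
      ((Nat.mul_le_mul_right _ (show 3 ≤ p by omega)).trans ((Nat.le_add_right _ _).trans h4))

end Fam

variable {X : Type*} [MulAction (EO (oH Q)) X]

/-- If some point is fixed by the whole Eichler group, there are at least as many points as
singular points of the space. -/
theorem Min4.case_fix [Finite X] (hx : ∀ x : X, ∃ g : EO (oH Q), g • x ≠ x) {x₀ : X}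
    (h₀ : oS Q x₀ = ⊤) : ozeros (oH Q) - 1 ≤ (Nat.card F - 1) * Nat.card X := by
  classical
  have := Fintype.ofFinite X
  have hQ := h.nd
  have hP := o_prod_nondeg (ohyp_nondeg (F := F)) hQ
  let U : X → AddSubgroup ((F × F) × W) := fun x =>
    { carrier := {v | oH Q v = 0 ∧ ∀ y, eE (oH Q) v y • x = x}
      zero_mem' := ⟨map_zero _, fun y => by
        rw [show eE (oH Q) 0 y = 1 from Subtype.ext (eich_zero_left y), one_smul]⟩
      add_mem' := oU_add_mem hP (hx x)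
      neg_mem' := fun {a} ha => ⟨by rw [o_qneg, ha.1], by
        rw [← neg_one_smul F a]; exact eE_smul_left_smul ha.1 ha.2 _⟩ }
  have hU : ∀ x v, v ∈ U x ↔ oH Q v = 0 ∧ ∀ y, eE (oH Q) v y • x = x := fun _ _ => Iff.rfl
  have hUc : ∀ x, OClosed F (U x) := fun x c a ha =>
    ⟨by rw [o_qsmul, ha.1, mul_zero], eE_smul_left_smul ha.1 ha.2 _⟩
  have hUg : ∀ (g : EO (oH Q)) x, U (g • x) = g.1 • U x := fun g x => by
    ext v
    obtain ⟨v, rfl⟩ := g.1.1.surjective v
    rw [o_mem_smul_iff, hU, hU, OG.map_app, g.1.1.surjective.forall]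
    simp only [eE_smul_eq_iff]
  have he : oe F W ∈ U x₀ := ⟨oH_oe, fun y => by
    by_cases hy : y.1.2 = 0
    · rw [eE_oe hy, ← mem_oS, h₀]; trivial
    · rw [eE_of_not fun h => hy ((polar_oe y).symm.trans h.2), one_smul]⟩
  obtain ⟨q, hq⟩ : ∃ q, Nat.card F = q + 2 := ⟨_, (Nat.sub_add_cancel Finite.one_lt_card).symm⟩
  let 𝒰 := (Finset.univ.image U).filter
    fun B : AddSubgroup ((F × F) × W) => Nat.card B = Nat.card (U x₀)
  have h𝒰 : OFam (oH Q) 𝒰 := OFam.filter (fun g hg A hA => by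
    obtain ⟨x, -, rfl⟩ := Finset.mem_image.1 hA
    exact Finset.mem_image.2 ⟨_, Finset.mem_univ _, hUg ⟨g, hg⟩ x⟩) _ fun g A hA => by
      rw [o_card_smul, hA]
  have hmem : ∀ B ∈ 𝒰, (∀ v ∈ B, oH Q v = 0) ∧ OClosed F B ∧ Nat.card B = Nat.card (U x₀) := by
    intro B hB
    obtain ⟨h1, h2⟩ := Finset.mem_filter.1 hB
    obtain ⟨x, -, rfl⟩ := Finset.mem_image.1 h1
    exact ⟨fun v hv => hv.1, hUc x, h2⟩
  let π : AddSubgroup ((F × F) × W) → AddSubgroup W := fun B => B.comap (AddMonoidHom.inr _ _)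
  have hπ : ∀ B ∈ 𝒰, oe F W ∈ B → ∀ v, v ∈ B ↔ v.1.2 = 0 ∧ v.2 ∈ π B := by
    intro B hB heB v
    obtain ⟨h1, h2, -⟩ := hmem B hB
    have e : v.1.2 = 0 → (v ∈ B ↔ v.2 ∈ π B) := fun hv => by
      have : v = (0, v.2) + v.1.1 • oe F W := by ext <;> simp [oe, hv]
      conv_lhs => rw [this, B.add_mem_cancel_right (h2 _ _ heB)]
      rfl
    refine ⟨fun hv => ?_, fun hv => (e hv.1).2 hv.2⟩
    have : v.1.2 = 0 := by
      have := h1 _ (B.add_mem heB hv)
      rwa [o_qadd, h1 _ heB, h1 _ hv, polar_oe, zero_add, zero_add] at this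
    exact ⟨this, (e this).1 hv⟩
  let 𝒱 := (𝒰.filter (oe F W ∈ ·)).image π
  have h𝒱 : OFam Q 𝒱 := fun g hg A hA => by
    obtain ⟨B, hB, rfl⟩ := Finset.mem_image.1 hA
    obtain ⟨h1, h2⟩ := Finset.mem_filter.1 hB
    have hl := oLev_inr hg
    refine Finset.mem_image.2 ⟨_, Finset.mem_filter.2 ⟨h𝒰 _ (inr_mem_EO hg) B h1, ?_⟩, ?_⟩
    · rw [← one_smul F (oe F W), ← hl.2.1]; exact o_mem_smul_iff.2 h2
    · ext w
      obtain ⟨w, rfl⟩ := g.1.surjective w
      rw [o_mem_smul_iff]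
      change ((0, g.1 w) : (F × F) × W) ∈ OG.inr (ohyp F) Q g • B ↔ _
      rw [← hl.2.2]
      exact o_mem_smul_iff
  have hx₀ : U x₀ ∈ 𝒰 := by simp [𝒰]
  have hV : ∀ A ∈ 𝒱, (∀ v ∈ A, Q v = 0) ∧ OClosed F A ∧
      Nat.card F * Nat.card A = Nat.card (U x₀) := by
    intro A hA
    obtain ⟨B, hB, rfl⟩ := Finset.mem_image.1 hA
    obtain ⟨h1, h2⟩ := Finset.mem_filter.1 hB
    obtain ⟨h3, h4, h5⟩ := hmem B h1
    refine ⟨fun v hv => (oH_inr v).symm.trans (h3 _ hv), fun c a ha => ?_, ?_⟩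
    · have := h4 c _ ha
      change ((0, c • a) : (F × F) × W) ∈ B
      simpa using this
    · rw [← h5, ← Nat.card_prod]
      exact Nat.card_congr
        { toFun := fun p => ⟨((p.1, 0), p.2), (hπ B h1 h2 _).2 ⟨rfl, p.2.2⟩⟩
          invFun := fun y => (y.1.1.1, ⟨y.1.2, ((hπ B h1 h2 _).1 y.2).2⟩)
          left_inv := fun _ => rfl
          right_inv := fun y =>
            Subtype.ext (Prod.ext (Prod.ext rfl ((hπ B h1 h2 _).1 y.2).1.symm) rfl) }
  have hA₀ : π (U x₀) ∈ 𝒱 := Finset.mem_image_of_mem _ (Finset.mem_filter.2 ⟨hx₀, he⟩)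
  obtain ⟨h1, h2, h3⟩ := hV _ hA₀
  have h4 := h2.card_eq
  set j := finrank F (Submodule.span F (π (U x₀) : Set W))
  have h5 : ∀ A ∈ 𝒱, Nat.card A = Nat.card F ^ j := fun A hA =>
    Nat.eq_of_mul_eq_mul_left Nat.card_pos ((hV A hA).2.2.trans (h4 ▸ h3.symm))
  have h6 : Nat.card F ^ (j + 1) ≤ (Nat.card F - 1) * 𝒱.card + 1 := by
    obtain h6 | h6 | h6 : j = 0 ∨ j = 1 ∨ 2 ≤ j := by omega
    · have := Finset.card_pos.2 ⟨_, hA₀⟩
      rw [h6, hq, show q + 2 - 1 = q + 1 from rfl, zero_add, pow_one]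
      exact Nat.succ_le_succ (Nat.le_mul_of_pos_right _ this)
    · obtain ⟨⟨a, ha⟩, ha0⟩ : ∃ a : π (U x₀), a ≠ 0 := by
        have : Nontrivial (π (U x₀)) := by
          rw [← Finite.one_lt_card_iff_nontrivial, h4, h6, hq, pow_one]; omega
        exact exists_ne 0
      have h7 := h.sum_ge_singular h𝒱 (h1 a ha) (by simpa using ha0) (omult_pos hA₀ ha)
      have h8 := h.zeros
      rw [Finset.sum_congr rfl h5, Finset.sum_const, smul_eq_mul, h6] at h7
      rw [h6, hq, show q + 2 - 1 = q + 1 from rfl]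
      rw [hq] at h7 h8
      obtain ⟨z, hz⟩ := Nat.exists_eq_add_one.2 (ozeros_pos (Q := Q))
      rw [hz] at h7 h8
      rw [Nat.add_sub_cancel] at h7
      exact arith_fix h7 h8
    · exfalso
      have h7 := o_card_le_of_not_fat (F := F) (A := π (U x₀)) fun hf => by
        obtain ⟨b, hb, hb0⟩ := h.exists_ns hf
        exact hb0 (h1 b hb)
      have h8 := Nat.pow_lt_pow_right (Finite.one_lt_card (α := F)) (show 1 < j by omega)
      rw [pow_one] at h8
      omega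
  have h7 := h𝒰.sum_ge_singular hP (by rw [finrank_oH, h.dim]; omega) oH_oe oe_ne_zero
    (k := 𝒱.card) Finset.card_image_le
  rw [Finset.sum_congr rfl fun B hB => (hmem B hB).2.2, Finset.sum_const, smul_eq_mul, ← h3, h4,
    ← pow_succ'] at h7
  have h8 : 𝒰.card ≤ Nat.card X := by
    rw [Nat.card_eq_fintype_card]
    exact (Finset.card_filter_le _ _).trans Finset.card_image_le
  exact o_arith_fix₃ (Finset.card_pos.2 ⟨_, hA₀⟩) h6 h7 h8

end Cfsg.Agent.Cl.M4
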