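import Mathlib
import Cfsg.Agent.Cl.OrthMinU4B

/-!
# Minimal index of `Ω₆⁻(q)`: the lower bound
-/

set_option autoImplicit false

namespace Cfsg.Agent.Cl.M4

open QuadraticMap Module Pointwise

variable {F W : Type*} [Field F] [AddCommGroup W] [Module F W] {Q : QuadraticForm F W}
  {X : Type*} [MulAction (EO (oH Q)) X] [FiniteDimensional F W] [Finite F] (hM : Min4 Q)
include hM

/-- The Eichler group of a point does not act regularly unless `q = 3`. -/
theorem Min4.case_reg [Finite X] (hq3 : Nat.card F ≠ 3) (h : ∀ x : X, oS Q x = ⊥)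
    (hc : Nat.card X = Nat.card F ^ finrank F W) : False := by
  have := Module.finite_of_finite F (M := W)
  have := Fintype.ofFinite F
  have hQ := hM.nd
  have hn : 3 ≤ finrank F W := by rw [hM.dim]; omega
  have hexc : ¬ OExc Q := hM.not_exc
  have R2 : ∀ (x : X) w w', oρ Q w • x = oρ Q w' • x → w = w' := fun x w w' e => by
    rwa [oρ_smul_eq_iff, h, AddSubgroup.mem_bot, neg_add_eq_zero] at e
  have R1 : ∀ x y : X, ∃ w, oρ Q w • x = y := fun x =>
    ((Nat.bijective_iff_injective_and_card _).2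
      ⟨R2 x, by rw [hc, Module.natCard_eq_pow_finrank (K := F)]⟩).2
  obtain ⟨u, hu0, hu⟩ := quad_exists_singular Q hn
  let E : W → EO (oH Q) := fun y => eE (oH Q) (0, u) (0, y)
  have E1 : ∀ y y', polar Q u y = 0 → polar Q u y' = 0 → E y * E y' = E (y + y') :=
    fun y y' h1 h2 => by
      simp only [E]
      rw [eE_mul ((oH_inr u).trans hu) ((polar_inr _ _).trans h1) ((polar_inr _ _).trans h2),
        Prod.mk_add_mk, add_zero]
  have E0 : E 0 = 1 := eE_zero _
  have E2 : ∀ y w (x : X), E y • oρ Q w • x = oρ Q ((eich Q u y).1 w) • E y • x := fun y w x => by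
    rw [(oLev_eE u y).smul_oρ, one_smul]
  have E3 : ∀ t (ht : t ∈ EO Q) (x : X) y w, t.1 u = u →
      (⟨_, inr_mem_EO ht⟩ : EO (oH Q)) • x = x → oρ Q w • x = E y • x →
      oρ Q (t.1 w) • x = E (t.1 y) • x := fun t ht x y w h1 h2 h3 => by
    have := congrArg ((⟨_, inr_mem_EO ht⟩ : EO (oH Q)) • ·) h3
    rwa [(oLev_inr ht).smul_oρ, smul_eE_smul, (oLev_inr ht).2.2, (oLev_inr ht).2.2, h1, h2,
      one_smul] at this
  have R4 : ∀ (x : X) y (c d : F), polar Q u y = 0 → oρ Q (c • y + d • u) • x = E y • x →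
      Q y = 0 := fun x y c d hy e => by
    have h1 := eich_mul_eich_line (Q := oH Q) (u := (0, u)) (y := (0, y)) oH_oe
      ((oH_inr u).trans hu) (polar_oe _) (polar_oe _) ((polar_inr _ _).trans hy) (-c) (-d)
    have h2 : oH Q ((0, u) + -c • oe F W) = 0 := by simp [oe, hu]
    obtain ⟨g, x', h3, h4⟩ := exists_oSV_eq hQ hn h2
      (fun h => hu0 (by simpa [oe] using congrArg Prod.snd h)) x
    have h5 : (0, y) + (- -d - -c * oH Q (0, y)) • oe F W ∈
        oSV (oH Q) ((0, u) + -c • oe F W) x := by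
      refine ⟨by simp [oe, hy, polar_ohyp], ?_⟩
      have : eE (oH Q) _ _ = (oρ Q (c • y + d • u))⁻¹ * E y := Subtype.ext (h1.symm.trans (by
        rw [← oρ_neg]
        congr 2
        ext <;> simp [add_comm]))
      rw [this, mul_smul, inv_smul_eq_iff, e]
    rw [h4] at h5
    obtain ⟨v, hv, h6⟩ := o_mem_smul.1 h5
    obtain ⟨h7, h8⟩ := mem_oSV_oe.1 hv
    rw [h, AddSubgroup.mem_bot] at h8
    have h9 := OG.map_app g v
    rw [h6, oH_apply v, h7, h8] at h9
    simpa [oe] using h9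
  obtain ⟨u', hu', huu'⟩ := o_exists_partner hQ hu hu0
  obtain ⟨a, hua, hua', ha⟩ := hM.rep hu huu' 1
  by_cases hq : 3 < Nat.card F
  · obtain ⟨c, hc0, hc1⟩ := o_exists_sq_ne_one hq
    obtain ⟨z, hz, -⟩ := exists_oLev_sq hQ (by omega) hc0
    have : Nonempty X := (Nat.card_pos_iff.1 (by rw [hc]; positivity)).1
    obtain ⟨x₀⟩ := this
    have h1 := sub_ne_zero.2 hc1.symm
    obtain ⟨x, hx⟩ : ∃ x : X, z • x = x := by
      obtain ⟨w, hw⟩ := R1 x₀ (z • x₀)
      refine ⟨oρ Q ((1 - c ^ 2)⁻¹ • w) • x₀, ?_⟩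
      rw [hz.smul_oρ, ← hw, ← mul_smul, ← oρ_add, OG.one_app]
      congr 2
      match_scalars
      field_simp
      ring
    obtain ⟨w, hw⟩ := R1 x (E a • x)
    have h2 : z • E a • x = E a • x := by
      rw [smul_eE_smul, hz.2.2, hz.2.2, hx]; rfl
    rw [← hw, hz.smul_oρ, hx, OG.one_app] at h2
    have h3 : (1 - c ^ 2) • w = 0 := by rw [sub_smul, R2 x _ _ h2, one_smul, sub_self]
    rw [(smul_eq_zero.1 h3).resolve_left h1] at hw
    exact one_ne_zero (ha.symm.trans (R4 x a 0 0 hua (by simpa using hw)))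
  have hq2 : Nat.card F = 2 := by
    have : 1 < Nat.card F := Finite.one_lt_card
    omega
  have h2 := two_eq_zero_of_card_two hq2
  have F1 := eq_one_of_card_two hq2
  have hEO : ∀ a b, Q a ≠ 0 → Q b = Q a → orefl Q a * orefl Q b ∈ EO Q := fun a b ha hb => by
    rw [← commutator_eq_EO_of_finite hQ hexc hn,
      orefl_mul_orefl_mem_commutator_iff hQ hexc ha (hb ▸ ha), hb]
    exact IsSquare.mul_self _
  obtain ⟨b, hb, hab, hub⟩ : ∃ b, Q b = 1 ∧ polar Q a b = 1 ∧ polar Q u b = 0 := by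
    obtain ⟨y, hy⟩ := o_exists_polar_eq hQ (o_ne_zero_of_norm (Q := Q) (x := a) (by simp [ha])) 1
    obtain ⟨h3, h4⟩ := o_hyp_decomp hu hu' huu' y
    have h5 : polar Q a (y - polar Q y u' • u - polar Q y u • u') = 1 := by
      simp [hy, polar_comm Q a u, polar_comm Q a u', hua, hua']
    exact ⟨_, F1 _ fun e => o_ne_zero_of_polar_right (by rw [h5]; exact one_ne_zero)
      (hM.aniso hu huu' e h3 h4), h5, h3⟩
  have hba : polar Q b a = 1 := by rwa [polar_comm]
  have r1 : (orefl Q a).1 b = b - a := by simp [orefl_app, ha, hba]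
  have r2 : (orefl Q b).1 a = a - b := by simp [orefl_app, hb, hab]
  have r3 : (orefl Q a).1 a = -a := orefl_app_self (by simp [ha])
  have r4 : (orefl Q b).1 b = -b := orefl_app_self (by simp [hb])
  have ht := hEO a b (by simp [ha]) (hb.trans ha.symm)
  set t := orefl Q a * orefl Q b with htdef
  have t1 : t.1 a = -b := by rw [htdef, OG.mul_app, r2, map_sub, r1, r3]; abel
  have t2 : t.1 b = a - b := by rw [htdef, OG.mul_app, r4, map_neg, r1]; abel
  have t3 : t.1 u = u := by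
    rw [htdef, OG.mul_app, orefl_app_of_polar hub, orefl_app_of_polar hua]
  have t4 : t ^ 3 = 1 := by
    have e1 := conj_orefl (orefl Q a) b
    have e2 := conj_orefl (orefl Q b) a
    rw [orefl_inv] at e1 e2
    rw [r2, ← neg_sub, orefl_neg, ← r1, ← e1] at e2
    calc t ^ 3 = (orefl Q a * orefl Q b * orefl Q a) * (orefl Q b * orefl Q a * orefl Q b) := by
          rw [htdef, pow_succ, pow_two]; group
      _ = 1 := by rw [e2, e1, orefl_mul_self]
  have : Fact (Nat.Prime 3) := ⟨Nat.prime_three⟩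
  obtain ⟨x, hx⟩ := o_exists_fixed_of_prime (X := X) (p := 3) (fun h3 => by
    rw [hc] at h3
    have h4 := Nat.prime_three.dvd_of_dvd_pow h3
    rw [Nat.card_eq_fintype_card, ← prime_dvd_char_iff_dvd_card, o_ringChar_eq_two h2] at h4
    omega) (s := (⟨_, inr_mem_EO ht⟩ : EO (oH Q))) (Subtype.ext (by
      change OG.inr _ _ t ^ 3 = 1
      rw [← map_pow, t4, map_one]))
  obtain ⟨w, hw⟩ := R1 x (E a • x)
  have w1 := E3 t ht x _ _ t3 hx hw
  have w2 := E3 t ht x _ _ t3 hx w1
  rw [t1] at w1 w2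
  rw [map_neg, t2] at w2
  have e1 : (eich Q u a).1 w + w = 0 := R2 x _ _ (by
    rw [oρ_add, mul_smul, hw, ← E2, hw, ← mul_smul, E1 a a hua hua, ← two_smul F, h2, zero_smul,
      E0, oρ_zero])
  have e2 : (eich Q u a).1 ((eich Q u (-b)).1 (t.1 (t.1 w)) + t.1 w) + w = 0 := R2 x _ _ (by
    rw [oρ_add, mul_smul, hw, ← E2, oρ_add, mul_smul, w1, ← E2, w2, ← mul_smul, ← mul_smul,
      E1 _ _ hua (by simp [hub]), E1 _ _ (by simp [hua, hub]) (by simp [hua, hub]),
      show a + -b + -(a - b) = 0 by abel, E0, oρ_zero])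
  rw [eich_app hu hua] at e1
  have e3 : polar Q w u = 0 := by
    have := congrArg (polar Q b) e1
    simp only [oexp, hba, polar_comm Q b u, hub] at this
    linear_combination this - polar Q b w * h2
  have e4 : polar Q w a = 0 := by
    have : polar Q w a • u = 0 := by
      rw [← neg_eq_zero, ← e1, e3]
      match_scalars <;> first | ring1 | linear_combination -h2
    exact (smul_eq_zero.1 this).resolve_right hu0
  have e5 : t.1 w = w - polar Q w b • (b - a) := by
    rw [htdef, OG.mul_app, orefl_app b, hb, map_sub, map_smul, r1, orefl_app_of_polar e4]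
    simp
  have e6 : t.1 (t.1 w) = w - polar Q w b • b := by
    conv_lhs => rw [e5, map_sub, map_smul, map_sub, t1, t2, e5]
    module
  have hau : polar Q a u = 0 := by rwa [polar_comm]
  have hbu : polar Q b u = 0 := by rwa [polar_comm]
  rw [e6, e5, eich_app_of_polar_left hu (show polar Q u (-b) = 0 by simp [hub])
    (by simp [e3, hbu]), eich_app_of_polar_left hu hua (by simp [e3, hau, hbu, hu])] at e2
  generalize polar Q (w - polar Q w b • b) (-b) = c₁ at e2
  generalize polar Q (_ + _) a = c₂ at e2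
  refine one_ne_zero (ha.symm.trans (R4 x a (polar Q w b) (c₁ + c₂) hua ?_))
  rw [← hw]
  congr 2
  rw [← sub_eq_zero, ← neg_eq_zero, ← e2]
  match_scalars <;> first | ring1 | linear_combination -h2 | linear_combination polar Q w b * h2
                          | linear_combination -polar Q w b * h2

variable [Finite W] {ψ : AddChar F ℂ} {c₀ : F} (hψ : ψ c₀ ≠ 1)

include hψ in
/-- If all annihilators are small, every point is fixed. -/
theorem Min4.case_small (h : ∀ x : X, Nat.card (oA Q ψ x) ≤ Nat.card F) (x : X)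
    (g : EO (oH Q)) : g • x = x := by
  have hQ := hM.nd
  have hn := hM.dim
  have hP := o_prod_nondeg (ohyp_nondeg (F := F)) hQ
  obtain ⟨k, hk, e⟩ := EO_le_of_siegel hP (by rw [finrank_oH]; omega)
    (H := (MulAction.stabilizer (EO (oH Q)) x).map (EO (oH Q)).subtype) (fun u v hu hv huv => by
      refine ⟨eE (oH Q) u v, ?_, rfl⟩
      change eE (oH Q) u v • x = x
      by_contra hne
      have hu0 : u ≠ 0 := by
        rintro rfl
        exact hne (by rw [show eE (oH Q) 0 v = 1 from Subtype.ext (eich_zero_left v), one_smul])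
      have hv0 : v ≠ 0 := by rintro rfl; simp at hne
      have hq : 1 < Nat.card F := Finite.one_lt_card
      have key : ∀ u, oH Q u = 0 → u ≠ 0 → Nat.card F ^ 4 ≤ Nat.card (oSV (oH Q) u x) := by
        intro u hu hu0
        obtain ⟨g, x', -, h1⟩ := exists_oSV_eq hQ (by omega) hu hu0 x
        have h2 := card_oS_mul hQ hψ x'
        rw [Module.natCard_eq_pow_finrank (K := F) (V := W), hn] at h2
        rw [h1, o_card_smul, card_oSV_oe, ← h2, mul_comm]
        exact Nat.mul_le_mul_right _ (h x')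
      have hc : (1 : F) • v ∉ oSV (oH Q) u x := fun h => hne (by simpa using h.2)
      have h5 := o_line_ineq hP hu hv huv x hc (d := 2) fun I hI => by
        have h6 : I.index ≠ 1 := fun e => hc ((hI 1).1 (by
          rw [AddSubgroup.index_eq_one.1 e]; trivial))
        have h7 := I.index_mul_card
        have h8 : I.index ≠ 0 := AddSubgroup.index_ne_zero_of_finite
        rw [← h7]
        exact Nat.mul_le_mul_right _ (by omega)
      rw [Module.natCard_eq_pow_finrank (K := F) (V := (F × F) × W), finrank_oH, hn] at h5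
      have h6 := Nat.mul_le_mul (key u hu hu0) (key v hv hv0)
      have h7 : 0 < Nat.card F ^ 4 * Nat.card F ^ 4 := by positivity
      have h8 : Nat.card F ^ (4 + 2) * Nat.card F ^ 2 = Nat.card F ^ 4 * Nat.card F ^ 4 := by ring
      have h9 := (Nat.mul_le_mul_left (2 ^ 2) h6).trans h5
      omega) g.2
  rw [← Subtype.ext e]
  exact hk

omit [Finite W] in
/-- **Lower bound for the degree of `Ω₆⁻(q)`**, up to the degree 81 for `q = 3`. -/
theorem Min4.min_card [Finite X] [Nonempty X] [MulAction.IsPretransitive (EO (oH Q)) X]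
    (hX : ∀ x : X, ∃ g : EO (oH Q), g • x ≠ x) :
    Nat.card F ^ 4 + Nat.card F ^ 3 + Nat.card F + 1 ≤ Nat.card X ∨
      Nat.card F = 3 ∧ Nat.card X = 81 := by
  classical
  have := Module.finite_of_finite F (M := W)
  have := Fintype.ofFinite X
  have := Fintype.ofFinite F
  have hQ := hM.nd
  have hn := hM.dim
  have hP := o_prod_nondeg (ohyp_nondeg (F := F)) hQ
  obtain ⟨q, hq⟩ := Nat.exists_eq_add_one.2 (Nat.card_pos (α := F))
  have hq0 : 0 < q := by have : 1 < Nat.card F := Finite.one_lt_card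
                         omega
  have hW : Nat.card W = (q + 1) ^ 4 := by
    rw [Module.natCard_eq_pow_finrank (K := F), hq, hn]
  have hS : ozeros Q = q * ((q + 1) ^ 2 + 1) + 1 := by
    have := hM.zeros
    rw [hq] at this
    zify at this ⊢
    linear_combination this
  have hS' : ozeros Q - 1 = q * ((q + 1) ^ 2 + 1) := by rw [hS, Nat.add_sub_cancel]
  obtain ⟨N₀, hN₀⟩ : ∃ N₀, N₀ = (q + 1) ^ 4 + (q + 1) ^ 3 + (q + 1) + 1 := ⟨_, rfl⟩
  have hz : ozeros (oH Q) - 1 = q * N₀ := by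
    rw [ozeros_ohyp_prod, hN₀, hq, hS, hW, Nat.add_sub_cancel]
    exact Nat.sub_eq_of_eq_add (by ring)
  obtain ⟨ψ, hψ⟩ := (AddChar.exists_apply_ne_zero (a := (1 : F))).2 one_ne_zero
  by_contra hcon
  rw [not_or, not_le, hq, ← hN₀] at hcon
  obtain ⟨hlt, h81⟩ := hcon
  have hbot : ∀ x : X, oA Q ψ x ≠ ⊥ := fun x h => by
    have := hM.case_fix hX ((oA_eq_bot_iff hQ hψ).1 h)
    rw [hz, hq, Nat.add_sub_cancel] at this
    have := Nat.le_of_mul_le_mul_left this hq0
    omega
  obtain ⟨𝒜, a1, a2, a3, a4⟩ : ∃ 𝒜 : Finset (AddSubgroup W), OFam Q 𝒜 ∧ OSc Q 𝒜 ∧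
      (∀ A, A ∈ 𝒜 ↔ A ≠ ⊤ ∧ ∃ x : X, oA Q ψ x = A) ∧
        ∑ A ∈ 𝒜, Nat.card A ≤ {x : X | ¬ oA Q ψ x = ⊤}.ncard := by
    have h1 : ∀ k t (g : OG Q), OLev k t g → ∀ x ∈ Finset.univ.filter fun x : X => oA Q ψ x ≠ ⊤,
        k • x ∈ Finset.univ.filter fun x : X => oA Q ψ x ≠ ⊤ := fun k t g h x hx => by
      simp only [Finset.mem_filter, Finset.mem_univ, true_and] at hx ⊢
      rw [h.oA_eq]
      exact fun h' => hx (eq_top_iff.2 fun v _ => o_mem_smul_iff.1
        ((AddSubgroup.smul_mem_pointwise_smul_iff₀ (inv_ne_zero h.1) _ _).1 (h'.ge trivial)))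
    refine ⟨_, oFam_image fun g hg => h1 _ _ _ (oLev_inr hg), oSc_image hQ (by omega) h1,
      fun A => ?_, (sum_card_oA_le hQ hψ _ fun w x hx => by simpa [oA_oρ] using hx).1.trans
        (by rw [← Set.ncard_coe_finset]; simp)⟩
    simp only [Finset.mem_image, Finset.mem_filter, Finset.mem_univ, true_and]
    exact ⟨by rintro ⟨x, h, rfl⟩; exact ⟨h, x, rfl⟩, by rintro ⟨h, x, rfl⟩; exact ⟨x, h, rfl⟩⟩
  have hs : {x : X | oA Q ψ x = ⊤}.ncard + {x : X | ¬ oA Q ψ x = ⊤}.ncard = Nat.card X :=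
    Set.ncard_add_ncard_compl _
  set Y := Finset.univ.filter fun x : X => oA Q ψ x = ⊤ with hY
  have hY' : ∀ x, x ∈ Y ↔ oA Q ψ x = ⊤ := fun x => by simp [hY]
  rw [show {x : X | oA Q ψ x = ⊤}.ncard = Y.card by rw [← Set.ncard_coe_finset]; simp [hY]] at hs
  have thin : ∀ A ∈ 𝒜, Nat.card A ≤ q + 1 := fun A hA => hq ▸ o_card_le_of_not_fat fun hf => by
    have := hM.fat a1 a2 hA ((a3 A).1 hA).1 hf
    rw [hq, ← hN₀] at this
    omega
  rcases Y.eq_empty_or_nonempty with hY0 | ⟨x₀, hx₀⟩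
  · have htop : ∀ x : X, oA Q ψ x ≠ ⊤ := fun x h => by
      simpa [hY0] using (hY' x).2 h
    obtain ⟨x⟩ := ‹Nonempty X›
    obtain ⟨g, hg⟩ := hX x
    exact hg (hM.case_small hψ (fun y => hq ▸ thin _ ((a3 _).2 ⟨htop y, y, rfl⟩)) x g)
  have hYρ : ∀ w, ∀ x ∈ Y, oρ Q w • x ∈ Y := fun w x hx => by rwa [hY', oA_oρ, ← hY']
  have himg : Y.image (oA Q ψ) = {⊤} := Finset.eq_singleton_iff_unique_mem.2
    ⟨Finset.mem_image.2 ⟨x₀, hx₀, (hY' _).1 hx₀⟩, fun A hA => by
      obtain ⟨x, hx, rfl⟩ := Finset.mem_image.1 hA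
      exact (hY' x).1 hx⟩
  obtain ⟨s1, s2⟩ := sum_card_oA_le hQ hψ Y hYρ
  rw [himg, Finset.sum_singleton, AddSubgroup.card_top, hW] at s1 s2
  obtain ⟨x₁, hx₁, hreg⟩ : ∃ x ∈ Y, ∀ y ∈ Y, ∃ w, oρ Q w • x = y := by
    by_contra! H
    have := s2 fun x hx => by
      obtain ⟨y, hy, h⟩ := H x hx
      exact ⟨y, hy, ((hY' y).1 hy).trans ((hY' x).1 hx).symm, h⟩
    have h2 : N₀ ≤ 2 * (q + 1) ^ 4 := by
      rw [hN₀]
      nlinarith [Nat.zero_le (q ^ 4), Nat.zero_le (q ^ 3), Nat.zero_le (q ^ 2),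
        Nat.one_le_pow 2 q hq0]
    omega
  have hYe : (Y : Set X) = Set.range fun w => oρ Q w • x₁ :=
    Set.ext fun y => ⟨hreg y, by rintro ⟨w, rfl⟩; exact hYρ w _ hx₁⟩
  have hYc : Y.card = (q + 1) ^ 4 := by
    rw [← Set.ncard_coe_finset, hYe, ncard_oρ_orbit hQ hψ, (hY' _).1 hx₁, AddSubgroup.card_top, hW]
  rcases 𝒜.eq_empty_or_nonempty with h0 | ⟨A, hA⟩
  · have hall : ∀ x : X, oA Q ψ x = ⊤ := fun x => by_contra fun h => by
      simpa [h0] using (a3 _).2 ⟨h, x, rfl⟩
    have hc : Nat.card X = (q + 1) ^ 4 := by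
      rw [← hYc, Nat.card_eq_fintype_card, hY, Finset.filter_true_of_mem fun x _ => hall x,
        Finset.card_univ]
    refine hM.case_reg (X := X) (fun h3 => h81 ?_) (fun x => (oA_eq_top_iff hQ hψ).1 (hall x))
      (by rw [hq, hn, hc])
    rw [hq] at h3
    exact ⟨h3, by rw [hc, h3]; rfl⟩
  set Z := ∑ A ∈ 𝒜, Nat.card A
  have hNZ : (q + 1) ^ 4 + Z ≤ Nat.card X := by omega
  have hZ : Z ≤ (q + 1) * ((q + 1) ^ 2 + 1) := by
    have : (q + 1) * ((q + 1) ^ 2 + 1) = (q + 1) ^ 3 + (q + 1) := by ring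
    omega
  obtain ⟨-, x, rfl⟩ := (a3 A).1 hA
  obtain ⟨b, hb, hb0⟩ := (AddSubgroup.bot_or_exists_ne_zero _).resolve_left (hbot x)
  by_cases hbs : Q b = 0
  swap
  · have h1 := o_arith_thin thin (hM.sum_ge_cls a1 a2 hb0 (omult_pos hA hb))
    obtain ⟨h2, h3⟩ := mul_ocnt_le hbs
    rw [hM.cnt _ hbs, hq, Nat.add_sub_cancel,
      show (q + 1) ^ 3 + (q + 1) = (q + 1) * ((q + 1) ^ 2 + 1) by ring] at h2 h3
    have h4 : 0 < (q + 1) * ((q + 1) ^ 2 + 1) := by positivity
    change _ ≤ q * Z at h1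
    generalize (q + 1) * ((q + 1) ^ 2 + 1) = M at *
    generalize (ocls Q b).ncard = C at *
    have h5 := Nat.mul_le_mul_left q hZ
    by_cases h6 : q = 1
    · have := h3 (two_eq_zero_of_card_two (by omega))
      subst h6
      omega
    · have h7 := Nat.mul_le_mul_right C (show 3 ≤ q + 1 by omega)
      have h8 := Nat.mul_pos hq0 h4
      omega
  have key := o_arith_thin thin (hM.sum_ge_singular a1 hbs hb0 (omult_pos hA hb))
  rw [hS', mul_left_comm] at key
  replace key : _ ≤ Z := Nat.le_of_mul_le_mul_left key hq0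
  have h3 : N₀ = Nat.card X + 1 := by
    have : (q + 1) * ((q + 1) ^ 2 + 1) = (q + 1) ^ 3 + (q + 1) := by ring
    omega
  have h4 := index_pst_EO hP (by rw [finrank_oH]; omega) (oe_ne_zero (F := F) (W := W))
  rw [ncard_ocls_singular oH_oe, hz, hq, Nat.add_sub_cancel, mul_comm] at h4
  have h5 := Nat.eq_of_mul_eq_mul_left hq0 h4
  have h7 : (MulAction.orbit (MI.pst F (EO (oH Q)) (oe F W)) x₁) = Y := by
    ext z
    constructor
    · rintro ⟨k, rfl⟩
      exact (hY' _).2 ((oA_eq_top_iff hQ hψ).2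
        (oS_smul_eq_bot k.2 ((oA_eq_top_iff hQ hψ).1 ((hY' _).1 hx₁))))
    · intro hz
      obtain ⟨w, rfl⟩ := hreg z hz
      exact ⟨⟨oρ Q w, MI.stabilizer_le_pst _ (eich_app_self _ _)⟩, rfl⟩
  have h8 := Subgroup.index_dvd_of_le
    (inf_le_left : MulAction.stabilizer (EO (oH Q)) x₁ ⊓ MI.pst F (EO (oH Q)) (oe F W) ≤ _)
  rw [← Subgroup.relIndex_mul_index inf_le_right, Subgroup.inf_relIndex_right,
    MI.relIndex_stabilizer, h7, Set.ncard_coe_finset, hYc, h5, h3,
    MulAction.index_stabilizer_of_transitive] at h8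
  have h9 := Nat.le_of_dvd (by positivity)
    ((Nat.coprime_self_add_right.2 (Nat.coprime_one_right _)).dvd_of_dvd_mul_right h8)
  have h10 : 0 < Z := Finset.sum_pos (fun _ _ => Nat.card_pos) ⟨_, hA⟩
  omega

omit [Finite W] in
theorem Min4.min_index (H : Subgroup (EO (oH Q))) (hH : H ≠ ⊤) :
    Nat.card F ^ 4 + Nat.card F ^ 3 + Nat.card F + 1 ≤ H.index ∨
      Nat.card F = 3 ∧ H.index = 81 := by
  have := Module.finite_of_finite F (M := W)
  have : Finite (EO (oH Q)) := by
    have : Finite (((F × F) × W) ≃ₗ[F] ((F × F) × W)) :=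
      Finite.of_injective _ DFunLike.coe_injective
    infer_instance
  refine hM.min_card (X := EO (oH Q) ⧸ H) fun x => ?_
  by_contra! h
  refine hH (Subgroup.index_eq_one.1 (Nat.card_eq_one_iff_exists.2 ⟨x, fun y => ?_⟩))
  obtain ⟨g, rfl⟩ := MulAction.exists_smul_eq (EO (oH Q)) x y
  exact h g

omit [Finite W] in
/-- Transfer to `PΩ` of a standard form. -/
theorem Min4.pomega {ι : Type} [Fintype ι] [DecidableEq ι] (P : QuadraticForm F (ι → F))
    (e : (ι → F) ≃ₗ[F] (F × F) × W) (he : ∀ v, oH Q (e v) = P v) :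
    (∀ H : Subgroup (POmega F ⇑P), H ≠ ⊤ →
      Nat.card F ^ 4 + Nat.card F ^ 3 + Nat.card F + 1 ≤ H.index ∨
        Nat.card F = 3 ∧ H.index = 81) ∧
      ∃ H : Subgroup (POmega F ⇑P), H.index = Nat.card F ^ 4 + Nat.card F ^ 3 + Nat.card F + 1 := by
  have hQ := hM.nd
  have hP := o_prod_nondeg (ohyp_nondeg (F := F)) hQ
  have hd : finrank F ((F × F) × W) = 6 := by rw [finrank_oH, hM.dim]
  let φ : POmega F ⇑P ≃* EO (oH Q) ⧸ Subgroup.center (EO (oH Q)) :=
    (pomegaEquivOG P).trans (centerQuotCongr ((commutatorCongr (OG.congr e he)).trans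
      (MulEquiv.subgroupCongr (commutator_eq_EO_of_finite hP
        (not_oExc_of_finrank (by omega)) (by omega)))))
  let π : EO (oH Q) →* POmega F ⇑P := φ.symm.toMonoidHom.comp (QuotientGroup.mk' _)
  have hπ : Function.Surjective π := φ.symm.surjective.comp (QuotientGroup.mk'_surjective _)
  refine ⟨fun H hH => ?_, (MI.pst F (EO (oH Q)) (oe F W)).map π, ?_⟩
  · rw [← Subgroup.index_comap_of_surjective H hπ]
    refine hM.min_index _ fun h => hH (eq_top_iff.2 fun g _ => ?_)
    obtain ⟨g, rfl⟩ := hπ g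
    exact h.ge (Subgroup.mem_top g)
  · have ha := oe_ne_zero (F := F) (W := W)
    have h1 : π.ker ≤ MI.pst F (EO (oH Q)) (oe F W) := fun g hg => by
      have hg' : g ∈ Subgroup.center (EO (oH Q)) := by
        rw [← QuotientGroup.eq_one_iff]
        exact φ.symm.injective (hg.trans (map_one _).symm)
      rcases (mem_center_iff_of_EO_le hP (by omega) (quad_exists_singular _ (by omega))
        le_rfl g).1 hg' with h | h
      · exact MI.mem_pst_of_eq ha (a := 1) (by change g.1.1 _ = _; rw [h, one_smul]; rfl)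
      · exact MI.mem_pst_of_eq ha (a := -1) (by change g.1.1 _ = _; rw [h, neg_one_smul]; rfl)
    rw [Subgroup.index_map, sup_eq_left.2 h1, MonoidHom.range_eq_top.2 hπ, Subgroup.index_top,
      mul_one]
    obtain ⟨q, hq⟩ := Nat.exists_eq_add_one.2 (Nat.card_pos (α := F))
    have hq0 : 0 < q := by have : 1 < Nat.card F := Finite.one_lt_card
                           omega
    have hS : ozeros Q = q * ((q + 1) ^ 2 + 1) + 1 := by
      have := hM.zeros
      rw [hq] at this
      zify at this ⊢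
      linear_combination this
    have h2 := index_pst_EO hP (by omega) ha
    rw [ncard_ocls_oe hq hS, hq, Nat.add_sub_cancel, hM.dim] at h2
    refine Nat.eq_of_mul_eq_mul_right hq0 (h2.trans ?_)
    rw [hq]; ring

omit hM [FiniteDimensional F W] in
theorem ocnt_obin {a b : F}
    (hab : ∀ z₁ z₂ : F, z₁ ^ 2 + a * z₁ * z₂ + b * z₂ ^ 2 = 0 → z₁ = 0 ∧ z₂ = 0) {c : F}
    (hc : c ≠ 0) : ocnt (obin F a b) c = Nat.card F + 1 := by
  classical
  have := Fintype.ofFinite F
  have hnd := obin_nondeg (o_disc_ne_zero_of_anisotropic hab)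
  have h1 : ∀ c d : F, d ≠ 0 → ocnt (obin F a b) c ≤ ocnt (obin F a b) (c * d) := fun c d hd => by
    obtain ⟨z, hz⟩ := quad_exists_eq hnd (by simp) d
    rw [obin_apply] at hz
    refine Nat.card_le_card_of_injective (fun v => ⟨![v.1 0 * z 0 - b * v.1 1 * z 1,
      v.1 0 * z 1 + v.1 1 * z 0 + a * v.1 1 * z 1], ?_⟩) fun v w e => ?_
    · have := v.2
      rw [obin_apply] at this ⊢
      simp only [Matrix.cons_val_zero, Matrix.cons_val_one]
      linear_combination (z 0 ^ 2 + a * z 0 * z 1 + b * z 1 ^ 2) * this + c * hz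
    · have e0 := congrArg (fun x => x.1 0) e
      have e1 := congrArg (fun x => x.1 1) e
      simp only [Matrix.cons_val_zero, Matrix.cons_val_one] at e0 e1
      refine Subtype.ext (funext fun i => ?_)
      fin_cases i
      · exact mul_left_cancel₀ hd (show d * v.1 0 = d * w.1 0 by
          linear_combination (z 0 + a * z 1) * e0 + b * z 1 * e1 - (v.1 0 - w.1 0) * hz)
      · exact mul_left_cancel₀ hd (show d * v.1 1 = d * w.1 1 by
          linear_combination z 0 * e1 - z 1 * e0 - (v.1 1 - w.1 1) * hz)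
  have h2 : ∀ d : F, d ≠ 0 → ocnt (obin F a b) d = ocnt (obin F a b) c := fun d hd =>
    le_antisymm (by simpa [hd] using h1 d (d⁻¹ * c) (by simp [hd, hc]))
      (by simpa [hc] using h1 c (c⁻¹ * d) (by simp [hd, hc]))
  have h3 : Nat.card (Fin 2 → F) = ∑ d : F, ocnt (obin F a b) d := by
    simp only [ocnt]
    rw [← Nat.card_sigma]
    exact (Nat.card_congr (Equiv.sigmaFiberEquiv (obin F a b))).symm
  rw [← Finset.sum_erase_add _ _ (Finset.mem_univ 0),
    Finset.sum_congr rfl fun d hd => h2 d (Finset.ne_of_mem_erase hd), Finset.sum_const,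
    show ocnt (obin F a b) 0 = 1 from ozeros_of_aniso (obin_aniso hab), Nat.card_fun, Nat.card_fin,
    Finset.card_erase_of_mem (Finset.mem_univ _), Finset.card_univ, ← Nat.card_eq_fintype_card,
    smul_eq_mul] at h3
  obtain ⟨q, hq⟩ := Nat.exists_eq_add_one.2 (Nat.card_pos (α := F))
  have hq0 : 0 < q := by have : 1 < Nat.card F := Finite.one_lt_card
                         omega
  rw [hq, Nat.add_sub_cancel] at h3
  rw [hq]
  refine Nat.eq_of_mul_eq_mul_left hq0 ?_
  zify at h3 ⊢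
  linear_combination -h3

omit hM [FiniteDimensional F W] in
theorem min4_std {a b : F}
    (hab : ∀ z₁ z₂ : F, z₁ ^ 2 + a * z₁ * z₂ + b * z₂ ^ 2 = 0 → z₁ = 0 ∧ z₂ = 0) :
    Min4 ((quad_plus 1 F).prod (obin F a b)) where
  nd := o_prod_nondeg quad_plus_nondeg (obin_nondeg (o_disc_ne_zero_of_anisotropic hab))
  dim := by simp
  zeros := by
    have := ocnt_minus (F := F) 1 a b 0
    rw [show ocnt (obin F a b) 0 = 1 from ozeros_of_aniso (obin_aniso hab)] at this
    simpa [ocnt, ozeros] using this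
  cnt c hc := by
    have := ocnt_minus (F := F) 1 a b c
    rw [ocnt_obin hab hc] at this
    zify at this ⊢
    linear_combination this

end Cfsg.Agent.Cl.M4
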