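import Mathlib
import Cfsg.Agent.Cl.AutOSiegel
import Cfsg.Agent.Chev.TimSL2
import Cfsg.Agent.Chev.TimRoot

/-!
# The Siegel groups of an orthogonal group are abstract root subgroups
-/

set_option autoImplicit false

namespace Cfsg.Agent.Cl

open QuadraticMap Module Cfsg.Agent.Chev.Tim Cfsg.Agent.GT

variable {F V : Type*} [Field F] [AddCommGroup V] [Module F V] {Q : QuadraticForm F V}

variable (Q) in
/-- `p, r` is a basis of a singular line. -/
structure SLine (p r : V) : Prop where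
  qp : Q p = 0
  qr : Q r = 0
  pr : polar Q p r = 0
  li : ∀ a b : F, a • p + b • r = 0 → a = 0 ∧ b = 0

namespace SLine

variable {p r s t : V}

theorem prs (h : SLine Q p r) (a : F) : polar Q p (a • r) = 0 := by simp [h.pr]

theorem rp (h : SLine Q p r) : polar Q r p = 0 := by rw [polar_comm, h.pr]

theorem ne (h : SLine Q p r) : p ≠ 0 := fun e => by simpa using (h.li 1 0 (by simp [e])).1

theorem not_smul (h : SLine Q p r) (c : F) : r ≠ c • p := fun e => by
  simpa using (h.li (-c) 1 (by simp [e])).2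

theorem of_not_smul (hp : Q p = 0) (hr : Q r = 0) (hpr : polar Q p r = 0) (h0 : p ≠ 0)
    (h : ∀ c : F, r ≠ c • p) : SLine Q p r := by
  refine ⟨hp, hr, hpr, fun a b hab => ?_⟩
  obtain rfl : b = 0 := by
    by_contra hb
    exact h (-(b⁻¹ * a)) (by rw [neg_smul, mul_smul, eq_neg_of_add_eq_zero_left hab]; simp [hb])
  simpa [h0] using hab

theorem lin (h : SLine Q p r) {a b c d : F} (hd : a * d - b * c ≠ 0) :
    SLine Q (a • p + b • r) (c • p + d • r) := by
  refine ⟨by simp [oexp, h.qp, h.qr, h.pr], by simp [oexp, h.qp, h.qr, h.pr],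
    by simp [h.qp, h.qr, h.pr, h.rp], fun x y hxy => ?_⟩
  obtain ⟨h1, h2⟩ := h.li (x * a + y * c) (x * b + y * d) (by rw [← hxy]; module)
  exact ⟨(mul_eq_zero.1 (by linear_combination d * h1 - c * h2)).resolve_right hd,
    (mul_eq_zero.1 (by linear_combination a * h2 - b * h1)).resolve_right hd⟩

theorem map (h : SLine Q p r) (g : OG Q) : SLine Q (g.1 p) (g.1 r) :=
  ⟨by simp [h.qp], by simp [h.qr], by simp [h.pr], fun a b hab => h.li a b (g.1.injective (by
    simpa using hab))⟩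

/-- The Siegel group of a singular line. -/
def grp (h : SLine Q p r) : Subgroup (OG Q) where
  carrier := {g | ∃ a : F, g = eich Q p (a • r)}
  mul_mem' := by
    rintro _ _ ⟨a, rfl⟩ ⟨b, rfl⟩
    exact ⟨a + b, by rw [eich_mul h.qp (h.prs a) (h.prs b), add_smul]⟩
  one_mem' := ⟨0, by simp⟩
  inv_mem' := by
    rintro _ ⟨a, rfl⟩
    exact ⟨-a, by rw [eich_inv, neg_smul]⟩

theorem mem_grp (h : SLine Q p r) {g : OG Q} : g ∈ h.grp ↔ ∃ a : F, g = eich Q p (a • r) := Iff.rfl

theorem grp_lin (h : SLine Q p r) {a b c d : F} (hd : a * d - b * c ≠ 0) :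
    (h.lin hd).grp = h.grp := by
  have key : ∀ x : F, eich Q (a • p + b • r) (x • (c • p + d • r)) =
      eich Q p ((x * (a * d - b * c)) • r) := fun x => by
    rw [smul_add, smul_smul, smul_smul, eich_lin h.qp h.qr h.pr]
    congr 2; ring
  ext g
  simp only [mem_grp, key]
  exact ⟨fun ⟨x, e⟩ => ⟨_, e⟩, fun ⟨x, e⟩ => ⟨x / (a * d - b * c), by rwa [div_mul_cancel₀ _ hd]⟩⟩

theorem symm (h : SLine Q p r) : SLine Q r p :=
  ⟨h.qr, h.qp, h.rp, fun a b hab => (h.li b a (by rwa [add_comm])).symm⟩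

theorem grp_congr {p' r' : V} (h : SLine Q p r) (h' : SLine Q p' r') {a b c d : F}
    (h1 : p' = a • p + b • r) (h2 : r' = c • p + d • r) : h'.grp = h.grp := by
  subst h1 h2
  refine h.grp_lin (fun hd => ?_)
  obtain ⟨h1, h2⟩ := h'.li d (-b) (by linear_combination (norm := module) hd • p)
  obtain ⟨h3, h4⟩ := h'.li c (-a) (by linear_combination (norm := module) -(hd • r))
  exact h'.ne (by simp [neg_eq_zero.1 h2, neg_eq_zero.1 h4])

theorem grp_symm (h : SLine Q p r) : h.symm.grp = h.grp :=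
  h.grp_congr _ (a := 0) (b := 1) (c := 1) (d := 0) (by simp) (by simp)

theorem conj_grp (h : SLine Q p r) (g : OG Q) : conjBy h.grp g = (h.map g).grp := by
  ext x
  rw [mem_conjBy']
  constructor
  · rintro ⟨_, ⟨a, rfl⟩, rfl⟩
    exact ⟨a, by rw [conj_eich, map_smul]⟩
  · rintro ⟨a, rfl⟩
    exact ⟨_, ⟨a, rfl⟩, by rw [conj_eich, map_smul]⟩

/-- Normal form of a pair of singular lines. -/
theorem normal (h : SLine Q p r) (h' : SLine Q s t) : ∃ (p r s t : V) (k : SLine Q p r)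
    (k' : SLine Q s t), k.grp = h.grp ∧ k'.grp = h'.grp ∧ polar Q p t = 0 ∧ polar Q r s = 0 ∧
      ((polar Q p s = 0 ∧ polar Q r t = 0) ∨ (polar Q p s = 0 ∧ polar Q r t = 1) ∨
        (polar Q p s = 1 ∧ polar Q r t = 1)) := by
  wlog h1 : polar Q r t ≠ 0 generalizing p r s t
  · by_cases h2 : polar Q r s ≠ 0
    · exact h'.grp_symm ▸ this h h'.symm h2
    by_cases h3 : polar Q p t ≠ 0
    · exact h.grp_symm ▸ this h.symm h' h3
    by_cases h4 : polar Q p s ≠ 0
    · exact h.grp_symm ▸ h'.grp_symm ▸ this h.symm h'.symm h4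
    push Not at h1 h2 h3 h4
    exact ⟨p, r, s, t, h, h', rfl, rfl, h3, h2, Or.inl ⟨h4, h1⟩⟩
  have hd : (1 : F) * 1 - -(polar Q p t / polar Q r t) * 0 ≠ 0 := by simp
  by_cases h2 : polar Q p s * polar Q r t - polar Q p t * polar Q r s = 0
  · have hd' : (1 : F) * (polar Q r t)⁻¹ - -(polar Q r s / polar Q r t) * 0 ≠ 0 := by simpa
    refine ⟨_, _, _, _, h.lin hd, h'.lin hd', h.grp_lin hd, h'.grp_lin hd', ?_, ?_,
      Or.inr (Or.inl ⟨?_, ?_⟩)⟩ <;> simp only [oexp] <;> field_simp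
    iterate 2 ring
    · linear_combination h2
    · ring
  · obtain ⟨D, hD⟩ : ∃ D, D = polar Q p s * polar Q r t - polar Q p t * polar Q r s := ⟨_, rfl⟩
    rw [← hD] at h2
    have hd' : polar Q r t / D * (polar Q r t)⁻¹ - -(polar Q r s / D) * 0 ≠ 0 := by simp [h1, h2]
    refine ⟨_, _, _, _, h.lin hd, h'.lin hd', h.grp_lin hd, h'.grp_lin hd', ?_, ?_,
      Or.inr (Or.inr ⟨?_, ?_⟩)⟩ <;> simp only [oexp] <;> field_simp
    iterate 2 ring
    · linear_combination -hD
    · ring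

theorem comm_of_perp (h : SLine Q p r) (h' : SLine Q s t) (h1 : polar Q p s = 0)
    (h2 : polar Q p t = 0) (h3 : polar Q r s = 0) (h4 : polar Q r t = 0) : Comm h.grp h'.grp := by
  rintro _ ⟨a, rfl⟩ _ ⟨b, rfl⟩
  rw [mul_eich, eich_app_of_polar (by rwa [polar_comm]) (by simp [polar_comm Q s, h3]),
    eich_app_of_polar (by simp [polar_comm Q t, h2]) (by simp [polar_comm Q t, h4])]

theorem comm_of_same (h : SLine Q p r) (h' : SLine Q p t) : Comm h.grp h'.grp := by
  rintro _ ⟨a, rfl⟩ _ ⟨b, rfl⟩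
  exact eich_comm h.qp (h.prs a) (h'.prs b)

theorem commutator_eich (h : SLine Q p r) (h' : SLine Q s t) (h1 : polar Q p s = 0)
    (h2 : polar Q p t = 0) (h3 : polar Q r s = 0) (h4 : polar Q r t = 1) (a b : F) :
    eich Q p (a • r) * eich Q s (b • t) * (eich Q p (a • r))⁻¹ * (eich Q s (b • t))⁻¹ =
      eich Q p ((a * b) • s) := by
  have hsp : polar Q s p = 0 := by rwa [polar_comm]
  rw [conj_eich, eich_app_of_polar hsp (by simp [polar_comm Q s, h3]),
    eich_app_of_polar_left h.qp (h.prs a) (by simp [polar_comm Q t, h2]), eich_inv,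
    eich_mul h'.qp (by simp [h'.pr, hsp]) (by simp [h'.pr]),
    ← eich_smul_left h.qp h1, eich_swap h'.qp (by simp [oexp, h.qp]) (by simp [hsp])]
  congr 1
  simp only [oexp, polar_comm Q t r, h4]
  module

theorem eich_eq_one_iff (hQ : (polarBilin Q).Nondegenerate) (h : SLine Q p r) {a : F} :
    eich Q p (a • r) = 1 ↔ a = 0 := by
  refine ⟨fun e => ?_, fun e => by simp [e]⟩
  obtain ⟨c, hc⟩ := exists_smul_of_eich_eq_one hQ h.qp h.ne (h.prs a) e
  exact (h.li (-c) a (by simp [hc])).2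

section Opp

variable (h : SLine Q p r) (h' : SLine Q s t) (h1 : polar Q p s = 1) (h2 : polar Q p t = 0)
  (h3 : polar Q r s = 0) (h4 : polar Q r t = 1)
include h h' h1 h2 h3 h4

theorem stW_app {τ : F} (hτ : τ ≠ 0) (v : V) :
    (stW (fun a : F => eich Q p (a • r)) (fun a => eich Q s (-a • t)) τ).1 v =
      v - polar Q v s • (p - τ⁻¹ • t) - polar Q v t • (r + τ⁻¹ • s) - polar Q v p • (s - τ • r) -
        polar Q v r • (t + τ • p) := by
  simp only [stW, OG.mul_app, eich_app h.qp (h.prs _), eich_app h'.qp (h'.prs _), oexp, h.qp, h.qr,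
    h'.qr, h.pr, h.rp, h1, h2, h3, h4, polar_comm Q s p, polar_comm Q t p,
    polar_comm Q s r, polar_comm Q t r]
  match_scalars <;> field_simp <;> ring

theorem sl2Rel : SL2Rel (fun a : F => eich Q p (a • r)) fun a => eich Q s (-a • t) := by
  refine ⟨fun a b => by rw [eich_mul h.qp (h.prs a) (h.prs b), add_smul], fun a b => by
    rw [eich_mul h'.qp (h'.prs _) (h'.prs _), neg_add, add_smul], fun τ hτ u => ?_,
    fun τ hτ u => ?_⟩ <;> rw [conj_eich, stW_app h h' h1 h2 h3 h4 hτ, stW_app h h' h1 h2 h3 h4 hτ]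
  · refine (congrArg₂ _ ?_ ?_).trans ((eich_lin h'.qp h'.qr h'.pr 0 τ⁻¹ (-(u * τ⁻¹)) 0).trans ?_)
    iterate 2
      simp only [oexp, h.qp, h.qr, h.pr, h.rp, h1, h2, h3, h4]
      module
    congr 2; field_simp; ring
  · refine (congrArg₂ _ ?_ ?_).trans ((eich_lin h.qp h.qr h.pr 0 τ (u * τ) 0).trans ?_)
    iterate 2
      simp only [oexp, h'.qp, h'.qr, h'.pr, h'.rp, h1, h2, h3, h4, polar_comm Q s p,
        polar_comm Q t p, polar_comm Q s r, polar_comm Q t r]
      module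
    congr 2; ring

theorem stH_mul {a b : F} (ha : a ≠ 0) (hb : b ≠ 0) :
    stH (fun a : F => eich Q p (a • r)) (fun a => eich Q s (-a • t)) (a * b) =
      stH (fun a : F => eich Q p (a • r)) (fun a => eich Q s (-a • t)) a *
        stH (fun a : F => eich Q p (a • r)) (fun a => eich Q s (-a • t)) b := by
  refine OG.ext fun v => ?_
  simp only [stH, ← (sl2Rel h h' h1 h2 h3 h4).w_neg, OG.mul_app, stW_app h h' h1 h2 h3 h4 ha,
    stW_app h h' h1 h2 h3 h4 hb, stW_app h h' h1 h2 h3 h4 (mul_ne_zero ha hb),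
    stW_app h h' h1 h2 h3 h4 (neg_ne_zero.2 one_ne_zero), oexp, h.qp, h.qr,
    h'.qp, h'.qr, h.pr, h.rp, h'.pr, h'.rp, h1, h2, h3, h4, polar_comm Q s p, polar_comm Q t p,
    polar_comm Q s r, polar_comm Q t r]
  match_scalars <;> field_simp <;> ring

theorem grp_ne : h.grp ≠ h'.grp := fun e => by
  obtain ⟨a, ha⟩ : eich Q p ((1 : F) • r) ∈ h'.grp := e ▸ ⟨1, rfl⟩
  have := congrArg (fun g : OG Q => polar Q (g.1 s) t) ha
  simp [eich_app_self, eich_app h.qp h.pr, polar_comm Q s p, polar_comm Q s r, h1, h2, h3, h4,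
    h'.pr] at this

end Opp

variable [FiniteDimensional F V] (hQ : (polarBilin Q).Nondegenerate)
include hQ

theorem exists_dual (h : SLine Q p r) :
    ∃ s t, SLine Q s t ∧ polar Q p s = 1 ∧ polar Q p t = 0 ∧ polar Q r s = 0 ∧ polar Q r t = 1 := by
  obtain ⟨s, hs, h1, h2⟩ := o_exists_partner_perp_one hQ h.qp (fun e => by
    obtain ⟨c, hc⟩ := Submodule.mem_span_singleton.1 e
    exact h.symm.not_smul c hc.symm) h.rp
  obtain ⟨t, ht, h3, h4⟩ := o_exists_partner_perp hQ (W := Submodule.span F {p, s}) h.qr (fun e => by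
    obtain ⟨a, b, hc⟩ := Submodule.mem_span_pair.1 e
    obtain rfl : b = 0 := by simpa [oexp, h.qp, h.pr, h1] using congrArg (polar Q p) hc
    exact h.not_smul a (by simpa using hc.symm))
    (mem_operp.1 (mem_operp_span.2 (by simp [h.pr, polar_comm Q s, h2])))
  have h5 := h4 p (Submodule.subset_span (by simp))
  refine ⟨s, t, ⟨hs, ht, h4 s (Submodule.subset_span (by simp)), fun a b e => ?_⟩, h1, h5, h2, h3⟩
  exact ⟨by simpa [h1, h5] using congrArg (polar Q p) e,
    by simpa [h2, h3] using congrArg (polar Q r) e⟩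

theorem mem_grp_iff (h : SLine Q p r) {g : OG Q} :
    g ∈ h.grp ↔ ∀ v, polar Q v p = 0 → polar Q v r = 0 → g.1 v = v := by
  refine ⟨?_, fun H => ?_⟩
  · rintro ⟨a, rfl⟩ v h1 h2
    exact eich_app_of_polar h1 (by simp [h2])
  obtain ⟨s, t, h', h1, h2, h3, h4⟩ := h.exists_dual hQ
  have hp := H p (by simp [h.qp]) h.pr
  have hr := H r h.rp (by simp [h.qr])
  have key : ∀ y, ∃ a b : F, a • p + b • r = g.1 y - y := fun y => by
    rw [← Submodule.mem_span_pair, ← operp_operp hQ (Submodule.span F {p, r})]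
    intro v hv
    have := mem_operp_span.1 hv
    exact o_polar_fix_sub g (H v (by rw [polar_comm]; exact this p (by simp))
      (by rw [polar_comm]; exact this r (by simp))) y
  obtain ⟨a, b, e1⟩ := key s
  obtain ⟨c, d, e2⟩ := key t
  rw [eq_sub_iff_add_eq, eq_comm] at e1 e2
  obtain rfl : a = 0 := by
    simpa [e1, oexp, h.qp, h.qr, h.pr, h'.qp, h1, h3] using OG.map_app g s
  obtain rfl : d = 0 := by
    simpa [e2, oexp, h.qp, h.qr, h.pr, h'.qr, h2, h4] using OG.map_app g t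
  have h5 : c + b = 0 := by
    simpa [e1, e2, h.rp, h'.pr, polar_comm Q s p, h1, h4] using OG.polar_app g s t
  refine ⟨b, OG.ext fun v => ?_⟩
  have h6 := H (v - polar Q v s • p - polar Q v t • r - polar Q v p • s - polar Q v r • t)
    (by simp [h.qp, h.rp, polar_comm Q s, polar_comm Q t, h1, h2])
    (by simp [h.qr, h.pr, polar_comm Q s, polar_comm Q t, h3, h4])
  simp only [map_sub, map_smul, hp, hr, e1, e2] at h6
  rw [eich_app h.qp (h.prs b)]
  simp only [oexp, h.qr]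
  linear_combination (norm := module) h6 + h5 • polar Q v r • p

/-- Two singular lines in a singular plane have a common opposite. -/
theorem exists_opp {x : V} (h : SLine Q p r) (h' : SLine Q p x) (hx : polar Q r x = 0)
    (hn : x ∉ Submodule.span F {p, r}) : ∃ s t, SLine Q s t ∧ polar Q p s = 1 ∧ polar Q p t = 0 ∧
      polar Q r s = 0 ∧ polar Q r t = 1 ∧ polar Q x s = 0 ∧ polar Q x t = 1 := by
  have key : ∀ a b c : F, a • p + b • r + c • x = 0 → a = 0 ∧ b = 0 := fun a b c e => by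
    obtain rfl : c = 0 := by
      by_contra hc
      refine hn (Submodule.mem_span_pair.2 ⟨-(c⁻¹ * a), -(c⁻¹ * b), ?_⟩)
      rw [← one_smul F x, ← inv_mul_cancel₀ hc]
      linear_combination (norm := module) -(c⁻¹ • e)
    exact h.li a b (by simpa using e)
  obtain ⟨s, hs, h1, h2⟩ := o_exists_partner_perp hQ (W := Submodule.span F {r, x}) h.qp (fun e => by
    obtain ⟨a, b, hc⟩ := Submodule.mem_span_pair.1 e
    simpa using (key (-1) a b (by rw [← hc]; module)).1)
    (mem_operp.1 (mem_operp_span.2 (by simp [h.rp, h'.rp])))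
  have h3 := h2 r (Submodule.subset_span (by simp))
  have h4 := h2 x (Submodule.subset_span (by simp))
  obtain ⟨t, ht, h5, h6⟩ := o_exists_partner_perp hQ (W := Submodule.span F {p, s, x - r}) h.qr
    (fun e => by
      obtain ⟨a, b, c, hc⟩ := Submodule.mem_span_triple.1 e
      obtain rfl : b = 0 := by simpa [h.qp, h.pr, h'.pr, h1] using congrArg (polar Q p) hc
      have h5 := key a (-1 - c) c (by linear_combination (norm := module) hc)
      obtain rfl : c = -1 := by linear_combination -h5.2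
      refine hn (Submodule.mem_span_pair.2 ⟨a, 0, ?_⟩)
      linear_combination (norm := module) hc)
    (mem_operp.1 (mem_operp_span.2 (by simp [h.pr, polar_comm Q s, polar_comm Q x, h3, hx, h.qr])))
  have h7 := h6 p (Submodule.subset_span (by simp))
  have h8 := h6 (x - r) (Submodule.subset_span (by simp))
  rw [polar_sub_left, h5, sub_eq_zero] at h8
  refine ⟨s, t, ⟨hs, ht, h6 s (Submodule.subset_span (by simp)), fun a b e => ?_⟩, h1, h7, h3, h5,
    h4, h8⟩
  exact ⟨by simpa [h1, h7] using congrArg (polar Q p) e,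
    by simpa [h3, h5] using congrArg (polar Q r) e⟩

end SLine

/-- A faithful orthogonal representation whose image contains the Siegel elements. -/
structure SRep {X : Type*} [Group X] (ρ : X →* OG Q) : Prop where
  inj : Function.Injective ρ
  le : ∀ {p r : V} (h : SLine Q p r), h.grp ≤ ρ.range

/-- The Siegel groups in `X`. -/
def sRootSet {X : Type*} [Group X] (ρ : X →* OG Q) : Set (Subgroup X) :=
  {A | ∃ (p r : V) (h : SLine Q p r), A = h.grp.comap ρ}

namespace SRep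

variable {X : Type*} [Group X] {ρ : X →* OG Q} (R : SRep ρ) {p r s t : V}
include R

theorem comm {A B : Subgroup (OG Q)} (h : Comm A B) : Comm (A.comap ρ) (B.comap ρ) :=
  fun a ha b hb => R.inj (by rw [map_mul, map_mul, h _ ha _ hb])

theorem exists_param (h : SLine Q p r) : ∃ x : F → X, ∀ a, ρ (x a) = eich Q p (a • r) :=
  ⟨fun a => (R.le h ⟨a, rfl⟩).choose, fun a => (R.le h ⟨a, rfl⟩).choose_spec⟩

theorem opp (h : SLine Q p r) (h' : SLine Q s t) (h1 : polar Q p s = 1) (h2 : polar Q p t = 0)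
    (h3 : polar Q r s = 0) (h4 : polar Q r t = 1) :
    IsRankOnePair (h.grp.comap ρ) (h'.grp.comap ρ) ∧
      IsPSL2PairOver F (h.grp.comap ρ) (h'.grp.comap ρ) := by
  obtain ⟨x, hx⟩ := R.exists_param h
  obtain ⟨y, hy⟩ := R.exists_param h'
  have hw : ∀ a, ρ (stW x (fun a => y (-a)) a) =
      stW (fun a : F => eich Q p (a • r)) (fun a => eich Q s (-a • t)) a := fun a => by
    simp only [stW, map_mul, hx, hy]
  have k := h.sl2Rel h' h1 h2 h3 h4
  have rel : SL2Rel x fun a => y (-a) := ⟨fun a b => R.inj (by rw [map_mul, hx, hx, hx, k.x_add]),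
    fun a b => R.inj (by rw [map_mul, hy, hy, hy, k.y_add]),
    fun a ha b => R.inj (by rw [map_mul, map_mul, map_inv, hw, hx, hy, k.w_x a ha]),
    fun a ha b => R.inj (by rw [map_mul, map_mul, map_inv, hw, hx, hy, k.w_y a ha])⟩
  have hA : ∀ g, g ∈ h.grp.comap ρ ↔ ∃ a, g = x a := fun g =>
    exists_congr fun a => by rw [← hx, R.inj.eq_iff]
  have hB : ∀ g, g ∈ h'.grp.comap ρ ↔ ∃ a, g = y (-a) := fun g =>
    (exists_congr fun a => by rw [← hy, R.inj.eq_iff]).trans neg_surjective.exists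
  have hr := (rel.isSpecial hA hB fun e => h.grp_ne h' h1 h2 h3 h4 (by
    rw [← Subgroup.map_comap_eq_self (R.le h), e, Subgroup.map_comap_eq_self (R.le h')])).1.1
  obtain ⟨φ, h5, h6⟩ := rel.exists_hom fun a b ha hb => R.inj (by
    simpa only [stH, map_mul, map_inv, hw] using h.stH_mul h' h1 h2 h3 h4 ha hb)
  have h7 : (upperUnipotentSL2 F).map φ = h.grp.comap ρ := Subgroup.ext fun g => by
    simp [hA, mem_upperUnipotentSL2, h5, eq_comm]
  have h8 : (lowerUnipotentSL2 F).map φ = h'.grp.comap ρ := Subgroup.ext fun g => by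
    simp [hB, mem_lowerUnipotentSL2, h6, eq_comm]
  refine ⟨hr, φ, by rw [← h7, ← h8, ← Subgroup.map_sup, upper_sup_lower, MonoidHom.range_eq_map],
    ?_, h7, h8⟩
  obtain ⟨a, ha, b, hb, hab⟩ : ∃ a ∈ h.grp.comap ρ, ∃ b ∈ h'.grp.comap ρ, a * b ≠ b * a := by
    by_contra! hc
    exact hr.not_comm hc
  obtain ⟨a, rfl⟩ := (hA a).1 ha
  obtain ⟨b, rfl⟩ := (hB b).1 hb
  exact sl2_ker_le_center φ (s := a) (t := b) (by rwa [h5, h6])

theorem cc (h : SLine Q p r) (h' : SLine Q s t) (k : SLine Q p s) (h2 : polar Q p t = 0)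
    (h3 : polar Q r s = 0) (h4 : polar Q r t = 1) :
    RootCommutatorCase (sRootSet ρ) (h.grp.comap ρ) (h'.grp.comap ρ) := by
  have key := h.commutator_eich h' k.pr h2 h3 h4
  obtain ⟨x, hx⟩ := R.exists_param h
  obtain ⟨y, hy⟩ := R.exists_param h'
  have h5 : ⁅h.grp.comap ρ, h'.grp.comap ρ⁆ = k.grp.comap ρ := by
    refine le_antisymm (commutator_le_of ?_) ?_
    · rintro a ⟨u, hu⟩ b ⟨v, hv⟩
      exact ⟨u * v, by simp only [map_mul, map_inv, hu, hv, key]⟩
    · rintro c ⟨u, hu⟩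
      have : c = x u * y 1 * (x u)⁻¹ * (y 1)⁻¹ :=
        R.inj (by simp only [map_mul, map_inv, hx, hy, key, hu, mul_one])
      exact this ▸ comm_mem ⟨u, hx u⟩ ⟨1, hy 1⟩
  refine RootCommutatorCase.of_exists (h5 ▸ ⟨p, s, k, rfl⟩) (h5 ▸ R.comm (k.comm_of_same h))
    (h5 ▸ k.grp_symm ▸ R.comm (k.symm.comm_of_same h')) ?_ ?_ <;> rw [h5]
  · rintro a ⟨u, hu⟩ ha c ⟨v, hv⟩
    have h0 : u ≠ 0 := fun e => ha (R.inj (by simp [hu, e]))
    exact ⟨y (v / u), ⟨_, hy _⟩, R.inj (by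
      simp only [map_mul, map_inv, hu, hy, key, hv, mul_div_cancel₀ _ h0])⟩
  · rintro a ⟨u, hu⟩ ha c ⟨v, hv⟩
    have h0 : u ≠ 0 := fun e => ha (R.inj (by simp [hu, e]))
    exact ⟨x (v / u), ⟨_, hx _⟩, R.inj (by
      simp only [map_mul, map_inv, hu, hx, key, hv, div_mul_cancel₀ _ h0])⟩

variable (hQ : (polarBilin Q).Nondegenerate)

theorem cases {A B : Subgroup X} (hA : A ∈ sRootSet ρ) (hB : B ∈ sRootSet ρ) :
    Comm A B ∨ (IsRankOnePair A B ∧ IsPSL2PairOver F A B) ∨
      RootCommutatorCase (sRootSet ρ) A B := by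
  obtain ⟨_, _, h, rfl⟩ := hA
  obtain ⟨_, _, h', rfl⟩ := hB
  obtain ⟨p, r, s, t, k, k', e, e', h1, h2, h3⟩ := h.normal h'
  rw [← e, ← e']
  rcases h3 with ⟨h3, h4⟩ | ⟨h3, h4⟩ | ⟨h3, h4⟩
  · exact Or.inl (R.comm (k.comm_of_perp k' h3 h1 h2 h4))
  · by_cases h5 : ∃ c : F, s = c • p
    · obtain ⟨c, rfl⟩ := h5
      have h6 : SLine Q p t := SLine.of_not_smul k.qp k'.qr h1 k.ne fun d hd => by
        simp [hd, k.rp] at h4
      rw [h6.grp_congr k' (a := c) (b := 0) (c := 0) (d := 1) (by simp) (by simp)]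
      exact Or.inl (R.comm (k.comm_of_same h6))
    · exact Or.inr (Or.inr (R.cc k k' (SLine.of_not_smul k.qp k'.qp h3 k.ne
        (not_exists.1 h5)) h1 h2 h4))
  · exact Or.inr (Or.inl (R.opp k k' h3 h1 h2 h4))

include hQ

theorem kRootSet (hgen : (⨆ A ∈ sRootSet ρ, A) = ⊤) : IsKRootSubgroupSet F (sRootSet ρ) := by
  have hc : ∀ A ∈ sRootSet ρ, Comm A A := by
    rintro _ ⟨p, r, h, rfl⟩
    exact R.comm (h.comm_of_same h)
  refine ⟨⟨fun A hA => comm_self_iff.1 (hc A hA), ?_, hgen, ?_, fun A hA B hB =>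
    (R.cases hA hB).imp comm_iff.2 (Or.imp_left And.left)⟩, fun A hA B hB h => ?_⟩
  · rintro _ ⟨p, r, h, rfl⟩ e
    obtain ⟨x, hx⟩ := R.exists_param h
    have h1 : x 1 = 1 := Subgroup.mem_bot.1 (e ▸ ⟨1, hx 1⟩)
    exact one_ne_zero ((h.eich_eq_one_iff hQ).1 (by rw [← hx, h1, map_one]))
  · rintro _ ⟨p, r, h, rfl⟩ g
    refine ⟨_, _, h.map (ρ g), Subgroup.ext fun x => ?_⟩
    rw [← h.conj_grp, Subgroup.mem_comap, mem_conjBy, mem_conjBy, Subgroup.mem_comap]
    simp
  · rcases R.cases hA hB with h1 | h1 | h1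
    exacts [absurd h1 h.not_comm, h1.2, absurd h (h1.not_rankOne (hc B hB))]

variable [FiniteDimensional F V]

theorem path_of_perp (h : SLine Q p r) (h' : SLine Q p s) (hrs : polar Q r s = 0) :
    Relation.ReflTransGen (FAdj (sRootSet ρ)) (h.grp.comap ρ) (h'.grp.comap ρ) := by
  by_cases hn : s ∈ Submodule.span F {p, r}
  · obtain ⟨a, b, e⟩ := Submodule.mem_span_pair.1 hn
    rw [h.grp_congr h' (a := 1) (b := 0) (by simp) e.symm]
  obtain ⟨u, v, k, h1, h2, h3, h4, h5, h6⟩ := h.exists_opp hQ h' hrs hn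
  exact (Relation.ReflTransGen.single ⟨⟨_, _, h, rfl⟩, ⟨_, _, k, rfl⟩,
    (R.opp h k h1 h2 h3 h4).1⟩).tail ⟨⟨_, _, k, rfl⟩, ⟨_, _, h', rfl⟩, (R.opp h' k h1 h2 h5 h6).1.symm⟩

theorem connected {U : Submodule F V} (hU : ∀ u ∈ U, Q u = 0) (h3 : 3 ≤ finrank F U) :
    IsConnectedFamily (FAdj (sRootSet ρ)) (sRootSet ρ) := by
  have same : ∀ {p r s : V} (h : SLine Q p r) (h' : SLine Q p s),
      Relation.ReflTransGen (FAdj (sRootSet ρ)) (h.grp.comap ρ) (h'.grp.comap ρ) := by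
    intro p r s h h'
    have key : ∀ y, ∃ x ∈ U, SLine Q p x ∧ polar Q y x = 0 := fun y => by
      have h4 : ∀ z, ∃ x ∈ U, x ≠ 0 ∧ polar Q y x = 0 ∧ polar Q z x = 0 := fun z => by
        obtain ⟨x, hx, hx0⟩ := (Submodule.ne_bot_iff _).1 (LinearMap.ker_ne_bot_of_finrank_lt
          (f := ((polarBilin Q y).prod (polarBilin Q z)).domRestrict U) (by simp; omega))
        exact ⟨x, x.2, fun e => hx0 (Subtype.ext e), congrArg Prod.fst hx, congrArg Prod.snd hx⟩
      by_cases hp : p ∈ U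
      · obtain ⟨z, hz⟩ := o_exists_polar_eq hQ h.ne 1
        obtain ⟨x, hx, h0, h5, h6⟩ := h4 z
        refine ⟨x, hx, .of_not_smul h.qp (hU x hx) (o_polar_eq_zero_of_singular hU hp hx) h.ne ?_,
          h5⟩
        rintro c rfl
        simp_all [polar_comm Q z]
      · obtain ⟨x, hx, h0, h5, h6⟩ := h4 p
        refine ⟨x, hx, .of_not_smul h.qp (hU x hx) h6 h.ne ?_, h5⟩
        rintro c rfl
        exact hp ((U.smul_mem_iff (smul_ne_zero_iff.1 h0).1).1 hx)
    obtain ⟨x, hx, k, h4⟩ := key r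
    obtain ⟨y, hy, k', h5⟩ := key s
    exact ((R.path_of_perp hQ h k h4).trans (R.path_of_perp hQ k k'
      (o_polar_eq_zero_of_singular hU hx hy))).trans (R.path_of_perp hQ k' h' (by rwa [polar_comm]))
  rintro _ ⟨p, r, h, rfl⟩ _ ⟨s, t, h', rfl⟩
  obtain ⟨p, r, s, t, k, k', e, e', h1, -⟩ := h.normal h'
  rw [← e, ← e', ← k'.grp_symm]
  by_cases h5 : ∃ c : F, t = c • p
  · obtain ⟨c, rfl⟩ := h5
    have h6 : SLine Q p s := ⟨k.qp, k'.qp, by simpa [(smul_ne_zero_iff.1 k'.symm.ne).1] using k'.rp,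
      fun a b hab => by
        have := k'.li (b * c) a (by linear_combination (norm := module) c • hab)
        simp_all [(smul_ne_zero_iff.1 k'.symm.ne).1]⟩
    rw [h6.grp_congr k'.symm (a := c) (b := 0) (c := 0) (d := 1) (by simp) (by simp)]
    exact same k h6
  · have h6 := SLine.of_not_smul k.qp k'.qr h1 k.ne (not_exists.1 h5)
    exact (same k h6).trans (h6.grp_symm ▸ same h6.symm k'.symm)

end SRep

end Cfsg.Agent.Cl
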