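import Mathlib
import Cfsg.Agent.Cl.QuadExtra

/-!
# Existence of extraspecial 2-groups, and the real Clifford group `2^(1+2n)_+ . O⁺_{2n}(2)`
-/

set_option autoImplicit false

namespace Cfsg.Agent.Cl

open QuadraticMap Module Matrix

section Cocycle

variable {U : Type*} [AddCommGroup U] [Module (ZMod 2) U]

/-- The central extension of `U` by `𝔽₂` with bilinear cocycle `β`. -/
@[ext] structure QuadCoc (β : LinearMap.BilinForm (ZMod 2) U) where
  /-- the image in `U` -/
  u : U
  /-- the central coordinate -/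
  t : ZMod 2

variable {β : LinearMap.BilinForm (ZMod 2) U}

instance QuadCoc.instMul : Mul (QuadCoc β) := ⟨fun a b => ⟨a.u + b.u, a.t + b.t + β a.u b.u⟩⟩
instance QuadCoc.instOne : One (QuadCoc β) := ⟨⟨0, 0⟩⟩
instance QuadCoc.instInv : Inv (QuadCoc β) := ⟨fun a => ⟨a.u, a.t + β a.u a.u⟩⟩

@[simp] theorem QuadCoc.mul_u (a b : QuadCoc β) : (a * b).u = a.u + b.u := rfl
@[simp] theorem QuadCoc.mul_t (a b : QuadCoc β) : (a * b).t = a.t + b.t + β a.u b.u := rfl
@[simp] theorem QuadCoc.one_u : (1 : QuadCoc β).u = 0 := rfl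
@[simp] theorem QuadCoc.one_t : (1 : QuadCoc β).t = 0 := rfl
@[simp] theorem QuadCoc.inv_u (a : QuadCoc β) : a⁻¹.u = a.u := rfl
@[simp] theorem QuadCoc.inv_t (a : QuadCoc β) : a⁻¹.t = a.t + β a.u a.u := rfl

instance QuadCoc.instGroup : Group (QuadCoc β) :=
  Group.ofLeftAxioms
    (fun a b c => by ext <;> simp <;> abel)
    (fun a => by ext <;> simp)
    (fun a => by
      ext
      · simp [quad_zmod2_add_self]
      · simp only [QuadCoc.mul_t, QuadCoc.inv_t, QuadCoc.inv_u, QuadCoc.one_t]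
        have h2 : (2 : ZMod 2) = 0 := rfl
        linear_combination (a.t + β a.u a.u) * h2)

instance QuadCoc.instFinite [Finite U] : Finite (QuadCoc β) :=
  Finite.of_injective (fun a : QuadCoc β => (a.u, a.t)) fun _ _ h =>
    QuadCoc.ext (congrArg Prod.fst h) (congrArg Prod.snd h)

/-- The quadratic model of the cocycle group. -/
def QuadCoc.quadES (q : QuadraticForm (ZMod 2) U) (h : ∀ u, q u = β u u) :
    QuadES (QuadCoc β) q where
  z := ⟨0, 1⟩
  χ a := a.u
  χ_mul _ _ := rfl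
  surj u := ⟨⟨u, 0⟩, rfl⟩
  z_ne h := one_ne_zero (congrArg QuadCoc.t h)
  ker a := by
    rcases a with ⟨u, t⟩
    rcases quad_zmod2_cases t with rfl | rfl <;> simp [QuadCoc.ext_iff]
  sq a := by
    rw [h]
    rcases quad_zmod2_cases (β a.u a.u) with e | e <;>
      simp [QuadCoc.ext_iff, e, quad_zmod2_add_self, ZMod.val_one]

/-- Every quadratic form over `𝔽₂` is the squaring map of a central extension. -/
theorem quad_exists_group [FiniteDimensional (ZMod 2) U] (q : QuadraticForm (ZMod 2) U) :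
    ∃ β : LinearMap.BilinForm (ZMod 2) U, Nonempty (QuadES (QuadCoc β) q) :=
  ⟨q.toBilin (Module.finBasis (ZMod 2) U), ⟨QuadCoc.quadES q fun u => by
    conv_lhs => rw [← q.toQuadraticMap_toBilin (Module.finBasis (ZMod 2) U)]
    rfl⟩⟩

end Cocycle

namespace QuadES

variable {E E' : Type*} [Group E] [Group E'] {U : Type*} [AddCommGroup U] [Module (ZMod 2) U]
  {q : QuadraticForm (ZMod 2) U} (M : QuadES E q)

/-- Transport along a group isomorphism. -/
def congrGroup (e : E ≃* E') : QuadES E' q where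
  z := e M.z
  χ a := M.χ (e.symm a)
  χ_mul a b := by rw [map_mul, M.χ_mul]
  surj := M.surj.comp e.symm.surjective
  z_ne := by simpa using M.z_ne
  ker a := by rw [M.ker, e.symm.map_eq_one_iff, e.symm_apply_eq]
  sq a := by rw [← map_pow, ← M.sq, map_mul, e.apply_symm_apply]

variable {ι : Type*} [Fintype ι] [DecidableEq ι] (ρ : E →* Matrix ι ι ℝ)

theorem trace_eq_zero (hq : (polarBilin q).Nondegenerate) (hz : ρ M.z = -1) {a : E}
    (ha : M.χ a ≠ 0) : (ρ a).trace = 0 := by
  obtain ⟨v, hv⟩ := quad_exists_polar_eq_one hq ha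
  obtain ⟨b, rfl⟩ := M.surj v
  have h := M.conj_eq b a
  rw [polar_comm, hv, M.zp_one] at h
  have h2 : (ρ (b * a * b⁻¹)).trace = (ρ a).trace := by
    rw [map_mul, Matrix.trace_mul_comm, ← map_mul]; simp
  rw [h, map_mul, hz] at h2
  simp only [neg_mul, one_mul, Matrix.trace_neg] at h2
  linarith

theorem rep_injective [Nonempty ι] (hq : (polarBilin q).Nondegenerate) (hz : ρ M.z = -1) :
    Function.Injective ρ := by
  refine (injective_iff_map_eq_one ρ).2 fun a ha => ?_
  have h1 : (ρ a).trace = Fintype.card ι := by rw [ha, Matrix.trace_one]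
  have h2 : (0 : ℝ) < Fintype.card ι := by exact_mod_cast Fintype.card_pos
  by_cases h : M.χ a = 0
  · refine ((M.ker a).1 h).resolve_right fun e => ?_
    rw [e, hz, Matrix.trace_neg, Matrix.trace_one] at h1
    linarith
  · rw [M.trace_eq_zero ρ hq hz h] at h1
    linarith

theorem exists_intertwiner [Finite E] [Nonempty ι] (hq : (polarBilin q).Nondegenerate)
    (hT : ∀ a, (ρ a)ᵀ = ρ a⁻¹) (hz : ρ M.z = -1)
    (hC : ∀ A : Matrix ι ι ℝ, (∀ a, A * ρ a = ρ a * A) → ∃ c : ℝ, A = c • 1) (φ : MulAut E) :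
    ∃ T : Matrix ι ι ℝ, Tᵀ * T = 1 ∧ ∀ a, T * ρ a = ρ (φ a) * T := by
  cases nonempty_fintype E
  let S : Matrix ι ι ℝ → Matrix ι ι ℝ := fun X => ∑ a, ρ (φ a) * X * ρ a⁻¹
  have hS : ∀ X b, S X * ρ b = ρ (φ b) * S X := by
    intro X b
    simp only [S, Finset.sum_mul, Finset.mul_sum]
    refine (Fintype.sum_equiv (Equiv.mulLeft b) _ _ fun a => ?_).symm
    simp only [Equiv.coe_mulLeft, map_mul, _root_.mul_inv_rev, mul_assoc]
    rw [← map_mul ρ b⁻¹, inv_mul_cancel, map_one, mul_one]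
  obtain ⟨X, hX⟩ : ∃ X, S X ≠ 0 := by
    by_contra! h
    have h1 : ∑ a, (ρ (φ a)).trace * (ρ a⁻¹).trace = 0 := by
      have : ∑ i, ∑ j, S (Matrix.single i j 1) i j = 0 := by simp [h]
      rw [← this]
      simp only [S, Matrix.sum_apply, Matrix.trace, Matrix.diag, Finset.sum_mul_sum]
      rw [Finset.sum_comm]
      refine Finset.sum_congr rfl fun i _ => ?_
      rw [Finset.sum_comm]
      refine Finset.sum_congr rfl fun j _ => Finset.sum_congr rfl fun a _ => ?_
      simp [Matrix.mul_apply, Matrix.single_apply, ite_and]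
    refine absurd h1 (Finset.sum_pos' (fun a _ => ?_) ⟨1, Finset.mem_univ _, ?_⟩).ne'
    · by_cases ha : M.χ a = 0
      · rcases (M.ker a).1 ha with rfl | rfl
        · simpa using mul_self_nonneg _
        · rw [M.map_z M hq φ, M.z_inv]; exact mul_self_nonneg _
      · rw [M.trace_eq_zero ρ hq hz (a := a⁻¹) (by simpa using ha), mul_zero]
    · simp [Fintype.card_pos]
  have hcomm : ∀ b, (S X)ᵀ * S X * ρ b = ρ b * ((S X)ᵀ * S X) := by
    intro b
    have := congrArg Matrix.transpose (hS X b⁻¹)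
    rw [Matrix.transpose_mul, Matrix.transpose_mul, hT, hT, map_inv φ, inv_inv, inv_inv] at this
    rw [mul_assoc, hS, ← mul_assoc, ← this, mul_assoc]
  obtain ⟨c, hc⟩ := hC _ hcomm
  have hc0 : c ≠ 0 := by
    rintro rfl
    rw [zero_smul] at hc
    exact hX (Matrix.conjTranspose_mul_self_eq_zero.1 hc)
  have hc1 : 0 ≤ c := by
    obtain ⟨i⟩ := ‹Nonempty ι›
    have := congrFun (congrFun hc i) i
    simp only [Matrix.mul_apply, Matrix.transpose_apply, Matrix.smul_apply, Matrix.one_apply_eq,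
      smul_eq_mul, mul_one] at this
    rw [← this]
    exact Finset.sum_nonneg fun j _ => mul_self_nonneg _
  refine ⟨(√c)⁻¹ • S X, ?_, fun a => by rw [Matrix.smul_mul, hS, Matrix.mul_smul]⟩
  rw [Matrix.transpose_smul, Matrix.smul_mul, Matrix.mul_smul, hc, smul_smul, smul_smul,
    ← mul_inv, Real.mul_self_sqrt hc1, inv_mul_cancel₀ hc0, one_smul]

end QuadES

/-- The normaliser of `E` in the orthogonal group of an absolutely irreducible real
representation: an extension of `Aut E` by the centre of `E`. -/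
theorem QuadES.exists_normaliser {E : Type} [Group E] [Finite E] {U : Type*} [AddCommGroup U]
    [Module (ZMod 2) U] {q : QuadraticForm (ZMod 2) U} (M : QuadES E q) {ι : Type} [Fintype ι]
    [DecidableEq ι] [Nonempty ι] (ρ : E →* Matrix ι ι ℝ) (hq : (polarBilin q).Nondegenerate)
    (hT : ∀ a, (ρ a)ᵀ = ρ a⁻¹) (hz : ρ M.z = -1)
    (hC : ∀ A : Matrix ι ι ℝ, (∀ a, A * ρ a = ρ a * A) → ∃ c : ℝ, A = c • 1) :
    ∃ (R : Type) (_ : Group R) (_ : Finite R) (j : E →* R) (π : R →* MulAut E),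
      Function.Injective j ∧ Function.Surjective π ∧ (∀ r a, r * j a * r⁻¹ = j (π r a)) ∧
      ∀ r, π r ∈ Inn E ↔ r ∈ j.range := by
  let R : Subgroup (Matrix.orthogonalGroup ι ℝ × MulAut E) :=
    { carrier := {p | ∀ a, p.1.1 * ρ a = ρ (p.2 a) * p.1.1}
      mul_mem' := fun {p r} hp hr a => by
        change p.1.1 * r.1.1 * ρ a = ρ (p.2 (r.2 a)) * (p.1.1 * r.1.1)
        rw [mul_assoc, hr, ← mul_assoc, hp, mul_assoc]
      one_mem' := fun a => by simp
      inv_mem' := fun {p} hp a => by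
        have h := hp (p.2⁻¹ a)
        rw [MulAut.apply_inv_self] at h
        change star p.1.1 * ρ a = ρ (p.2⁻¹ a) * star p.1.1
        calc star p.1.1 * ρ a = star p.1.1 * (ρ a * p.1.1) * star p.1.1 := by
              rw [mul_assoc, mul_assoc, p.1.2.2, mul_one]
          _ = _ := by rw [← h, ← mul_assoc, p.1.2.1, one_mul] }
  have horth : ∀ a, ρ a ∈ Matrix.orthogonalGroup ι ℝ := fun a => by
    rw [Matrix.mem_orthogonalGroup_iff', hT, ← map_mul, inv_mul_cancel, map_one]
  let j : E →* R := ((ρ.codRestrict _ horth).prod MulAut.conj).codRestrict R fun a b => by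
    change ρ a * ρ b = ρ (a * b * a⁻¹) * ρ a
    rw [← map_mul, ← map_mul, inv_mul_cancel_right]
  let π : R →* MulAut E := (MonoidHom.snd _ _).comp R.subtype
  have hker : ∀ r : R, π r = 1 → r = 1 ∨ r = j M.z := by
    rintro ⟨⟨⟨T, hT1⟩, φ⟩, hr⟩ (rfl : φ = 1)
    obtain ⟨c, rfl⟩ := hC T hr
    have h1 : c * c = 1 := by
      obtain ⟨i⟩ := ‹Nonempty ι›
      have := congrFun (congrFun ((Matrix.mem_orthogonalGroup_iff' _ _).1 hT1) i) i
      simpa using this
    rcases _root_.mul_self_eq_one_iff.1 h1 with rfl | rfl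
    · exact .inl (Subtype.ext (Prod.ext (Subtype.ext (one_smul _ _)) rfl))
    · refine .inr (Subtype.ext (Prod.ext (Subtype.ext ?_) ?_))
      · exact (neg_one_smul _ _).trans hz.symm
      · ext a
        change a = M.z * a * M.z⁻¹
        rw [M.z_comm, mul_inv_cancel_right]
  have hfin : Finite π.ker :=
    Set.Finite.subset (Set.toFinite {1, j M.z}) fun r hr => hker r hr
  refine ⟨R, inferInstance, (π.finite_iff_finite_ker_range).2 ⟨hfin, inferInstance⟩, j, π,
    fun a b h => M.rep_injective ρ hq hz (congrArg (fun r : R => r.1.1.1) h), fun φ => ?_,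
    fun r a => ?_, fun r => ⟨?_, ?_⟩⟩
  · obtain ⟨T, h1, h2⟩ := M.exists_intertwiner ρ hq hT hz hC φ
    exact ⟨⟨(⟨T, (Matrix.mem_orthogonalGroup_iff' _ _).2 h1⟩, φ), h2⟩, rfl⟩
  · rw [mul_inv_eq_iff_eq_mul]
    refine Subtype.ext (Prod.ext (Subtype.ext (r.2 a)) (MulEquiv.ext fun b => ?_))
    change r.1.2 (a * b * a⁻¹) = r.1.2 a * r.1.2 b * (r.1.2 a)⁻¹
    simp
  · rintro ⟨c, hc⟩
    have h1 : π ((j c)⁻¹ * r) = 1 := by rw [map_mul, map_inv, ← hc]; exact inv_mul_cancel _
    rcases hker _ h1 with h | h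
    · exact ⟨c, (inv_mul_eq_one.1 h)⟩
    · exact ⟨c * M.z, by rw [map_mul, ← h, mul_inv_cancel_left]⟩
  · rintro ⟨c, rfl⟩
    exact ⟨c, rfl⟩

section Plus

variable (n : ℕ)

/-- The cocycle `(x, y), (x', y') ↦ y · x'`. -/
def quad_plusCoc : LinearMap.BilinForm (ZMod 2) (Fin n ⊕ Fin n → ZMod 2) :=
  LinearMap.mk₂ (ZMod 2) (fun u v => (u ∘ Sum.inr) ⬝ᵥ (v ∘ Sum.inl))
    (fun _ _ _ => add_dotProduct _ _ _) (fun _ _ _ => smul_dotProduct _ _ _)
    (fun _ _ _ => dotProduct_add _ _ _) (fun _ _ _ => dotProduct_smul _ _ _)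

theorem quad_plusCoc_apply (u v : Fin n ⊕ Fin n → ZMod 2) :
    quad_plusCoc n u v = (u ∘ Sum.inr) ⬝ᵥ (v ∘ Sum.inl) := rfl

/-- The sign character of `𝔽₂`. -/
noncomputable def quad_sgn (t : ZMod 2) : ℝ := if t = 0 then 1 else -1

theorem quad_sgn_add (s t : ZMod 2) : quad_sgn (s + t) = quad_sgn s * quad_sgn t := by
  rcases quad_zmod2_cases s with rfl | rfl <;> rcases quad_zmod2_cases t with rfl | rfl <;>
    simp [quad_sgn, show (1 + 1 : ZMod 2) = 0 from rfl]

/-- The real representation of degree `2^n` of `2^(1+2n)_+`. -/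
noncomputable def quad_plusRep :
    QuadCoc (quad_plusCoc n) →* Matrix (Fin n → ZMod 2) (Fin n → ZMod 2) ℝ where
  toFun a := Matrix.of fun i j =>
    if i = j + a.u ∘ Sum.inl then quad_sgn (a.t + (a.u ∘ Sum.inr) ⬝ᵥ j) else 0
  map_one' := by
    ext i j
    simp [Matrix.one_apply, quad_sgn]
  map_mul' a b := by
    ext i j
    rw [Matrix.mul_apply, Finset.sum_eq_single (j + b.u ∘ Sum.inl) (fun k _ hk => by simp [hk])
      (by simp)]
    have h1 : (a * b).u ∘ Sum.inl = b.u ∘ Sum.inl + a.u ∘ Sum.inl := add_comm _ _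
    have h2 : (a * b).u ∘ Sum.inr = a.u ∘ Sum.inr + b.u ∘ Sum.inr := rfl
    simp only [Matrix.of_apply, h1, h2, if_true, add_assoc j, ite_mul, zero_mul, ← quad_sgn_add]
    congr 2
    simp only [QuadCoc.mul_t, quad_plusCoc_apply, add_dotProduct, dotProduct_add]
    ring

theorem quad_plusRep_apply (a : QuadCoc (quad_plusCoc n)) (i j : Fin n → ZMod 2) :
    quad_plusRep n a i j =
      if i = j + a.u ∘ Sum.inl then quad_sgn (a.t + (a.u ∘ Sum.inr) ⬝ᵥ j) else 0 := rfl

/-- The group `2^(1+2n)_+ . O⁺_{2n}(2)`. -/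
theorem quad_exists_clifford_group : ∃ (E : Type) (_ : Group E) (_ : Finite E)
    (_ : QuadES E (quad_plus n (ZMod 2))) (R : Type) (_ : Group R) (_ : Finite R) (j : E →* R)
    (π : R →* MulAut E), Function.Injective j ∧ Function.Surjective π ∧
      (∀ r a, r * j a * r⁻¹ = j (π r a)) ∧ ∀ r, π r ∈ Inn E ↔ r ∈ j.range := by
  let M : QuadES (QuadCoc (quad_plusCoc n)) (quad_plus n (ZMod 2)) :=
    QuadCoc.quadES _ fun u => by simp [quad_plus_apply, quad_plusCoc_apply, dotProduct, mul_comm]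
  refine ⟨_, inferInstance, inferInstance, M,
    M.exists_normaliser (quad_plusRep n) quad_plus_nondeg (fun a => ?_) ?_ fun A hA => ?_⟩
  · ext i j
    rw [Matrix.transpose_apply, quad_plusRep_apply, quad_plusRep_apply]
    have : j = i + a.u ∘ Sum.inl ↔ i = j + a.u ∘ Sum.inl := by
      constructor <;> rintro rfl <;> rw [add_assoc, quad_zmod2_add_self, add_zero]
    simp only [this, QuadCoc.inv_u, QuadCoc.inv_t]
    split_ifs with h
    · rw [h, dotProduct_add]
      congr 1
      simp only [quad_plusCoc_apply]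
      ring
    · rfl
  · ext i j
    change quad_plusRep n ⟨0, 1⟩ i j = _
    simp [quad_plusRep_apply, Matrix.one_apply, quad_sgn]
    split_ifs <;> simp
  · have h1 : ∀ i j, i ≠ j → A i j = 0 := by
      intro i j hij
      obtain ⟨k, hk⟩ := Function.ne_iff.1 hij
      have := congrFun (congrFun (hA ⟨Sum.elim 0 (Pi.single k 1), 0⟩) i) j
      simp only [Matrix.mul_apply, quad_plusRep_apply, Sum.elim_comp_inl, Sum.elim_comp_inr,
        add_zero, zero_add, mul_ite, ite_mul, mul_zero, zero_mul, Finset.sum_ite_eq,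
        Finset.sum_ite_eq', Finset.mem_univ, if_true, single_dotProduct, one_mul] at this
      rcases quad_zmod2_cases (i k) with h | h <;> rcases quad_zmod2_cases (j k) with h' | h' <;>
        simp [h, h', quad_sgn] at hk this <;> linarith
    have h2 : ∀ i, A i i = A 0 0 := by
      intro i
      have := congrFun (congrFun (hA ⟨Sum.elim i 0, 0⟩) i) 0
      rw [Matrix.mul_apply, Matrix.mul_apply, Finset.sum_eq_single i (fun k _ hk => by
        rw [h1 _ _ hk.symm, zero_mul]) (by simp), Finset.sum_eq_single 0 (fun k _ hk => by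
        rw [h1 _ _ hk, mul_zero]) (by simp)] at this
      simpa [quad_plusRep_apply, quad_sgn] using this
    refine ⟨A 0 0, ?_⟩
    ext i j
    by_cases hij : i = j
    · simp [hij, h2]
    · simp [hij, h1 i j hij]

end Plus

end Cfsg.Agent.Cl
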