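import Mathlib
import Cfsg.Agent.Cl.QuadSimInv
import Cfsg.Agent.Cl.ClassSpOAdj
import Cfsg.Agent.Cl.ClassDet
import Cfsg.Agent.Cl.ClassSemis
import Cfsg.Agent.Cl.SpecSpin

/-!
# Centralisers in `GO` of semisimple elements of odd order
-/

set_option autoImplicit false

namespace Cfsg.Agent.Cl

open QuadraticMap Module Matrix Cls SpO

universe u

section Ring

theorem quad_exists_idem_pow {R : Type*} [Monoid R] [Finite R] (x : R) :
    ∃ N, 0 < N ∧ x ^ N * x ^ N = x ^ N := by
  obtain ⟨i, d, hd, h⟩ : ∃ i d, 0 < d ∧ x ^ (i + d) = x ^ i := by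
    obtain ⟨i, j, hij, h⟩ := Finite.exists_ne_map_eq_of_infinite fun n : ℕ => x ^ n
    rcases lt_or_gt_of_ne hij with H | H
    · exact ⟨i, j - i, by omega, by rw [Nat.add_sub_cancel' H.le]; exact h.symm⟩
    · exact ⟨j, i - j, by omega, by rw [Nat.add_sub_cancel' H.le]; exact h⟩
  have key : ∀ k, x ^ (i + k * d) = x ^ i := fun k => by
    induction k with
    | zero => simp
    | succ k ih => rw [add_mul, one_mul, ← add_assoc, pow_add, ih, ← pow_add, h]
  refine ⟨(i + 1) * d, by positivity, ?_⟩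
  obtain ⟨e, he⟩ : ∃ e, (i + 1) * d = i + e := ⟨(i + 1) * d - i, by
    rw [Nat.add_sub_cancel']; nlinarith⟩
  calc x ^ ((i + 1) * d) * x ^ ((i + 1) * d) = x ^ (i + (i + 1) * d) * x ^ e := by
        rw [← pow_add, ← pow_add]; congr 1; omega
    _ = _ := by rw [key, ← pow_add, he]

theorem quad_exists_unit_trace_comm {R : Type*} [CommRing R] [Finite R] (ρ : R →+* R)
    (hρ : ∀ x, ρ (ρ x) = x) {c η : R} (hc : IsUnit c) (hη : η * ρ η = 1)
    (hs : IsUnit (η - ρ η)) : ∃ w, w * ρ w = 1 ∧ IsUnit (c * w + ρ (c * w)) := by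
  obtain ⟨N, hN, hf⟩ := quad_exists_idem_pow (c + ρ c)
  have h1 : ρ ((c + ρ c) ^ N) = (c + ρ c) ^ N := by rw [map_pow, map_add, hρ, add_comm]
  have h2 : ∀ I : Ideal R, I.IsPrime → ((c + ρ c) ^ N ∈ I ↔ c + ρ c ∈ I) := fun I hI =>
    ⟨hI.mem_of_pow_mem N, fun h => I.pow_mem_of_mem h N hN⟩
  generalize (c + ρ c) ^ N = f at *
  refine ⟨f + (1 - f) * η, ?_, ?_⟩
  · simp only [map_add, map_mul, map_sub, map_one, h1]
    linear_combination (1 - f) ^ 2 * hη + (2 - η - ρ η) * hf
  · by_contra H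
    obtain ⟨I, hI, hy⟩ := exists_max_ideal_of_mem_nonunits H
    have hp := hI.isPrime
    simp only [map_add, map_mul, map_sub, map_one, h1] at hy
    rcases hp.mem_or_mem (x := f) (y := 1 - f) (by
      rw [mul_sub, mul_one, hf, sub_self]; exact zero_mem _) with h3 | h3
    · refine hI.ne_top (I.eq_top_of_isUnit_mem ?_ (hc.mul hs))
      convert sub_mem (sub_mem hy (I.mul_mem_left (c * η + ρ c * ρ η - c - ρ c) (neg_mem h3)))
        (I.mul_mem_left (ρ η) ((h2 I hp).1 h3)) using 1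
      ring
    · have h4 : f ∈ I := by
        rcases hp.mem_or_mem (x := f) (y := c + ρ c) (by
          convert sub_mem hy (I.mul_mem_left (c * η + ρ c * ρ η) h3) using 1
          ring) with h | h
        exacts [h, (h2 I hp).2 h]
      exact hI.ne_top ((Ideal.eq_top_iff_one I).2 (by simpa using add_mem h4 h3))

open scoped IsMulCommutative in
theorem quad_exists_unit_trace {R : Type*} [Ring R] [Finite R] {τ : R → R} (hτ : IsAntiInv τ)
    {c η : R} (hc : IsUnit c) (hη : η * τ η = 1) (hs : IsUnit (η - τ η))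
    (h1 : Commute c (τ c)) (h2 : Commute c η) (h3 : Commute c (τ η)) (h4 : Commute η (τ η)) :
    ∃ w, w * τ w = 1 ∧ IsUnit (c * w + τ (c * w)) ∧ Commute (c * w) (τ (c * w)) ∧
      Commute η w ∧ Commute (τ η) w := by
  have h5 : Commute (τ c) η := hτ.commute_iff.2 h3
  have h6 : Commute (τ c) (τ η) := hτ.antiHom.commute h2
  let S : Set R := {c, τ c, η, τ η}
  have hcomm : ∀ x ∈ S, ∀ y ∈ S, x * y = y * x := by
    rintro x (rfl | rfl | rfl | rfl) y (rfl | rfl | rfl | rfl) <;>
      first | rfl | assumption | (symm; assumption)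
  have hS : ∀ x ∈ S, τ x ∈ Subring.closure S := by
    rintro x (rfl | rfl | rfl | rfl) <;> exact Subring.subset_closure (by simp [S, hτ.invol])
  have := Subring.isMulCommutative_closure hcomm
  let ρ : Subring.closure S →+* Subring.closure S :=
    { toFun := fun x => ⟨τ x, hτ.antiHom.map_mem_closure hS x.2⟩
      map_one' := Subtype.ext hτ.one
      map_mul' := fun x y => by
        rw [mul_comm' x y]
        exact Subtype.ext (hτ.mul y x)
      map_zero' := Subtype.ext hτ.antiHom.zero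
      map_add' := fun x y => Subtype.ext (hτ.add x y) }
  have hcS : c ∈ Subring.closure S := Subring.subset_closure (by simp [S])
  have hηS : η ∈ Subring.closure S := Subring.subset_closure (by simp [S])
  obtain ⟨w, a, b⟩ := quad_exists_unit_trace_comm ρ (fun x => Subtype.ext (hτ.invol x))
    (c := ⟨c, hcS⟩) (η := ⟨η, hηS⟩) (isUnit_subring_of_isUnit _ _ hc) (Subtype.ext hη)
    (isUnit_subring_of_isUnit _ _ hs)
  have key : ∀ x y : Subring.closure S, Commute (x : R) y := fun x y =>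
    congrArg Subtype.val (mul_comm' x y)
  exact ⟨w, congrArg Subtype.val a, b.map (Subring.closure S).subtype,
    key (⟨c, hcS⟩ * w) (ρ (⟨c, hcS⟩ * w)), key ⟨η, hηS⟩ w, key (ρ ⟨η, hηS⟩) w⟩

end Ring

section Abstract

variable {F V : Type*} [Field F] [AddCommGroup V] [Module F V] [FiniteDimensional F V]
  {Q : QuadraticForm F V} {M : ℕ}

theorem quad_isSquare_det_alt {A : LinearMap.BilinForm F V} (hA : A.Nondegenerate)
    (hAlt : A.IsAlt) (hV : finrank F V = 2 * M) {y : V →ₗ[F] V} (hy : Function.Bijective y)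
    (hAlt' : LinearMap.BilinForm.IsAlt (A.compl₁₂ y LinearMap.id)) :
    IsSquare (LinearMap.det y) := by
  have hA' : LinearMap.BilinForm.Nondegenerate (A.compl₁₂ y LinearMap.id) :=
    hAlt'.isRefl.nondegenerate_iff_separatingLeft.2 fun x hx =>
      hy.1 ((hA.1 _ hx).trans (map_zero y).symm)
  obtain ⟨e, he⟩ := sp_exists_equiv hA hAlt hV
  obtain ⟨e', he'⟩ := sp_exists_equiv hA' hAlt' hV
  let g : V ≃ₗ[F] V := e'.trans e.symm
  have hg : ∀ u v, A (g u) (g v) = A (y u) v := fun u v => by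
    rw [← he]; simpa [g] using he' u v
  let b := Module.finBasis F V
  have h1 : A.comp (g : V →ₗ[F] V) g = A.comp y LinearMap.id := by
    ext u v; exact hg u v
  have h2 := congrArg (fun B => (LinearMap.BilinForm.toMatrix b B).det) h1
  simp only [LinearMap.BilinForm.toMatrix_comp b b, Matrix.det_mul, Matrix.det_transpose,
    LinearMap.det_toMatrix, LinearMap.det_id, mul_one] at h2
  refine ⟨LinearMap.det (g : V →ₗ[F] V), mul_right_cancel₀
    ((LinearMap.BilinForm.nondegenerate_iff_det_ne_zero b).1 hA) ?_⟩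
  rw [← h2]; ring

omit [FiniteDimensional F V] in
theorem quad_disjoint_ofix_ocomm {h : OG Q} {r : ℕ} (hr0 : (r : F) ≠ 0) (hh : h ^ r = 1) :
    Disjoint (ofix h) (ocomm h) := by
  rw [Submodule.disjoint_def]
  rintro _ hx ⟨y, rfl⟩
  change h.1 y - y ∈ _ at hx
  change h.1 y - y = 0
  rw [mem_ofix] at hx
  have key : ∀ n : ℕ, (h ^ n).1 y = y + (n : F) • (h.1 y - y) := fun n => by
    induction n with
    | zero => simp
    | succ n ih =>
      rw [pow_succ', OG.mul_app, ih, map_add, map_smul, hx]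
      push_cast
      module
  have := key r
  rw [hh, OG.one_app, left_eq_add] at this
  exact (smul_eq_zero.1 this).resolve_left hr0

omit [FiniteDimensional F V] in
theorem quad_fix_of_sq {h : OG Q} {r : ℕ} (hr : Odd r) (hh : h ^ r = 1) {v : V}
    (hv : h.1 v = (h⁻¹).1 v) : h.1 v = v := by
  obtain ⟨k, rfl⟩ := hr
  have h1 : (h ^ 2).1 v = v := by rw [pow_two, OG.mul_app, hv, OG.app_inv_app]
  have key : ∀ n : ℕ, ((h ^ 2) ^ n).1 v = v := fun n => by
    induction n with
    | zero => simp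
    | succ n ih => rw [pow_succ, OG.mul_app, h1, ih]
  conv_lhs => rw [← key k]
  rw [← OG.mul_app, ← pow_mul, ← pow_succ', hh, OG.one_app]

namespace QuadEven

variable (E : QuadEven Q M) {h : OG Q} (hd : dickson E.nd h = 1) {r : ℕ} (hr : Odd r)
  (hr0 : (r : F) ≠ 0) (hh : h ^ r = 1)
include E hd

theorem even_ofix : Even (finrank F (ofix h)) := by
  have h1 := orank_add_finrank_ofix h
  obtain ⟨k, hk⟩ := (dickson_eq_one_iff E.nd h).1 hd
  rw [E.rank, hk] at h1
  exact ⟨M - k, by omega⟩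

include hr0 hh

omit hd in
theorem nondeg_ofix : (polarBilin (Q.comp (ofix h).subtype)).Nondegenerate :=
  (quad_restrict_nondeg_iff Q _).2 (by
    have := quad_disjoint_ofix_ocomm hr0 hh
    rw [← operp_ofix E.nd] at this
    exact this.eq_bot)

include hr

theorem exists_anti : ∃ s : V →ₗ[F] V, (∀ x y, polar Q (s x) y = -polar Q x (s y)) ∧
    Function.Bijective s ∧ ∀ x, h.1 (s x) = s (h.1 x) := by
  have hdis := quad_disjoint_ofix_ocomm hr0 hh
  have hc : IsCompl (ofix h) (ocomm h) := ⟨hdis, codisjoint_iff.2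
    (Submodule.eq_top_of_disjoint _ _ (by
      rw [← orank_add_finrank_ofix h, add_comm]; rfl) hdis)⟩
  obtain ⟨k, hk⟩ := E.even_ofix hd
  let e : ofix h ≃ₗ[F] (Fin k ⊕ Fin k → F) :=
    LinearEquiv.ofFinrankEq _ _ (by rw [hk, o_finrank_plus, two_mul])
  obtain ⟨j, hj⟩ := exists_rep (E.nondeg_ofix hr0 hh) ((spB k F).compl₁₂ e e)
  replace hj : ∀ u v : ofix h, polar Q (j u : V) v = spB k F (e u) (e v) := fun u v =>
    (quad_polar_restrict Q _ _ _).symm.trans (hj u v)
  let π := (ofix h).projectionOnto _ hc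
  have hπ : ∀ (u : ofix h) y, polar Q (u : V) y = polar Q (u : V) (π y) := fun u y => by
    obtain ⟨a, b, rfl⟩ := exists_add_of_isCompl hc y
    have := mem_operp.1 ((operp_ocomm E.nd h).ge u.2)
    simp [π, polar_comm Q u b, this b b.2]
  have hπh : ∀ x, π (h.1 x) = π x := fun x => by
    rw [← sub_eq_zero, ← map_sub]
    exact Submodule.projectionOnto_apply_of_mem_right hc (sub_mem_ocomm h x)
  let s : V →ₗ[F] V := (h.1 : V →ₗ[F] V) - ((h⁻¹).1 : V →ₗ[F] V) + (ofix h).subtype ∘ₗ j ∘ₗ π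
  have hs : ∀ x, s x = h.1 x - (h⁻¹).1 x + j (π x) := fun _ => rfl
  have hinj : Function.Injective s := (injective_iff_map_eq_zero s).2 fun v hv => by
    have h1 : h.1 v - (h⁻¹).1 v ∈ ocomm h := by
      have := add_mem (sub_mem_ocomm h v) (sub_mem_ocomm h ((h⁻¹).1 v))
      rwa [OG.app_inv_app, sub_add_sub_cancel] at this
    rw [hs, add_eq_zero_iff_eq_neg] at hv
    have h2 := Submodule.disjoint_def.1 hdis _ (hv ▸ neg_mem (j (π v)).2) h1
    have h3 : v ∈ ofix h := mem_ofix.2 (quad_fix_of_sq hr hh (sub_eq_zero.1 h2))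
    rw [h2, eq_comm, neg_eq_zero, show π v = ⟨v, h3⟩ from
      Submodule.projectionOnto_apply_left hc ⟨v, h3⟩] at hv
    have h4 : e ⟨v, h3⟩ = 0 := spB_nondegenerate.1 _ fun y => by
      obtain ⟨y, rfl⟩ := e.surjective y
      rw [← hj, hv, polar_zero_left]
    exact congrArg Subtype.val (e.map_eq_zero_iff.1 h4)
  refine ⟨s, fun x y => ?_, ⟨hinj, LinearMap.injective_iff_surjective.1 hinj⟩, fun x => ?_⟩
  · simp only [hs, oexp, OG.polar_inv_left, OG.polar_inv_right]
    rw [hπ, hj, polar_comm Q x (j (π y)), hπ, hj, ← spB_isAlt.neg_eq]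
    ring
  · simp only [hs, map_add, map_sub, hπh, OG.app_inv_app, OG.inv_app_app, mem_ofix.1 (j (π x)).2]

variable [Finite F]

theorem exists_comm_mult (c : Fˣ) : ∃ d : quad_GO Q, quad_mult Q d = c ∧ E.δ d = 1 ∧
    d * quad_incl Q h = quad_incl Q h * d := by
  obtain ⟨s, h1, h2, h3⟩ := E.exists_anti hd hr hr0 hh
  have hτ := adj_isAntiInv E.nd (isEps_polar Q) (one_mul 1)
  have : Finite (End F V) := Module.finite_of_finite F
  have h4 : adj E.nd s = -s := adj_eq E.nd fun u v => by simp [h1]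
  have h5 : IsUnit (s : End F V) := (Module.End.isUnit_iff s).2 h2
  have h6 : ∀ a : F, a ≠ 0 → IsUnit (algebraMap F (End F V) a) := fun a ha =>
    (IsUnit.mk0 a ha).map _
  obtain ⟨d, hdS, hdu, h7, -⟩ := hτ.exists_norm_eq (z := s) (h := algebraMap F _ (c : F))
    (by
      rw [h4, sub_neg_eq_add, ← two_mul, ← map_ofNat (algebraMap F (End F V))]
      exact (h6 2 E.two).mul h5)
    (by rw [h4]; exact (Commute.refl s).neg_right) (h6 c c.ne_zero)
    (adj_eq E.nd fun u v => by simp [Module.algebraMap_end_apply])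
    (Algebra.commute_algebraMap_right _ _)
  have h8 : ∀ w : End F V, Commute w s → Commute w d := fun w hw =>
    commute_of_mem_closure (by
      rintro x (rfl | rfl | rfl)
      exacts [Algebra.commute_algebraMap_right _ _, hw, h4 ▸ hw.neg_right]) hdS
  have h9 : ∀ v, Q (d v) = c * Q v := fun v => mul_left_cancel₀ E.two (by
    have := adj_spec E.nd d (d v) v
    rw [← Module.End.mul_apply, h7] at this
    simp only [Module.algebraMap_end_apply, polarBilin_apply_apply, oexp] at this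
    linear_combination -this)
  let d' : quad_GO Q := ⟨LinearEquiv.ofBijective d ((Module.End.isUnit_iff d).1 hdu), c, h9⟩
  exact ⟨d', Units.ext (quad_mult_eq E.exists_ne h9), E.δ_eq_one_of_anti h1 h2 fun x =>
    (LinearMap.congr_fun (h8 s (Commute.refl s)).eq x).symm, quad_GO_ext fun x =>
    (LinearMap.congr_fun (h8 h.1 (LinearMap.ext h3)).eq x).symm⟩

theorem exists_comm_spin :
    ∃ k : OG Q, dickson E.nd k = 1 ∧ ospin E.nd k = -1 ∧ k * h = h * k := by
  have := Fintype.ofFinite F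
  obtain ⟨ε, hε⟩ := FiniteField.exists_nonsquare (F := F) (o_ringChar_ne_two E.two)
  have hε0 : ε ≠ 0 := by rintro rfl; exact hε IsSquare.zero
  by_cases h0 : ofix h = ⊥
  swap
  · have h1 : 2 ≤ finrank F (ofix h) := by
      obtain ⟨k, hk⟩ := E.even_ofix hd
      have : finrank F (ofix h) ≠ 0 := fun h => h0 (Submodule.finrank_eq_zero.1 h)
      omega
    obtain ⟨v, hv⟩ := quad_exists_eq (E.nondeg_ofix hr0 hh) h1 1
    obtain ⟨w, hw⟩ := quad_exists_eq (E.nondeg_ofix hr0 hh) h1 ε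
    change Q v = 1 at hv
    change Q w = ε at hw
    have hv0 : Q v ≠ 0 := by rw [hv]; exact one_ne_zero
    have hw0 : Q w ≠ 0 := by rwa [hw]
    refine ⟨orefl Q v * orefl Q w, ?_, ?_, ?_⟩
    · rw [map_mul, dickson_orefl _ hv0, dickson_orefl _ hw0]; simp
    · rw [map_mul, ospin_orefl _ hv0, ospin_orefl _ hw0, hv, hw, sqSign_eq_neg_one_iff.2 hε]
      simp
    · rw [← mul_assoc, mul_orefl h, mem_ofix.1 v.2, mul_assoc, mul_assoc, mul_orefl h,
        mem_ofix.1 w.2]
  have hτ := adj_isAntiInv E.nd (isEps_polar Q) (one_mul 1)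
  have : Finite (End F V) := Module.finite_of_finite F
  set τ := adj E.nd with hτdef
  let η : End F V := (h.1 : V →ₗ[F] V)
  have hη : τ η = ((h⁻¹).1 : V →ₗ[F] V) := adj_eq E.nd fun u v => OG.polar_inv_left h u v
  have hη1 : η * τ η = 1 := by rw [hη]; ext x; simp [η]
  have hη2 : τ η * η = 1 := by rw [hη]; ext x; simp [η]
  have hηη : Commute η (τ η) := hη1.trans hη2.symm
  have hs : IsUnit (η - τ η) := by
    rw [LinearMap.isUnit_iff_ker_eq_bot, LinearMap.ker_eq_bot', hη]
    intro v hv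
    rw [← Submodule.mem_bot F, ← h0, mem_ofix]
    exact quad_fix_of_sq hr hh (sub_eq_zero.1 hv)
  have hanti : ∀ x y, polar Q ((η - τ η) x) y = -polar Q x ((η - τ η) y) := fun x y => by
    simp only [hη, η, LinearMap.sub_apply, LinearEquiv.coe_coe, oexp, OG.polar_inv_left,
      OG.polar_inv_right]
    ring
  have hinv : ∀ {w : End F V}, Commute η w → Commute (τ η) w := fun {w} hw => by
    rw [Commute, SemiconjBy, ← mul_one (τ η * w), ← hη1, ← mul_assoc, mul_assoc (τ η), ← hw.eq,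
      ← mul_assoc, hη2, one_mul]
  -- unitary elements commuting with `h`
  have hunit : ∀ u : End F V, τ u * u = 1 → Commute η u →
      ∃ k : OG Q, (k.1 : End F V) = u ∧ dickson E.nd k = 1 ∧ k * h = h * k := fun u hu hc => by
    have h1 : ∀ v, Q (u v) = Q v := fun v => mul_left_cancel₀ E.two (by
      have := adj_spec E.nd u (u v) v
      rw [← Module.End.mul_apply, hu] at this
      simp only [Module.End.one_apply, polarBilin_apply_apply, oexp] at this
      linear_combination -this)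
    have h2 : IsUnit u := IsUnit.of_mul_eq_one_right _ hu
    let k : OG Q := ⟨LinearEquiv.ofBijective u ((Module.End.isUnit_iff u).1 h2), h1⟩
    refine ⟨k, rfl, ?_, OG.ext fun x => (LinearMap.congr_fun hc.eq x).symm⟩
    rw [← E.δ_incl]
    exact E.δ_eq_one_of_anti hanti ((Module.End.isUnit_iff _).1 hs) fun x =>
      (LinearMap.congr_fun (hc.sub_left (hinv hc)).eq x).symm
  have hdet : ∀ u : End F V, τ u * u = 1 → Commute η u → LinearMap.det u = 1 := fun u hu hc => by
    obtain ⟨k, rfl, hk, -⟩ := hunit u hu hc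
    exact (det_eq_one_iff_dickson E.nd E.two k).2 hk
  -- an element of the centraliser with non-square determinant
  obtain ⟨β, hβ, hβd⟩ : ∃ β : End F V, Commute η β ∧ LinearMap.det β = ε := by
    obtain ⟨P, hP⟩ := Multiset.exists_mem_of_ne_zero (s := ed η) (by
      rw [Ne, ed_eq_zero_iff, E.rank]; have := E.le; omega)
    have h1 := (aeval_eq_zero_iff_ed η (Polynomial.X ^ r - Polynomial.C 1)).1 (by
      have : η ^ r = 1 := by
        ext v
        have := congrArg (fun k : OG Q => k.1 v) hh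
        rw [Module.End.pow_apply]
        exact (LinearEquiv.pow_apply h.1 r v).symm.trans this
      simp [this]) P hP
    have h2 := (isPP_of_mem_ed hP).irreducible_of_squarefree
      ((Polynomial.separable_X_pow_sub_C 1 hr0 one_ne_zero).squarefree.squarefree_of_dvd h1)
    simpa using exists_commute_det_eq (k := 1) (isPP_of_mem_ed hP).monic h2 (by simpa using hP) ε
  have hβu : IsUnit β := (LinearMap.isUnit_iff_isUnit_det β).2 (hβd ▸ IsUnit.mk0 ε hε0)
  have hβ' : Commute η (τ β) := hτ.commute_iff.1 (hinv hβ)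
  obtain ⟨_, hcS, ⟨c, rfl⟩, hc1, hc2⟩ := hτ.exists_norm_eq hs hηη ((hτ.antiHom.isUnit hβu).mul hβu)
    (by rw [hτ.mul, hτ.invol]) (hβ'.mul_right hβ)
  have hc3 : Commute η c := commute_of_mem_closure (by
    rintro x (rfl | rfl | rfl)
    exacts [hβ'.mul_right hβ, Commute.refl _, hηη]) hcS
  have hcd : LinearMap.det (c : End F V) = ε := by
    have := hdet (β * ↑c⁻¹) (by
      rw [hτ.mul, mul_assoc, ← mul_assoc (τ β), ← hc1, mul_assoc, Units.mul_inv, mul_one,
        ← hτ.mul, Units.mul_inv, hτ.one]) (hβ.mul_right hc3.units_inv_right)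
    rw [← hβd, ← Units.inv_mul_cancel_right β c, map_mul, this, one_mul]
  obtain ⟨w, hw1, hw2, hw3, hw4, -⟩ := quad_exists_unit_trace hτ c.isUnit hη1 hs
    (hc2.trans hc1.symm) hc3.symm (hinv hc3).symm hηη
  have hw5 : τ w * w = 1 := mul_eq_one_comm.1 hw1
  have hd' : LinearMap.det (c * w : End F V) = ε := by rw [map_mul, hcd, hdet w hw5 hw4, mul_one]
  have hc4 : Commute η (c * w) := hc3.mul_right hw4
  have hu : IsUnit (c * w : End F V) := c.isUnit.mul (IsUnit.of_mul_eq_one _ hw1)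
  generalize (c * w : End F V) = y at hw2 hw3 hd' hc4 hu
  obtain ⟨y, rfl⟩ := hu
  have hy1 : τ y * τ ↑y⁻¹ = 1 := by rw [← hτ.mul, Units.inv_mul, hτ.one]
  have hy2 : Commute (τ ↑y⁻¹) (τ y) := hτ.antiHom.commute (Commute.refl (y : End F V)).units_inv_left
  obtain ⟨k, hk1, hk2, hk3⟩ := hunit (↑y⁻¹ * τ y) (by
    rw [hτ.mul, hτ.invol, hw3.units_inv_left.eq, mul_assoc, ← mul_assoc (τ _), hy2.eq, hy1,
      one_mul, Units.mul_inv])
    (hc4.units_inv_right.mul_right (hτ.commute_iff.1 (hinv hc4)))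
  refine ⟨k, hk2, ?_, hk3⟩
  have h1 : (y : End F V) * (1 + (k.1 : End F V)) = y + τ y := by
    rw [hk1, mul_add, mul_one, Units.mul_inv_cancel_left]
  have h2 := congrArg LinearMap.det h1
  rw [map_mul, hd'] at h2
  have h3 := ((LinearMap.isUnit_iff_isUnit_det _).1 hw2).ne_zero
  have h4 : LinearMap.det (1 + (k.1 : End F V)) ≠ 0 := by
    intro h; rw [h, mul_zero] at h2; exact h3 h2.symm
  obtain ⟨a1, a2⟩ := quad_alt_of_anti E.two E.nd hanti ((Module.End.isUnit_iff _).1 hs)
  have h5 : Commute (η - τ η) (y + τ y) :=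
    (hc4.add_right (hτ.commute_iff.1 (hinv hc4))).sub_left
      (hinv (hc4.add_right (hτ.commute_iff.1 (hinv hc4))))
  have h6 : IsSquare (LinearMap.det (y + τ y : End F V)) :=
    quad_isSquare_det_alt a1 a2 E.rank ((Module.End.isUnit_iff _).1 hw2)
      (quad_alt_of_anti E.two E.nd (s := (η - τ η) * (y + τ y)) (fun a b => by
        have h7 := adj_spec E.nd (y + τ y : End F V) a ((η - τ η) b)
        rw [← hτdef, hτ.add, hτ.invol, add_comm (τ _)] at h7
        rw [Module.End.mul_apply, hanti, h5.eq, Module.End.mul_apply]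
        exact congrArg Neg.neg h7) ((Module.End.isUnit_iff _).1 (hs.mul hw2))).2
  rw [spec_zassenhaus E.two E.nd k h4, sqSign_eq_neg_one_iff, E.rank, pow_mul',
    quad_isSquare_sq_mul (pow_ne_zero _ E.two)]
  intro h7
  exact hε (quad_isSquare_of_mul h4 h7 (h2 ▸ h6))

end QuadEven

end Abstract

section Mat

variable {F : Type u} [Field F] [Fintype F] {ι : Type} [Fintype ι] [DecidableEq ι]
  {P : QuadraticForm F (ι → F)} {M : ℕ}

theorem QuadEven.fusion (E : QuadEven P M) (hM : 3 ≤ M) {H : Subgroup (MulAut (POmega F ⇑P))}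
    (hH : H = E.δ.ker.map (quad_θ P)) {x : MulAut (POmega F ⇑P)} (hx : x ∈ pgoAut F ⇑P) {r : ℕ}
    (hr : Odd r) (hr0 : (r : F) ≠ 0) (hxr : orderOf x = r) :
    (∀ y, (IsConjUnder (Inn (POmega F ⇑P)) x y ↔ IsConjUnder H x y) ∧
      (IsConjUnder (psoAut F ⇑P) x y ↔ IsConjUnder H x y)) ∧
    ∀ y, IsConjUnder (poAut F ⇑P) x y ↔ IsConjUnder (pgoAut F ⇑P) x y := by
  have hxr' : x ^ r = 1 := hxr ▸ pow_orderOf_eq_one x
  obtain ⟨h, rfl, hd, hh⟩ : ∃ h : OG P, quad_θ P (quad_incl P h) = x ∧ dickson E.nd h = 1 ∧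
      h ^ r = 1 := by
    rw [quad_pgoAut_eq] at hx
    obtain ⟨g, -, rfl⟩ := hx
    obtain ⟨k, hk, z, rfl⟩ := quad_mem_ZS.1 (E.tri.mem_N_of_odd E.relIndex_cases (g := g) hr
      (E.ker_le hM (by rw [MonoidHom.mem_ker, map_pow, hxr'])))
    rw [map_mul, quad_θ_scal, mul_one] at hxr' ⊢
    have h1 : quad_incl P (k ^ r) ∈ quad_ZS ⊥ :=
      quad_ker_θ_le E.nd (E.five_le hM) _ (by rw [MonoidHom.mem_ker, map_pow, map_pow, hxr'])
    refine ⟨k ^ (r + 1), by rw [map_pow, map_pow, pow_succ, hxr', one_mul], by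
      rw [map_pow, ((mem_commutator_OG_iff E.nd E.exc k).1 hk).1, one_pow], ?_⟩
    obtain ⟨j, hj⟩ := hr.add_one
    rw [← pow_mul, mul_comm, pow_mul, hj, ← two_mul, pow_mul]
    rcases (quad_incl_mem_ZS_iff E.exists_ne).1 h1 with h2 | h2
    · rw [Subgroup.mem_bot.1 h2, one_pow, one_pow]
    · rw [eq_inv_of_mul_eq_one_left (Subgroup.mem_bot.1 h2), inv_pow, pow_two, OG.negOne_mul_self,
        inv_one, one_pow]
  obtain ⟨ε, hε⟩ := FiniteField.exists_nonsquare (F := F) (o_ringChar_ne_two E.two)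
  have hε0 : ε ≠ 0 := by rintro rfl; exact hε IsSquare.zero
  obtain ⟨d, h1, h2, h3⟩ := E.exists_comm_mult hd hr hr0 hh (Units.mk0 ε hε0)
  rw [hH, E.Inn_eq, E.pso_eq, E.po_eq, quad_pgoAut_eq]
  refine E.tri.fusion (d := d) (by rw [← map_mul, h3, map_mul])
    ((quad_μ_apply d).trans (by rw [h1]; exact sqSign_eq_neg_one_iff.2 hε)) h2 ?_
  by_cases H : OG.negOne P ∈ commutator (OG P)
  · obtain ⟨k, a, b, c⟩ := E.exists_comm_spin hd hr hr0 hh
    exact Or.inr ⟨E.relIndex_eq_two H, _, E.tri_S ▸ quad_incl_mem_ZS (k := k) a,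
      by rw [E.incl_mem_N_iff H, b]; simp, by rw [← map_mul, ← map_mul, c, map_mul, map_mul]⟩
  · exact Or.inl (E.relIndex_eq_one H)

end Mat

end Cfsg.Agent.Cl
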