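import Mathlib
import Cfsg.Agent.Cl.LowSp4
import Cfsg.Agent.Cl.MxQS
import Cfsg.Agent.Cl.MxO6

/-!
# Quasisimple absolutely irreducible subgroups of `Sp₄(q)`, `q` odd: definitions

Matrices of a subgroup (`Mem`), the symplectic adjoint `ad`, the orthogonal 5-space `W` of
self-adjoint matrices of trace zero with its form `ip`, non-central involutions `D`.
-/

set_option autoImplicit false
set_option linter.unusedSectionVars false
set_option linter.unusedVariables false
set_option linter.ambiguousOpen false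

namespace Cfsg.Agent.Cl.S4O

open Matrix Low Max Mx Geo

/-- The index set. -/
abbrev I4 := Fin 2 ⊕ Fin 2

variable {F : Type*} [Field F] {P : Subgroup (GL I4 F)} {X Y Z g h s t : M4 F}

/-- The adjoint for the symplectic form. -/
def ad (X : M4 F) : M4 F := -(J (Fin 2) F * Xᵀ * J (Fin 2) F)

theorem ad_mul (X Y : M4 F) : ad (X * Y) = ad Y * ad X := by
  have := J_squared (Fin 2) F
  simp only [ad, transpose_mul, neg_mul_neg]
  linear_combination (norm := noncomm_ring) (J (Fin 2) F * Yᵀ) * this * (Xᵀ * J (Fin 2) F) * (-1)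

theorem ad_ad (X : M4 F) : ad (ad X) = X := by
  have := J_squared (Fin 2) F
  simp only [ad, transpose_neg, transpose_mul, J_transpose, transpose_transpose]
  linear_combination (norm := noncomm_ring)
    this * X * (J (Fin 2) F * J (Fin 2) F) - X * this

@[simp] theorem ad_one : ad (1 : M4 F) = 1 := by simp [ad, J_squared]
@[simp] theorem ad_zero : ad (0 : M4 F) = 0 := by simp [ad]
theorem ad_add (X Y : M4 F) : ad (X + Y) = ad X + ad Y := by
  simp only [ad, transpose_add]; noncomm_ring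
theorem ad_neg (X : M4 F) : ad (-X) = -ad X := by simp [ad]
theorem ad_sub (X Y : M4 F) : ad (X - Y) = ad X - ad Y := by
  rw [sub_eq_add_neg, ad_add, ad_neg, sub_eq_add_neg]
theorem ad_smul (c : F) (X : M4 F) : ad (c • X) = c • ad X := by simp [ad]
theorem ad_pow (X : M4 F) (n : ℕ) : ad (X ^ n) = ad X ^ n := by
  induction n with
  | zero => simp
  | succ n ih => rw [pow_succ, ad_mul, ih, pow_succ']

theorem trace_ad (X : M4 F) : (ad X).trace = X.trace := by
  rw [ad, trace_neg, trace_mul_cycle, J_squared]; simp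

theorem J_mul_ad (X : M4 F) : J (Fin 2) F * ad X = Xᵀ * J (Fin 2) F := by
  have := J_squared (Fin 2) F
  rw [ad]; linear_combination (norm := noncomm_ring) -this * (Xᵀ * J (Fin 2) F)

theorem ad_eq_iff : ad X = Y ↔ Xᵀ * J (Fin 2) F = J (Fin 2) F * Y := by
  refine ⟨fun h => by rw [← h, J_mul_ad], fun h => ?_⟩
  have := J_squared (Fin 2) F
  rw [ad, Matrix.mul_assoc, h]; linear_combination (norm := noncomm_ring) -this * Y

/-- The symplectic form as a bilinear map. -/
abbrev B (u v : I4 → F) : F := spB 2 F u v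

theorem B_mul (X : M4 F) (u v : I4 → F) : B (X *ᵥ u) v = B u (ad X *ᵥ v) :=
  by simpa only [B, spB_apply] using adj_iff.2 (J_mul_ad X).symm u v

theorem B_mul' (X : M4 F) (u v : I4 → F) : B u (X *ᵥ v) = B (ad X *ᵥ u) v := by
  rw [B_mul, ad_ad]

theorem B_self (u : I4 → F) : B u u = 0 := spB_isAlt u

theorem B_swap (u v : I4 → F) : B u v = -B v u := (spB_isAlt.neg_eq v u).symm

theorem eq_zero_of_B {u : I4 → F} (h : ∀ v, B u v = 0) : u = 0 := spB_separating u h

theorem ad_eq_of_B (h : ∀ u v, B (X *ᵥ u) v = B u (Y *ᵥ v)) : ad X = Y :=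
  ad_eq_iff.2 (adj_iff.1 fun u v => by simpa only [B, spB_apply] using h u v)

theorem mat_ext (h : ∀ v, X *ᵥ v = Y *ᵥ v) : X = Y :=
  toLin'.injective (LinearMap.ext fun v => by simpa using h v)

theorem mem_sp_iff {k : GL I4 F} : k ∈ spGL 2 F ↔ ad (k : M4 F) * k = 1 := by
  constructor
  · intro hk
    refine mat_ext fun v => ?_
    rw [one_mulVec, ← sub_eq_zero]
    refine eq_zero_of_B fun u => ?_
    have := hk u v
    rw [B_swap, ← mulVec_mulVec]
    simp only [B, map_sub]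
    rw [← B, ← B_mul]
    simp only [B, spB_apply]
    exact neg_eq_zero.2 (sub_eq_zero.2 this)
  · intro hk u v
    have : B ((k : M4 F) *ᵥ u) ((k : M4 F) *ᵥ v) = B u v := by
      rw [B_mul, mulVec_mulVec, hk, one_mulVec]
    simp only [B, spB_apply] at this
    exact this

/-- The element of `GL₄` with matrix `g`, for `ad g * g = 1`. -/
def mkSp (g : M4 F) (h : ad g * g = 1) : GL I4 F := ⟨g, ad g, mul_eq_one_comm.1 h, h⟩

theorem mkSp_mem (g : M4 F) (h : ad g * g = 1) : mkSp g h ∈ spGL 2 F := mem_sp_iff.2 h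

theorem coe_inv_of_sp {k : GL I4 F} (hk : k ∈ spGL 2 F) : ((k⁻¹ : GL I4 F) : M4 F) = ad (k : M4 F) :=
  Units.inv_eq_of_mul_eq_one_left (mem_sp_iff.1 hk)

theorem cj_of_sp {k : GL I4 F} (hk : k ∈ spGL 2 F) (X : M4 F) :
    cj k X = (k : M4 F) * X * ad (k : M4 F) := by
  rw [← coe_inv_of_sp hk]; rfl

variable (P) in
/-- `g` is the matrix of an element of `P`. -/
def Mem (g : M4 F) : Prop := ∃ k ∈ P, (k : M4 F) = g

theorem mem_coe {k : GL I4 F} (hk : k ∈ P) : Mem P k := ⟨k, hk, rfl⟩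
theorem mem_coe_iff {k : GL I4 F} : Mem P k ↔ k ∈ P :=
  ⟨fun ⟨l, hl, e⟩ => Units.ext e ▸ hl, mem_coe⟩
theorem Mem.one : Mem P 1 := ⟨1, P.one_mem, rfl⟩
theorem Mem.mul (hg : Mem P g) (hh : Mem P h) : Mem P (g * h) := by
  obtain ⟨k, hk, rfl⟩ := hg
  obtain ⟨l, hl, rfl⟩ := hh
  exact ⟨k * l, P.mul_mem hk hl, rfl⟩
theorem Mem.pow (hg : Mem P g) (n : ℕ) : Mem P (g ^ n) := by
  obtain ⟨k, hk, rfl⟩ := hg
  exact ⟨k ^ n, P.pow_mem hk n, Units.val_pow_eq_pow_val k n⟩
theorem Mem.mono {Q : Subgroup (GL I4 F)} (hg : Mem P g) (h : P ≤ Q) : Mem Q g := by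
  obtain ⟨k, hk, rfl⟩ := hg
  exact mem_coe (h hk)
theorem Mem.isUnit (hg : Mem P g) : IsUnit g := by
  obtain ⟨k, hk, rfl⟩ := hg
  exact k.isUnit

/-- The self-adjoint matrices of trace zero. -/
structure W (X : M4 F) : Prop where
  ad : ad X = X
  tr : X.trace = 0

/-- The form on `W`: `X Y + Y X = ip X Y • 1`. -/
noncomputable def ip (X Y : M4 F) : F := (X * Y).trace / 2

variable (P) in
/-- Non-central involutions. -/
structure D (t : M4 F) : Prop where
  mem : Mem P t
  sq : t * t = 1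
  ne : t ≠ 1
  ne' : t ≠ -1

variable (P) in
/-- No transvections. -/
def NoTv : Prop := ∀ a b : I4 → F, Mem P (1 + vecMulVec a b) → vecMulVec a b = 0

variable (P) in
/-- Commuting quadratic unipotent elements generate a group of order at most three. -/
def Small : Prop := ∀ N M : M4 F, Mem P (1 + N) → Mem P (1 + M) → N * N = 0 → M * M = 0 →
  N ≠ 0 → N * M = M * N → M = 0 ∨ M = N ∨ M = -N

variable (P) in
/-- The traces generate the field. -/
def TrGen : Prop := ∀ k : Subfield F, (∀ g, Mem P g → g.trace ∈ k) → k = ⊤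

variable (P) in
/-- The standing hypothesis. -/
structure Ctx : Prop where
  two : (2 : F) ≠ 0
  le : P ≤ spGL 2 F
  neg : Mem P (-1)
  qs : QS P

variable (P) in
/-- `π` identifies `P / ±1` with `G`. -/
structure Cov {G : Type*} [Group G] (π : P →* G) : Prop where
  surj : Function.Surjective π
  ker : ∀ g : P, π g = 1 ↔ ((g : GL I4 F) : M4 F) = 1 ∨ ((g : GL I4 F) : M4 F) = -1

variable (P) in
/-- `H` is a subgroup of `Sp₄` normalising `P` and not maximal. -/
def NotMax : Prop := ∀ H : Subgroup (GL I4 F), P ≤ H → NormsG H P → ¬ IsMaximalIn (spGL 2 F) H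

/-! ### Abstract root systems with a frame -/

section RS

variable {ι : Type*} (φ : ι → ι → F)

/-- Equal up to sign. -/
def Par (a b : ι) : Prop := (∀ x, φ a x = φ b x) ∨ ∀ x, φ a x = -φ b x

/-- Orthogonal frames. -/
structure Fr (e : Fin 5 → ι) : Prop where
  orth : ∀ i j, i ≠ j → φ (e i) (e j) = 0
  pars : ∀ x y, 2 * φ x y = ∑ i, φ (e i) x * φ (e i) y

/-- A transitive system of roots of norm two with a frame and angles as in finite Coxeter groups
of rank three. -/
structure RS : Prop where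
  two : (2 : F) ≠ 0
  symm : ∀ a b, φ a b = φ b a
  self : ∀ a, φ a a = 2
  refl : ∀ a b, ∃ c, ∀ x, φ c x = φ b x - φ a b * φ a x
  trans : ∀ a b c, ¬ Par φ a c → ∃ d, ¬ Par φ b d ∧ φ b d = φ a c
  frame : ∃ e, Fr φ e
  nontriv : ∃ a b, φ a b ≠ 0 ∧ ¬ Par φ a b
  five : ∀ a b, φ a b ^ 2 = 0 ∨ φ a b ^ 2 = 1 ∨ φ a b ^ 2 = 2 ∨ φ a b ^ 2 = 4 ∨
    (φ a b ^ 2) ^ 2 - 3 * φ a b ^ 2 + 1 = 0

/-- The rules when there is no quadratic unipotent element. -/
structure RS5 : Prop extends RS φ where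
  three : (3 : F) ≠ 0
  par : ∀ a b, φ a b ^ 2 = 4 → Par φ a b
  seven : ∀ e, Fr φ e → ∀ b c, φ (e 3) b = 0 → φ (e 4) b = 0 → φ (e 3) c = 0 → φ (e 4) c = 0 →
    (φ (e 1) b * φ (e 2) c - φ (e 2) b * φ (e 1) c) ^ 2 = 16 → φ (e 0) b = 0

/-- The rules in characteristic three. -/
structure RS3 : Prop extends RS φ where
  three : (3 : F) = 0
  line : ∀ a b s, φ a b = 1 → ¬ Par φ a b → φ s a + φ s b = 0 → φ s a = 0 ∨ Par φ s a ∨
    Par φ s b ∨ (∀ x, φ s x = φ a x - φ b x) ∨ ∀ x, φ s x = φ b x - φ a x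

end RS

end Cfsg.Agent.Cl.S4O
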