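import Mathlib
import Cfsg.Agent.Cl.S4ODefs

/-!
# Quasisimple absolutely irreducible subgroups of `Sp₄(q)`, `q` odd: basic lemmas
-/

set_option autoImplicit false
set_option linter.unusedSectionVars false
set_option linter.unusedVariables false
set_option linter.ambiguousOpen false

namespace Cfsg.Agent.Cl.S4O

open Matrix Low Max Mx Geo

variable {F : Type*} [Field F] {P : Subgroup (GL I4 F)} {X Y Z N M g k s t x y : M4 F}

theorem four_ne (h2 : (2 : F) ≠ 0) : (4 : F) ≠ 0 := by
  rw [show (4 : F) = 2 * 2 by norm_num]; exact mul_ne_zero h2 h2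

theorem trace_one4 : (1 : M4 F).trace = 4 := by simp

theorem smul_one_inj {a b : F} (h : a • (1 : M4 F) = b • 1) : a = b := by
  simpa using congrFun (congrFun h (.inl 0)) (.inl 0)

theorem one_ne_neg_one (h2 : (2 : F) ≠ 0) : (1 : M4 F) ≠ -1 := fun h => by
  have : (1 : F) = -1 := smul_one_inj (by rw [neg_smul, one_smul]; exact h)
  exact h2 (by linear_combination this)

theorem eq_zero_of_two (h2 : (2 : F) ≠ 0) (h : X = -X) : X = 0 := by
  have : (2 : F) • X = 0 := by rw [two_smul]; nth_rw 1 [h]; simp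
  exact (smul_eq_zero.1 this).resolve_left h2

theorem ad_conj (g X : M4 F) : ad (g * X * ad g) = g * ad X * ad g := by
  rw [ad_mul, ad_mul, ad_ad, Matrix.mul_assoc]

theorem conj_mul (hg : ad g * g = 1) (X Y : M4 F) :
    g * X * ad g * (g * Y * ad g) = g * (X * Y) * ad g := by
  linear_combination (norm := noncomm_ring) g * X * hg * (Y * ad g)

theorem trace_conj (hg : ad g * g = 1) (X : M4 F) : (g * X * ad g).trace = X.trace := by
  rw [trace_mul_cycle, hg, Matrix.one_mul]

theorem conj_conj (hg : ad g * g = 1) (X : M4 F) : ad g * (g * X * ad g) * g = X := by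
  linear_combination (norm := noncomm_ring) hg * X * (ad g * g) + X * hg

theorem conj_inj (hg : ad g * g = 1) (h : g * X * ad g = g * Y * ad g) : X = Y := by
  rw [← conj_conj hg X, h, conj_conj hg]

theorem B_conj (hg : ad g * g = 1) (u v : I4 → F) : B (g *ᵥ u) (g *ᵥ v) = B u v := by
  rw [B_mul, mulVec_mulVec, hg, one_mulVec]

/-! ### The group -/

namespace Ctx

theorem ad_mul (h : Ctx P) (hg : Mem P g) : ad g * g = 1 := by
  obtain ⟨k, hk, rfl⟩ := hg
  exact mem_sp_iff.1 (h.le hk)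

theorem mul_ad (h : Ctx P) (hg : Mem P g) : g * ad g = 1 := mul_eq_one_comm.1 (h.ad_mul hg)

theorem ad (h : Ctx P) (hg : Mem P g) : Mem P (S4O.ad g) := by
  obtain ⟨k, hk, rfl⟩ := hg
  exact ⟨k⁻¹, P.inv_mem hk, coe_inv_of_sp (h.le hk)⟩

theorem neg' (h : Ctx P) (hg : Mem P g) : Mem P (-g) := by simpa using h.neg.mul hg

theorem conj (h : Ctx P) (hg : Mem P g) (hk : Mem P k) : Mem P (g * k * S4O.ad g) :=
  (hg.mul hk).mul (h.ad hg)

theorem coe_inv (h : Ctx P) (k : P) : (((k⁻¹ : P) : GL I4 F) : M4 F) = S4O.ad ((k : GL I4 F) : M4 F) :=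
  coe_inv_of_sp (h.le k.2)

/-- Schur's lemma. -/
theorem scalar (h : Ctx P) (hX : ∀ g, Mem P g → X * g = g * X) : ∃ c : F, X = c • 1 :=
  h.qs.spans.scalar_of_commute fun g hg => hX _ (mem_coe hg)

theorem irr (h : Ctx P) (U : Submodule F (I4 → F)) (hU : ∀ g, Mem P g → ∀ v ∈ U, g *ᵥ v ∈ U) :
    U = ⊥ ∨ U = ⊤ := h.qs.irr U fun g hg => hU _ (mem_coe hg)

/-- `P` spans the matrix algebra. -/
theorem mem_of_sub (h : Ctx P) (A : Submodule F (M4 F)) (hA : ∀ g, Mem P g → g ∈ A) (X : M4 F) :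
    X ∈ A := by
  have := mem_spanAlg.1 (h.qs.spans X)
  refine (Submodule.span_le.2 ?_) this
  rintro _ ⟨g, hg, rfl⟩
  exact hA _ (mem_coe hg)

theorem pm (h : Ctx P) (hg : Mem P g) {c : F} (e : g = c • 1) : g = 1 ∨ g = -1 := by
  have := h.ad_mul hg
  rw [e, ad_smul, ad_one, smul_mul_smul_comm, Matrix.mul_one, ← one_smul F (1 : M4 F),
    smul_smul, mul_one] at this
  rcases mul_self_eq_one_iff.1 (smul_one_inj this) with rfl | rfl
  · exact .inl (by rw [e, one_smul])
  · exact .inr (by rw [e, neg_smul, one_smul])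

theorem mem_scalars (h : Ctx P) {k : GL I4 F} (hk : k ∈ P) :
    k ∈ scalars I4 F ↔ (k : M4 F) = 1 ∨ (k : M4 F) = -1 := by
  refine ⟨fun hs => ?_, fun hs => ?_⟩
  · obtain ⟨c, -, e⟩ := coe_eq_smul_of_mem_scalars hs
    exact h.pm (mem_coe hk) e
  · rcases hs with e | e
    · exact mem_scalars_of_eq_smul (c := 1) (by rw [e, one_smul])
    · exact mem_scalars_of_eq_smul (c := -1) (by rw [e, neg_smul, one_smul])

/-- A non-central normal subset generates `P`. -/
theorem ind (h : Ctx P) {S : M4 F → Prop} (hS : ∀ s, S s → Mem P s)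
    (hc : ∀ g s, Mem P g → S s → S (g * s * S4O.ad g)) (hs : S s) (h1 : s ≠ 1) (h2 : s ≠ -1)
    {p : M4 F → Prop} (p1 : p 1) (pm : ∀ a b, Mem P a → Mem P b → p a → p b → p (a * b))
    (pS : ∀ s, S s → p s ∧ p (S4O.ad s)) (hg : Mem P g) : p g := by
  let T : Set (GL I4 F) := {k | S k}
  have hT : Subgroup.closure T ≤ P := (Subgroup.closure_le P).2 fun k hk => mem_coe_iff.1 (hS _ hk)
  have hn : NormsG P (Subgroup.closure T) := fun a ha b hb => by
    induction hb using Subgroup.closure_induction with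
    | mem b hb =>
      refine Subgroup.subset_closure ?_
      have := hc _ _ (mem_coe ha) hb
      rwa [← coe_inv_of_sp (h.le ha)] at this
    | one => simp
    | mul b c _ _ hb hc => simpa [mul_assoc] using Subgroup.mul_mem _ hb hc
    | inv b _ hb => simpa [mul_assoc] using Subgroup.inv_mem _ hb
  obtain ⟨k, hk, rfl⟩ := hS s hs
  rcases h.qs.simple _ hT hn with e | e
  · exact absurd ((h.mem_scalars hk).1 (e (Subgroup.subset_closure hs))) (by tauto)
  obtain ⟨l, hl, rfl⟩ := hg
  rw [← e] at hl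
  suffices H : p l ∧ p (S4O.ad (l : M4 F)) from H.1
  induction hl using Subgroup.closure_induction with
  | mem b hb => exact pS _ hb
  | one => simpa using p1
  | mul b c hb' hc' hb hc =>
    rw [Units.val_mul, S4O.ad_mul]
    exact ⟨pm _ _ (mem_coe (hT hb')) (mem_coe (hT hc')) hb.1 hc.1,
      pm _ _ (h.ad (mem_coe (hT hc'))) (h.ad (mem_coe (hT hb'))) hc.2 hb.2⟩
  | inv b hb' hb =>
    rw [coe_inv_of_sp (h.le (hT hb')), ad_ad]
    exact hb.symm

/-- `P` is perfect: a matrix normalised up to sign is centralised. -/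
theorem scalar_of_pm (h : Ctx P) (hX : ∀ g, Mem P g → g * X = X * g ∨ g * X = -(X * g)) :
    ∃ c : F, X = c • 1 := by
  let C : Subgroup (GL I4 F) :=
    { carrier := {k | (k : M4 F) * X = X * k}
      one_mem' := by simp
      mul_mem' := fun {a b} ha hb => by
        simp only [Set.mem_setOf_eq, Units.val_mul] at *
        rw [Matrix.mul_assoc, hb, ← Matrix.mul_assoc, ha, Matrix.mul_assoc]
      inv_mem' := fun {a} ha => by
        simp only [Set.mem_setOf_eq] at *
        rw [Units.inv_mul_eq_iff_eq_mul, ← Matrix.mul_assoc, ha, Units.mul_inv_cancel_right] }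
  have : ⁅P, P⁆ ≤ C := commutator_le_of_sq fun k hk => by
    change ((k * k : GL I4 F) : M4 F) * X = X * (k * k : GL I4 F)
    rw [Units.val_mul]
    rcases hX _ (mem_coe hk) with e | e
    · linear_combination (norm := noncomm_ring) k.1 * e + e * k.1
    · linear_combination (norm := noncomm_ring) k.1 * e - e * k.1
  rw [h.qs.perfect] at this
  exact h.scalar fun g ⟨k, hk, e⟩ => e ▸ (this hk).symm

/-- Two quadratic matrices do not generate the matrix algebra. -/
theorem q2 (h : Ctx P) {a b c d : F} (hx : x * x = a • x + b • 1) (hy : y * y = c • y + d • 1)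
    (hg : ∀ g, Mem P g → g ∈ Algebra.adjoin F {x, y}) : False := by
  obtain ⟨e, he⟩ : ∃ e : F, x * y + y * x - c • x - a • y = e • 1 := by
    refine h.scalar fun g hg' => ?_
    have : Algebra.adjoin F {x, y} ≤ Subalgebra.centralizer F {x * y + y * x - c • x - a • y} := by
      refine Algebra.adjoin_le ?_
      rintro z (rfl | rfl) _ rfl
      · simp only [sub_mul, mul_sub, add_mul, mul_add, smul_mul_assoc, mul_smul_comm]
        linear_combination (norm := noncomm_ring) y * hx - hx * y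
      · simp only [sub_mul, mul_sub, add_mul, mul_add, smul_mul_assoc, mul_smul_comm]
        linear_combination (norm := noncomm_ring) x * hy - hy * x
    exact this (hg g hg') _ rfl
  let U : Submodule F (M4 F) := Submodule.span F (Set.range ![1, x, y, x * y])
  have m : ∀ i, ![1, x, y, x * y] i ∈ U := fun i => Submodule.subset_span ⟨i, rfl⟩
  have m0 : (1 : M4 F) ∈ U := m 0
  have m1 : x ∈ U := m 1
  have m2 : y ∈ U := m 2
  have m3 : x * y ∈ U := m 3
  have hyx : y * x = e • 1 + c • x + a • y - x * y := by rw [← he]; abel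
  have hU : ∀ z ∈ Algebra.adjoin F {x, y}, ∀ u ∈ U, z * u ∈ U := fun z hz => by
    induction hz using Algebra.adjoin_induction with
    | mem z hz =>
      intro u hu
      induction hu using Submodule.span_induction with
      | mem u hu =>
        obtain ⟨i, rfl⟩ := hu
        rcases hz with rfl | rfl
        · fin_cases i
          · simpa using m1
          · simpa [hx] using U.add_mem (U.smul_mem a m1) (U.smul_mem b m0)
          · simpa using m3
          · simpa [← Matrix.mul_assoc, hx, add_mul] using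
              U.add_mem (U.smul_mem a m3) (U.smul_mem b m2)
        · have h4 : z * x ∈ U := hyx ▸ U.sub_mem (U.add_mem (U.add_mem (U.smul_mem e m0)
            (U.smul_mem c m1)) (U.smul_mem a m2)) m3
          have h5 : z * z ∈ U := hy ▸ U.add_mem (U.smul_mem c m2) (U.smul_mem d m0)
          fin_cases i
          · simpa using m2
          · simpa using h4
          · simpa using h5
          · have : z * (x * z) = e • z + a • (z * z) - d • x := by
              rw [← Matrix.mul_assoc, hyx]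
              simp only [sub_mul, add_mul, smul_mul_assoc, Matrix.one_mul, Matrix.mul_assoc, hy,
                mul_add, mul_smul_comm, Matrix.mul_one]
              abel
            simpa [this] using U.sub_mem (U.add_mem (U.smul_mem e m2) (U.smul_mem a h5))
              (U.smul_mem d m1)
      | zero => simp
      | add u v _ _ hu hv => rw [mul_add]; exact U.add_mem hu hv
      | smul r u _ hu => rw [mul_smul_comm]; exact U.smul_mem r hu
    | algebraMap r => intro u hu; rw [← Algebra.smul_def]; exact U.smul_mem r hu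
    | add z w _ _ hz hw => intro u hu; rw [add_mul]; exact U.add_mem (hz u hu) (hw u hu)
    | mul z w _ _ hz hw => intro u hu; rw [Matrix.mul_assoc]; exact hz _ (hw u hu)
  have : U = ⊤ := eq_top_iff.2 fun z _ => h.mem_of_sub U (fun g hg' => by
    simpa using hU g (hg g hg') 1 m0) z
  have h4 : Module.finrank F U ≤ 4 := (finrank_range_le_card _).trans (by simp)
  rw [this, finrank_top, Module.finrank_matrix] at h4
  simp at h4

end Ctx

/-! ### The orthogonal space -/

theorem ip_comm (X Y : M4 F) : ip X Y = ip Y X := by rw [ip, ip, trace_mul_comm]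
theorem ip_add_left (X Y Z : M4 F) : ip (X + Y) Z = ip X Z + ip Y Z := by
  rw [ip, ip, ip, add_mul, trace_add, add_div]
theorem ip_add_right (X Y Z : M4 F) : ip X (Y + Z) = ip X Y + ip X Z := by
  rw [ip, ip, ip, mul_add, trace_add, add_div]
theorem ip_smul_left (c : F) (X Y : M4 F) : ip (c • X) Y = c * ip X Y := by
  rw [ip, ip, smul_mul_assoc, trace_smul, smul_eq_mul, mul_div_assoc]
theorem ip_smul_right (c : F) (X Y : M4 F) : ip X (c • Y) = c * ip X Y := by
  rw [ip, ip, mul_smul_comm, trace_smul, smul_eq_mul, mul_div_assoc]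
theorem ip_neg_left (X Y : M4 F) : ip (-X) Y = -ip X Y := by
  rw [ip, ip, neg_mul, trace_neg, neg_div]
theorem ip_neg_right (X Y : M4 F) : ip X (-Y) = -ip X Y := by
  rw [ip, ip, mul_neg, trace_neg, neg_div]
theorem ip_sub_left (X Y Z : M4 F) : ip (X - Y) Z = ip X Z - ip Y Z := by
  rw [sub_eq_add_neg, ip_add_left, ip_neg_left, sub_eq_add_neg]
theorem ip_sub_right (X Y Z : M4 F) : ip X (Y - Z) = ip X Y - ip X Z := by
  rw [sub_eq_add_neg, ip_add_right, ip_neg_right, sub_eq_add_neg]
@[simp] theorem ip_zero_left (X : M4 F) : ip 0 X = 0 := by simp [ip]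
@[simp] theorem ip_zero_right (X : M4 F) : ip X 0 = 0 := by simp [ip]
theorem ip_conj (hg : ad g * g = 1) (X Y : M4 F) : ip (g * X * ad g) (g * Y * ad g) = ip X Y := by
  rw [ip, ip, conj_mul hg, trace_conj hg]
theorem ip_sum_left {ι : Type*} (s : Finset ι) (f : ι → M4 F) (Y : M4 F) :
    ip (∑ i ∈ s, f i) Y = ∑ i ∈ s, ip (f i) Y := by
  simp only [ip, Finset.sum_mul, trace_sum, Finset.sum_div]
theorem ip_sum_right {ι : Type*} (s : Finset ι) (f : ι → M4 F) (Y : M4 F) :
    ip Y (∑ i ∈ s, f i) = ∑ i ∈ s, ip Y (f i) := by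
  simp only [ip, Finset.mul_sum, trace_sum, Finset.sum_div]

theorem w_sX (v : V5 F) : W (sX F v) := ⟨ad_eq_iff.2 (sX_adj v), sX_trace v⟩

namespace W

theorem zero : W (0 : M4 F) := ⟨ad_zero, trace_zero _ _⟩
theorem add (hX : W X) (hY : W Y) : W (X + Y) :=
  ⟨by rw [ad_add, hX.ad, hY.ad], by rw [trace_add, hX.tr, hY.tr, add_zero]⟩
theorem neg (hX : W X) : W (-X) := ⟨by rw [ad_neg, hX.ad], by rw [trace_neg, hX.tr, neg_zero]⟩
theorem sub (hX : W X) (hY : W Y) : W (X - Y) := sub_eq_add_neg X Y ▸ hX.add hY.neg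
theorem smul (hX : W X) (c : F) : W (c • X) :=
  ⟨by rw [ad_smul, hX.ad], by rw [trace_smul, hX.tr, smul_zero]⟩
theorem sum {ι : Type*} (s : Finset ι) {f : ι → M4 F} (h : ∀ i ∈ s, W (f i)) : W (∑ i ∈ s, f i) :=
  Finset.sum_induction f W (fun _ _ => add) zero h
theorem conj (hX : W X) (hg : S4O.ad g * g = 1) : W (g * X * S4O.ad g) :=
  ⟨by rw [ad_conj, hX.ad], by rw [trace_conj hg, hX.tr]⟩

theorem exists_sX (h2 : (2 : F) ≠ 0) (hX : W X) : ∃ v, sX F v = X :=
  sX_surj h2 (ad_eq_iff.1 hX.ad) hX.tr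

theorem of_ad (h2 : (2 : F) ≠ 0) (hX : S4O.ad X = X) : W (X - (X.trace / 4) • 1) :=
  ⟨by rw [ad_sub, ad_smul, ad_one, hX], by
    rw [trace_sub, trace_smul, trace_one4, smul_eq_mul, div_mul_cancel₀ _ (four_ne h2), sub_self]⟩

/-- The Clifford relation. -/
theorem anti (h2 : (2 : F) ≠ 0) (hX : W X) (hY : W Y) : X * Y + Y * X = ip X Y • 1 := by
  obtain ⟨u, rfl⟩ := hX.exists_sX h2
  obtain ⟨v, rfl⟩ := hY.exists_sX h2
  have := sX_anti u v
  have e := congrArg trace this
  rw [trace_add, trace_mul_comm (sX F v), trace_smul, trace_one4, smul_eq_mul] at e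
  rw [this, ip]
  congr 1
  rw [eq_div_iff h2]
  exact mul_left_cancel₀ h2 (by linear_combination -e)

theorem swap (h2 : (2 : F) ≠ 0) (hX : W X) (hY : W Y) : Y * X = ip X Y • 1 - X * Y := by
  rw [← hX.anti h2 hY]; abel

theorem sq (h2 : (2 : F) ≠ 0) (hX : W X) : X * X = (ip X X / 2) • 1 := by
  refine smul_right_injective _ h2 ?_
  simp only
  rw [two_smul, hX.anti h2 hX, smul_smul, mul_div_cancel₀ _ h2]

theorem ip_eq_zero_iff (h2 : (2 : F) ≠ 0) (hX : W X) (hY : W Y) :
    ip X Y = 0 ↔ X * Y = -(Y * X) := by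
  rw [eq_neg_iff_add_eq_zero, hX.anti h2 hY]
  exact ⟨fun h => by rw [h, zero_smul], fun h => smul_one_inj (by rw [h, zero_smul])⟩

theorem eq_zero_of_scalar (h2 : (2 : F) ≠ 0) (hX : W X) {c : F} (e : X = c • 1) : X = 0 := by
  have := hX.tr
  rw [e, trace_smul, trace_one4, smul_eq_mul] at this
  rw [e, (mul_eq_zero.1 this).resolve_right (four_ne h2), zero_smul]

/-- The form is non-degenerate. -/
theorem eq_zero_of_ip (h2 : (2 : F) ≠ 0) (hX : W X) (h : ∀ Y, W Y → ip X Y = 0) : X = 0 :=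
  anti_all h2 fun v => (hX.ip_eq_zero_iff h2 (w_sX v)).1 (h _ (w_sX v))

theorem comm_mul (h2 : (2 : F) ≠ 0) (hX : W X) (hY : W Y) (hZ : W Z) :
    Z * (X * Y) - X * Y * Z = ip Z X • Y - ip Z Y • X := by
  have e1 := hZ.anti h2 hX
  have e2 := hZ.anti h2 hY
  have : Z * (X * Y) - X * Y * Z = (Z * X + X * Z) * Y - X * (Z * Y + Y * Z) := by noncomm_ring
  rw [this, e1, e2]; simp

/-- Commuting elements of `W` are proportional. -/
theorem par_of_commute (h2 : (2 : F) ≠ 0) (hX : W X) (hY : W Y) (h0 : X ≠ 0)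
    (h : X * Y = Y * X) : ∃ c : F, Y = c • X := by
  obtain ⟨Z, hZ, h1⟩ : ∃ Z, W Z ∧ ip X Z ≠ 0 := by
    by_contra hc
    push Not at hc
    exact h0 (hX.eq_zero_of_ip h2 hc)
  have e := hX.anti h2 hY
  rw [← h, ← two_smul F] at e
  have e' : X * Y = (2⁻¹ * ip X Y) • 1 := by
    rw [← smul_smul, ← e, smul_smul, inv_mul_cancel₀ h2, one_smul]
  have := hX.comm_mul h2 hY hZ
  rw [e', mul_smul_comm, smul_mul_assoc, Matrix.mul_one, Matrix.one_mul, sub_self, eq_comm,
    sub_eq_zero, ip_comm] at this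
  exact ⟨(ip X Z)⁻¹ * ip Z Y, by rw [← smul_smul, ← this, smul_smul, inv_mul_cancel₀ h1, one_smul]⟩

/-- Five orthogonal non-singular vectors form a basis. -/
theorem eq_zero_of_orth (h2 : (2 : F) ≠ 0) (hX : W X) {r : Fin 5 → M4 F} (hr : ∀ i, W (r i))
    (h0 : ∀ i, ip (r i) (r i) ≠ 0) (ho : ∀ i j, i ≠ j → ip (r i) (r j) = 0)
    (h : ∀ i, ip (r i) X = 0) : X = 0 := by
  choose v hv using fun i => (hr i).exists_sX h2
  have hli : LinearIndependent F v := by
    refine Fintype.linearIndependent_iff.2 fun c hc i => ?_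
    have := congrArg (fun u => ip (r i) (sX F u)) hc
    simp only [map_sum, map_smul, hv, map_zero, ip_zero_right, ip_sum_right, ip_smul_right] at this
    rw [Finset.sum_eq_single i (fun j _ hj => by rw [ho i j hj.symm, mul_zero]) (by simp)] at this
    exact (mul_eq_zero.1 this).resolve_right (h0 i)
  have htop := hli.span_eq_top_of_card_eq_finrank' (by simp)
  refine hX.eq_zero_of_ip h2 fun Y hY => ?_
  obtain ⟨u, rfl⟩ := hY.exists_sX h2
  obtain ⟨c, rfl⟩ := (Submodule.mem_span_range_iff_exists_fun F).1 (htop.ge (Submodule.mem_top (x := u)))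
  simp only [map_sum, map_smul, hv, ip_sum_right, ip_smul_right]
  exact Finset.sum_eq_zero fun i _ => by rw [ip_comm, h, mul_zero]

/-- A non-zero singular vector orthogonal to a given vector. -/
theorem exists_sing (h2 : (2 : F) ≠ 0) (hX : W X) :
    ∃ Y, W Y ∧ Y ≠ 0 ∧ Y * Y = 0 ∧ ip X Y = 0 := by
  let e : Fin 2 → V5 F := fun i => Pi.single (.inr (.inl i)) 1
  have he : ∀ a b : F, sX F (a • e 0 + b • e 1) * sX F (a • e 0 + b • e 1) = 0 := fun a b => by
    rw [sX_sq]; simp [quad_odd_apply, e]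
  have h0 : ∀ a b : F, sX F (a • e 0 + b • e 1) = 0 → a = 0 ∧ b = 0 := fun a b h => by
    have := sX_inj (h.trans (map_zero _).symm)
    exact ⟨by simpa [e] using congrFun this (.inr (.inl 0)),
      by simpa [e] using congrFun this (.inr (.inl 1))⟩
  by_cases h1 : ip X (sX F (e 0)) = 0
  · exact ⟨_, w_sX _, fun h => one_ne_zero (h0 1 0 h).1, he 1 0, by simpa using h1⟩
  · refine ⟨_, w_sX _, fun h => h1 (neg_eq_zero.1 (h0 (ip X (sX F (e 1))) (-ip X (sX F (e 0))) h).2),
      he _ _, ?_⟩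
    simp only [map_add, map_smul, ip_add_right, ip_smul_right]
    ring

end W

/-- Self-adjoint matrices are quadratic. -/
theorem sa_sq (h2 : (2 : F) ≠ 0) (hX : ad X = X) : ∃ d : F, X * X = (X.trace / 2) • X - d • 1 := by
  have := (W.of_ad h2 hX).sq h2
  set c := X.trace / 4
  have hc : X.trace / 2 = 2 * c := by
    simp only [c]; field_simp [four_ne h2]; ring
  refine ⟨c * c - ip (X - c • 1) (X - c • 1) / 2, ?_⟩
  rw [sub_smul, ← this, hc]
  simp only [sub_mul, mul_sub, smul_mul_assoc, mul_smul_comm, Matrix.mul_one, Matrix.one_mul]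
  module

/-- A matrix of square zero and rank at least two has its kernel as image. -/
theorem ker_im (hN : N * N = 0) (h1 : ∀ a b, N ≠ vecMulVec a b) {v : I4 → F} (hv : N *ᵥ v = 0) :
    ∃ u, N *ᵥ u = v := by
  have hle : LinearMap.range (toLin' N) ≤ LinearMap.ker (toLin' N) := by
    rintro _ ⟨u, rfl⟩
    simp [mulVec_mulVec, hN]
  have h2 : 2 ≤ Module.finrank F (LinearMap.range (toLin' N)) := by
    by_contra hc
    obtain ⟨a, ha⟩ := finrank_le_one_iff.1 (Nat.lt_succ_iff.1 (not_le.1 hc))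
    choose c hc using fun j => ha ⟨toLin' N (Pi.single j 1), _, rfl⟩
    refine h1 a c (Matrix.ext fun i j => ?_)
    have := congrFun (congrArg Subtype.val (hc j)) i
    simp only [SetLike.val_smul, Pi.smul_apply, smul_eq_mul, toLin'_apply, mulVec_single_one,
      col_apply] at this
    rw [vecMulVec_apply, ← this, mul_comm]
  have h3 := LinearMap.finrank_range_add_finrank_ker (toLin' N)
  rw [Module.finrank_fintype_fun_eq_card] at h3
  have := Submodule.eq_of_le_of_finrank_le hle (by simp at h3; omega)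
  exact (this.ge (show toLin' N v = 0 from hv) :)

/-- A non-zero self-adjoint matrix does not have rank one. -/
theorem sa_rank (h2 : (2 : F) ≠ 0) {a b : I4 → F} (h : ad (vecMulVec a b) = vecMulVec a b) :
    vecMulVec a b = 0 := by
  by_contra h0
  obtain ⟨ha, hb⟩ : a ≠ 0 ∧ b ≠ 0 := by
    constructor <;> rintro rfl <;> simp at h0
  have e : ∀ u v, b ⬝ᵥ u * B a v = b ⬝ᵥ v * B u a := fun u v => by
    have := B_mul (vecMulVec a b) u v
    rw [h] at this
    simpa [vecMulVec_mulVec, B, mul_comm] using this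
  obtain ⟨u, hu⟩ : ∃ u, b ⬝ᵥ u ≠ 0 := by
    by_contra hc
    push Not at hc
    exact hb (funext fun i => by simpa using hc (Pi.single i 1))
  have h1 : B a u = 0 := by
    have := e u u
    rw [B_swap u a] at this
    exact (mul_eq_zero.1 ((mul_eq_zero.1 (show 2 * (b ⬝ᵥ u * B a u) = 0 by
      linear_combination this)).resolve_left h2)).resolve_left hu
  refine ha (eq_zero_of_B fun v => ?_)
  have := e u v
  rw [B_swap u a, h1, neg_zero, mul_zero] at this
  exact (mul_eq_zero.1 this).resolve_left hu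

/-! ### Involutions -/

namespace D

theorem ad (h : Ctx P) (ht : D P t) : S4O.ad t = t := by
  rw [← Matrix.mul_one (S4O.ad t), ← ht.sq, ← Matrix.mul_assoc, h.ad_mul ht.mem, Matrix.one_mul]

theorem w (h : Ctx P) (ht : D P t) : W t := by
  refine ⟨ht.ad h, ?_⟩
  by_contra h0
  obtain ⟨d, e⟩ := sa_sq h.two (ht.ad h)
  have h1 : t.trace / 2 ≠ 0 := div_ne_zero h0 h.two
  have : t = ((t.trace / 2)⁻¹ * (1 + d)) • 1 := by
    rw [← smul_smul, add_smul, one_smul]
    nth_rw 1 [← ht.sq]
    rw [e, sub_add_cancel, smul_smul, inv_mul_cancel₀ h1, one_smul]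
  rcases h.pm ht.mem this with e | e
  exacts [ht.ne e, ht.ne' e]

theorem ip_self (h : Ctx P) (ht : D P t) : ip t t = 2 := by
  rw [ip, ht.sq, trace_one4, div_eq_iff h.two]; norm_num

theorem ne_zero (ht : D P t) : t ≠ 0 := fun e => by
  have := ht.sq
  rw [e, Matrix.mul_zero] at this
  exact zero_ne_one this

theorem of_w (h : Ctx P) (hm : Mem P t) (hw : W t) : D P t := by
  have := h.ad_mul hm
  rw [hw.ad] at this
  refine ⟨hm, this, fun e => ?_, fun e => ?_⟩
  · exact one_ne_zero (e ▸ hw.eq_zero_of_scalar h.two (c := 1) (by rw [e, one_smul]))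
  · exact one_ne_zero (neg_eq_zero.1
      (e ▸ hw.eq_zero_of_scalar h.two (c := -1) (by rw [e, neg_smul, one_smul])))

theorem neg (h : Ctx P) (ht : D P t) : D P (-t) := of_w h (h.neg' ht.mem) (ht.w h).neg

theorem conj (h : Ctx P) (ht : D P t) (hg : Mem P g) : D P (g * t * S4O.ad g) :=
  of_w h (h.conj hg ht.mem) ((ht.w h).conj (h.ad_mul hg))

theorem refl_eq (h : Ctx P) (hs : D P s) (hX : W X) : -(s * X * s) = X - ip s X • s := by
  have e := (hs.w h).anti h.two hX
  have : s * X * s = (s * X + X * s) * s - X * (s * s) := by noncomm_ring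
  rw [this, e, hs.sq]; simp

theorem refl (h : Ctx P) (hs : D P s) (ht : D P t) : D P (t - ip s t • s) := by
  rw [← hs.refl_eq h (ht.w h)]
  simpa only [hs.ad h] using (ht.conj h hs.mem).neg h

theorem pm_of_smul (h : Ctx P) (hs : D P s) (ht : t * t = 1) {c : F} (e : t = c • s) :
    t = s ∨ t = -s := by
  rw [e, smul_mul_smul_comm, hs.sq, ← one_smul F (1 : M4 F), smul_smul, mul_one] at ht
  rcases mul_self_eq_one_iff.1 (smul_one_inj ht) with rfl | rfl
  · exact .inl (by rw [e, one_smul])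
  · exact .inr (by rw [e, neg_smul, one_smul])

theorem pm_of_commute (h : Ctx P) (hs : D P s) (ht : D P t) (e : s * t = t * s) :
    t = s ∨ t = -s := by
  obtain ⟨c, hc⟩ := (hs.w h).par_of_commute h.two (ht.w h) hs.ne_zero e
  exact hs.pm_of_smul h ht.sq hc

end D

/-! ### Non-maximality -/

theorem not_max [Finite F] (h2 : (2 : F) ≠ 0) {H : Subgroup (GL I4 F)} {Φ : Set (M4 F)}
    (hH : ∀ k, Mem H k → ad k * k = 1 → ∀ X ∈ Φ, k * X * ad k ∈ Φ) (hg : ad g * g = 1)
    (hgΦ : ∀ X ∈ Φ, g * X * ad g ∈ Φ) (hgH : ¬ Mem H g) (hX : X ∈ Φ) (hW : W X) (h0 : ip X X ≠ 0)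
    (h3 : ∀ Y, W Y → Y ≠ 0 → Y * Y = 0 → ip X Y = 0 → (∀ c : F, X + c • Y ∈ Φ) → False) :
    ¬ IsMaximalIn (spGL 2 F) H := fun hmax => by
  have key : ∀ k ∈ spGL 2 F, (∀ X ∈ Φ, (k : M4 F) * X * ad (k : M4 F) ∈ Φ) → k ∈ cjStab Φ :=
    fun k hk hΦ X => by
      have hm : Set.MapsTo (cj k) Φ Φ := fun X hX => by rw [cj_of_sp hk]; exact hΦ X hX
      refine ⟨fun hX => ?_, fun hX => hm hX⟩
      obtain ⟨Y, hY, e⟩ := ((Set.toFinite Φ).injOn_iff_bijOn_of_mapsTo hm).1
        (cj k).injective.injOn |>.surjOn hX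
      exact (cj k).injective e ▸ hY
  rcases hmax.2 (cjStab Φ ⊓ spGL 2 F) (fun k hk => ⟨key k (hmax.1.le hk)
    (hH k (mem_coe hk) (mem_sp_iff.1 (hmax.1.le hk))), hmax.1.le hk⟩) inf_le_right with e | e
  · exact hgH ⟨mkSp g hg, e ▸ ⟨key _ (mkSp_mem g hg) hgΦ, mkSp_mem g hg⟩, rfl⟩
  obtain ⟨Y, hY, hY0, hYY, hXY⟩ := hW.exists_sing h2
  refine h3 Y hY hY0 hYY hXY fun c => ?_
  have e1 := (hW.ip_eq_zero_iff h2 hY).1 hXY
  have e2 := hW.sq h2
  have e3 : Y * X = -(X * Y) := by rw [e1, neg_neg]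
  have hn : X * Y * (X * Y) = 0 := by
    linear_combination (norm := noncomm_ring) X * e3 * Y - X * X * hYY
  set a : F := -c / ip X X
  have ha : ad (1 + a • (X * Y)) = 1 - a • (X * Y) := by
    rw [ad_add, ad_one, ad_smul, ad_mul, hW.ad, hY.ad, e3, smul_neg, sub_eq_add_neg]
  have hk : ad (1 + a • (X * Y)) * (1 + a • (X * Y)) = 1 := by
    rw [ha]
    simp [sub_mul, mul_add, hn]
  have := ((e.ge (mkSp_mem _ hk)).1 X).2 hX
  rw [cj_of_sp (mkSp_mem _ hk)] at this
  change (1 + a • (X * Y)) * X * ad (1 + a • (X * Y)) ∈ Φ at this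
  convert this using 1
  have e4 : X * (X * Y) = (ip X X / 2) • Y := by rw [← Matrix.mul_assoc, e2]; simp
  have e5 : X * Y * X = -((ip X X / 2) • Y) := by rw [Matrix.mul_assoc, e3, Matrix.mul_neg, e4]
  have e6 : Y * (X * Y) = 0 := by
    linear_combination (norm := noncomm_ring) e3 * Y - X * hYY
  rw [ha]
  simp only [add_mul, mul_sub, Matrix.one_mul, Matrix.mul_one, smul_mul_assoc, mul_smul_comm, e4, e5,
    neg_mul, e6]
  have : c = -(a * ip X X) := by simp only [a]; field_simp
  rw [this]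
  match_scalars <;> field_simp
  ring

end Cfsg.Agent.Cl.S4O
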