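import Mathlib
import Cfsg.Agent.Cl.S4OBase
import Cfsg.Agent.Inv.ZStarSimple
import Cfsg.Agent.Inv.SylowTools
import Cfsg.Agent.Inv.SylowElt
import Cfsg.Agent.GT.TransferCocycle

/-!
# A Sylow 2-subgroup of `P` in terms of matrices
-/

set_option autoImplicit false
set_option linter.unusedSectionVars false
set_option linter.unusedVariables false
set_option linter.ambiguousOpen false

namespace Cfsg.Agent.Cl.S4O

open Matrix Low Max Mx Geo

variable {F : Type*} [Field F] {P : Subgroup (GL I4 F)} {X Y a b c g k s t u z : M4 F}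

/-- Equal up to sign. -/
def Pm (a b : M4 F) : Prop := a = b ∨ a = -b

/-- Commuting up to sign. -/
def PM (a b : M4 F) : Prop := Pm (a * b) (b * a)

theorem Pm.rfl : Pm a a := .inl (Eq.refl _)
theorem Pm.symm (h : Pm a b) : Pm b a := h.imp Eq.symm fun e => by rw [e, neg_neg]
theorem Pm.neg (h : Pm a b) : Pm (-a) b :=
  h.symm.elim (fun e => .inr (by rw [e])) fun e => .inl (by rw [e])
theorem Pm.neg' (h : Pm a b) : Pm a (-b) := h.symm.neg.symm
theorem Pm.trans (h : Pm a b) (h' : Pm b c) : Pm a c := by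
  rcases h with rfl | rfl
  exacts [h', h'.neg]
theorem Pm.mul {d : M4 F} (h : Pm a b) (h' : Pm c d) : Pm (a * c) (b * d) := by
  rcases h with rfl | rfl <;> rcases h' with rfl | rfl <;> simp [Pm]
theorem Pm.conj (h : Pm a b) (g : M4 F) : Pm (g * a * ad g) (g * b * ad g) :=
  (Pm.rfl.mul h).mul Pm.rfl
theorem Pm.of_conj (hg : ad g * g = 1) (h : Pm (g * a * ad g) (g * b * ad g)) : Pm a b :=
  h.imp (conj_inj hg) fun e => conj_inj hg (by simpa using e)
theorem Pm.prop {p : M4 F → Prop} (h : Pm a b) (hp : ∀ x, p x → p (-x)) (hb : p b) : p a := by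
  rcases h with rfl | rfl
  exacts [hb, hp _ hb]

theorem PM.symm (h : PM a b) : PM b a := Pm.symm h
theorem PM.one : PM 1 X := by simp [PM, Pm]
theorem PM.self : PM a a := Pm.rfl
theorem PM.mul (h : PM a X) (h' : PM b X) : PM (a * b) X := by
  have := (Pm.rfl (a := a)).mul h'
  rw [← Matrix.mul_assoc, ← Matrix.mul_assoc] at this
  exact this.trans (Matrix.mul_assoc X a b ▸ Pm.mul h Pm.rfl)
theorem PM.mul' (h : PM a X) (h' : PM a Y) : PM a (X * Y) := (h.symm.mul h'.symm).symm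
theorem PM.of_pm (h : PM a X) (h' : Pm b a) : PM b X :=
  (h'.mul Pm.rfl).trans (Pm.trans h (Pm.rfl.mul h'.symm))
theorem PM.neg (h : PM a X) : PM (-a) X := h.of_pm Pm.rfl.neg
theorem PM.ad (hg : S4O.ad g * g = 1) (h : PM g X) : PM (S4O.ad g) X := by
  have h1 := mul_eq_one_comm.1 hg
  have := ((Pm.rfl (a := S4O.ad g)).mul h).mul (Pm.rfl (a := S4O.ad g))
  rw [← Matrix.mul_assoc, hg, Matrix.one_mul, Matrix.mul_assoc, Matrix.mul_assoc, h1,
    Matrix.mul_one] at this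
  exact this.symm
theorem PM.iff (hg : S4O.ad g * g = 1) : PM g X ↔ Pm (g * X * S4O.ad g) X := by
  refine ⟨fun h => ?_, fun h => ?_⟩
  · have := Pm.mul h (Pm.rfl (a := S4O.ad g))
    rwa [Matrix.mul_assoc X, mul_eq_one_comm.1 hg, Matrix.mul_one] at this
  · have := h.mul (Pm.rfl (a := g))
    rwa [Matrix.mul_assoc, hg, Matrix.mul_one] at this
theorem PM.conj (hg : S4O.ad g * g = 1) :
    PM (g * a * S4O.ad g) (g * X * S4O.ad g) ↔ PM a X := by
  rw [PM, conj_mul hg, conj_mul hg]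
  exact ⟨Pm.of_conj hg, fun h => Pm.conj h g⟩

/-! ### The quotient by the scalars -/

section Cov

variable {G : Type*} [Group G] {π : P →* G}

/-- The matrix of an element of `P`. -/
abbrev mx (g : P) : M4 F := (g : GL I4 F)

theorem mem_mx (g : P) : Mem P (mx g) := mem_coe g.2
theorem Mem.exists (hg : Mem P g) : ∃ k : P, mx k = g := by
  obtain ⟨k, hk, rfl⟩ := hg
  exact ⟨⟨k, hk⟩, rfl⟩
theorem mx_inj {x y : P} (h : mx x = mx y) : x = y := Subtype.ext (Units.ext h)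
theorem mx_mul (x y : P) : mx (x * y) = mx x * mx y := rfl
theorem mx_one : mx (1 : P) = 1 := rfl
theorem mx_pow (x : P) (n : ℕ) : mx (x ^ n) = mx x ^ n := Units.val_pow_eq_pow_val _ _
theorem Ctx.mx_inv (h : Ctx P) (x : P) : mx x⁻¹ = S4O.ad (mx x) := h.coe_inv x
theorem Ctx.mx_conj (h : Ctx P) (g x : P) : mx (g * x * g⁻¹) = mx g * mx x * S4O.ad (mx g) := by
  rw [mx_mul, mx_mul, h.mx_inv]

theorem Cov.eq_iff (hπ : Cov P π) {x y : P} : π x = π y ↔ Pm (mx x) (mx y) := by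
  rw [← mul_inv_eq_one, ← map_inv, ← map_mul, hπ.ker]
  have : ∀ Z : M4 F, mx (x * y⁻¹) = Z ↔ mx x = Z * mx y := fun Z =>
    (Units.eq_mul_inv_iff_mul_eq (y : GL I4 F) (a := Z) (b := mx x)).symm.symm |> fun e =>
      ⟨fun h => (e.1 h.symm).symm, fun h => (e.2 h.symm).symm⟩
  exact or_congr (by rw [this, Matrix.one_mul]) (by rw [this, Matrix.neg_mul, Matrix.one_mul])

theorem cov_mk (hle : P ≤ spGL 2 F) : Cov P (QuotientGroup.mk' ((scalars I4 F).subgroupOf P)) where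
  surj := QuotientGroup.mk'_surjective _
  ker := fun g => by
    refine (QuotientGroup.eq_one_iff g).trans ⟨fun hs => ?_, fun hs => ?_⟩
    · obtain ⟨c, -, e⟩ := coe_eq_smul_of_mem_scalars hs
      have := mem_sp_iff.1 (hle g.2)
      change ((g : GL I4 F) : M4 F) = _ at e
      rw [e, ad_smul, ad_one, smul_mul_smul_comm, Matrix.mul_one, ← one_smul F (1 : M4 F),
        smul_smul, mul_one] at this
      rcases mul_self_eq_one_iff.1 (smul_one_inj this) with rfl | rfl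
      · exact .inl (by rw [e, one_smul])
      · exact .inr (by rw [e, neg_smul, one_smul])
    · rcases hs with e | e
      · exact mem_scalars_of_eq_smul (c := 1) (by rw [one_smul]; exact e)
      · exact mem_scalars_of_eq_smul (c := -1) (by rw [neg_smul, one_smul]; exact e)

theorem Cov.mem_scalars (hπ : Cov P π) {x : P} (h : π x = 1) : (x : GL I4 F) ∈ scalars I4 F := by
  rcases (hπ.ker x).1 h with e | e
  · exact mem_scalars_of_eq_smul (c := 1) (by rw [e, one_smul])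
  · exact mem_scalars_of_eq_smul (c := -1) (by rw [e, neg_smul, one_smul])

theorem Cov.not_comm (hπ : Cov P π) (h : QS P) : ¬ IsMulCommutative G := fun hc => by
  refine h.not_le_scalars ?_
  rw [← h.perfect, Subgroup.commutator_le]
  intro x hx y hy
  have := hπ.mem_scalars (x := (⟨x, hx⟩ : P) * ⟨y, hy⟩ * (⟨x, hx⟩ : P)⁻¹ * (⟨y, hy⟩ : P)⁻¹) (by
    rw [map_mul, map_mul, map_mul, map_inv, map_inv, hc.1.1 (π ⟨x, hx⟩), mul_inv_cancel_right,
      mul_inv_cancel])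
  rw [commutatorElement_def]
  simpa only [Subgroup.coe_mul, Subgroup.coe_inv] using this

theorem Cov.simple (hπ : Cov P π) (hle : P ≤ spGL 2 F) (h : QS P) : IsSimpleGroup G := by
  have : Nontrivial G := by
    by_contra hc
    rw [not_nontrivial_iff_subsingleton] at hc
    exact hπ.not_comm h ⟨⟨fun a b => Subsingleton.elim _ _⟩⟩
  refine ⟨fun N hN => ?_⟩
  rcases h.simple ((N.comap π).map P.subtype) (Subgroup.map_subtype_le _) (by
    rintro a ha _ ⟨b, hb, rfl⟩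
    exact Subgroup.mem_map_of_mem P.subtype ((hN.comap π).conj_mem b hb ⟨a, ha⟩)) with e | e
  · refine .inl ((Subgroup.eq_bot_iff_forall _).2 fun x hx => ?_)
    obtain ⟨y, rfl⟩ := hπ.surj x
    have h1 : y ∈ (scalars I4 F).subgroupOf P := e (Subgroup.mem_map_of_mem P.subtype hx)
    exact (hπ.ker y).2 (((cov_mk hle).ker y).1 ((QuotientGroup.eq_one_iff y).2 h1))
  · refine .inr (eq_top_iff.2 fun x _ => ?_)
    obtain ⟨y, rfl⟩ := hπ.surj x
    obtain ⟨w, hw, e'⟩ := e.ge y.2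
    obtain rfl : w = y := Subtype.ext e'
    exact hw

theorem Cov.orderOf (hπ : Cov P π) {x : P} (h : Pm (mx x * mx x) 1) (h1 : ¬ Pm (mx x) 1) :
    orderOf (π x) = 2 :=
  orderOf_eq_prime (by rw [sq, ← map_mul, hπ.ker]; exact h) fun e => h1 ((hπ.ker x).1 e)

theorem perfect_of_qs (h : QS P) : commutator P = ⊤ := by
  refine Subgroup.map_injective P.subtype_injective ?_
  rw [commutator_def, Subgroup.map_commutator, ← MonoidHom.range_eq_map, Subgroup.range_subtype,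
    h.perfect]

theorem index_ne_two (h : QS P) (M : Subgroup P) : M.index ≠ 2 := fun e => by
  have := M.normal_of_index_eq_two e
  have h1 : ⁅(⊤ : Subgroup P), ⊤⁆ ≤ M := commutator_le_of_sq fun g _ => M.mul_self_mem_of_index_two e g
  rw [← commutator_def, perfect_of_qs h, top_le_iff] at h1
  simp [h1] at e

end Cov

/-- The matrices of a Sylow 2-subgroup. -/
structure Sy (P : Subgroup (GL I4 F)) (S : M4 F → Prop) : Prop where
  mem : ∀ {a}, S a → Mem P a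
  mul : ∀ {a b}, S a → S b → S (a * b)
  ad : ∀ {a}, S a → S (ad a)
  neg : ∀ {a}, S a → S (-a)
  into : ∀ {t}, Mem P t → t * t = 1 → ∃ g, Mem P g ∧ S (g * t * S4O.ad g)
  thom : ∀ {X s t}, (∀ a, S a → PM a X) → S s → s * X ≠ X * s → Mem P t → t * t = 1 →
    ∃ g, Mem P g ∧ S (g * t * S4O.ad g) ∧ g * t * S4O.ad g * X = X * (g * t * S4O.ad g)
  zs : ∀ {u}, S u → Pm (u * u) 1 → ¬ Pm u 1 →
    ∃ g, Mem P g ∧ S (g * u * S4O.ad g) ∧ ¬ Pm (g * u * S4O.ad g) u
  ext : ∀ {z t g}, (∀ a, S a → PM a z) → Mem P g → Pm (g * t * S4O.ad g) z →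
    ∃ g', Mem P g' ∧ Pm (g' * t * S4O.ad g') z ∧ ∀ y, S y → PM y t → S (g' * y * S4O.ad g')
  grow : ∀ {X a}, S a → ¬ PM a X → ∃ s, S s ∧ ¬ PM s X ∧ PM (s * s) X ∧
    ∀ y, S y → PM y X → PM (s * y * S4O.ad s) X ∧ PM (S4O.ad s * y * s) X
  cen : ∀ {u}, S u → ¬ Pm u 1 → ∃ z, S z ∧ Pm (z * z) 1 ∧ ¬ Pm z 1 ∧ ∀ a, S a → PM a z

/-- The stabiliser of `±X`. -/
def pmStab (h : Ctx P) (X : M4 F) : Subgroup P where
  carrier := {g | PM (mx g) X}
  one_mem' := PM.one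
  mul_mem' := PM.mul
  inv_mem' := fun {a} ha => by
    rw [Set.mem_setOf_eq, h.mx_inv]; exact PM.ad (h.ad_mul (mem_mx a)) ha

theorem exists_sy [Finite F] (h : Ctx P) : ∃ S, Sy P S := by
  obtain ⟨S⟩ : Nonempty (Sylow 2 P) := inferInstance
  have hπ := cov_mk h.le
  set π := QuotientGroup.mk' ((scalars I4 F).subgroupOf P)
  have := hπ.simple h.le h.qs
  have into : ∀ {t}, Mem P t → t * t = 1 → ∃ g : P, ∃ a ∈ S, mx a = mx g * t * S4O.ad (mx g) :=
    fun ht h1 => by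
      obtain ⟨x, rfl⟩ := ht.exists
      obtain ⟨g, hg⟩ := Inv.exists_conj_mem_sylow_of_isPGroup
        (Inv.ST.isPGroup_zpowers_of_pow (p := 2) (k := 1) (x := x) (mx_inj (by
          rw [mx_pow, pow_one, sq, h1, mx_one]))) S
      exact ⟨g, _, hg x (Subgroup.mem_zpowers x), h.mx_conj g x⟩
  obtain ⟨n, hn, en⟩ : ∃ n ∈ S, mx n = -1 := by
    obtain ⟨g, a, ha, e⟩ := into h.neg (by simp)
    exact ⟨a, ha, by rw [e, Matrix.mul_neg, Matrix.mul_one, Matrix.neg_mul, h.mul_ad (mem_mx g)]⟩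
  have neg : ∀ {a}, (∃ x ∈ S, mx x = a) → ∃ x ∈ S, mx x = -a := by
    rintro _ ⟨x, hx, rfl⟩
    exact ⟨n * x, S.mul_mem hn hx, by rw [mx_mul, en]; simp⟩
  have lift : ∀ {x : P}, π x ∈ S.mapSurjective hπ.surj → ∃ y ∈ S, mx y = mx x := by
    rintro x ⟨y, hy, e⟩
    rcases (hπ.eq_iff.1 e).symm with e | e
    · exact ⟨y, hy, e.symm⟩
    · exact e ▸ neg ⟨y, hy, rfl⟩
  refine ⟨fun a => ∃ x ∈ S, mx x = a, ?_, ?_, ?_, neg, ?_, ?_, ?_, ?_, ?_, ?_⟩
  · rintro _ ⟨x, -, rfl⟩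
    exact mem_mx x
  · rintro _ _ ⟨x, hx, rfl⟩ ⟨y, hy, rfl⟩
    exact ⟨x * y, S.mul_mem hx hy, rfl⟩
  · rintro _ ⟨x, hx, rfl⟩
    exact ⟨x⁻¹, S.inv_mem hx, h.mx_inv x⟩
  · intro t ht h1
    obtain ⟨g, hg⟩ := into ht h1
    exact ⟨_, mem_mx g, hg⟩
  · rintro X _ t hX ⟨s, hs, rfl⟩ hsX ht h1
    obtain ⟨x, rfl⟩ := ht.exists
    let Q : Subgroup P := S ⊓
      { carrier := {g | mx g * X = X * mx g}
        one_mem' := by simp [mx_one]
        mul_mem' := fun {a b} ha hb => by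
          simp only [Set.mem_setOf_eq, mx_mul] at *
          rw [Matrix.mul_assoc, hb, ← Matrix.mul_assoc, ha, Matrix.mul_assoc]
        inv_mem' := fun {a} ha => by
          simp only [Set.mem_setOf_eq, h.mx_inv] at *
          linear_combination (norm := noncomm_ring) -S4O.ad (mx a) * ha * S4O.ad (mx a) -
            S4O.ad (mx a) * X * h.mul_ad (mem_mx a) + h.ad_mul (mem_mx a) * X * S4O.ad (mx a) }
    have hQ : ∀ g, g ∈ Q ↔ g ∈ S ∧ mx g * X = X * mx g := fun g => Iff.rfl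
    have e1 := (hX _ ⟨s, hs, rfl⟩).resolve_left hsX
    have hi : Q.relIndex S = 2 := by
      refine Subgroup.relIndex_eq_two_iff.2 ⟨s, hs, fun b hb => ?_⟩
      have hne : ∀ g : P, mx g * X = X * mx g → mx g * X = -(X * mx g) → False := fun g e e' => by
        have h0 : X * mx g = 0 := eq_zero_of_two h.two (e.symm.trans e')
        have : X = 0 := by
          rw [← Matrix.mul_one X, ← h.mul_ad (mem_mx g), ← Matrix.mul_assoc, h0, Matrix.zero_mul]
        exact hsX (by rw [this]; simp)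
      rcases hX _ ⟨b, hb, rfl⟩ with e | e
      · refine .inr ⟨⟨hb, e⟩, fun hc => hne _ hc.2 ?_⟩
        rw [mx_mul]
        linear_combination (norm := noncomm_ring) mx b * e1 - e * mx s
      · refine .inl ⟨⟨S.mul_mem hb hs, ?_⟩, fun hc => hne _ hc.2 e⟩
        change mx b * mx s * X = X * (mx b * mx s)
        linear_combination (norm := noncomm_ring) mx b * e1 - e * mx s
    rcases GT.Tr.thompson_transfer_index_two S.not_dvd_index hi (u := x)
      (mx_inj (by rw [mx_pow, sq, h1, mx_one])) with ⟨M, -, hM, -⟩ | ⟨g, hg⟩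
    · exact absurd hM (index_ne_two h.qs M)
    · exact ⟨_, mem_mx g, ⟨_, hg.1, h.mx_conj g x⟩, h.mx_conj g x ▸ hg.2⟩
  · rintro _ ⟨x, hx, rfl⟩ h1 h2
    obtain ⟨g, hg, hne⟩ := Inv.ZS.exists_conj_mem_ne (Inv.ZS.card_ne_two_of_not_comm (hπ.not_comm h.qs))
      (S.mapSurjective hπ.surj) (hπ.orderOf h1 h2) ⟨x, hx, rfl⟩
    obtain ⟨g, rfl⟩ := hπ.surj g
    rw [← map_inv, ← map_mul, ← map_mul] at hg hne
    exact ⟨_, mem_mx g, h.mx_conj g x ▸ lift hg, fun e => hne (hπ.eq_iff.2 (h.mx_conj g x ▸ e))⟩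
  · intro z t g hz hg e
    obtain ⟨g, rfl⟩ := hg.exists
    have hg := h.ad_mul (mem_mx g)
    obtain ⟨m, hm, hmS⟩ := Inv.ST.exists_conj_mem_sylow S (N := pmStab h z)
      (Q := ((S : Subgroup P) ⊓ pmStab h t).map (MulAut.conj g).toMonoidHom)
      (fun a ha => hz _ ⟨a, ha, rfl⟩) ((S.2.to_le inf_le_left).map _) (by
        rintro _ ⟨y, hy, rfl⟩
        change PM (mx (g * y * g⁻¹)) z
        rw [h.mx_conj]
        exact (((PM.conj hg).2 hy.2).symm.of_pm e.symm).symm)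
    have ec : ∀ Y : M4 F, mx m * mx g * Y * S4O.ad (mx m * mx g) =
        mx m * (mx g * Y * S4O.ad (mx g)) * S4O.ad (mx m) := fun Y => by
      rw [ad_mul]; noncomm_ring
    refine ⟨mx m * mx g, mem_mx (m * g), ?_, ?_⟩
    · rw [ec]
      exact (e.conj _).trans ((PM.iff (h.ad_mul (mem_mx m))).1 hm)
    · rintro _ ⟨y, hy, rfl⟩ hyt
      exact ⟨_, hmS _ ⟨y, ⟨hy, hyt⟩, rfl⟩, by rw [ec, ← h.mx_conj, ← h.mx_conj]; rfl⟩
  · rintro X _ ⟨a, ha, rfl⟩ hX
    obtain ⟨y, hy, hy1, hy2⟩ := Inv.ST.exists_mem_normalizer_of_lt S.2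
      (D := (S : Subgroup P) ⊓ pmStab h X) inf_le_left fun hc => hX (hc ha).2
    obtain ⟨j, hj⟩ := S.2 ⟨y, hy⟩
    have hex : ∃ j, y ^ 2 ^ j ∈ (S : Subgroup P) ⊓ pmStab h X :=
      ⟨j, by rw [show y ^ 2 ^ j = 1 from congrArg Subtype.val hj]; exact one_mem _⟩
    classical
    obtain ⟨i, hi⟩ := Nat.exists_eq_succ_of_ne_zero (n := Nat.find hex) fun e =>
      hy1 (by have := Nat.find_spec hex; rw [e] at this; simpa using this)
    have h1 := Nat.find_spec hex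
    have h2 := Nat.find_min hex (m := i) (by omega)
    rw [hi, pow_succ, pow_mul, sq] at h1
    have h3 := Subgroup.pow_mem _ hy2 (2 ^ i)
    have h4 := S.pow_mem hy (2 ^ i)
    generalize y ^ 2 ^ i = s at h1 h2 h3 h4
    refine ⟨_, ⟨s, h4, rfl⟩, fun hc => h2 ⟨h4, hc⟩, h1.2, ?_⟩
    rintro _ ⟨w, hw, rfl⟩ hwX
    refine ⟨?_, ?_⟩
    · rw [← h.mx_conj]
      exact ((Subgroup.mem_normalizer_iff.1 h3 w).1 ⟨hw, hwX⟩).2
    · have := ((Subgroup.mem_normalizer_iff.1 (inv_mem h3) w).1 ⟨hw, hwX⟩).2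
      rw [inv_inv] at this
      rw [← h.mx_inv]
      exact this
  · rintro _ ⟨u, hu, rfl⟩ h1
    obtain ⟨z, hz, hz2, hzc⟩ := Inv.exists_central_of_isPGroup (S.mapSurjective hπ.surj).2
      fun e => h1 ((hπ.ker u).1 (Subgroup.mem_bot.1 (e ▸ ⟨u, hu, rfl⟩)))
    obtain ⟨z, hz, rfl⟩ := hz
    refine ⟨_, ⟨z, hz, rfl⟩, (hπ.ker (z * z)).1 ?_, fun e => ?_, ?_⟩
    · rw [map_mul, ← sq]
      exact orderOf_dvd_iff_pow_eq_one.1 hz2.dvd
    · rw [(hπ.ker z).2 e, orderOf_one] at hz2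
      omega
    · rintro _ ⟨a, ha, rfl⟩
      exact (hπ.eq_iff (x := a * z) (y := z * a)).1 (by
        rw [map_mul, map_mul]; exact hzc _ ⟨a, ha, rfl⟩)

end Cfsg.Agent.Cl.S4O
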