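import Mathlib
import Cfsg.Agent.Cl.S4OG

/-!
# Non-central involutions in `P ≤ Sp₄(q)`: one class, three perpendicular members
-/

set_option autoImplicit false
set_option linter.unusedSectionVars false
set_option linter.unusedVariables false
set_option linter.ambiguousOpen false

namespace Cfsg.Agent.Cl.S4O

open Matrix Low Max Mx Geo

variable {F : Type*} [Field F] {P : Subgroup (GL I4 F)} {S : M4 F → Prop}
  {X Y a b c d g k s t u v w x z : M4 F}

/-- Anticommuting matrices. -/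
def An (a b : M4 F) : Prop := a * b = -(b * a)

namespace An

theorem symm (h : An a b) : An b a := by rw [An, h, neg_neg]
theorem mul_co (h : An a b) (h' : Commute a c) : An a (b * c) := by
  rw [An, ← Matrix.mul_assoc, h, Matrix.neg_mul, Matrix.mul_assoc, h'.eq, Matrix.mul_assoc]
theorem co_mul (h : Commute a b) (h' : An a c) : An a (b * c) := by
  rw [An, ← Matrix.mul_assoc, h.eq, Matrix.mul_assoc, h', Matrix.mul_neg, Matrix.mul_assoc]
theorem mul (h : An a b) (h' : An a c) : Commute a (b * c) := by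
  change a * (b * c) = b * c * a
  rw [← Matrix.mul_assoc, h, Matrix.neg_mul, Matrix.mul_assoc, h', Matrix.mul_neg, neg_neg,
    Matrix.mul_assoc]
theorem neg (h : An a b) : An a (-b) := by rw [An, Matrix.mul_neg, h, Matrix.neg_mul]
theorem pm (h : An a b) (e : Pm c b) : An a c := e.prop (p := An a) (fun _ => neg) h
theorem sub (h : An a b) (h' : An a c) : An a (b - c) := by
  rw [An, Matrix.mul_sub, h, h', Matrix.sub_mul]; abel
theorem conj (hg : ad g * g = 1) : An (g * a * ad g) (g * b * ad g) ↔ An a b := by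
  rw [An, conj_mul hg, conj_mul hg, ← Matrix.neg_mul, ← Matrix.mul_neg]
  exact ⟨conj_inj hg, fun e => by rw [e]⟩
theorem toPM (h : An a b) : PM a b := .inr h
theorem eq_zero (h2 : (2 : F) ≠ 0) (h : An a b) (h' : Commute a b) (ha : IsUnit a) : b = 0 :=
  ha.mul_left_eq_zero.1 (eq_zero_of_two h2 (h'.eq.symm.trans h))
theorem not_pm (h2 : (2 : F) ≠ 0) (h : An a b) (hb : b ≠ 0) : ¬ Pm a 1 := fun e => by
  rcases e with rfl | rfl
  · exact hb (h.eq_zero h2 (Commute.one_left _) isUnit_one)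
  · exact hb (h.eq_zero h2 (Commute.neg_one_left _) isUnit_one.neg)
theorem trace (h2 : (2 : F) ≠ 0) (h : An a b) (ha : IsUnit a) : b.trace = 0 := by
  obtain ⟨a, rfl⟩ := ha
  have e : b = -((a⁻¹ : (M4 F)ˣ) * (b * a)) := by
    rw [← Matrix.mul_neg, ← h, ← Matrix.mul_assoc, Units.inv_mul, Matrix.one_mul]
  have := congrArg Matrix.trace e
  rw [trace_neg, trace_mul_comm, Matrix.mul_assoc, Units.mul_inv, Matrix.mul_one] at this
  exact (mul_eq_zero.1 (by linear_combination this : 2 * b.trace = 0)).resolve_left h2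
theorem ip (h2 : (2 : F) ≠ 0) (h : An X Y) (hX : W X) (hY : W Y) : ip X Y = 0 :=
  (W.ip_eq_zero_iff h2 hX hY).2 h
theorem sq (h : An a b) : a * b * (a * b) = -(a * a * (b * b)) := by
  have e : a * b = -(b * a) := h
  linear_combination (norm := noncomm_ring) a * e * b

end An

theorem co_pm (h : Commute a b) (e : Pm c b) : Commute a c :=
  e.prop (p := Commute a) (fun _ => Commute.neg_right) h
theorem co_conj (hg : ad g * g = 1) (h : Commute a b) : Commute (g * a * ad g) (g * b * ad g) := by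
  change _ * _ = _ * _
  rw [conj_mul hg, conj_mul hg, h.eq]
theorem co_sq (h : Commute a b) : a * b * (a * b) = a * a * (b * b) := by
  linear_combination (norm := noncomm_ring) -a * h.eq * b

theorem D.not_pm (ht : D P t) : ¬ Pm t 1 := fun e => e.elim ht.ne ht.ne'
theorem D.of_pm (hm : Mem P t) (h1 : t * t = 1) (h : ¬ Pm t 1) : D P t :=
  ⟨hm, h1, fun e => h (.inl e), fun e => h (.inr e)⟩
theorem D.an (h : Ctx P) (hs : D P s) (ht : D P t) (hp : PM s t) (hn : ¬ Pm t s) : An s t :=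
  hp.resolve_left fun e => hn (hs.pm_of_commute h ht e)
theorem D.pm (h : Ctx P) (hs : D P s) (e : Pm t s) : D P t := e.prop (fun _ hx => hx.neg h) hs
theorem Mem.ne_zero (hg : Mem P g) : g ≠ 0 := hg.isUnit.ne_zero

theorem Sy.conj (hS : Sy P S) (hs : S s) (ha : S a) : S (s * a * S4O.ad s) :=
  hS.mul (hS.mul hs ha) (hS.ad hs)

theorem conj_conj' (g k X : M4 F) : g * k * X * ad (g * k) = g * (k * X * ad k) * ad g := by
  rw [ad_mul]; noncomm_ring

theorem exists_v [Finite F] (h : Ctx P) (hS : Sy P S) (ht : D P t) :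
    ∃ v, D P v ∧ S v ∧ ∀ a, S a → PM a v := by
  obtain ⟨g, hg, ht1⟩ := hS.into ht.mem ht.sq
  have hd := ht.conj h hg
  obtain ⟨k, hk, hk2, hk1, hkc⟩ := hS.cen ht1 hd.not_pm
  rcases hk2 with e | e
  · exact ⟨k, .of_pm (hS.mem hk) e hk1, hk, hkc⟩
  have hne : {t | D P t ∧ S t ∧ Commute t k}.Nonempty := by
    by_cases hc : ∃ s, S s ∧ s * k ≠ k * s
    · obtain ⟨s, hs, hsk⟩ := hc
      obtain ⟨g, hg, h1, h2⟩ := hS.thom hkc hs hsk ht.mem ht.sq
      exact ⟨_, ht.conj h hg, h1, h2⟩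
    · push Not at hc
      exact ⟨_, hd, ht1, hc _ ht1⟩
  obtain ⟨t, ⟨ht, hSt, htk⟩, hmax⟩ := Set.exists_max_image _
    (fun t => {a | S a ∧ PM a t}.ncard) (Set.toFinite _) hne
  refine ⟨t, ht, hSt, fun a ha => by_contra fun hat => ?_⟩
  obtain ⟨s, hs, hst, hss, hn⟩ := hS.grow ha hat
  have s1 := h.ad_mul (hS.mem hs)
  have ht' := ht.conj h (hS.mem hs)
  have an : An t (s * t * ad s) :=
    ht.an h ht' (hn t hSt PM.self).1.symm fun e => hst ((PM.iff s1).2 e)
  have sk := (PM.iff s1).1 (hkc s hs)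
  have c' : Commute (s * t * ad s) k := co_pm (co_conj s1 htk) sk.symm
  have hSu := hS.mul hk (hS.mul hSt (hS.conj hs hSt))
  have cu : Commute k (t * (s * t * ad s)) := htk.symm.mul_right c'.symm
  have hu : D P (k * (t * (s * t * ad s))) := .of_pm (hS.mem hSu)
    (by rw [co_sq cu, an.sq, e, ht.sq, ht'.sq]; simp)
    ((An.co_mul htk (An.co_mul (Commute.refl t) an)).symm.not_pm h.two ht.ne_zero)
  refine (hmax _ ⟨hu, hSu, ((Commute.refl k).mul_right cu).symm⟩).not_gt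
    (Set.ncard_lt_ncard ⟨fun y hy => ⟨hy.1, (hkc y hy.1).mul' (hy.2.mul' ?_)⟩, fun hc => hst
      (hc ⟨hs, (hkc s hs).mul' ((PM.iff s1).2 ?_)⟩).2⟩ (Set.toFinite _))
  · have := (PM.conj s1).2 (hn y hy.1 hy.2).2
    rwa [show s * (ad s * y * s) * ad s = y by
      simpa only [ad_ad] using conj_conj (g := ad s) (by rw [ad_ad, mul_eq_one_comm.1 s1]) y] at this
  · rw [← conj_mul s1, ← conj_conj']
    exact (Pm.rfl.mul ((PM.iff (h.ad_mul (hS.mem (hS.mul hs hs)))).1 hss)).trans an.symm.toPM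

variable (h : Ctx P) (hS : Sy P S) (hv : D P v) (sv : S v) (cv : ∀ a, S a → PM a v)
include h hS hv sv cv

theorem exists_w : ∃ w, D P w ∧ S w ∧ An v w := by
  obtain ⟨g, hg, h1, h2⟩ := hS.zs sv (.inl hv.sq) hv.not_pm
  exact ⟨_, hv.conj h hg, h1, hv.an h (hv.conj h hg) (cv _ h1).symm h2⟩

theorem conj_v (ht : D P t) : ∃ g, Mem P g ∧ Pm (g * t * ad g) v := by
  obtain ⟨w, hw, sw, vw⟩ := exists_w h hS hv sv cv
  obtain ⟨g, hg, h1, h2⟩ := hS.thom cv sw
    (fun e => hv.ne_zero (vw.symm.eq_zero h.two e hw.mem.isUnit)) ht.mem ht.sq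
  exact ⟨g, hg, hv.pm_of_commute h (ht.conj h hg) h2.symm⟩

theorem one_class (hs : D P s) (ht : D P t) : ∃ g, Mem P g ∧ Pm (g * s * ad g) t := by
  obtain ⟨g, hg, e⟩ := conj_v h hS hv sv cv hs
  obtain ⟨k, hk, e'⟩ := conj_v h hS hv sv cv ht
  refine ⟨ad k * g, (h.ad hk).mul hg, ?_⟩
  have := (e.trans e'.symm).conj (ad k)
  rwa [← conj_conj', ad_ad, conj_conj (h.ad_mul hk)] at this

theorem exists_wu : ∃ w u, D P w ∧ S w ∧ D P u ∧ S u ∧ An v w ∧ An v u ∧ An w u := by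
  obtain ⟨w, hw, sw, vw⟩ := exists_w h hS hv sv cv
  by_cases hc : ∀ a, S a → PM a w
  · by_cases hu : ∃ u, D P u ∧ S u ∧ ¬ Pm u v ∧ ¬ Pm u w
    · obtain ⟨u, hu, su, h1, h2⟩ := hu
      exact ⟨w, u, hw, sw, hu, su, vw, hv.an h hu (cv u su).symm h1, hw.an h hu (hc u su).symm h2⟩
    have a1 : An (v * w) v := (An.co_mul (Commute.refl v) vw).symm
    have a2 : An (v * w) w := (vw.symm.mul_co (Commute.refl w)).symm
    have hU := (hv.mem.mul hw.mem).isUnit
    obtain ⟨g, hg, h1, h2⟩ := hS.thom (fun a ha => (cv a ha).mul' (hc a ha)) sv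
      (fun e => hv.ne_zero (a1.eq_zero h.two e.symm hU)) hv.mem hv.sq
    have hd := hv.conj h hg
    refine absurd ⟨_, hd, h1, fun e => ?_, fun e => ?_⟩ hu
    · exact hd.ne_zero ((a1.pm e).eq_zero h.two h2.symm hU)
    · exact hd.ne_zero ((a2.pm e).eq_zero h.two h2.symm hU)
  push Not at hc
  obtain ⟨a, ha, hc⟩ := hc
  obtain ⟨s, hs, hsw, -, hn⟩ := hS.grow ha hc
  have s1 := h.ad_mul (hS.mem hs)
  have hd := hw.conj h (hS.mem hs)
  exact ⟨w, _, hw, sw, hd, hS.conj hs sw, vw,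
    (((An.conj s1).2 vw).symm.pm ((PM.iff s1).1 (cv s hs)).symm).symm,
    hw.an h hd (hn w sw PM.self).1.symm fun e => hsw ((PM.iff s1).2 e)⟩

end Cfsg.Agent.Cl.S4O
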