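import Mathlib
import Cfsg.Agent.Cl.S4OAa

/-!
# Non-central involutions in `P ≤ Sp₄(q)`: a frame
-/

set_option autoImplicit false
set_option linter.unusedSectionVars false
set_option linter.unusedVariables false
set_option linter.ambiguousOpen false

namespace Cfsg.Agent.Cl.S4O

open Matrix Low Max Mx Geo

variable {F : Type*} [Field F] {P : Subgroup (GL I4 F)} {S : M4 F → Prop}
  {X Y a b c c₀ d e g k s t u v w x y z : M4 F}

theorem W.an_of (h2 : (2 : F) ≠ 0) (hX : W X) (hY : W Y) (h : Commute y X) (h' : An y Y)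
    (hy : IsUnit y) : An X Y := by
  have e := (An.co_mul h h').sub (h'.mul_co h).neg
  rw [sub_neg_eq_add, hX.anti h2 hY] at e
  have := e.eq_zero h2 ((Commute.one_right y).smul_right _) hy
  exact (hX.ip_eq_zero_iff h2 hY).1 (smul_one_inj (this.trans (zero_smul F _).symm))

theorem pm_of_smul {β : F} (h : X = β • Y) (hX : X * X = Y * Y) (h0 : Y * Y ≠ 0) : Pm X Y := by
  rw [h, smul_mul_smul_comm] at hX
  have : (β * β - 1) • (Y * Y) = 0 := by rw [sub_smul, hX, one_smul, sub_self]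
  rcases mul_self_eq_one_iff.1 (sub_eq_zero.1 ((smul_eq_zero.1 this).resolve_right h0)) with
    rfl | rfl
  exacts [.inl (by rw [h, one_smul]), .inr (by rw [h, neg_smul, one_smul])]

theorem ad_eq_neg (h : ad t * t = 1) (h' : t * t = -1) : ad t = -t := by
  linear_combination (norm := noncomm_ring) ad t * h' - h * t

variable (P) in
/-- No non-central involution anticommutes with `x`. -/
def Pr (x : M4 F) : Prop := ∀ d, D P d → ¬ An d x

theorem Pr.pm (h : Pr P x) (e : Pm y x) : Pr P y := fun d hd a => h d hd (a.pm e.symm)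
theorem Pr.of_conj (c : Ctx P) (hg : Mem P g) (h : Pr P (g * x * ad g)) : Pr P x :=
  fun d hd a => h _ (hd.conj c hg) ((An.conj (c.ad_mul hg)).2 a)
theorem Pr.conj (c : Ctx P) (hg : Mem P g) (h : Pr P x) : Pr P (g * x * ad g) :=
  Pr.of_conj c (c.ad hg) (by rwa [ad_ad, conj_conj (c.ad_mul hg)])

variable (S k) in
/-- The elements of `S` in the span of `1` and `k`. -/
def Cy (c : M4 F) : Prop := S c ∧ ∃ α β : F, c = α • 1 + β • k

theorem Cy.co (h : Cy S k c) (hx : Commute x k) : Commute x c := by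
  obtain ⟨-, α, β, rfl⟩ := h
  exact ((Commute.one_right x).smul_right _).add_right (hx.smul_right _)

theorem Cy.swap (hk : ad k = -k) (h : Cy S k c) (hx : An x k) : x * c = ad c * x := by
  obtain ⟨-, α, β, rfl⟩ := h
  have e : x * k = -(k * x) := hx
  simp only [ad_add, ad_smul, ad_one, hk, Matrix.mul_add, Matrix.add_mul, Matrix.mul_smul,
    Matrix.smul_mul, e, Matrix.one_mul, Matrix.mul_one, Matrix.neg_mul]

theorem cy_mul (hk : k * k = -1) (α β γ δ : F) : (α • (1 : M4 F) + β • k) * (γ • 1 + δ • k) =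
    (α * γ - β * δ) • 1 + (α * δ + β * γ) • k := by
  simp only [Matrix.mul_add, Matrix.add_mul, Matrix.mul_smul, Matrix.smul_mul, hk, Matrix.one_mul,
    Matrix.mul_one]
  module

theorem Cy.mul (hS : Sy P S) (hk : k * k = -1) (h : Cy S k c) (h' : Cy S k d) : Cy S k (c * d) := by
  obtain ⟨h, α, β, rfl⟩ := h
  obtain ⟨h', γ, δ, rfl⟩ := h'
  exact ⟨hS.mul h h', _, _, cy_mul hk _ _ _ _⟩

theorem Cy.ad (hS : Sy P S) (hk : S4O.ad k = -k) (h : Cy S k c) : Cy S k (S4O.ad c) := by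
  obtain ⟨h, α, β, rfl⟩ := h
  exact ⟨hS.ad h, α, -β, by rw [ad_add, ad_smul, ad_smul, ad_one, hk, smul_neg, neg_smul]⟩

theorem Cy.dich [Finite F] (h : Ctx P) (hS : Sy P S) (hk : k * k = -1) (hk' : S4O.ad k = -k)
    (htr : k.trace = 0) (hc : Cy S k c) (h₀ : Cy S k c₀) (hn : ∀ e, Cy S k e → c₀ ≠ e * e) :
    ∃ e, Cy S k e ∧ (c = e * e ∨ c = e * e * c₀) := by
  let Q : Subgroup P :=
    { carrier := {g | Cy S k (mx g)}
      one_mem' := ⟨by rw [mx_one, ← h.mul_ad (hS.mem hc.1)]; exact hS.mul hc.1 (hS.ad hc.1),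
        1, 0, by simp [mx_one]⟩
      mul_mem' := Cy.mul hS hk
      inv_mem' := fun {a} ha => by rw [Set.mem_setOf_eq, h.mx_inv]; exact Cy.ad hS hk' ha }
  obtain ⟨i, hi⟩ := IsAlgClosed.exists_pow_nat_eq (-1 : AlgebraicClosure F) two_pos
  let ι := algebraMap F (AlgebraicClosure F)
  let φ : M4 F → AlgebraicClosure F := fun X => ι (X.trace / 4) - ι ((X * k).trace / 4) * i
  have h4 := four_ne h.two
  have hφ : ∀ α β : F, φ (α • 1 + β • k) = ι α + ι β * i := fun α β => by
    simp only [φ, Matrix.add_mul, Matrix.smul_mul, hk, Matrix.one_mul, trace_add, trace_smul,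
      trace_neg, trace_one4, htr, smul_eq_mul, mul_zero, add_zero, zero_add, mul_neg, neg_div,
      mul_div_cancel_right₀ _ h4, map_neg]
    ring
  let f : Q →* AlgebraicClosure F :=
    { toFun := fun g => φ (mx g.1)
      map_one' := by simpa [mx_one] using hφ 1 0
      map_mul' := by
        rintro ⟨a, -, α, β, ha⟩ ⟨b, -, γ, δ, hb⟩
        change φ (mx a * mx b) = φ (mx a) * φ (mx b)
        rw [ha, hb, cy_mul hk, hφ, hφ, hφ]
        simp only [map_sub, map_add, map_mul]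
        linear_combination -(ι β * ι δ) * hi }
  have hf : Function.Injective f := (injective_iff_map_eq_one f).2 <| by
    rintro ⟨a, ha', α, β, ha⟩ e
    change φ (mx a) = 1 at e
    have e1 := congrArg φ (h.ad_mul (mem_mx a))
    rw [ha, ad_add, ad_smul, ad_smul, ad_one, hk', smul_neg, ← neg_smul, cy_mul hk, hφ,
      show (1 : M4 F) = (1 : F) • 1 + (0 : F) • k by simp, hφ] at e1
    rw [ha, hφ] at e
    simp only [map_sub, map_add, map_mul, map_neg, map_one, map_zero] at e1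
    have h2 : (2 : AlgebraicClosure F) ≠ 0 := by
      rw [← map_ofNat ι]; exact (map_ne_zero ι).2 h.two
    have e2 : ι α = 1 := by grind
    have e3 : ι β = 0 := by grind
    refine Subtype.ext (mx_inj ?_)
    change mx a = 1
    rw [ha, ι.injective (e2.trans (map_one ι).symm), (map_eq_zero ι).1 e3]
    simp
  obtain ⟨γ, hγ⟩ := (isCyclic_of_injective_ringHom f hf).exists_zpow_surjective
  obtain ⟨x, rfl⟩ := (hS.mem hc.1).exists
  obtain ⟨x₀, rfl⟩ := (hS.mem h₀.1).exists
  obtain ⟨m, hm⟩ := hγ ⟨x, hc⟩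
  obtain ⟨n, hn'⟩ := hγ ⟨x₀, h₀⟩
  have key : ∀ {a b : Q}, a = b → mx a.1 = mx b.1 := fun e => by rw [e]
  rcases Int.even_or_odd' n with ⟨n, rfl | rfl⟩
  · exact absurd (key (b := γ ^ n * γ ^ n) (hn'.symm.trans (by simp only [two_mul, _root_.zpow_add])))
      (hn _ (γ ^ n).2)
  rcases Int.even_or_odd' m with ⟨m, rfl | rfl⟩
  · exact ⟨_, (γ ^ m).2, .inl (key (b := γ ^ m * γ ^ m)
      (hm.symm.trans (by simp only [two_mul, _root_.zpow_add])))⟩
  · exact ⟨_, (γ ^ (m - n)).2, .inr (key (b := γ ^ (m - n) * γ ^ (m - n) * ⟨x₀, h₀⟩)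
      (hm.symm.trans (by rw [← hn']; simp only [← _root_.zpow_add]; congr 1; ring)))⟩

/-- Three perpendicular involutions in a Sylow subgroup, without a fourth. -/
structure Tri (P : Subgroup (GL I4 F)) (S : M4 F → Prop) (v w u : M4 F) : Prop where
  ctx : Ctx P
  sy : Sy P S
  dv : D P v
  dw : D P w
  du : D P u
  sv : S v
  sw : S w
  su : S u
  cv : ∀ a, S a → PM a v
  vw : An v w
  vu : An v u
  wu : An w u
  no4 : ∀ x, D P x → An v x → An w x → An u x → False

namespace Tri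

variable (T : Tri P S v w u)
include T

theorem kk : w * u * (w * u) = -1 := by rw [T.wu.sq, T.dw.sq, T.du.sq, Matrix.one_mul]
theorem vk : Commute v (w * u) := T.vw.mul T.vu
theorem wk : An w (w * u) := An.co_mul (Commute.refl w) T.wu
theorem uk : An u (w * u) := T.wu.symm.mul_co (Commute.refl u)
theorem sk : S (w * u) := T.sy.mul T.sw T.su
theorem sf : S (v * (w * u)) := T.sy.mul T.sv T.sk
theorem un (hs : S s) : IsUnit s := (T.sy.mem hs).isUnit
theorem s1 (hs : S s) : ad s * s = 1 := T.ctx.ad_mul (T.sy.mem hs)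
theorem adk : ad (w * u) = -(w * u) := ad_eq_neg (T.s1 T.sk) T.kk
theorem trk : (w * u).trace = 0 := T.wk.trace T.ctx.two (T.un T.sw)
theorem ff : v * (w * u) * (v * (w * u)) = -1 := by
  rw [co_sq T.vk, T.dv.sq, T.kk, Matrix.one_mul]
theorem vf : Commute v (v * (w * u)) := (Commute.refl v).mul_right T.vk

theorem span (hX : W X) (h : An (w * u) X) : ∃ α β : F, X = α • w + β • u := by
  have e := congrArg (· * (w * u)) (W.comm_mul T.ctx.two (T.dw.w T.ctx) (T.du.w T.ctx) hX)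
  have e1 : u * (w * u) = -w := by rw [T.uk, Matrix.mul_assoc, T.du.sq, Matrix.mul_one]
  have e2 : w * (w * u) = u := by rw [← Matrix.mul_assoc, T.dw.sq, Matrix.one_mul]
  have h' : w * u * X = -(X * (w * u)) := h
  simp only [h', Matrix.sub_mul, Matrix.neg_mul, Matrix.smul_mul, e1, e2] at e
  rw [Matrix.mul_assoc X, T.kk] at e
  refine ⟨ip X w / 2, ip X u / 2, ?_⟩
  have h2 := T.ctx.two
  have : X = (2 : F)⁻¹ • -(X * -1 - -(X * -1)) := by
    simp only [Matrix.mul_neg, Matrix.mul_one]; match_scalars; field_simp; ring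
  rw [e] at this
  refine this.trans ?_
  match_scalars <;> field_simp

theorem mul_span (α β γ δ : F) : (α • w + β • u) * (γ • w + δ • u) =
    (α * γ + β * δ) • 1 + (α * δ - β * γ) • (w * u) := by
  have e : u * w = -(w * u) := T.wu.symm
  simp only [Matrix.mul_add, Matrix.add_mul, Matrix.mul_smul, Matrix.smul_mul, T.dw.sq, T.du.sq, e]
  module

theorem perp (hX : W X) (h : Commute (w * u) X) : An w X ∧ An u X :=
  ⟨(hX.an_of T.ctx.two (T.dw.w T.ctx) h T.wk.symm (T.un T.sk)).symm,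
    (hX.an_of T.ctx.two (T.du.w T.ctx) h T.uk.symm (T.un T.sk)).symm⟩

theorem an_k (hx : D P x) (h : An v x) (h' : PM x (w * u)) : An (w * u) x :=
  An.symm (h'.resolve_left fun e =>
    T.no4 x hx h (T.perp (hx.w T.ctx) e.symm).1 (T.perp (hx.w T.ctx) e.symm).2)

theorem an_v (hs : S s) (h : An v x) : An v (s * x * ad s) :=
  (((An.conj (T.s1 hs)).2 h).symm.pm ((PM.iff (T.s1 hs)).1 (T.cv s hs)).symm).symm

theorem ck (a : M4 F) (ha : S a) : PM a (w * u) := by_contra fun hc => by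
  obtain ⟨s, hs, hsk, -, hn⟩ := T.sy.grow ha hc
  have hw := T.dw.conj T.ctx (T.sy.mem hs)
  have hu := T.du.conj T.ctx (T.sy.mem hs)
  obtain ⟨α, β, e⟩ := T.span (hw.w T.ctx) (T.an_k hw (T.an_v hs T.vw) (hn w T.sw T.wk.toPM).1)
  obtain ⟨γ, δ, e'⟩ := T.span (hu.w T.ctx) (T.an_k hu (T.an_v hs T.vu) (hn u T.su T.uk.toPM).1)
  have e1 := T.mul_span α β γ δ
  rw [← e, ← e', conj_mul (T.s1 hs)] at e1
  have e2 := congrArg Matrix.trace e1
  rw [trace_conj (T.s1 hs), trace_add, trace_smul, trace_smul, T.trk, trace_one4, smul_zero,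
    add_zero, smul_eq_mul] at e2
  rw [(mul_eq_zero.1 e2.symm).resolve_right (four_ne T.ctx.two), zero_smul, zero_add] at e1
  refine hsk ((PM.iff (T.s1 hs)).2 (pm_of_smul e1 ?_ (by rw [T.kk]; simp)))
  rw [conj_mul (T.s1 hs), T.kk, Matrix.mul_neg, Matrix.mul_one, Matrix.neg_mul,
    mul_eq_one_comm.1 (T.s1 hs)]

theorem cf (a : M4 F) (ha : S a) : PM a (v * (w * u)) := (T.cv a ha).mul' (T.ck a ha)

theorem phi (hx : D P x) (sx : S x) : Pm x v ∨ An v x ∧ An (w * u) x := by
  refine or_iff_not_imp_left.2 fun hn => ?_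
  have := T.dv.an T.ctx hx (T.cv x sx).symm hn
  exact ⟨this, T.an_k hx this (T.ck x sx)⟩

theorem prf : Pr P (v * (w * u)) := fun d hd a =>
  have key : ∀ {s}, D P s → Commute s (v * (w * u)) → An s d := fun hs h =>
    (hs.w T.ctx).an_of T.ctx.two (hd.w T.ctx) h.symm a.symm (T.un T.sf)
  T.no4 d hd (key T.dv T.vf) (key T.dw (T.vw.symm.mul T.wk)) (key T.du (T.vu.symm.mul T.uk))

theorem exists_t : ∃ t, S t ∧ t * t = -1 ∧ Pr P t ∧ Commute v t ∧ An (w * u) t ∧
    ¬ Pr P (v * t) := by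
  obtain ⟨g, hg, st, hne⟩ := T.sy.zs T.sf (.inr T.ff) fun e => one_ne_neg_one T.ctx.two (by
    rw [← T.ff]; rcases e with e | e <;> simp [e])
  have g1 := T.ctx.ad_mul hg
  have pt := T.prf.conj T.ctx hg
  have tt : g * (v * (w * u)) * ad g * (g * (v * (w * u)) * ad g) = -1 := by
    rw [conj_mul g1, T.ff, Matrix.mul_neg, Matrix.mul_one, Matrix.neg_mul, T.ctx.mul_ad hg]
  obtain ⟨g', hg', e', hS'⟩ := T.sy.ext (t := g * (v * (w * u)) * ad g) T.cf (T.ctx.ad hg)
    (.inl (by rw [ad_ad, conj_conj g1]))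
  generalize g * (v * (w * u)) * ad g = t at *
  have vt : Commute v t := Commute.symm ((T.cv t st).resolve_right fun e => pt v T.dv (An.symm e))
  refine ⟨t, st, tt, pt, vt, An.symm ((T.ck t st).resolve_left fun e => ?_), fun hp => ?_⟩
  · have key : ∀ {z}, Pm (t * (w * u)) z → Pm t (z * (w * u)) := fun e => by
      have := (e.mul (Pm.rfl (a := w * u))).neg
      rwa [Matrix.mul_assoc t, T.kk, Matrix.mul_neg, neg_neg, Matrix.mul_one] at this
    by_cases h1 : Pm (t * (w * u)) 1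
    · exact pt w T.dw (T.wk.pm (by simpa using key h1))
    · exact hne (key (T.dv.pm_of_commute T.ctx (.of_pm (T.sy.mem (T.sy.mul st T.sk))
        (by rw [co_sq e, tt, T.kk]; simp) h1) (vt.mul_right T.vk)))
  · have h1 := hp.conj T.ctx hg'
    rw [← conj_mul (T.ctx.ad_mul hg')] at h1
    have h2 := h1.pm (Pm.rfl.mul e').symm
    rcases T.phi (T.dv.conj T.ctx hg') (hS' v T.sv (.inl vt)) with e | e
    · refine h2 w T.dw (T.wk.pm ?_)
      have := e.mul (Pm.rfl (a := v * (w * u)))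
      rwa [← Matrix.mul_assoc v v, T.dv.sq, Matrix.one_mul] at this
    · exact h2 v T.dv (e.1.mul_co T.vf)

theorem step (kt : An (w * u) t) (p1 : Pr P t) (p2 : ¬ Pr P (v * t)) (he : Cy S (w * u) e) :
    Pr P (e * e * t) ∧ ¬ Pr P (v * (e * e * t)) := by
  have e1 : e * e * t = e * t * ad e := by
    rw [Matrix.mul_assoc e t, (he.ad T.sy T.adk).swap T.adk kt.symm, ad_ad, Matrix.mul_assoc]
  rw [e1]
  refine ⟨p1.conj T.ctx (T.sy.mem he.1), fun hp => p2 (Pr.of_conj T.ctx (T.sy.mem he.1) ?_)⟩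
  rwa [← Matrix.mul_assoc, ← Matrix.mul_assoc, (he.co T.vk).eq, Matrix.mul_assoc e] at hp

theorem false [Finite F] : False := by
  obtain ⟨t, st, tt, pt, vt, kt, pvt⟩ := T.exists_t
  have h2 := T.ctx.two
  have t1 := T.s1 st
  have adt := ad_eq_neg t1 tt
  have hw' := T.dw.conj T.ctx (T.sy.mem st)
  have sw' := T.sy.conj st T.sw
  have vw' := T.an_v st T.vw
  have kw' : An (w * u) (t * w * ad t) := An.co_mul (kt.mul T.wk.symm) (adt ▸ kt.neg)
  have w't : t * w * ad t * t = t * w := by rw [Matrix.mul_assoc, t1, Matrix.mul_one]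
  have tw' : t * (t * w * ad t) = w * t := by
    rw [adt]; linear_combination (norm := noncomm_ring) -tt * w * t
  obtain ⟨α, β, ew⟩ := T.span (hw'.w T.ctx) kw'
  generalize t * w * ad t = w' at *
  have ec : w * w' = α • 1 + β • (w * u) := by
    simpa [← ew] using T.mul_span 1 0 α β
  have c0 : Cy S (w * u) (w * w') := ⟨T.sy.mul T.sw sw', _, _, ec⟩
  have ck : Cy S (w * u) (w * u) := ⟨T.sk, 0, 1, by simp⟩
  have nsq : ∀ e, Cy S (w * u) e → w * w' ≠ e * e := fun e he h => by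
    have hc := he.mul T.sy T.kk ck
    refine pt (w * (e * (w * u))) (.of_pm (T.sy.mem (T.sy.mul T.sw hc.1)) ?_
      ((T.wk.symm.mul_co (hc.co (Commute.refl _))).symm.not_pm h2 (T.sy.mem T.sk).ne_zero)) ?_
    · nth_rw 1 [hc.swap T.adk T.wk]
      rw [Matrix.mul_assoc, ← Matrix.mul_assoc w w, T.dw.sq, Matrix.one_mul, T.s1 hc.1]
    · rw [← Matrix.mul_assoc]
      refine (An.co_mul ?_ kt.symm).symm
      have e1 := he.swap T.adk kt.symm
      have e2 := mul_eq_one_comm.1 (T.s1 he.1)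
      change t * (w * e) = w * e * t
      linear_combination (norm := noncomm_ring) -w't * e + w' * e1 - T.dw.sq * w' * ad e * t +
        w * h * ad e * t + w * e * e2 * t
  have key : ∀ c, Cy S (w * u) c → Pr P (c * t) ∧ ¬ Pr P (v * (c * t)) := fun c hc => by
    obtain ⟨e, he, rfl | rfl⟩ := hc.dich T.ctx T.sy T.kk T.adk T.trk c0 nsq
    · exact T.step kt pt pvt he
    have e1 : w * w' * t = w * t * ad w := by
      rw [T.dw.ad T.ctx, Matrix.mul_assoc, w't, Matrix.mul_assoc]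
    rw [Matrix.mul_assoc (e * e), e1]
    refine T.step (An.co_mul (T.wk.symm.mul kt) ((T.dw.ad T.ctx).symm ▸ T.wk.symm))
      (pt.conj T.ctx T.dw.mem) (fun hp => pvt (Pr.of_conj T.ctx T.dw.mem (hp.pm (.inr ?_)))) he
    have e2 : v * w = -(w * v) := T.vw
    linear_combination (norm := noncomm_ring) e2 * t * ad w
  have hx : W (w - w') := (T.dw.w T.ctx).sub (hw'.w T.ctx)
  have kx : An (w * u) (w - w') := T.wk.symm.sub kw'
  have vx : An v (w - w') := T.vw.sub vw'
  have tx : An t (w - w') := by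
    rw [An, Matrix.mul_sub, Matrix.sub_mul, tw', w't, neg_sub]
  obtain ⟨l, l0, xx⟩ : ∃ l : F, l ≠ 0 ∧ (w - w') * (w - w') = l • 1 := by
    have e1 := T.mul_span α β α β
    rw [← ew, hw'.sq, mul_comm β α, sub_self, zero_smul, add_zero] at e1
    have e2 := smul_one_inj ((one_smul F _).trans e1)
    refine ⟨(1 - α) * (1 - α) + β * β, fun h0 => nsq 1 ⟨?_, 1, 0, by simp⟩ ?_, ?_⟩
    · exact T.dw.sq ▸ T.sy.mul T.sw T.sw
    · rw [ec, show α = 1 by grind, show β = 0 by grind]; simp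
    · rw [show w - w' = (1 - α) • w + (-β) • u by rw [ew]; module, T.mul_span]
      module
  generalize w - w' = x at *
  have ty : An t (x * t) := tx.mul_co (Commute.refl t)
  have hy : W (x * t) := ⟨by rw [ad_mul, hx.ad, adt, Matrix.neg_mul, tx, neg_neg],
    ty.trace h2 (T.un st)⟩
  have yy : x * t * (x * t) = l • 1 := by rw [tx.symm.sq, xx, tt]; simp
  have l1 : l • (1 : M4 F) ≠ 0 := smul_ne_zero l0 one_ne_zero
  have y0 : x * t ≠ 0 := fun e => l1 (by rw [← yy, e, Matrix.zero_mul])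
  have vy : An v (x * t) := vx.mul_co vt
  have ky : Commute (w * u) (x * t) := kx.mul kt
  have fy : An (v * (w * u)) (x * t) := (vy.symm.mul_co ky.symm).symm
  by_cases hc : ∀ a, S a → PM a (x * t)
  · obtain ⟨g, hg, s', e⟩ := T.sy.thom hc st (fun e => y0 (ty.eq_zero h2 e (T.un st)))
      T.dv.mem T.dv.sq
    have hd := T.dv.conj T.ctx hg
    refine y0 (An.eq_zero h2 ?_ e hd.mem.isUnit)
    rcases T.phi hd s' with e' | e'
    · exact (vy.symm.pm e').symm
    · exact (hd.w T.ctx).an_of h2 hy (e'.1.symm.mul e'.2.symm).symm fy (T.un T.sf)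
  push Not at hc
  obtain ⟨a, ha, hc⟩ := hc
  obtain ⟨s, hs, hsy, -, hn⟩ := T.sy.grow ha hc
  have s1 := T.s1 hs
  have t'y := (hn t st ty.toPM).1
  have ek := ((PM.iff s1).1 (T.ck s hs)).symm
  have ef := ((PM.iff s1).1 (T.cf s hs)).symm
  have st' := T.sy.conj hs st
  have hy' := hy.conj s1
  have t'y' := (An.conj s1).2 ty
  have fy' := (((An.conj s1).2 fy).symm.pm ef).symm
  have t'f := ((An.conj s1).2 (An.co_mul vt.symm kt.symm)).pm ef
  have kx' := (((An.conj s1).2 kx).symm.pm ek).symm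
  have fx' := (T.an_v hs vx).symm.mul kx'.symm
  have conj1 : ∀ {X : M4 F}, X * X = l • 1 → s * X * ad s * (s * X * ad s) = l • 1 := fun e => by
    rw [conj_mul s1, e, Matrix.mul_smul, Matrix.mul_one, Matrix.smul_mul, mul_eq_one_comm.1 s1]
  have xx' := conj1 xx
  have yy' := conj1 yy
  have ey := conj_mul s1 x t
  have pft : ¬ Pr P (v * (w * u) * (s * t * ad s)) := fun hp => (key _ ck).2 (by
    refine Pr.of_conj T.ctx (T.sy.mem hs) (hp.pm ?_)
    rw [← Matrix.mul_assoc v, ← conj_mul s1]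
    exact ef.symm.mul Pm.rfl)
  obtain ⟨α₁, β₁, e₁⟩ := T.span hx kx
  obtain ⟨α₂, β₂, e₂⟩ := T.span (hx.conj s1) kx'
  have ex := T.mul_span α₂ β₂ α₁ β₁
  rw [← e₁, ← e₂] at ex
  have hny : ¬ Pm (s * (x * t) * ad s) (x * t) := fun e => hsy ((PM.iff s1).2 e)
  have ff := T.ff
  have sf := T.sf
  have adf := ad_eq_neg (T.s1 sf) ff
  generalize s * (x * t) * ad s = y' at *
  generalize s * t * ad s = t' at *
  generalize s * x * ad s = x' at *
  generalize v * (w * u) = f at *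
  have hz : W (f * (x * t)) := ⟨by rw [ad_mul, hy.ad, adf, Matrix.mul_neg, fy],
    (An.co_mul (Commute.refl f) fy).trace h2 (T.un sf)⟩
  have zz : f * (x * t) * (f * (x * t)) = l • 1 := by rw [fy.sq, ff, yy]; simp
  rcases t'y with e | e
  · obtain ⟨c, hc⟩ := hz.par_of_commute h2 hy' (fun e => l1 (by rw [← zz, e, Matrix.zero_mul]))
      (fy'.symm.mul (hy.an_of h2 hy' e t'y' (T.un st')).symm).symm
    have e1 : l • (f * t' * ad t) = (-c) • (x' * x) := by
      have e2 : f * x' = x' * f := fx'.symm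
      have e3 : f * (x' * x') * t' * ad t = f * x' * (c • (f * (x * t))) * ad t := by
        rw [← hc, ← ey]; noncomm_ring
      rw [xx', e2] at e3
      simp only [Matrix.mul_smul, Matrix.smul_mul, Matrix.mul_one] at e3
      rw [e3, neg_smul, ← smul_neg]
      congr 1
      linear_combination (norm := noncomm_ring) x' * ff * x * t * ad t -
        x' * x * mul_eq_one_comm.1 t1
    refine pft ?_
    have := (key (f * t' * ad t) ⟨T.sy.mul (T.sy.mul sf st') (T.sy.ad st),
      l⁻¹ * -c * (α₂ * α₁ + β₂ * β₁), l⁻¹ * -c * (α₂ * β₁ - β₂ * α₁), by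
        rw [← inv_smul_smul₀ l0 (f * t' * ad t), e1, ex]; module⟩).1
    rwa [Matrix.mul_assoc, t1, Matrix.mul_one] at this
  · have e1 := fy'.symm.mul (hz.an_of h2 hy' (t'f.mul e) t'y' (T.un st')).symm
    rw [← Matrix.mul_assoc, ff, Matrix.neg_mul, Matrix.one_mul, Commute.neg_right_iff] at e1
    obtain ⟨c, hc⟩ := hy.par_of_commute h2 hy' y0 e1.symm
    exact hny (pm_of_smul hc (yy'.trans yy.symm) (yy ▸ l1))

end Tri

theorem exists_frame [Finite F] (h : Ctx P) {t : M4 F} (ht : D P t) :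
    (∀ s t, D P s → D P t → ∃ g, Mem P g ∧ (g * s * ad g = t ∨ g * s * ad g = -t)) ∧
    ∃ e : Fin 5 → M4 F, (∀ i, D P (e i)) ∧ ∀ i j, i ≠ j → ip (e i) (e j) = 0 := by
  obtain ⟨S, hS⟩ := exists_sy h
  obtain ⟨v, hv, sv, cv⟩ := exists_v h hS ht
  refine ⟨fun s t hs ht => one_class h hS hv sv cv hs ht, ?_⟩
  obtain ⟨w, u, hw, sw, hu, su, vw, vu, wu⟩ := exists_wu h hS hv sv cv
  obtain ⟨x, hx, vx, wx, ux⟩ : ∃ x, D P x ∧ An v x ∧ An w x ∧ An u x := by_contra fun hc =>
    Tri.false ⟨h, hS, hv, hw, hu, sv, sw, su, cv, vw, vu, wu, fun x a b c d => hc ⟨x, a, b, c, d⟩⟩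
  have a1 : An v (v * w * (u * x)) := (An.co_mul (Commute.refl v) vw).mul_co (vu.mul vx)
  have a2 : An w (v * w * (u * x)) := (vw.symm.mul_co (Commute.refl w)).mul_co (wu.mul wx)
  have a3 : An u (v * w * (u * x)) :=
    An.co_mul (vu.symm.mul wu.symm) (An.co_mul (Commute.refl u) ux)
  have a4 : An x (v * w * (u * x)) :=
    An.co_mul (vx.symm.mul wx.symm) (ux.symm.mul_co (Commute.refl x))
  have hz : D P (v * w * (u * x)) := .of_pm ((hv.mem.mul hw.mem).mul (hu.mem.mul hx.mem))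
    (by rw [co_sq ((vu.mul vx).mul_left (wu.mul wx)), vw.sq, ux.sq, hv.sq, hw.sq, hu.sq, hx.sq]
        simp) (a1.symm.not_pm h.two hv.ne_zero)
  generalize v * w * (u * x) = z at *
  have hd : ∀ i, D P (![v, w, u, x, z] i) := fun i => by fin_cases i <;> assumption
  refine ⟨![v, w, u, x, z], hd, fun i j hij => An.ip h.two ?_ ((hd i).w h) ((hd j).w h)⟩
  fin_cases i <;> fin_cases j <;> first | exact absurd rfl hij | assumption | (apply An.symm; assumption)

end Cfsg.Agent.Cl.S4O
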