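import Mathlib
import Cfsg.Agent.Cl.S4OG
import Cfsg.Agent.GT.QuadSL2

/-!
# `SL₂(5)` is not maximal in `Sp₄(q)`
-/

set_option autoImplicit false
set_option linter.ambiguousOpen false

namespace Cfsg.Agent.Cl.S4O

open Matrix Low Max Mx Geo
open scoped MatrixGroups

namespace A5

/-- The group. -/
abbrev G5 := SL(2, ZMod 5)

/-- An explicit element. -/
def sl (a b c d : ZMod 5) (h : a * d - b * c = 1 := by decide) : G5 :=
  ⟨!![a, b; c, d], by rw [det_fin_two_of]; exact h⟩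

/-- Conjugate generators of the six Sylow 5-subgroups. -/
def y : Fin 6 → G5 := ![sl 4 1 1 3, sl 3 1 1 4, sl 2 1 4 0, sl 1 1 0 1, sl 1 0 1 1, sl 0 1 4 2]

/-- Their inverses. -/
def y' : Fin 6 → G5 := ![sl 3 4 4 4, sl 4 4 4 3, sl 0 4 1 2, sl 1 4 0 1, sl 1 0 4 1, sl 2 4 1 0]

theorem y_inv (a : Fin 6) : (y a)⁻¹ = y' a := inv_eq_of_mul_eq_one_right (by revert a; decide +kernel)

theorem y_pow : ∀ a, y a ^ 5 = 1 ∧ y a ≠ 1 ∧ y a ^ 2 ≠ 1 ∧ y' a = y a ^ 4 ∧ y' a ^ 2 = y a ^ 3 := by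
  decide +kernel

theorem y_comm : ∀ a b, y a * y b = y b * y a → a = b := by decide +kernel

theorem exists_sl (x : G5) : ∃ a b c d e, x = sl a b c d e :=
  ⟨_, _, _, _, by rw [← det_fin_two]; exact x.2, Subtype.ext (eta_fin_two x.1)⟩

theorem t1 : ∀ a b c d (e : a * d - b * c = 1), ∀ i, ∃ j,
    sl a b c d e * y i = y j * sl a b c d e ∨ sl a b c d e * y i = y' j * sl a b c d e := by decide +kernel

theorem t2 : ∀ a b c d (e : a * d - b * c = 1), sl a b c d e ^ 5 = 1 → sl a b c d e ≠ 1 →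
    ∃ j, ∃ i : Fin 4, sl a b c d e = y j ^ (i.val + 1) := by decide +kernel

theorem t3 : ∀ i j, i ≠ j → ∃ a b c d, ∃ e : a * d - b * c = 1, sl a b c d e * y 0 = y i * sl a b c d e ∧
    (sl a b c d e * y 1 = y j * sl a b c d e ∨ sl a b c d e * y 1 = y' j * sl a b c d e) := by decide +kernel

theorem t4 : ∀ i j k m : Fin 4, y 4 ^ (j.val + 1) * y 3 ^ (i.val + 1) = y 5 ^ (k.val + 1) * y 4 ^ (j.val + 1) →
    y 4 ^ (j.val + 1) * y 4 ^ (j.val + 1) * y 3 ^ (i.val + 1) ≠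
      y 2 ^ (m.val + 1) * (y 4 ^ (j.val + 1) * y 4 ^ (j.val + 1)) := by decide +kernel

theorem t5 : y 4 * y 3 = y 5 * y 4 ∧ y 4 * y 4 * y 3 = y 0 * (y 4 * y 4) := by decide +kernel

theorem conj_y (g : G5) (i : Fin 6) : ∃ j, g * y i * g⁻¹ = y j ∨ g * y i * g⁻¹ = (y j)⁻¹ := by
  obtain ⟨a, b, c, d, e, rfl⟩ := exists_sl g
  simpa only [mul_inv_eq_iff_eq_mul, y_inv] using t1 a b c d e i

theorem five {x : G5} (h : x ^ 5 = 1) (h1 : x ≠ 1) : ∃ j, ∃ i : Fin 4, x = y j ^ (i.val + 1) := by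
  obtain ⟨a, b, c, d, e, rfl⟩ := exists_sl x
  exact t2 a b c d e h h1

theorem two_trans {i j : Fin 6} (h : i ≠ j) :
    ∃ g : G5, g * y 0 * g⁻¹ = y i ∧ (g * y 1 * g⁻¹ = y j ∨ g * y 1 * g⁻¹ = (y j)⁻¹) := by
  obtain ⟨a, b, c, d, e, h⟩ := t3 i j h
  exact ⟨_, by simpa only [mul_inv_eq_iff_eq_mul, y_inv] using h⟩

theorem trans (i : Fin 6) : ∃ g : G5, g * y 0 * g⁻¹ = y i :=
  let ⟨_, h⟩ := exists_ne i; let ⟨g, e, _⟩ := two_trans h.symm; ⟨g, e⟩

theorem ind (S : Submonoid G5) (hu : y 3 ∈ S) (hl : y 4 ∈ S) (x : G5) : x ∈ S := by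
  have : Fact (Nat.Prime 5) := ⟨by norm_num⟩
  have hx : x ∈ Subgroup.closure {y 3, y 4} :=
    (GT.closure_slUp_slLo_zmod (p := 5) one_ne_zero one_ne_zero).ge (Subgroup.mem_top x)
  induction hx using Subgroup.closure_induction'' with
  | mem x hx => rcases hx with rfl | rfl <;> assumption
  | inv_mem x hx =>
    rcases hx with rfl | rfl <;> rw [y_inv, (y_pow _).2.2.2.1] <;> apply S.pow_mem <;> assumption
  | one => exact S.one_mem
  | mul a b _ _ ha hb => exact S.mul_mem ha hb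

variable {F : Type*} [Field F] {P : Subgroup (GL I4 F)} {ρ : G5 →* M4 F}

variable (P ρ) in
/-- The representation. -/
structure Rp : Prop where
  ctx : Ctx P
  three : (3 : F) ≠ 0
  mem : ∀ x, Mem P (ρ x)
  surj : ∀ g, Mem P g → ∃ x, ρ x = g

/-- The traceless part of the symmetrised matrix. -/
noncomputable def sy (k : M4 F) : M4 F := k + ad k - ((k + ad k).trace / 4) • 1

theorem sy_ad (k : M4 F) : sy (ad k) = sy k := by rw [sy, sy, ad_ad, add_comm]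

theorem w_sy (h2 : (2 : F) ≠ 0) (k : M4 F) : W (sy k) := W.of_ad h2 (by rw [ad_add, ad_ad, add_comm])

theorem sy_conj {g : M4 F} (hg : ad g * g = 1) (k : M4 F) : g * sy k * ad g = sy (g * k * ad g) := by
  rw [sy, sy, ad_conj, ← add_mul, ← mul_add, trace_conj hg, mul_sub, sub_mul, mul_smul_comm, smul_mul_assoc,
    Matrix.mul_one, mul_eq_one_comm.1 hg]

variable (ρ) in
/-- The six vectors. -/
noncomputable def Z (a : Fin 6) : M4 F := sy (ρ (y a))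

variable (ρ) in
/-- The invariant set. -/
def Φ : Set (M4 F) := {X | ∃ x g : G5, x ^ 5 = 1 ∧ x ≠ 1 ∧ X = sy (ρ x) - sy (ρ (g * x * g⁻¹))}

namespace Rp

variable (h : Rp P ρ)
include h

theorem ad_eq (x : G5) : ad (ρ x) = ρ x⁻¹ := by
  have e := h.ctx.ad_mul (h.mem x)
  rw [← Matrix.mul_one (ad (ρ x)), ← map_one ρ, ← mul_inv_cancel x, map_mul, ← Matrix.mul_assoc, e,
    Matrix.one_mul]

theorem conj (g x : G5) : ρ g * sy (ρ x) * ad (ρ g) = sy (ρ (g * x * g⁻¹)) := by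
  rw [sy_conj (h.ctx.ad_mul (h.mem g)), h.ad_eq, map_mul, map_mul]

theorem inv (x : G5) : sy (ρ x⁻¹) = sy (ρ x) := by rw [← h.ad_eq, sy_ad]

theorem w (a : Fin 6) : W (Z ρ a) := w_sy h.ctx.two _

theorem conj_Z {g : G5} {i j : Fin 6} (e : g * y i * g⁻¹ = y j ∨ g * y i * g⁻¹ = (y j)⁻¹) :
    ρ g * Z ρ i * ad (ρ g) = Z ρ j := by
  rw [Z, h.conj]
  rcases e with e | e
  · rw [e, Z]
  · rw [e, h.inv, Z]

theorem perm (g : G5) : ∃ π : Fin 6 → Fin 6, Function.Bijective π ∧ ∀ i, ρ g * Z ρ i * ad (ρ g) = Z ρ (π i) := by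
  choose π hπ using conj_y g
  refine ⟨π, Finite.injective_iff_bijective.1 fun i j e => y_comm i j ?_, fun i => h.conj_Z (hπ i)⟩
  have : Commute (g * y i * g⁻¹) (g * y j * g⁻¹) := by
    rcases hπ i with a | a <;> rcases hπ j with b | b <;> rw [a, b, e] <;> simp
  rw [commute_iff_eq, _root_.conj_mul, _root_.conj_mul] at this
  simpa using this

theorem Z_ne : Z ρ 0 ≠ 0 := fun e0 => by
  have q : ∀ i, ∃ c : F, ρ (y i) * ρ (y i) = c • ρ (y i) + (-1 : F) • 1 := fun i => by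
    obtain ⟨g, e⟩ := trans i
    have e1 := h.conj_Z (Or.inl e)
    rw [e0, Matrix.mul_zero, Matrix.zero_mul, Z, sy, eq_comm, sub_eq_zero] at e1
    refine ⟨(ρ (y i) + ad (ρ (y i))).trace / 4, ?_⟩
    have := congrArg (· * ρ (y i)) e1
    simp only [add_mul, h.ctx.ad_mul (h.mem _), smul_mul_assoc, Matrix.one_mul] at this
    rw [← this, neg_smul, one_smul, add_neg_cancel_right]
  obtain ⟨a, ha⟩ := q 3
  obtain ⟨b, hb⟩ := q 4
  refine h.ctx.q2 ha hb fun k hk => ?_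
  obtain ⟨z, rfl⟩ := h.surj k hk
  exact ind ((Algebra.adjoin F {ρ (y 3), ρ (y 4)}).toSubmonoid.comap ρ) (Algebra.subset_adjoin (by simp))
    (Algebra.subset_adjoin (by simp)) z

theorem exists_c : ∃ c : F, ∀ a (i : Fin 4), sy (ρ (y a ^ (i.val + 1))) = (if i = 0 ∨ i = 3 then 1 else c) • Z ρ a := by
  obtain ⟨c, hc⟩ := (h.w 0).par_of_commute h.ctx.two (w_sy h.ctx.two (ρ (y 0 ^ 2))) h.Z_ne (by
    have k : ∀ x : G5, Commute x (y 0) → Commute (ρ x) (Z ρ 0) := fun x e => by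
      rw [Z, sy, h.ad_eq]
      exact ((e.map ρ).add_right (e.inv_right.map ρ)).sub_right ((Commute.one_right _).smul_right _)
    rw [sy, h.ad_eq]
    exact (((k _ (by simp)).add_left (k _ (by simp))).sub_left ((Commute.one_left _).smul_left _)).symm)
  have k : ∀ a, sy (ρ (y a ^ 2)) = c • Z ρ a := fun a => by
    obtain ⟨g, e⟩ := trans a
    rw [← h.conj_Z (Or.inl e), ← e, conj_pow, ← h.conj, hc, mul_smul_comm, smul_mul_assoc]
  refine ⟨c, fun a i => ?_⟩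
  fin_cases i
  · simp [Z]
  · simpa using k a
  · simpa [← (y_pow a).2.2.2.2, ← y_inv, h.inv] using k a
  · simp [← (y_pow a).2.2.2.1, ← y_inv, h.inv, Z]

theorem gram (a b : Fin 6) :
    ip (Z ρ a) (Z ρ b) = if a = b then ip (Z ρ 0) (Z ρ 0) else ip (Z ρ 0) (Z ρ 1) := by
  split_ifs with e
  · obtain ⟨g, e'⟩ := trans a
    rw [← e, ← h.conj_Z (Or.inl e'), ip_conj (h.ctx.ad_mul (h.mem g))]
  · obtain ⟨g, e1, e2⟩ := two_trans e
    rw [← h.conj_Z (Or.inl e1), ← h.conj_Z e2, ip_conj (h.ctx.ad_mul (h.mem g))]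

theorem sum_Z : ip (Z ρ 0) (Z ρ 0) = -5 * ip (Z ρ 0) (Z ρ 1) := by
  obtain ⟨c, hc⟩ := h.ctx.scalar (X := ∑ a, Z ρ a) fun g hg => by
    obtain ⟨x, rfl⟩ := h.surj g hg
    obtain ⟨π, b, e⟩ := h.perm x
    have : ρ x * (∑ a, Z ρ a) * ad (ρ x) = ∑ a, Z ρ a := by
      rw [Finset.mul_sum, Finset.sum_mul, ← b.sum_comp (Z ρ)]
      exact Finset.sum_congr rfl fun i _ => e i
    nth_rw 1 [← this]
    rw [Matrix.mul_assoc, h.ctx.ad_mul hg, Matrix.mul_one]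
  have := congrArg (ip (Z ρ 0)) ((W.sum _ fun a _ => h.w a).eq_zero_of_scalar h.ctx.two hc)
  rw [ip_sum_right, Finset.sum_congr rfl fun a _ => h.gram 0 a, Fin.sum_univ_six] at this
  simp only [ip_zero_right, if_true, Fin.reduceEq, if_false] at this
  linear_combination this

theorem β_ne : ip (Z ρ 0) (Z ρ 1) ≠ 0 := fun e0 => by
  have a : ∀ a b, Z ρ a * Z ρ b = -(Z ρ b * Z ρ a) := fun a b =>
    ((h.w a).ip_eq_zero_iff h.ctx.two (h.w b)).1 (by rw [h.gram, h.sum_Z, e0]; simp)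
  have k : ∀ s : Finset (Fin 6), ∃ v : I4 → F, v ≠ 0 ∧ ∀ a ∈ s, Z ρ a *ᵥ v = 0 := fun s => by
    induction s using Finset.induction_on with
    | empty => exact ⟨1, one_ne_zero, by simp⟩
    | insert b s _ ih =>
      obtain ⟨v, v0, hv⟩ := ih
      by_cases c : Z ρ b *ᵥ v = 0
      · exact ⟨v, v0, Finset.forall_mem_insert _ _ _ |>.2 ⟨c, hv⟩⟩
      · refine ⟨_, c, Finset.forall_mem_insert _ _ _ |>.2 ⟨?_, fun i hi => ?_⟩⟩
        · rw [mulVec_mulVec, eq_zero_of_two h.ctx.two (a b b), zero_mulVec]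
        · rw [mulVec_mulVec, a, neg_mulVec, ← mulVec_mulVec, hv i hi, mulVec_zero, neg_zero]
  obtain ⟨v, v0, hv⟩ := k Finset.univ
  rcases h.ctx.irr (⨅ a, LinearMap.ker (toLin' (Z ρ a))) (fun g hg v hv => by
    obtain ⟨x, rfl⟩ := h.surj g hg
    obtain ⟨π, b, e⟩ := h.perm x
    simp only [Submodule.mem_iInf, LinearMap.mem_ker, toLin'_apply] at hv ⊢
    intro i
    obtain ⟨j, rfl⟩ := b.2 i
    rw [← e, mulVec_mulVec, Matrix.mul_assoc, h.ctx.ad_mul hg, Matrix.mul_one, ← mulVec_mulVec, hv,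
      mulVec_zero]) with e | e
  · exact v0 ((Submodule.eq_bot_iff _).1 e v (by simpa using hv))
  · refine h.Z_ne (mat_ext fun v => ?_)
    simpa using (Submodule.mem_iInf _).1 (e.ge (Submodule.mem_top (x := v))) 0

/-- The Gram matrix after scaling. -/
theorem gram' : ∃ β : F, β ≠ 0 ∧ ∀ a b, ip (Z ρ a) (Z ρ b) = β - if a = b then 6 * β else 0 :=
  ⟨_, h.β_ne, fun a b => by rw [h.gram, h.sum_Z]; split_ifs <;> ring⟩

theorem six : (6 : F) ≠ 0 := by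
  rw [show (6 : F) = 2 * 3 by norm_num]; exact mul_ne_zero h.ctx.two h.three

variable {c : F} (hc : ∀ a (i : Fin 4), sy (ρ (y a ^ (i.val + 1))) = (if i = 0 ∨ i = 3 then 1 else c) • Z ρ a)
include hc

theorem mem_Φ {X : M4 F} : X ∈ Φ ρ ↔ ∃ a b, X = Z ρ a - Z ρ b ∨ X = c • (Z ρ a - Z ρ b) := by
  constructor
  · rintro ⟨x, g, x5, x1, rfl⟩
    obtain ⟨a, i, rfl⟩ := five x5 x1
    obtain ⟨b, e⟩ := conj_y g a
    refine ⟨a, b, ?_⟩
    rw [← h.conj, hc, mul_smul_comm, smul_mul_assoc, h.conj_Z e, ← smul_sub]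
    split_ifs <;> simp
  · rintro ⟨a, b, e⟩
    obtain ⟨g, eg⟩ := trans a
    obtain ⟨k, ek⟩ := trans b
    have e' : k * g⁻¹ * y a * (k * g⁻¹)⁻¹ = y b := by rw [← eg, ← ek]; group
    rcases e with rfl | rfl
    · exact ⟨y a, k * g⁻¹, (y_pow a).1, (y_pow a).2.1, by rw [e', Z, Z]⟩
    · refine ⟨y a ^ 2, k * g⁻¹, by rw [← pow_mul, mul_comm, pow_mul, (y_pow a).1, one_pow], (y_pow a).2.2.1, ?_⟩
      have k : ∀ a, sy (ρ (y a ^ 2)) = c • Z ρ a := fun a => (hc a 1).trans (by simp)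
      rw [← conj_pow, e', k, k, smul_sub]

theorem eq_of_sy {a b : Fin 6} {i : Fin 4} (e : sy (ρ (y b ^ (i.val + 1))) = Z ρ a) : b = a := by
  by_contra n
  obtain ⟨β, β0, g⟩ := h.gram'
  obtain ⟨d, d1, d2⟩ : ∃ d, d ≠ a ∧ d ≠ b := (by decide : ∀ a b : Fin 6, ∃ d, d ≠ a ∧ d ≠ b) a b
  rw [hc] at e
  generalize (if i = 0 ∨ i = 3 then 1 else c) = t at e
  have e1 := congrArg (ip (Z ρ d)) e
  have e2 := congrArg (ip (Z ρ a)) e
  simp only [ip_smul_right, g, d1, d2, Ne.symm n, if_true, if_false] at e1 e2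
  exact mul_ne_zero h.six β0 (by linear_combination e2 - e1)

end Rp

theorem exists_aut {H : Subgroup (GL I4 F)} (hN : NormsG H P) (e : G5 ≃* P) {k : M4 F} (hk : Mem H k)
    (hk' : ad k * k = 1) : ∃ α : G5 ≃* G5, ∀ x, k * mx (e x) * ad k = mx (e (α x)) := by
  obtain ⟨k, hk, rfl⟩ := hk
  have hk1 : k ∈ Subgroup.normalizer (P : Set (GL I4 F)) := Subgroup.mem_normalizer_iff.2 fun x =>
    ⟨hN k hk x, fun hx => by simpa [mul_assoc] using hN k⁻¹ (H.inv_mem hk) _ hx⟩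
  refine ⟨(e.trans (P.normalizerMonoidHom ⟨k, hk1⟩)).trans e.symm, fun x => ?_⟩
  rw [← coe_inv_of_sp (mem_sp_iff.2 hk')]
  simp [mx]

end A5

variable {F : Type*} [Field F] {P : Subgroup (GL I4 F)}

open A5 in
theorem a5 [Finite F] (h : Ctx P) (h3 : (3 : F) ≠ 0) (e : SL(2, ZMod 5) ≃* P) : NotMax P := by
  obtain ⟨ρ, hρ⟩ : ∃ ρ : G5 →* M4 F, ∀ x, ρ x = mx (e x) :=
    ⟨(Units.coeHom (M4 F)).comp (P.subtype.comp e.toMonoidHom), fun _ => rfl⟩
  have R : Rp P ρ := ⟨h, h3, fun x => hρ x ▸ mem_mx _, fun g hg => by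
    obtain ⟨k, rfl⟩ := hg.exists
    exact ⟨e.symm k, by rw [hρ, e.apply_symm_apply]⟩⟩
  intro H _ hN
  obtain ⟨c, hc⟩ := R.exists_c
  obtain ⟨β, β0, gr⟩ := R.gram'
  obtain ⟨δ, hδ⟩ : ∃ δ, δ = -(6 * β) := ⟨_, rfl⟩
  have δ0 : δ ≠ 0 := hδ ▸ neg_ne_zero.2 (mul_ne_zero R.six β0)
  have au : ∀ k, Mem H k → ad k * k = 1 → ∃ α : G5 ≃* G5, ∀ x, k * sy (ρ x) * ad k = sy (ρ (α x)) :=
    fun k hk hk' => let ⟨α, e⟩ := exists_aut hN e hk hk'; ⟨α, fun x => by rw [sy_conj hk', hρ, e, hρ]⟩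
  have wR : ∀ i, W (Z ρ 0 - Z ρ i) := fun i => (R.w 0).sub (R.w i)
  have ipR : ∀ i, i ≠ 0 → ip (Z ρ 0 - Z ρ i) (Z ρ 0 - Z ρ i) = 2 * δ := fun i n => by
    simp only [ip_sub_left, ip_sub_right, gr, n, n.symm, if_true, if_false, hδ]
    ring
  have sq : ∀ i, i ≠ 0 → (Z ρ 0 - Z ρ i) * (Z ρ 0 - Z ρ i) = δ • 1 := fun i n => by
    rw [(wR i).sq h.two, ipR i n, mul_div_cancel_left₀ _ h.two]
  have rf : ∀ i, i ≠ 0 → ∀ a, (Z ρ 0 - Z ρ i) * Z ρ a * (Z ρ 0 - Z ρ i) = -δ • Z ρ (Equiv.swap 0 i a) :=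
    fun i n a => by
    rw [Matrix.mul_assoc, (wR i).swap h.two (R.w a), Matrix.mul_sub, ← Matrix.mul_assoc, sq i n, ip_sub_left,
      gr, gr, hδ]
    simp only [mul_smul_comm, smul_mul_assoc, Matrix.mul_one, Matrix.one_mul]
    by_cases a0 : a = 0
    · simp only [a0, n, Equiv.swap_apply_left, if_true, if_false]
      module
    by_cases a1 : a = i
    · simp only [a1, n.symm, Equiv.swap_apply_right, if_true, if_false]
      module
    · simp only [Equiv.swap_apply_of_ne_of_ne a0 a1, Ne.symm a0, Ne.symm a1, if_false]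
      module
  obtain ⟨g, hg⟩ : ∃ g, g = δ⁻¹ • ((Z ρ 0 - Z ρ 1) * (Z ρ 0 - Z ρ 2)) := ⟨_, rfl⟩
  have ag : ad g = δ⁻¹ • ((Z ρ 0 - Z ρ 2) * (Z ρ 0 - Z ρ 1)) := by rw [hg, ad_smul, ad_mul, (wR 1).ad, (wR 2).ad]
  have g1 : ad g * g = 1 := by
    rw [ag, hg, smul_mul_smul_comm, Matrix.mul_assoc, ← Matrix.mul_assoc (Z ρ 0 - Z ρ 1), sq 1 (by decide)]
    simp [sq 2 (by decide), smul_smul, δ0, mul_assoc]
  have gZ : ∀ a, g * Z ρ a * ad g = Z ρ (Equiv.swap 0 1 (Equiv.swap 0 2 a)) := fun a => by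
    have : g * Z ρ a * ad g = (δ⁻¹ * δ⁻¹) • ((Z ρ 0 - Z ρ 1) * ((Z ρ 0 - Z ρ 2) * Z ρ a * (Z ρ 0 - Z ρ 2)) *
        (Z ρ 0 - Z ρ 1)) := by
      rw [ag, hg]
      simp only [smul_mul_assoc, mul_smul_comm, smul_smul, Matrix.mul_assoc]
    rw [this, rf 2 (by decide), mul_smul_comm, smul_mul_assoc, rf 1 (by decide), smul_smul, smul_smul]
    convert one_smul F _
    field_simp
  refine not_max h.two (Φ := Φ ρ) (X := Z ρ 0 - Z ρ 1) (fun k hk hk' => ?_) g1 (fun X hX => ?_) (fun hm => ?_)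
    ((R.mem_Φ hc).2 ⟨0, 1, Or.inl rfl⟩) (wR 1) (ipR 1 (by decide) ▸ mul_ne_zero h.two δ0)
    fun Y hY Y0 YY XY hY' => Y0 ?_
  · obtain ⟨α, ha⟩ := au k hk hk'
    rintro _ ⟨x, t, x5, x1, rfl⟩
    exact ⟨α x, α t, by rw [← map_pow, x5, map_one], by simpa using x1, by
      rw [mul_sub, sub_mul, ha, ha, map_mul α, map_mul α, map_inv α]⟩
  · obtain ⟨a, b, e⟩ := (R.mem_Φ hc).1 hX
    refine (R.mem_Φ hc).2 ⟨Equiv.swap 0 1 (Equiv.swap 0 2 a), Equiv.swap 0 1 (Equiv.swap 0 2 b),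
      e.imp (fun e => ?_) fun e => ?_⟩
    · rw [e, mul_sub, sub_mul, gZ, gZ]
    · rw [e, mul_smul_comm, smul_mul_assoc, mul_sub, sub_mul, gZ, gZ]
  · obtain ⟨α, ha⟩ := au g hm g1
    have k : ∀ a, ∃ i : Fin 4, α (y a) = y (Equiv.swap 0 1 (Equiv.swap 0 2 a)) ^ (i.val + 1) := fun a => by
      obtain ⟨b, i, e⟩ := five (x := α (y a)) (by rw [← map_pow, (y_pow a).1, map_one]) (by simpa using (y_pow a).2.1)
      exact ⟨i, by rw [← R.eq_of_sy hc (i := i) (b := b) (a := Equiv.swap 0 1 (Equiv.swap 0 2 a))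
        (by rw [← e, ← ha, ← gZ, Z]), e]⟩
    obtain ⟨i, e3⟩ : ∃ i : Fin 4, α (y 3) = y 3 ^ (i.val + 1) := k 3
    obtain ⟨j, e4⟩ : ∃ i : Fin 4, α (y 4) = y 4 ^ (i.val + 1) := k 4
    obtain ⟨m, e5⟩ : ∃ i : Fin 4, α (y 5) = y 5 ^ (i.val + 1) := k 5
    obtain ⟨n, e0⟩ : ∃ i : Fin 4, α (y 0) = y 2 ^ (i.val + 1) := k 0
    exact t4 i j m n (by rw [← e3, ← e4, ← e5, ← map_mul, ← map_mul, t5.1])
      (by simp only [← e3, ← e4, ← e0, ← map_mul, t5.2])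
  · obtain ⟨a, b, t, ht, e⟩ : ∃ a b t, (t = 1 ∨ t = c) ∧ Z ρ 0 - Z ρ 1 + Y = t • (Z ρ a - Z ρ b) := by
      obtain ⟨a, b, e⟩ := (R.mem_Φ hc).1 (hY' 1)
      rw [one_smul] at e
      exact e.elim (fun e => ⟨a, b, 1, Or.inl rfl, by rw [e, one_smul]⟩) fun e => ⟨a, b, c, Or.inr rfl, e⟩
    have e1 := congrArg (ip (Z ρ 0 - Z ρ 1)) e
    have e2 : ip (Z ρ 0 - Z ρ 1 + Y) (Z ρ 0 - Z ρ 1 + Y) = 2 * δ := by
      rw [ip_add_left, ip_add_right, ip_add_right, ipR 1 (by decide), XY, ip_comm Y, XY, ip, YY]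
      simp
    rw [ip_add_right, XY, ipR 1 (by decide), add_zero] at e1
    rw [e] at e2
    have ab : a ≠ b := by
      rintro rfl
      exact mul_ne_zero h.two δ0 (by simpa using e2.symm)
    simp only [ip_smul_left, ip_smul_right, ip_sub_left, ip_sub_right, gr, hδ, if_true] at e1 e2
    have b6 := mul_ne_zero R.six β0
    generalize 6 * β = ε at e1 e2 b6
    have tt : t = 1 ∨ t = -1 := mul_self_eq_one_iff.1 (mul_right_cancel₀ (mul_ne_zero h.two b6) (by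
      simp only [ab, ab.symm, if_false] at e2
      linear_combination -e2))
    have key : ∀ a b : Fin 6, 2 * -ε = -(if 0 = a then ε else 0) + (if 0 = b then ε else 0) +
        (if 1 = a then ε else 0) - (if 1 = b then ε else 0) → a = 0 ∧ b = 1 := fun a b e => by
      have n1 := mul_ne_zero h.two b6
      have n2 := mul_ne_zero h3 b6
      have n3 := mul_ne_zero h.two n1
      by_contra n
      split_ifs at e <;> first
        | exact b6 (by linear_combination -e)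
        | exact n1 (by linear_combination -e)
        | exact n2 (by linear_combination -e)
        | exact n3 (by linear_combination -e)
        | omega
    rcases tt with rfl | rfl
    · obtain ⟨rfl, rfl⟩ := key a b (by linear_combination e1)
      simpa using e
    · obtain ⟨rfl, rfl⟩ := key b a (by linear_combination e1)
      simpa using e

end Cfsg.Agent.Cl.S4O
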