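import Mathlib
import Cfsg.Agent.Cl.S4OBase

/-! Six vectors `Z a` of `W` with the Gram matrix of `ε_a - ε_∞` in the root system `A₆`. -/

set_option autoImplicit false
set_option linter.ambiguousOpen false

namespace Cfsg.Agent.Cl.S4O.Sev

open Matrix Low Max Mx Geo

variable {F : Type*} [Field F] {Z : Fin 6 → M4 F} {β : F} {X : M4 F}

/-- The Gram matrix. -/
structure Gr (Z : Fin 6 → M4 F) (β : F) : Prop where
  two : (2 : F) ≠ 0
  three : (3 : F) ≠ 0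
  ne : β ≠ 0
  w : ∀ a, W (Z a)
  gram : ∀ a b, ip (Z a) (Z b) = if a = b then 2 * β else β

/-- The roots. -/
def Φ (Z : Fin 6 → M4 F) : Set (M4 F) :=
  {X | (∃ a, X = Z a ∨ X = -Z a) ∨ ∃ a b, a ≠ b ∧ X = Z a - Z b}

theorem neg_mem (hX : X ∈ Φ Z) : -X ∈ Φ Z := by
  rcases hX with ⟨a, rfl | rfl⟩ | ⟨a, b, h, rfl⟩
  · exact Or.inl ⟨a, Or.inr rfl⟩
  · exact Or.inl ⟨a, Or.inl (neg_neg _)⟩
  · exact Or.inr ⟨b, a, h.symm, neg_sub _ _⟩

variable (h : Gr Z β)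
include h

theorem Gr.w_of_mem (hX : X ∈ Φ Z) : W X := by
  rcases hX with ⟨a, rfl | rfl⟩ | ⟨a, b, -, rfl⟩
  exacts [h.w a, (h.w a).neg, (h.w a).sub (h.w b)]

theorem Gr.sq (c : Fin 6) : Z c * Z c = β • 1 := by
  rw [(h.w c).sq h.two, h.gram, if_pos rfl, mul_div_cancel_left₀ _ h.two]

theorem Gr.conj (c : Fin 6) (hX : W X) :
    β⁻¹ • (Z c * X * Z c) = -(X - (β⁻¹ * ip (Z c) X) • Z c) := by
  rw [mul_assoc, (h.w c).swap h.two hX, mul_sub, ← mul_assoc, h.sq]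
  simp [smul_sub, smul_smul, h.ne]

theorem Gr.conj_mem (c : Fin 6) (hX : X ∈ Φ Z) : β⁻¹ • (Z c * X * Z c) ∈ Φ Z := by
  have h1 : ∀ a, β⁻¹ • (Z c * Z a * Z c) = if c = a then Z c else Z c - Z a := fun a => by
    rw [h.conj c (h.w a), h.gram]
    split_ifs with e
    · rw [mul_left_comm, inv_mul_cancel₀ h.ne, e]; module
    · simp [h.ne]
  have h2 : ∀ a, β⁻¹ • (Z c * Z a * Z c) ∈ Φ Z := fun a => by
    rw [h1]
    split_ifs with e
    exacts [Or.inl ⟨c, Or.inl rfl⟩, Or.inr ⟨c, a, e, rfl⟩]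
  rcases hX with ⟨a, rfl | rfl⟩ | ⟨a, b, e, rfl⟩
  · exact h2 a
  · simpa using neg_mem (h2 a)
  · rw [mul_sub, sub_mul, smul_sub, h1, h1]
    split_ifs with e1 e2
    · exact (e (e1.symm.trans e2)).elim
    · exact Or.inl ⟨b, Or.inl (by abel)⟩
    · exact Or.inl ⟨a, Or.inr (by abel)⟩
    · exact Or.inr ⟨b, a, e.symm, by abel⟩

theorem Gr.eq_zero (hX : W X) (h0 : ∀ a, ip (Z a) X = 0) : X = 0 := by
  refine hX.eq_zero_of_orth h.two (r := ![Z 0 - Z 1, Z 2 - Z 3, Z 4 - Z 5, Z 0 + Z 1 - Z 2 - Z 3,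
    Z 0 + Z 1 + Z 2 + Z 3 - (2 : F) • Z 4 - (2 : F) • Z 5]) (fun i => ?_) (fun i => ?_)
    (fun i j e => ?_) fun i => ?_
  · have := h.w
    fin_cases i <;> simp only [cons_val, Fin.mk_one, Fin.zero_eta, Fin.reduceFinMk] <;>
      apply_rules [W.add, W.sub, W.smul]
  · have h2 := mul_ne_zero h.two h.ne
    fin_cases i <;> simp [ip_add_left, ip_add_right, ip_sub_left, ip_sub_right, ip_smul_left,
      ip_smul_right, h.gram] <;> intro e
    iterate 3 exact h2 (by linear_combination e)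
    · exact mul_ne_zero h.two h2 (by linear_combination e)
    · exact mul_ne_zero h.three (mul_ne_zero h.two h2) (by linear_combination e)
  · fin_cases i <;> fin_cases j <;> simp [ip_add_left, ip_add_right, ip_sub_left, ip_sub_right,
      ip_smul_left, ip_smul_right, h.gram] at e ⊢ <;> ring
  · fin_cases i <;> simp [ip_add_left, ip_sub_left, ip_smul_left, h0]

theorem Gr.ad_g : ad (β⁻¹ • (Z 0 * Z 1)) = β⁻¹ • (Z 1 * Z 0) := by
  rw [ad_smul, ad_mul, (h.w 0).ad, (h.w 1).ad]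

/-- Conjugation by `g = β⁻¹ Z₀ Z₁`. -/
theorem Gr.conj_g (X : M4 F) : β⁻¹ • (Z 0 * Z 1) * X * ad (β⁻¹ • (Z 0 * Z 1)) =
    β⁻¹ • (Z 0 * (β⁻¹ • (Z 1 * X * Z 1)) * Z 0) := by
  simp [h.ad_g, mul_assoc]

theorem Gr.not_max [Finite F] {H : Subgroup (GL I4 F)}
    (hH : ∀ k, Mem H k → ad k * k = 1 → ∀ X ∈ Φ Z, k * X * ad k ∈ Φ Z)
    (hg : ¬ Mem H (β⁻¹ • (Z 0 * Z 1))) : ¬ IsMaximalIn (spGL 2 F) H := by
  refine S4O.not_max h.two hH ?_ (fun X hX => h.conj_g X ▸ h.conj_mem 0 (h.conj_mem 1 hX)) hg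
    (Or.inl ⟨0, Or.inl rfl⟩) (h.w 0) (by simp [h.gram, h.two, h.ne]) fun Y _ h1 _ h2 h3 => h1 ?_
  · rw [h.ad_g, smul_mul_smul_comm, mul_assoc, ← mul_assoc (Z 0), h.sq]
    simp [h.sq, smul_smul, h.ne, mul_assoc]
  have h4 : ip (Z 0) (Z 0 + (1 : F) • Y) = 2 * β := by simp [ip_add_right, h2, h.gram]
  have h5 := mul_ne_zero h.two h.ne
  rcases h3 1 with ⟨a, e | e⟩ | ⟨a, b, hab, e⟩ <;> rw [e] at h4 <;>
    simp only [ip_neg_right, ip_sub_right, h.gram] at h4 <;> split_ifs at h4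
  · simpa [← ‹0 = a›] using e
  all_goals
    exfalso
    first
      | exact h.ne (by linear_combination -h4)
      | exact h5 (by linear_combination -h4)
      | exact mul_ne_zero h.two h5 (by linear_combination -h4)
      | exact mul_ne_zero h.three h.ne (by linear_combination -h4)

end Cfsg.Agent.Cl.S4O.Sev
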