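import Mathlib
import Cfsg.Agent.Cl.S4OSev
import Cfsg.Agent.Pres.UNAlt

/-! Lifts of elements of `P / ±1`; Clifford generators from quadratic `3`-cycles. -/

set_option autoImplicit false
set_option linter.ambiguousOpen false

namespace Cfsg.Agent.Cl.S4O.Alt

open Matrix Low Max Mx Geo Equiv

variable {F : Type*} [Field F] {P : Subgroup (GL I4 F)} {G : Type*} [Group G] {π : P →* G}
  {g g' x y : M4 F} {σ τ : G}

variable (π) in
/-- `g` is a lift of `σ`. -/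
def R (g : M4 F) (σ : G) : Prop := ∃ k : P, ((k : GL I4 F) : M4 F) = g ∧ π k = σ

theorem R.mem (h : R π g σ) : Mem P g := by
  obtain ⟨k, rfl, -⟩ := h
  exact mem_coe k.2

theorem R.of_mem (h : Mem P g) : ∃ σ, R π g σ := by
  obtain ⟨k, hk, rfl⟩ := h
  exact ⟨_, ⟨k, hk⟩, rfl, rfl⟩

theorem R.one : R π 1 1 := ⟨1, rfl, map_one _⟩

theorem R.mul (h : R π g σ) (h' : R π g' τ) : R π (g * g') (σ * τ) := by
  obtain ⟨k, rfl, rfl⟩ := h
  obtain ⟨l, rfl, rfl⟩ := h'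
  exact ⟨k * l, rfl, map_mul _ _ _⟩

theorem R.pow (h : R π g σ) (n : ℕ) : R π (g ^ n) (σ ^ n) := by
  induction n with
  | zero => simpa using R.one
  | succ n ih => simpa only [pow_succ] using ih.mul h

theorem R.unique (h : R π g σ) (h' : R π g τ) : σ = τ := by
  obtain ⟨k, rfl, rfl⟩ := h
  obtain ⟨l, e, rfl⟩ := h'
  rw [Subtype.ext (Units.ext e)]

theorem R.ad (c : Ctx P) (h : R π g σ) : R π (ad g) σ⁻¹ := by
  obtain ⟨k, rfl, rfl⟩ := h
  exact ⟨k⁻¹, c.coe_inv k, map_inv _ _⟩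

theorem R.exists (hπ : Cov P π) (σ : G) : ∃ g, R π g σ := (hπ.surj σ).elim fun k e => ⟨_, k, rfl, e⟩

theorem R.pm_one (hπ : Cov P π) (h : R π g 1) : g = 1 ∨ g = -1 := by
  obtain ⟨k, rfl, e⟩ := h
  exact (hπ.ker k).1 e

theorem R.neg (c : Ctx P) (hπ : Cov P π) (h : R π g σ) : R π (-g) σ := by
  obtain ⟨k, hk, e⟩ := c.neg
  simpa using R.mul ⟨⟨k, hk⟩, e, (hπ.ker _).2 (Or.inr e)⟩ h

theorem R.pm (c : Ctx P) (hπ : Cov P π) (h : R π g σ) (h' : R π g' σ) : g' = g ∨ g' = -g := by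
  have h1 : g' = g' * S4O.ad g * g := by rw [mul_assoc, c.ad_mul h.mem, mul_one]
  rcases R.pm_one hπ (mul_inv_cancel σ ▸ h'.mul (h.ad c)) with e | e <;> simp [e] at h1 <;> simp [h1]

theorem R.odd (c : Ctx P) (hπ : Cov P π) {n : ℕ} (hn : Odd n) (hσ : σ ^ n = 1) :
    ∃ g, R π g σ ∧ g ^ n = 1 := by
  obtain ⟨g, h⟩ := R.exists hπ σ
  rcases R.pm_one hπ (hσ ▸ h.pow n) with e | e
  · exact ⟨g, h, e⟩
  · exact ⟨-g, h.neg c hπ, by rw [hn.neg_pow, e, neg_neg]⟩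

theorem exists_sub [Finite G] (c : Ctx P) (hπ : Cov P π) {p : M4 F → Prop} (p1 : p 1)
    (pm : ∀ a b, p a → p b → p (a * b)) (pn : ∀ a, p a → p (-a)) : ∃ K : Subgroup G,
      (∀ g σ, R π g σ → p g → σ ∈ K) ∧ ∀ g σ, R π g σ → σ ∈ K → p g := by
  let M : Submonoid G := ⟨⟨{σ | ∃ g, R π g σ ∧ p g}, fun h h' => h.elim fun _ h => h'.elim
    fun _ h' => ⟨_, h.1.mul h'.1, pm _ _ h.2 h'.2⟩⟩, 1, R.one, p1⟩
  refine ⟨⟨M, fun {σ} h => Submonoid.powers_le.2 (show σ ∈ M from h)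
      ((isOfFinOrder_of_finite σ).mem_powers_iff_mem_zpowers.2 (by simp))⟩,
    fun g σ h1 h2 => ⟨g, h1, h2⟩, fun g σ h1 h2 => ?_⟩
  obtain ⟨g', h2, h3⟩ := h2
  rcases h2.pm c hπ h1 with rfl | rfl
  exacts [h3, pn _ h3]

variable (π) in
/-- `σ` has a quadratic lift. -/
def Qd (σ : G) : Prop := ∃ x, R π x σ ∧ x * x = -x - 1

theorem Qd.conj (c : Ctx P) (hπ : Cov P π) (h : Qd π σ) (γ : G) : Qd π (γ * σ * γ⁻¹) := by
  obtain ⟨x, h1, h2⟩ := h
  obtain ⟨g, h3⟩ := R.exists hπ γ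
  refine ⟨_, (h3.mul h1).mul (h3.ad c), ?_⟩
  rw [conj_mul (c.ad_mul h3.mem), h2, mul_sub, sub_mul, mul_one, c.mul_ad h3.mem]
  simp

theorem idem (h2 : (2 : F) ≠ 0) {E : M4 F} {c : F} (h : ad E = E) (hE : E * E = c • E) :
    E = 0 ∨ E = c • 1 ∨ E.trace = 2 * c := by
  obtain ⟨d, hd⟩ := sa_sq h2 h
  by_cases h1 : E.trace / 2 - c = 0
  · exact Or.inr (Or.inr (by field_simp at h1; linear_combination h1))
  obtain ⟨t, rfl⟩ : ∃ t : F, E = t • 1 := ⟨(E.trace / 2 - c)⁻¹ * d, by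
    rw [mul_smul, eq_inv_smul_iff₀ h1]; linear_combination (norm := module) hE - hd⟩
  have : t * t = c * t := smul_one_inj (by simpa [smul_smul] using hE)
  by_cases h0 : t = 0
  · simp [h0]
  · simp [mul_right_cancel₀ h0 this]

theorem cube (c : Ctx P) (h3 : (3 : F) ≠ 0) (hx : Mem P x) (h : x ^ 3 = 1) :
    ad (1 + x + x * x) = 1 + x + x * x ∧ (1 + x + x * x) * (1 + x + x * x) =
      (3 : F) • (1 + x + x * x) ∧ (x = 1 ∨ x * x = -x - 1 ∨ (1 + x + x * x).trace = 6) := by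
  have h1 : ad x = x * x := by
    rw [← mul_one (ad x), ← h, pow_three, ← mul_assoc, c.ad_mul hx, one_mul]
  have h2 : ad (1 + x + x * x) = 1 + x + x * x := by
    rw [ad_add, ad_add, ad_mul, h1, ad_one]
    linear_combination (norm := noncomm_ring) h * x
  have h4 : (1 + x + x * x) * (1 + x + x * x) = (3 : F) • (1 + x + x * x) := by
    rw [ofNat_smul_eq_nsmul]
    linear_combination (norm := noncomm_ring) h * x + 2 • h
  refine ⟨h2, h4, ?_⟩
  rcases idem c.two h2 h4 with e | e | e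
  · exact Or.inr (Or.inl (by linear_combination (norm := noncomm_ring) e))
  · refine Or.inl (smul_right_injective _ h3 ?_)
    simp only [ofNat_smul_eq_nsmul] at e ⊢
    linear_combination (norm := noncomm_ring) h - x * e + e
  · exact Or.inr (Or.inr (by rw [e]; norm_num))

theorem dich (c : Ctx P) (hπ : Cov P π) (h3 : (3 : F) ≠ 0) (hσ : σ ^ 3 = 1) (hτ : τ ^ 3 = 1)
    (h : σ * τ * σ⁻¹ = τ) (h1 : σ ≠ 1) (h2 : τ ≠ 1) (h4 : σ * τ ≠ 1) (h5 : σ * τ * τ ≠ 1) :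
    Qd π σ ∨ Qd π τ ∨ Qd π (σ * τ) ∨ Qd π (σ * τ * τ) := by
  obtain ⟨a, ha, ha'⟩ := R.odd c hπ (by decide) hσ
  obtain ⟨b, hb, hb'⟩ := R.odd c hπ (by decide) hτ
  have h6 : Commute a b := by
    have h6 : (a * b * ad a) ^ 3 = 1 := by
      rw [pow_three, conj_mul (c.ad_mul ha.mem), conj_mul (c.ad_mul ha.mem), ← pow_three, hb',
        mul_one, c.mul_ad ha.mem]
    rcases hb.pm c hπ (h ▸ (ha.mul hb).mul (ha.ad c)) with e | e
    · rw [Commute, SemiconjBy, ← congrArg (· * a) e, mul_assoc _ _ a, c.ad_mul ha.mem, mul_one]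
    · rw [e, Odd.neg_pow (by decide), hb'] at h6
      exact (one_ne_neg_one c.two h6.symm).elim
  have key : ∀ {x σ}, R π x σ → x ^ 3 = 1 → σ ≠ 1 → Qd π σ ∨ (1 + x + x * x).trace = 6 :=
    fun hx h7 h8 => ((cube c h3 hx.mem h7).2.2.resolve_left fun e =>
      h8 (hx.unique (e ▸ R.one))).imp_left fun e => ⟨_, hx, e⟩
  refine (key ha ha' h1).imp_right fun t1 => (key hb hb' h2).imp_right fun t2 =>
    (key (ha.mul hb) (by rw [h6.mul_pow, ha', hb', mul_one]) h4).imp_right fun t3 =>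
    (key ((ha.mul hb).mul hb) ?_ h5).resolve_right fun t4 => ?_
  · rw [((h6.symm.mul_right (Commute.refl b)).symm).mul_pow, h6.mul_pow, ha', hb']; simp
  obtain ⟨e1, e2, -⟩ := cube c h3 ha.mem ha'
  obtain ⟨e3, e4, -⟩ := cube c h3 hb.mem hb'
  have h7 : Commute (1 + a + a * a) (1 + b + b * b) := by
    have : Commute a (1 + b + b * b) := ((Commute.one_right a).add_right h6).add_right
      (h6.mul_right h6)
    exact ((Commute.one_left _).add_left this).add_left (this.mul_left this)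
  have h8 : (1 + a + a * a) + (1 + b + b * b) + (1 + a * b + a * b * (a * b)) +
      (1 + a * b * b + a * b * b * (a * b * b)) = (1 + a + a * a) * (1 + b + b * b) + 1 + 1 + 1 := by
    rw [mul_assoc a b b, h6.symm.mul_mul_mul_comm, (h6.mul_right h6).symm.mul_mul_mul_comm]
    linear_combination (norm := noncomm_ring) a * a * hb' * b
  have h9 := congrArg trace h8
  rw [trace_add, trace_add, trace_add, t1, t2, t3, t4, trace_add, trace_add, trace_add,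
    trace_one4] at h9
  have h10 := mul_ne_zero c.two h3
  rcases idem c.two (E := (1 + a + a * a) * (1 + b + b * b)) (c := 3 * 3)
    (by rw [ad_mul, e1, e3, h7.eq]) (by
    rw [h7.symm.mul_mul_mul_comm, e2, e4, smul_mul_smul_comm]) with e | e | e <;> rw [e] at h9
  · exact mul_ne_zero c.two h10 (by rw [trace_zero] at h9; linear_combination h9)
  · exact mul_ne_zero c.two (mul_ne_zero c.two h10) (by
      rw [trace_smul, trace_one4, smul_eq_mul] at h9; linear_combination -h9)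
  · exact h10 (by linear_combination -h9)

section Cliff

/-- Commuting up to a scalar. -/
def AC (s : F) (X Y : M4 F) : Prop := X * Y = s • (Y * X)

theorem AC.mul {s t : F} {X Y Z : M4 F} (h : AC s X Y) (h' : AC t X Z) : AC (s * t) X (Y * Z) := by
  rw [AC, ← mul_assoc, h, smul_mul_assoc, mul_assoc, h', mul_smul_comm, smul_smul, mul_assoc]

theorem AC.pow {s : F} {X Y : M4 F} (h : AC s X Y) (n : ℕ) : AC (s ^ n) X (Y ^ n) := by
  induction n with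
  | zero => simp [AC]
  | succ n ih => simpa only [pow_succ] using ih.mul h

theorem AC.self (X : M4 F) (n : ℕ) : AC 1 X (X ^ n) := by rw [AC, one_smul, ← pow_succ, pow_succ']

theorem AC.symm {X Y : M4 F} (h : AC (-1 : F) X Y) : AC (-1 : F) Y X := by
  simp only [AC, neg_smul, one_smul] at h ⊢
  rw [h, neg_neg]

theorem AC.trace (h2 : (2 : F) ≠ 0) {q : F} {X Y : M4 F} (h : AC (-1 : F) X Y) (hX : X * X = q • 1)
    (hq : q ≠ 0) : Y.trace = 0 := by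
  have h1 := trace_mul_comm X (Y * X)
  rw [← mul_assoc, h, smul_mul_assoc, mul_assoc, hX] at h1
  simp only [mul_smul_comm, mul_one, trace_smul, smul_eq_mul] at h1
  exact (mul_eq_zero.1 (show 2 * q * Y.trace = 0 by linear_combination -h1)).resolve_left
    (mul_ne_zero h2 hq)

theorem cliff (h2 : (2 : F) ≠ 0) (K : Subfield F) {f₀ f₁ f₂ f₃ : M4 F} {q₀ q₁ q₂ q₃ : K}
    (h01 : AC (-1 : F) f₀ f₁) (h02 : AC (-1 : F) f₀ f₂) (h03 : AC (-1 : F) f₀ f₃)
    (h12 : AC (-1 : F) f₁ f₂) (h13 : AC (-1 : F) f₁ f₃) (h23 : AC (-1 : F) f₂ f₃)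
    (s0 : f₀ * f₀ = (q₀ : F) • 1) (s1 : f₁ * f₁ = (q₁ : F) • 1) (s2 : f₂ * f₂ = (q₂ : F) • 1)
    (s3 : f₃ * f₃ = (q₃ : F) • 1) (n0 : (q₀ : F) ≠ 0) (n1 : (q₁ : F) ≠ 0) (n2 : (q₂ : F) ≠ 0)
    (n3 : (q₃ : F) ≠ 0) : ∃ A : Subalgebra K (M4 F), f₀ ∈ A ∧ f₁ ∈ A ∧ f₂ ∈ A ∧ f₃ ∈ A ∧
      ∀ g ∈ A, g.trace ∈ K := by
  let S : Submodule K (M4 F) := Submodule.span K
    {m | ∃ a b c d : ℕ, m = f₀ ^ a * (f₁ ^ b * (f₂ ^ c * f₃ ^ d))}
  have h1 : ∀ (n a b c d : ℕ), (-1 : F) ^ n • (f₀ ^ a * (f₁ ^ b * (f₂ ^ c * f₃ ^ d))) ∈ S :=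
    fun n a b c d => S.smul_mem (⟨_, pow_mem (neg_mem K.one_mem) n⟩ : K)
      (Submodule.subset_span ⟨a, b, c, d, rfl⟩)
  let A : Subalgebra K (M4 F) :=
    { carrier := {g | ∀ X ∈ S, g * X ∈ S}
      mul_mem' := fun ha hb X hX => mul_assoc _ _ X ▸ ha _ (hb X hX)
      add_mem' := fun ha hb X hX => add_mul _ _ X ▸ S.add_mem (ha X hX) (hb X hX)
      algebraMap_mem' := fun r X hX => Algebra.smul_def r X ▸ S.smul_mem r hX }
  have h3 : ∀ g : M4 F, (∀ a b c d : ℕ, g * (f₀ ^ a * (f₁ ^ b * (f₂ ^ c * f₃ ^ d))) ∈ S) → g ∈ A :=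
    fun g h X hX => (Submodule.span_le (p := S.comap (LinearMap.mulLeft K g))).2 (by
      rintro _ ⟨a, b, c, d, rfl⟩; exact h a b c d) hX
  have h4 : ∀ {s : F} {X Y : M4 F}, AC s X Y → ∀ Z, X * (Y * Z) = s • (Y * (X * Z)) :=
    fun h Z => by rw [← mul_assoc, h, smul_mul_assoc, mul_assoc]
  have h5 : ∀ (X Z : M4 F) (n : ℕ), X * (X ^ n * Z) = X ^ (n + 1) * Z := fun X Z n => by
    rw [← mul_assoc, pow_succ']
  refine ⟨A, h3 _ fun a b c d => ?_, h3 _ fun a b c d => ?_, h3 _ fun a b c d => ?_,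
    h3 _ fun a b c d => ?_, fun g hg => ?_⟩
  · simpa [h5] using h1 0 (a + 1) b c d
  · simpa [h4 (h01.symm.pow a), h5] using h1 a a (b + 1) c d
  · simpa [h4 (h02.symm.pow a), h4 (h12.symm.pow b), h5, pow_add, smul_smul] using
      h1 (a + b) a b (c + 1) d
  · simpa [h4 (h03.symm.pow a), h4 (h13.symm.pow b), h4 (h23.symm.pow c), ← pow_succ', pow_add,
      smul_smul, mul_assoc] using h1 (a + b + c) a b c (d + 1)
  have h6 : g ∈ S := by simpa using hg _ (h1 0 0 0 0 0)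
  clear hg
  induction h6 using Submodule.span_induction with
  | zero => simp
  | add _ _ _ _ h h' => rw [trace_add]; exact add_mem h h'
  | smul r _ _ h => rw [trace_smul]; exact mul_mem r.2 h
  | mem m hm =>
  obtain ⟨a, b, c, d, rfl⟩ := hm
  have h7 : ∀ {s : F} {X Y : M4 F} {q : F} (n : ℕ), AC s X Y → X * X = q • 1 → q ≠ 0 →
      s = (-1) ^ n → n % 2 = 1 → Y.trace ∈ K := fun n h h8 h9 e hn => by
    rw [e, (Nat.odd_iff.2 hn).neg_one_pow] at h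
    exact h.trace h2 h8 h9 ▸ K.zero_mem
  by_cases e0 : (b + c + d) % 2 = 1
  · exact h7 _ ((AC.self _ a).mul ((h01.pow b).mul ((h02.pow c).mul (h03.pow d)))) s0 n0
      (by ring) e0
  by_cases e1 : (a + c + d) % 2 = 1
  · exact h7 _ ((h01.symm.pow a).mul ((AC.self _ b).mul ((h12.pow c).mul (h13.pow d)))) s1 n1
      (by ring) e1
  by_cases e2 : (a + b + d) % 2 = 1
  · exact h7 _ ((h02.symm.pow a).mul ((h12.symm.pow b).mul ((AC.self _ c).mul (h23.pow d)))) s2 n2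
      (by ring) e2
  by_cases e3 : (a + b + c) % 2 = 1
  · exact h7 _ ((h03.symm.pow a).mul ((h13.symm.pow b).mul ((h23.symm.pow c).mul (AC.self _ d))))
      s3 n3 (by ring) e3
  obtain ⟨a, rfl⟩ : 2 ∣ a := by omega
  obtain ⟨b, rfl⟩ : 2 ∣ b := by omega
  obtain ⟨c, rfl⟩ : 2 ∣ c := by omega
  obtain ⟨d, rfl⟩ : 2 ∣ d := by omega
  simp only [pow_mul, sq, s0, s1, s2, s3, smul_pow, one_pow, smul_mul_smul_comm, mul_one,
    trace_smul, trace_one4, smul_eq_mul]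
  exact mul_mem (q₀ ^ a * (q₁ ^ b * (q₂ ^ c * q₃ ^ d))).2 (ofNat_mem K 4)

end Cliff

end Cfsg.Agent.Cl.S4O.Alt
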