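import Mathlib
import Cfsg.Agent.Cl.S4OAltA

/-! `2.A₆` and `2.A₇` in `Sp₄(q)`. -/

set_option autoImplicit false
set_option linter.ambiguousOpen false

namespace Cfsg.Agent.Cl.S4O

open Matrix Low Max Mx Geo Equiv
open scoped MatrixGroups

variable {F : Type*} [Field F] {P : Subgroup (GL I4 F)}

namespace Alt

section Vec

variable {m : ℕ} {e : Fin m → M4 F} {c d : Fin m → F}

variable (e c) in
/-- Linear combinations. -/
def v : M4 F := ∑ i, c i • e i

variable (e) in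
/-- The Clifford relations. -/
def Cf : Prop := ∀ i j, e i * e j + e j * e i = (-2 - if i = j then 4 else 0 : F) • 1

theorem Cf.anti (h : Cf e) (c d : Fin m → F) : v e c * v e d + v e d * v e c =
    (-(4 * ∑ i, c i * d i + 2 * (∑ i, c i) * ∑ i, d i)) • 1 := by
  simp only [v, Finset.sum_mul_sum, smul_mul_smul_comm]
  rw [Finset.sum_comm (f := fun j i => (d j * c i) • (e j * e i))]
  simp only [← Finset.sum_add_distrib, mul_comm (d _), ← smul_add, h _ _, smul_smul,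
    ← Finset.sum_smul, mul_sub, Finset.sum_sub_distrib, mul_ite, mul_zero, Finset.sum_ite_eq,
    Finset.mem_univ, if_true, ← Finset.sum_mul, ← Finset.mul_sum]
  congr 1
  ring

theorem Cf.ac (h : Cf e) (c d : Fin m → F)
    (h0 : 4 * ∑ i, c i * d i + 2 * (∑ i, c i) * ∑ i, d i = 0 := by
      simp [Fin.sum_univ_succ] <;> norm_num) :
    AC (-1 : F) (v e c) (v e d) := by
  have := h.anti c d
  rw [h0, neg_zero, zero_smul] at this
  simpa [AC] using eq_neg_of_add_eq_zero_left this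

theorem Cf.sq (h : Cf e) (h2 : (2 : F) ≠ 0) (c : Fin m → F) (q : F)
    (h0 : 4 * ∑ i, c i * c i + 2 * (∑ i, c i) * ∑ i, c i = -(2 * q) := by
      simp [Fin.sum_univ_succ] <;> norm_num) : v e c * v e c = q • 1 :=
  smul_right_injective _ h2 (by simpa only [h0, neg_neg, two_smul, mul_smul] using h.anti c c)

theorem ad_v (h : ∀ i, ad (e i) = -e i) (c : Fin m → F) : ad (v e c) = -v e c := by
  simp only [v, ← Finset.sum_neg_distrib]
  induction (Finset.univ : Finset (Fin m)) using Finset.cons_induction with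
  | empty => simp
  | cons _ _ _ ih => simp only [Finset.sum_cons, ad_add, ad_smul, h, ih, smul_neg]

end Vec

theorem Cf.alg {e : Fin 4 → M4 F} (h : Cf e) (h2 : (2 : F) ≠ 0) (h3 : (3 : F) ≠ 0)
    (K : Subfield F) : ∃ A : Subalgebra K (M4 F), (∀ i, e i ∈ A) ∧ ∀ g ∈ A, g.trace ∈ K := by
  have h4 := four_ne h2
  obtain ⟨A, a0, a1, a2, a3, hA⟩ := cliff h2 K (q₀ := -4) (q₁ := -4) (q₂ := -(2 * 4))
    (q₃ := -(3 * (2 * 4)))
    (h.ac ![1, -1, 0, 0] ![0, 0, 1, -1]) (h.ac _ ![1, 1, -1, -1]) (h.ac _ ![1, 1, 1, 1])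
    (h.ac _ _) (h.ac _ _) (h.ac _ _) (h.sq h2 _ (-4)) (h.sq h2 _ (-4)) (h.sq h2 _ (-(2 * 4)))
    (h.sq h2 _ (-(3 * (2 * 4)))) (neg_ne_zero.2 h4) (neg_ne_zero.2 h4)
    (neg_ne_zero.2 (mul_ne_zero h2 h4)) (neg_ne_zero.2 (mul_ne_zero h3 (mul_ne_zero h2 h4)))
  have h5 : ∀ X ∈ A, (4 : F)⁻¹ • X ∈ A := fun X hX => A.smul_mem hX (4⁻¹ : K)
  refine ⟨A, fun i => ?_, hA⟩
  fin_cases i
  on_goal 1 => convert h5 _ (add_mem (add_mem a3 a2) (add_mem a0 a0))
  on_goal 2 => convert h5 _ (sub_mem (add_mem a3 a2) (add_mem a0 a0))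
  on_goal 3 => convert h5 _ (add_mem (sub_mem a3 a2) (add_mem a1 a1))
  on_goal 4 => convert h5 _ (sub_mem (sub_mem a3 a2) (add_mem a1 a1))
  all_goals
    simp only [v, Fin.sum_univ_four, cons_val, Fin.reduceFinMk]
    match_scalars <;> field_simp <;> norm_num

theorem prime_of [Fintype F] (ht : TrGen P) (h : ∀ (K : Subfield F) g, Mem P g → g.trace ∈ K) :
    (Fintype.card F).Prime ∧ ringChar F = Fintype.card F := by
  have hp := CharP.char_is_prime F (ringChar F)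
  have := Fact.mk hp
  have := Fintype.card_of_bijective (f := ZMod.castHom dvd_rfl F) ⟨RingHom.injective _,
    RingHom.fieldRange_eq_top_iff.1 (ht _ (h _))⟩
  rw [ZMod.card] at this
  exact ⟨this ▸ hp, this⟩

/-- A `3`-cycle. -/
abbrev t {n : ℕ} (a b c : Fin n) (h : a ≠ b := by decide) (h' : b ≠ c := by decide) :
    alternatingGroup (Fin n) := Sym.altCyc3 h h'

section Gen

variable {m : ℕ} {π : P →* alternatingGroup (Fin (m + 2))} (c : Ctx P) (hπ : Cov P π)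

theorem one_ne (i : Fin m) : (1 : Fin (m + 2)) ≠ i.succ.succ := (Fin.succ_succ_ne_one i).symm

/-- The Carmichael generators. -/
def gn (i : Fin m) : alternatingGroup (Fin (m + 2)) := t 0 1 i.succ.succ zero_ne_one (one_ne i)

include c hπ

theorem exists_e (hD : ∀ t, ¬ D P t) (H : ∀ i, Qd π (gn i)) : ∃ e : Fin m → M4 F, Cf e ∧
    (∀ i, ad (e i) = -e i) ∧ ∀ i, R π ((2 : F)⁻¹ • (e i - 1)) (gn i) := by
  choose x hx hq using H
  have h1 : ∀ i, ad (x i) = -x i - 1 := fun i => by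
    have := c.ad_mul (hx i).mem
    linear_combination (norm := noncomm_ring) ad (x i) * hq i - this * x i - this
  refine ⟨fun i => x i + x i + 1, fun i j => ?_, fun i => by simp only [ad_add, h1, ad_one]; abel,
    fun i => by simpa [← two_smul F, smul_smul, c.two] using hx i⟩
  split_ifs with e
  · rw [e, show (-2 - 4 : F) = -6 by norm_num, neg_smul, ofNat_smul_eq_nsmul]
    linear_combination (norm := noncomm_ring) 8 • hq j
  have h2 := (hx i).mul (hx j)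
  have h3 : ∀ i : Fin m, (0 : Fin (m + 2)) ≠ i.succ.succ ∧ 1 ≠ i.succ.succ := fun i =>
    ⟨(Fin.succ_ne_zero _).symm, one_ne i⟩
  have h4 : i.succ.succ ≠ j.succ.succ := by simpa using e
  have h5 : ∀ g, g = 1 ∨ g = -1 → x i * x j ≠ g := fun g hg e => by
    have := congrArg (·.1 0) ((e ▸ h2).unique (hg.elim (· ▸ R.one) (· ▸ R.one.neg c hπ)))
    simp [gn, Sym.altCyc3, Sym.cyc3_apply_fst zero_ne_one (h3 j).1,
      Sym.cyc3_apply_snd (h3 i).1 (h3 i).2] at this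
  have h6 := ((show (gn i * gn j) ^ 2 = 1 from Subtype.ext (Sym.cyc3_mul_cyc3_sq zero_ne_one
    (h3 i).1 (h3 j).1 (h3 i).2 h4)) ▸ h2.pow 2).pm_one hπ
  rw [sq] at h6
  have h7 := h6.resolve_left fun e => hD _ ⟨h2.mem, e, h5 _ (Or.inl rfl), h5 _ (Or.inr rfl)⟩
  have h8 := c.ad_mul h2.mem
  have h9 : ad (x i * x j) = -(x i * x j) := by
    linear_combination (norm := noncomm_ring) ad (x i * x j) * h7 - h8 * (x i * x j)
  rw [ad_mul, h1, h1] at h9
  rw [sub_zero, neg_smul, ofNat_smul_eq_nsmul]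
  linear_combination (norm := noncomm_ring) 4 • h9

theorem gen {x : Fin m → M4 F} (hx : ∀ i, R π (x i) (gn i)) {p : M4 F → Prop} (p1 : p 1)
    (pm : ∀ a b, p a → p b → p (a * b)) (pn : ∀ a, p a → p (-a)) (U : Finset (Fin (m + 2)))
    (hp : ∀ i, i.succ.succ ∈ U → p (x i)) {g : M4 F} {σ : alternatingGroup (Fin (m + 2))}
    (h : R π g σ) (hσ : ∀ a ∉ U, σ.1 a = a) : p g := by
  obtain ⟨K, h1, h2⟩ := exists_sub c hπ p1 pm pn
  refine h2 g σ h (Pr.alt_mem_of_cyc3 zero_ne_one (fun i hi h3 h4 => ?_) hσ)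
  obtain ⟨i, rfl⟩ := Fin.exists_succ_eq_of_ne_zero h3
  obtain ⟨i, rfl⟩ := Fin.exists_succ_eq_of_ne_zero (x := i) (by rintro rfl; exact h4 rfl)
  exact h1 _ _ (hx i) (hp i hi)

theorem gen_alg {K : Subfield F} {A : Subalgebra K (M4 F)} {e : Fin m → M4 F}
    (hx : ∀ i, R π ((2 : F)⁻¹ • (e i - 1)) (gn i)) (h : ∀ i, e i ∈ A) {g : M4 F} (hg : Mem P g) :
    g ∈ A :=
  (R.of_mem hg).elim fun _ h1 => gen c hπ hx A.one_mem (fun _ _ => mul_mem) (fun _ => neg_mem) _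
    (fun i _ => A.smul_mem (sub_mem (h i) A.one_mem) (2⁻¹ : K)) h1 fun a ha =>
      (ha (Finset.mem_univ a)).elim

theorem gen_comm {u : M4 F} {e : Fin m → M4 F} (hx : ∀ i, R π ((2 : F)⁻¹ • (e i - 1)) (gn i))
    (U : Finset (Fin (m + 2))) (hp : ∀ i, i.succ.succ ∈ U → Commute (e i) u) {g : M4 F}
    {σ : alternatingGroup (Fin (m + 2))} (h : R π g σ) (hσ : ∀ a ∉ U, σ.1 a = a) : Commute g u :=
  gen c hπ hx (p := (Commute · u)) (Commute.one_left u) (fun _ _ => Commute.mul_left)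
    (fun _ => Commute.neg_left) U
    (fun i hi => ((hp i hi).sub_left (Commute.one_left u)).smul_left _) h hσ

theorem qd_gn (hm : 3 ≤ m) {σ : alternatingGroup (Fin (m + 2))} (h : σ.1.IsThreeCycle)
    (h' : Qd π σ) (i : Fin m) : Qd π (gn i) := by
  obtain ⟨γ, e⟩ := isConj_iff.1 (alternatingGroup.isThreeCycle_isConj (by simp; omega) h
    (τ := gn i) (Sym.isThreeCycle_cyc3 zero_ne_one (Fin.succ_ne_zero _).symm (one_ne i)))
  exact e ▸ h'.conj c hπ γ

end Gen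

theorem AC.comm {s : F} {X Y : M4 F} (h : AC s X Y) (e : s = 1 := by norm_num) : Commute X Y := by
  simpa [AC, e, commute_iff_eq] using h

theorem AC.rfl (X : M4 F) : AC (1 : F) X X := (one_smul _ _).symm

theorem AC.ad {s t : F} {X Y : M4 F} (h : AC s X Y) (hX : ad X = -X) (hY : ad Y = t • Y)
    (e : s * s = 1 := by norm_num) : ad (X * Y) = (-(t * s)) • (X * Y) := by
  rw [ad_mul, hX, hY, h, smul_smul, neg_mul, mul_assoc, e]
  simp

theorem cancel {q : F} {X Y : M4 F} (h : X * X = q • 1) (hq : q ≠ 0) (h0 : X * Y = 0) : Y = 0 := by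
  simpa [← mul_assoc, h, hq] using congrArg (X * ·) h0

theorem seven [Fintype F] (h : Ctx P) (hD : ∀ t, ¬ D P t) (ht : TrGen P) (h3 : (3 : F) ≠ 0)
    {π : P →* alternatingGroup (Fin 7)} (hπ : Cov P π) (H : ∀ i, Qd π (gn i)) :
    Fintype.card F = 7 := by
  obtain ⟨e, h1, h4, h5⟩ := exists_e (m := 5) h hπ hD H
  have h2 := h.two
  have h6 := four_ne h2
  have a01 := h1.ac ![1, -1, 0, 0, 0] ![0, 0, 1, -1, 0]
  have a02 := h1.ac ![1, -1, 0, 0, 0] ![1, 1, -1, -1, 0]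
  have a03 := h1.ac ![1, -1, 0, 0, 0] ![1, 1, 1, 1, 0]
  have a04 := h1.ac ![1, -1, 0, 0, 0] ![-1, -1, -1, -1, 6]
  have a12 := h1.ac ![0, 0, 1, -1, 0] ![1, 1, -1, -1, 0]
  have a13 := h1.ac ![0, 0, 1, -1, 0] ![1, 1, 1, 1, 0]
  have a14 := h1.ac ![0, 0, 1, -1, 0] ![-1, -1, -1, -1, 6]
  have a23 := h1.ac ![1, 1, -1, -1, 0] ![1, 1, 1, 1, 0]
  have a24 := h1.ac ![1, 1, -1, -1, 0] ![-1, -1, -1, -1, 6]
  have a34 := h1.ac ![1, 1, 1, 1, 0] ![-1, -1, -1, -1, 6]
  have s0 := h1.sq h2 ![1, -1, 0, 0, 0] (-4)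
  have s1 := h1.sq h2 ![0, 0, 1, -1, 0] (-4)
  have s2 := h1.sq h2 ![1, 1, -1, -1, 0] (-(2 * 4))
  have s3 := h1.sq h2 ![1, 1, 1, 1, 0] (-(3 * (2 * 4)))
  have s4 := h1.sq h2 ![-1, -1, -1, -1, 6] (-(3 * (4 * 7)))
  have d0 := ad_v h4 ![1, -1, 0, 0, 0]
  have d1 := ad_v h4 ![0, 0, 1, -1, 0]
  have d2 := ad_v h4 ![1, 1, -1, -1, 0]
  have d3 := ad_v h4 ![1, 1, 1, 1, 0]
  have d4 := ad_v h4 ![-1, -1, -1, -1, 6]
  generalize e0 : v e ![1, -1, 0, 0, 0] = f₀ at *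
  generalize e1 : v e ![0, 0, 1, -1, 0] = f₁ at *
  generalize e2 : v e ![1, 1, -1, -1, 0] = f₂ at *
  generalize e3 : v e ![1, 1, 1, 1, 0] = f₃ at *
  generalize e4 : v e ![-1, -1, -1, -1, 6] = f₄ at *
  have c0 := ((AC.rfl f₀).mul (a01.mul (a02.mul (a03.mul a04)))).comm
  have c1 := (a01.symm.mul ((AC.rfl f₁).mul (a12.mul (a13.mul a14)))).comm
  have c2 := (a02.symm.mul (a12.symm.mul ((AC.rfl f₂).mul (a23.mul a24)))).comm
  have c3 := (a03.symm.mul (a13.symm.mul (a23.symm.mul ((AC.rfl f₃).mul a34)))).comm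
  have c4 := (a04.symm.mul (a14.symm.mul (a24.symm.mul (a34.symm.mul (AC.rfl f₄))))).comm
  have h7 : (2 * 3 : F) ≠ 0 := mul_ne_zero h2 h3
  have h8 : e 0 = (4 : F)⁻¹ • (f₃ + f₂ + (f₀ + f₀)) ∧ e 1 = (4 : F)⁻¹ • (f₃ + f₂ - (f₀ + f₀)) ∧
      e 2 = (4 : F)⁻¹ • (f₃ - f₂ + (f₁ + f₁)) ∧ e 3 = (4 : F)⁻¹ • (f₃ - f₂ - (f₁ + f₁)) ∧
      e 4 = (2 * 3 : F)⁻¹ • (f₃ + f₄) ∧ f₃ = e 0 + e 1 + e 2 + e 3 := by
    simp only [← e0, ← e1, ← e2, ← e3, ← e4, v, Fin.sum_univ_five, cons_val]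
    refine ⟨?_, ?_, ?_, ?_, ?_, ?_⟩ <;> match_scalars <;> field_simp <;> norm_num
  obtain ⟨s, hs⟩ := h.scalar (X := f₀ * (f₁ * (f₂ * (f₃ * f₄)))) fun g hg =>
    (R.of_mem hg).elim fun σ hσ => (gen_comm (m := 5) h hπ h5 Finset.univ (fun i _ => by
      fin_cases i
      exacts [h8.1 ▸ ((c3.add_left c2).add_left (c0.add_left c0)).smul_left _,
        h8.2.1 ▸ ((c3.add_left c2).sub_left (c0.add_left c0)).smul_left _,
        h8.2.2.1 ▸ ((c3.sub_left c2).add_left (c1.add_left c1)).smul_left _,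
        h8.2.2.2.1 ▸ ((c3.sub_left c2).sub_left (c1.add_left c1)).smul_left _,
        h8.2.2.2.2.1 ▸ (c3.add_left c4).smul_left _]) hσ
      fun a ha => (ha (Finset.mem_univ a)).elim).symm
  have h9 := (a01.mul (a02.mul (a03.mul a04))).ad d0 ((a12.mul (a13.mul a14)).ad d1
    ((a23.mul a24).ad d2 (a34.ad d3 (d4.trans (neg_one_smul F _).symm))))
  rw [hs, ad_smul, ad_one, ← hs] at h9
  have h10 : f₄ = 0 := cancel s3 (neg_ne_zero.2 (mul_ne_zero h3 (mul_ne_zero h2 h6)))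
    (cancel s2 (neg_ne_zero.2 (mul_ne_zero h2 h6)) (cancel s1 (neg_ne_zero.2 h6)
      (cancel s0 (neg_ne_zero.2 h6) (eq_zero_of_two h2 (by simpa using h9)))))
  have h11 : (7 : F) = 0 := by
    simpa [h10, h3, h6] using smul_one_inj (b := 0) (s4.symm.trans (by simp [h10]))
  obtain ⟨h12, h13⟩ := prime_of ht fun K g hg => by
    obtain ⟨A, h12, h13⟩ := Cf.alg (e := fun i => e i.castSucc) (fun i j => by
      simpa using h1 i.castSucc j.castSucc) h2 h3 K
    refine h13 g (gen_alg (m := 5) h hπ h5 (fun i => i.lastCases ?_ h12) hg)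
    rw [show e (Fin.last 4) = _ from h8.2.2.2.2.1, h10, add_zero, h8.2.2.2.2.2]
    exact A.smul_mem (add_mem (add_mem (add_mem (h12 0) (h12 1)) (h12 2)) (h12 3)) ((2 * 3)⁻¹ : K)
  exact (Nat.prime_dvd_prime_iff_eq h12 (by norm_num)).1
    (h13 ▸ (ringChar.spec F 7).1 (by exact_mod_cast h11))

theorem AC.sq {s p q : F} {X Y : M4 F} (h : AC s X Y) (hX : X * X = p • 1) (hY : Y * Y = q • 1) :
    X * Y * (X * Y) = (s * p * q) • 1 := by
  rw [mul_assoc, ← mul_assoc Y, ← mul_assoc, ← mul_assoc, h, smul_mul_assoc, mul_assoc Y, hX]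
  simp [hY, smul_smul, mul_assoc]

theorem not_max' [Finite F] {Z : Fin 6 → M4 F} {β : F} (h : Sev.Gr Z β) {H : Subgroup (GL I4 F)}
    (hH : ∀ k, Mem H k → ad k * k = 1 → ∀ a, ∃ b, k * Z a * ad k = Z b ∨ k * Z a * ad k = -Z b) :
    ¬ IsMaximalIn (spGL 2 F) H := by
  have h2 := mul_ne_zero h.two h.ne
  have h3 := mul_ne_zero h.three h.ne
  refine h.not_max (fun k hk hk' X hX => ?_) fun hg => ?_
  · rcases hX with ⟨a, rfl | rfl⟩ | ⟨a, b, e, rfl⟩
    · exact Or.inl (hH k hk hk' a)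
    · simpa using Sev.neg_mem (Or.inl (hH k hk hk' a))
    have h1 := ip_conj hk' (Z a) (Z b)
    rw [mul_sub, sub_mul]
    obtain ⟨c, e1 | e1⟩ := hH k hk hk' a <;> obtain ⟨d, e2 | e2⟩ := hH k hk hk' b <;>
      simp only [e1, e2, ip_neg_left, ip_neg_right, h.gram, if_neg e, neg_neg] at h1 ⊢
    · exact Or.inr ⟨c, d, fun e => h.ne (by rw [if_pos e] at h1; linear_combination h1), rfl⟩
    · split_ifs at h1
      exacts [(h3 (by linear_combination -h1)).elim, (h2 (by linear_combination -h1)).elim]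
    · split_ifs at h1
      exacts [(h3 (by linear_combination -h1)).elim, (h2 (by linear_combination -h1)).elim]
    · exact Or.inr ⟨d, c, fun e => h.ne (by rw [if_pos e.symm] at h1; linear_combination h1),
        by abel⟩
  obtain ⟨b, hb⟩ := hH _ hg (by
    rw [h.ad_g, smul_mul_smul_comm, mul_assoc, ← mul_assoc (Z 0), h.sq]
    simp [h.sq, smul_smul, h.ne, mul_assoc]) 2
  rw [h.conj_g, h.conj 1 (h.w 2), h.conj 0 ((h.w 2).sub ((h.w 1).smul _)).neg] at hb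
  rcases hb with e | e <;> have := congrArg (ip (Z 0)) e <;>
    simp [ip_neg_right, ip_sub_right, h.gram, h.ne] at this <;> split_ifs at this
  all_goals first | exact h2 this.symm | exact h.ne this.symm | exact h2 this | exact h.ne this

theorem five {σ : Perm (Fin 6)} (h : σ ^ 5 = 1) (h1 : σ ≠ 1) :
    ∃ a, ∀ b c, b ≠ a → c ≠ a → ∃ n : ℕ, (σ ^ n) b = c := by
  have := Fact.mk Nat.prime_five
  have h2 := orderOf_eq_prime h h1
  have h3 := Perm.isCycle_of_prime_order' (h2 ▸ Nat.prime_five) (by simp [h2])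
  obtain ⟨a, ha⟩ := Finset.card_eq_one.1 (show σ.supportᶜ.card = 1 by
    rw [Finset.card_compl, ← h3.orderOf, h2]; rfl)
  have h4 : ∀ b, b ≠ a → σ b ≠ b := fun b hb e => hb (by simpa [ha] using
    (show b ∈ σ.supportᶜ by simpa))
  exact ⟨a, fun b c hb hc => h3.exists_pow_eq (h4 b hb) (h4 c hc)⟩

theorem six [Finite F] (h : Ctx P) (h3 : (3 : F) ≠ 0) (h7 : (7 : F) = 0)
    {π : P →* alternatingGroup (Fin 6)} (hπ : Cov P π) {e : Fin 4 → M4 F} (h1 : Cf e)
    (h4 : ∀ i, ad (e i) = -e i) (h5 : ∀ i, R π ((2 : F)⁻¹ • (e i - 1)) (gn i)) : NotMax P := by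
  have h2 := h.two
  have a01 := h1.ac ![1, -1, 0, 0] ![1, 1, -2, 0]
  have a02 := h1.ac ![1, -1, 0, 0] ![1, 1, 1, 0]
  have a03 := h1.ac ![1, -1, 0, 0] ![1, 1, 1, -5]
  have a12 := h1.ac ![1, 1, -2, 0] ![1, 1, 1, 0]
  have a13 := h1.ac ![1, 1, -2, 0] ![1, 1, 1, -5]
  have a23 := h1.ac ![1, 1, 1, 0] ![1, 1, 1, -5]
  have s0 := h1.sq h2 ![1, -1, 0, 0] (-4)
  have s1 := h1.sq h2 ![1, 1, -2, 0] (-12)
  have s2 := h1.sq h2 ![1, 1, 1, 0] (-15)
  have s3 := h1.sq h2 ![1, 1, 1, -5] (-60)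
  have d0 := ad_v h4 ![1, -1, 0, 0]
  have d1 := ad_v h4 ![1, 1, -2, 0]
  have d2 := ad_v h4 ![1, 1, 1, 0]
  generalize e0 : v e ![1, -1, 0, 0] = f₀ at *
  generalize e1 : v e ![1, 1, -2, 0] = f₁ at *
  generalize e2 : v e ![1, 1, 1, 0] = f₂ at *
  generalize v e ![1, 1, 1, -5] = f₃ at *
  have c0 := ((AC.rfl f₀).mul (a01.mul a02)).comm
  have c1 := (a01.symm.mul ((AC.rfl f₁).mul a12)).comm
  have c2 := (a02.symm.mul (a12.symm.mul (AC.rfl f₂))).comm
  have h6 : (2 * 3 : F) ≠ 0 := mul_ne_zero h2 h3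
  have h8 : e 0 = (2 * 3 : F)⁻¹ • (f₁ + (2 : F) • f₂ + (3 : F) • f₀) ∧
      e 1 = (2 * 3 : F)⁻¹ • (f₁ + (2 : F) • f₂ - (3 : F) • f₀) ∧ e 2 = (3 : F)⁻¹ • (f₂ - f₁) := by
    simp only [← e0, ← e1, ← e2, v, Fin.sum_univ_four, cons_val]
    refine ⟨?_, ?_, ?_⟩ <;> match_scalars <;> field_simp <;> norm_num
  have hW : W (f₀ * (f₁ * f₂)) := ⟨by
    simpa using (a01.mul a02).ad d0 (a12.ad d1 (d2.trans (neg_one_smul F _).symm)),
    AC.trace h2 (by simpa using a03.symm.mul (a13.symm.mul a23.symm)) s3 fun e =>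
      h3 (by linear_combination e + 9 * h7)⟩
  have h9 := (a01.mul a02).sq s0 (a12.sq s1 s2)
  rw [hW.sq h2] at h9
  replace h9 := smul_one_inj h9
  have h10 : ∀ {g σ}, R π g σ → σ.1 5 = 5 → Commute g (f₀ * (f₁ * f₂)) := fun hg hσ =>
    gen_comm (m := 4) h hπ h5 (Finset.univ.erase 5) (fun i hi => by
      fin_cases i
      exacts [h8.1 ▸ ((c1.add_left (c2.smul_left _)).add_left (c0.smul_left _)).smul_left _,
        h8.2.1 ▸ ((c1.add_left (c2.smul_left _)).sub_left (c0.smul_left _)).smul_left _,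
        h8.2.2 ▸ (c2.sub_left c1).smul_left _, absurd hi (by decide)]) hg fun a ha => by
      rwa [show a = 5 by simpa using ha]
  generalize f₀ * (f₁ * f₂) = z at hW h9 h10
  have tr : ∀ {a b c d : Fin 6}, a ≠ b → c ≠ d → ∃ g σ, R π g σ ∧ σ.1 a = c ∧ σ.1 b = d :=
    fun h11 h12 => by
    have := alternatingGroup.isMultiplyPretransitive (Fin 6)
    obtain ⟨σ, h13⟩ := MulAction.is_two_pretransitive_iff.1 (MulAction.isMultiplyPretransitive_of_le
      (G := alternatingGroup (Fin 6)) (n := Nat.card (Fin 6) - 2) (by simp) (by simp)) h11 h12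
    exact (R.exists hπ σ).imp fun g hg => ⟨σ, hg, h13⟩
  choose g s hg hs using fun a : Fin 6 => (exists_ne a).elim fun b hb =>
    (tr (show (5 : Fin 6) ≠ 0 by decide) hb.symm).imp fun g h => h.imp fun σ h => And.intro h.1 h.2.1
  obtain ⟨Z, hZ⟩ : ∃ Z : Fin 6 → M4 F, ∀ a, Z a = g a * z * ad (g a) := ⟨_, fun _ => rfl⟩
  have h11 : ∀ {k σ}, R π k σ → ∀ a, k * Z a * ad k = Z (σ.1 a) := fun {k σ} hk a => by
    have h11 := (((hg (σ.1 a)).ad h).mul hk).mul (hg a)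
    have h12 := h10 h11 (by simp [hs, Equiv.symm_apply_eq])
    have h13 : k * g a = g (σ.1 a) * (ad (g (σ.1 a)) * k * g a) := by
      rw [← mul_assoc, ← mul_assoc, h.mul_ad (hg _).mem, one_mul]
    have h14 := h.mul_ad h11.mem
    generalize ad (g (σ.1 a)) * k * g a = u at h12 h13 h14
    rw [hZ, hZ, ← mul_assoc, ← mul_assoc, mul_assoc _ (ad _), ← ad_mul, h13, ad_mul,
      mul_assoc _ u, h12]
    simp only [mul_assoc, ← mul_assoc u, h14, one_mul]
  have h12 : ∀ a, W (Z a) := fun a => hZ a ▸ hW.conj (h.ad_mul (hg a).mem)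
  have h13 : ∑ a, Z a = 0 := by
    obtain ⟨c, hc⟩ := h.scalar (X := ∑ a, Z a) fun k hk => (R.of_mem (π := π) hk).elim fun σ hσ => by
      conv_lhs => rw [← Equiv.sum_comp σ.1 Z, ← Finset.sum_congr rfl fun a _ => h11 hσ a,
        ← Finset.sum_mul, ← Finset.mul_sum, mul_assoc, h.ad_mul hk, mul_one]
    exact (W.sum _ fun a _ => h12 a).eq_zero_of_scalar h2 hc
  have h14 : ∀ X a t, (∀ b, b ≠ a → ip (Z b) X = t) → ip (Z a) X = 2 * t := fun X a t h14 => by
    have := ip_sum_left Finset.univ Z X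
    rw [h13, ip_zero_left, ← Finset.add_sum_erase _ _ (Finset.mem_univ a), Finset.sum_congr rfl
      fun b hb => h14 b (Finset.ne_of_mem_erase hb)] at this
    simp at this
    linear_combination -this - t * h7
  have h15 : ∀ a b, a ≠ b → ip (Z a) (Z b) = ip (Z 0) (Z 1) := fun a b e => by
    obtain ⟨k, σ, hk, rfl, rfl⟩ := tr zero_ne_one e
    rw [← h11 hk, ← h11 hk, ip_conj (h.ad_mul hk.mem)]
  have h16 := fun a => h14 (Z a) a _ fun b => h15 b a
  have G : Sev.Gr Z (ip (Z 0) (Z 1)) := ⟨h2, h3, fun e => by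
    have := h16 0
    rw [e, hZ, ip_conj (h.ad_mul (hg _).mem)] at this
    rw [this] at h9
    exact one_ne_zero (α := F) (by linear_combination h9 + 103 * h7), h12, fun a b => by
    split_ifs with e
    exacts [e ▸ h16 a, h15 a b e]⟩
  generalize ip (Z 0) (Z 1) = β at G
  obtain ⟨y₀, h17, h18⟩ := R.odd (σ := t 0 1 2 * t 2 3 4) h hπ (by decide : Odd 5) (by decide)
  have h19 := h10 h17 (by decide)
  refine fun H _ hN => not_max' G fun k hk hk' a => ?_
  have h20 : ad (k * g a) * (k * g a) = 1 := by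
    rw [ad_mul, mul_assoc, ← mul_assoc (ad k), hk', one_mul, h.ad_mul (hg a).mem]
  obtain ⟨σ, h21⟩ : ∃ σ, R π (k * g a * y₀ * ad (k * g a)) σ := R.of_mem (by
    obtain ⟨κ, h21, rfl⟩ := hk
    obtain ⟨l, h22, h23⟩ := h.conj (hg a).mem h17.mem
    exact ⟨_, hN κ h21 l h22, by
      simp [h23, Units.inv_eq_of_mul_eq_one_left hk', ad_mul, mul_assoc]⟩)
  have h22 : ∀ n, (k * g a * y₀ * ad (k * g a)) ^ n = k * g a * y₀ ^ n * ad (k * g a) := fun n => by
    induction n with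
    | zero => simp [mul_eq_one_comm.1 h20]
    | succ n ih => rw [pow_succ, ih, conj_mul h20, pow_succ]
  have h23 : k * Z a * ad k = k * g a * z * ad (k * g a) := by simp [hZ, ad_mul, mul_assoc]
  have h24 := (h12 a).conj hk'
  have h25 : ip (k * Z a * ad k) (k * Z a * ad k) = 2 * β := by rw [ip_conj hk', G.gram, if_pos rfl]
  obtain ⟨b, hb⟩ := five (σ := σ.1) (congrArg Subtype.val ((h21.pow 5).unique (by
    rw [h22, h18, mul_one, mul_eq_one_comm.1 h20]; exact R.one))) fun e => by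
    have h26 := conj_conj h20 y₀
    rcases ((Subtype.ext e : σ = 1) ▸ h21).pm_one hπ with e | e <;>
      simp only [e, mul_one, mul_neg, neg_mul, h20] at h26
    exacts [absurd ((h26 ▸ h17).unique R.one) (by decide),
      absurd ((h26 ▸ h17).unique (R.one.neg h hπ)) (by decide)]
  obtain ⟨b', hb'⟩ := exists_ne b
  have h26 : ∀ c, c ≠ b → ip (Z c) (k * Z a * ad k) = ip (Z b') (k * Z a * ad k) := fun c hc => by
    obtain ⟨n, rfl⟩ := hb b' c hb' hc
    have h26 := h21.pow n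
    rw [← ip_conj (h.ad_mul h26.mem) (Z b'), h11 h26, h23]
    congr 1
    rw [mul_assoc _ _ (ad (_ ^ n)), ← mul_assoc, h22, conj_mul h20, (h19.pow_left n).eq,
      ← conj_mul h20, mul_assoc _ _ (ad (_ * _ * _)), ← h22, h.mul_ad h26.mem, mul_one]
  generalize k * Z a * ad k = X at h24 h25 h26
  have h27 := h14 X b _ h26
  generalize ip (Z b') X = t at h26 h27
  have h28 := sub_eq_zero.1 (G.eq_zero (h24.sub ((h12 b).smul (t / β))) fun c => by
    have := G.ne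
    rw [ip_sub_right, ip_smul_right, G.gram]
    split_ifs with e
    · rw [e, h27]; field_simp; ring
    · rw [h26 c e]; field_simp; ring)
  rw [h28, ip_smul_left, ip_smul_right, G.gram, if_pos rfl, ← mul_assoc,
    mul_left_eq_self₀, mul_self_eq_one_iff] at h25
  exact ⟨b, (h25.resolve_right (mul_ne_zero h2 G.ne)).imp (by simp [h28, ·]) (by simp [h28, ·])⟩

end Alt

open Alt

theorem alt6 [Fintype F] (h : Ctx P) (hD : ∀ t, ¬ D P t) (ht : TrGen P) (h3 : (3 : F) ≠ 0)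
    {π : P →* alternatingGroup (Fin 6)} (hπ : Cov P π) :
    (Fintype.card F).Prime ∧ (Fintype.card F = 7 → NotMax P) := by
  suffices ∃ π : P →* alternatingGroup (Fin 6), Cov P π ∧ ∀ i, Qd π (gn (m := 4) i) by
    obtain ⟨π, hπ, H⟩ := this
    obtain ⟨e, h1, h4, h5⟩ := exists_e (m := 4) h hπ hD H
    refine ⟨(prime_of ht fun K g hg => ?_).1, fun h7 => six h h3 ?_ hπ h1 h4 h5⟩
    · obtain ⟨A, h6, h7⟩ := h1.alg h.two h3 K
      exact h7 g (gen_alg (m := 4) h hπ h5 h6 hg)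
    · exact_mod_cast h7 ▸ FiniteField.cast_card_eq_zero F
  have key : Qd π (t 0 1 2 * t 3 4 5) →
      ∃ π : P →* alternatingGroup (Fin 6), Cov P π ∧ ∀ i, Qd π (gn (m := 4) i) := fun H => by
    let γ : Fin 6 → alternatingGroup (Fin 6) :=
      ![1, 1, 1, t 0 1 3 * t 2 5 3, t 0 1 4 * t 0 5 3, t 0 3 1 * t 2 4 3]
    obtain ⟨φ, hφ⟩ := Sym.exists_hom_of_carmichael (zero_ne_one (α := Fin 6))
      (fun i => γ i * (t 0 1 2 * t 3 4 5) * (γ i)⁻¹) (by decide +kernel) (by decide +kernel)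
    have := alternatingGroup.isSimpleGroup (α := Fin 6) (by simp)
    have h1 : Function.Injective φ := (MonoidHom.ker_eq_bot_iff φ).1
      ((φ.normal_ker.eq_bot_or_eq_top).resolve_right fun e => absurd ((hφ 2 (by decide)
        (by decide)).symm.trans (e.ge (Subgroup.mem_top _))) (by decide))
    let ψ := MulEquiv.ofBijective φ (Finite.injective_iff_bijective.1 h1)
    refine ⟨ψ.symm.toMonoidHom.comp π, ⟨ψ.symm.surjective.comp hπ.surj, fun g => by
      simpa using hπ.ker g⟩, fun i => ?_⟩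
    obtain ⟨x, ⟨k, h2, h4⟩, h5⟩ := H.conj h hπ (γ i.succ.succ)
    exact ⟨x, ⟨k, h2, ψ.symm_apply_eq.2 (h4.trans (hφ _ (Fin.succ_ne_zero _) (one_ne i)).symm)⟩, h5⟩
  rcases dich h hπ h3 (σ := t 0 1 2) (τ := t 3 4 5) (by decide) (by decide) (by decide) (by decide)
    (by decide) (by decide) (by decide) with H | H | H | H
  · exact ⟨π, hπ, qd_gn (m := 4) h hπ (by decide) (Sym.isThreeCycle_cyc3 (by decide) (by decide)
      (by decide)) H⟩
  · exact ⟨π, hπ, qd_gn (m := 4) h hπ (by decide) (Sym.isThreeCycle_cyc3 (by decide) (by decide)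
      (by decide)) H⟩
  · exact key H
  · exact key (by convert H.conj h hπ (t 0 1 3 * t 0 1 4 * t 2 5 3) using 1; decide)

theorem alt7 [Fintype F] (h : Ctx P) (hD : ∀ t, ¬ D P t) (ht : TrGen P) (h3 : (3 : F) ≠ 0)
    {π : P →* alternatingGroup (Fin 7)} (hπ : Cov P π) : Fintype.card F = 7 := by
  have key : ¬ Qd π (t 0 1 2 * t 3 4 5) := fun H => by
    obtain ⟨y, h1, h2⟩ := H.conj h hπ (t 0 3 2 * t 3 4 6)
    obtain ⟨x, h4, h5⟩ := H
    obtain ⟨K, h6, h7⟩ := exists_sub h hπ (p := (· ∈ Algebra.adjoin F {x, y})) (one_mem _)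
      (fun _ _ => mul_mem) fun _ => neg_mem
    have a := h6 x _ h4 (Algebra.subset_adjoin (by simp))
    have b := h6 y _ h1 (Algebra.subset_adjoin (by simp))
    have h10 : ∀ (l : List ℕ) {σ}, (l.map fun c => if c = 1 then t 0 1 2 * t 3 4 5 else
        t 0 3 2 * t 3 4 6 * (t 0 1 2 * t 3 4 5) * (t 0 3 2 * t 3 4 6)⁻¹).prod = σ → σ ∈ K :=
      fun l _ e => e ▸ K.list_prod_mem (by
        simp only [List.mem_map]; rintro _ ⟨c, -, rfl⟩; split_ifs; exacts [a, b])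
    refine h.q2 (a := -1) (b := -1) (c := -1) (d := -1) (by rw [h5]; module) (by rw [h2]; module)
      fun g hg => (R.of_mem hg).elim fun σ hσ => h7 g σ hσ (Pr.alt_mem_of_cyc3 zero_ne_one
        (U := Finset.univ) (fun i _ h8 h9 => ?_) fun a ha => (ha (Finset.mem_univ a)).elim)
    fin_cases i
    · exact (h8 rfl).elim
    · exact (h9 rfl).elim
    · exact h10 (σ := t 0 1 2) [1, 1, 0, 1, 0, 1, 1, 0, 0, 1, 1, 0, 1, 0]
        (by decide +kernel)
    · exact h10 (σ := t 0 1 3) [1, 0, 1, 0, 0, 1, 1, 0, 0, 1, 0, 1, 0]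
        (by decide +kernel)
    · exact h10 (σ := t 0 1 4) [1, 0, 0, 1, 0, 1, 0, 1, 1, 0, 1, 1, 0, 1, 0]
        (by decide +kernel)
    · exact h10 (σ := t 0 1 5) [0, 1, 1, 0, 1, 0, 1, 1, 0, 1, 0, 0, 1, 0, 0]
        (by decide +kernel)
    · exact h10 (σ := t 0 1 6) [0, 1, 0, 0, 1, 0]
        (by decide +kernel)
  rcases dich h hπ h3 (σ := t 0 1 2) (τ := t 3 4 5) (by decide) (by decide) (by decide) (by decide)
    (by decide) (by decide) (by decide) with H | H | H | H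
  · exact seven h hD ht h3 hπ (qd_gn (m := 5) h hπ (by decide) (Sym.isThreeCycle_cyc3 (by decide)
      (by decide) (by decide)) H)
  · exact seven h hD ht h3 hπ (qd_gn (m := 5) h hπ (by decide) (Sym.isThreeCycle_cyc3 (by decide)
      (by decide) (by decide)) H)
  · exact (key H).elim
  · exact (key (by convert H.conj h hπ (t 0 1 3 * t 0 1 4 * t 2 5 3) using 1; decide)).elim

end Cfsg.Agent.Cl.S4O
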