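import Mathlib
import Cfsg.Agent.Cl.S4OBase
import Cfsg.Agent.Cl.D3DL
import Cfsg.Agent.Cl.AutBase
import Cfsg.Agent.Cl.PSL2Solv

/-!
# Angles between involutions: rank three subsystems and Dickson's theorem
-/

set_option autoImplicit false
set_option linter.unusedSectionVars false
set_option linter.unusedVariables false
set_option linter.ambiguousOpen false

namespace Cfsg.Agent.Cl.S4O

open Matrix Low Max Mx Geo L2
open scoped MatrixGroups

variable {F : Type*} [Field F] {P : Subgroup (GL I4 F)} {h s e e' x d r N : M4 F}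

/-- The squares of the allowed values of the form. -/
def N5 (c : F) : Prop := c = 0 ∨ c = 1 ∨ c = 2 ∨ c = 4 ∨ c ^ 2 - 3 * c + 1 = 0

/-- A split quaternion algebra inside the matrix algebra. -/
structure Quat (h s : M4 F) : Prop where
  two : (2 : F) ≠ 0
  hh : h * h = 1
  ss : s * s = 1
  sh : s * h = -(h * s)
  adh : ad h = -h
  ads : ad s = -s

namespace Quat

/-- The embedding of the two by two matrices. -/
noncomputable def th (h s : M4 F) (A : M2 F) : M4 F :=
  ((A 0 0 + A 1 1) / 2) • (1 : M4 F) + ((A 0 0 - A 1 1) / 2) • h + ((A 0 1 + A 1 0) / 2) • s +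
    ((A 0 1 - A 1 0) / 2) • (h * s)

theorem th_mul (q : Quat h s) (A C : M2 F) : th h s (A * C) = th h s A * th h s C := by
  have e1 : h * (h * s) = s := by rw [← Matrix.mul_assoc, q.hh, Matrix.one_mul]
  have e2 : h * s * s = h := by rw [Matrix.mul_assoc, q.ss, Matrix.mul_one]
  have e3 : s * (h * s) = -h := by rw [← Matrix.mul_assoc, q.sh, neg_mul, e2]
  have e4 : h * s * h = -s := by rw [Matrix.mul_assoc, q.sh, mul_neg, e1]
  have e5 : h * s * (h * s) = -1 := by rw [← Matrix.mul_assoc, e4, neg_mul, q.ss]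
  have := q.two
  simp only [th, mul_apply, Fin.sum_univ_two, mul_add, add_mul, smul_mul_assoc, mul_smul_comm,
    Matrix.one_mul, Matrix.mul_one, q.hh, q.ss, q.sh, e1, e2, e3, e4, e5]
  match_scalars <;> field_simp <;> ring

theorem th_one (q : Quat h s) : th h s 1 = 1 := by
  have := q.two
  simp only [th, one_apply_eq, ne_eq, zero_ne_one, not_false_eq_true, one_apply_ne, one_ne_zero]
  match_scalars <;> field_simp <;> ring

theorem th_add (A C : M2 F) : th h s (A + C) = th h s A + th h s C := by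
  simp only [th, Matrix.add_apply]
  match_scalars <;> ring

theorem th_smul (c : F) (A : M2 F) : th h s (c • A) = c • th h s A := by
  simp only [th, Matrix.smul_apply, smul_eq_mul]
  match_scalars <;> ring

/-- The embedding as a homomorphism. -/
noncomputable def hom (q : Quat h s) : M2 F →* M4 F := ⟨⟨th h s, q.th_one⟩, q.th_mul⟩

theorem tr_zero (h2 : (2 : F) ≠ 0) (hx : ad x = -x) : x.trace = 0 := by
  have := trace_ad x
  rw [hx, trace_neg] at this
  exact (mul_eq_zero.1 (show 2 * x.trace = 0 by linear_combination -this)).resolve_left h2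

theorem adhs (q : Quat h s) : ad (h * s) = -(h * s) := by
  rw [ad_mul, q.adh, q.ads, neg_mul_neg, q.sh]

theorem trace_th (q : Quat h s) (A : M2 F) : (th h s A).trace = 2 * A.trace := by
  have := q.two
  simp only [th, trace_add, trace_smul, trace_one4, tr_zero q.two q.adh, tr_zero q.two q.ads,
    tr_zero q.two q.adhs, trace_fin_two, smul_eq_mul]
  field_simp
  ring

theorem ad_th (q : Quat h s) (A : M2 F) : ad (th h s A) = th h s (adjugate A) := by
  simp only [th, ad_add, ad_smul, ad_one, q.adh, q.ads, q.adhs, adjugate_fin_two, of_apply,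
    cons_val', cons_val_zero, cons_val_one, cons_val_fin_one]
  match_scalars <;> ring

theorem th_eq_zero (q : Quat h s) {A : M2 F} (hA : th h s A = 0) : A = 0 := by
  ext i j
  have := q.trace_th (A * single j i 1)
  rw [q.th_mul, hA, Matrix.zero_mul, trace_zero, trace_mul_single] at this
  simpa [q.two] using this

theorem th_inj (q : Quat h s) {A C : M2 F} (hA : th h s A = th h s C) : A = C := by
  refine sub_eq_zero.1 (q.th_eq_zero ?_)
  rw [sub_eq_add_neg, th_add, ← neg_one_smul F, th_smul, hA]; simp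

/-- Dickson's theorem for the group of units of the quaternion algebra inside `P`. -/
theorem five [Finite F] (q : Quat h s) (hP : Ctx P) (hs : Small P) {A₁ A₂ A : M2 F}
    (m₀ : Mem P (h * s)) (m₁ : Mem P (th h s A₁)) (m₂ : Mem P (th h s A₂)) (m : Mem P (th h s A))
    (t₁ : A₁.trace ≠ 0) (t₂ : A₂.trace ≠ 0) (hc : A₁ * A₂ ≠ A₂ * A₁)
    (h0 : (A₁ 0 0 - A₁ 1 1) ^ 2 + (A₁ 0 1 + A₁ 1 0) ^ 2 ≠ 0) : N5 (A.trace ^ 2) := by
  have h2 := q.two
  obtain ⟨p, hp⟩ := CharP.exists F
  haveI : Fact p.Prime := ⟨CharP.char_is_prime F p⟩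
  let L : Subgroup (GL (Fin 2) F) := P.comap (Units.map q.hom)
  have hdet : ∀ C : M2 F, Mem P (th h s C) → C.det = 1 := fun C hC => by
    have := hP.ad_mul hC
    rw [q.ad_th, ← q.th_mul, adjugate_mul, th_smul, q.th_one] at this
    exact smul_one_inj (this.trans (one_smul _ _).symm)
  have hne : ∀ {C : M2 F}, Mem P (th h s C) → C.det ≠ 0 := fun hC => by
    rw [hdet _ hC]; exact one_ne_zero
  have hH : ∀ {C : M2 F}, Mem P (th h s C) → pm C ∈ L.map ProjGenLinGroup.mk := fun {C} hC => by
    refine ⟨GeneralLinearGroup.mkOfDetNeZero C (hne hC), ?_, (pm_of_ne _).symm⟩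
    exact mem_coe_iff.1 hC
  have ht : tau (pm A) = A.trace ^ 2 := by rw [tau_pm (hne m), hdet _ m, div_one]
  have hord : ∀ {G : Type} [Group G], (∀ g : G, g = 1 ∨ orderOf g = 2 ∨ orderOf g = 3 ∨
      orderOf g = 4 ∨ orderOf g = 5) → Nonempty (L.map ProjGenLinGroup.mk ≃* G) →
      N5 (A.trace ^ 2) := fun hG ⟨φ⟩ => by
    have e : orderOf (φ ⟨_, hH m⟩) = orderOf (pm A) := by
      rw [MulEquiv.orderOf_eq, ← Subgroup.orderOf_coe]
    rw [← ht]
    rcases hG (φ ⟨_, hH m⟩) with e' | e' | e' | e' | e'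
    · rw [e', orderOf_one, eq_comm, orderOf_eq_one_iff] at e
      exact .inr (.inr (.inr (.inl (e ▸ tau_one))))
    · exact .inl (tau_of_orderOf_two (e ▸ e'))
    · exact .inr (.inl (tau_of_orderOf_three (e ▸ e')))
    · exact .inr (.inr (.inl (tau_of_orderOf_four (e ▸ e')).1))
    · exact .inr (.inr (.inr (.inr (tau_of_orderOf_five (e ▸ e')))))
  have ho : ∀ {G : Type} [Group G], (∀ g : G, g ^ 2 = 1 ∨ g ^ 3 = 1 ∨ g ^ 4 = 1 ∨ g ^ 5 = 1) →
      ∀ g : G, g = 1 ∨ orderOf g = 2 ∨ orderOf g = 3 ∨ orderOf g = 4 ∨ orderOf g = 5 :=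
    fun hG g => by
      rw [← orderOf_eq_one_iff]
      rcases hG g with e | e | e | e <;>
      · have h1 := orderOf_dvd_of_pow_eq_one e
        have h3 := Nat.le_of_dvd (by norm_num) h1
        have h4 := Nat.pos_of_dvd_of_pos h1 (by norm_num)
        omega
  have a4 := hord (ho (G := alternatingGroup (Fin 4)) (by decide +kernel))
  have s4 := hord (ho (G := Equiv.Perm (Fin 4)) (by decide +kernel))
  have a5 := hord (ho (G := alternatingGroup (Fin 5)) (by decide +kernel))
  rcases dickson_pgl p (L.map ProjGenLinGroup.mk) with ⟨y, hy⟩ | ⟨g, -, hg, hle⟩ |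
    ⟨-, H | H | H⟩ | ⟨-, H⟩ | ⟨k, c, -, H⟩
  · exfalso
    have mJ : Mem P (th h s !![0, 1; -1, 0]) := by
      convert m₀ using 1
      simp only [th, of_apply, cons_val', cons_val_zero, cons_val_one, cons_val_fin_one]
      match_scalars <;> field_simp <;> ring
    induction y using Projectivization.ind with
    | h v hv =>
      have e1 := (pm_smul_mk_eq_iff (hne mJ) hv hv).1 (hy _ (hH mJ))
      have e2 := (pm_smul_mk_eq_iff (hne m₁) hv hv).1 (hy _ (hH m₁))
      simp only [of_apply, cons_val', cons_val_zero, cons_val_one, cons_val_fin_one] at e1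
      have h3 : v 0 ≠ 0 := fun h3 => hv (by
        ext i; fin_cases i
        · exact h3
        · exact pow_eq_zero_iff two_ne_zero |>.1 (show v 1 ^ 2 = 0 by grind))
      grind
  · have key : ∀ {C : M2 F}, Mem P (th h s C) → C.trace ≠ 0 → pm C ∈ tor g := fun {C} hC hT => by
      by_contra hn
      have := tau_eq_zero_of_mem_ntor hg (hle (hH hC)) hn
      rw [tau_pm (hne hC), hdet _ hC, div_one] at this
      exact hT (pow_eq_zero_iff two_ne_zero |>.1 this)
    exact absurd ((pm_mem_tor (hne m₁) (hne m₂)).1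
      (mem_tor_of_mem_tor (ne_one_of_tau hg) (key m₁ t₁) (key m₂ t₂))) hc
  · exact a4 H
  · exact s4 H
  · exact a5 H
  · exact a5 H
  have hle : L2.cj c (subPSL k) ≤ L.map ProjGenLinGroup.mk ∧
      L.map ProjGenLinGroup.mk ≤ L2.cj c (subPGL k) := by
    rcases H with H | H <;> rw [H]
    · exact ⟨le_rfl, fun g hg => mem_cj.2 (subPSL_le_subPGL k (mem_cj.1 hg))⟩
    · exact ⟨fun g hg => mem_cj.2 (subPSL_le_subPGL k (mem_cj.1 hg)), le_rfl⟩
  obtain ⟨C, hC, rfl⟩ := exists_pm c
  let E : M2 F := C * !![0, 1; 0, 0] * C⁻¹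
  have hCi : C⁻¹ * C = 1 := nonsing_inv_mul _ hC.isUnit
  have hE : E * E = 0 := by
    have : (!![0, 1; 0, 0] : M2 F) * !![0, 1; 0, 0] = 0 := by
      ext i j; fin_cases i <;> fin_cases j <;> simp
    simp only [E]
    linear_combination (norm := noncomm_ring) C * !![0, 1; 0, 0] * hCi * (!![0, 1; 0, 0] * C⁻¹) +
      C * this * C⁻¹
  have hE0 : th h s E ≠ 0 := fun h0 => by
    have : C⁻¹ * E * C = !![0, 1; 0, 0] := by
      simp only [E]
      linear_combination (norm := noncomm_ring) hCi * !![0, 1; 0, 0] * (C⁻¹ * C) +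
        !![0, 1; 0, 0] * hCi
    rw [q.th_eq_zero h0] at this
    simpa using congrFun (congrFun this 0) 1
  have hm : ∀ a ∈ k, Mem P (1 + a • th h s E) := fun a ha => by
    have e1 : C * !![1, a; 0, 1] = (1 + a • E) * C := by
      have : (!![1, a; 0, 1] : M2 F) = 1 + a • !![0, 1; 0, 0] := by
        ext i j; fin_cases i <;> fin_cases j <;> simp
      rw [this, add_mul, smul_mul_assoc, Matrix.mul_assoc, hCi, mul_add, mul_smul_comm,
        Matrix.mul_one, Matrix.mul_one, Matrix.one_mul]
    have e2 : (1 + a • E).det ≠ 0 := fun h0 => by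
      have := congrArg det e1
      rw [det_mul, det_mul, h0, zero_mul] at this
      exact mul_ne_zero hC (aff_det one_ne_zero a) this
    have := hle.1 (conj_mem_cj.2 (aff_mem_subPSL ha))
    rw [aff, pm_conj (aff_det one_ne_zero a) hC e1,
      D3.dl_lift (by rw [smul_mul_smul_comm, hE, smul_zero]) e2] at this
    obtain ⟨g, hg, e⟩ := this
    refine ⟨_, hg, ?_⟩
    change th h s g = _
    rw [e, th_add, th_smul, q.th_one]
  have hEE : th h s E * th h s E = 0 := by
    rw [← q.th_mul, hE, ← zero_smul F (0 : M2 F), th_smul, zero_smul]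
  have hk : ∀ a ∈ k, a = 0 ∨ a = 1 ∨ a = -1 := fun a ha => by
    have := hs _ _ (by simpa using hm 1 k.one_mem) (hm a ha) hEE
      (by rw [smul_mul_smul_comm, hEE, smul_zero]) hE0 (by simp)
    refine this.imp (fun e => ?_) (Or.imp (fun e => ?_) fun e => ?_) <;>
      refine smul_left_injective F hE0 ?_ <;> simpa using e
  rcases hk _ (ht ▸ tau_mem_of_mem_cj (hle.2 (hH m))) with e | e | e
  · exact .inl e
  · exact .inr (.inl e)
  · refine .inr (.inr (.inl ?_))
    rcases hk (1 + 1) (k.add_mem k.one_mem k.one_mem) with e' | e' | e' <;> grind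

end Quat

/-- The degenerate case of a rank three subsystem does not occur. -/
theorem not_deg (hP : Ctx P) (hs : Small P) (he : D P e) (he' : D P e') (h0 : ip e e' = 0)
    (hr : W r) (r1 : ip e r = 0) (r2 : ip e' r = 0) {α β : F} (hα : α ≠ 0) (hβ : β ≠ 0)
    (hd : D P (α • e + β • e' + r)) (hrr : r * r = 0) : r = 0 := by
  have h2 := hP.two
  have a1 := ((he'.w hP).ip_eq_zero_iff h2 (he.w hP)).1 (by rwa [ip_comm])
  have a2 := (hr.ip_eq_zero_iff h2 (he.w hP)).1 (by rwa [ip_comm])
  have a3 := (hr.ip_eq_zero_iff h2 (he'.w hP)).1 (by rwa [ip_comm])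
  have key : ∀ {α β : F}, D P (α • e + β • e' + r) → D P (-α • e + β • e' + r) ∧
      D P (α • e + -β • e' + r) ∧ (α • e + β • e') * (α • e + β • e') = 1 := fun {α β} hd => by
    refine ⟨?_, ?_, ?_⟩
    · convert he.refl hP hd using 1
      simp only [ip_add_right, ip_smul_right, he.ip_self hP, h0, r1]; module
    · convert he'.refl hP hd using 1
      simp only [ip_add_right, ip_smul_right, he'.ip_self hP, ip_comm e' e, h0, r2]; module
    · rw [← hd.sq]
      simp only [add_mul, mul_add, smul_mul_assoc, mul_smul_comm, a2, a3, hrr]; module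
  have hN : ∀ {α β : F}, D P (α • e + β • e' + r) →
      Mem P (1 + (-2 : F) • ((α • e + β • e') * r)) := fun {α β} hd => by
    convert hd.mem.mul ((key (key hd).1).2.1.neg hP).mem using 1
    rw [← (key hd).2.2]
    simp only [add_mul, mul_add, smul_mul_assoc, mul_smul_comm, a2, a3, hrr, mul_neg]; module
  have hz : ∀ a b c d : F, (-2 : F) • ((a • e + b • e') * r) * (-2 : F) • ((c • e + d • e') * r) = 0 :=
    fun a b c d => by
      have : r * (c • e + d • e') = -((c • e + d • e') * r) := by
        simp only [add_mul, mul_add, smul_mul_assoc, mul_smul_comm, a2, a3]; module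
      rw [smul_mul_smul_comm, Matrix.mul_assoc, ← Matrix.mul_assoc r, this, Matrix.neg_mul,
        Matrix.mul_assoc, hrr]
      simp
  have c0 : ∀ {x : M4 F} {c : F}, x * x = 1 → c ≠ 0 → c • (x * r) = 0 → r = 0 :=
    fun {x c} hx hc h => by
      rw [← Matrix.one_mul r, ← hx, Matrix.mul_assoc, (smul_eq_zero.1 h).resolve_left hc,
        Matrix.mul_zero]
  by_contra hr0
  have h4 := four_ne h2
  rcases hs _ _ (hN hd) (hN (key hd).1) (hz ..) (hz ..)
    (fun h => hr0 (c0 (key hd).2.2 (neg_ne_zero.2 h2) h)) (by rw [hz, hz]) with h | h | h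
  · exact hr0 (c0 (key (key hd).1).2.2 (neg_ne_zero.2 h2) h)
  · refine hr0 (c0 he.sq (mul_ne_zero h4 hα) ?_)
    simp only [add_mul, smul_mul_assoc] at h
    linear_combination (norm := module) h
  · refine hr0 (c0 he'.sq (mul_ne_zero h4 hβ) ?_)
    simp only [add_mul, smul_mul_assoc] at h
    linear_combination (norm := module) -h

/-- The angles in a rank three subsystem. -/
theorem five_core [Finite F] (hP : Ctx P) (hs : Small P) (he : D P e) (he' : D P e')
    (h0 : ip e e' = 0) (hr : W r) (r1 : ip e r = 0) (r2 : ip e' r = 0) (hr0 : r ≠ 0) {α β : F}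
    (hα : α ≠ 0) (hβ : β ≠ 0) (hx : D P (α • e + β • e' + r)) {α' β' γ : F}
    (hd : D P (α' • e + β' • e' + γ • r)) : N5 ((2 * α') ^ 2) := by
  have h2 := hP.two
  have a1 := ((he'.w hP).ip_eq_zero_iff h2 (he.w hP)).1 (by rwa [ip_comm])
  have a2 := (hr.ip_eq_zero_iff h2 (he.w hP)).1 (by rwa [ip_comm])
  have a3 := (hr.ip_eq_zero_iff h2 (he'.w hP)).1 (by rwa [ip_comm])
  obtain ⟨a, b, hab⟩ := Aut.exists_sq_add_sq (-(ip r r / 2))
  have hrr : r * r = -(a ^ 2 + b ^ 2) • (1 : M4 F) := by rw [hr.sq h2, ← hab, neg_neg]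
  have hn : a ^ 2 + b ^ 2 ≠ 0 := fun h =>
    hr0 (not_deg hP hs he he' h0 hr r1 r2 hα hβ hx (by rw [hrr, h, neg_zero, zero_smul]))
  have jj : e * r * (e * r) = (a ^ 2 + b ^ 2) • (1 : M4 F) := by
    have : e * r * (e * r) = -(r * r) := by
      linear_combination (norm := noncomm_ring) e * a2 * r - he.sq * (r * r)
    rw [this, hrr, neg_smul, neg_neg]
  have kk : e' * r * (e' * r) = (a ^ 2 + b ^ 2) • (1 : M4 F) := by
    have : e' * r * (e' * r) = -(r * r) := by
      linear_combination (norm := noncomm_ring) e' * a3 * r - he'.sq * (r * r)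
    rw [this, hrr, neg_smul, neg_neg]
  have jk : e * r * (e' * r) = (a ^ 2 + b ^ 2) • (e * e') := by
    have : e * r * (e' * r) = -(e * e' * (r * r)) := by
      linear_combination (norm := noncomm_ring) e * a3 * r
    rw [this, hrr, mul_smul_comm, Matrix.mul_one]; module
  have kj : e' * r * (e * r) = -((a ^ 2 + b ^ 2) • (e * e')) := by
    have : e' * r * (e * r) = e * e' * (r * r) := by
      linear_combination (norm := noncomm_ring) e' * a2 * r - a1 * (r * r)
    rw [this, hrr, mul_smul_comm, Matrix.mul_one]; module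
  set c := (a ^ 2 + b ^ 2)⁻¹ with hc
  have adj : ad (e * r) = -(e * r) := by rw [ad_mul, hr.ad, he.ad hP, a2]
  have adk : ad (e' * r) = -(e' * r) := by rw [ad_mul, hr.ad, he'.ad hP, a3]
  have hs' : c • (a • (e * r) - b • (e' * r)) * c • (b • (e * r) + a • (e' * r)) = e * e' := by
    simp only [add_mul, mul_add, sub_mul, mul_sub, smul_mul_assoc, mul_smul_comm, jj, kk, jk, kj, hc]
    match_scalars <;> field_simp <;> ring
  have q : Quat (c • (a • (e * r) - b • (e' * r))) (c • (b • (e * r) + a • (e' * r))) := by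
    refine ⟨h2, ?_, ?_, ?_, ?_, ?_⟩
    · simp only [sub_mul, mul_sub, smul_mul_assoc, mul_smul_comm, jj, kk, jk, kj, hc]
      match_scalars <;> field_simp <;> ring
    · simp only [add_mul, mul_add, smul_mul_assoc, mul_smul_comm, jj, kk, jk, kj, hc]
      match_scalars <;> field_simp <;> ring
    · rw [hs']
      simp only [add_mul, mul_add, sub_mul, mul_sub, smul_mul_assoc, mul_smul_comm, jj, kk, jk, kj, hc]
      match_scalars <;> field_simp <;> ring
    · simp only [ad_smul, ad_sub, adj, adk]; module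
    · simp only [ad_smul, ad_add, adj, adk]; module
  have hth : ∀ x y z w : F, Quat.th (c • (a • (e * r) - b • (e' * r)))
      (c • (b • (e * r) + a • (e' * r))) !![x + z * a - w * b, y + z * b + w * a;
        -y + z * b + w * a, x - z * a + w * b] =
      x • (1 : M4 F) + y • (e * e') + z • (e * r) + w • (e' * r) := fun x y z w => by
    rw [Quat.th, hs']
    simp only [of_apply, cons_val', cons_val_zero, cons_val_one, cons_val_fin_one, hc]
    match_scalars <;> field_simp <;> ring
  have := q.five hP hs (A₁ := !![α + 1 * a - 0 * b, β + 1 * b + 0 * a; -β + 1 * b + 0 * a,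
      α - 1 * a + 0 * b]) (A₂ := !![β + 0 * a - 1 * b, -α + 0 * b + 1 * a; - -α + 0 * b + 1 * a,
      β - 0 * a + 1 * b]) (A := !![α' + γ * a - 0 * b, β' + γ * b + 0 * a; -β' + γ * b + 0 * a,
      α' - γ * a + 0 * b]) (hs' ▸ he.mem.mul he'.mem) ?_ ?_ ?_ ?_ ?_ ?_ ?_
  · convert this using 2
    simp [trace_fin_two]; ring
  · convert he.mem.mul hx.mem using 1
    simp only [hth, mul_add, mul_smul_comm, he.sq]; module
  · convert he'.mem.mul hx.mem using 1
    simp only [hth, mul_add, mul_smul_comm, he'.sq, a1]; module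
  · convert he.mem.mul hd.mem using 1
    simp only [hth, mul_add, mul_smul_comm, he.sq]; module
  · simp only [trace_fin_two_of]; grind
  · simp only [trace_fin_two_of]; grind
  · intro h
    have e1 := congrFun (congrFun h 0) 1
    have e2 := congrFun (congrFun h 1) 0
    simp only [mul_apply, Fin.sum_univ_two, of_apply, cons_val', cons_val_zero, cons_val_one,
      cons_val_fin_one] at e1 e2
    exact hn (mul_left_cancel₀ (four_ne h2) (by linear_combination e1 - e2))
  · simp only [of_apply, cons_val', cons_val_zero, cons_val_one, cons_val_fin_one]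
    intro h
    exact hn (mul_left_cancel₀ (four_ne h2) (by linear_combination h))

end Cfsg.Agent.Cl.S4O
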