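import Mathlib
import Cfsg.Agent.Cl.S4ODefs

/-!
# Root systems with a frame: coordinates
-/

set_option autoImplicit false

namespace Cfsg.Agent.Cl.S4O.CR

variable {F : Type*} [Field F] {ι : Type*} {φ : ι → ι → F} {e : Fin 5 → ι}
  {x z a : Fin 5 → F} {c : F}

variable (φ e) in
/-- Coordinate vectors of roots. -/
def Rt (x : Fin 5 → F) : Prop := ∃ a, ∀ i, φ (e i) a = x i

variable (φ e) in
/-- Squares of the coordinates of roots. -/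
def Pat (a : Fin 5 → F) : Prop := ∃ x, Rt φ e x ∧ ∀ i, x i ^ 2 = a i

variable (φ) in
/-- Values of the form on pairs of non-parallel roots. -/
def Occ (c : F) : Prop := ∃ a b, ¬ Par φ a b ∧ φ a b = c

/-- Roots of `y² - 3 y + 1`. -/
def Gold (y : F) : Prop := y ^ 2 - 3 * y + 1 = 0

theorem fr_perm (he : Fr φ e) (σ : Equiv.Perm (Fin 5)) : Fr φ (e ∘ σ) :=
  ⟨fun _ _ hij => he.orth _ _ (σ.injective.ne hij), fun x y => by
    rw [he.pars, ← Equiv.sum_comp σ]; rfl⟩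

theorem fr_dot (he : Fr φ e) {p q : ι} (hp : ∀ i, φ (e i) p = x i) (hq : ∀ i, φ (e i) q = z i) :
    2 * φ p q = ∑ i, x i * z i := by
  rw [he.pars]; simp only [hp, hq]

theorem par_iff (h : RS φ) (he : Fr φ e) {p q : ι} (hp : ∀ i, φ (e i) p = x i)
    (hq : ∀ i, φ (e i) q = z i) : Par φ p q ↔ (∀ i, x i = z i) ∨ ∀ i, x i = -z i := by
  refine or_congr ⟨fun H i => ?_, fun H y => ?_⟩ ⟨fun H i => ?_, fun H y => ?_⟩
  · rw [← hp, ← hq, h.symm, H, h.symm]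
  · refine mul_left_cancel₀ h.two ?_
    rw [he.pars, he.pars]; simp only [hp, hq, H]
  · rw [← hp, ← hq, h.symm, H, h.symm]
  · refine mul_left_cancel₀ h.two ?_
    rw [mul_neg, he.pars, he.pars]; simp only [hp, hq, H, neg_mul, Finset.sum_neg_distrib]

theorem Rt.sum (h : RS φ) (he : Fr φ e) (hx : Rt φ e x) : ∑ i, x i ^ 2 = 4 := by
  obtain ⟨p, hp⟩ := hx
  have := fr_dot he hp hp
  rw [h.self] at this
  simp only [sq, ← this]; norm_num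

theorem Rt.refl (h : RS φ) (he : Fr φ e) (hx : Rt φ e x) (hz : Rt φ e z)
    (hc : 2 * c = ∑ i, x i * z i) : Rt φ e fun i => z i - c * x i := by
  obtain ⟨p, hp⟩ := hx
  obtain ⟨q, hq⟩ := hz
  obtain ⟨r, hr⟩ := h.refl p q
  refine ⟨r, fun i => ?_⟩
  rw [h.symm, hr, h.symm q, h.symm p (e i), hp, hq,
    mul_left_cancel₀ h.two ((fr_dot he hp hq).trans hc.symm)]

theorem fr_coord (h : RS φ) (he : Fr φ e) (i n : Fin 5) :
    φ (e n) (e i) = if n = i then 2 else 0 := by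
  split_ifs with H
  · rw [H, h.self]
  · exact he.orth _ _ H

theorem rt_fr (h : RS φ) (he : Fr φ e) (i : Fin 5) : Rt φ e fun n => if n = i then 2 else 0 :=
  ⟨e i, fr_coord h he i⟩

theorem Rt.flip (h : RS φ) (he : Fr φ e) (hx : Rt φ e x) (i : Fin 5) :
    Rt φ e (Function.update x i (-x i)) := by
  have := (rt_fr h he i).refl h he hx (c := x i) (by simp)
  convert this using 2 with n
  by_cases H : n = i
  · subst H; simp; ring
  · simp [H]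

theorem Rt.of_sq (h : RS φ) (he : Fr φ e) (hx : Rt φ e x) (hz : ∀ i, z i ^ 2 = x i ^ 2) :
    Rt φ e z := by
  classical
  have key : ∀ s : Finset (Fin 5), Rt φ e fun n => if n ∈ s then z n else x n := fun s => by
    induction s using Finset.induction_on with
    | empty => simpa using hx
    | insert i s hi ih =>
      rcases sq_eq_sq_iff_eq_or_eq_neg.1 (hz i) with H | H
      · convert ih using 2 with n
        by_cases H' : n = i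
        · subst H'; simp [hi, H]
        · simp [H']
      · convert ih.flip h he i using 2 with n
        by_cases H' : n = i
        · subst H'; simp [hi, H]
        · simp [H']
  simpa using key Finset.univ

theorem Rt.reflfr (h : RS φ) (he : Fr φ e) (hx : Rt φ e x) (i : Fin 5) :
    Rt φ e fun n => (if n = i then 2 else 0) - x i * x n :=
  hx.refl h he (rt_fr h he i) (by simp [mul_comm])

theorem Rt.occ (h : RS φ) (he : Fr φ e) (hx : Rt φ e x) (hz : Rt φ e z)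
    (hc : 2 * c = ∑ i, x i * z i) (hn : ¬ ((∀ i, x i = z i) ∨ ∀ i, x i = -z i)) : Occ φ c := by
  obtain ⟨p, hp⟩ := hx
  obtain ⟨q, hq⟩ := hz
  exact ⟨p, q, fun H => hn ((par_iff h he hp hq).1 H),
    mul_left_cancel₀ h.two ((fr_dot he hp hq).trans hc.symm)⟩

theorem Rt.occ' (h : RS φ) (he : Fr φ e) (hx : Rt φ e x) (hz : Rt φ e z)
    (hc : 2 * c = ∑ i, x i * z i) (n : Fin 5) (hn : x n ^ 2 ≠ z n ^ 2) : Occ φ c :=
  hx.occ h he hz hc fun H => hn (H.elim (fun H => by rw [H]) fun H => by rw [H, neg_sq])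

theorem Rt.occ_fr (h : RS φ) (he : Fr φ e) (hx : Rt φ e x) {i j : Fin 5} (hij : j ≠ i)
    (hj : x j ≠ 0) : Occ φ (x i) :=
  hx.occ' h he (rt_fr h he i) (by simp [mul_comm]) j (by simpa [hij] using hj)

theorem Rt.sq_four (h : RS φ) (he : Fr φ e) (hx : Rt φ e x) {i : Fin 5}
    (hi : ∀ n, n ≠ i → x n = 0) : x i ^ 2 = 4 := by
  rw [← hx.sum h he, Finset.sum_eq_single i (fun n _ hn => by simp [hi n hn]) (by simp)]

theorem Occ.at (h : RS φ) (he : Fr φ e) (hc : Occ φ c) (i : Fin 5) :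
    ∃ w, Rt φ e w ∧ w i = c ∧ ∃ j, j ≠ i ∧ w j ≠ 0 := by
  obtain ⟨p, q, hpq, rfl⟩ := hc
  obtain ⟨d, hd, e1⟩ := h.trans p (e i) q hpq
  refine ⟨fun n => φ (e n) d, ⟨d, fun _ => rfl⟩, e1, ?_⟩
  by_contra H
  push Not at H
  have h4 := Rt.sq_four h he ⟨d, fun _ => rfl⟩ H
  refine hd ((par_iff h he (fr_coord h he i) fun _ => rfl).2 ?_)
  have h5 : (2 : F) ^ 2 = φ (e i) d ^ 2 := by rw [h4]; norm_num
  refine (sq_eq_sq_iff_eq_or_eq_neg.1 h5).imp (fun H' n => ?_) fun H' n => ?_ <;>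
  · split_ifs with H1
    · rw [H1]; exact H'
    · simp [H n H1]

theorem Occ.val (h : RS φ) (hc : Occ φ c) :
    c ^ 2 = 0 ∨ c ^ 2 = 1 ∨ c ^ 2 = 2 ∨ c ^ 2 = 4 ∨ Gold (c ^ 2) := by
  obtain ⟨p, q, -, rfl⟩ := hc
  exact h.five p q

theorem exists_occ (h : RS φ) : ∃ c, c ≠ 0 ∧ Occ φ c := by
  obtain ⟨p, q, h1, h2⟩ := h.nontriv
  exact ⟨_, h1, p, q, h2, rfl⟩

theorem Rt.occ_all (h : RS φ) (he : Fr φ e) (hx : Rt φ e x) {i j : Fin 5} (hij : j ≠ i)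
    (hi : x i ≠ 0) (hj : x j ≠ 0) (n : Fin 5) : Occ φ (x n) := by
  by_cases H : j = n
  · exact hx.occ_fr h he (H ▸ hij.symm) hi
  · exact hx.occ_fr h he H hj

theorem Rt.pat (hx : Rt φ e x) (ha : ∀ i, x i ^ 2 = a i) : Pat φ e a := ⟨x, hx, ha⟩

theorem Pat.rt (h : RS φ) (he : Fr φ e) (ha : Pat φ e a) (hz : ∀ i, z i ^ 2 = a i) : Rt φ e z := by
  obtain ⟨x, hx, H⟩ := ha
  exact hx.of_sq h he fun i => by rw [hz, H]

theorem Pat.at (ha : Pat φ e a) (σ : Equiv.Perm (Fin 5)) :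
    Pat φ (e ∘ σ) ![a (σ 0), a (σ 1), a (σ 2), a (σ 3), a (σ 4)] := by
  obtain ⟨x, ⟨p, hp⟩, H⟩ := ha
  exact ⟨x ∘ σ, ⟨p, fun i => hp _⟩, fun i => by fin_cases i <;> exact H _⟩

theorem Pat.of_at {σ : Equiv.Perm (Fin 5)} {b : Fin 5 → F} (hb : Pat φ (e ∘ σ) b)
    (ha : ∀ n, a (σ n) = b n) : Pat φ e a := by
  obtain ⟨x, ⟨p, hp⟩, H⟩ := hb
  refine ⟨x ∘ σ.symm, ⟨p, fun i => ?_⟩, fun i => ?_⟩
  · simpa using hp (σ.symm i)
  · simpa [H] using (ha (σ.symm i)).symm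

section Five

variable {x0 x1 x2 x3 x4 z0 z1 z2 z3 z4 a0 a1 a2 a3 a4 : F}

theorem Pat.rt5 (h : RS φ) (he : Fr φ e) (ha : Pat φ e ![a0, a1, a2, a3, a4]) (h0 : z0 ^ 2 = a0)
    (h1 : z1 ^ 2 = a1) (h2 : z2 ^ 2 = a2) (h3 : z3 ^ 2 = a3) (h4 : z4 ^ 2 = a4) :
    Rt φ e ![z0, z1, z2, z3, z4] :=
  ha.rt h he fun i => by fin_cases i <;> assumption

theorem Pat.sq5 (ha : Pat φ e ![a0, a1, a2, a3, a4]) : ∃ x0 x1 x2 x3 x4 : F,
    x0 ^ 2 = a0 ∧ x1 ^ 2 = a1 ∧ x2 ^ 2 = a2 ∧ x3 ^ 2 = a3 ∧ x4 ^ 2 = a4 := by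
  obtain ⟨x, -, H⟩ := ha
  exact ⟨_, _, _, _, _, H 0, H 1, H 2, H 3, H 4⟩

theorem Rt.pat5 (hz : Rt φ e ![z0, z1, z2, z3, z4]) (h0 : z0 ^ 2 = a0)
    (h1 : z1 ^ 2 = a1) (h2 : z2 ^ 2 = a2) (h3 : z3 ^ 2 = a3) (h4 : z4 ^ 2 = a4) :
    Pat φ e ![a0, a1, a2, a3, a4] :=
  hz.pat fun i => by fin_cases i <;> assumption

theorem Rt.refl5 (h : RS φ) (he : Fr φ e) (hx : Rt φ e ![x0, x1, x2, x3, x4])
    (hz : Rt φ e ![z0, z1, z2, z3, z4])
    (hc : 2 * c = x0 * z0 + x1 * z1 + x2 * z2 + x3 * z3 + x4 * z4) :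
    Rt φ e ![z0 - c * x0, z1 - c * x1, z2 - c * x2, z3 - c * x3, z4 - c * x4] := by
  convert hx.refl h he hz (c := c) (by simpa [Fin.sum_univ_five] using hc) using 2 with n
  fin_cases n <;> rfl

theorem Rt.occ5 (h : RS φ) (he : Fr φ e) (hx : Rt φ e ![x0, x1, x2, x3, x4])
    (hz : Rt φ e ![z0, z1, z2, z3, z4])
    (hc : 2 * c = x0 * z0 + x1 * z1 + x2 * z2 + x3 * z3 + x4 * z4)
    (hn : x0 ^ 2 ≠ z0 ^ 2 ∨ x1 ^ 2 ≠ z1 ^ 2 ∨ x2 ^ 2 ≠ z2 ^ 2 ∨ x3 ^ 2 ≠ z3 ^ 2 ∨ x4 ^ 2 ≠ z4 ^ 2) :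
    Occ φ c := by
  have hc' : 2 * c = ∑ i, ![x0, x1, x2, x3, x4] i * ![z0, z1, z2, z3, z4] i := by
    simpa [Fin.sum_univ_five] using hc
  rcases hn with H | H | H | H | H
  exacts [hx.occ' h he hz hc' 0 H, hx.occ' h he hz hc' 1 H, hx.occ' h he hz hc' 2 H,
    hx.occ' h he hz hc' 3 H, hx.occ' h he hz hc' 4 H]

/-- Reflection of the first frame vector. -/
theorem Pat.refl0 (h : RS φ) (he : Fr φ e) (ha : Pat φ e ![a0, a1, a2, a3, a4]) :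
    Pat φ e ![(2 - a0) ^ 2, a0 * a1, a0 * a2, a0 * a3, a0 * a4] := by
  obtain ⟨x, hx, H⟩ := ha
  refine (hx.reflfr h he 0).pat fun i => ?_
  have h0 : x 0 ^ 2 = a0 := H 0
  have h1 : x 1 ^ 2 = a1 := H 1
  have h2 : x 2 ^ 2 = a2 := H 2
  have h3 : x 3 ^ 2 = a3 := H 3
  have h4 : x 4 ^ 2 = a4 := H 4
  fin_cases i <;> simp [← h0, ← h1, ← h2, ← h3, ← h4] <;> ring

/-- A root of shape `(r, r, 0, 0, 0)` swaps the first two coordinates. -/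
theorem Pat.swap01 (h : RS φ) (he : Fr φ e) (hq : Pat φ e ![2, 2, 0, 0, 0])
    (ha : Pat φ e ![a0, a1, a2, a3, a4]) : Pat φ e ![a1, a0, a2, a3, a4] := by
  obtain ⟨r, -, -, -, -, hr, -⟩ := hq.sq5
  obtain ⟨x0, x1, x2, x3, x4, h0, h1, h2, h3, h4⟩ := ha.sq5
  have h5 := (hq.rt5 h he hr hr (z2 := 0) (z3 := 0) (z4 := 0) (by simp) (by simp) (by simp)).refl5
    h he (ha.rt5 h he h0 h1 h2 h3 h4) (c := r * (x0 + x1) / 2) (by have := h.two; field_simp; ring)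
  have h6 : r * (x0 + x1) / 2 * r = x0 + x1 := by
    have := h.two
    field_simp
    linear_combination (x0 + x1) * hr
  exact h5.pat5 (by rw [h6, ← h1]; ring) (by rw [h6, ← h0]; ring) (by simpa) (by simpa) (by simpa)

end Five

/-- Three distinct indices. -/
abbrev D3 (i j k : Fin 5) : Prop := i ≠ j ∧ i ≠ k ∧ j ≠ k

/-- Five distinct indices. -/
abbrev D5 (i j k l m : Fin 5) : Prop :=
  D3 i j k ∧ (i ≠ l ∧ j ≠ l ∧ k ≠ l) ∧ i ≠ m ∧ j ≠ m ∧ k ≠ m ∧ l ≠ m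

theorem perm5 {i j k l m : Fin 5} (h : D5 i j k l m) :
    ∃ σ : Equiv.Perm (Fin 5), σ 0 = i ∧ σ 1 = j ∧ σ 2 = k ∧ σ 3 = l ∧ σ 4 = m := by
  have : Function.Injective ![i, j, k, l, m] := fun p q => by
    fin_cases p <;> fin_cases q <;> simp <;> tauto
  exact ⟨Equiv.ofBijective _ (Finite.injective_iff_bijective.1 this), rfl, rfl, rfl, rfl, rfl⟩

theorem perm4 {i j k l : Fin 5} (h : D3 i j k) (h' : i ≠ l ∧ j ≠ l ∧ k ≠ l) :
    ∃ σ : Equiv.Perm (Fin 5), σ 0 = i ∧ σ 1 = j ∧ σ 2 = k ∧ σ 3 = l := by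
  obtain ⟨m, hm⟩ : ∃ m, D5 i j k l m := by revert i j k l; decide +kernel
  obtain ⟨σ, h0, h1, h2, h3, -⟩ := perm5 hm
  exact ⟨σ, h0, h1, h2, h3⟩

theorem perm3 {i j k : Fin 5} (h : D3 i j k) :
    ∃ σ : Equiv.Perm (Fin 5), σ 0 = i ∧ σ 1 = j ∧ σ 2 = k := by
  obtain ⟨l, hl⟩ : ∃ l, i ≠ l ∧ j ≠ l ∧ k ≠ l := by revert i j k; decide +kernel
  obtain ⟨σ, h0, h1, h2, -⟩ := perm4 h hl
  exact ⟨σ, h0, h1, h2⟩

theorem perm2 {i j : Fin 5} (h : i ≠ j) : ∃ σ : Equiv.Perm (Fin 5), σ 0 = i ∧ σ 1 = j := by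
  obtain ⟨k, hk⟩ : ∃ k, D3 i j k := by revert i j; decide +kernel
  obtain ⟨σ, h0, h1, -⟩ := perm3 hk
  exact ⟨σ, h0, h1⟩

/-- The pattern with `2` at two places. -/
def pQ (j k n : Fin 5) : F := if n = j ∨ n = k then 2 else 0

/-- The pattern of support three. -/
def p3 (a b c : F) (i j k n : Fin 5) : F :=
  if n = i then a else if n = j then b else if n = k then c else 0

/-- The pattern with four ones. -/
def pP (m n : Fin 5) : F := if n = m then 0 else 1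

theorem pQ_comm (j k : Fin 5) : (pQ j k : Fin 5 → F) = pQ k j := by
  ext n; simp only [pQ, or_comm]

theorem p3_swap {i j k : Fin 5} (h : D3 i j k) (a b c : F) : p3 a b c i j k = p3 a c b i k j := by
  ext n
  obtain ⟨-, -, h3⟩ := h
  by_cases h1 : n = j <;> by_cases h2 : n = k <;> simp_all [p3]

theorem p3_rot {i j k : Fin 5} (h : D3 i j k) (a b c : F) : p3 a b c i j k = p3 c a b k i j := by
  ext n
  obtain ⟨h1, h2, h3⟩ := h
  by_cases h4 : n = i <;> by_cases h5 : n = j <;> by_cases h6 : n = k <;> simp_all [p3]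

theorem Pat.swap (h : RS φ) (he : Fr φ e) {j k : Fin 5} (hjk : j ≠ k) (hq : Pat φ e (pQ j k))
    (ha : Pat φ e a) : Pat φ e (a ∘ Equiv.swap j k) := by
  obtain ⟨σ, rfl, rfl⟩ := perm2 hjk
  have h1 := hq.at σ
  simp [pQ] at h1
  refine (h1.swap01 h (fr_perm he σ) (ha.at σ)).of_at fun n => ?_
  fin_cases n <;> simp [Equiv.swap_apply_of_ne_of_ne]

theorem Pat.rot (h : RS φ) (he : Fr φ e) {y : F} (hy : Gold y) {i j k : Fin 5} (hD : D3 i j k)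
    (ha : Pat φ e (p3 y (3 - y) 1 i j k)) : Pat φ e (p3 y (3 - y) 1 k i j) := by
  obtain ⟨σ, rfl, rfl, rfl⟩ := perm3 hD
  have h1 := (ha.at σ).refl0 h (fr_perm he σ)
  refine h1.of_at fun n => ?_
  unfold Gold at hy
  fin_cases n <;> simp [p3]
  · linear_combination -hy
  · linear_combination hy

theorem Pat.q_of_r (h : RS φ) (he : Fr φ e) {i j k : Fin 5} (hD : D3 i j k)
    (ha : Pat φ e (p3 2 1 1 i j k)) : Pat φ e (pQ j k) := by
  obtain ⟨σ, rfl, rfl, rfl⟩ := perm3 hD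
  have h1 := (ha.at σ).refl0 h (fr_perm he σ)
  refine h1.of_at fun n => ?_
  fin_cases n <;> simp [p3, pQ]

theorem Pat.qq (h : RS φ) (he : Fr φ e) {i j k : Fin 5} (hD : D3 i j k)
    (h1 : Pat φ e (pQ i j)) (h2 : Pat φ e (pQ i k)) : Occ φ 1 := by
  obtain ⟨σ, rfl, rfl, rfl⟩ := perm3 hD
  have h3 := h1.at σ
  have h4 := h2.at σ
  simp [pQ] at h3 h4
  obtain ⟨r, -, -, -, -, hr, -⟩ := h3.sq5
  have z : (0 : F) ^ 2 = 0 := by simp
  refine (h3.rt5 h (fr_perm he σ) hr hr z z z).occ5 h (fr_perm he σ)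
    (h4.rt5 h (fr_perm he σ) hr z hr z z) (by linear_combination -hr) (Or.inr (Or.inl ?_))
  rw [hr, z]; exact h.two

theorem exists_qq (h : RS φ) (he : Fr φ e) (hq : ∀ v, ∃ k, v ≠ k ∧ Pat φ e (pQ v k)) : Occ φ 1 := by
  choose f h1 h2 using hq
  by_cases H : ∀ v, f (f v) = v
  · exfalso
    have key : ∀ f0 f1 f2 f3 f4 : Fin 5, ∃ v, v = ![f0, f1, f2, f3, f4] v ∨
        ![f0, f1, f2, f3, f4] (![f0, f1, f2, f3, f4] v) ≠ v := by decide +kernel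
    have h3 : ![f 0, f 1, f 2, f 3, f 4] = f := by ext n; fin_cases n <;> rfl
    obtain ⟨v, hv⟩ := key (f 0) (f 1) (f 2) (f 3) (f 4)
    rw [h3] at hv
    exact hv.elim (h1 v) fun h4 => h4 (H v)
  · push Not at H
    obtain ⟨v, hv⟩ := H
    exact Pat.qq h he (i := f v) (j := v) (k := f (f v)) ⟨(h1 v).symm, h1 _, hv.symm⟩
      (by rw [pQ_comm]; exact h2 v) (h2 _)

/-- Triples whose supports do not meet in exactly one point. -/
def Cp (i j k l m n : Fin 5) : Prop :=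
  ¬ (i = l ∧ D5 i j k m n) ∧ ¬ (i = m ∧ D5 i j k n l) ∧ ¬ (i = n ∧ D5 i j k l m) ∧
  ¬ (j = l ∧ D5 j k i m n) ∧ ¬ (j = m ∧ D5 j k i n l) ∧ ¬ (j = n ∧ D5 j k i l m) ∧
  ¬ (k = l ∧ D5 k i j m n) ∧ ¬ (k = m ∧ D5 k i j n l) ∧ ¬ (k = n ∧ D5 k i j l m)

set_option synthInstance.maxSize 4096 in
instance decCp (i j k l m n : Fin 5) : Decidable (Cp i j k l m n) := by unfold Cp; infer_instance

set_option synthInstance.maxSize 4096 in
theorem comb1 : ∀ j k : Fin 5, D3 0 j k → ∃ d f, D5 0 j k d f ∧ ∀ j1 k1, D3 d j1 k1 →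
    Cp 0 j k d j1 k1 → ∀ j2 k2, D3 f j2 k2 → Cp 0 j k f j2 k2 → Cp d j1 k1 f j2 k2 →
      ∃ c, D5 j1 k1 c d f ∧ (j2 = j1 ∧ k2 = k1 ∨ j2 = k1 ∧ k2 = j1) ∧ ∀ j3 k3, D3 c j3 k3 →
        Cp c j3 k3 d j1 k1 → Cp c j3 k3 f j2 k2 → j3 = j1 ∧ k3 = k1 ∨ j3 = k1 ∧ k3 = j1 := by
  decide +kernel

theorem comb {T U : Fin 5 → Fin 5 → Fin 5 → Prop} (hT : ∀ v, ∃ j k, D3 v j k ∧ T v j k)
    (hU : ∀ v j k, D3 v j k → T v j k → U v j k ∧ U j k v ∧ U k v j)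
    (hM : ∀ m p q r s, D5 m p q r s → U m p q → U m r s → False) :
    ∃ a b c d f, D5 a b c d f ∧ T d a b ∧ (T f a b ∨ T f b a) ∧ (T c a b ∨ T c b a) := by
  have hC : ∀ {i j k l m n}, D3 i j k → T i j k → D3 l m n → T l m n → Cp i j k l m n := by
    intro i j k l m n h1 h2 h3 h4
    obtain ⟨a1, a2, a3⟩ := hU _ _ _ h1 h2
    obtain ⟨b1, b2, b3⟩ := hU _ _ _ h3 h4
    refine ⟨?_, ?_, ?_, ?_, ?_, ?_, ?_, ?_, ?_⟩ <;> rintro ⟨rfl, H⟩ <;>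
      exact hM _ _ _ _ _ H ‹_› ‹_›
  obtain ⟨j, k, h0, t0⟩ := hT 0
  obtain ⟨d, f, -, H⟩ := comb1 j k h0
  obtain ⟨j1, k1, h1, t1⟩ := hT d
  obtain ⟨j2, k2, h2, t2⟩ := hT f
  obtain ⟨c, hD, e2, H'⟩ := H j1 k1 h1 (hC h0 t0 h1 t1) j2 k2 h2 (hC h0 t0 h2 t2) (hC h1 t1 h2 t2)
  obtain ⟨j3, k3, h3, t3⟩ := hT c
  refine ⟨j1, k1, c, d, f, hD, t1, e2.imp ?_ ?_,
    (H' j3 k3 h3 (hC h3 t3 h1 t1) (hC h3 t3 h2 t2)).imp ?_ ?_⟩ <;> rintro ⟨rfl, rfl⟩ <;> assumption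

/-- Integer parts of the colours. -/
def uu : Fin 5 → ℤ := ![0, 1, 2, 0, 3]

/-- Coefficients of the golden value in the colours. -/
def ww : Fin 5 → ℤ := ![0, 0, 0, 1, -1]

/-- The value of a colour. -/
def cv (y : F) (c : Fin 5) : F := uu c + ww c * y

@[simp] theorem cv0 (y : F) : cv y 0 = 0 := by simp [cv, uu, ww]
@[simp] theorem cv1 (y : F) : cv y 1 = 1 := by simp [cv, uu, ww]
@[simp] theorem cv2 (y : F) : cv y 2 = 2 := by simp [cv, uu, ww]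
@[simp] theorem cv3 (y : F) : cv y 3 = y := by simp [cv, uu, ww]
@[simp] theorem cv4 (y : F) : cv y 4 = 3 - y := by simp [cv, uu, ww]; ring

theorem Gold.other {y w : F} (hy : Gold y) (hw : Gold w) : w = y ∨ w = 3 - y := by
  unfold Gold at hy hw
  have : (w - y) * (w - (3 - y)) = 0 := by linear_combination hw - hy
  exact (mul_eq_zero.1 this).imp sub_eq_zero.1 sub_eq_zero.1

theorem Gold.conj {y : F} (hy : Gold y) : Gold (3 - y) := by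
  unfold Gold at hy ⊢
  linear_combination hy

theorem colour (ha : ∀ i, a i = 0 ∨ a i = 1 ∨ a i = 2 ∨ Gold (a i)) :
    ∃ (y : F) (c : Fin 5 → Fin 5), (∀ i, a i = cv y (c i)) ∧ ∀ i, 3 ≤ c i → Gold y := by
  obtain ⟨y, hy⟩ : ∃ y : F, ∀ i, Gold (a i) → Gold y := by
    by_cases H : ∃ i, Gold (a i)
    · obtain ⟨i, hi⟩ := H
      exact ⟨_, fun _ _ => hi⟩
    · exact ⟨0, fun i hi => (H ⟨i, hi⟩).elim⟩
  have : ∀ i, ∃ c : Fin 5, a i = cv y c ∧ (3 ≤ c → Gold y) := fun i => by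
    rcases ha i with H | H | H | H
    · exact ⟨0, by simpa using H, by simp⟩
    · exact ⟨1, by simpa using H, by simp⟩
    · exact ⟨2, by simpa using H, by simp⟩
    · rcases (hy i H).other H with H' | H'
      · exact ⟨3, by simpa using H', fun _ => hy i H⟩
      · exact ⟨4, by simpa using H', fun _ => hy i H⟩
  choose c h1 h2 using this
  exact ⟨y, c, h1, h2⟩

theorem sum_cv (y : F) (c : Fin 5 → Fin 5) :
    ∑ i, cv y (c i) = ((∑ i, uu (c i) : ℤ) : F) + ((∑ i, ww (c i) : ℤ) : F) * y := by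
  simp only [cv, Finset.sum_add_distrib, Int.cast_sum, Finset.sum_mul]

theorem vec_eq {α : Type*} (f : Fin 5 → α) : ![f 0, f 1, f 2, f 3, f 4] = f := by
  ext n; fin_cases n <;> rfl

end Cfsg.Agent.Cl.S4O.CR
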