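import Mathlib
import Cfsg.Agent.Cl.S4OBase
import Cfsg.Agent.Cl.S4OCR

/-!
# Root systems with a frame, characteristic three
-/

set_option autoImplicit false
set_option linter.ambiguousOpen false

namespace Cfsg.Agent.Cl.S4O

namespace C3

open CR

variable {F : Type*} [Field F] {ι : Type*} {φ : ι → ι → F} {e : Fin 5 → ι}
  {x b s a : Fin 5 → F} {c u y a0 a1 a2 a3 a4 b1 b2 b3 b4 s0 s1 s2 s3 s4 : F} {i j k l m : Fin 5}

theorem z2 : (0 : F) ^ 2 = 0 := by simp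
theorem o2 : (1 : F) ^ 2 = 1 := by simp
theorem m2 : (-1 : F) ^ 2 = 1 := by simp

theorem gold_ne (hy : Gold y) : y ≠ 0 ∧ y ≠ 1 ∧ y ≠ 2 := by
  unfold Gold at hy
  refine ⟨?_, ?_, ?_⟩ <;> rintro rfl <;> refine one_ne_zero (α := F) ?_
  exacts [by linear_combination hy, by linear_combination -hy, by linear_combination -hy]

theorem p3_rot' (h : D3 i j k) (a b c : F) : p3 a b c i j k = p3 b c a j k i :=
  (p3_rot ⟨h.2.2, h.1.symm, h.2.1.symm⟩ b c a).symm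

theorem reflAt (h : RS φ) (he : Fr φ e) (ha : Pat φ e a) (i : Fin 5) :
    Pat φ e fun n => if n = i then (2 - a i) ^ 2 else a i * a n := by
  obtain ⟨x, hx, H⟩ := ha
  refine (hx.reflfr h he i).pat fun n => ?_
  by_cases h1 : n = i
  · subst h1; simp [← H]; ring
  · simp [h1, ← H]; ring

theorem ind (h3 : (3 : F) = 0) {U W : ℤ} (hW : W ≠ 0 → Gold y) (e : (U : F) + W * y = 4) :
    U % 3 = 1 ∧ W % 3 = 0 := by
  have hU : (U : F) = (U % 3 : ℤ) := by
    conv_lhs => rw [← Int.emod_add_mul_ediv U 3]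
    push_cast; rw [h3]; ring
  have hW' : (W : F) = (W % 3 : ℤ) := by
    conv_lhs => rw [← Int.emod_add_mul_ediv W 3]
    push_cast; rw [h3]; ring
  rw [hU, hW'] at e
  have h1 : U % 3 = 0 ∨ U % 3 = 1 ∨ U % 3 = 2 := by omega
  have h2 : W % 3 = 0 ∨ W % 3 = 1 ∨ W % 3 = 2 := by omega
  rcases h2 with h2 | h2 | h2
  · rcases h1 with h1 | h1 | h1 <;> rw [h1, h2] at e <;> push_cast at e
    exacts [(one_ne_zero (α := F) (by linear_combination -e - h3)).elim, ⟨h1, h2⟩,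
      (one_ne_zero (α := F) (by linear_combination e + h3)).elim]
  all_goals
    exfalso
    obtain ⟨g0, g1, g2⟩ := gold_ne (hW (by omega))
    rcases h1 with h1 | h1 | h1 <;> rw [h1, h2] at e <;> push_cast at e
  exacts [g1 (by linear_combination e + h3), g0 (by linear_combination e + h3),
    g2 (by linear_combination e), g2 (by linear_combination -e + (y - 2) * h3),
    g0 (by linear_combination -e + (y - 1) * h3), g1 (by linear_combination -e + (y - 1) * h3)]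

set_option synthInstance.maxSize 4096 in
theorem cls_aux : ∀ c0 c1 c2 c3 c4 : Fin 5, ∀ c, c = ![c0, c1, c2, c3, c4] →
    (∑ i, uu (c i)) % 3 = 1 → (∑ i, ww (c i)) % 3 = 0 →
      ((∀ n, c n ≠ 1) → ∃ j k, j ≠ k ∧ c j = 2 ∧ c k = 2) ∧ ∀ m, c m = 1 →
        (∀ n, n ≠ m → c n = 0) ∨ (∃ j k, D3 m j k ∧ (c j = 1 ∧ c k = 2 ∨ c j = 3 ∧ c k = 4)) ∨
        ∃ z d, m ≠ z ∧ d ≠ 0 ∧ ∀ n, c n = if n = m then 1 else if n = z then 0 else d := by
  intro c0 c1 c2 c3 c4 c hc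
  subst hc
  revert c0 c1 c2 c3 c4
  decide +kernel

/-- Values next to a one. -/
def UV (u : F) : Prop := u = 1 ∨ u = -1 ∨ Gold u

variable (φ e) in
/-- Roots of support three with a one at the first place. -/
def TT (i j k : Fin 5) : Prop := ∃ u, UV u ∧ Pat φ e (p3 1 u (-u) i j k)

variable (φ e) in
/-- Roots of support three. -/
def UU (i j k : Fin 5) : Prop := TT φ e i j k ∨ Pat φ e (p3 2 1 1 i j k)

theorem UV.ne (hu : UV u) : u ≠ 0 := by
  rcases hu with rfl | rfl | H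
  exacts [one_ne_zero, neg_ne_zero.2 one_ne_zero, (gold_ne H).1]

theorem TT.perm {σ : Equiv.Perm (Fin 5)} (H : TT φ e (σ i) (σ j) (σ k)) : TT φ (e ∘ σ) i j k := by
  obtain ⟨u, hu, x, ⟨p, hp⟩, H⟩ := H
  exact ⟨u, hu, x ∘ σ, ⟨p, fun i => hp _⟩, fun n => by simpa [p3] using H (σ n)⟩

variable (h : RS3 φ)
include h

theorem val (hc : Occ φ c) : c ^ 2 = 0 ∨ c ^ 2 = 1 ∨ c ^ 2 = 2 ∨ Gold (c ^ 2) := by
  rcases hc.val h.toRS with H | H | H | H | H
  exacts [Or.inl H, by tauto, by tauto, Or.inr (Or.inl (by linear_combination H + h.three)),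
    by tauto]

theorem neg_gold (u : F) : -u = 3 - u := by linear_combination -h.three

theorem two_eq : (-1 : F) = 2 := by linear_combination -h.three

theorem UV.neg (hu : UV u) : UV (-u) := by
  rcases hu with rfl | rfl | H
  exacts [Or.inr (Or.inl rfl), Or.inl (neg_neg _), Or.inr (Or.inr (neg_gold h u ▸ H.conj))]

theorem TT.symm (hD : D3 i j k) (H : TT φ e i j k) : TT φ e i k j := by
  obtain ⟨u, hu, H⟩ := H
  exact ⟨-u, hu.neg h, by rwa [neg_neg, ← p3_swap hD]⟩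

variable (he : Fr φ e)
include he

theorem line (hb : Rt φ e ![1, b1, b2, b3, b4]) (hs : Rt φ e ![s0, s1, s2, s3, s4])
    (h0 : b1 ≠ 0 ∨ b2 ≠ 0) (h1 : s0 ≠ 0) (h2 : s1 * b1 + s2 * b2 + s3 * b3 + s4 * b4 = 0) :
    (s1 = 0 ∧ s2 = 0 ∧ s3 = 0 ∧ s4 = 0) ∨ (s0 = 1 ∧ s1 = b1 ∧ s2 = b2 ∧ s3 = b3 ∧ s4 = b4) ∨
      (s0 = -1 ∧ s1 = -b1 ∧ s2 = -b2 ∧ s3 = -b3 ∧ s4 = -b4) ∨
      (s0 = 1 ∧ s1 = -b1 ∧ s2 = -b2 ∧ s3 = -b3 ∧ s4 = -b4) ∨
      (s0 = -1 ∧ s1 = b1 ∧ s2 = b2 ∧ s3 = b3 ∧ s4 = b4) := by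
  obtain ⟨p, hp⟩ := hb
  obtain ⟨q, hq⟩ := hs
  have ho := fr_coord h.toRS he 0
  have h3 := fr_dot he hq hp
  simp [Fin.sum_univ_five] at h3
  have h4 : φ q (e 0) = s0 := by rw [h.symm, hq]; rfl
  rcases h.line (e 0) p q (hp 0) (fun H => by
    rcases (par_iff h.toRS he ho hp).1 H with H | H <;>
    · have := H 1
      have := H 2
      simp_all) (by
    rw [h4]
    linear_combination (φ q p) * h.three - h3 - h2) with H | H | H | H | H
  · exact (h1 (h4 ▸ H)).elim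
  · left
    rcases (par_iff h.toRS he hq ho).1 H with H | H <;>
      exact ⟨by simpa using H 1, by simpa using H 2, by simpa using H 3, by simpa using H 4⟩
  · rcases (par_iff h.toRS he hq hp).1 H with H | H
    · exact Or.inr (Or.inl ⟨H 0, H 1, H 2, H 3, H 4⟩)
    · exact Or.inr (Or.inr (Or.inl ⟨H 0, H 1, H 2, H 3, H 4⟩))
  · have h5 : ∀ n, φ (e n) q = φ (e n) (e 0) - φ (e n) p := fun n => by
      rw [h.symm, H, h.symm (e 0), h.symm p]
    simp only [hp, hq, ho] at h5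
    exact Or.inr (Or.inr (Or.inr (Or.inl ⟨by have := h5 0; simp at this; linear_combination this,
      by simpa using h5 1, by simpa using h5 2, by simpa using h5 3, by simpa using h5 4⟩)))
  · have h5 : ∀ n, φ (e n) q = φ (e n) p - φ (e n) (e 0) := fun n => by
      rw [h.symm, H, h.symm (e 0), h.symm p]
    simp only [hp, hq, ho] at h5
    exact Or.inr (Or.inr (Or.inr (Or.inr ⟨by have := h5 0; simp at this; linear_combination this,
      by simpa using h5 1, by simpa using h5 2, by simpa using h5 3, by simpa using h5 4⟩)))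

theorem line' (hb : Rt φ e ![1, b1, b2, 0, b4]) (hs : Rt φ e ![s0, s1, s2, s3, s4])
    (h0 : b1 ≠ 0 ∨ b2 ≠ 0) (h1 : s0 ≠ 0) (h2 : s1 * b1 + s2 * b2 + s4 * b4 = 0) : s3 = 0 := by
  rcases line h he hb hs h0 h1 (by linear_combination h2) with H | H | H | H | H
  exacts [H.2.2.1, H.2.2.2.1, by simpa using H.2.2.2.1, by simpa using H.2.2.2.1, H.2.2.2.1]

theorem ruleB (ha : Pat φ e ![1, a1, a2, a3, a4]) (h1 : a1 ≠ 0) (h2 : a1 + a2 = 0) :
    a3 = 0 ∧ a4 = 0 := by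
  obtain ⟨-, x1, x2, x3, x4, -, rfl, rfl, rfl, rfl⟩ := ha.sq5
  have hb := ha.rt5 h.toRS he o2 rfl rfl rfl rfl
  have h3 := hb.sum h.toRS he
  simp [Fin.sum_univ_five] at h3
  have h4 : x1 ≠ 0 := fun e => h1 (by simp [e])
  have h5 : ∀ {z : F}, z = -z → z = 0 := fun {z} e =>
    mul_left_cancel₀ h.two (by linear_combination e)
  rcases line h he hb (ha.rt5 h.toRS he o2 (neg_sq x1) (neg_sq x2) rfl rfl) (Or.inl h4) one_ne_zero
    (by linear_combination h3 - 2 * h2 + h.three) with H | H | H | H | H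
  exacts [(h4 (neg_eq_zero.1 H.1)).elim, (h4 (h5 H.2.1.symm)).elim, (one_ne_zero (h5 H.1)).elim,
    ⟨by simp [h5 H.2.2.2.1], by simp [h5 H.2.2.2.2]⟩, (one_ne_zero (h5 H.1)).elim]

theorem ex2 (ha : Pat φ e ![2, 1, 2, 2, 0]) : False := by
  obtain ⟨r, -, -, -, -, hr, -⟩ := ha.sq5
  have h1 : Rt φ e ![1, r, 1, 0, 0] := (reflAt h.toRS he ha 3).rt h.toRS he fun n => by
    fin_cases n <;> simp [hr] <;> linear_combination -h.three
  have h0 : r ≠ 0 := fun e => h.two (by simpa [e] using hr.symm)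
  exact h0 (line' h he h1 (ha.rt5 h.toRS he hr o2 (z2 := -r) (by simpa) hr z2) (Or.inl h0) h0
    (by ring))

theorem ex3 (hu : Gold u) (ha : Pat φ e ![u, 1, u, u, 0]) : False := by
  have h3 := h.three
  have h0 := (gold_ne hu).1
  have h0' := (gold_ne hu).2.2
  unfold Gold at hu
  have h1 : Rt φ e ![u, u - 1, u - 2, u, 0] := (reflAt h.toRS he ha 2).rt h.toRS he fun n => by
    fin_cases n <;> simp
    exacts [by ring, by linear_combination hu, by ring, by ring]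
  have h2 : Rt φ e ![1, 2 - u, u - 1, 0, 0] :=
    (reflAt h.toRS he (h1.pat fun _ => rfl) 3).rt h.toRS he fun n => by
      have h4 : u ^ 2 = 2 := by linear_combination hu + (u - 1) * h3
      fin_cases n <;> simp [h4]
      exacts [by linear_combination -h3, by linear_combination -h4,
        by linear_combination -h4 + (2 * u - 3) * h3]
  exact h0 (line' h he h2 h1 (Or.inl (sub_ne_zero.2 h0'.symm)) h0 (by ring))

theorem colours (hx : Rt φ e x) (hij : j ≠ i) (hi : x i ≠ 0) (hj : x j ≠ 0) :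
    ∃ (y : F) (c : Fin 5 → Fin 5), (∀ n, x n ^ 2 = cv y (c n)) ∧ (∀ n, 3 ≤ c n → Gold y) ∧
      (∑ i, uu (c i)) % 3 = 1 ∧ (∑ i, ww (c i)) % 3 = 0 := by
  obtain ⟨y, c, hc, hy⟩ := colour fun n => val h (hx.occ_all h.toRS he hij hi hj n)
  have hs := hx.sum h.toRS he
  simp only [hc, sum_cv] at hs
  refine ⟨y, c, hc, hy, ind h.three (fun H => ?_) hs⟩
  obtain ⟨n, -, hn⟩ := Finset.exists_ne_zero_of_sum_ne_zero H
  refine hy n ?_
  generalize c n = d at hn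
  revert d
  decide

theorem cls (hx : Rt φ e x) (hm : x m ^ 2 = 1) (hj : j ≠ m) (hj' : x j ≠ 0) :
    (∃ z, m ≠ z ∧ Pat φ e (pP z)) ∨
      ∃ u j k, D3 m j k ∧ UV u ∧ ∀ n, x n ^ 2 = p3 1 u (-u) m j k n := by
  have h0 : x m ≠ 0 := fun e => by simp [e] at hm
  obtain ⟨y, c, hc, hy, h1, h2⟩ := colours h he hx hj h0 hj'
  have h3 : c m = 1 := by
    have h4 := hy m
    rw [hc] at hm
    have h21 : (2 : F) ≠ 1 := fun e => one_ne_zero (α := F) (by linear_combination e)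
    generalize c m = d at hm h4
    fin_cases d <;> simp_all
    exacts [(gold_ne h4).2.1 rfl, (gold_ne h4.conj).2.1 hm]
  rcases (cls_aux _ _ _ _ _ c (vec_eq c).symm h1 h2).2 m h3 with H | ⟨j, k, hD, H⟩ |
    ⟨z, d, h4, h5, H⟩
  · exact (hj' (by simpa [H j hj] using hc j)).elim
  · have h4 : UV (x j ^ 2) ∧ x k ^ 2 = -x j ^ 2 := by
      rw [hc, hc]
      rcases H with H | H <;> rw [H.1, H.2]
      · exact ⟨Or.inl (cv1 y), by simp [two_eq h]⟩
      · exact ⟨Or.inr (Or.inr (by simpa using hy j H.1.ge)), by simp [neg_gold h]⟩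
    refine Or.inr ⟨_, j, k, hD, h4.1, ?_⟩
    obtain ⟨σ, rfl, rfl, rfl⟩ := perm3 hD
    have h5 := (hx.pat fun _ => rfl).at σ
    rw [hm] at h5
    have h6 := ruleB h (fr_perm he σ) h5 h4.1.ne (by linear_combination h4.2)
    intro n
    obtain ⟨n, rfl⟩ := σ.surjective n
    fin_cases n <;> simp [p3, hm, h4.2, h6.1, h6.2]
  · obtain ⟨p, q, r, hD⟩ : ∃ p q r, D5 p m q r z := by clear * - h4; revert m z; decide +kernel
    obtain ⟨σ, rfl, rfl, rfl, rfl, rfl⟩ := perm5 hD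
    have h6 := (hx.pat hc).at σ
    have h7 := hy (σ 0)
    simp [H] at h6 h7
    fin_cases d
    · exact (h5 rfl).elim
    · exact Or.inl ⟨_, h4, h6.of_at fun n => by fin_cases n <;> simp [pP]⟩
    · exact (ex2 h (fr_perm he σ) (by simpa using h6)).elim
    · exact (ex3 h (fr_perm he σ) (h7 le_rfl) (by simpa using h6)).elim
    · exact (ex3 h (fr_perm he σ) (h7 (by decide)).conj (by simpa using h6)).elim

theorem two_two (ha : Pat φ e ![2, 2, a2, a3, a4]) : Occ φ 1 ∨ a2 = 0 ∧ a3 = 0 ∧ a4 = 0 := by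
  obtain ⟨x0, x1, x2, x3, x4, h0, h1, rfl, rfl, rfl⟩ := ha.sq5
  have hb := ha.rt5 h.toRS he h0 h1 rfl rfl rfl
  have h3 := hb.sum h.toRS he
  simp [Fin.sum_univ_five] at h3
  have h5 : ∀ {z : F}, z = -z → z = 0 := fun {z} e =>
    mul_left_cancel₀ h.two (by linear_combination e)
  by_contra H
  refine H (Or.inl (hb.occ h.toRS he (ha.rt5 h.toRS he (z0 := -x0) (z1 := -x1) (by simpa)
    (by simpa) rfl rfl rfl) ?_ ?_))
  · simp [Fin.sum_univ_five]
    linear_combination -h3 + 2 * h0 + 2 * h1 + 2 * h.three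
  · rintro (H' | H')
    · exact h.two (by simpa [h5 (z := x0) (H' 0)] using h0.symm)
    · exact H (Or.inr ⟨by simp [h5 (z := x2) (H' 2)], by simp [h5 (z := x3) (H' 3)],
        by simp [h5 (z := x4) (H' 4)]⟩)

theorem exists_one : ∃ c, Occ φ c ∧ c ^ 2 = 1 := by
  by_contra H
  obtain ⟨c, hc0, hc⟩ := exists_occ h.toRS
  refine H ⟨1, exists_qq h.toRS he fun v => ?_, o2⟩
  obtain ⟨w, hw, rfl, j, hj, hj'⟩ := hc.at h.toRS he v
  obtain ⟨y, c, hc, -, h1, h2⟩ := colours h he hw hj hc0 hj'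
  obtain ⟨p, q, hpq, hp, hq⟩ := (cls_aux _ _ _ _ _ c (vec_eq c).symm h1 h2).1 fun n hn =>
    H ⟨_, hw.occ_all h.toRS he hj hc0 hj' n, by simp [hc, hn]⟩
  obtain ⟨σ, rfl, rfl⟩ := perm2 hpq
  have h3 := (hw.pat fun _ => rfl).at σ
  rw [hc, hc, hp, hq, cv2] at h3
  obtain ⟨h4, h5, h6⟩ := (two_two h (fr_perm he σ) h3).resolve_left fun H' => H ⟨1, H', o2⟩
  have h7 : Pat φ e (pQ (σ 0) (σ 1)) := h3.of_at fun n => by
    fin_cases n <;> simp [pQ, h4, h5, h6]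
  obtain ⟨v, rfl⟩ := σ.surjective v
  fin_cases v
  exacts [⟨_, hpq, h7⟩, ⟨_, hpq.symm, by rw [pQ_comm]; exact h7⟩,
    (hc0 (by simpa using h4)).elim, (hc0 (by simpa using h5)).elim, (hc0 (by simpa using h6)).elim]

theorem one_at (v : Fin 5) : (∃ z, v ≠ z ∧ Pat φ e (pP z)) ∨ ∃ j k, D3 v j k ∧ TT φ e v j k := by
  obtain ⟨c, hc, h1⟩ := exists_one h he
  obtain ⟨w, hw, rfl, j, hj, hj'⟩ := hc.at h.toRS he v
  exact (cls h he hw h1 hj hj').imp_right fun ⟨u, j, k, hD, hu, H⟩ => ⟨j, k, hD, u, hu, hw.pat H⟩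

theorem pp (hm : l ≠ m) (h1 : Pat φ e (pP l)) (h2 : Pat φ e (pP m)) : False := by
  obtain ⟨p, q, r, hD⟩ : ∃ p q r, D5 p q r l m := by clear * - hm; revert l m; decide +kernel
  obtain ⟨σ, rfl, rfl, rfl, rfl, rfl⟩ := perm5 hD
  have h3 := h1.at σ
  have h4 := h2.at σ
  have hf := fr_perm he σ
  simp [pP] at h3 h4
  exact one_ne_zero (line' h hf (h3.rt5 h.toRS hf o2 o2 o2 z2 o2) (h4.rt5 h.toRS hf o2 o2 m2 o2 z2)
    (Or.inl one_ne_zero) one_ne_zero (by ring))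

theorem no_p (hP : Pat φ e (pP m)) : False := by
  have key : ∀ i k, D3 i m k → ¬ Pat φ e (p3 2 1 1 i m k) := fun i k hD H => by
    refine pp h he hD.2.2 hP ?_
    convert (H.q_of_r h.toRS he hD).swap h.toRS he hD.2.2 hP using 1
    ext n
    simp [pP, Equiv.swap_apply_eq_iff]
  rcases one_at h he m with ⟨z, hz, H⟩ | ⟨j, k, hD, u, rfl | rfl | hu, H⟩
  · exact pp h he hz hP H
  · exact key k j ⟨hD.2.1.symm, hD.2.2.symm, hD.1⟩ (by rwa [p3_rot hD, two_eq h] at H)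
  · rw [p3_swap hD, p3_rot ⟨hD.2.1, hD.1, hD.2.2.symm⟩, neg_neg, two_eq h] at H
    exact key j k ⟨hD.1.symm, hD.2.2, hD.2.1⟩ H
  · obtain ⟨p, q, hD'⟩ : ∃ p q, D5 m j p k q := by clear * - hD; revert m j k; decide +kernel
    obtain ⟨σ, rfl, rfl, rfl, rfl, rfl⟩ := perm5 hD'
    have h3 := H.at σ
    have h4 := hP.at σ
    have hf := fr_perm he σ
    simp [pP, p3] at h3 h4
    have t := h.three
    unfold Gold at hu
    have h5 := (h3.rt5 h.toRS hf o2 (z1 := u - 1) (z3 := 2 - u) (by linear_combination hu) z2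
      (by linear_combination hu + t) z2).refl5 h.toRS hf (h4.rt5 h.toRS hf z2 o2 o2 o2 o2)
      (c := -1) (by linear_combination -t)
    refine one_ne_zero (ruleB h hf (h5.pat5 (a1 := -1) (a2 := 1) (a4 := 1) (by ring)
      (by linear_combination hu + u * t) (by ring) rfl (by ring)) (by simp) (by ring)).2

theorem tt_rot (hD : D3 i j k) (H : TT φ e i j k) :
    UU φ e i j k ∧ UU φ e j k i ∧ UU φ e k i j := by
  refine ⟨Or.inl H, ?_⟩
  obtain ⟨u, rfl | rfl | hu, H⟩ := H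
  · exact ⟨Or.inl ⟨-1, Or.inr (Or.inl rfl), by rwa [neg_neg, ← p3_rot' hD]⟩,
      Or.inr (by rwa [p3_rot hD, two_eq h] at H)⟩
  · rw [neg_neg] at H
    exact ⟨Or.inr (by rwa [p3_rot' hD, two_eq h] at H),
      Or.inl ⟨1, Or.inl rfl, by rwa [p3_rot hD] at H⟩⟩
  · rw [p3_rot' hD, neg_gold h] at H
    have h1 := H.rot h.toRS he hu ⟨hD.2.2, hD.1.symm, hD.2.1.symm⟩
    have h2 := h1.rot h.toRS he hu hD
    rw [p3_rot hD, ← neg_gold h] at h1
    rw [p3_rot ⟨hD.2.1.symm, hD.2.2.symm, hD.1⟩, ← neg_gold h] at h2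
    exact ⟨Or.inl ⟨u, Or.inr (Or.inr hu), h2⟩, Or.inl ⟨u, Or.inr (Or.inr hu), h1⟩⟩

theorem meet1 {n : Fin 5} (hD : D5 i j k l n) (h1 : TT φ e i j k) (h0 : a0 ≠ 0) (h3 : a3 ≠ 0)
    (h2 : Pat φ e (p3 a0 a3 a4 i l n)) : False := by
  obtain ⟨σ, rfl, rfl, rfl, rfl, rfl⟩ := perm5 hD
  obtain ⟨u, hu, h1⟩ := h1
  have h4 := h1.at σ
  have h5 := h2.at σ
  have hf := fr_perm he σ
  simp [p3] at h4 h5
  obtain ⟨-, x1, x2, -, -, -, e1, e2, -⟩ := h4.sq5
  obtain ⟨y0, -, -, y3, y4, rfl, -, -, rfl, rfl⟩ := h5.sq5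
  exact h3 (by simp [line' h hf (h4.rt5 h.toRS hf o2 e1 e2 z2 z2)
    (h5.rt5 h.toRS hf rfl z2 z2 rfl rfl) (Or.inl fun e => hu.ne (by simpa [e] using e1.symm))
    (fun e => h0 (by simp [e])) (by ring)])

theorem meet {n : Fin 5} (hD : D5 i j k l n) (h1 : UU φ e i j k) (h2 : UU φ e i l n) : False := by
  rcases h1 with h1 | h1
  · rcases h2 with ⟨u, hu, h2⟩ | h2
    exacts [meet1 h he hD h1 one_ne_zero hu.ne h2, meet1 h he hD h1 h.two one_ne_zero h2]
  rcases h2 with h2 | h2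
  · exact meet1 h he (by tauto) h2 h.two one_ne_zero h1
  obtain ⟨σ, rfl, rfl, rfl, rfl, rfl⟩ := perm5 hD
  have h4 := h1.at σ
  have h5 := h2.at σ
  have hf := fr_perm he σ
  simp [p3] at h4 h5
  obtain ⟨r, -, -, -, -, hr, -⟩ := h4.sq5
  have h6 := (h4.rt5 h.toRS hf hr o2 o2 z2 z2).refl5 h.toRS hf (h5.rt5 h.toRS hf hr z2 z2 o2 o2)
    (c := 1) (by linear_combination -hr)
  exact no_p h hf (m := 0) (h6.pat fun n => by fin_cases n <;> simp [pP])

theorem final (h0 : TT φ e 0 2 3) (h1 : TT φ e 1 2 3) (h4 : TT φ e 4 2 3) : False := by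
  obtain ⟨u, hu, h0⟩ := h0
  obtain ⟨v, hv, h1⟩ := h1
  have h2 := h0.at 1
  have h3 := h1.at 1
  simp [p3] at h2 h3
  obtain ⟨-, -, x2, x3, -, -, -, e2, e3, -⟩ := h2.sq5
  obtain ⟨-, -, y2, -, -, -, -, f2, -⟩ := h3.sq5
  have n2 : x2 ≠ 0 := fun e => hu.ne (by simpa [e] using e2.symm)
  have n3 : x3 ≠ 0 := fun e => hu.ne (by simpa [e] using e3.symm)
  have m2 : y2 ≠ 0 := fun e => hv.ne (by simpa [e] using f2.symm)
  have h5 := (h3.rt5 h.toRS he z2 o2 f2 (z3 := x2 * y2 / x3) (by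
    field_simp
    linear_combination x2 ^ 2 * f2 + v * e2 + v * e3) z2).refl5 h.toRS he
      (h2.rt5 h.toRS he o2 z2 e2 e3 z2) (c := x2 * y2) (by field_simp; ring)
  obtain ⟨g1, g2, g3⟩ := tt_rot h he (by decide) h4
  have key : ∀ k, D3 0 1 k → ¬ TT φ e 0 1 k := fun k hD H => by
    have h6 := (tt_rot h he hD H).2.2
    fin_cases k
    exacts [hD.2.1 rfl, hD.2.2 rfl, meet h he (by decide) h6 g2, meet h he (by decide) h6 g3,
      meet h he (by decide) h6 g1]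
  rcases cls h he h5 (m := 0) (j := 1) (by simp) (by decide) (by simp [n2, m2]) with
    ⟨z, -, H⟩ | ⟨w, j, k, hD, hw, H⟩
  · exact no_p h he H
  · have h6 := H 1
    have h7 : TT φ e 0 j k := ⟨w, hw, h5.pat H⟩
    unfold p3 at h6
    split_ifs at h6 with a1 a2 a3
    · exact absurd a1 (by decide)
    · subst a2
      exact key k hD h7
    · subst a3
      exact key j ⟨hD.2.1, hD.1, hD.2.2.symm⟩ (h7.symm h hD)
    · simp [n2, m2] at h6

end C3

open Matrix Low Max Mx Geo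
open scoped MatrixGroups

variable {F : Type*} [Field F] {P : Subgroup (GL I4 F)}

theorem RS3.false {ι : Type*} {φ : ι → ι → F} (h : RS3 φ) : False := by
  obtain ⟨e, he⟩ := h.frame
  obtain ⟨a, b, c, d, f, hD, h1, h2, h3⟩ := CR.comb (T := C3.TT φ e) (U := C3.UU φ e)
    (fun v => (C3.one_at h he v).resolve_left fun ⟨_, _, H⟩ => C3.no_p h he H)
    (fun _ _ _ => C3.tt_rot h he) fun _ _ _ _ _ => C3.meet h he
  have h4 : C3.TT φ e f a b := h2.elim id fun H => H.symm h (by tauto)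
  have h5 : C3.TT φ e c a b := h3.elim id fun H => H.symm h (by tauto)
  obtain ⟨σ, rfl, rfl, rfl, rfl, rfl⟩ := CR.perm5 (i := d) (j := f) (k := a) (l := b) (m := c)
    (by tauto)
  exact C3.final h (CR.fr_perm he σ) h1.perm h4.perm h5.perm

end Cfsg.Agent.Cl.S4O
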