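import Mathlib

import Cfsg.Agent.Cl.S4OCR

/-!
# Root systems with a frame, characteristic at least five: the patterns
-/

set_option autoImplicit false
set_option linter.ambiguousOpen false

namespace Cfsg.Agent.Cl.S4O

namespace C5

open CR

variable {F : Type*} [Field F] {ι : Type*} {φ : ι → ι → F} {e : Fin 5 → ι}
  {x a : Fin 5 → F} {c v w y : F}

/-- Allowed squares. -/
def Al (v : F) : Prop := (v = 0 ∨ v = 1 ∨ v = 2 ∨ Gold v) ∧ v ≠ 4

theorem n1 (h3 : (3 : F) ≠ 0) (h : Al v) (e : 4 * v = 1) : (7 : F) = 0 := by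
  unfold Al Gold at h
  grind

theorem n2 (h2 : (2 : F) ≠ 0) (h7 : (7 : F) = 0) (h : Al v) (e : 4 * v = 9) : False := by
  unfold Al Gold at h
  grind

theorem n3 (h2 : (2 : F) ≠ 0) (h7 : (7 : F) = 0) (hy : Gold y) (h : Al v) (e : 4 * v = y) :
    False := by
  unfold Al Gold at *
  grind

theorem n4 (h2 : (2 : F) ≠ 0) (h3 : (3 : F) ≠ 0) (hy : Gold y) (h4 : y ≠ 4) (h : Al v) (h' : Al w)
    (e : 4 * v = y) (e' : 4 * w = 5 * y) : False := by
  subst e
  obtain rfl : w = 5 * v := by
    refine mul_left_cancel₀ (mul_ne_zero h2 h2) ?_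
    linear_combination e'
  unfold Al Gold at *
  refine one_ne_zero (α := F) ?_
  rcases h.1 with rfl | rfl | rfl | H
  · linear_combination hy
  · exact (h4 (by ring)).elim
  · rcases h'.1 with H | H | H | H
    exacts [by linear_combination hy - 4 * H, by linear_combination 2 * hy - 9 * H,
      by linear_combination hy - 5 * H, by linear_combination 26 * hy - 15 * H]
  · have h5 : 12 * v = 5 := mul_left_cancel₀ h3 (by linear_combination hy - 16 * H)
    have h6 : (11 : F) = 0 := by linear_combination (12 * v - 31) * h5 - 144 * H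
    obtain rfl : v = 5 := by linear_combination h5 - v * h6
    rcases h'.1 with H | H | H | H
    exacts [by linear_combination 4 * H - 9 * h6, by linear_combination 11 * h6 - 5 * H,
      by linear_combination H - 2 * h6, by linear_combination H - 50 * h6]

theorem n5 (h2 : (2 : F) ≠ 0) (h3 : (3 : F) ≠ 0) (hy : Gold y) (h : Al (2 * y)) : False := by
  unfold Al Gold at *
  grind

theorem n6 (h2 : (2 : F) ≠ 0) (h3 : (3 : F) ≠ 0) (hy : Gold y) (h4 : y ≠ 4) (h : Al (y * y)) :
    False := by
  rcases h.1 with H | H | H | H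
  · unfold Gold at hy; clear h; grind
  · unfold Gold at hy; clear h; grind
  · unfold Gold at hy; clear h; grind
  · refine one_ne_zero (α := F) ?_
    have hy' := hy
    unfold Gold at hy'
    rcases hy.other H with H' | H'
    · linear_combination (1 - 2 * y) * (hy' - H') - 4 * H'
    · obtain rfl : y = 1 := mul_left_cancel₀ (mul_ne_zero h2 h2) (by linear_combination H' - hy')
      linear_combination -hy'

theorem gold_ne (hy : Gold y) : y ≠ 0 ∧ y ≠ 1 ∧ y ≠ 2 ∧ y ≠ 3 := by
  unfold Gold at hy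
  refine ⟨?_, ?_, ?_, ?_⟩ <;> rintro rfl <;> refine one_ne_zero (α := F) ?_
  exacts [by linear_combination hy, by linear_combination -hy, by linear_combination -hy,
    by linear_combination hy]

theorem al (h : RS5 φ) (hc : Occ φ c) : Al (c ^ 2) := by
  have h4 : c ^ 2 ≠ 4 := by
    obtain ⟨p, q, h1, rfl⟩ := hc
    exact fun e => h1 (h.par p q e)
  exact ⟨by have := hc.val h.toRS; tauto, h4⟩

theorem pair (h : RS5 φ) (he : Fr φ e) (hx : Rt φ e x) {i j : Fin 5} (hij : i ≠ j) :
    Al (x i ^ 2 * x j ^ 2) ∨ x i ^ 2 = 2 ∧ x j ^ 2 = 2 ∧ ∀ n, n ≠ i → n ≠ j → x n = 0 := by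
  have hz := hx.reflfr h.toRS he i
  by_cases H : ∀ n, n ≠ j → (if n = i then 2 else 0) - x i * x n = 0
  · have h1 : x i ^ 2 = 2 := by
      have := H i hij
      rw [if_pos rfl] at this
      linear_combination -this
    have h2 := hz.sq_four h.toRS he H
    rw [if_neg hij.symm] at h2
    refine Or.inr ⟨h1, mul_left_cancel₀ h.two (by linear_combination h2 - x j ^ 2 * h1),
      fun n hi hj => ?_⟩
    have h3 := H n hj
    rw [if_neg hi] at h3
    exact mul_left_cancel₀ h.two (by linear_combination -x i * h3 - x n * h1)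
  · push Not at H
    obtain ⟨n, hn, H⟩ := H
    have h1 := al h (hz.occ_fr h.toRS he hn H)
    rw [if_neg hij.symm] at h1
    exact Or.inl (by convert h1 using 1; ring)

/-- Compatible colours. -/
def ok (c d : Fin 5) : Prop := ¬ (c = 2 ∧ 2 ≤ d) ∧ ¬ (2 ≤ c ∧ d = 2) ∧ ¬ (3 ≤ c ∧ c = d)

instance decOk (c d : Fin 5) : Decidable (ok c d) := by unfold ok; infer_instance

/-- Impossible sums. -/
def bad (U W : ℤ) : Prop :=
  W = 0 ∧ U ∈ [0, 1, 2, 3, 5, 6] ∨ W = 1 ∧ U ∈ [0, 1, 2, 3, 4] ∨ W = -1 ∧ U ∈ [3, 4, 5, 6, 7]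

instance decBad (U W : ℤ) : Decidable (bad U W) := by unfold bad; infer_instance

set_option synthInstance.maxSize 4096 in
theorem cls_aux : ∀ c0 c1 c2 c3 c4 : Fin 5, ∀ c, c = ![c0, c1, c2, c3, c4] →
    (∀ i j, i ≠ j → ok (c i) (c j) ∨ c i = 2 ∧ c j = 2 ∧ ∀ n, n ≠ i → n ≠ j → c n = 0) →
    bad (∑ i, uu (c i)) (∑ i, ww (c i)) ∨ (∃ m, ∀ n, c n = if n = m then 0 else 1) ∨
      (∃ j k, j ≠ k ∧ ∀ n, c n = if n = j ∨ n = k then 2 else 0) ∨
      (∃ i j k, D3 i j k ∧ ∀ n, c n = if n = i then 2 else if n = j then 1 else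
        if n = k then 1 else 0) ∨
      ∃ i j k, D3 i j k ∧ ∀ n, c n = if n = i then 3 else if n = j then 4 else
        if n = k then 1 else 0 := by
  intro c0 c1 c2 c3 c4 c hc
  subst hc
  revert c0 c1 c2 c3 c4
  decide +kernel

theorem cls (h : RS5 φ) (he : Fr φ e) (hx : Rt φ e x) {i j : Fin 5} (hij : j ≠ i) (hi : x i ≠ 0)
    (hj : x j ≠ 0) : (∃ m, ∀ n, x n ^ 2 = pP m n) ∨ (∃ j k, j ≠ k ∧ ∀ n, x n ^ 2 = pQ j k n) ∨
      (∃ i j k, D3 i j k ∧ ∀ n, x n ^ 2 = p3 2 1 1 i j k n) ∨
      ∃ y, Gold y ∧ ∃ i j k, D3 i j k ∧ ∀ n, x n ^ 2 = p3 y (3 - y) 1 i j k n := by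
  have hal : ∀ n, Al (x n ^ 2) := fun n => al h (hx.occ_all h.toRS he hij hi hj n)
  obtain ⟨y, c, hc, hy⟩ := colour fun n => (hal n).1
  have h2 := h.two
  have h3 := h.three
  have hinj : ∀ n, ∀ d : Fin 5, d < 3 → x n ^ 2 = cv y d → c n = d := fun n d hd H => by
    have h1 := hy n
    rw [hc] at H
    generalize c n = k at h1 H
    have h12 : (1 : F) ≠ 2 := fun e => one_ne_zero (α := F) (by linear_combination -e)
    fin_cases k <;> fin_cases d <;> simp_all [eq_comm (a := (0 : F)), h12.symm]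
    all_goals
      have h4 := gold_ne h1
      have h5 := gold_ne h1.conj
      simp_all
  have hg : ∀ n, 3 ≤ c n → Gold (x n ^ 2) := fun n hn => by
    have h1 := hy n hn
    rw [hc]
    generalize c n = k at hn
    fin_cases k <;> simp_all [h1.conj]
  have h22 : ∀ n, c n = 2 → x n ^ 2 = 2 := fun n hn => by rw [hc, hn, cv2]
  have key : ∀ i j, c i = 2 → 2 ≤ c j → ¬ Al (x i ^ 2 * x j ^ 2) := fun i j h4 h5 H => by
    rw [h22 i h4] at H
    rcases h5.eq_or_lt with h6 | h6
    · rw [h22 j h6.symm] at H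
      exact H.2 (by norm_num)
    · exact n5 h2 h3 (hg j h6) H
  rcases cls_aux (c 0) (c 1) (c 2) (c 3) (c 4) c (vec_eq c).symm (fun i j hij => by
    refine (pair h he hx hij).imp (fun H => ⟨fun H' => key i j H'.1 H'.2 H,
      fun H' => key j i H'.2 H'.1 (by rw [mul_comm]; exact H), fun H' => ?_⟩) fun H =>
        ⟨hinj i 2 (by decide) (by simp [H.1]), hinj j 2 (by decide) (by simp [H.2.1]),
          fun n h4 h5 => hinj n 0 (by decide) (by simp [H.2.2 n h4 h5])⟩
    rw [hc j, ← H'.2, ← hc i] at H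
    exact n6 h2 h3 (hg i H'.1) (hal i).2 H) with H | ⟨m, H⟩ | ⟨j, k, h4, H⟩ | ⟨i, j, k, h4, H⟩ |
      ⟨i, j, k, h4, H⟩
  · exfalso
    have hs := hx.sum h.toRS he
    simp only [hc, sum_cv] at hs
    have hW : ∀ d : Fin 5, (∑ i, ww (c i)) = ww d → 3 ≤ d → ∃ n, c n = d := fun d h5 h6 => by
      by_contra H'
      push Not at H'
      fin_cases d
      · simp at h6
      · simp at h6
      · simp at h6
      · have : ∑ i, ww (c i) ≤ 0 := Finset.sum_nonpos fun n _ => by
          have := H' n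
          generalize c n = k at this
          revert k; decide
        rw [h5] at this
        simp [ww] at this
      · have : 0 ≤ ∑ i, ww (c i) := Finset.sum_nonneg fun n _ => by
          have := H' n
          generalize c n = k at this
          revert k; decide
        rw [h5] at this
        simp [ww] at this
    rcases H with ⟨h5, h6⟩ | ⟨h5, h6⟩ | ⟨h5, h6⟩
    · rw [h5] at hs
      simp only [List.mem_cons, List.not_mem_nil, or_false] at h6
      rcases h6 with h6 | h6 | h6 | h6 | h6 | h6 <;> rw [h6] at hs <;> push_cast at hs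
      exacts [mul_ne_zero h2 h2 (by linear_combination -hs), h3 (by linear_combination -hs),
        h2 (by linear_combination -hs), one_ne_zero (α := F) (by linear_combination -hs),
        one_ne_zero (α := F) (by linear_combination hs), h2 (by linear_combination hs)]
    · obtain ⟨n, hn⟩ := hW 3 h5 le_rfl
      have h7 := gold_ne (hy n hn.ge)
      have h8 := (hal n).2
      rw [hc, hn, cv3] at h8
      rw [h5] at hs
      simp only [List.mem_cons, List.not_mem_nil, or_false] at h6
      rcases h6 with h6 | h6 | h6 | h6 | h6 <;> rw [h6] at hs <;> push_cast at hs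
      exacts [h8 (by linear_combination hs), h7.2.2.2 (by linear_combination hs),
        h7.2.2.1 (by linear_combination hs), h7.2.1 (by linear_combination hs),
        h7.1 (by linear_combination hs)]
    · obtain ⟨n, hn⟩ := hW 4 h5 (by decide)
      have h7 := gold_ne (hy n (hn ▸ by decide)).conj
      have h8 := (hal n).2
      rw [hc, hn, cv4] at h8
      rw [h5] at hs
      simp only [List.mem_cons, List.not_mem_nil, or_false] at h6
      rcases h6 with h6 | h6 | h6 | h6 | h6 <;> rw [h6] at hs <;> push_cast at hs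
      exacts [h8 (by linear_combination hs), h7.2.2.2 (by linear_combination hs),
        h7.2.2.1 (by linear_combination hs), h7.2.1 (by linear_combination hs),
        h7.1 (by linear_combination hs)]
  · exact Or.inl ⟨m, fun n => by simp [hc, H, pP, apply_ite (cv y)]⟩
  · exact Or.inr (Or.inl ⟨j, k, h4, fun n => by simp [hc, H, pQ, apply_ite (cv y)]⟩)
  · exact Or.inr (Or.inr (Or.inl ⟨i, j, k, h4, fun n => by simp [hc, H, p3, apply_ite (cv y)]⟩))
  · exact Or.inr (Or.inr (Or.inr ⟨y, hy i (by simp [H]), i, j, k, h4,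
      fun n => by simp [hc, H, p3, apply_ite (cv y)]⟩))

end C5

end Cfsg.Agent.Cl.S4O
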