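import Mathlib
import Cfsg.Agent.Cl.S4OBase
import Cfsg.Agent.Cl.S4OC5a

/-!
# Root systems with a frame, characteristic at least five
-/

set_option autoImplicit false
set_option linter.ambiguousOpen false

namespace Cfsg.Agent.Cl.S4O

namespace C5

open CR

variable {F : Type*} [Field F] {ι : Type*} {φ : ι → ι → F} {e : Fin 5 → ι}
  {x a : Fin 5 → F} {c d v w y : F} {i j k l m : Fin 5}

theorem half (h2 : (2 : F) ≠ 0) (v : F) : ∃ c, 2 * c = v := ⟨v / 2, by field_simp⟩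

theorem z2 : (0 : F) ^ 2 = 0 := by simp
theorem o2 : (1 : F) ^ 2 = 1 := by simp
theorem m2 : (-1 : F) ^ 2 = 1 := by simp

variable (h : RS5 φ)
include h

theorem seven (h1 : Occ φ c) (e1 : 2 * c = 1) : (7 : F) = 0 :=
  n1 h.three (al h h1) (by linear_combination (2 * c + 1) * e1)

theorem not13 (h1 : Occ φ c) (e1 : 2 * c = 1) (h3 : Occ φ d) (e3 : 2 * d = 3) : False :=
  n2 h.two (seven h h1 e1) (al h h3) (by linear_combination (2 * d + 3) * e3)

variable (he : Fr φ e)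
include he

theorem pp (hm : l ≠ m) (h1 : Pat φ e (pP l)) (h2 : Pat φ e (pP m)) : False := by
  obtain ⟨σ, rfl, rfl⟩ := perm2 hm
  have h3 := h1.at σ
  have h4 := h2.at σ
  have hf := fr_perm he σ
  simp [pP] at h3 h4
  obtain ⟨c, hc⟩ := half h.two 1
  obtain ⟨d, hd⟩ := half h.two 3
  have h5 := h3.rt5 h.toRS hf z2 o2 o2 o2 o2
  exact not13 h (h5.occ5 h.toRS hf (h4.rt5 h.toRS hf o2 z2 o2 o2 m2) (by linear_combination hc)
    (by simp)) hc (h5.occ5 h.toRS hf (h4.rt5 h.toRS hf o2 z2 o2 o2 o2) (by linear_combination hd)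
    (by simp)) hd

theorem rr1 (h3 : Pat φ e ![2, 1, 1, 0, 0]) (h4 : Pat φ e ![2, 1, 0, 1, 0]) : False := by
  obtain ⟨r, -, -, -, -, hr, -⟩ := h3.sq5
  obtain ⟨c, hc⟩ := half h.two 1
  obtain ⟨d, hd⟩ := half h.two 3
  have h5 := h3.rt5 h.toRS he hr o2 o2 z2 z2
  exact not13 h (h5.occ5 h.toRS he (h4.rt5 h.toRS he hr m2 z2 o2 z2)
    (by linear_combination hc - hr) (by simp)) hc (h5.occ5 h.toRS he
      (h4.rt5 h.toRS he hr o2 z2 o2 z2) (by linear_combination hd - hr) (by simp)) hd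

theorem rr2 (h3 : Pat φ e ![1, 2, 1, 0, 0]) (h4 : Pat φ e ![1, 1, 2, 0, 0]) : False := by
  obtain ⟨-, r, -, -, -, -, hr, -⟩ := h3.sq5
  obtain ⟨c, hc⟩ := half h.two 1
  have h5 := h3.rt5 h.toRS he o2 hr o2 z2 z2
  have h7 := seven h (h5.occ5 h.toRS he (h4.rt5 h.toRS he o2 o2 (z2 := -r) (by simpa) z2 z2)
    (by linear_combination hc) (Or.inr (Or.inl fun H => one_ne_zero (α := F)
      (by linear_combination H - hr)))) hc
  obtain ⟨p, hp⟩ := h5
  obtain ⟨q, hq⟩ := h4.rt5 h.toRS he o2 m2 hr z2 z2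
  have h8 := h.seven e he p q (hp 3) (hp 4) (hq 3) (hq 4) (by
    rw [hp, hp, hq, hq]
    simp only [Matrix.cons_val_one, Matrix.cons_val_zero, Matrix.cons_val]
    linear_combination (r ^ 2 + 4) * hr - h7)
  rw [hp] at h8
  exact one_ne_zero h8

theorem only_q (hD : D3 i j k) (hR : Pat φ e (p3 2 1 1 i j k)) (hl : j ≠ l)
    (hQ : Pat φ e (pQ j l)) : l = k := by
  by_contra hk
  have h1 := hQ.swap h.toRS he hl hR
  by_cases hi : l = i
  · subst hi
    obtain ⟨σ, rfl, rfl, rfl⟩ := perm3 (i := k) (j := l) (k := j) ⟨hD.2.1.symm, hD.2.2.symm, hD.1⟩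
    have h3 := hR.at σ
    have h4 := h1.at σ
    simp [p3, Equiv.swap_apply_def] at h3 h4
    exact rr2 h (fr_perm he σ) h3 h4
  · obtain ⟨σ, rfl, rfl, rfl, rfl⟩ := perm4 (i := i) (j := k) (k := j) (l := l)
      ⟨hD.2.1, hD.1, hD.2.2.symm⟩ ⟨Ne.symm hi, Ne.symm hk, hl⟩
    have h3 := hR.at σ
    have h4 := h1.at σ
    simp [p3, Equiv.swap_apply_def] at h3 h4
    exact rr1 h (fr_perm he σ) h3 h4

theorem hmeet (hy : Gold y) (hD : D5 i j k l m) (h1 : Pat φ e (p3 y (3 - y) 1 i j k))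
    (h2 : Pat φ e (p3 y (3 - y) 1 i l m)) : False := by
  obtain ⟨σ, rfl, rfl, rfl, rfl, rfl⟩ := perm5 hD
  have h3 := ((h1.rot h.toRS he hy (by simp [D3])).rot h.toRS he hy (by simp [D3])).at σ
  have h4 := ((h2.rot h.toRS he hy (by simp [D3])).rot h.toRS he hy (by simp [D3])).at σ
  have h5 := h2.at σ
  have hf := fr_perm he σ
  simp [p3] at h3 h4 h5
  have hy' := hy
  unfold Gold at hy'
  have s1 : (y - 1) ^ 2 = y := by linear_combination hy'
  have s2 : (2 - y) ^ 2 = 3 - y := by linear_combination hy'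
  obtain ⟨c, hc⟩ := half h.two 1
  obtain ⟨d, hd⟩ := half h.two (y - 1)
  have h6 := h3.rt5 h.toRS hf o2 s1 s2 z2 z2
  have h8 : (y - 1) ^ 2 ≠ 0 ^ 2 := by rw [s1, z2]; exact (gold_ne hy).1
  exact n3 h.two (seven h (h6.occ5 h.toRS hf (h4.rt5 h.toRS hf o2 z2 z2 s1 s2)
    (by linear_combination hc) (Or.inr (Or.inl h8))) hc) hy
    (al h (h6.occ5 h.toRS hf (h5.rt5 h.toRS hf s1 z2 z2 s2 o2) (c := d) (by linear_combination hd)
      (Or.inr (Or.inl h8)))) (by linear_combination (2 * d + (y - 1)) * hd + s1)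

theorem hedge (hy : Gold y) (hD : D3 i j k) (hl : i ≠ l ∧ j ≠ l ∧ k ≠ l)
    (h1 : Pat φ e (p3 y (3 - y) 1 i j k)) (h2 : Pat φ e (p3 y (3 - y) 1 l j k)) : False := by
  obtain ⟨σ, rfl, rfl, rfl, rfl⟩ := perm4 hD hl
  have h3 := h1.at σ
  have h4 := h2.at σ
  have hf := fr_perm he σ
  simp [p3] at h3 h4
  have hy' := hy
  unfold Gold at hy'
  have s1 : (y - 1) ^ 2 = y := by linear_combination hy'
  have s2 : (2 - y) ^ 2 = 3 - y := by linear_combination hy'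
  obtain ⟨c, hc⟩ := half h.two (2 - y)
  obtain ⟨d, hd⟩ := half h.two (4 - y)
  have h6 := h3.rt5 h.toRS hf s1 s2 o2 z2 z2
  have h8 : (y - 1) ^ 2 ≠ 0 ^ 2 := by rw [s1, z2]; exact (gold_ne hy).1
  have h9 := (al h (h6.occ_fr h.toRS hf (i := 1) (j := 2) (by decide) (by simp))).2
  exact n4 h.two h.three hy.conj (s2 ▸ h9)
    (al h (h6.occ5 h.toRS hf (h4.rt5 h.toRS hf z2 s2 m2 s1 z2) (c := c)
      (by linear_combination hc - s2) (Or.inl h8)))
    (al h (h6.occ5 h.toRS hf (h4.rt5 h.toRS hf z2 s2 o2 s1 z2) (c := d)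
      (by linear_combination hd - s2) (Or.inl h8)))
    (by linear_combination (2 * c + (2 - y)) * hc + s2)
    (by linear_combination (2 * d + (4 - y)) * hd + hy')

theorem no_gold (hc : Occ φ c) : ¬ Gold (c ^ 2) := fun hy => by
  have hn := gold_ne hy
  obtain ⟨a, b, c', d, f, hD, h1, h2, h3⟩ := comb
    (T := fun i j k => Pat φ e (p3 (c ^ 2) (3 - c ^ 2) 1 i j k))
    (U := fun i j k => Pat φ e (p3 (c ^ 2) (3 - c ^ 2) 1 i j k))
    (fun v => by
      obtain ⟨w, hw, rfl, j, hj, hj'⟩ := hc.at h.toRS he v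
      rcases cls h he hw hj (fun H => hn.1 (by simp [H])) hj' with
        ⟨m, H⟩ | ⟨j, k, -, H⟩ | ⟨i, j, k, -, H⟩ | ⟨y, -, i, j, k, hD, H⟩
      · have := H v; unfold pP at this; split_ifs at this <;> simp_all
      · have := H v; unfold pQ at this; split_ifs at this <;> simp_all
      · have := H v; unfold p3 at this; split_ifs at this <;> simp_all
      · have h4 := H v
        unfold p3 at h4
        split_ifs at h4 with h5 h6 h7
        · subst h5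
          exact ⟨j, k, hD, hw.pat (h4 ▸ H)⟩
        · subst h6
          refine ⟨i, k, ⟨hD.1.symm, hD.2.2, hD.2.1⟩, hw.pat fun n => ?_⟩
          rw [H n, h4, sub_sub_cancel, p3_rot hD, p3_swap ⟨hD.2.1.symm, hD.2.2.symm, hD.1⟩,
            ← p3_rot ⟨hD.1.symm, hD.2.2, hD.2.1⟩]
        · exact (hn.2.1 h4).elim
        · exact (hn.1 h4).elim)
    (fun v j k hD H => ⟨H, (H.rot h.toRS he hy hD).rot h.toRS he hy
      ⟨hD.2.1.symm, hD.2.2.symm, hD.1⟩, H.rot h.toRS he hy hD⟩)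
    fun m p q r s hD => hmeet h he hy hD
  rcases h2 with h2 | h2
  · exact hedge h he hy (by tauto) (by tauto) h1 h2
  rcases h3 with h3 | h3
  · exact hedge h he hy (by tauto) (by tauto) h1 h3
  · exact hedge h he hy (by tauto) (by tauto) h2 h3

theorem cls' (hx : Rt φ e x) (hij : j ≠ i) (hi : x i ≠ 0) (hj : x j ≠ 0) :
    (∃ m, ∀ n, x n ^ 2 = pP m n) ∨ (∃ j k, j ≠ k ∧ ∀ n, x n ^ 2 = pQ j k n) ∨
      ∃ i j k, D3 i j k ∧ ∀ n, x n ^ 2 = p3 2 1 1 i j k n := by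
  rcases cls h he hx hij hi hj with H | H | H | ⟨y, hy, i', j', k', -, H⟩
  exacts [Or.inl H, Or.inr (Or.inl H), Or.inr (Or.inr H),
    (no_gold h he (hx.occ_all h.toRS he hij hi hj i') (by simpa [H, p3] using hy)).elim]

theorem exists_one : ∃ c, Occ φ c ∧ c ^ 2 = 1 := by
  by_contra H
  obtain ⟨c, hc0, hc⟩ := exists_occ h.toRS
  refine H ⟨1, exists_qq h.toRS he fun v => ?_, o2⟩
  obtain ⟨w, hw, rfl, j, hj, hj'⟩ := hc.at h.toRS he v
  have h1 := hw.occ_all h.toRS he hj hc0 hj'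
  rcases cls' h he hw hj hc0 hj' with ⟨m, H'⟩ | ⟨j, k, hjk, H'⟩ | ⟨i, j, k, hD, H'⟩
  · obtain ⟨n, hn⟩ := exists_ne m
    exact (H ⟨_, h1 n, by simp [H', pP, hn]⟩).elim
  · have h2 := H' v
    unfold pQ at h2
    split_ifs at h2 with h3
    · rcases h3 with rfl | rfl
      exacts [⟨k, hjk, hw.pat H'⟩, ⟨j, hjk.symm, hw.pat (by rw [pQ_comm]; exact H')⟩]
    · exact (hc0 (by simpa using h2)).elim
  · exact (H ⟨_, h1 j, by simp [H', p3, hD.1.symm]⟩).elim

theorem one_at (v : Fin 5) : (∃ m, m ≠ v ∧ Pat φ e (pP m)) ∨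
    ∃ i k, D3 i v k ∧ Pat φ e (p3 2 1 1 i v k) := by
  obtain ⟨c, hc, h1⟩ := exists_one h he
  obtain ⟨w, hw, rfl, j, hj, hj'⟩ := hc.at h.toRS he v
  have h12 : (1 : F) ≠ 2 := fun e => one_ne_zero (α := F) (by linear_combination -e)
  rcases cls' h he hw hj (fun H => by simp [H] at h1) hj' with
    ⟨m, H⟩ | ⟨j, k, -, H⟩ | ⟨i, j, k, hD, H⟩
  · exact Or.inl ⟨m, fun e => by simp [H, pP, e] at h1, hw.pat H⟩
  · have := H v; unfold pQ at this; split_ifs at this <;> simp_all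
  · have h4 := H v
    unfold p3 at h4
    split_ifs at h4 with h5 h6 h7
    · exact (h12 (h1 ▸ h4)).elim
    · subst h6
      exact Or.inr ⟨i, k, hD, hw.pat H⟩
    · subst h7
      exact Or.inr ⟨i, j, ⟨hD.2.1, hD.1, hD.2.2.symm⟩, hw.pat (by rw [← p3_swap hD]; exact H)⟩
    · simp [h4] at h1

theorem two_at (hc : Occ φ c) (h1 : c ^ 2 = 2) (v : Fin 5) : (∃ k, v ≠ k ∧ Pat φ e (pQ v k)) ∨
    ∃ j k, D3 v j k ∧ Pat φ e (p3 2 1 1 v j k) := by
  obtain ⟨w, hw, rfl, j, hj, hj'⟩ := hc.at h.toRS he v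
  have h21 : (2 : F) ≠ 1 := fun e => one_ne_zero (α := F) (by linear_combination e)
  have h20 := h.two
  rcases cls' h he hw hj (fun H => h20 (by simpa [H] using h1.symm)) hj' with
    ⟨m, H⟩ | ⟨j, k, hjk, H⟩ | ⟨i, j, k, hD, H⟩
  · have := H v; unfold pP at this; split_ifs at this <;> simp_all
  · have h2 := H v
    unfold pQ at h2
    split_ifs at h2 with h3
    · rcases h3 with rfl | rfl
      exacts [Or.inl ⟨k, hjk, hw.pat H⟩, Or.inl ⟨j, hjk.symm, hw.pat (by rw [pQ_comm]; exact H)⟩]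
    · exact (h20 (h1 ▸ h2)).elim
  · have h4 := H v
    unfold p3 at h4
    split_ifs at h4 with h5 h6 h7
    · subst h5
      exact Or.inr ⟨j, k, hD, hw.pat H⟩
    all_goals simp_all

theorem exists_r : ∃ i j k, D3 i j k ∧ Pat φ e (p3 2 1 1 i j k) := by
  rcases one_at h he 0 with ⟨m, -, H⟩ | ⟨i, k, H⟩
  · rcases one_at h he m with ⟨l, hl, H'⟩ | ⟨i, k, H⟩
    exacts [(pp h he hl H' H).elim, ⟨i, m, k, H⟩]
  · exact ⟨i, 0, k, H⟩

theorem new_frame (hR : Pat φ e ![2, 1, 1, 0, 0]) : ∃ e' : Fin 5 → ι, Fr φ e' ∧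
    Pat φ e' (pQ 0 1) ∧ Pat φ e' (pQ 0 2) ∧ Pat φ e' (pQ 1 2) := by
  have hQ := hR.refl0 h.toRS he
  simp only [sub_self, z2, mul_one, mul_zero] at hQ
  obtain ⟨r, -, -, -, -, hr, -⟩ := hR.sq5
  obtain ⟨p, hp⟩ := hQ.rt5 h.toRS he z2 hr hr z2 z2
  obtain ⟨q, hq⟩ := hQ.rt5 h.toRS he z2 hr (z2 := -r) (by simpa) z2 z2
  have h2 := h.two
  have hp' : ∀ z, φ p z = r * (φ (e 1) z + φ (e 2) z) / 2 := fun z => by
    have := fr_dot he hp fun i => (rfl : φ (e i) z = _)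
    simp [Fin.sum_univ_five] at this
    field_simp
    linear_combination this
  have hq' : ∀ z, φ q z = r * (φ (e 1) z - φ (e 2) z) / 2 := fun z => by
    have := fr_dot he hq fun i => (rfl : φ (e i) z = _)
    simp [Fin.sum_univ_five] at this
    field_simp
    linear_combination this
  have ho : ∀ i j, φ (e i) (e j) = if i = j then 2 else 0 := fun i j => fr_coord h.toRS he j i
  obtain ⟨s, hs⟩ := hR.rt5 h.toRS he hr o2 o2 z2 z2
  obtain ⟨t, ht⟩ := hR.rt5 h.toRS he hr o2 m2 z2 z2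
  refine ⟨![e 0, p, q, e 3, e 4], ⟨fun i j hij => ?_, fun x y => ?_⟩,
    ⟨_, ⟨s, fun _ => rfl⟩, fun n => ?_⟩, ⟨_, ⟨t, fun _ => rfl⟩, fun n => ?_⟩,
    ⟨_, ⟨e 1, fun _ => rfl⟩, fun n => ?_⟩⟩
  · fin_cases i <;> fin_cases j <;> simp_all
  · rw [he.pars]
    simp only [Fin.sum_univ_five, Matrix.cons_val_zero, Matrix.cons_val_one, Matrix.cons_val,
      hp', hq']
    field_simp
    linear_combination (-2) * (φ (e 1) x * φ (e 1) y + φ (e 2) x * φ (e 2) y) * hr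
  · fin_cases n <;> simp [pQ, hp', hq', hs, hr]
    field_simp
    linear_combination 4 * hr
  · fin_cases n <;> simp [pQ, hp', hq', ht, hr]
    field_simp
    linear_combination 4 * hr
  · fin_cases n <;> simp [pQ, hp', hq', ho, hr, h2]

theorem final (h1 : Pat φ e (pQ 0 1)) (h2 : Pat φ e (pQ 0 2)) (h3 : Pat φ e (pQ 1 2)) :
    False := by
  have hQ : ∀ i j : Fin 5, i < 3 → j < 3 → i ≠ j → Pat φ e (pQ i j) := fun i j hi hj hij => by
    fin_cases i <;> fin_cases j <;> simp at hi hj hij <;>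
      first | assumption | (rw [pQ_comm]; assumption)
  have hR : ∀ i j k, D3 i j k → Pat φ e (p3 2 1 1 i j k) → ¬ j < 3 := fun i j k hD H hj => by
    obtain ⟨l, m, hl, hm, h4, h5, h6⟩ : ∃ l m : Fin 5, l < 3 ∧ m < 3 ∧ j ≠ l ∧ j ≠ m ∧ l ≠ m := by
      clear H hD; revert j; decide
    exact h6 ((only_q h he hD H h4 (hQ j l hj hl h4)).trans
      (only_q h he hD H h5 (hQ j m hj hm h5)).symm)
  rcases one_at h he 0 with ⟨m, -, H⟩ | ⟨i, k, hD, H⟩
  · have h4 : ∀ k, m ≠ k → ¬ Pat φ e (pQ m k) := fun k hk H' => by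
      refine pp h he hk H ?_
      convert H'.swap h.toRS he hk H using 1
      ext n
      simp [pP, Equiv.swap_apply_eq_iff]
    have h5 : ¬ m < 3 := fun hm => by
      obtain ⟨l, hl, h6⟩ : ∃ l : Fin 5, l < 3 ∧ m ≠ l := by clear h4 H; revert m; decide
      exact h4 l h6 (hQ m l hm hl h6)
    obtain ⟨x, hx, H'⟩ := h1
    rcases two_at h he (hx.occ_fr h.toRS he (i := 0) (j := 1) (by decide) fun e => h.two
      (by simpa [pQ, e] using (H' 1).symm)) (by simp [H', pQ]) m with ⟨k, hk, H⟩ | ⟨j, k, hD, H⟩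
    · exact h4 k hk H
    · have h6 := hR _ _ _ hD H
      have h7 := hR _ _ _ ⟨hD.2.1, hD.1, hD.2.2.symm⟩ (by rw [← p3_swap hD]; exact H)
      exact (by decide : ∀ m j k : Fin 5, D3 m j k → ¬ m < 3 → ¬ j < 3 → k < 3) m j k hD h5 h6
        |> h7
  · exact hR _ _ _ hD H (by decide)

end C5

open Matrix Low Max Mx Geo
open scoped MatrixGroups

variable {F : Type*} [Field F] {P : Subgroup (GL I4 F)}

theorem RS5.false {ι : Type*} {φ : ι → ι → F} (h : RS5 φ) : False := by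
  obtain ⟨e, he⟩ := h.frame
  obtain ⟨i, j, k, hD, H⟩ := C5.exists_r h he
  obtain ⟨σ, rfl, rfl, rfl⟩ := CR.perm3 hD
  have h1 := H.at σ
  simp [CR.p3] at h1
  obtain ⟨e', he', h2, h3, h4⟩ := C5.new_frame h (CR.fr_perm he σ) h1
  exact C5.final h he' h2 h3 h4

end Cfsg.Agent.Cl.S4O
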