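import Mathlib
import Cfsg.Agent.Cl.S4OBa
import Cfsg.Agent.Cl.S4OA
import Cfsg.Agent.Cl.S4OC5
import Cfsg.Agent.Cl.S4OC3

/-!
# The non-central involutions form an abstract root system; hence there are none
-/

set_option autoImplicit false
set_option linter.unusedSectionVars false
set_option linter.unusedVariables false
set_option linter.ambiguousOpen false

namespace Cfsg.Agent.Cl.S4O

open Matrix Low Max Mx Geo

variable {F : Type*} [Field F] {P : Subgroup (GL I4 F)} {e e' x d r t a b N X : M4 F}

theorem exists_decomp (hP : Ctx P) (he : D P e) (he' : D P e') (h0 : ip e e' = 0) (hx : W x) :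
    ∃ r, W r ∧ ip e r = 0 ∧ ip e' r = 0 ∧ x = (ip e x / 2) • e + (ip e' x / 2) • e' + r := by
  have h2 := hP.two
  refine ⟨x - (ip e x / 2) • e - (ip e' x / 2) • e', (hx.sub ((he.w hP).smul _)).sub
    ((he'.w hP).smul _), ?_, ?_, by abel⟩
  · simp only [ip_sub_right, ip_smul_right, he.ip_self hP, h0]; field_simp; ring
  · simp only [ip_sub_right, ip_smul_right, he'.ip_self hP, ip_comm e' e, h0]; field_simp; ring

/-- Some involution is neither in a given plane nor orthogonal to it. -/
theorem exists_skew (hP : Ctx P) (he : D P e) (he' : D P e') (h0 : ip e e' = 0) :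
    ∃ (α β : F) (r : M4 F), W r ∧ ip e r = 0 ∧ ip e' r = 0 ∧ r ≠ 0 ∧ (α ≠ 0 ∨ β ≠ 0) ∧
      D P (α • e + β • e' + r) := by
  have h2 := hP.two
  by_contra hc
  have a1 := ((he'.w hP).ip_eq_zero_iff h2 (he.w hP)).1 (by rwa [ip_comm])
  have key : ∀ s, D P s → s * (e * e') = e * e' * s ∨ s * (e * e') = -(e * e' * s) := fun s hs => by
    obtain ⟨r, hr, r1, r2, e1⟩ := exists_decomp hP he he' h0 (hs.w hP)
    have a2 := (hr.ip_eq_zero_iff h2 (he.w hP)).1 (by rwa [ip_comm])
    have a3 := (hr.ip_eq_zero_iff h2 (he'.w hP)).1 (by rwa [ip_comm])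
    generalize ip e s / 2 = α at e1
    generalize ip e' s / 2 = β at e1
    by_cases hr0 : r = 0
    · have b1 : e * (e * e') = -(e * e' * e) := by
        linear_combination (norm := noncomm_ring) e * a1
      have b2 : e' * (e * e') = -(e * e' * e') := by
        linear_combination (norm := noncomm_ring) a1 * e'
      right
      rw [e1, hr0, add_zero]
      simp only [add_mul, mul_add, smul_mul_assoc, mul_smul_comm, b1, b2]; module
    · left
      obtain ⟨rfl, rfl⟩ : α = 0 ∧ β = 0 := by
        by_contra h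
        exact hc ⟨α, β, r, hr, r1, r2, hr0, by tauto, e1 ▸ hs⟩
      rw [e1, zero_smul, zero_smul, zero_add, zero_add]
      linear_combination (norm := noncomm_ring) a2 * e' - e * a3
  obtain ⟨c, hc⟩ : ∃ c : F, e * e' = c • 1 := by
    refine hP.scalar_of_pm fun g hg => hP.ind (S := D P) (fun s hs => hs.mem)
      (fun g s hg hs => hs.conj hP hg) he he.ne he.ne'
      (p := fun g => g * (e * e') = e * e' * g ∨ g * (e * e') = -(e * e' * g)) (by simp)
      (fun a b _ _ ha hb => ?_) (fun s hs => by simpa only [hs.ad hP, and_self] using key s hs) hg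
    rcases ha with ha | ha <;> rcases hb with hb | hb
    · left; linear_combination (norm := noncomm_ring) a * hb + ha * b
    · right; linear_combination (norm := noncomm_ring) a * hb - ha * b
    · right; linear_combination (norm := noncomm_ring) a * hb + ha * b
    · left; linear_combination (norm := noncomm_ring) a * hb - ha * b
  have := (he.w hP).anti h2 (he'.w hP)
  have h1 : (e * e').trace = 0 := (div_eq_zero_iff.1 h0).resolve_right h2
  rw [hc, trace_smul, trace_one4, smul_eq_mul] at h1
  rw [(mul_eq_zero.1 h1).resolve_right (four_ne h2), zero_smul] at hc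
  exact he'.ne_zero (by rw [← Matrix.one_mul e', ← he.sq, Matrix.mul_assoc, hc, Matrix.mul_zero])

theorem five_pair [Finite F] (hP : Ctx P) (hs : Small P) (he : D P e) (he' : D P e')
    (h0 : ip e e' = 0) (hd : D P d) (hβ : ip e' d ≠ 0) : N5 (ip e d ^ 2) := by
  have h2 := hP.two
  by_cases hα : ip e d = 0
  · exact .inl (by rw [hα]; ring)
  obtain ⟨r, hr, r1, r2, e1⟩ := exists_decomp hP he he' h0 (hd.w hP)
  rw [show ip e d = 2 * (ip e d / 2) by field_simp]
  replace hα := div_ne_zero hα h2
  replace hβ := div_ne_zero hβ h2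
  generalize ip e d / 2 = α at e1 hα
  generalize ip e' d / 2 = β at e1 hβ
  by_cases hr0 : r = 0
  swap
  · exact five_core hP hs he he' h0 hr r1 r2 hr0 hα hβ (e1 ▸ hd) (γ := 1)
      (by rw [one_smul F r, ← e1]; exact hd)
  rw [hr0, add_zero] at e1
  have hn : α ^ 2 + β ^ 2 = 1 := by
    have := hd.ip_self hP
    simp only [e1, ip_add_left, ip_add_right, ip_smul_left, ip_smul_right, he.ip_self hP,
      he'.ip_self hP, h0, ip_comm e' e] at this
    exact mul_left_cancel₀ h2 (by linear_combination this)
  obtain ⟨α', β', r, hr, r1, r2, hr0, hne, hx⟩ := exists_skew hP he he' h0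
  have core : ∀ {α' β' : F}, α' ≠ 0 → β' ≠ 0 → D P (α' • e + β' • e' + r) → N5 ((2 * α) ^ 2) :=
    fun h1 h3 hx => five_core hP hs he he' h0 hr r1 r2 hr0 h1 h3 hx (γ := 0)
      (by rw [zero_smul F r, add_zero, ← e1]; exact hd)
  have hx' : D P ((α' - 2 * (α * α' + β * β') * α) • e + (β' - 2 * (α * α' + β * β') * β) • e' + r) := by
    convert hd.refl hP hx using 1
    simp only [e1, ip_add_left, ip_add_right, ip_smul_left, ip_smul_right, he.ip_self hP,
      he'.ip_self hP, h0, ip_comm e' e, r1, r2]
    module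
  by_cases h1 : (2 * α) ^ 2 = 2
  · exact .inr (.inr (.inl h1))
  by_cases h3 : α' = 0
  · exact core (by grind) (by grind) hx'
  by_cases h4 : β' = 0
  · exact core (by grind) (by grind) hx'
  exact core h3 h4 hx

/-- A frame of involutions. -/
structure Frame (P : Subgroup (GL I4 F)) (f : Fin 5 → M4 F) : Prop where
  d : ∀ i, D P (f i)
  orth : ∀ i j, i ≠ j → ip (f i) (f j) = 0

variable {f : Fin 5 → M4 F}

theorem Frame.eq_zero (hP : Ctx P) (hf : Frame P f) (hX : W X) (h : ∀ i, ip (f i) X = 0) : X = 0 :=
  hX.eq_zero_of_orth hP.two (fun i => (hf.d i).w hP)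
    (fun i => by rw [(hf.d i).ip_self hP]; exact hP.two) hf.orth h

theorem Frame.expand (hP : Ctx P) (hf : Frame P f) (hX : W X) :
    X = ∑ i, (ip (f i) X / 2) • f i := by
  refine sub_eq_zero.1 (hf.eq_zero hP (hX.sub (W.sum _ fun i _ => ((hf.d i).w hP).smul _)) fun j => ?_)
  rw [ip_sub_right, ip_sum_right, Finset.sum_eq_single j
    (fun i _ hi => by rw [ip_smul_right, hf.orth j i hi.symm, mul_zero]) (by simp), ip_smul_right,
    (hf.d j).ip_self hP, div_mul_cancel₀ _ hP.two, sub_self]

theorem Frame.five [Finite F] (hP : Ctx P) (hs : Small P) (hf : Frame P f) (hd : D P d) :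
    N5 (ip (f 0) d ^ 2) := by
  by_cases h : ∃ j, j ≠ 0 ∧ ip (f j) d ≠ 0
  · obtain ⟨j, hj, h⟩ := h
    exact five_pair hP hs (hf.d 0) (hf.d j) (hf.orth 0 j hj.symm) hd h
  push Not at h
  have := hf.expand hP (hd.w hP)
  rw [Finset.sum_eq_single 0 (fun i _ hi => by rw [h i hi, zero_div, zero_smul]) (by simp)] at this
  refine .inr (.inr (.inr (.inl ?_)))
  rcases (hf.d 0).pm_of_smul hP hd.sq this with e | e <;> rw [e]
  · rw [(hf.d 0).ip_self hP]; norm_num
  · rw [ip_neg_right, (hf.d 0).ip_self hP]; norm_num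

theorem no_quad (hs : Small P) (h2 : (2 : F) ≠ 0) (h3 : (3 : F) ≠ 0) (hm : Mem P (1 + N))
    (hN : N * N = 0) : N = 0 := by
  by_contra h0
  have := hs N ((2 : F) • N) hm (by
    convert hm.mul hm using 1
    simp only [add_mul, mul_add, hN, Matrix.one_mul, Matrix.mul_one]; module) hN
    (by rw [smul_mul_smul_comm, hN, smul_zero]) h0 (by simp)
  rcases this with e | e | e
  · exact h0 ((smul_eq_zero.1 e).resolve_left h2)
  · exact h0 (by linear_combination (norm := module) e)
  · exact h0 ((smul_eq_zero.1 (show (3 : F) • N = 0 by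
      linear_combination (norm := module) e)).resolve_left h3)

theorem sq_eq_zero_of_ip (hP : Ctx P) (ha : D P a) (hX : W X) (h1 : ip a X = 0) (h0 : X * X = 0)
    {a' : M4 F} (ha' : W a') (h1' : ip a' X = 0) : a * X * (a' * X) = 0 := by
  have := (hX.ip_eq_zero_iff hP.two ha').1 (by rwa [ip_comm])
  linear_combination (norm := noncomm_ring) a * this * X - a * a' * h0

theorem no_D [Finite F] (hP : Ctx P) (hs : Small P) (ht : D P t) : False := by
  have h2 := hP.two
  obtain ⟨hc, f, hf1, hf2⟩ := exists_frame hP ht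
  have hf : Frame P f := ⟨hf1, hf2⟩
  let φ : {t // D P t} → {t // D P t} → F := fun a b => ip a.1 b.1
  have par : ∀ a b, Par φ a b ↔ a.1 = b.1 ∨ a.1 = -b.1 := fun a b => by
    refine or_congr ⟨fun h => sub_eq_zero.1 (hf.eq_zero hP ((a.2.w hP).sub (b.2.w hP)) fun i => ?_),
      fun h x => by simp only [φ, h]⟩ ⟨fun h => eq_neg_iff_add_eq_zero.2
        (hf.eq_zero hP ((a.2.w hP).add (b.2.w hP)) fun i => ?_),
      fun h x => by simp only [φ, h, ip_neg_left]⟩
    · rw [ip_comm, ip_sub_left]; exact sub_eq_zero.2 (h ⟨_, hf1 i⟩)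
    · rw [ip_comm, ip_add_left]; exact eq_neg_iff_add_eq_zero.1 (h ⟨_, hf1 i⟩)
  have rs : RS φ :=
    { two := h2
      symm := fun a b => ip_comm _ _
      self := fun a => a.2.ip_self hP
      refl := fun a b => ⟨⟨_, a.2.refl hP b.2⟩, fun x => by
        simp only [φ, ip_sub_left, ip_smul_left]⟩
      trans := fun a b c hac => by
        obtain ⟨g, hg, e⟩ := hc a b a.2 b.2
        have hg' := hP.ad_mul hg
        rw [par, not_or] at hac
        have n1 : g * a * ad g ≠ g * c * ad g := fun h => hac.1 (conj_inj hg' h)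
        have n2 : g * a * ad g ≠ -(g * c * ad g) := fun h => hac.2 (conj_inj hg' (by simpa using h))
        rcases e with e | e
        · exact ⟨⟨_, c.2.conj hP hg⟩, by rw [par, ← e]; tauto, by simp only [φ, ← e, ip_conj hg']⟩
        · rw [← neg_eq_iff_eq_neg] at e
          refine ⟨⟨_, (c.2.conj hP hg).neg hP⟩, ?_, ?_⟩
          · rw [par, ← e, neg_inj, neg_inj]; tauto
          · simp only [φ, ← e, ip_neg_left, ip_neg_right, neg_neg, ip_conj hg']
      frame := ⟨fun i => ⟨_, hf1 i⟩, hf2, fun x y => by
        simp only [φ]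
        conv_lhs => rw [hf.expand hP (x.2.w hP), ip_sum_left, Finset.mul_sum]
        exact Finset.sum_congr rfl fun i _ => by rw [ip_smul_left]; field_simp⟩
      nontriv := by
        obtain ⟨α, β, r, hr, r1, r2, hr0, hne, hx⟩ := exists_skew hP (hf1 0) (hf1 1) (hf2 0 1 (by decide))
        have h01 := hf2 0 1 (by decide)
        have key : ∀ i : Fin 5, ip (f i) r = 0 → ¬ Par φ ⟨_, hf1 i⟩ ⟨_, hx⟩ := fun i hi h => by
          have : ∃ c : F, r = c • f i - α • f 0 - β • f 1 := by
            rcases (par _ _).1 h with h | h <;> simp only at h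
            · exact ⟨1, by linear_combination (norm := module) -h⟩
            · exact ⟨-1, by linear_combination (norm := module) h⟩
          obtain ⟨c, hc⟩ := this
          refine hr0 (hf.eq_zero hP hr fun j => ?_)
          by_cases j0 : j = 0
          · rwa [j0]
          by_cases j1 : j = 1
          · rwa [j1]
          by_cases ji : j = i
          · rwa [ji]
          rw [hc]
          simp only [ip_sub_right, ip_smul_right, hf2 j i ji, hf2 j 0 j0, hf2 j 1 j1]; ring
        rcases hne with h | h
        · refine ⟨_, _, ?_, key 0 r1⟩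
          simpa [φ, ip_add_right, ip_smul_right, (hf1 0).ip_self hP, h01, r1, h2] using h
        · refine ⟨_, _, ?_, key 1 r2⟩
          simpa [φ, ip_add_right, ip_smul_right, (hf1 1).ip_self hP, ip_comm (f 1) (f 0), h01, r2, h2]
            using h
      five := fun a b => by
        obtain ⟨g, hg, e⟩ := hc a (f 0) a.2 (hf1 0)
        have := hf.five hP hs (b.2.conj hP hg)
        rcases e with e | e
        · rwa [← e, ip_conj (hP.ad_mul hg)] at this
        · rwa [← neg_eq_iff_eq_neg.2 e, ip_neg_left, ip_conj (hP.ad_mul hg), neg_sq] at this }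
  -- two involutions with form value two
  have uni : ∀ {a n : M4 F} {c : F}, D P a → D P (a + c • n) → Mem P (1 + c • (a * n)) :=
    fun {a n c} ha hb => by
      convert ha.mem.mul hb.mem using 1
      rw [mul_add, ha.sq, mul_smul_comm]
  by_cases h3 : (3 : F) = 0
  · refine RS3.false (φ := φ) ⟨rs, h3, fun a b s hab hne hsum => ?_⟩
    obtain ⟨a, ha⟩ := a
    obtain ⟨b, hb⟩ := b
    obtain ⟨s, hs'⟩ := s
    simp only [par, not_or] at hne ⊢
    simp only [φ] at hab hsum ⊢
    have hn : W (a + b) := (ha.w hP).add (hb.w hP)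
    have hn0 : a + b ≠ 0 := fun h => hne.2 (eq_neg_of_add_eq_zero_left h)
    have i1 : ip a (a + b) = 0 := by rw [ip_add_right, ha.ip_self hP, hab]; linear_combination h3
    have i2 : ip s (a + b) = 0 := by rw [ip_add_right, hsum]
    have hnn : (a + b) * (a + b) = 0 := by
      rw [hn.sq h2, ip_add_left, i1, ip_add_right, hb.ip_self hP, ip_comm, hab]
      rw [show (0 + (1 + 2) : F) = 0 by linear_combination h3]; simp
    have m1 : Mem P (1 + (-1 : F) • (a * (a + b))) :=
      uni ha (by convert hb.neg hP using 1; module)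
    have hN0 : ∀ {x : M4 F} {c : F}, D P x → c • (x * (a + b)) = 0 → c = 0 := fun {x c} hx h => by
      by_contra hc
      exact hn0 (by rw [← Matrix.one_mul (a + b), ← hx.sq, Matrix.mul_assoc,
        (smul_eq_zero.1 h).resolve_left hc, Matrix.mul_zero])
    have sm : ∀ {x : M4 F} {c : F}, D P x → ip x (a + b) = 0 → Mem P (1 + c • (x * (a + b))) →
        c • (x * (a + b)) = 0 ∨ c • (x * (a + b)) = (-1 : F) • (a * (a + b)) ∨
          c • (x * (a + b)) = -((-1 : F) • (a * (a + b))) := fun {x c} hx hi hm =>
      hs _ _ m1 hm (by rw [smul_mul_smul_comm, sq_eq_zero_of_ip hP ha hn i1 hnn (ha.w hP) i1, smul_zero])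
        (by rw [smul_mul_smul_comm, sq_eq_zero_of_ip hP hx hn hi hnn (hx.w hP) hi, smul_zero])
        (fun h => one_ne_zero (neg_eq_zero.1 (hN0 ha h)))
        (by rw [smul_mul_smul_comm, smul_mul_smul_comm, sq_eq_zero_of_ip hP ha hn i1 hnn (hx.w hP) hi,
          sq_eq_zero_of_ip hP hx hn hi hnn (ha.w hP) i1, smul_zero, smul_zero])
    by_cases h0 : ip s a = 0
    · exact .inl h0
    right
    have hr := hs'.refl hP ha
    have m2 : Mem P (1 + (-1 : F) • ((a - ip s a • s) * (a + b))) := uni hr (by
      convert (hs'.refl hP hb).neg hP using 1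
      rw [eq_neg_of_add_eq_zero_right hsum]; module)
    have hY : (ip s a • s + a) * (a + b) = 0 := by
      rcases sm hr (by rw [ip_sub_left, ip_smul_left, i1, i2]; ring) m2 with e | e | e
      · exact absurd (neg_eq_zero.1 (hN0 hr e)) one_ne_zero
      · refine absurd (hN0 hs' (c := ip s a) ?_) h0
        rw [sub_mul, smul_mul_assoc] at e
        linear_combination (norm := module) e
      · rw [sub_mul, smul_mul_assoc] at e
        rw [add_mul, smul_mul_assoc]
        linear_combination (norm := module) e + h3 • (a * (a + b))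
    have hW : W (ip s a • s + a) := ((hs'.w hP).smul _).add (ha.w hP)
    obtain ⟨c, hc⟩ := hn.par_of_commute h2 hW hn0 (by
      have := congrArg ad hY
      rw [ad_mul, hn.ad, hW.ad, ad_zero] at this
      rw [this, hY])
    have hsq : (a + -c • (a + b)) * (a + -c • (a + b)) = 1 := by
      have := (hn.ip_eq_zero_iff h2 (ha.w hP)).1 (by rwa [ip_comm])
      generalize a + b = n at this hnn
      simp only [add_mul, mul_add, smul_mul_assoc, mul_smul_comm, this, hnn, ha.sq]; module
    have hpm := hs'.pm_of_smul hP hsq (c := -ip s a) (by linear_combination (norm := module) hc)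
    have hD : D P (a + -c • (a + b)) := by
      rcases hpm with e | e <;> rw [e]
      exacts [hs', hs'.neg hP]
    have hc3 : c = 0 ∨ c = 1 ∨ c = -1 := by
      rcases sm ha i1 (uni ha hD) with e | e | e
      · exact .inl (neg_eq_zero.1 (hN0 ha e))
      · exact .inr (.inl (sub_eq_zero.1 (hN0 ha (by linear_combination (norm := module) -e))))
      · exact .inr (.inr (eq_neg_of_add_eq_zero_left
          (hN0 ha (by linear_combination (norm := module) -e))))
    rcases hc3 with rfl | rfl | rfl
    · left
      rcases hpm with e | e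
      · exact .inl (by linear_combination (norm := module) -e)
      · exact .inr (by linear_combination (norm := module) e)
    · right; left
      rcases hpm with e | e
      · exact .inr (by linear_combination (norm := module) -e)
      · exact .inl (by linear_combination (norm := module) e)
    · right; right
      rcases hpm with e | e
      · exact .inr fun x => by
          rw [← ip_sub_left, show s = b - a by linear_combination (norm := module) -e + h3 • a]
      · exact .inl fun x => by
          rw [← ip_sub_left, show s = a - b by linear_combination (norm := module) e - h3 • a]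
  refine RS5.false (φ := φ) ⟨rs, h3, fun a b hab => ?_, fun e he b c b3 b4 c3 c4 h16 => ?_⟩
  · have key : ∀ {a b : M4 F}, D P a → D P b → ip a b = 2 → a = b := fun {a b} ha hb h => by
      have hn : W (b - a) := (hb.w hP).sub (ha.w hP)
      have i1 : ip a (b - a) = 0 := by rw [ip_sub_right, h, ha.ip_self hP, sub_self]
      have hnn : (b - a) * (b - a) = 0 := by
        rw [hn.sq h2, ip_sub_left, i1, ip_sub_right, hb.ip_self hP, ip_comm, h]; simp
      have := no_quad hs h2 h3 (uni (c := 1) (n := b - a) ha (by simpa using hb))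
        (by simpa using sq_eq_zero_of_ip hP ha hn i1 hnn (ha.w hP) i1)
      rw [one_smul] at this
      exact (sub_eq_zero.1 (by
        rw [← Matrix.one_mul (b - a), ← ha.sq, Matrix.mul_assoc, this, Matrix.mul_zero])).symm
    rw [par]
    rcases sq_eq_sq_iff_eq_or_eq_neg.1 (show φ a b ^ 2 = 2 ^ 2 by rw [hab]; norm_num) with h | h
    · exact .inl (key a.2 b.2 h)
    · exact .inr (key a.2 (b.2.neg hP) (by rw [ip_neg_right]; exact neg_eq_iff_eq_neg.2 h))
  · obtain ⟨b, hb⟩ := b
    obtain ⟨c, hc⟩ := c
    have w := fun i => (e i).2.w hP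
    have an : ∀ {x y : M4 F}, D P x → D P y → ip x y = 0 → y * x = -(x * y) := fun hx hy h =>
      ((hy.w hP).ip_eq_zero_iff h2 (hx.w hP)).1 (by rwa [ip_comm])
    simp only [φ] at b3 b4 c3 c4 h16 ⊢
    have o : ∀ i j, i ≠ j → (e j).1 * (e i).1 = -((e i).1 * (e j).1) := fun i j hij =>
      an (e i).2 (e j).2 (he.orth i j hij)
    set g := (e 1).1 * (e 2).1 * b * c with hg
    have mg : Mem P g := (((e 1).2.mem.mul (e 2).2.mem).mul hb.mem).mul hc.mem
    have cm : ∀ i, i ≠ 1 → i ≠ 2 → ip (e i).1 b = 0 → ip (e i).1 c = 0 →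
        (e i).1 * (g + ad g) = (g + ad g) * (e i).1 := fun i i1 i2 hb' hc' => by
      have e1 : (e i).1 * g = g * (e i).1 := by
        rw [hg]
        linear_combination (norm := noncomm_ring) o i 1 i1.symm.symm * ((e 2).1 * b * c) -
          (e 1).1 * o i 2 i2 * (b * c) + (e 1).1 * (e 2).1 * an (e i).2 hb hb' * c -
          (e 1).1 * (e 2).1 * b * an (e i).2 hc hc'
      have e2 := congrArg ad e1
      rw [ad_mul (e i).1, ad_mul g, (w i).ad] at e2
      rw [mul_add, add_mul, e1, e2]
    have hsa : ad (g + ad g) = g + ad g := by rw [ad_add, ad_ad, add_comm]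
    have hW := W.of_ad h2 hsa
    obtain ⟨l, hl⟩ := (w 3).par_of_commute h2 hW (e 3).2.ne_zero (by
      rw [mul_sub, sub_mul, cm 3 (by decide) (by decide) b3 c3]; simp)
    have hl0 : l = 0 := by
      have := cm 4 (by decide) (by decide) b4 c4
      rw [sub_eq_iff_eq_add.1 hl] at this
      simp only [mul_add, add_mul, smul_mul_assoc, mul_smul_comm, Matrix.mul_one, Matrix.one_mul,
        o 3 4 (by decide), add_left_inj, smul_neg] at this
      by_contra hl0
      have h34 := (smul_eq_zero.1 (eq_zero_of_two h2 this.symm)).resolve_left hl0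
      exact (e 4).2.ne_zero (by
        rw [← Matrix.one_mul (e 4).1, ← (e 3).2.sq, Matrix.mul_assoc, h34, Matrix.mul_zero])
    have htr : g.trace = ip (e 2).1 b * ip (e 1).1 c - ip (e 1).1 b * ip (e 2).1 c := by
      have e1 : g + (e 2).1 * b * c * (e 1).1 =
          ip (e 1).1 c • ((e 2).1 * b) - ip (e 1).1 b • ((e 2).1 * c) := by
        have : g + (e 2).1 * b * c * (e 1).1 = (e 2).1 * b * ((e 1).1 * c + c * (e 1).1) -
            (e 2).1 * ((e 1).1 * b + b * (e 1).1) * c := by
          rw [hg]; linear_combination (norm := noncomm_ring) o 1 2 (by decide) * (b * c)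
        rw [this, (w 1).anti h2 (hc.w hP), (w 1).anti h2 (hb.w hP)]; simp
      have e2 := congrArg trace e1
      rw [trace_add, trace_mul_comm _ (e 1).1, ← Matrix.mul_assoc, ← Matrix.mul_assoc, ← hg] at e2
      simp only [trace_sub, trace_smul, smul_eq_mul] at e2
      simp only [ip] at e2 ⊢
      field_simp at e2 ⊢
      linear_combination e2
    set σ := g.trace / 4 with hσ
    have h4 := four_ne h2
    have hσ2 : σ * σ = 1 := by
      rw [hσ, htr]; field_simp; linear_combination h16
    have hsum : ad g = (2 * σ) • 1 - g := by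
      rw [hl0, zero_smul, sub_eq_zero, trace_add, trace_ad] at hl
      rw [eq_sub_iff_add_eq', hl, hσ]; congr 1; ring
    have hgg : g * g = (2 * σ) • g - 1 := by
      have := hP.ad_mul mg
      rw [hsum, sub_mul, smul_mul_assoc, Matrix.one_mul] at this
      rw [← this]; abel
    have hN : σ • g - 1 = 0 := no_quad hs h2 h3 (by
      rw [add_sub_cancel]
      rcases mul_self_eq_one_iff.1 hσ2 with h | h <;> rw [h]
      · rwa [one_smul]
      · rw [neg_smul, one_smul]; exact hP.neg' mg) (by
      simp only [sub_mul, mul_sub, smul_mul_assoc, mul_smul_comm, hgg, Matrix.mul_one, Matrix.one_mul]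
      match_scalars <;> grind)
    -- now `b * (e 1 * e 2) = ± c`
    have hk : b * ((e 1).1 * (e 2).1) = (-σ) • c := by
      have e1 : g = σ • 1 := by
        rw [← sub_eq_zero.1 hN, smul_smul, hσ2, one_smul]
      have e2 : b * c = (-σ) • ((e 1).1 * (e 2).1) := by
        have : b * c = -((e 1).1 * (e 2).1 * g) := by
          rw [hg]
          linear_combination (norm := noncomm_ring) -(e 1).2.sq * (b * c) -
            (e 1).1 * (e 2).2.sq * ((e 1).1 * b * c) +
            (e 1).1 * (e 2).1 * o 1 2 (by decide) * (b * c)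
        rw [this, e1]; simp
      have e3 : c = (-σ) • (b * ((e 1).1 * (e 2).1)) := by
        rw [← mul_smul_comm, ← e2, ← Matrix.mul_assoc, hb.sq, Matrix.one_mul]
      rw [e3, smul_smul, neg_mul_neg, hσ2, one_smul]
    have hbk : (e 1).1 * (e 2).1 * b = -(b * ((e 1).1 * (e 2).1)) := by
      have := congrArg ad hk
      rw [ad_smul, (hc.w hP).ad, ← hk, ad_mul, ad_mul, (w 1).ad, (w 2).ad, hb.ad hP,
        o 1 2 (by decide)] at this
      rw [← this]; simp
    have e4 : ip (e 0).1 b • ((e 1).1 * (e 2).1) = ip (e 0).1 ((-σ) • c) • 1 := by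
      rw [← (w 0).anti h2 ((hc.w hP).smul _), ← hk, ← Matrix.one_mul ((e 1).1 * (e 2).1),
        ← smul_mul_assoc, ← (w 0).anti h2 (hb.w hP), Matrix.one_mul]
      linear_combination (norm := noncomm_ring) b * o 0 1 (by decide) * (e 2).1 -
        b * (e 1).1 * o 0 2 (by decide)
    have e5 := congrArg trace e4
    have h12 : ((e 1).1 * (e 2).1).trace = 0 :=
      (div_eq_zero_iff.1 (he.orth 1 2 (by decide))).resolve_right h2
    rw [trace_smul, h12, smul_zero, trace_smul, trace_one4, smul_eq_mul] at e5
    rw [(mul_eq_zero.1 e5.symm).resolve_right h4, zero_smul] at e4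
    by_contra h0
    exact (e 2).2.ne_zero (by rw [← Matrix.one_mul (e 2).1, ← (e 1).2.sq, Matrix.mul_assoc,
      (smul_eq_zero.1 e4).resolve_left h0, Matrix.mul_zero])

end Cfsg.Agent.Cl.S4O
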