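import Mathlib
import Cfsg.Agent.Cl.S4OBase
import Cfsg.Agent.Phan.AutSL2

/-!
# `SL₂(7)` is not maximal in `Sp₄(7)`
-/

set_option autoImplicit false
set_option linter.unusedSectionVars false
set_option linter.unusedVariables false
set_option linter.ambiguousOpen false

namespace Cfsg.Agent.Cl.S4O

open Matrix Low Max Mx Geo
open scoped MatrixGroups

namespace L7

/-- The group. -/
abbrev G7 := SL(2, ZMod 7)

/-- An explicit element. -/
def sl (a b c d : ZMod 7) (h : a * d - b * c = 1 := by decide) : G7 :=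
  ⟨!![a, b; c, d], by rw [det_fin_two_of]; exact h⟩

def u : G7 := sl 1 1 0 1
def l : G7 := sl 1 0 1 1
def m1 : G7 := sl (-1) 0 0 (-1)
def cp (t : ZMod 7) : G7 := sl 0 (-1) 1 t (by ring)

/-- The trace. -/
def t (x : G7) : ZMod 7 := x.1 0 0 + x.1 1 1

def c (a : ZMod 7) : ZMod 7 := a ^ 3 - 2 * a

theorem ext' {x y : G7} (h : x.1 = y.1) : x = y := Subtype.ext h

theorem mul_val (x y : G7) : (x * y).1 = x.1 * y.1 := rfl

theorem sl_val (a b c d : ZMod 7) (h) : (sl a b c d h).1 = !![a, b; c, d] := rfl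

theorem m_eq {a b c d a' b' c' d' : ZMod 7} (h1 : a = a') (h2 : b = b') (h3 : c = c')
    (h4 : d = d') : !![a, b; c, d] = !![a', b'; c', d'] := by rw [h1, h2, h3, h4]

theorem det_eq (x : G7) : x.1 0 0 * x.1 1 1 - x.1 0 1 * x.1 1 0 = 1 := by
  rw [← det_fin_two]; exact x.2

theorem gen_aux : ∀ a b c d : ZMod 7, a * d - b * c = 1 → ∃ i j k m : ZMod 7,
    a = 1 + j * k ∧ b = (1 + j * k) * m + j ∧ c = i + (i * j + 1) * k ∧
      d = (i + (i * j + 1) * k) * m + (i * j + 1) := by decide +kernel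

theorem u_pow : ∀ n : ZMod 7, u ^ n.val = sl 1 n 0 1 (by simp) := by decide +kernel
theorem l_pow : ∀ n : ZMod 7, l ^ n.val = sl 1 0 n 1 (by simp) := by decide +kernel

theorem ind (S : Submonoid G7) (hu : u ∈ S) (hl : l ∈ S) (x : G7) : x ∈ S := by
  obtain ⟨i, j, k, m, h1, h2, h3, h4⟩ := gen_aux _ _ _ _ (det_eq x)
  have : x = l ^ i.val * u ^ j.val * l ^ k.val * u ^ m.val := by
    rw [u_pow, u_pow, l_pow, l_pow]
    refine ext' ?_
    rw [eta_fin_two x.1, h1, h2, h3, h4]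
    simp only [mul_val, sl_val, mul_fin_two]
    apply m_eq <;> ring
  rw [this]
  exact S.mul_mem (S.mul_mem (S.mul_mem (S.pow_mem hl _) (S.pow_mem hu _)) (S.pow_mem hl _))
    (S.pow_mem hu _)

theorem conj_aux : ∀ a b c d : ZMod 7, a * d - b * c = 1 → (a + d = 0 ∨ a + d = -1 ∨ a + d = 3) →
    ∃ p r : ZMod 7, p * (c * p + d * r) - (a * p + b * r) * r = 1 := by decide +kernel

theorem conj_cp (x : G7) (h : t x = 0 ∨ t x = -1 ∨ t x = 3) : ∃ g : G7, x = g * cp (t x) * g⁻¹ := by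
  obtain ⟨p, r, e⟩ := conj_aux _ _ _ _ (det_eq x) h
  refine ⟨sl _ _ _ _ e, ?_⟩
  rw [eq_mul_inv_iff_mul_eq]
  refine ext' ?_
  have := det_eq x
  simp only [mul_val, sl_val, cp, t]
  nth_rw 1 [eta_fin_two x.1]
  simp only [mul_fin_two]
  apply m_eq
  · ring
  · linear_combination (-p) * this
  · ring
  · linear_combination (-r) * this

theorem pow_aux : ∀ a b c d : ZMod 7, a * d - b * c = 1 → a + d = 2 →
    (!![a, b; c, d] : Matrix (Fin 2) (Fin 2) (ZMod 7)) ^ 7 = 1 := by decide +kernel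

theorem pow_seven {x : G7} (h : t x = 2) : x ^ 7 = 1 := by
  refine ext' ?_
  have := pow_aux _ _ _ _ (det_eq x) h
  rw [← eta_fin_two x.1] at this
  exact (Matrix.SpecialLinearGroup.coe_pow x 7).trans this

theorem m1_comm (x : G7) : m1 * x = x * m1 := by
  have : m1.1 = -1 := by decide +kernel
  refine Subtype.ext ?_
  simp [this]

theorem t_m1 (x : G7) : t (m1 * x) = -t x := by
  have : m1.1 = -1 := by decide +kernel
  simp [t, this]; ring

theorem t_inv (g h : G7) : t (g * h⁻¹) = t g * t h - t (g * h) := by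
  simp [t, adjugate_fin_two, mul_apply]; ring

def ψ (g h : G7) : ZMod 7 := c (t (g * h)) + c (t g * t h - t (g * h))

def ψ4 (g h g' h' : G7) : ZMod 7 := ψ g g' - ψ g h' - (ψ h g' - ψ h h')

def A : Fin 7 → G7 :=
  ![sl 0 1 6 3, sl 0 1 6 3, sl 0 1 6 3, sl 0 5 4 3, sl 0 5 4 3, sl 1 3 5 2, sl 1 3 5 2]

def B : Fin 7 → G7 :=
  ![sl 0 1 6 3, sl 0 3 2 3, sl 1 2 4 2, sl 0 4 5 3, sl 1 1 1 2, sl 4 2 1 6, sl 5 1 3 5]

def Gr (i j : Fin 7) : ZMod 7 := if i = 0 ∨ j = 0 then 0 else if i = j then -2 else -1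

theorem gram : ∀ i j, ψ4 (A i) (B i) (A j) (B j) = Gr i j := by decide +kernel

theorem cA : ∀ i, c (t (A i)) = 0 ∧ c (t (B i)) = 0 := by decide +kernel

def πu : Fin 7 → Fin 7 := ![5, 0, 6, 4, 1, 2, 3]
def πl : Fin 7 → Fin 7 := ![2, 4, 6, 1, 0, 3, 5]
def u' : G7 := sl 1 6 0 1
def l' : G7 := sl 1 0 6 1

theorem u_inv : u⁻¹ = u' := inv_eq_of_mul_eq_one_right (by decide +kernel)
theorem l_inv : l⁻¹ = l' := inv_eq_of_mul_eq_one_right (by decide +kernel)

theorem gram_u : ∀ d i, ψ4 (A d) (B d) (u * A i * u') (u * B i * u') =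
    Gr d (πu i) - Gr d (πu 0) := by decide +kernel

theorem gram_l : ∀ d i, ψ4 (A d) (B d) (l * A i * l') (l * B i * l') =
    Gr d (πl i) - Gr d (πl 0) := by decide +kernel

def κ : Fin 5 → Fin 7 → ZMod 7 :=
  ![![0, 1, -1, 0, 0, 0, 0], ![0, 0, 0, 1, -1, 0, 0], ![0, 0, 0, 0, 0, 1, -1],
    ![0, 1, 1, -1, -1, 0, 0], ![0, 1, 1, 1, 1, -2, -2]]

theorem κ_gram : ∀ i j, (∑ b, ∑ a, κ j b * (κ i a * Gr a b) = 0 ↔ i ≠ j) := by decide +kernel

theorem three_ne : (3 : ZMod 7) ≠ 0 := by decide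
theorem c_ne : ∀ a, c a ≠ Gr 1 2 * 2 := by decide
theorem du : u.1 * !![1, 0; 0, -1] = !![1, 0; 0, -1] * u'.1 := by decide +kernel
theorem gr_ne : Gr 1 1 ≠ 0 := by decide
theorem gr_one : ∀ i j, Gr 1 1 = Gr 1 i - Gr 1 j → i = 1 ∧ j = 0 := by decide

variable {F : Type*} [Field F] {P : Subgroup (GL I4 F)} {ρ : G7 →* M4 F}

variable (P ρ) in
/-- The representation. -/
structure Rp : Prop where
  ctx : Ctx P
  mem : ∀ x, Mem P (ρ x)
  surj : ∀ g, Mem P g → ∃ x, ρ x = g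
  inj : Function.Injective ρ

namespace Rp

theorem ad (h : Rp P ρ) (x : G7) : S4O.ad (ρ x) = ρ x⁻¹ := by
  have e := h.ctx.ad_mul (h.mem x)
  rw [← Matrix.mul_one (S4O.ad (ρ x)), ← map_one ρ, ← mul_inv_cancel x, map_mul,
    ← Matrix.mul_assoc, e, Matrix.one_mul]

theorem neg (h : Rp P ρ) : ρ m1 = -1 := by
  obtain ⟨a, e⟩ := h.ctx.scalar (X := ρ m1) fun g hg => by
    obtain ⟨x, rfl⟩ := h.surj g hg
    rw [← map_mul, m1_comm, map_mul]
  refine (h.ctx.pm (h.mem _) e).resolve_left fun e1 => ?_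
  exact absurd (h.inj (e1.trans (map_one ρ).symm)) (by decide +kernel)

theorem tr_conj (h : Rp P ρ) (g x : G7) : (ρ (g * x * g⁻¹)).trace = (ρ x).trace := by
  rw [map_mul, map_mul, ← h.ad, trace_conj (h.ctx.ad_mul (h.mem g))]

theorem not_quad (h : Rp P ρ) {x g y : G7} (hy : g * x = y * g)
    (hS : ∀ S : Submonoid G7, x ∈ S → y ∈ S → u ∈ S ∧ l ∈ S) {a b : F}
    (e : ρ x * ρ x = a • ρ x + b • 1) : False := by
  have hg := h.ctx.ad_mul (h.mem g)
  have e1 : ρ y = ρ g * ρ x * S4O.ad (ρ g) := by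
    rw [h.ad, ← map_mul, ← map_mul, hy, mul_inv_cancel_right]
  have e2 : ρ y * ρ y = a • ρ y + b • 1 := by
    rw [e1, conj_mul hg, e, mul_add, add_mul]
    simp [mul_eq_one_comm.1 hg]
  refine h.ctx.q2 e e2 fun k hk => ?_
  obtain ⟨z, rfl⟩ := h.surj k hk
  let S := (Algebra.adjoin F {ρ x, ρ y}).toSubmonoid.comap ρ
  obtain ⟨hu, hl⟩ := hS S (Algebra.subset_adjoin (by simp)) (Algebra.subset_adjoin (by simp))
  exact ind S hu hl z

theorem nq_u (h : Rp P ρ) {a b : F} (e : ρ u * ρ u = a • ρ u + b • 1) : False := by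
  refine h.not_quad (g := sl 0 1 6 0) (y := l') (by decide +kernel) (fun S hx hy => ⟨hx, ?_⟩) e
  rw [show l = l' ^ 6 by decide +kernel]
  exact S.pow_mem hy _

theorem nq_three (h : Rp P ρ) {a b : F} (e : ρ (cp (-1)) * ρ (cp (-1)) = a • ρ (cp (-1)) + b • 1) :
    False := by
  refine h.not_quad (g := sl 0 3 2 4) (y := sl 4 5 0 2) (by decide +kernel)
    (fun S hx hy => ⟨?_, ?_⟩) e
  · rw [show u = cp (-1) * sl 4 5 0 2 ^ 2 * cp (-1) ^ 2 * sl 4 5 0 2 ^ 2 by decide +kernel]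
    exact S.mul_mem (S.mul_mem (S.mul_mem hx (S.pow_mem hy _)) (S.pow_mem hx _)) (S.pow_mem hy _)
  · rw [show l = (cp (-1) * sl 4 5 0 2) ^ 2 * cp (-1) by decide +kernel]
    exact S.mul_mem (S.pow_mem (S.mul_mem hx hy) _) hx

theorem nq_eight (h : Rp P ρ) {a b : F} (e : ρ (cp 3) * ρ (cp 3) = a • ρ (cp 3) + b • 1) :
    False := by
  refine h.not_quad (g := sl 0 2 3 6) (y := sl 1 3 5 2) (by decide +kernel)
    (fun S hx hy => ⟨?_, ?_⟩) e
  · rw [show u = cp 3 * sl 1 3 5 2 ^ 3 * cp 3 by decide +kernel]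
    exact S.mul_mem (S.mul_mem hx (S.pow_mem hy _)) hx
  · rw [show l = sl 1 3 5 2 * cp 3 ^ 2 by decide +kernel]
    exact S.mul_mem hy (S.pow_mem hx _)

theorem tr_four (h : Rp P ρ) : (ρ (cp 0)).trace = 0 := by
  have e : (cp 0)⁻¹ = m1 * cp 0 := inv_eq_of_mul_eq_one_right (by decide +kernel)
  have := trace_ad (ρ (cp 0))
  rw [h.ad, e, map_mul, h.neg, neg_one_mul, trace_neg] at this
  exact (mul_eq_zero.1 (show 2 * (ρ (cp 0)).trace = 0 by linear_combination -this)).resolve_left h.ctx.two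

theorem tr_three (h : Rp P ρ) (h3 : (3 : F) ≠ 0) : (ρ (cp (-1))).trace = 1 := by
  have e : (cp (-1))⁻¹ = cp (-1) * cp (-1) := inv_eq_of_mul_eq_one_right (by decide +kernel)
  set x := ρ (cp (-1)) with hx
  have e1 : S4O.ad x = x * x := by rw [hx, h.ad, e, map_mul]
  have e3 : x * x * x = 1 := by rw [← e1]; exact h.ctx.ad_mul (h.mem _)
  have e2 : S4O.ad (1 + x + x * x) = 1 + x + x * x := by
    rw [ad_add, ad_add, ad_one, ← e1, ad_ad, add_right_comm]
  obtain ⟨d, hd⟩ := sa_sq h.ctx.two e2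
  have e4 : (1 + x + x * x) * (1 + x + x * x) = (3 : F) • (1 + x + x * x) := by
    rw [show (3 : F) = 1 + 1 + 1 by norm_num, add_smul, add_smul, one_smul]
    linear_combination (norm := noncomm_ring) e3 + e3 + e3 * x
  have e5 : (1 + x + x * x).trace = 4 + 2 * x.trace := by
    rw [trace_add, trace_add, trace_one4, ← e1, trace_ad]; ring
  by_contra hne
  have hc : (1 + x + x * x).trace / 2 - 3 ≠ 0 := by
    rw [e5, sub_ne_zero, Ne, div_eq_iff h.ctx.two]
    exact fun e => hne (mul_left_cancel₀ h.ctx.two (by linear_combination e))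
  rw [e4] at hd
  refine h.nq_three (a := -1) (b := ((1 + x + x * x).trace / 2 - 3)⁻¹ * d - 1) ?_
  rw [← hx]
  refine smul_right_injective _ hc ?_
  simp only [smul_add, smul_smul, mul_sub, mul_inv_cancel_left₀ hc]
  set τ := (1 + x + x * x).trace / 2
  linear_combination (norm := module) -hd

theorem tr_eight (h : Rp P ρ) : (ρ (cp 3)).trace = 0 := by
  set x := ρ (cp 3) with hx
  have e0 := h.ctx.ad_mul (h.mem (cp 3))
  have e0' := h.ctx.mul_ad (h.mem (cp 3))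
  rw [← hx] at e0 e0'
  have e1 : S4O.ad x * S4O.ad x = -(x * x) := by
    rw [hx, h.ad, ← map_mul, ← map_mul, ← neg_one_mul, ← h.neg, ← map_mul, ← _root_.mul_inv_rev]
    exact congrArg ρ (inv_eq_of_mul_eq_one_right (by decide +kernel))
  have e2 : S4O.ad (x + S4O.ad x) = x + S4O.ad x := by rw [ad_add, ad_ad, add_comm]
  obtain ⟨d, hd⟩ := sa_sq h.ctx.two e2
  have e4 : (x + S4O.ad x) * (x + S4O.ad x) = (2 : F) • 1 := by
    rw [two_smul]
    linear_combination (norm := noncomm_ring) e0 + e0' + e1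
  rw [e4, trace_add, trace_ad, ← two_mul, mul_div_cancel_left₀ _ h.ctx.two] at hd
  by_contra hne
  refine h.nq_eight (a := x.trace⁻¹ * (2 + d)) (b := -1) ?_
  rw [← hx]
  refine smul_right_injective _ hne ?_
  simp only [smul_add, smul_smul, mul_inv_cancel_left₀ hne]
  have := congrArg (· * x) hd
  simp only [smul_mul_assoc, sub_mul, add_mul, e0, Matrix.one_mul] at this
  set τ := x.trace
  linear_combination (norm := module) -this

variable [CharP F 7]

/-- The prime field. -/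
noncomputable abbrev ι : ZMod 7 →+* F := ZMod.castHom (dvd_refl 7) F

theorem tr_unip (h : Rp P ρ) {x : G7} (hx : t x = 2) : (ρ x).trace = 4 := by
  have : Fact (Nat.Prime 7) := ⟨by norm_num⟩
  have : IsNilpotent (ρ x - 1) := ⟨7, by
    rw [sub_pow_char_of_commute _ (Commute.one_right _), ← map_pow, pow_seven hx]; simp⟩
  have := (isNilpotent_trace_of_isNilpotent this).eq_zero
  rwa [trace_sub, trace_one4, sub_eq_zero] at this

theorem tr_pos (h : Rp P ρ) {x : G7} (hx : t x = 2 ∨ t x = 0 ∨ t x = -1 ∨ t x = 3) :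
    (ρ x).trace = ι (c (t x)) := by
  rcases hx with hx | hx
  · rw [h.tr_unip hx, hx, show c 2 = 4 by decide, map_ofNat]
  obtain ⟨g, e⟩ := conj_cp x hx
  rw [congrArg ρ e, h.tr_conj]
  rcases hx with hx | hx | hx <;> rw [hx]
  · rw [h.tr_four, show c 0 = 0 by decide, map_zero]
  · have h3 : (3 : F) ≠ 0 := by
      rw [← map_ofNat (ι (F := F)) 3]
      have : Fact (Nat.Prime 7) := ⟨by norm_num⟩
      exact (map_ne_zero _).2 three_ne
    rw [h.tr_three h3, show c (-1) = 1 by decide, map_one]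
  · rw [h.tr_eight, show c 3 = 0 by decide, map_zero]

theorem tr (h : Rp P ρ) (x : G7) : (ρ x).trace = ι (c (t x)) := by
  have : ∀ a : ZMod 7, (a = 2 ∨ a = 0 ∨ a = -1 ∨ a = 3) ∨
      (-a = 2 ∨ -a = 0 ∨ -a = -1 ∨ -a = 3) := by decide
  rcases this (t x) with hx | hx
  · exact h.tr_pos hx
  · rw [← t_m1] at hx
    have e := h.tr_pos hx
    rw [map_mul, h.neg, neg_one_mul, trace_neg, t_m1, show c (-t x) = -c (t x) by
      simp only [c]; ring, map_neg] at e
    exact neg_injective e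

variable (ρ) in
/-- The symmetrised matrix. -/
def s (g : G7) : M4 F := ρ g + S4O.ad (ρ g)

theorem w_s (h : Rp P ρ) {g : G7} (hg : c (t g) = 0) : W (s ρ g) :=
  ⟨by rw [s, ad_add, ad_ad, add_comm], by rw [s, trace_add, trace_ad, h.tr, hg]; simp⟩

theorem ip_s (h : Rp P ρ) (g k : G7) : ip (s ρ g) (s ρ k) = ι (ψ g k) := by
  have e1 : (S4O.ad (ρ g) * ρ k).trace = (ρ g * S4O.ad (ρ k)).trace := by
    rw [← trace_ad, ad_mul, ad_ad, trace_mul_comm]
  have e2 : (S4O.ad (ρ g) * S4O.ad (ρ k)).trace = (ρ g * ρ k).trace := by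
    rw [← ad_mul, trace_ad, trace_mul_comm]
  rw [ip, s, s, add_mul, mul_add, mul_add, trace_add, trace_add, trace_add, e1, e2, h.ad,
    ← map_mul, ← map_mul, h.tr, h.tr, t_inv, ψ, map_add, div_eq_iff h.ctx.two]
  ring

theorem conj_s (h : Rp P ρ) (x g : G7) : ρ x * s ρ g * S4O.ad (ρ x) = s ρ (x * g * x⁻¹) := by
  rw [s, s, map_mul, map_mul, ← h.ad, ad_conj, mul_add, add_mul]

variable (ρ) in
/-- The roots. -/
def Z (i : Fin 7) : M4 F := s ρ (A i) - s ρ (B i)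

theorem w_Z (h : Rp P ρ) (i : Fin 7) : W (Z ρ i) := (h.w_s (cA i).1).sub (h.w_s (cA i).2)

theorem ip4 (h : Rp P ρ) (g k g' k' : G7) :
    ip (s ρ g - s ρ k) (s ρ g' - s ρ k') = ι (ψ4 g k g' k') := by
  simp only [ip_sub_left, ip_sub_right, h.ip_s, ψ4, map_sub]
  ring

theorem ip_Z (h : Rp P ρ) (i j : Fin 7) : ip (Z ρ i) (Z ρ j) = ι (Gr i j) := by
  rw [Z, Z, h.ip4, gram]

theorem Z_zero : Z ρ 0 = 0 := by
  rw [Z, show B 0 = A 0 by decide +kernel, sub_self]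

theorem eq_zero (h : Rp P ρ) {X : M4 F} (hX : W X) (e : ∀ d, ip (Z ρ d) X = 0) : X = 0 := by
  have : Fact (Nat.Prime 7) := ⟨by norm_num⟩
  have key : ∀ i j, ip (∑ a, ι (F := F) (κ i a) • Z ρ a) (∑ a, ι (F := F) (κ j a) • Z ρ a) = 0 ↔
      i ≠ j := fun i j => by
    rw [← κ_gram, ← map_eq_zero (ι (F := F))]
    simp only [ip_sum_left, ip_sum_right, ip_smul_left, ip_smul_right, h.ip_Z, map_sum, map_mul,
      Finset.mul_sum]
  refine hX.eq_zero_of_orth h.ctx.two (r := fun i => ∑ a, ι (F := F) (κ i a) • Z ρ a)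
    (fun i => W.sum _ fun a _ => (h.w_Z a).smul _) (fun i e => (key i i).1 e rfl)
    (fun i j e => (key i j).2 e) fun i => ?_
  simp only [ip_sum_left, ip_smul_left, e, mul_zero, Finset.sum_const_zero]

theorem conj_Z (h : Rp P ρ) {x x' : G7} (hx : x⁻¹ = x') {π : Fin 7 → Fin 7}
    (e : ∀ d i, ψ4 (A d) (B d) (x * A i * x') (x * B i * x') = Gr d (π i) - Gr d (π 0))
    (i : Fin 7) : ρ x * Z ρ i * S4O.ad (ρ x) = Z ρ (π i) - Z ρ (π 0) := by
  rw [← sub_eq_zero]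
  refine h.eq_zero (((h.w_Z i).conj (h.ctx.ad_mul (h.mem x))).sub ((h.w_Z _).sub (h.w_Z _)))
    fun d => ?_
  rw [ip_sub_right, ip_sub_right, h.ip_Z, h.ip_Z, Z, Z, mul_sub, sub_mul, h.conj_s, h.conj_s, hx,
    h.ip4, e, map_sub, sub_self]

variable (ρ) in
/-- The root system. -/
def Φ : Set (M4 F) := {X | ∃ i j, i ≠ j ∧ X = Z ρ i - Z ρ j}

theorem Φ_of {a b : M4 F} {π : Fin 7 → Fin 7} (hπ : Function.Injective π) {Y : M4 F}
    (e : ∀ i, a * Z ρ i * b = Z ρ (π i) - Y) {X : M4 F} (hX : X ∈ Φ ρ) : a * X * b ∈ Φ ρ := by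
  obtain ⟨i, j, hij, rfl⟩ := hX
  exact ⟨π i, π j, hπ.ne hij, by rw [mul_sub, sub_mul, e, e, sub_sub_sub_cancel_right]⟩

theorem Φ_P (h : Rp P ρ) (x : G7) : ∀ X ∈ Φ ρ, ρ x * X * S4O.ad (ρ x) ∈ Φ ρ := by
  let S : Submonoid G7 :=
    { carrier := {x | ∀ X ∈ Φ ρ, ρ x * X * S4O.ad (ρ x) ∈ Φ ρ}
      one_mem' := fun X hX => by simpa using hX
      mul_mem' := fun {a b} ha hb X hX => by
        simpa only [map_mul, ad_mul, Matrix.mul_assoc] using ha _ (hb X hX) }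
  exact ind S (fun X => Φ_of (by decide) (h.conj_Z u_inv gram_u))
    (fun X => Φ_of (by decide) (h.conj_Z l_inv gram_l)) x

theorem Z_sq (h : Rp P ρ) {a : Fin 7} (ha : a ≠ 0) : Z ρ a * Z ρ a = -1 := by
  rw [(h.w_Z a).sq h.ctx.two, h.ip_Z, show Gr a a = -2 by simp [Gr, ha], map_neg, map_ofNat,
    neg_div, div_self h.ctx.two, neg_smul, one_smul]

theorem refl_Z (h : Rp P ρ) {a : Fin 7} (ha : a ≠ 0) (i : Fin 7) :
    Z ρ a * Z ρ i * Z ρ a = Z ρ (Equiv.swap 0 a i) - Z ρ a := by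
  by_cases h0 : i = 0
  · simp [h0, Z_zero]
  by_cases h1 : i = a
  · simp [h1, Z_zero, h.Z_sq ha]
  have e := (h.w_Z a).anti h.ctx.two (h.w_Z i)
  rw [h.ip_Z, show Gr a i = -1 by simp [Gr, ha, h0, Ne.symm h1], map_neg, map_one, neg_smul,
    one_smul] at e
  rw [Equiv.swap_apply_of_ne_of_ne h0 h1]
  linear_combination (norm := noncomm_ring) e * Z ρ a - Z ρ i * h.Z_sq ha

/-- No symplectic matrix inverts the unipotent generator. -/
theorem not_inv [Fintype F] (h : Rp P ρ) (hq : Fintype.card F = 7) {k : M4 F}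
    (hk : S4O.ad k * k = 1) (e : k * ρ u * S4O.ad k = S4O.ad (ρ u)) : False := by
  have h2 := h.ctx.two
  have e0 := h.ctx.ad_mul (h.mem u)
  have e0' := h.ctx.mul_ad (h.mem u)
  have t1 : (ρ u).trace = 4 := h.tr_unip (by decide)
  have t2 : (ρ u * ρ u).trace = 4 := by rw [← map_mul]; exact h.tr_unip (by decide)
  have nq : ∀ a b : F, ρ u * ρ u ≠ a • ρ u + b • 1 := fun a b => h.nq_u
  generalize ρ u = x at *
  have e' : k * S4O.ad x * S4O.ad k = x := by rw [← ad_conj, e, ad_ad]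
  set y := S4O.ad x with hy
  set X := x + y - (1 + 1) with hX
  have hXW : W X := ⟨by rw [hX, ad_sub, ad_add, hy, ad_ad, ad_add, ad_one, add_comm x], by
    rw [hX, trace_sub, trace_add, hy, trace_ad, trace_add, trace_one4, t1, sub_self]⟩
  have hXX : X * X = 0 := by
    have : X * X = x * x + y * y + (1 + 1 + 1 + 1 + 1 + 1) - (x + x + x + x) - (y + y + y + y) := by
      rw [hX]; linear_combination (norm := noncomm_ring) e0 + e0'
    rw [hXW.sq h2, ip, this, hy, ← ad_mul]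
    simp only [trace_sub, trace_add, trace_ad, trace_one4, t1, t2]
    norm_num
  have hX0 : X ≠ 0 := fun e => nq 2 (-1) (by
    rw [hX] at e
    rw [two_smul, neg_smul, one_smul]
    linear_combination (norm := noncomm_ring) e * x - e0)
  have hX1 : ∀ a b, X ≠ vecMulVec a b := fun a b e =>
    hX0 (e.trans (sa_rank h2 (by rw [← e]; exact hXW.ad)))
  set M := x - y with hM
  have hc : M * X = X * M := by rw [hX, hM]; linear_combination (norm := noncomm_ring) (e0' - e0) * 2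
  have hMM : M * M * X = 0 := by
    have : M * M = X * X + (X + X + X + X) := by
      rw [hX, hM]; linear_combination (norm := noncomm_ring) -(e0' + e0) * 2
    rw [this, hXX]
    simp only [add_mul, hXX, add_zero, zero_mul]
  have hT0 : M * X ≠ 0 := fun eT => by
    -- `M X = 0` forces `(x - 1) X = 0`
    have h1 : (x - 1) * X = 0 := by
      have : x - 1 + (x - 1) = X + M := by rw [hX, hM]; abel
      refine eq_zero_of_two h2 (eq_neg_iff_add_eq_zero.2 ?_)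
      rw [← add_mul, this, add_mul, hXX, eT, add_zero]
    have h3 : X * (x - 1) = 0 := by
      rw [← h1, hX]; linear_combination (norm := noncomm_ring) e0 - e0'
    have h4 : (x - 1) * (x - 1) = 0 := mat_ext fun v => by
      obtain ⟨w, hw⟩ := ker_im hXX hX1 (v := (x - 1) *ᵥ v) (by rw [mulVec_mulVec, h3, zero_mulVec])
      rw [← mulVec_mulVec, ← hw, mulVec_mulVec, h1, zero_mulVec, zero_mulVec]
    exact nq 2 (-1) (by
      rw [two_smul, neg_smul, one_smul]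
      linear_combination (norm := noncomm_ring) h4)
  obtain ⟨a, b, hab⟩ : ∃ a b, M * X = vecMulVec a b := by
    by_contra hn
    push Not at hn
    have hTT : M * X * (M * X) = 0 := by
      rw [Matrix.mul_assoc, ← Matrix.mul_assoc X, ← hc, Matrix.mul_assoc, hXX]; simp
    have key : ∀ v, ∃ w, (M * X) *ᵥ w = X *ᵥ v := fun v =>
      ker_im hTT hn (by rw [mulVec_mulVec, Matrix.mul_assoc, hXX]; simp)
    refine hT0 (mat_ext fun v => ?_)
    obtain ⟨w, hw⟩ := key v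
    rw [← mulVec_mulVec, ← hw, mulVec_mulVec, ← Matrix.mul_assoc, hMM, zero_mulVec, zero_mulVec]
  have hT : S4O.ad (M * X) = -(M * X) := by
    rw [ad_mul, hXW.ad, hM, ad_sub, hy, ad_ad, ← hy, ← neg_sub, ← hM, Matrix.mul_neg, hc]
  have hkT : k * (M * X) * S4O.ad k = -(M * X) := by
    rw [← conj_mul hk, hM, hX]
    simp only [mul_sub, sub_mul, mul_add, add_mul, e, e', Matrix.mul_one, mul_eq_one_comm.1 hk]
    noncomm_ring
  generalize M * X = T at *
  have sy : ∀ v w, S4O.B (T *ᵥ v) w = S4O.B (T *ᵥ w) v := fun v w => by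
    rw [B_mul, hT, neg_mulVec, B_swap]; simp [S4O.B]
  have fm : ∀ v w, S4O.B (T *ᵥ v) w = (b ⬝ᵥ v) * S4O.B a w := fun v w => by
    rw [hab]; simp [vecMulVec_mulVec, S4O.B]
  have sq : ∀ v w, S4O.B (T *ᵥ v) w ^ 2 = S4O.B (T *ᵥ v) v * S4O.B (T *ᵥ w) w := fun v w => by
    rw [pow_two]
    nth_rw 2 [sy]
    simp only [fm]
    ring
  have hk2 : ∀ v, S4O.B (T *ᵥ (k *ᵥ v)) (k *ᵥ v) = -S4O.B (T *ᵥ v) v := fun v => by
    have : T * k = -(k * T) := by
      linear_combination (norm := noncomm_ring) hkT * k - k * T * hk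
    rw [mulVec_mulVec, this, neg_mulVec, ← mulVec_mulVec]
    simp only [S4O.B, map_neg, LinearMap.neg_apply]
    exact congrArg _ (B_conj hk _ _)
  have f0 : ∀ v, S4O.B (T *ᵥ v) v = 0 := fun v => by
    by_contra h0
    have := sq v (k *ᵥ v)
    rw [hk2] at this
    have : IsSquare (-1 : F) := ⟨S4O.B (T *ᵥ v) (k *ᵥ v) / S4O.B (T *ᵥ v) v, by
      field_simp
      linear_combination -this⟩
    exact FiniteField.isSquare_neg_one_iff.1 this (by rw [hq])
  refine hT0 (mat_ext fun v => ?_)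
  rw [zero_mulVec]
  exact eq_zero_of_B fun w => pow_eq_zero_iff two_ne_zero |>.1 (by rw [sq, f0, zero_mul])

theorem sq_aux : ∀ δ : ZMod 7, δ ≠ 0 → ∃ a b : ZMod 7, a * b = 1 ∧ (a * a * δ = 1 ∨ a * a * δ = -1) := by
  decide

/-- The normaliser in `Sp₄(7)`. -/
theorem mem_of_norm [Fintype F] (h : Rp P ρ) (hq : Fintype.card F = 7) {k : M4 F}
    (hk : S4O.ad k * k = 1) (α : G7 ≃* G7) (e : ∀ x, k * ρ x * S4O.ad k = ρ (α x)) :
    Mem P k := by
  have : Fact (Nat.Prime 7) := ⟨by norm_num⟩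
  obtain ⟨g, τ, hg⟩ := Phan.exists_aut_sl2 α
  have hτ : ∀ z : G7, z.1.map τ = z.1 := fun z => by
    ext i j
    exact RingHom.congr_fun (Subsingleton.elim (τ : ZMod 7 →+* ZMod 7) (RingHom.id _)) _
  have hg' : ∀ z : G7, (α z).1 * g.1 = g.1 * z.1 := fun z => by
    rw [hg, hτ, Units.inv_mul_cancel_right]
  have key : ∀ y z z' : G7, α z * y = y * z' →
      S4O.ad (ρ y) * k * ρ z * S4O.ad (S4O.ad (ρ y) * k) = ρ z' := fun y z z' e' => by
    rw [ad_mul, ad_ad]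
    have : S4O.ad (ρ y) * k * ρ z * (S4O.ad k * ρ y) = S4O.ad (ρ y) * (k * ρ z * S4O.ad k * ρ y) := by
      noncomm_ring
    rw [this, e, ← map_mul, e', map_mul, ← Matrix.mul_assoc, h.ctx.ad_mul (h.mem y), Matrix.one_mul]
  have hk' : ∀ y : G7, S4O.ad (S4O.ad (ρ y) * k) * (S4O.ad (ρ y) * k) = 1 := fun y => by
    rw [ad_mul, ad_ad]
    linear_combination (norm := noncomm_ring) S4O.ad k * h.ctx.mul_ad (h.mem y) * k + hk
  obtain ⟨a, b, hab, h1 | h1⟩ := sq_aux g.1.det (GeneralLinearGroup.det_ne_zero g)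
  · let y : G7 := ⟨a • g.1, by rw [det_smul]; simpa [pow_two] using h1⟩
    have y1 : y.1 = a • g.1 := rfl
    have hy : ∀ z, α z * y = y * z := fun z => ext' (by
      simp only [mul_val, y1, mul_smul_comm, smul_mul_assoc, hg'])
    obtain ⟨r, hr⟩ := h.ctx.scalar (X := S4O.ad (ρ y) * k) fun p hp => by
      obtain ⟨z, rfl⟩ := h.surj p hp
      nth_rw 2 [← key y z z (hy z)]
      rw [Matrix.mul_assoc _ (S4O.ad _), hk', Matrix.mul_one]
    have h3 := hk' y
    rw [hr, ad_smul, ad_one, smul_mul_smul_comm, Matrix.mul_one, ← one_smul F (1 : M4 F),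
      smul_smul, mul_one] at h3
    have h4 : k = r • ρ y := by
      rw [← Matrix.one_mul k, ← h.ctx.mul_ad (h.mem y), Matrix.mul_assoc, hr]; simp
    rcases mul_self_eq_one_iff.1 (smul_one_inj h3) with rfl | rfl
    · rw [h4, one_smul]; exact h.mem y
    · rw [h4, neg_smul, one_smul]; exact h.ctx.neg' (h.mem y)
  · let y : G7 := ⟨a • (g.1 * !![1, 0; 0, -1]), by
      rw [det_smul, det_mul, det_fin_two_of]
      simp only [Fintype.card_fin]
      linear_combination -h1⟩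
    have y1 : y.1 = a • (g.1 * !![1, 0; 0, -1]) := rfl
    have hy : α u * y = y * u⁻¹ := ext' (by
      simp only [mul_val, y1, mul_smul_comm, smul_mul_assoc, ← Matrix.mul_assoc, hg', u_inv]
      rw [Matrix.mul_assoc, Matrix.mul_assoc]
      rw [du])
    exact (h.not_inv hq (hk' y) ((key y u _ hy).trans (h.ad u).symm)).elim

end Rp

end L7

variable {F : Type*} [Field F] {P : Subgroup (GL I4 F)}

open L7 in
theorem l27 [Fintype F] (h : Ctx P) (hq : Fintype.card F = 7) (e : SL(2, ZMod 7) ≃* P) :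
    NotMax P := by
  have : Fact (Nat.Prime 7) := ⟨by norm_num⟩
  have : CharP F 7 := charP_of_card_eq_prime hq
  let ρ : G7 →* M4 F := (Units.coeHom (M4 F)).comp (P.subtype.comp e.toMonoidHom)
  have hρ : ∀ x, ρ x = ((e x : P) : GL I4 F) := fun x => rfl
  have R : Rp P ρ := ⟨h, fun x => mem_coe (e x).2, fun g ⟨k, hk, e'⟩ =>
    ⟨e.symm ⟨k, hk⟩, by rw [hρ, e.apply_symm_apply, e']⟩,
    fun x y hxy => e.injective (Subtype.ext (Units.ext hxy))⟩
  intro H hPH hN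
  have hH : ∀ k, Mem H k → ad k * k = 1 → Mem P k := by
    rintro _ ⟨k, hk, rfl⟩ hk'
    have hk1 : k ∈ Subgroup.normalizer (P : Set (GL I4 F)) := Subgroup.mem_normalizer_iff.2 fun x =>
      ⟨hN k hk x, fun hx => by simpa [mul_assoc] using hN k⁻¹ (H.inv_mem hk) _ hx⟩
    refine R.mem_of_norm hq hk'
      ((e.trans (P.normalizerMonoidHom ⟨k, hk1⟩)).trans e.symm) fun x => ?_
    rw [hρ, hρ, ← coe_inv_of_sp (mem_sp_iff.2 hk')]
    simp
  have hg : ad (Rp.Z ρ 1 * Rp.Z ρ 2) = Rp.Z ρ 2 * Rp.Z ρ 1 := by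
    rw [ad_mul, (R.w_Z 1).ad, (R.w_Z 2).ad]
  have hg1 : ad (Rp.Z ρ 1 * Rp.Z ρ 2) * (Rp.Z ρ 1 * Rp.Z ρ 2) = 1 := by
    rw [hg]
    linear_combination (norm := noncomm_ring) Rp.Z ρ 2 * R.Z_sq (a := 1) (by decide) * Rp.Z ρ 2 -
      R.Z_sq (a := 2) (by decide)
  have h11 : ip (Rp.Z ρ 1) (Rp.Z ρ 1) = Rp.ι (Gr 1 1) := R.ip_Z 1 1
  refine not_max h.two (Φ := Rp.Φ ρ) (X := Rp.Z ρ 1) (fun k hk hk' => ?_) hg1 (fun X hX => ?_)
    (fun hm => ?_) ⟨1, 0, by decide, by rw [Rp.Z_zero, sub_zero]⟩ (R.w_Z 1) ?_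
    fun Y hY hY0 _ hXY hc => ?_
  · obtain ⟨x, rfl⟩ := R.surj k (hH k hk hk')
    exact R.Φ_P x
  · have := Rp.Φ_of (Equiv.injective _) (R.refl_Z (a := 1) (by decide))
      (Rp.Φ_of (Equiv.injective _) (R.refl_Z (a := 2) (by decide)) hX)
    simpa only [hg, Matrix.mul_assoc] using this
  · obtain ⟨x, hx⟩ := R.surj _ (hH _ hm hg1)
    have h1 := R.ip_Z 1 2
    rw [ip, ← hx, R.tr, div_eq_iff h.two, ← map_ofNat (Rp.ι (F := F)) 2, ← map_mul] at h1
    exact absurd ((Rp.ι (F := F)).injective h1) (c_ne _)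
  · rw [h11]
    exact (map_ne_zero _).2 gr_ne
  · obtain ⟨i, j, -, e'⟩ := hc 1
    have h1 := congrArg (ip (Rp.Z ρ 1)) e'
    rw [one_smul, ip_add_right, hXY, add_zero, ip_sub_right, h11, R.ip_Z, R.ip_Z, ← map_sub] at h1
    obtain ⟨rfl, rfl⟩ := gr_one i j
      ((Rp.ι (F := F)).injective h1)
    rw [Rp.Z_zero, sub_zero, one_smul] at e'
    exact hY0 (add_eq_left.1 e')

end Cfsg.Agent.Cl.S4O
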