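import Mathlib
import Cfsg.Agent.Cl.S4OBase
import Cfsg.Agent.Chev.TimGen

/-! Quadratic unipotent elements of a subgroup of `Sp₄(q)` without transvections, I. -/

set_option autoImplicit false
set_option linter.unusedSectionVars false
set_option linter.ambiguousOpen false

namespace Cfsg.Agent.Cl.S4O.Q

open Matrix Low Max Mx Geo Cfsg.Agent.GT
open scoped MatrixGroups

variable {F : Type*} [Field F] {P : Subgroup (GL I4 F)} {N M K T g : M4 F}

theorem two_le_rank (h1 : ∀ a b, N ≠ vecMulVec a b) :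
    2 ≤ Module.finrank F (LinearMap.range (toLin' N)) := by
  by_contra hc
  obtain ⟨a, ha⟩ := finrank_le_one_iff.1 (Nat.lt_succ_iff.1 (not_le.1 hc))
  choose c hc using fun j => ha ⟨toLin' N (Pi.single j 1), _, rfl⟩
  refine h1 a c (Matrix.ext fun i j => ?_)
  have := congrFun (congrArg Subtype.val (hc j)) i
  simp only [SetLike.val_smul, Pi.smul_apply, smul_eq_mul, toLin'_apply, mulVec_single_one,
    col_apply] at this
  rw [vecMulVec_apply, ← this, mul_comm]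

theorem ker_im' (hT : ∀ a b, T ≠ vecMulVec a b) (hN : ∀ a b, N ≠ vecMulVec a b) (h : T * N = 0)
    {v : I4 → F} (hv : T *ᵥ v = 0) : ∃ u, N *ᵥ u = v := by
  have hle : LinearMap.range (toLin' N) ≤ LinearMap.ker (toLin' T) := by
    rintro _ ⟨u, rfl⟩
    simp [mulVec_mulVec, h]
  have h1 := two_le_rank hT
  have h2 := two_le_rank hN
  have h3 := LinearMap.finrank_range_add_finrank_ker (toLin' T)
  rw [Module.finrank_fintype_fun_eq_card] at h3
  have := Submodule.eq_of_le_of_finrank_le hle (by simp at h3; omega)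
  exact (this.ge (show toLin' T v = 0 from hv) :)

theorem mul_zero_of (hT : ∀ a b, T ≠ vecMulVec a b) (hN : ∀ a b, N ≠ vecMulVec a b)
    (h : T * N = 0) (h' : T * M = 0) (hK : K * N = 0) : K * M = 0 := mat_ext fun v => by
  obtain ⟨u, hu⟩ := ker_im' hT hN h (v := M *ᵥ v) (by rw [mulVec_mulVec, h', zero_mulVec])
  rw [← mulVec_mulVec, ← hu, mulVec_mulVec, hK, zero_mulVec, zero_mulVec]

theorem nr (hn : NoTv P) (hT : Mem P (1 + T)) (h0 : T ≠ 0) (a b : I4 → F) : T ≠ vecMulVec a b :=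
  fun e => h0 (e.trans (hn a b (e ▸ hT)))

variable (P) in
/-- Quadratic unipotent elements. -/
structure Qd (N : M4 F) : Prop where
  mem : Mem P (1 + N)
  sq : N * N = 0

namespace Qd

theorem zero : Qd P 0 := ⟨by simpa using Mem.one, by simp⟩

theorem ad1 (h : Ctx P) (hN : Qd P N) : ad (1 + N) = 1 - N := by
  linear_combination (norm := noncomm_ring) h.ad_mul hN.mem * (1 - N) + ad (1 + N) * hN.sq

theorem ad (h : Ctx P) (hN : Qd P N) : ad N = -N := by
  have := hN.ad1 h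
  rw [ad_add, ad_one] at this
  linear_combination (norm := noncomm_ring) this

theorem neg (h : Ctx P) (hN : Qd P N) : Qd P (-N) :=
  ⟨by simpa only [hN.ad1 h, sub_eq_add_neg] using h.ad hN.mem, by simp [hN.sq]⟩

theorem conj (h : Ctx P) (hN : Qd P N) (hg : Mem P g) : Qd P (g * N * S4O.ad g) :=
  ⟨by simpa only [mul_add, add_mul, Matrix.mul_one, h.mul_ad hg] using h.conj hg hN.mem,
    by rw [conj_mul (h.ad_mul hg), hN.sq]; simp⟩

theorem conj' (h : Ctx P) (hN : Qd P N) (hM : Qd P M) : Qd P ((1 + M) * N * (1 - M)) :=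
  hM.ad1 h ▸ hN.conj h hM.mem

theorem swap (h : Ctx P) (hN : Qd P N) (hM : Qd P M) (e : N * M = 0) : M * N = 0 := by
  simpa only [ad_mul, hN.ad h, hM.ad h, neg_mul_neg, ad_zero] using congrArg S4O.ad e

theorem add (h : Ctx P) (hN : Qd P N) (hM : Qd P M) (e : N * M = 0) : Qd P (N + M) :=
  ⟨by simpa only [mul_add, add_mul, Matrix.mul_one, Matrix.one_mul, e, add_zero, add_assoc]
    using hN.mem.mul hM.mem, by
    simp only [mul_add, add_mul, hN.sq, hM.sq, e, hN.swap h hM e, add_zero]⟩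

/-- Elements on the same line have the same annihilator. -/
theorem trans (hn : NoTv P) (hN : Qd P N) (h0 : N ≠ 0) (e : N * M = 0) (hK : K * N = 0) :
    K * M = 0 := mul_zero_of (nr hn hN.mem h0) (nr hn hN.mem h0) hN.sq e hK

theorem of_comm (h : Ctx P) (hn : NoTv P) (hN : Qd P N) (hM : Qd P M) (e : N * M = M * N) :
    N * M = 0 := by
  by_contra h0
  refine h0 (mul_zero_of (T := N * M) (fun a b e' => h0 (e'.trans (sa_rank h.two ?_)))
    (nr hn hN.mem fun e' => h0 (by simp [e'])) ?_ ?_ hN.sq)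
  · rw [← e', ad_mul, hN.ad h, hM.ad h, neg_mul_neg, e]
  · rw [e, Matrix.mul_assoc, hN.sq, Matrix.mul_zero]
  · rw [Matrix.mul_assoc, hM.sq, Matrix.mul_zero]

theorem of_tri₂ (h : Ctx P) (hn : NoTv P) (hN : Qd P N) (hM : Qd P M) (e : N * M * N = 0)
    (e' : M * N * M = 0) : N * M = 0 := by
  by_cases h0 : N * M - M * N = 0
  · exact hN.of_comm h hn hM (sub_eq_zero.1 h0)
  have h1 := ((hN.mem.mul hM.mem).mul (hN.neg h).mem).mul (hM.neg h).mem
  rw [show (1 + N) * (1 + M) * (1 + -N) * (1 + -M) = 1 + (N * M - M * N) by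
    linear_combination (norm := noncomm_ring) -hN.sq * (1 - M) - (1 + N) * hM.sq -
      e * (1 - M) + e'] at h1
  refine mul_zero_of (nr hn h1 h0) (nr hn hN.mem fun e' => h0 (by simp [e'])) ?_ ?_ hN.sq
  · linear_combination (norm := noncomm_ring) e - M * hN.sq
  · linear_combination (norm := noncomm_ring) N * hM.sq - e'

theorem of_tri (h : Ctx P) (hn : NoTv P) (hN : Qd P N) (hM : Qd P M) (e : M * N * M = 0) :
    N * M = 0 := by
  have h1 := hN.conj' h hM
  rw [show (1 + M) * N * (1 - M) = N + M * N - N * M by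
    linear_combination (norm := noncomm_ring) -e] at h1
  have h2 := hN.sq
  have h3 : N * (N + M * N - N * M) = N * M * N := by
    linear_combination (norm := noncomm_ring) h2 * (1 - M)
  refine hN.of_tri₂ h hn hM (h3 ▸ hN.of_tri₂ h hn h1 ?_ ?_) e
  · rw [h3, Matrix.mul_assoc, h2, Matrix.mul_zero]
  · rw [Matrix.mul_assoc, h3]
    linear_combination (norm := noncomm_ring) (1 + M) * h2 * (M * N) - N * e * N

end Qd

section Dickson

variable {E : Type*} [Field E]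

/-- The matrices induced on a plane. -/
def act (h : Ctx P) (ρ : M4 F →+* M4 E) (T : M4 F) (x y : I4 → E) : Subgroup SL(2, E) where
  carrier := {A | ∃ g, Mem P g ∧ g * T = T * g ∧ ∀ v : Fin 2 → E,
    ρ g *ᵥ (v 0 • x + v 1 • y) = (A.1 *ᵥ v) 0 • x + (A.1 *ᵥ v) 1 • y}
  one_mem' := ⟨1, .one, by simp, by simp⟩
  mul_mem' := by
    rintro A B ⟨g, hg, g1, g2⟩ ⟨k, hk, k1, k2⟩
    refine ⟨g * k, hg.mul hk, by rw [Matrix.mul_assoc, k1, ← Matrix.mul_assoc, g1,
      Matrix.mul_assoc], fun v => ?_⟩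
    rw [map_mul, ← mulVec_mulVec, k2, g2, mulVec_mulVec]; rfl
  inv_mem' := by
    rintro A ⟨g, hg, g1, g2⟩
    refine ⟨ad g, h.ad hg, ?_, fun v => ?_⟩
    · linear_combination (norm := noncomm_ring) -ad g * g1 * ad g + h.ad_mul hg * T * ad g -
        ad g * T * h.mul_ad hg
    · have := congrArg (ρ (ad g) *ᵥ ·) (g2 ((A⁻¹).1 *ᵥ v))
      simp only [mulVec_mulVec, ← map_mul, h.ad_mul hg, map_one, one_mulVec] at this
      rw [show A.1 * (A⁻¹).1 = 1 from congrArg Subtype.val (mul_inv_cancel A), one_mulVec] at this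
      exact this.symm

theorem weyl [Finite E] (h : Ctx P) (h2 : (2 : E) ≠ 0) (ρ : M4 F →+* M4 E) (hN : Qd P N)
    (hM : Qd P M) (h3 : N * T = T * N) (h4 : M * T = T * M) {x : I4 → E} {c : E}
    (hx : ρ N *ᵥ x = 0) (hc : ρ N *ᵥ (ρ M *ᵥ x) = c • x) (c0 : c ≠ 0) (c2 : c ^ 2 ≠ -1) {u : E}
    (hu : u = 1 ∨ u = 2 ∨ u = c) : ∃ g, Mem P g ∧ g * T = T * g ∧
      ρ g *ᵥ x = -u⁻¹ • ρ M *ᵥ x ∧ ρ g *ᵥ (ρ M *ᵥ x) = u • x := by
  set L := act h ρ T x (ρ M *ᵥ x)
  have l1 : slLo 1 ∈ L := ⟨1 + M, hM.mem, by rw [add_mul, mul_add, h4]; simp, fun v => by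
    have : ρ M *ᵥ (ρ M *ᵥ x) = 0 := by rw [mulVec_mulVec, ← map_mul, hM.sq]; simp
    simp [mulVec_add, add_mulVec, mulVec_smul, this, vecHead, vecTail, add_smul, -mulVec_mulVec]
    abel⟩
  have uc : slUp c ∈ L := ⟨1 + N, hN.mem, by rw [add_mul, mul_add, h3]; simp, fun v => by
    simp [mulVec_add, add_mulVec, mulVec_smul, hx, hc, vecHead, vecTail, add_smul, smul_smul,
      -mulVec_mulVec, mul_comm]
    abel⟩
  have u1 := (Chev.Tim.dickson_inv h2 l1 c0 c2 uc).1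
  obtain ⟨u0, uu⟩ : u ≠ 0 ∧ slUp u ∈ L := by
    rcases hu with rfl | rfl | rfl
    exacts [⟨one_ne_zero, u1⟩, ⟨h2, by simpa [← slUp_add, one_add_one_eq_two] using mul_mem u1 u1⟩,
      ⟨c0, uc⟩]
  have ui : slUp u⁻¹ ∈ L := by
    by_cases h1 : u ^ 2 = -1
    · rw [show u⁻¹ = -u by field_simp; linear_combination h1, slUp_neg]; exact inv_mem uu
    · exact (Chev.Tim.dickson_inv h2 l1 u0 h1 uu).2
  have hw := mul_mem (mul_mem u1 (inv_mem l1)) u1
  obtain ⟨g, hg, g1, g2⟩ := mul_mem (mul_mem uu (mul_mem (mul_mem hw ui) (inv_mem hw))) uu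
  refine ⟨g, hg, g1, ?_, ?_⟩
  · simpa [← slLo_neg, ← slUp_neg, u0] using g2 ![1, 0]
  · simpa [← slLo_neg, ← slUp_neg, u0] using g2 ![0, 1]

end Dickson

theorem meet [Finite F] (h : Ctx P) (hn : NoTv P) (hN : Qd P N) (hM : Qd P M) {y : I4 → F}
    (hy : y ≠ 0) (h1 : N *ᵥ y = 0) (h2 : M *ᵥ y = 0) (h0 : N * M ≠ 0) :
    (M * N).trace ≠ 0 ∧ ((M * N).trace ^ 2 = -1 ∨ (3 : F) = 0 ∧ (M * N).trace ^ 2 = 1) := by
  have N0 := nr hn hN.mem fun e => h0 (by simp [e])
  obtain ⟨u, φ, e⟩ : ∃ u φ, M * N = vecMulVec u φ := by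
    by_contra hc
    push Not at hc
    obtain ⟨w, rfl⟩ := ker_im hN.sq N0 h1
    obtain ⟨w', rfl⟩ := ker_im' hc N0 (by rw [Matrix.mul_assoc, hN.sq, Matrix.mul_zero])
      (v := w) (by rwa [← mulVec_mulVec])
    exact hy (by rw [mulVec_mulVec, hN.sq, zero_mulVec])
  obtain ⟨c, hc⟩ : ∃ c, c = φ ⬝ᵥ u := ⟨_, rfl⟩
  rw [e, trace_vecMulVec, dotProduct_comm, ← hc]
  have e1 : M * N * (M * N) = c • (M * N) := by
    rw [e, vecMulVec_mul_vecMulVec, vecMulVec_smul, hc]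
  have e2 : N * M * (N * M) = c • (N * M) := by
    simpa only [ad_mul, ad_smul, hN.ad h, hM.ad h, neg_mul_neg] using congrArg ad e1
  obtain ⟨x, hx⟩ : ∃ x, x = N *ᵥ u := ⟨_, rfl⟩
  have e3 : N * M * N = vecMulVec x φ := by rw [Matrix.mul_assoc, e, mul_vecMulVec, hx]
  have x0 : x ≠ 0 := fun e' => h0 (hM.swap h hN (hM.of_tri h hn hN (by simp [e3, e'])))
  have c0 : c ≠ 0 := fun e' => h0 (hN.of_tri h hn hM (by
    rw [← Matrix.mul_assoc, e3, vecMulVec_mul, e', zero_smul, vecMulVec_eq_zero] at e2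
    simp [e, vecMulVec_mul, e2.resolve_left x0]))
  have x1 : N *ᵥ x = 0 := by rw [hx, mulVec_mulVec, hN.sq, zero_mulVec]
  have x2 : N *ᵥ (M *ᵥ x) = c • x := by
    rw [hx, mulVec_mulVec u, e, vecMulVec_mulVec, ← hc]; simp [mulVec_smul]
  refine ⟨c0, ?_⟩
  by_contra hne
  push Not at hne
  obtain ⟨d, hd, d1⟩ : ∃ d : F, (d = 1 ∨ d = 2 ∨ d = c) ∧ d ^ 2 ≠ 1 := by
    by_cases h3 : (3 : F) = 0
    · exact ⟨c, by simp, hne.2 h3⟩
    · exact ⟨2, by simp, fun e => h3 (by linear_combination e)⟩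
  have W := fun {d : F} => weyl (T := c • N - N * M * N) (u := d) h h.two (RingHom.id _) hN hM
    (by simp only [mul_sub, sub_mul, mul_smul_comm, smul_mul_assoc, hN.sq]
        linear_combination (norm := noncomm_ring) N * M * hN.sq - hN.sq * M * N)
    (by simp only [mul_sub, sub_mul, mul_smul_comm, smul_mul_assoc, ← e1, ← e2]
        noncomm_ring) x1 x2 c0 hne.1
  obtain ⟨g, hg, g1, g2, g3⟩ := W hd
  obtain ⟨k, hk, k1, k2, k3⟩ := W (.inl rfl)
  simp only [RingHom.id_apply, inv_one, one_smul, neg_smul] at g2 g3 k2 k3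
  have hj := hg.mul hk
  have j1 : g * k * (c • N - N * M * N) = (c • N - N * M * N) * (g * k) := by
    rw [Matrix.mul_assoc, k1, ← Matrix.mul_assoc, g1, Matrix.mul_assoc]
  have j2 : (g * k) *ᵥ x = -d • x := by rw [← mulVec_mulVec, k2, mulVec_neg, g3, neg_smul]
  have j3 : (g * k) *ᵥ (M *ᵥ x) = -(d⁻¹ • M *ᵥ x) := by rw [← mulVec_mulVec, k3, g2]
  generalize g * k = j at hj j1 j2 j3
  have j4 : j * N * ad j - N = vecMulVec x (c⁻¹ • (-d • φ ᵥ* ad j - φ)) := by
    rw [vecMulVec_smul, eq_inv_smul_iff₀ c0, vecMulVec_sub, vecMulVec_smul, ← smul_vecMulVec,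
      ← j2, ← vecMulVec_mul, ← mul_vecMulVec, ← e3, smul_sub, ← smul_mul_assoc, ← mul_smul_comm]
    linear_combination (norm := noncomm_ring) j1 * ad j + (c • N - N * M * N) * h.mul_ad hj
  have j5 : N * (j * N * ad j - N) = 0 := by rw [j4, mul_vecMulVec, x1, zero_vecMulVec]
  have j6 := (hN.neg h).mem.mul (hN.conj h hj).mem
  rw [show (1 + -N) * (1 + j * N * ad j) = 1 + (j * N * ad j - N) by
    linear_combination (norm := noncomm_ring) -j5 - hN.sq, j4] at j6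
  have j7 : j * N = N * j := by
    linear_combination (norm := noncomm_ring) (j4.trans (hn _ _ j6)) * j - j * N * h.ad_mul hj
  have j8 := congrArg (· *ᵥ (M *ᵥ x)) j7
  simp only [← mulVec_mulVec, x2, j3, mulVec_smul, mulVec_neg, j2, smul_smul, ← neg_smul] at j8
  have j9 := smul_left_injective F x0 j8
  have d0 : d ≠ 0 := by rcases hd with rfl | rfl | rfl; exacts [one_ne_zero, h.two, c0]
  exact d1 (by field_simp at j9; linear_combination -j9)

variable (P) in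
/-- Quadratic elements on a line carrying more than three of them. -/
structure Big (N : M4 F) : Prop extends Qd P N where
  ne : N ≠ 0
  ex : ∃ K, Qd P K ∧ K * N = 0 ∧ K ≠ 0 ∧ K ≠ N ∧ K ≠ -N

theorem Big.conj (h : Ctx P) (hN : Big P N) (hg : Mem P g) : Big P (g * N * ad g) := by
  obtain ⟨K, hK, h1, h2, h3, h4⟩ := hN.ex
  have e := h.ad_mul hg
  exact ⟨hN.toQd.conj h hg, fun e' => hN.ne (conj_inj e (by simpa using e')), _, hK.conj h hg,
    by rw [conj_mul e, h1]; simp, fun e' => h2 (conj_inj e (by simpa using e')),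
    fun e' => h3 (conj_inj e e'), fun e' => h4 (conj_inj e (by simpa using e'))⟩

theorem Big.of_mul (h : Ctx P) (hN : Big P N) (hM : Qd P M) (h0 : M ≠ 0) (e : M * N = 0) :
    Big P M := by
  obtain ⟨K, hK, h1, h2, h3, h4⟩ := hN.ex
  refine ⟨hM, h0, ?_⟩
  by_cases e1 : N = M
  · exact e1 ▸ hN.ex
  by_cases e2 : N = -M
  · subst e2
    exact ⟨K, hK, by simpa using h1, h2, by simpa using h4, h3⟩
  exact ⟨N, hN.toQd, hM.swap h hN.toQd e, hN.ne, e1, e2⟩

/-- A big line meets no other line. -/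
theorem Big.isUnit [Finite F] (h : Ctx P) (hn : NoTv P) (hN : Big P N) (hM : Qd P M)
    (h0 : N * M ≠ 0) : IsUnit (N + M) := by
  by_contra hu
  obtain ⟨y, hy, h1, h2⟩ : ∃ y ≠ 0, N *ᵥ y = 0 ∧ M *ᵥ y = 0 := by
    obtain ⟨v, hv, e⟩ := exists_mulVec_eq_zero_iff.2
      (by simpa [isUnit_iff_isUnit_det] using hu : (N + M).det = 0)
    rw [add_mulVec, add_eq_zero_iff_eq_neg] at e
    by_cases h1 : N *ᵥ v = 0
    · exact ⟨v, hv, h1, neg_eq_zero.1 (e ▸ h1)⟩
    · exact ⟨_, h1, by rw [mulVec_mulVec, hN.sq, zero_mulVec],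
        by rw [e, mulVec_neg, mulVec_mulVec, hM.sq, zero_mulVec, neg_zero]⟩
  obtain ⟨w, rfl⟩ := ker_im hN.sq (nr hn hN.mem hN.ne) h1
  have key := fun K (hK : Qd P K) (e : K * N = 0) (K0 : K ≠ 0) => meet h hn hK hM hy
    (by rw [mulVec_mulVec, e, zero_mulVec]) h2
    fun e' => h0 (hK.trans hn K0 e' (hK.swap h hN.toQd e))
  obtain ⟨K, hK, k1, k2, k3, k4⟩ := hN.ex
  have a1 := key N hN.toQd hN.sq hN.ne
  have a2 := key K hK k1 k2
  have a3 := key _ (hK.add h hN.toQd k1) (by simp [add_mul, k1, hN.sq])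
    fun e => k4 (eq_neg_of_add_eq_zero_left e)
  have a4 := key _ (hK.add h (hN.toQd.neg h) (by simp [k1])) (by simp [add_mul, k1, hN.sq])
    fun e => k3 (by simpa using eq_neg_of_add_eq_zero_left e)
  have a5 := key _ (hN.toQd.add h hN.toQd hN.sq) (by simp [add_mul, hN.sq])
    fun e => hN.ne (eq_zero_of_two h.two (eq_neg_of_add_eq_zero_left e))
  have := h.two
  simp only [mul_add, mul_neg, trace_add, trace_neg] at a3 a4 a5
  grind

theorem Big.common [Finite F] {E : Type*} [Field E] (h : Ctx P) (hn : NoTv P) (hN : Big P N)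
    (hM : Qd P M) (ρ : M4 F →+* M4 E) {z : I4 → E} (hz : z ≠ 0) (h1 : ρ N *ᵥ z = 0)
    (h2 : ρ M *ᵥ z = 0) : N * M = 0 := by
  by_contra h0
  refine hz (mulVec_injective_iff_isUnit.2 ((hN.isUnit h hn hM h0).map ρ) ?_)
  rw [map_add, add_mulVec, h1, h2, add_zero, mulVec_zero]

end Cfsg.Agent.Cl.S4O.Q
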