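import Mathlib
import Cfsg.Agent.Cl.S4OQa

/-! Quadratic unipotent elements of a subgroup of `Sp₄(q)` without transvections, II. -/

set_option autoImplicit false
set_option linter.unusedSectionVars false
set_option linter.ambiguousOpen false

namespace Cfsg.Agent.Cl.S4O.Q

open Matrix Low Max Mx Geo Cfsg.Agent.GT
open scoped MatrixGroups

universe u

theorem exists_root {F : Type u} [Field F] [Finite F] (t d : F) :
    ∃ (E : Type u) (_ : Field E) (_ : Finite E) (f : F →+* E) (c : E),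
      c ^ 2 - f t * c + f d = 0 := by
  let p : Polynomial F := Polynomial.X ^ 2 - Polynomial.C t * Polynomial.X + Polynomial.C d
  have hp : p.degree = 2 := by simp only [p]; compute_degree!
  obtain ⟨c, hc⟩ := (Polynomial.SplittingField.splits p).exists_eval_eq_zero
    (by rw [Polynomial.degree_map, hp]; simp)
  exact ⟨p.SplittingField, inferInstance, Module.finite_of_finite F, algebraMap F _, c,
    by simpa [p] using hc⟩

variable {F : Type*} [Field F] {P : Subgroup (GL I4 F)} {N M K T g : M4 F}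

theorem opp_of_good [Finite F] (h : Ctx P) (hn : NoTv P) (hN : Big P N) (hM : Qd P M)
    (h0 : N * M ≠ 0) {d : F} (hd : (N * M + M * N) * (N * M + M * N) =
      ((N * M + M * N).trace / 2) • (N * M + M * N) - d • 1)
    (hg : ¬ ((N * M + M * N).trace / 2 = 0 ∧ d = 1 ∨
      ((N * M + M * N).trace / 2) ^ 2 = -4 ∧ d = -1)) :
    ∃ K, Qd P K ∧ K * M = 0 ∧ N * K + K * N = 1 := by
  obtain ⟨t, ht⟩ : ∃ t, t = (N * M + M * N).trace / 2 := ⟨_, rfl⟩
  rw [← ht] at hd hg
  obtain ⟨E, _, _, f, c, hc, c2⟩ : ∃ (E : Type _) (_ : Field E) (_ : Finite E) (f : F →+* E)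
      (c : E), c ^ 2 - f t * c + f d = 0 ∧ c ^ 2 ≠ -1 := by
    obtain ⟨E, _, _, f, c, hc⟩ := exists_root t d
    refine ⟨E, inferInstance, inferInstance, f, ?_⟩
    by_contra hne
    push Not at hne
    have h1 := hne c hc
    have h2 := hne (f t - c) (by linear_combination hc)
    refine hg ?_
    simp only [← f.injective.eq_iff, map_pow, map_neg, map_one, map_zero, map_ofNat]
    grind
  have h2 : (2 : E) ≠ 0 := by rw [← map_ofNat f 2]; exact (_root_.map_ne_zero _).2 h.two
  let ρ : M4 F →+* M4 E := f.mapMatrix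
  have ρs : ∀ (a : F) (X : M4 F), ρ (a • X) = f a • ρ X := fun a X => by ext; simp [ρ]
  have nn : ρ N * ρ N = 0 := by rw [← map_mul, hN.sq, map_zero]
  have mm : ρ M * ρ M = 0 := by rw [← map_mul, hM.sq, map_zero]
  obtain ⟨G, hG⟩ : ∃ G, G = ρ N * ρ M + ρ M * ρ N := ⟨_, rfl⟩
  have gg : (G - c • 1) * (G - (f t - c) • 1) = 0 := by
    have := congrArg ρ hd
    simp only [map_mul, map_add, map_sub, ρs, map_one, ← hG] at this
    simp only [sub_mul, mul_sub, smul_mul_assoc, mul_smul_comm, Matrix.mul_one, Matrix.one_mul,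
      this, show f d = c * (f t - c) by linear_combination hc]
    module
  obtain ⟨x, x0, x1, x2⟩ : ∃ x ≠ 0, ρ N *ᵥ x = 0 ∧ G *ᵥ x = c • x := by
    have ex : ∀ X : M4 E, X ≠ 0 → ∃ v, X *ᵥ v ≠ 0 := fun X hX => by
      by_contra hc
      push Not at hc
      exact hX (mat_ext fun v => by simp [hc])
    by_cases e : (G - (f t - c) • 1) * ρ N = 0
    · have e1 : G = (f t - c) • 1 := by
        have hu := (hN.isUnit h hn hM h0).map ρ
        refine sub_eq_zero.1 ((hu.mul hu).mul_right_eq_zero.1 ?_)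
        rw [sub_mul, smul_mul_assoc, Matrix.one_mul, hG, add_mul, Matrix.mul_assoc (ρ M), nn,
          Matrix.mul_zero, add_zero, sub_eq_zero] at e
        have e3 : G * G = ρ N * ρ M * ρ N * ρ M + ρ M * (ρ N * ρ M * ρ N) := by
          rw [hG]; linear_combination (norm := noncomm_ring) ρ N * mm * ρ N + ρ M * nn * ρ M
        rw [map_add, show (ρ N + ρ M) * (ρ N + ρ M) = G by
          rw [hG]; linear_combination (norm := noncomm_ring) nn + mm, mul_sub, e3, e, hG]
        simp
      have e2 : G.trace = 2 * f t := by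
        rw [ht, map_div₀, map_ofNat, mul_div_cancel₀ _ h2, hG, ← map_mul, ← map_mul, ← map_add]
        exact (AddMonoidHom.map_trace f _).symm
      rw [e1, trace_smul, trace_one4, smul_eq_mul] at e2
      obtain ⟨v, hv⟩ := ex (ρ N) fun e => hN.ne (Matrix.ext fun i j =>
        f.injective (by simpa [ρ] using congrFun (congrFun e i) j))
      refine ⟨_, hv, by rw [mulVec_mulVec, nn, zero_mulVec], ?_⟩
      rw [e1, smul_mulVec, one_mulVec, mul_left_cancel₀ h2
        (show 2 * (f t - c) = 2 * c by grind)]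
    · obtain ⟨v, hv⟩ := ex _ e
      refine ⟨_, hv, ?_, ?_⟩
      · rw [mulVec_mulVec, show ρ N * ((G - (f t - c) • 1) * ρ N) = 0 by
          simp only [sub_mul, mul_sub, smul_mul_assoc, mul_smul_comm, Matrix.one_mul, nn, hG,
            smul_zero]
          linear_combination (norm := noncomm_ring) nn * ρ M * ρ N + ρ N * ρ M * nn, zero_mulVec]
      · have := congrArg (· *ᵥ (ρ N *ᵥ v)) gg
        simp only [← mulVec_mulVec, zero_mulVec] at this ⊢
        rwa [sub_mulVec, smul_mulVec, one_mulVec, sub_eq_zero] at this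
  rw [hG, add_mulVec, ← mulVec_mulVec, ← mulVec_mulVec, x1, mulVec_zero, add_zero] at x2
  have m0 : ρ M *ᵥ x ≠ 0 := fun e => h0 (hN.common h hn hM ρ x0 x1 e)
  have m1 : ρ M *ᵥ (ρ M *ᵥ x) = 0 := by rw [mulVec_mulVec, mm, zero_mulVec]
  have c0 : c ≠ 0 := fun e => h0 (hN.common h hn hM ρ m0 (by rw [x2, e, zero_smul]) m1)
  obtain ⟨w, hw, -, w1, w2⟩ := weyl (T := 1) h h2 ρ hN.toQd hM (by simp) (by simp) x1 x2 c0 c2
    (.inr (.inr rfl))
  have wi : ∀ v, ρ (w * N * ad w) *ᵥ (ρ w *ᵥ v) = ρ w *ᵥ (ρ N *ᵥ v) := fun v => by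
    rw [mulVec_mulVec, mulVec_mulVec, ← map_mul, ← map_mul, Matrix.mul_assoc, h.ad_mul hw,
      Matrix.mul_one]
  have w3 := wi x
  have w4 := wi (ρ M *ᵥ x)
  rw [w1, x1, mulVec_zero, mulVec_smul, smul_eq_zero_iff_right (by simpa using c0)] at w3
  rw [w2, x2, mulVec_smul, mulVec_smul, w1, smul_right_inj c0] at w4
  have hK := hN.conj h hw
  generalize w * N * ad w = K at hK w3 w4
  have k1 := hK.common h hn hM ρ m0 w3 m1
  have k2 : ρ N *ᵥ (ρ K *ᵥ x) = -x := by
    rw [w4, mulVec_smul, x2, smul_smul, neg_mul, inv_mul_cancel₀ c0, neg_smul, one_smul]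
  have k3 : ρ K *ᵥ (ρ K *ᵥ x) = 0 := by rw [mulVec_mulVec, ← map_mul, hK.sq]; simp
  have b1 := hN.conj h (hK.toQd.neg h).mem
  have b2 := hK.toQd.conj' h hN.toQd
  rw [(hK.toQd.neg h).ad1 h] at b1
  have k4 := b1.common h hn b2 ρ (z := x - ρ K *ᵥ x)
    (fun e => x0 (by simpa [mulVec_sub, x1, k2] using congrArg (ρ N *ᵥ ·) e))
    (by simp [← mulVec_mulVec, add_mulVec, mulVec_sub, k3, x1, neg_mulVec, mulVec_add, k2])
    (by simp [← mulVec_mulVec, sub_mulVec, mulVec_sub, k3, x1, k2, mulVec_neg, add_mulVec,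
      mulVec_add])
  have k5 := b1.toQd.swap h b2 k4
  have n2 := hN.sq
  have n3 := hK.sq
  have k6 : N * (1 + K) * (1 + N) * K = 0 := by
    linear_combination (norm := noncomm_ring) (1 + K) * k4 * (1 + N) +
      n3 * N * (1 + K) * (1 + N) * K * (1 - N) * (1 + N) + N * (1 + K) * (1 + N) * K * n2
  have k7 : K * (1 - N) * (1 - K) * N = 0 := by
    linear_combination (norm := noncomm_ring) (1 - N) * k5 * (1 - K) +
      n2 * K * (1 - N) * (1 - K) * N * (1 + K) * (1 - K) + K * (1 - N) * (1 - K) * N * n3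
  have hu := hN.isUnit h hn hK.toQd fun e => x0 (by
    rw [mulVec_mulVec, ← map_mul, e] at k2
    simpa using k2)
  refine ⟨-K, hK.toQd.neg h, by rw [neg_mul, k1, neg_zero], ?_⟩
  refine sub_eq_zero.1 ((hu.mul hu).mul_right_eq_zero.1 ?_)
  linear_combination (norm := noncomm_ring) -k6 - k7 + n2 * K + N * n3 - n3 * N - K * n2 -
    (n2 + n3) * (N * K + K * N + 1) - N * n3 * N - K * n2 * K

/-- Two big lines generate a rank one group. -/
theorem opp [Finite F] (h : Ctx P) (hn : NoTv P) (hN : Big P N) (hM : Big P M) (h0 : N * M ≠ 0) :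
    ∃ K, Qd P K ∧ K * M = 0 ∧ N * K + K * N = 1 := by
  by_contra hne
  have key := fun K (hK : Qd P K) (e : K * M = 0) (K0 : K ≠ 0) => show ∃ d : F,
      (N * K + K * N) * (N * K + K * N) = ((N * K + K * N).trace / 2) • (N * K + K * N) - d • 1 ∧
      ((N * K + K * N).trace / 2 = 0 ∧ d = 1 ∨ ((N * K + K * N).trace / 2) ^ 2 = -4 ∧ d = -1) by
    obtain ⟨d, hd⟩ := sa_sq h.two (X := N * K + K * N) (by
      simp only [ad_add, ad_mul, hN.ad h, hK.ad h, neg_mul_neg, add_comm])
    refine ⟨d, hd, by_contra fun hg => ?_⟩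
    obtain ⟨L, hL, l1, l2⟩ := opp_of_good h hn hN hK (fun e' => h0 (hK.trans hn K0 e e')) hd hg
    exact hne ⟨L, hL, hK.trans hn K0 e l1, l2⟩
  obtain ⟨K, hK, k1, k2, k3, k4⟩ := hM.ex
  obtain ⟨d1, a1, b1⟩ := key M hM.toQd hM.sq hM.ne
  obtain ⟨d2, a2, b2⟩ := key K hK k1 k2
  obtain ⟨d3, a3, b3⟩ := key _ (hK.add h hM.toQd k1) (by simp [add_mul, k1, hM.sq])
    fun e => k4 (eq_neg_of_add_eq_zero_left e)
  obtain ⟨d4, a4, b4⟩ := key _ (hK.add h (hM.toQd.neg h) (by simp [k1]))
    (by simp [add_mul, k1, hM.sq]) fun e => k3 (by simpa using eq_neg_of_add_eq_zero_left e)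
  obtain ⟨d5, a5, b5⟩ := key _ (hM.toQd.add h hM.toQd hM.sq) (by simp [add_mul, hM.sq])
    fun e => hM.ne (eq_zero_of_two h.two (eq_neg_of_add_eq_zero_left e))
  rw [show N * (K + M) + (K + M) * N = N * K + K * N + (N * M + M * N) by noncomm_ring] at a3 b3
  rw [show N * (K + -M) + (K + -M) * N = N * K + K * N - (N * M + M * N) by noncomm_ring] at a4 b4
  rw [show N * (M + M) + (M + M) * N = N * M + M * N + (N * M + M * N) by noncomm_ring] at a5 b5
  generalize N * M + M * N = G at *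
  generalize N * K + K * N = H at *
  rw [trace_add, add_div] at a3 b3 a5 b5
  rw [trace_sub, sub_div] at a4 b4
  generalize G.trace / 2 = s at *
  generalize H.trace / 2 = t at *
  have e1 : d3 + d4 = d1 + d1 + d2 + d2 := smul_one_inj (by
    linear_combination (norm := (simp only [add_mul, mul_add, sub_mul, mul_sub]; module))
      a3 + a4 - a1 - a1 - a2 - a2)
  have e2 : d5 = d1 + d1 + d1 + d1 := smul_one_inj (by
    linear_combination (norm := (simp only [add_mul, mul_add, sub_mul, mul_sub]; module))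
      a5 - a1 - a1 - a1 - a1)
  have := h.two
  grind

end Cfsg.Agent.Cl.S4O.Q
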