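import Mathlib
import Cfsg.Agent.Cl.S4OQb
import Cfsg.Agent.Cl.ClassStar

/-! Quadratic unipotent elements of a subgroup of `Sp₄(q)` without transvections, III. -/

set_option autoImplicit false
set_option linter.unusedSectionVars false
set_option linter.ambiguousOpen false

namespace Cfsg.Agent.Cl.S4O

open Matrix Low Max Mx Geo
open scoped MatrixGroups

variable {F : Type*} [Field F] {P : Subgroup (GL I4 F)}

namespace Q

variable {N K n m a b c : M4 F}

variable (P n m) in
/-- A pair of opposite big elements. -/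
structure St : Prop where
  h : Ctx P
  hn : NoTv P
  bn : Big P n
  bm : Big P m
  e : n * m + m * n = 1

variable (P n m) in
/-- The coordinatising Jordan ring. -/
structure Jd (a : M4 F) : Prop where
  cn : n * a = a * n
  cm : m * a = a * m
  qd : Qd P (a * n)

theorem Jd.cn' (ha : Jd P n m a) (x : M4 F) : n * (a * x) = a * (n * x) := by
  rw [← Matrix.mul_assoc, ha.cn, Matrix.mul_assoc]

theorem Jd.cm' (ha : Jd P n m a) (x : M4 F) : m * (a * x) = a * (m * x) := by
  rw [← Matrix.mul_assoc, ha.cm, Matrix.mul_assoc]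

namespace St

theorem symm (s : St P n m) : St P m n := ⟨s.h, s.hn, s.bm, s.bn, add_comm (n * m) _ ▸ s.e⟩
theorem mn (s : St P n m) : m * n = 1 - n * m := eq_sub_of_add_eq' s.e
theorem mn' (s : St P n m) (x : M4 F) : m * (n * x) = x - n * (m * x) := by
  rw [← Matrix.mul_assoc, s.mn]; noncomm_ring
theorem nn' (s : St P n m) (x : M4 F) : n * (n * x) = 0 := by
  rw [← Matrix.mul_assoc, s.bn.sq, Matrix.zero_mul]

theorem cancel (s : St P n m) (h1 : m * a = a * m) (h2 : a * n = 0) : a = 0 := by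
  linear_combination (norm := noncomm_ring) -a * s.e + h2 * m + m * h2 - h1 * n

theorem of_line (s : St P n m) (hN : Qd P N) (e : N * n = 0) : ∃ a, Jd P n m a ∧ N = a * n := by
  have e' := hN.swap s.h s.bn.toQd e
  have e1 : (N * m + m * N) * n = N := by
    linear_combination (norm := noncomm_ring) N * s.e + m * e - e * m
  refine ⟨N * m + m * N, ⟨?_, ?_, e1.symm ▸ hN⟩, e1.symm⟩
  · rw [e1]; linear_combination (norm := noncomm_ring) s.e * N + e' * m - m * e'
  · linear_combination (norm := noncomm_ring) s.bm.sq * N - N * s.bm.sq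

theorem weyl (s : St P n m) (ha : Jd P n m a) (hb : Qd P (b * m)) (b1 : n * b = b * n)
    (b2 : m * b = b * m) (e : a * b = 1) :
    Mem P (a * n - b * m) ∧ ad (a * n - b * m) = b * m - a * n := by
  refine ⟨?_, by rw [ad_sub, ha.qd.ad s.h, hb.ad s.h]; abel⟩
  have e' := mul_eq_one_comm.1 e
  convert (ha.qd.mem.mul (hb.neg s.h).mem).mul ha.qd.mem using 1
  have e1 : a * n * (b * m) = n * m := by
    linear_combination (norm := noncomm_ring) a * b1 * m + e * (n * m)
  have e2 : b * m * (a * n) = m * n := by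
    linear_combination (norm := noncomm_ring) b * ha.cm * n + e' * (m * n)
  have e3 : n * m * (a * n) = a * n := by
    simp [Matrix.mul_assoc, ha.cm', ha.cn', s.mn, mul_sub, s.nn', ha.cn]
  linear_combination (norm := noncomm_ring) e1 * (1 + a * n) + e2 + e3 + s.e - ha.qd.sq

theorem one (s : St P n m) : Jd P n m 1 := ⟨by simp, by simp, by simpa using s.bn.toQd⟩

theorem sw (s : St P n m) (ha : Jd P n m a) : Jd P m n a := by
  obtain ⟨h1, h2⟩ := s.weyl s.one (b := 1) (by simpa using s.bm.toQd) (by simp) (by simp) (by simp)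
  refine ⟨ha.cm, ha.cn, ?_⟩
  convert (ha.qd.conj s.h h1).neg s.h using 1
  rw [h2]
  simp [Matrix.mul_assoc, ha.cm', ha.cn', s.mn, s.mn', mul_sub, sub_mul, s.nn', s.symm.nn',
    s.bn.sq, s.bm.sq]

theorem inv [Finite F] (s : St P n m) (ha : Jd P n m a) (a0 : a ≠ 0) :
    ∃ b, Jd P n m b ∧ a * b = 1 := by
  have a1 : a * n ≠ 0 := fun e => a0 (s.cancel ha.cm e)
  obtain ⟨K, hK, k1, k2⟩ := opp s.h s.hn (s.bn.of_mul s.h ha.qd a1
    (by rw [Matrix.mul_assoc, s.bn.sq, Matrix.mul_zero])) s.bm fun e => a1 (by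
      linear_combination (norm := noncomm_ring) -a * n * s.e + e * n + a * s.bn.sq * m)
  obtain ⟨b, hb, rfl⟩ := s.symm.of_line hK k1
  replace hb := s.symm.sw hb
  refine ⟨b, hb, sub_eq_zero.1 (s.cancel ?_ ?_)⟩
  · simp [mul_sub, sub_mul, Matrix.mul_assoc, ha.cm', hb.cm]
  · have := congrArg (· * n) k2
    simpa [Matrix.mul_assoc, ha.cm', hb.cn', s.mn, mul_sub, sub_mul, add_mul, s.nn', s.bn.sq,
      sub_eq_zero] using this

theorem zero (_ : St P n m) : Jd P n m 0 := ⟨by simp, by simp, by simpa using Qd.zero⟩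

theorem U [Finite F] (s : St P n m) (ha : Jd P n m a) (hc : Jd P n m c) :
    Jd P n m (a * c * a) := by
  by_cases a0 : a = 0
  · simpa [a0] using s.zero
  obtain ⟨b, hb, e⟩ := s.inv ha a0
  obtain ⟨h1, h2⟩ := s.weyl ha (s.sw hb).qd hb.cn hb.cm e
  refine ⟨by simp [Matrix.mul_assoc, ha.cn', hc.cn', ha.cn],
    by simp [Matrix.mul_assoc, ha.cm', hc.cm', ha.cm], ?_⟩
  convert ((s.sw hc).qd.conj s.h h1).neg s.h using 1
  rw [h2]
  simp [Matrix.mul_assoc, ha.cm', ha.cn', hb.cm', hb.cn', hc.cm', hc.cn', s.mn, s.mn', mul_sub,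
    sub_mul, s.nn', s.symm.nn', s.bn.sq, s.bm.sq, ha.cn]

theorem add (s : St P n m) (ha : Jd P n m a) (hb : Jd P n m b) : Jd P n m (a + b) :=
  ⟨by rw [mul_add, add_mul, ha.cn, hb.cn], by rw [mul_add, add_mul, ha.cm, hb.cm], by
    rw [add_mul]
    exact ha.qd.add s.h hb.qd (by simp [Matrix.mul_assoc, hb.cn', s.bn.sq])⟩

theorem neg (s : St P n m) (ha : Jd P n m a) : Jd P n m (-a) :=
  ⟨by simp [ha.cn], by simp [ha.cm], by simpa using ha.qd.neg s.h⟩

theorem sub (s : St P n m) (ha : Jd P n m a) (hb : Jd P n m b) : Jd P n m (a - b) :=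
  sub_eq_add_neg a b ▸ s.add ha (s.neg hb)

theorem half [Finite F] (s : St P n m) (ha : Jd P n m (a + a)) : Jd P n m a := by
  have h1 : ∀ k : ℕ, Jd P n m ((k : F) • (a + a)) := fun k => by
    induction k with
    | zero => simpa using s.zero
    | succ k ih => rw [Nat.cast_succ, add_smul, one_smul]; exact s.add ih ha
  have := Fintype.ofFinite F
  obtain ⟨k, hk⟩ := Nat.odd_iff.2 (FiniteField.odd_card_of_char_ne_two (F := F) fun e =>
    s.h.two (by simpa [e] using ringChar.Nat.cast_ringChar (R := F)))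
  have h2 := FiniteField.cast_card_eq_zero F
  rw [hk] at h2
  convert h1 (k + 1) using 1
  rw [← two_smul F, smul_smul, show ((k + 1 : ℕ) : F) * 2 = 1 by
    push_cast at h2 ⊢; linear_combination h2, one_smul]

theorem circ [Finite F] (s : St P n m) (ha : Jd P n m a) (hb : Jd P n m b) :
    Jd P n m (a * b + b * a) := by
  convert s.sub (s.sub (s.U (s.add ha hb) s.one) (s.U ha s.one)) (s.U hb s.one) using 1
  noncomm_ring

theorem smul [Finite F] (s : St P n m) {z : F} (hz : Jd P n m (z • 1)) (ha : Jd P n m a) :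
    Jd P n m (z • a) := s.half (by simpa using s.circ hz ha)

theorem pow [Finite F] (s : St P n m) (ha : Jd P n m a) (k : ℕ) : Jd P n m (a ^ k) := by
  induction k with
  | zero => simpa using s.one
  | succ k ih => exact s.half (by simpa only [← pow_succ, ← pow_succ'] using s.circ ha ih)

theorem ad (s : St P n m) (ha : Jd P n m a) : ad a = a := by
  have h1 := congrArg S4O.ad ha.cn
  have h2 := congrArg S4O.ad ha.cm
  have h3 := ha.qd.ad s.h
  simp only [ad_mul, s.bn.ad s.h, s.bm.ad s.h] at h1 h2 h3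
  refine sub_eq_zero.1 (s.cancel ?_ ?_)
  · linear_combination (norm := noncomm_ring) h2 - ha.cm
  · linear_combination (norm := noncomm_ring) -h1 - h3

theorem nzd [Finite F] (s : St P n m) (ha : Jd P n m a) (a0 : a ≠ 0) (e : c * a = 0) : c = 0 := by
  obtain ⟨b, -, h⟩ := s.inv ha a0
  rw [← Matrix.mul_one c, ← h, ← Matrix.mul_assoc, e, Matrix.zero_mul]

/-- The scalars in the Jordan ring. -/
def Z [Finite F] (s : St P n m) : Subfield F where
  carrier := {z | Jd P n m (z • 1)}
  one_mem' := by simpa using s.one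
  zero_mem' := by simpa using s.zero
  mul_mem' := fun ha hb => by simpa [smul_smul] using s.smul ha hb
  add_mem' := fun ha hb => by simpa [add_smul] using s.add ha hb
  neg_mem' := fun ha => by simpa using s.neg ha
  inv_mem' := fun z hz => by
    by_cases z0 : z = 0
    · simpa [z0] using s.zero
    obtain ⟨b, hb, e⟩ := s.inv hz (by simpa using z0)
    rw [smul_mul_assoc, Matrix.one_mul, ← eq_inv_smul_iff₀ z0] at e
    exact show Jd P n m _ from e ▸ hb

theorem comm_of_w [Finite F] (s : St P n m) (hb : Jd P n m b) (hw : W b) (b0 : b ≠ 0)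
    (hc : Jd P n m c) : b * c = c * b := by
  by_contra hne
  have sq : ∀ {x}, Jd P n m x → W x → x ≠ 0 → ∃ q : s.Z, q ≠ 0 ∧ x * x = (q : F) • 1 :=
    fun {x} hx wx x0 => ⟨⟨_, show Jd P n m _ by simpa [← wx.sq s.h.two] using s.U hx s.one⟩,
      fun e => x0 (s.nzd hx x0 (by rw [wx.sq s.h.two, show ip x x / 2 = 0 from
        congrArg Subtype.val e, zero_smul])), wx.sq s.h.two⟩
  obtain ⟨q, q0, hq⟩ := sq hb hw b0
  have q1 : (q : F) ≠ 0 := by simpa using q0
  have h1 := s.sub (s.smul q.2 hc) (s.U hb hc)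
  have l1 : b * ((q : F) • c - b * c * b) = (q : F) • (b * c - c * b) := by
    simp [mul_sub, ← Matrix.mul_assoc, hq, smul_sub]
  have l2 : ((q : F) • c - b * c * b) * b = -((q : F) • (b * c - c * b)) := by
    simp [sub_mul, Matrix.mul_assoc, hq, smul_sub]
  have h0 : (q : F) • c - b * c * b ≠ 0 := fun e => hne (by
    rwa [e, Matrix.mul_zero, eq_comm, smul_eq_zero_iff_right q1, sub_eq_zero] at l1)
  obtain ⟨r, r0, hr⟩ := sq h1 ⟨s.ad h1, by
    rw [trace_sub, trace_mul_cycle, hq]; simp⟩ h0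
  rw [← l1] at l2
  generalize (q : F) • c - b * c * b = d at h1 h0 hr l2
  obtain ⟨x, y, e⟩ := Cls.exists_quad_eq_of_field (t := 0) (n := -q) (by
    have : (4 : s.Z) ≠ 0 := fun e => four_ne s.h.two (congrArg Subtype.val e)
    simpa [this] using q0) r
  have e' : (x : F) ^ 2 - q * y ^ 2 = r := by
    simpa [sub_eq_add_neg] using congrArg Subtype.val e
  have j1 := s.add (s.smul y.2 hb) h1
  have j2 : (y : F) • b + d ≠ 0 := fun e => by
    have := congrArg (fun x => x * d + d * x) e
    simp only [add_mul, mul_add, smul_mul_assoc, mul_smul_comm, l2, hr, Matrix.zero_mul,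
      Matrix.mul_zero, smul_neg] at this
    refine r0 (Subtype.ext (mul_left_cancel₀ s.h.two (smul_one_inj (b := 2 * 0) ?_)))
    linear_combination (norm := module) this
  have j3 : ((x : F) • 1 - ((y : F) • b + d)) * ((x : F) • 1 + ((y : F) • b + d)) = 0 := by
    simp only [add_mul, mul_add, sub_mul, smul_mul_assoc, mul_smul_comm, l2, hr, hq,
      Matrix.mul_one, Matrix.one_mul, ← e']
    module
  have wd : W ((y : F) • b + d) := (hw.smul _).add ⟨s.ad h1, by
    have := congrArg trace (congrArg (b * ·) l2)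
    rw [← Matrix.mul_assoc, trace_mul_cycle, mul_neg, ← Matrix.mul_assoc, hq] at this
    simp only [smul_mul_assoc, Matrix.one_mul, trace_neg, trace_smul, smul_eq_mul] at this
    exact mul_left_cancel₀ (mul_ne_zero s.h.two q1) (by linear_combination this)⟩
  by_cases j4 : (x : F) • 1 + ((y : F) • b + d) = 0
  · exact j2 (wd.eq_zero_of_scalar s.h.two (c := -x)
      (by rw [neg_smul]; exact eq_neg_of_add_eq_zero_right j4))
  · exact j2 (wd.eq_zero_of_scalar s.h.two (sub_eq_zero.1 (s.nzd (s.add x.2 j1) j4 j3)).symm)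

theorem comm [Finite F] (s : St P n m) (ha : Jd P n m a) (hb : Jd P n m b) : a * b = b * a := by
  have h2 := s.h.two
  have h1 := s.sub (s.sub (s.circ (s.U ha s.one) hb) (s.U ha hb)) (s.U ha hb)
  have wa := W.of_ad h2 (s.ad ha)
  have wb := W.of_ad h2 (s.ad hb)
  generalize a.trace / 4 = z at wa
  generalize b.trace / 4 = y at wb
  by_cases h0 : a * 1 * a * b + b * (a * 1 * a) - a * b * a - a * b * a = 0
  swap
  · have hw : W _ := ⟨s.ad h1, by
      simp only [trace_sub, trace_add, Matrix.mul_one, trace_mul_cycle a b a, trace_mul_comm b]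
      ring⟩
    obtain ⟨u, hu⟩ := hw.par_of_commute h2 wa h0 (by
      rw [mul_sub _ a, sub_mul a, s.comm_of_w h1 hw h0 ha]; simp)
    obtain ⟨v, hv⟩ := hw.par_of_commute h2 wb h0 (by
      rw [mul_sub _ b, sub_mul b, s.comm_of_w h1 hw h0 hb]; simp)
    generalize a * 1 * a * b + b * (a * 1 * a) - a * b * a - a * b * a = w at hu hv
    rw [sub_eq_iff_eq_add.1 hu, sub_eq_iff_eq_add.1 hv]
    simp only [add_mul, mul_add, smul_mul_assoc, mul_smul_comm, Matrix.mul_one, Matrix.one_mul]
    module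
  obtain ⟨X, rfl⟩ : ∃ X, a = X + z • 1 := ⟨a - z • 1, by abel⟩
  rw [add_sub_cancel_right] at wa
  have hq := wa.sq h2
  generalize ip X X / 2 = q at hq
  by_cases q0 : q = 0
  · have := Fintype.ofFinite F
    have e : ∀ k : ℕ, (X + z • 1) ^ (k + 1) = z ^ (k + 1) • 1 + (((k + 1 : ℕ) : F) * z ^ k) • X :=
      fun k => by
      induction k with
      | zero => simp [add_comm]
      | succ k ih =>
        rw [pow_succ, ih]
        simp only [add_mul, mul_add, smul_mul_assoc, mul_smul_comm, Matrix.mul_one, Matrix.one_mul,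
          hq, q0]
        push_cast
        module
    have h3 := s.pow ha (Fintype.card F - 1 + 1)
    rw [e, Nat.sub_add_cancel Fintype.card_pos, FiniteField.cast_card_eq_zero,
      FiniteField.pow_card, zero_mul, zero_smul, add_zero] at h3
    have h4 := s.sub ha h3
    rw [add_sub_cancel_right] at h4
    have : X = 0 := by_contra fun X0 => X0 (s.nzd h4 X0 (by rw [hq, q0, zero_smul]))
    simp [this]
  have h3 : (2 * q) • b = (2 : F) • (X * b * X) := by
    simp only [add_mul, mul_add, smul_mul_assoc, mul_smul_comm, Matrix.mul_one, Matrix.one_mul,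
      hq] at h0
    linear_combination (norm := module) h0
  have h4 := congrArg (X * ·) h3
  simp only [mul_smul_comm, ← Matrix.mul_assoc, hq, smul_mul_assoc, Matrix.one_mul,
    smul_smul] at h4
  simp [add_mul, mul_add, smul_right_injective _ (mul_ne_zero h2 q0) h4]

theorem sq_mem [Finite F] (s : St P n m) (hK : Big P K) (c1 : n * a = a * n) (c2 : m * a = a * m)
    (e : K = (1 + a * n) * m * (1 - a * n)) : Jd P n m (a * a) := by
  have c1' : ∀ x, n * (a * x) = a * (n * x) := fun x => by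
    rw [← Matrix.mul_assoc, c1, Matrix.mul_assoc]
  have c2' : ∀ x, m * (a * x) = a * (m * x) := fun x => by
    rw [← Matrix.mul_assoc, c2, Matrix.mul_assoc]
  by_cases h0 : K * m = 0
  · have : a = 0 := s.symm.cancel c1 (by
      have := congrArg (fun x => m * n * x) h0
      simpa [e, Matrix.mul_assoc, c1', c2', s.mn, s.mn', mul_sub, sub_mul, mul_add, add_mul, s.nn',
        s.symm.nn', s.bn.sq, s.bm.sq] using this)
    simpa [this] using s.zero
  obtain ⟨L, hL, l1, l2⟩ := opp s.h s.hn hK s.bm h0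
  obtain ⟨b, hb, rfl⟩ := s.symm.of_line hL l1
  replace hb := s.symm.sw hb
  have h1 : a * a * -b = 1 := sub_eq_zero.1 (s.cancel
    (by simp [mul_sub, sub_mul, Matrix.mul_assoc, c2', hb.cm]) (by
      have := congrArg (fun x => n * m * x * n) l2
      simpa [e, Matrix.mul_assoc, c1', c2', s.mn, s.mn', mul_sub, sub_mul, mul_add, add_mul, s.nn',
        s.symm.nn', s.bn.sq, s.bm.sq, hb.cn', hb.cm', hb.cn, c1, sub_eq_zero] using this))
  obtain ⟨c, hc, e'⟩ := s.inv (s.neg hb) fun e => by simp [e] at h1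
  rwa [← Matrix.mul_one (a * a), ← e', ← Matrix.mul_assoc, h1, Matrix.one_mul]

theorem mem_alg [Finite F] (s : St P n m) (A : Subalgebra F (M4 F)) (hn : n ∈ A) (hm : m ∈ A)
    (hJ : ∀ a, Jd P n m a → a ∈ A) (hN : Big P N) : N ∈ A := by
  by_cases h0 : n * N = 0
  · obtain ⟨a, ha, rfl⟩ := s.of_line hN.toQd (s.bn.swap s.h hN.toQd h0)
    exact mul_mem (hJ a ha) hn
  obtain ⟨K, hK, k1, k2⟩ := opp s.h s.hn s.bn hN h0
  have bK := hN.of_mul s.h hK (fun e => by simp [e] at k2) k1
  have r1 : K * n = 1 - n * K := eq_sub_of_add_eq' k2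
  have r2 : ∀ x, K * (n * x) = x - n * (K * x) := fun x => by
    rw [← Matrix.mul_assoc, r1]; noncomm_ring
  have r3 : ∀ x, K * (K * x) = 0 := fun x => by rw [← Matrix.mul_assoc, hK.sq, Matrix.zero_mul]
  obtain ⟨a, ha⟩ : ∃ a, a = K * n * m - m * n * K := ⟨_, rfl⟩
  have c1 : n * a = a * n := by
    simp [ha, Matrix.mul_assoc, s.mn, s.mn', mul_sub, sub_mul, s.nn', s.symm.nn', s.bn.sq, s.bm.sq,
      r1, r2]
  have c2 : m * a = a * m := by
    simp [ha, Matrix.mul_assoc, s.mn, s.mn', mul_sub, sub_mul, s.nn', s.symm.nn', s.bn.sq, s.bm.sq,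
      r1, r2]
  have c3 : a * n = n * m - n * K := by
    simp [ha, Matrix.mul_assoc, s.mn, s.mn', mul_sub, sub_mul, s.nn', s.symm.nn', s.bn.sq, s.bm.sq,
      r1, r2]
  have e : K = (1 + a * n) * m * (1 - a * n) := by
    simp [c3, Matrix.mul_assoc, s.mn, s.mn', mul_sub, sub_mul, s.nn', s.symm.nn', s.bn.sq, s.bm.sq,
      r1, r2, r3, hK.sq, mul_add, add_mul]
  have j1 := s.sq_mem bK c1 c2 e
  have j2 := s.sq_mem (a := a + 1) (bK.conj s.h s.bn.mem) (by simp [mul_add, add_mul, c1])
    (by simp [mul_add, add_mul, c2]) (by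
      rw [s.bn.ad1 s.h, e]
      have nn := s.bn.sq
      rw [show 1 + (a + 1) * n = (1 + n) * (1 + a * n) by
        linear_combination (norm := noncomm_ring) -c1 * n - a * nn,
        show 1 - (a + 1) * n = (1 - a * n) * (1 - n) by
        linear_combination (norm := noncomm_ring) -a * nn]
      noncomm_ring)
  have j3 : Jd P n m a := s.half (by
    convert s.sub (s.sub j2 j1) s.one using 1
    noncomm_ring)
  have g1 := (j3.qd.neg s.h).mem
  obtain ⟨b, hb, e'⟩ := s.symm.of_line (hN.toQd.conj s.h g1) (by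
    rw [(j3.qd.neg s.h).ad1 s.h]
    have := hK.swap s.h hN.toQd k1
    rw [e] at this
    linear_combination (norm := noncomm_ring) (1 - a * n) * this * (1 + a * n) +
      (1 - a * n) * N * (1 + a * n) * m * j3.qd.sq)
  rw [(j3.qd.neg s.h).ad1 s.h] at e'
  have an := mul_mem (hJ a j3) hn
  convert mul_mem (mul_mem (add_mem (one_mem A) an) (mul_mem (hJ b (s.symm.sw hb)) hm))
    (sub_mem (one_mem A) an) using 1
  rw [← e']
  linear_combination (norm := noncomm_ring) j3.qd.sq * N * (1 - a * n * (a * n)) + N * j3.qd.sq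

end St

theorem Big.ind (h : Ctx P) (hn : Big P n) {p : M4 F → Prop} (p1 : p 1)
    (pm : ∀ a b, p a → p b → p (a * b)) (pS : ∀ N, Big P N → p (1 + N)) {g : M4 F}
    (hg : Mem P g) : p g := by
  refine h.ind (S := fun s => ∃ N, Big P N ∧ s = 1 + N) (s := 1 + n) ?_ ?_ ⟨n, hn, rfl⟩
    (by simpa using hn.ne) (fun e => ?_) p1 (fun a b _ _ => pm a b) ?_ hg
  · rintro _ ⟨N, hN, rfl⟩
    exact hN.mem
  · rintro g _ hg ⟨N, hN, rfl⟩
    exact ⟨_, hN.conj h hg, by rw [mul_add, add_mul, Matrix.mul_one, h.mul_ad hg]⟩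
  · refine hn.ne (eq_zero_of_two h.two ?_)
    linear_combination (norm := noncomm_ring) e * n - hn.sq
  · rintro _ ⟨N, hN, rfl⟩
    rw [hN.ad1 h, sub_eq_add_neg]
    exact ⟨pS N hN, pS _ (hN.of_mul h (hN.neg h) (neg_ne_zero.2 hN.ne) (by simp [hN.sq]))⟩

end Q

open Q in
theorem small [Finite F] (h : Ctx P) (hn : NoTv P) : Small P := by
  intro n K h1 h2 h3 h4 n0 e
  by_contra hne
  push Not at hne
  have hN : Qd P n := ⟨h1, h3⟩
  have hK : Qd P K := ⟨h2, h4⟩
  have bn : Big P n := ⟨hN, n0, K, hK, hK.of_comm h hn hN e.symm, hne⟩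
  obtain ⟨M, hM, h0⟩ : ∃ M, Big P M ∧ n * M ≠ 0 := by
    by_contra hc
    push Not at hc
    refine n0 (eq_zero_of_two h.two ?_)
    simpa using (bn.ind h (p := fun g => n * g = n) (by simp)
      (fun a b ha hb => by rw [← Matrix.mul_assoc, ha, hb])
      (fun N hN => by simp [mul_add, hc N hN]) h.neg).symm
  obtain ⟨m, hm, m1, m2⟩ := opp h hn bn hM h0
  have s : St P n m := ⟨h, hn, bn, hM.of_mul h hm (fun e => by simp [e] at m2) m1, m2⟩
  have key : ∀ A : Subalgebra F (M4 F), n ∈ A → m ∈ A → (∀ a, Jd P n m a → a ∈ A) →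
      ∀ g, Mem P g → g ∈ A := fun A a1 a2 a3 g hg => bn.ind h (p := (· ∈ A)) (one_mem A)
    (fun _ _ => mul_mem) (fun N hN => add_mem (one_mem A) (s.mem_alg A a1 a2 a3 hN)) hg
  refine h.q2 (x := n) (y := m) (a := 0) (b := 0) (c := 0) (d := 0) (by simp [h3])
    (by simp [hm.sq]) (key _ (Algebra.subset_adjoin (by simp)) (Algebra.subset_adjoin (by simp))
    fun a ha => ?_)
  obtain ⟨c, rfl⟩ := h.scalar (X := a) fun g hg => key (Subalgebra.centralizer F {a})
    (by rintro _ rfl; exact ha.cn.symm) (by rintro _ rfl; exact ha.cm.symm)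
    (fun b hb => by rintro _ rfl; exact s.comm ha hb) g hg a rfl
  exact Subalgebra.smul_mem _ (one_mem _) c

end Cfsg.Agent.Cl.S4O
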