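import Mathlib
import Cfsg.Agent.Cl.MaxSpX
import Cfsg.Agent.Cl.D3DL

/-!
# Irreducible groups generated by a class of symplectic transvections, odd characteristic
-/

set_option autoImplicit false

namespace Cfsg.Agent.Cl.S4O.T

open Matrix MaxSp D3 Module
open scoped MatrixGroups

variable {F : Type*} [Field F] {V : Type*} [AddCommGroup V] [Module F V]
  {B : LinearMap.BilinForm F V}

open L2 in
/-- A subgroup of `SL₂` with upper and lower transvections contains `-1`. -/
theorem exists_neg [Finite F] (h2 : (2 : F) ≠ 0) {L : Subgroup (GL (Fin 2) F)}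
    (hd : ∀ A ∈ L, (A : Matrix (Fin 2) (Fin 2) F).det = 1) {a b : F} (ha : a ∈ upS L) (a0 : a ≠ 0)
    (hb : b ∈ loS L) (b0 : b ≠ 0) : ∃ A ∈ L, (A : Matrix (Fin 2) (Fin 2) F) = -1 := by
  have := Fintype.ofFinite F
  obtain ⟨p, hp⟩ := CharP.exists F
  have : Fact p.Prime := ⟨CharP.char_is_prime F p⟩
  obtain ⟨t, ht, t1, t2⟩ : ∃ t ∈ L.map ProjGenLinGroup.mk, t ≠ 1 ∧ t * t = 1 := by
    rcases dickson_irregular p (L.map ProjGenLinGroup.mk) (aff_mem_iff.2 ha)
      (by rw [Ne, aff_eq_one_iff one_ne_zero]; simpa) (mem_uni_inf.2 ⟨a, rfl⟩) (low_mem_iff.2 hb)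
      (by rw [low_smul_inf b0]; exact pt_ne_inf _) with ⟨rfl, -⟩ | ⟨-, ⟨e⟩⟩ | ⟨k, c, -, k1, -⟩
    · exact absurd (by simpa using CharP.cast_eq_zero F 2) h2
    · obtain ⟨t, ht⟩ := exists_prime_orderOf_dvd_card' (G := L.map ProjGenLinGroup.mk) 2
        (by rw [card_of_A5 e]; norm_num)
      refine ⟨t, t.2, fun e => ?_, ?_⟩
      · rw [show t = 1 from Subtype.ext e, orderOf_one] at ht
        exact absurd ht (by norm_num)
      · have := pow_orderOf_eq_one t
        rw [ht, pow_two] at this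
        exact congrArg Subtype.val this
    · have hd : (!![0, 1; -1, 0] : M2 F).det = 1 := by simp
      have m : pm (!![0, 1; -1, 0] : M2 F) ∈ subPSL k :=
        pm_mem_subPSL hd fun i j => by fin_cases i <;> fin_cases j <;> simp
      have hd' : (!![0, 1; -1, 0] : M2 F).det ≠ 0 := by simp
      have s := pm_mul_self hd' (by simp : trace (!![0, 1; -1, 0] : M2 F) = 0)
      refine ⟨_, k1 (conj_mem_cj.2 m), fun e => ?_, ?_⟩
      · rw [mul_inv_eq_one, mul_eq_left, pm_eq_one_iff hd'] at e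
        simpa using e.1
      · rw [conj_mul, s, mul_one, mul_inv_cancel]
  obtain ⟨A, hA, rfl⟩ := ht
  refine ⟨A * A, L.mul_mem hA hA, ?_⟩
  have d := hd A hA
  rw [← map_mul, ← pm_coe, pm_eq_one_iff (A * A).det_ne_zero] at t2
  rw [← pm_coe, Ne, pm_eq_one_iff A.det_ne_zero] at t1
  rw [Units.val_mul] at t2 ⊢
  generalize (A : Matrix (Fin 2) (Fin 2) F) = N at d t1 t2
  simp only [mul_apply, Fin.sum_univ_two] at t2
  rw [det_fin_two] at d
  have tr : N 0 0 + N 1 1 = 0 := by
    by_contra c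
    exact t1 ⟨mul_right_cancel₀ c (by linear_combination t2.1),
      mul_right_cancel₀ c (by linear_combination t2.2.1),
      mul_right_cancel₀ c (by linear_combination t2.2.2)⟩
  ext i j
  fin_cases i <;> fin_cases j <;> simp [mul_apply, Fin.sum_univ_two]
  · linear_combination N 0 0 * tr - d
  · linear_combination N 0 1 * tr
  · linear_combination N 1 0 * tr
  · linear_combination N 1 1 * tr - d

/-- The action on the span of `u`, `v` of the elements that fix its orthogonal complement. -/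
def pl (M : Subgroup (SpG B)) (u v : V) : Subgroup (GL (Fin 2) F) where
  carrier := {A | ∃ g ∈ M, (∀ r, B u r = 0 → B v r = 0 → g.1 r = r) ∧
    g.1 u = (A : Matrix (Fin 2) (Fin 2) F) 0 0 • u + (A : Matrix (Fin 2) (Fin 2) F) 1 0 • v ∧
    g.1 v = (A : Matrix (Fin 2) (Fin 2) F) 0 1 • u + (A : Matrix (Fin 2) (Fin 2) F) 1 1 • v}
  one_mem' := ⟨1, M.one_mem, fun _ _ _ => rfl, by simp, by simp⟩
  mul_mem' := by
    rintro A C ⟨g, hg, a0, a1, a2⟩ ⟨h, hh, b0, b1, b2⟩
    refine ⟨g * h, M.mul_mem hg hh, fun r x y => by rw [spG_mul_apply, b0 r x y, a0 r x y], ?_, ?_⟩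
    · rw [spG_mul_apply, b1, map_add, map_smul, map_smul, a1, a2]
      simp only [Units.val_mul, mul_apply, Fin.sum_univ_two]
      module
    · rw [spG_mul_apply, b2, map_add, map_smul, map_smul, a1, a2]
      simp only [Units.val_mul, mul_apply, Fin.sum_univ_two]
      module
  inv_mem' := by
    rintro A ⟨g, hg, a0, a1, a2⟩
    have h : ∀ i j, (A : Matrix (Fin 2) (Fin 2) F) i 0 * (A⁻¹ : GL (Fin 2) F) 0 j +
        (A : Matrix (Fin 2) (Fin 2) F) i 1 * (A⁻¹ : GL (Fin 2) F) 1 j =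
          (1 : Matrix (Fin 2) (Fin 2) F) i j := fun i j => by
      rw [← A.mul_inv, mul_apply, Fin.sum_univ_two]
    have h00 := h 0 0
    have h01 := h 0 1
    have h10 := h 1 0
    have h11 := h 1 1
    simp only [one_apply_eq, ne_eq, zero_ne_one, one_ne_zero, not_false_eq_true,
      one_apply_ne] at h00 h01 h10 h11
    refine ⟨g⁻¹, M.inv_mem hg, fun r x y => g.1.injective ?_, g.1.injective ?_, g.1.injective ?_⟩
    · rw [sp_apply_inv_apply, a0 r x y]
    · simp only [sp_apply_inv_apply, map_add, map_smul, a1, a2]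
      linear_combination (norm := module) (-h00) • u - h10 • v
    · simp only [sp_apply_inv_apply, map_add, map_smul, a1, a2]
      linear_combination (norm := module) (-h01) • u - h11 • v

variable {M : Subgroup (SpG B)} {u v w x y r : V} {c l : F} {X : Set V}

theorem decomp (hA : B.IsAlt) (h : B u v ≠ 0) (x : V) :
    ∃ a b : F, ∃ r, B u r = 0 ∧ B v r = 0 ∧ x = a • u + b • v + r := by
  refine ⟨B x v / B u v, B u x / B u v, x - (B x v / B u v) • u - (B u x / B u v) • v, ?_, ?_, by abel⟩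
  · simp only [map_sub, map_smul, smul_eq_mul, hA.self_eq_zero]
    field_simp
    ring
  · simp only [map_sub, map_smul, smul_eq_mul, hA.self_eq_zero, ← hA.neg_eq u v, ← hA.neg_eq x v]
    field_simp
    ring

theorem ext_pl (hA : B.IsAlt) (h : B u v ≠ 0) {g k : SpG B} (h0 : ∀ r, B u r = 0 → B v r = 0 → g.1 r = k.1 r)
    (h1 : g.1 u = k.1 u) (h2 : g.1 v = k.1 v) : g = k := spG_ext fun x => by
  obtain ⟨a, b, r, r1, r2, rfl⟩ := decomp hA h x
  simp only [map_add, map_smul, h1, h2, h0 r r1 r2]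

theorem mem_upS (hA : B.IsAlt) (h : B u v ≠ 0) : c * B v u ∈ upS (pl M u v) ↔ spT hA u c ∈ M := by
  constructor
  · rintro ⟨A, ⟨g, hg, e0, e1, e2⟩, hM⟩
    rw [hM] at e1 e2
    rwa [ext_pl hA h (g := spT hA u c) (k := g) (fun r a b => by simp [e0 r a b, alt_zero hA a])
      (by simp [e1, hA.self_eq_zero]) (by simp [e2, add_comm])]
  · exact fun hg => ⟨GeneralLinearGroup.mkOfDetNeZero !![1, c * B v u; 0, 1] (by simp),
      ⟨_, hg, fun r a _ => by simp [alt_zero hA a], by simp [hA.self_eq_zero, GeneralLinearGroup.mkOfDetNeZero],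
        by simp [GeneralLinearGroup.mkOfDetNeZero, add_comm]⟩, rfl⟩

theorem mem_loS (hA : B.IsAlt) (h : B u v ≠ 0) : c * B u v ∈ loS (pl M u v) ↔ spT hA v c ∈ M := by
  constructor
  · rintro ⟨A, ⟨g, hg, e0, e1, e2⟩, hM⟩
    rw [hM] at e1 e2
    rwa [ext_pl hA h (g := spT hA v c) (k := g) (fun r a b => by simp [e0 r a b, alt_zero hA b])
      (by simp [e1]) (by simp [e2, hA.self_eq_zero])]
  · exact fun hg => ⟨GeneralLinearGroup.mkOfDetNeZero !![1, 0; c * B u v, 1] (by simp),
      ⟨_, hg, fun r _ a => by simp [alt_zero hA a], by simp [GeneralLinearGroup.mkOfDetNeZero],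
        by simp [hA.self_eq_zero, GeneralLinearGroup.mkOfDetNeZero]⟩, rfl⟩

theorem det_pl (hA : B.IsAlt) (h : B u v ≠ 0) (A : GL (Fin 2) F) (hM : A ∈ pl M u v) :
    (A : Matrix (Fin 2) (Fin 2) F).det = 1 := by
  obtain ⟨g, -, -, e1, e2⟩ := hM
  have := spG_form g u v
  rw [e1, e2] at this
  simp only [map_add, map_smul, LinearMap.add_apply, LinearMap.smul_apply, smul_eq_mul, hA.self_eq_zero,
    ← hA.neg_eq u v] at this
  rw [det_fin_two]
  exact mul_right_cancel₀ h (by linear_combination this)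

/-- The parameters of the transvections with centre `v` in `M`. -/
def LL (hA : B.IsAlt) (M : Subgroup (SpG B)) (v : V) : AddSubgroup F where
  carrier := {c | spT hA v c ∈ M}
  zero_mem' := by simp
  add_mem' := fun ha hb => by simpa only [Set.mem_ofPred_eq, ← spT_mul] using M.mul_mem ha hb
  neg_mem' := fun ha => by simpa only [Set.mem_ofPred_eq, ← spT_inv] using M.inv_mem ha

theorem mem_LL {hA : B.IsAlt} : c ∈ LL hA M v ↔ spT hA v c ∈ M := Iff.rfl

theorem three [Finite F] (h2 : (2 : F) ≠ 0) {S : AddSubgroup F} (h : (S : Set F).ncard ≤ 3) {s t : F}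
    (hs : s ∈ S) (s0 : s ≠ 0) (ht : t ∈ S) : t = 0 ∨ t = s ∨ t = -s := by
  by_contra c
  push Not at c
  have n : s ≠ -s := fun e => s0 ((mul_eq_zero.1 (show 2 * s = 0 by linear_combination e)).resolve_left h2)
  have : ({t, 0, s, -s} : Set F).ncard ≤ 3 := (Set.ncard_le_ncard (by
    rintro _ (rfl | rfl | rfl | rfl)
    exacts [ht, S.zero_mem, hs, S.neg_mem hs])).trans h
  rw [Set.ncard_insert_of_notMem (by simpa [not_or] using c), Set.ncard_insert_of_notMem
    (by simpa using ⟨s0.symm, s0⟩), Set.ncard_pair n] at this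
  omega

theorem ncard_eq {A C : Set F} (hc : c ≠ 0) (h : ∀ a, a * c ∈ C ↔ a ∈ A) : A.ncard = C.ncard :=
  Set.ncard_congr (fun a _ => a * c) (fun a ha => (h a).2 ha) (fun _ _ _ _ e => mul_right_cancel₀ hc e)
    fun b hb => ⟨b / c, (h _).1 (by rwa [div_mul_cancel₀ _ hc]), div_mul_cancel₀ _ hc⟩

/-- An irreducible group generated by a class of transvections with a largest parameter group. -/
structure Hy (hA : B.IsAlt) (M : Subgroup (SpG B)) (X : Set V) (l : F) : Prop where
  nd : B.Nondegenerate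
  two : (2 : F) ≠ 0
  l0 : l ≠ 0
  dim : 2 < finrank F V
  ne : ∀ x ∈ X, x ≠ 0
  mem : ∀ x ∈ X, spT hA x l ∈ M
  act : ∀ g ∈ M, ∀ x ∈ X, g.1 x ∈ X
  eqL : ∀ x ∈ X, ∀ y ∈ X, LL hA M x = LL hA M y
  max : ∀ x ∈ X, ∀ v, v ≠ 0 → (LL hA M v : Set F).ncard ≤ (LL hA M x : Set F).ncard
  ind : ∀ p : SpG B → Prop, p 1 → (∀ a b, p a → p b → p (a * b)) →
    (∀ x ∈ X, p (spT hA x l) ∧ p (spT hA x (-l))) → ∀ g ∈ M, p g
  irr : ∀ U : Submodule F V, (∀ g ∈ M, ∀ u ∈ U, g.1 u ∈ U) → U = ⊥ ∨ U = ⊤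
  tr : ∀ k : Subfield F, (∀ g ∈ M, LinearMap.trace F V g.1.toLinearMap ∈ k) → k = ⊤

namespace Hy

variable {hA : B.IsAlt} (h : Hy hA M X l)
include h

theorem add_mem (hx : x ∈ X) (hy : y ∈ X) : y + (l * B y x) • x ∈ X := h.act _ (h.mem x hx) y hy

theorem sub_mem (hx : x ∈ X) (hy : y ∈ X) : y + (-l * B y x) • x ∈ X := by
  have := h.act _ (M.inv_mem (h.mem x hx)) y hy
  rwa [spT_inv] at this

theorem top {U : Submodule F V} (hU : ∀ x ∈ X, x ∈ U ∨ x ∈ B.orthogonal U) (hu : u ∈ U) (u0 : u ≠ 0) :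
    U = ⊤ := by
  refine (h.irr U (h.ind (fun g => ∀ u ∈ U, g.1 u ∈ U) (fun _ a => a) (fun a b ha hb u hu => ha _ (hb u hu))
    fun x hx => ?_)).resolve_left fun e => u0 (by simpa [e] using hu)
  have : ∀ c, ∀ u ∈ U, (spT hA x c).1 u ∈ U := fun c u hu => by
    rw [spT_apply]
    rcases hU x hx with a | a
    · exact U.add_mem hu (U.smul_mem _ a)
    · rwa [show B u x = 0 from a u hu, mul_zero, zero_smul, add_zero]
  exact ⟨this _, this _⟩

theorem exists_out (u0 : u ≠ 0) (v : V) : ∃ x ∈ X, x ∉ Submodule.span F {u, v} ∧ (B u x ≠ 0 ∨ B v x ≠ 0) := by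
  classical
  by_contra c
  push Not at c
  have e := h.top (U := Submodule.span F {u, v}) (fun x hx => or_iff_not_imp_left.2 fun n w hw => by
    obtain ⟨a, b, rfl⟩ := Submodule.mem_span_pair.1 hw
    simp [c x hx n]) (Submodule.subset_span (Or.inl rfl)) u0
  have := finrank_span_finset_le_card (R := F) ({u, v} : Finset V)
  rw [Set.finrank, Finset.coe_pair, e, finrank_top] at this
  exact absurd (this.trans Finset.card_le_two) (not_le.2 h.dim)

/-- The case of parameter groups of order three. -/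
theorem sq_small [Finite F] (hu : u ∈ X) (hv : v ∈ X) (hs : (LL hA M u : Set F).ncard ≤ 3) :
    (l * B u v) ^ 2 = 0 ∨ (l * B u v) ^ 2 = 1 ∨ (l * B u v) ^ 2 = -1 := by
  by_cases b0 : B u v = 0
  · exact Or.inl (by simp [b0])
  obtain ⟨A, ⟨z, hz, z0, z1, z2⟩, e⟩ := exists_neg h.two (det_pl (M := M) hA b0)
    ((mem_upS hA b0).2 (h.mem u hu)) (mul_ne_zero h.l0 (alt_ne hA b0))
    ((mem_loS hA b0).2 (h.mem v hv)) (mul_ne_zero h.l0 b0)
  rw [e] at z1 z2
  replace z1 : z.1 u = -u := by simpa using z1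
  replace z2 : z.1 v = -v := by simpa using z2
  obtain ⟨x, hx, x1, x2⟩ := h.exists_out (h.ne u hu) v
  obtain ⟨a, b, r, r1, r2, rfl⟩ := decomp hA b0 x
  obtain ⟨w, ew⟩ : ∃ w, w = a • u + b • v := ⟨_, rfl⟩
  rw [← ew] at hx x1 x2
  have r0 : r ≠ 0 := by
    rintro rfl
    exact x1 (by rw [add_zero, ew]; exact Submodule.mem_span_pair.2 ⟨a, b, rfl⟩)
  have wr : B w r = 0 := by simp [ew, r1, r2]
  have hx' : -w + r ∈ X := by
    convert h.act z hz _ hx using 1
    rw [map_add, z0 r r1 r2, ew, map_add, map_smul, map_smul, z1, z2]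
    module
  have hE : spE hA ((2 * l) • w) r ∈ M := by
    convert M.mul_mem (M.inv_mem (h.mem _ hx')) (h.mem _ hx) using 1
    rw [spT_add hA wr, spT_add hA (by simp [wr]), spT_neg, ← spE_inv hA (by simp [wr]), _root_.mul_inv_rev,
      inv_inv, mul_assoc, inv_mul_cancel_left, ← spE_smul hA wr, spE_mul hA (by simp [wr]) (by simp [wr]),
      hA.self_eq_zero, spT_zero, mul_one, ← add_smul, two_mul]
  have key : ∀ y ∈ X, B r y = 0 → -8 * l ^ 3 * B w y ^ 2 ∈ LL hA M r := fun y hy ry => by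
    have m := M.mul_mem (M.mul_mem (h.mem y hy) hE) (M.inv_mem (h.mem y hy))
    rw [spE_conj, spT_apply, spT_apply, ry, mul_zero, zero_smul, add_zero] at m
    convert spT_mem_of_spE hA (by simp [wr]) (by simp [wr, alt_zero hA ry]) hE m using 1
    rw [mem_LL]
    congr! 2
    simp only [map_add, map_smul, LinearMap.add_apply, LinearMap.smul_apply, smul_eq_mul, hA.self_eq_zero,
      ← hA.neg_eq w y]
    ring
  have S3 := (h.max u hu r r0).trans hs
  have ru := alt_zero hA r1
  have rv := alt_zero hA r2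
  have two : ∀ x ∈ X, ∀ y ∈ X, B r x = 0 → B r y = 0 → B w y ≠ 0 →
      (l * B x y) ^ 2 = 0 ∨ (l * B x y) ^ 2 = 1 ∨ (l * B x y) ^ 2 = -1 := fun x hx y hy rx ry n => by
    have k1 := key _ (h.add_mem hy hx) (by simp [rx, ry])
    have k2 := key _ (h.sub_mem hy hx) (by simp [rx, ry])
    have k3 := key x hx rx
    have k4 := key y hy ry
    have s0 : -16 * l ^ 3 * B w y ^ 2 ≠ 0 := by
      rw [show (-16 : F) = -2 ^ 4 by norm_num]
      exact mul_ne_zero (mul_ne_zero (neg_ne_zero.2 (pow_ne_zero _ h.two)) (pow_ne_zero _ h.l0)) (pow_ne_zero _ n)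
    have k5 : -16 * l ^ 3 * B w y ^ 2 ∈ LL hA M r := by convert AddSubgroup.add_mem _ k4 k4 using 1; ring
    have k6 : (l * B x y) ^ 2 * (-16 * l ^ 3 * B w y ^ 2) ∈ LL hA M r := by
      convert AddSubgroup.sub_mem _ (AddSubgroup.add_mem _ k1 k2) (AddSubgroup.add_mem _ k3 k3) using 1
      simp only [map_add, map_smul, smul_eq_mul]
      ring
    exact (three h.two S3 k5 s0 k6).imp (fun e => (mul_eq_zero.1 e).resolve_right s0)
      (Or.imp (fun e => mul_right_cancel₀ s0 (by rw [e, one_mul]))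
        fun e => mul_right_cancel₀ s0 (by rw [e, neg_one_mul]))
  rcases x2 with n | n
  · have := two v hv u hu rv ru (alt_ne hA (by simpa [r1] using n))
    rwa [← hA.neg_eq u v, mul_neg, neg_sq] at this
  · exact two u hu v hv ru rv (alt_ne hA (by simpa [r2] using n))

theorem pair [Finite F] (hu : u ∈ X) (hv : v ∈ X) (b0 : B u v ≠ 0) :
    ∃ k : Subfield F, (∀ c, l * c ∈ LL hA M u ↔ c ∈ k) ∧ (l * B u v) ^ 2 ∈ k := by
  rcases le_or_gt (LL hA M u : Set F).ncard 3 with hs | hs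
  · have t : ∀ c, l * c ∈ LL hA M u → c = 0 ∨ c = 1 ∨ c = -1 := fun c hc =>
      (three h.two hs (h.mem u hu) h.l0 hc).imp (fun e => (mul_eq_zero.1 e).resolve_left h.l0)
        (Or.imp (fun e => mul_left_cancel₀ h.l0 (by rw [e, mul_one]))
          fun e => mul_left_cancel₀ h.l0 (by rw [e, mul_neg_one]))
    have t' : ∀ c, c = 0 ∨ c = 1 ∨ c = -1 → l * c ∈ LL hA M u := by
      rintro _ (rfl | rfl | rfl)
      · simp
      · simpa using mem_LL.2 (h.mem u hu)
      · simpa using mem_LL.2 (h.mem u hu)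
    refine ⟨{ carrier := {c | l * c ∈ LL hA M u}
              zero_mem' := t' 0 (Or.inl rfl)
              one_mem' := t' 1 (Or.inr (Or.inl rfl))
              add_mem' := fun {a b} ha hb => by simpa only [Set.mem_ofPred_eq, mul_add] using AddSubgroup.add_mem _ ha hb
              neg_mem' := fun {a} ha => by simpa only [Set.mem_ofPred_eq, mul_neg] using AddSubgroup.neg_mem _ ha
              mul_mem' := fun {a b} ha hb => ?_
              inv_mem' := fun a ha => ?_ }, fun _ => Iff.rfl, t' _ (h.sq_small hu hv hs)⟩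
    · rcases t a ha with rfl | rfl | rfl
      · simp
      · simpa using hb
      · simpa using hb
    · rcases t a ha with rfl | rfl | rfl
      · simp
      · simpa using ha
      · simpa using ha
  · rw [ncard_eq (A := LL hA M u) (alt_ne hA b0) fun a => mem_upS (M := M) hA b0] at hs
    have n := mul_ne_zero h.l0 b0
    obtain ⟨k, e1, e2⟩ := dl (Or.inl hs) ((mem_loS hA b0).2 (h.mem v hv)) n
    refine ⟨k, fun c => ?_, ?_⟩
    · rw [h.eqL u hu v hv, mem_LL, ← mem_loS hA b0, e2, show l * c * B u v * (l * B u v)⁻¹ = c by rw [mul_inv_eq_iff_eq_mul₀ n]; ring]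
    · convert k.neg_mem ((e1 _).1 ((mem_upS hA b0).2 (h.mem u hu))) using 1
      rw [← hA.neg_eq u v]
      ring

theorem exists_field [Finite F] (hu : u ∈ X) :
    ∃ k : Subfield F, (∀ x ∈ X, ∀ c, l * c ∈ LL hA M x ↔ c ∈ k) ∧ ∀ x ∈ X, ∀ y ∈ X, (l * B x y) ^ 2 ∈ k := by
  obtain ⟨v, hv, -, n⟩ := h.exists_out (h.ne u hu) u
  obtain ⟨k, e, -⟩ := h.pair hu hv (n.elim id id)
  refine ⟨k, fun x hx c => by rw [h.eqL x hx u hu, e], fun x hx y hy => ?_⟩
  by_cases b0 : B x y = 0
  · simp [b0]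
  · obtain ⟨k', e', m⟩ := h.pair hx hy b0
    rw [← e, h.eqL u hu x hx, e']
    exact m

section Trace

variable {k : Subfield F} (hk : ∀ x ∈ X, ∀ y ∈ X, (l * B x y) ^ 2 ∈ k)
include hk

theorem tri (hx : x ∈ X) (hy : y ∈ X) (hw : w ∈ X) : l * B x y * (l * B y w) * (l * B w x) ∈ k := by
  have m := k.div_mem (k.sub_mem (k.add_mem (hk x hx w hw) (k.mul_mem (hk x hx y hy) (hk y hy w hw)))
    (hk _ (h.add_mem hy hx) w hw)) (natCast_mem k 2)
  convert m using 1
  rw [Nat.cast_ofNat, eq_div_iff h.two]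
  simp only [map_add, map_smul, LinearMap.add_apply, LinearMap.smul_apply, smul_eq_mul, ← hA.neg_eq x w]
  ring

theorem step (hx : x ∈ X) (hy : y ∈ X) (g : ∀ t ∈ X, c * (l * B y t) * (l * B t w) ∈ k) {t : V} (ht : t ∈ X) :
    c * (l * B y x) * (l * B x t) * (l * B t w) ∈ k := by
  by_cases b0 : B y t = 0
  · convert k.sub_mem (k.mul_mem (hk t ht x hx) (g x hx)) (g _ (h.add_mem hx ht)) using 1
    simp only [map_add, map_smul, LinearMap.add_apply, LinearMap.smul_apply, smul_eq_mul, ← hA.neg_eq t x, b0]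
    ring
  · convert k.neg_mem (k.div_mem (k.mul_mem (g t ht) (h.tri hk hy hx ht)) (hk y hy t ht)) using 1
    have := h.l0
    rw [← hA.neg_eq y t]
    field_simp

theorem trace_mem [FiniteDimensional F V] {g : SpG B} (hg : g ∈ M) :
    LinearMap.trace F V g.1.toLinearMap ∈ k := by
  let E : V → V → F → End F V := fun y w c => (c • l • B.flip w).smulRight y
  have hE : ∀ y w c v, E y w c v = (c * (l * B v w)) • y := fun _ _ _ _ => rfl
  let A : AddSubgroup (End F V) := AddSubgroup.closure {f | f = 1 ∨ ∃ y w c, f = E y w c ∧ y ∈ X ∧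
    c * (l * B y w) ∈ k ∧ ∀ t ∈ X, c * (l * B y t) * (l * B t w) ∈ k}
  have hN : ∀ x ∈ X, ∀ a ∈ A, E x x 1 * a ∈ A := fun x hx a ha => by
    induction ha using AddSubgroup.closure_induction with
    | mem f hf =>
      refine AddSubgroup.subset_closure (Or.inr ?_)
      rcases hf with rfl | ⟨y, w, c, rfl, hy, -, a2⟩
      · refine ⟨x, x, 1, mul_one _, hx, by simp [hA.self_eq_zero], fun t ht => ?_⟩
        convert k.neg_mem (hk x hx t ht) using 1
        rw [← hA.neg_eq x t]
        ring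
      · refine ⟨x, w, c * (l * B y x), LinearMap.ext fun v => ?_, hx, a2 x hx, fun t ht => h.step hk hx hy a2 ht⟩
        simp only [End.mul_apply, hE, map_smul, smul_smul, LinearMap.smul_apply, smul_eq_mul]
        congr 1
        ring
    | zero => simp
    | add a b _ _ ha hb => rw [mul_add]; exact A.add_mem ha hb
    | neg a _ ha => rw [mul_neg]; exact A.neg_mem ha
  have hT : ∀ a ∈ A, LinearMap.trace F V a ∈ k := fun a ha => by
    induction ha using AddSubgroup.closure_induction with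
    | mem f hf =>
      rcases hf with rfl | ⟨y, w, c, rfl, -, a1, -⟩
      · rw [LinearMap.trace_one]
        exact natCast_mem k _
      · rw [LinearMap.trace_smulRight]
        exact a1
    | zero => simp
    | add a b _ _ ha hb => rw [map_add]; exact k.add_mem ha hb
    | neg a _ ha => rw [map_neg]; exact k.neg_mem ha
  have := h.ind (fun g => ∀ a ∈ A, (g.1.toLinearMap : End F V) * a ∈ A) (fun a ha => ha)
    (fun a b ha hb f hf => by simpa [← mul_assoc] using ha _ (hb f hf)) (fun x hx => ⟨fun a ha => ?_, fun a ha => ?_⟩)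
    g hg 1 (AddSubgroup.subset_closure (Or.inl rfl))
  · exact hT _ (by simpa using this)
  · convert A.add_mem ha (hN x hx a ha) using 1
    ext v
    simp [E]
  · convert A.sub_mem ha (hN x hx a ha) using 1
    ext v
    simp [E, sub_eq_add_neg]

end Trace

theorem eq_top [Finite F] [FiniteDimensional F V] (hu : u ∈ X) : M = ⊤ := by
  obtain ⟨k, e, hk⟩ := h.exists_field hu
  obtain rfl := h.tr k fun g hg => h.trace_mem hk hg
  have hX : ∀ x ∈ X, x ∈ XS hA M := fun x hx c => by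
    have := (e x hx (l⁻¹ * c)).2 trivial
    rwa [mul_inv_cancel_left₀ h.l0] at this
  obtain ⟨v, hv, -, n⟩ := h.exists_out (h.ne u hu) u
  obtain ⟨U, u1, -, a, b⟩ := (tClosed_XS hA M).exists_comp_pair hA
    ⟨2, h.two, fun c => one_ne_zero (α := F) (by linear_combination c)⟩ (hX u hu) (hX v hv) (n.elim id id)
  exact eq_top_of_XS h.nd hA ((tClosed_XS hA M).of_top h.nd b (h.top (fun x hx => a x (hX x hx)) u1 (h.ne u hu)))

end Hy

end Cfsg.Agent.Cl.S4O.T
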