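import Mathlib
import Cfsg.Agent.Cl.S4OBase
import Cfsg.Agent.Cl.S4OTa

/-!
# A proper quasisimple subgroup of `Sp₄(q)`, `q` odd, whose traces generate the field has no transvections
-/

set_option autoImplicit false
set_option linter.ambiguousOpen false

namespace Cfsg.Agent.Cl.S4O

open Matrix Low Max Mx Geo
open scoped MatrixGroups

variable {F : Type*} [Field F] {P : Subgroup (GL I4 F)}

namespace T

open MaxSp

theorem coe_eq {g : SpG (spB 2 F)} {N : M4 F} (e : ∀ v, N *ᵥ v = g.1 v) : (spι 2 F g : M4 F) = N :=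
  mat_ext fun v => by rw [spι_mulVec, e]

theorem exists_sp (h : Ctx P) {N : M4 F} (hN : Mem P N) :
    ∃ g ∈ P.comap (spι 2 F), (spι 2 F g : M4 F) = N := by
  obtain ⟨k, hk, rfl⟩ := hN
  obtain ⟨g, rfl⟩ : k ∈ (spι 2 F).range := range_spι (m := 2) (F := F) ▸ h.le hk
  exact ⟨g, hk, rfl⟩

theorem coe_inv (g : SpG (spB 2 F)) : (spι 2 F g⁻¹ : M4 F) = ad (spι 2 F g : M4 F) := by
  rw [map_inv, coe_inv_of_sp (range_spι (m := 2) (F := F) ▸ ⟨g, rfl⟩)]

theorem coe_inj {g k : SpG (spB 2 F)} (e : (spι 2 F g : M4 F) = spι 2 F k) : g = k :=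
  spι_injective (Units.ext e)

theorem exists_spT (h : Ctx P) {a b : I4 → F} (hm : Mem P (1 + vecMulVec a b)) (h0 : vecMulVec a b ≠ 0) :
    a ≠ 0 ∧ ∃ c, c ≠ 0 ∧ spT spB_isAlt a c ∈ P.comap (spι 2 F) := by
  obtain ⟨ha, hb⟩ : a ≠ 0 ∧ b ≠ 0 := by
    constructor <;> rintro rfl <;> simp at h0
  obtain ⟨g, hg, e⟩ := exists_sp h hm
  have ap : ∀ v, g.1 v = v + (b ⬝ᵥ v) • a := fun v => by
    rw [← spι_mulVec, e, add_mulVec, one_mulVec, vecMulVec_mulVec, op_smul_eq_smul]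
  obtain ⟨w, hw⟩ : ∃ w, spB 2 F w a ≠ 0 := by
    by_contra c
    push Not at c
    exact ha (spB_nondegenerate.2 a c)
  have k : ∀ v, b ⬝ᵥ v = b ⬝ᵥ w / spB 2 F w a * spB 2 F v a := fun v => by
    have := spG_form g v w
    simp only [ap, map_add, map_smul, LinearMap.add_apply, LinearMap.smul_apply, smul_eq_mul,
      spB_isAlt.self_eq_zero, ← spB_isAlt.neg_eq w a] at this
    field_simp
    linear_combination -this
  refine ⟨ha, b ⬝ᵥ w / spB 2 F w a, fun c => hb (dotProduct_eq_zero _ fun v => by rw [k, c, zero_mul]), ?_⟩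
  rwa [show spT spB_isAlt a (b ⬝ᵥ w / spB 2 F w a) = g from spG_ext fun v => by rw [spT_apply, ap, ← k]]

end T

open T MaxSp in
theorem noTv [Finite F] (h : Ctx P) (ht : TrGen P) (hne : P ≠ spGL 2 F) : NoTv P := by
  intro a b hm
  by_contra h0
  obtain ⟨ha, c, c0, hc⟩ := exists_spT h hm h0
  set M := P.comap (spι 2 F) with hM
  obtain ⟨u, u0, hu⟩ := Set.exists_max_image {v : I4 → F | v ≠ 0}
    (fun v => (LL spB_isAlt M v : Set F).ncard) (Set.toFinite _) ⟨a, ha⟩
  obtain ⟨l, hl, l0⟩ : ∃ l ∈ LL spB_isAlt M u, l ≠ 0 := by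
    have h1 : 1 < (LL spB_isAlt M a : Set F).ncard :=
      (Set.one_lt_ncard_iff (Set.toFinite _)).2 ⟨c, 0, hc, zero_mem _, c0⟩
    exact Set.exists_ne_of_one_lt_ncard (h1.trans_le (hu a ha)) 0
  have e1 : ∀ g ∈ M, ∀ v, LL spB_isAlt M (g.1 v) = LL spB_isAlt M v := fun g hg v => by
    ext d
    rw [mem_LL, mem_LL, ← spT_conj, M.mul_mem_cancel_right (M.inv_mem hg), M.mul_mem_cancel_left hg]
  have H : Hy spB_isAlt M {x | ∃ g ∈ M, g.1 u = x} l :=
    { nd := spB_nondegenerate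
      two := h.two
      l0 := l0
      dim := by simp
      ne := by rintro _ ⟨g, -, rfl⟩; exact sp_apply_ne_zero g u0
      mem := by rintro _ ⟨g, hg, rfl⟩; rwa [← mem_LL, e1 g hg]
      act := by rintro g hg _ ⟨k, hk, rfl⟩; exact ⟨g * k, M.mul_mem hg hk, rfl⟩
      eqL := by rintro _ ⟨g, hg, rfl⟩ _ ⟨k, hk, rfl⟩; rw [e1 g hg, e1 k hk]
      max := by rintro _ ⟨g, hg, rfl⟩ v hv; rw [e1 g hg]; exact hu v hv
      ind := fun p p1 pm pS g hg => by
        have nc := spT_notMem_center spB_nondegenerate (spB_isAlt (m := 2) (R := F)) u0 l0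
        rw [sp_mem_center_iff spB_nondegenerate spB_isAlt, not_or] at nc
        obtain ⟨k, e, hk⟩ := h.ind (S := fun s => ∃ k ∈ M, (spι 2 F (spT spB_isAlt (k.1 u) l) : M4 F) = s)
          (s := spι 2 F (spT spB_isAlt u l)) (g := spι 2 F g)
          (by rintro _ ⟨k, hk, rfl⟩; exact mem_coe (show _ ∈ M by rwa [← mem_LL, e1 k hk]))
          (by
            rintro N _ hN ⟨k, hk, rfl⟩
            obtain ⟨n, hn, rfl⟩ := exists_sp h hN
            refine ⟨n * k, M.mul_mem hn hk, ?_⟩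
            rw [spG_mul_apply, ← spT_conj, map_mul, map_mul, Units.val_mul, Units.val_mul, coe_inv])
          ⟨1, M.one_mem, rfl⟩ (fun e => nc.1 (coe_inj (by rw [e, map_one, Units.val_one])))
          (fun e => nc.2 (coe_inj (e.trans (coe_eq fun v => by simp [neg_mulVec, spNeg]).symm)))
          (p := fun N => ∃ k, (spι 2 F k : M4 F) = N ∧ p k) ⟨1, by simp, p1⟩
          (by
            rintro _ _ - - ⟨a, rfl, ha⟩ ⟨b, rfl, hb⟩
            exact ⟨a * b, by rw [map_mul, Units.val_mul], pm a b ha hb⟩)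
          (by
            rintro _ ⟨k, hk, rfl⟩
            exact ⟨⟨_, rfl, (pS _ ⟨k, hk, rfl⟩).1⟩, _, by rw [← coe_inv, spT_inv], (pS _ ⟨k, hk, rfl⟩).2⟩)
          (mem_coe hg)
        exact coe_inj e ▸ hk
      irr := fun U hU => h.irr U fun N hN v hv => by
        obtain ⟨n, hn, rfl⟩ := exists_sp h hN
        rw [spι_mulVec]
        exact hU n hn v hv
      tr := fun k hk => ht k fun N hN => by
        obtain ⟨n, hn, rfl⟩ := exists_sp h hN
        rw [← trace_toLin'_eq, show toLin' (spι 2 F n : M4 F) = n.1.toLinearMap from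
          LinearMap.ext fun v => by simp]
        exact hk n hn }
  refine hne (le_antisymm h.le ?_)
  rw [← range_spι]
  rintro _ ⟨g, rfl⟩
  exact (H.eq_top ⟨1, M.one_mem, rfl⟩).ge (Subgroup.mem_top g)

end Cfsg.Agent.Cl.S4O
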