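import Mathlib
import Cfsg.Agent.Cl.S4OG
import Cfsg.Agent.Cl.ClassSemis

/-!
# `SL₂(r)` inside `Sp₄(q)`: cross and defining characteristic
-/

set_option autoImplicit false
set_option linter.unusedSectionVars false
set_option linter.unusedVariables false
set_option linter.ambiguousOpen false

namespace Cfsg.Agent.Cl.S4O

open Matrix Low Max Mx Geo
open scoped MatrixGroups

variable {F : Type*} [Field F] {P : Subgroup (GL I4 F)}

namespace X

variable {K : Type} [Field K]

/-- The upper unitriangular matrix. -/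
def up (x : K) : SL(2, K) := ⟨!![1, x; 0, 1], by simp [det_fin_two_of]⟩

/-- The diagonal matrix. -/
def dg (a : K) (ha : a ≠ 0) : SL(2, K) := ⟨!![a, 0; 0, a⁻¹], by simp [det_fin_two_of, ha]⟩

theorem up_add (x y : K) : up (x + y) = up x * up y := by
  refine Subtype.ext ?_
  change !![1, x + y; 0, 1] = !![1, x; 0, 1] * !![1, y; 0, 1]
  simp [add_comm]

theorem up_zero : up (0 : K) = 1 := Subtype.ext (by simp [up, one_fin_two])

theorem up_eq_one {x : K} (h : up x = 1) : x = 0 := by
  simpa [up] using congrFun (congrFun (congrArg Subtype.val h) 0) 1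

theorem up_neg (x : K) : up (-x) = (up x)⁻¹ :=
  eq_inv_of_mul_eq_one_left (by rw [← up_add, neg_add_cancel, up_zero])

theorem up_nsmul (x : K) (n : ℕ) : up (n • x) = up x ^ n := by
  induction n with
  | zero => simp [up_zero]
  | succ n ih => rw [succ_nsmul, up_add, ih, pow_succ]

theorem dg_up (a : K) (ha : a ≠ 0) (x : K) : dg a ha * up x = up (a ^ 2 * x) * dg a ha := by
  refine Subtype.ext ?_
  change !![a, 0; 0, a⁻¹] * !![1, x; 0, 1] = !![1, a ^ 2 * x; 0, 1] * !![a, 0; 0, a⁻¹]
  simp only [mul_fin_two]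
  congr 1
  ext i j
  fin_cases i <;> fin_cases j <;> simp
  field_simp

theorem ad_map {E : Type*} [Field E] (f : F →+* E) (A : M4 F) : ad (A.map f) = (ad A).map f := by
  have : (J (Fin 2) F).map f = J (Fin 2) E := by
    ext (i | i) (j | j) <;> simp [J, one_apply, apply_ite f]
  simp only [ad]
  rw [← this, ← transpose_map, ← Matrix.map_mul, ← Matrix.map_mul]
  exact (Matrix.map_neg f (map_neg f) _).symm

theorem ad_sum {ι : Type*} (s : Finset ι) (A : ι → M4 F) : ad (∑ i ∈ s, A i) = ∑ i ∈ s, ad (A i) :=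
  map_sum (⟨⟨ad, ad_zero⟩, ad_add⟩ : M4 F →+ M4 F) A s

section Cross

variable [Fintype K] {E : Type*} [Field E] {ψ : AddChar K E} {ρ : SL(2, K) →* M4 E}

variable (ψ ρ) in
/-- The projector (up to a scalar) on the eigenspace of the character `x ↦ ψ (x b)`. -/
noncomputable def pr (b : K) : M4 E := ∑ x, ψ (-(x * b)) • ρ (up x)

theorem up_pr (y b : K) : ρ (up y) * pr ψ ρ b = ψ (y * b) • pr ψ ρ b := by
  simp only [pr, Finset.mul_sum, Finset.smul_sum, mul_smul_comm, ← map_mul, ← up_add, smul_smul,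
    ← AddChar.map_add_eq_mul]
  exact Fintype.sum_equiv (Equiv.addLeft y) _ _ fun x => by
    simp only [Equiv.coe_addLeft]; congr 2; ring

open Classical in
theorem pr_pr (hψ : ψ.IsPrimitive) (c b : K) :
    pr ψ ρ c * pr ψ ρ b = (if b = c then (Fintype.card K : E) else 0) • pr ψ ρ b := by
  rw [pr, Finset.sum_mul]
  simp only [smul_mul_assoc, up_pr, smul_smul, ← AddChar.map_add_eq_mul, ← Finset.sum_smul]
  have := AddChar.sum_mulShift (b - c) hψ
  simp only [sub_eq_zero] at this
  congr 1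
  rw [show (if b = c then (Fintype.card K : E) else 0) =
    ((if b = c then Fintype.card K else 0 : ℕ) : E) by split_ifs <;> simp, ← this]
  exact Finset.sum_congr rfl fun x _ => by congr 1; ring

theorem sum_pr (hψ : ψ.IsPrimitive) (y : K) :
    ∑ b, ψ (y * b) • pr ψ ρ b = (Fintype.card K : E) • ρ (up y) := by
  classical
  simp only [pr, Finset.smul_sum, smul_smul, ← AddChar.map_add_eq_mul]
  rw [Finset.sum_comm]
  simp only [← Finset.sum_smul]
  rw [Finset.sum_eq_single y (fun x _ hx => ?_) (by simp)]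
  · simp
  · have := AddChar.sum_mulShift (y - x) hψ
    rw [if_neg (sub_ne_zero.2 hx.symm), Nat.cast_zero] at this
    rw [show ∑ b, ψ (y * b + -(x * b)) = 0 from by
      rw [← this]; exact Finset.sum_congr rfl fun b _ => by congr 1; ring, zero_smul]

theorem dg_pr (a : K) (ha : a ≠ 0) (b : K) :
    ρ (dg a ha) * pr ψ ρ (a ^ 2 * b) = pr ψ ρ b * ρ (dg a ha) := by
  simp only [pr, Finset.mul_sum, Finset.sum_mul, mul_smul_comm, smul_mul_assoc, ← map_mul, dg_up]
  exact Fintype.sum_equiv (Equiv.mulLeft₀ (a ^ 2) (pow_ne_zero 2 ha)) _ _ fun x => by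
    simp only [Equiv.mulLeft₀_apply]; congr 2; ring

theorem ad_pr (had : ∀ g, ad (ρ g) = ρ g⁻¹) (b : K) : ad (pr ψ ρ b) = pr ψ ρ (-b) := by
  simp only [pr, ad_sum, ad_smul, had, ← up_neg]
  exact Fintype.sum_equiv (Equiv.neg K) _ _ fun x => by simp

theorem card_le (hψ : ψ.IsPrimitive) (hr : (Fintype.card K : E) ≠ 0) {s : Finset K}
    (hs : ∀ b ∈ s, pr ψ ρ b ≠ 0) : s.card ≤ 4 := by
  classical
  have : ∀ b : s, ∃ w, pr ψ ρ b *ᵥ w ≠ 0 := fun b => by
    by_contra hc
    push Not at hc
    exact hs b b.2 (mat_ext fun v => by rw [hc, zero_mulVec])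
  choose w hw using this
  have hli : LinearIndependent E fun b : s => pr ψ ρ b *ᵥ w b := by
    refine Fintype.linearIndependent_iff.2 fun g hg c => ?_
    have := congrArg (pr ψ ρ c *ᵥ ·) hg
    simp only [mulVec_sum, mulVec_smul, mulVec_mulVec, pr_pr hψ, mulVec_zero, smul_mulVec] at this
    rw [Finset.sum_eq_single c (fun b _ hb => by
      rw [if_neg (fun e => hb (Subtype.ext e)), zero_smul, smul_zero]) (by simp), if_pos rfl,
      smul_smul] at this
    exact (mul_eq_zero.1 ((smul_eq_zero.1 this).resolve_right (hw c))).resolve_right hr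
  simpa using hli.fintype_card_le_finrank

theorem cross_aux (hψ : ψ.IsPrimitive) (hr : (Fintype.card K : E) ≠ 0)
    (had : ∀ g, ad (ρ g) = ρ g⁻¹) (h1 : ρ (up 1) ≠ 1) (ho : Odd (Fintype.card K))
    (h3 : 3 < Fintype.card K) : Fintype.card K = 5 ∨ Fintype.card K = 9 := by
  classical
  obtain ⟨b, hb0, hb⟩ : ∃ b, b ≠ 0 ∧ pr ψ ρ b ≠ 0 := by
    by_contra hc
    push Not at hc
    have e : ∀ y : K, (Fintype.card K : E) • ρ (up y) = pr ψ ρ 0 := fun y => by
      rw [← sum_pr hψ, Finset.sum_eq_single 0 (fun b _ hb => by rw [hc b hb, smul_zero]) (by simp)]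
      simp
    exact h1 (smul_right_injective _ hr (by simp only [e 1, ← e 0, up_zero, map_one]))
  have sq : ∀ a b : K, a ≠ 0 → pr ψ ρ b ≠ 0 → pr ψ ρ (a ^ 2 * b) ≠ 0 := fun a b ha hb e => by
    have := dg_pr (ψ := ψ) (ρ := ρ) a ha b
    rw [e, Matrix.mul_zero] at this
    exact hb (by rw [← Matrix.mul_one (pr ψ ρ b), ← map_one ρ, ← mul_inv_cancel (dg a ha), map_mul,
      ← Matrix.mul_assoc, ← this, Matrix.zero_mul])
  have ng : pr ψ ρ (-b) ≠ 0 := fun e => hb (by rw [← ad_ad (pr ψ ρ b), ad_pr had, e, ad_zero])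
  have c1 : (Finset.univ.erase (0 : K)).card = Fintype.card K - 1 := by simp
  have c2 := Finset.card_le_mul_card_image (f := fun a : K => a ^ 2 * b) (Finset.univ.erase 0) 2
    fun c hc => by
      obtain ⟨a, -, rfl⟩ := Finset.mem_image.1 hc
      refine (Finset.card_le_card (t := {a, -a}) fun x hx => ?_).trans Finset.card_le_two
      simpa using sq_eq_sq_iff_eq_or_eq_neg.1 (mul_right_cancel₀ hb0 (Finset.mem_filter.1 hx).2)
  have c3 := card_le (ρ := ρ) hψ hr (s := (Finset.univ.erase 0).image fun a : K => a ^ 2 * b)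
    fun c hc => by
      obtain ⟨a, ha, rfl⟩ := Finset.mem_image.1 hc
      exact sq a b (Finset.ne_of_mem_erase ha) hb
  have c7 : Fintype.card K ≠ 7 := fun h7 => by
    have h2 : ringChar K ≠ 2 := fun e => by
      have := FiniteField.even_card_of_char_two e
      omega
    have hm : quadraticChar K (-1) = -1 :=
      quadraticChar_neg_one_iff_not_isSquare.2 (by rw [FiniteField.isSquare_neg_one_iff, h7]; simp)
    have := card_le (ρ := ρ) hψ hr (s := Finset.univ.erase 0) fun c hc => by
      have hc0 := Finset.ne_of_mem_erase hc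
      have hcb : c / b ≠ 0 := div_ne_zero hc0 hb0
      rcases quadraticChar_dichotomy hcb with e | e
      · obtain ⟨a, ha⟩ := (quadraticChar_one_iff_isSquare hcb).1 e
        have := sq a b (by rintro rfl; simp [ha] at hcb) hb
        rwa [pow_two, ← ha, div_mul_cancel₀ _ hb0] at this
      · obtain ⟨a, ha⟩ := (quadraticChar_one_iff_isSquare (neg_ne_zero.2 hcb)).1 (by
          rw [neg_eq_neg_one_mul, map_mul, hm, e]; simp)
        have := sq a (-b) (by rintro rfl; simp [hcb] at ha) ng
        rwa [pow_two, ← ha, neg_mul_neg, div_mul_cancel₀ _ hb0] at this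
    omega
  obtain ⟨k, hk⟩ := ho
  omega

end Cross

theorem trace_pow_char (p : ℕ) [Fact p.Prime] [CharP F p] (A : M4 F) :
    (A ^ p).trace = A.trace ^ p := by
  let L := AlgebraicClosure F
  have : CharP L p := charP_of_injective_algebraMap (algebraMap F L).injective p
  have h : ∀ B : M4 F, algebraMap F L B.trace = (Cls.evM L B).sum := fun B => by
    rw [Cls.evM, Polynomial.aroots_def, ← Matrix.charpoly_map, ← trace_eq_sum_roots_charpoly,
      AddMonoidHom.map_trace]
  apply (algebraMap F L).injective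
  rw [map_pow, h, h, Cls.evM_pow, ← frobenius_def, map_multiset_sum]
  rfl

theorem trace_pow_pow (p : ℕ) [Fact p.Prime] [CharP F p] (A : M4 F) (n : ℕ) :
    (A ^ p ^ n).trace = A.trace ^ p ^ n := by
  induction n with
  | zero => simp
  | succ n ih => rw [pow_succ, pow_mul, trace_pow_char, ih, pow_mul]

/-- The `|K|`-th power of an element of `SL₂(K)`. -/
theorem pow_card [Fintype K] (h2 : (2 : K) ≠ 0) (g : SL(2, K)) :
    g ^ Fintype.card K = g ∨ g ^ Fintype.card K = g⁻¹ ∨
      g ^ Fintype.card K ∈ Subgroup.center SL(2, K) := by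
  obtain ⟨p, hp⟩ := CharP.exists K
  obtain ⟨n, hpp, hn⟩ := FiniteField.card K p
  have : Fact p.Prime := ⟨hpp⟩
  have hc2 : ringChar K ≠ 2 := fun e => h2 (by simpa [e] using ringChar.Nat.cast_ringChar (R := K))
  have hodd := FiniteField.odd_card_of_char_ne_two hc2
  obtain ⟨k, hk⟩ : ∃ k, Fintype.card K = 2 * k + 1 := ⟨Fintype.card K / 2, by omega⟩
  set A : Matrix (Fin 2) (Fin 2) K := g.1 with hA
  have hd : A 0 0 * A 1 1 - A 0 1 * A 1 0 = 1 := by rw [← det_fin_two]; exact g.2
  let t := A 0 0 + A 1 1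
  let s := A - (t / 2) • (1 : Matrix (Fin 2) (Fin 2) K)
  let δ := t ^ 2 / 4 - 1
  have h4 : (4 : K) ≠ 0 := four_ne h2
  have hs : s ^ 2 = δ • 1 := by
    ext i j
    fin_cases i <;> fin_cases j <;> simp [s, δ, t, sq, mul_apply, Fin.sum_univ_two] <;> field_simp
    · linear_combination (-16) * hd
    · ring
    · ring
    · linear_combination (-16) * hd
  have hpow : (g ^ Fintype.card K).1 = (t / 2) • 1 + δ ^ k • s := by
    have e : A = (t / 2) • 1 + s := by simp [s]
    have c : Commute ((t / 2) • (1 : Matrix (Fin 2) (Fin 2) K)) s := (Commute.one_left s).smul_left _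
    change A ^ Fintype.card K = _
    rw [e, hn, add_pow_char_pow_of_commute _ _ c, ← hn, smul_pow, one_pow, FiniteField.pow_card,
      hk, pow_succ, pow_mul, hs, smul_pow, one_pow, smul_mul_assoc, Matrix.one_mul]
  by_cases h0 : δ = 0
  · refine .inr (.inr (Subgroup.mem_center_iff.2 fun x => Subtype.ext ?_))
    change x.1 * (g ^ Fintype.card K).1 = (g ^ Fintype.card K).1 * x.1
    have : k ≠ 0 := by
      have := Fintype.one_lt_card (α := K)
      omega
    rw [hpow, h0, zero_pow this]; simp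
  have hδ := FiniteField.pow_card_sub_one_eq_one δ h0
  rw [hk, Nat.add_sub_cancel, mul_comm, pow_mul, sq, mul_self_eq_one_iff] at hδ
  rcases hδ with e | e
  · exact .inl (Subtype.ext (by rw [hpow, e]; simp [s, hA]))
  · refine .inr (.inl (eq_inv_of_mul_eq_one_left (Subtype.ext ?_)))
    change (g ^ Fintype.card K).1 * A = 1
    have e2 : A = (t / 2) • 1 + s := by simp [s]
    rw [hpow, e, e2]
    rw [sq] at hs
    simp only [add_mul, mul_add, smul_mul_assoc, mul_smul_comm, Matrix.one_mul, Matrix.mul_one, hs,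
      δ]
    match_scalars <;> field_simp <;> ring

theorem no_quad (hs : Small P) (h2 : (2 : F) ≠ 0) (h3 : (3 : F) ≠ 0) {N : M4 F}
    (hm : Mem P (1 + N)) (hN : N * N = 0) : N = 0 := by
  by_contra h0
  have := hs N ((2 : F) • N) hm (by
    convert hm.mul hm using 1
    simp only [add_mul, mul_add, hN, Matrix.one_mul, Matrix.mul_one]; module) hN
    (by rw [smul_mul_smul_comm, hN, smul_zero]) h0 (by simp)
  rcases this with e | e | e
  · exact h0 ((smul_eq_zero.1 e).resolve_left h2)
  · exact h0 (by linear_combination (norm := module) e)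
  · exact h0 ((smul_eq_zero.1 (show (3 : F) • N = 0 by
      linear_combination (norm := module) e)).resolve_left h3)

/-- A nilpotent self-adjoint matrix has trace zero and square zero. -/
theorem w_of_nil (h2 : (2 : F) ≠ 0) {Y : M4 F} (hY : ad Y = Y) (hn : IsNilpotent Y) :
    W Y ∧ Y * Y = 0 := by
  have hW : W Y := ⟨hY, (Matrix.isNilpotent_trace_of_isNilpotent hn).eq_zero⟩
  refine ⟨hW, ?_⟩
  obtain ⟨k, hk⟩ := hn
  have e := hW.sq h2
  have : (Y * Y) ^ k = 0 := by rw [← sq, ← pow_mul, mul_comm, pow_mul, hk]; simp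
  rw [e, smul_pow, one_pow, smul_eq_zero] at this
  rw [e, IsNilpotent.eq_zero ⟨k, this.resolve_right one_ne_zero⟩, zero_smul]

/-- An additive group of unipotent elements without quadratic elements has at most `|F|`
elements. -/
theorem card_le_of_uni [Fintype F] [Fintype K] (h : Ctx P) (hs : Small P) (h3 : (3 : F) ≠ 0)
    {u : K → M4 F} (hm : ∀ x, Mem P (u x)) (hadd : ∀ x y, u (x + y) = u x * u y)
    (h0 : u 0 = 1) (hinj : ∀ x, u x = 1 → x = 0) (hn : ∀ x, IsNilpotent (u x - 1)) :
    Fintype.card K ≤ Fintype.card F := by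
  have h2 := h.two
  obtain ⟨N, hN⟩ : ∃ N : K → M4 F, ∀ x, u x = 1 + N x := ⟨fun x => u x - 1, by simp⟩
  have cu : ∀ x y, Commute (u x) (u y) := fun x y => by
    rw [Commute, SemiconjBy, ← hadd, ← hadd, add_comm]
  have inv : ∀ x, u x * u (-x) = 1 := fun x => by rw [← hadd, add_neg_cancel, h0]
  have had : ∀ x, ad (u x) = u (-x) := fun x => by
    rw [← Matrix.mul_one (ad (u x)), ← inv x, ← Matrix.mul_assoc, h.ad_mul (hm x), Matrix.one_mul]
  have eN : ∀ x, N x = u x - 1 := fun x => by rw [hN]; simp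
  have cN : ∀ x y, Commute (N x) (u y) := fun x y => eN x ▸ (cu x y).sub_left (Commute.one_left _)
  have cNN : ∀ x y, Commute (N x) (N y) := fun x y => eN y ▸ (cN x y).sub_right (Commute.one_right _)
  let Y : K → M4 F := fun x => u (-x) * (N x * N x)
  have eY : ∀ x, u x * Y x = N x * N x := fun x => by
    rw [← Matrix.mul_assoc, inv, Matrix.one_mul]
  have eY' : ∀ x, Y x = u x + u (-x) - 1 - 1 := fun x => by
    simp only [Y, eN]
    linear_combination (norm := noncomm_ring) -(cu x (-x)).eq * u x + inv x * u x +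
      2 * (cu x (-x)).eq - 2 * inv x
  have hY : ∀ x, W (Y x) ∧ Y x * Y x = 0 := fun x => w_of_nil h2
    (by rw [eY', ad_sub, ad_sub, ad_add, had, had, neg_neg, ad_one, add_comm])
    (((cN x _).mul_left (cN x _)).symm.isNilpotent_mul_left
      ((cNN x x).isNilpotent_mul_left (eN x ▸ hn x)))
  have cY : ∀ x y, Commute (N x) (Y y) := fun x y =>
    (cN x _).mul_right ((cNN x y).mul_right (cNN x y))
  have cY' : ∀ x y, Commute (u x) (Y y) := fun x y =>
    (cu x _).mul_right ((cN y x).symm.mul_right (cN y x).symm)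
  have nq : ∀ x, N x * N x = 0 → x = 0 := fun x e =>
    hinj x (by rw [hN, no_quad hs h2 h3 (hN x ▸ hm x) e, add_zero])
  have Y0 : ∀ x, x ≠ 0 → Y x ≠ 0 := fun x hx e => hx (nq x (by rw [← eY, e, Matrix.mul_zero]))
  have par : ∀ x, ∃ c : F, Y x = c • Y 1 := fun x =>
    (hY 1).1.par_of_commute h2 (hY x).1 (Y0 1 one_ne_zero)
      ((cY' _ x).mul_left ((cY 1 x).mul_left (cY 1 x))).eq
  obtain ⟨Z, hZ⟩ : ∃ Z, Z = Y 1 := ⟨_, rfl⟩
  rw [← hZ] at par
  have hZW : W Z := hZ ▸ (hY 1).1
  have hZZ : Z * Z = 0 := hZ ▸ (hY 1).2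
  have cZ : ∀ x, N x * Z = Z * N x := fun x => hZ ▸ (cY x 1).eq
  have sqZ : ∀ x, N x * N x * Z = 0 := fun x => by
    obtain ⟨c, hc⟩ := par x
    rw [← eY, hc, mul_smul_comm, smul_mul_assoc, Matrix.mul_assoc, hZZ]; simp
  have Nadd : ∀ x y, N (x + y) = N x + N y + N x * N y := fun x y => by
    rw [eN, hadd, hN x, hN y]; noncomm_ring
  have mZ : ∀ x y, N x * N y * Z = 0 := fun x y => by
    refine eq_zero_of_two h2 ?_
    have e1 := sqZ (x + y)
    have c := (cNN x y).eq
    rw [Nadd] at e1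
    linear_combination (norm := noncomm_ring) e1 - sqZ x - sqZ y + c * Z -
      2 * N y * sqZ x - 2 * N x * sqZ y - N x * N x * sqZ y
      + N x * c * Z - 2 * (c * N x + N x * c) * Z + c * N y * Z + N x * c * N y * Z
  have addZ : ∀ x y, N (x + y) * Z = N x * Z + N y * Z := fun x y => by
    rw [Nadd, add_mul, add_mul, mZ, add_zero]
  have hZ0 : Z ≠ 0 := hZ ▸ Y0 1 one_ne_zero
  have kZ : ∀ {v}, Z *ᵥ v = 0 → ∃ w, Z *ᵥ w = v := ker_im hZZ fun a b e =>
    hZ0 (e ▸ sa_rank h2 (e ▸ hZW.ad))
  have injZ : ∀ x, N x * Z = 0 → x = 0 := fun x e => nq x (mat_ext fun v => by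
    obtain ⟨w, hw⟩ := kZ (v := N x *ᵥ v) (by rw [mulVec_mulVec, ← cZ, e, zero_mulVec])
    rw [← mulVec_mulVec, ← hw, mulVec_mulVec, e, zero_mulVec, zero_mulVec])
  obtain ⟨w, hw⟩ : ∃ w, (N 1 * Z) *ᵥ w ≠ 0 := by
    by_contra hc
    push Not at hc
    exact one_ne_zero (injZ 1 (mat_ext fun v => by rw [hc, zero_mulVec]))
  -- the image of `Z` is spanned by `Z w` and `N 1 Z w`
  have hli : LinearIndependent F ![Z *ᵥ w, (N 1 * Z) *ᵥ w] := by
    refine LinearIndependent.pair_iff.2 fun a b e => ?_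
    have e1 := congrArg (N 1 *ᵥ ·) e
    simp only [mulVec_add, mulVec_smul, mulVec_mulVec, ← Matrix.mul_assoc, mZ, zero_mulVec,
      smul_zero, add_zero, mulVec_zero] at e1
    have ha := (smul_eq_zero.1 e1).resolve_right hw
    rw [ha, zero_smul, zero_add] at e
    exact ⟨ha, (smul_eq_zero.1 e).resolve_right hw⟩
  have span : ∀ v, ∃ a b : F, a • Z *ᵥ w + b • (N 1 * Z) *ᵥ w = Z *ᵥ v := fun v => by
    have hle : LinearMap.range (toLin' Z) ≤ LinearMap.ker (toLin' Z) := by
      rintro _ ⟨u, rfl⟩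
      simp [mulVec_mulVec, hZZ]
    have e1 := LinearMap.finrank_range_add_finrank_ker (toLin' Z)
    have e2 := Submodule.finrank_mono hle
    have e3 := finrank_span_eq_card hli
    rw [Module.finrank_fintype_fun_eq_card] at e1
    have hle' : Submodule.span F (Set.range ![Z *ᵥ w, (N 1 * Z) *ᵥ w]) ≤
        LinearMap.range (toLin' Z) := by
      rw [Submodule.span_le, Matrix.range_cons_cons_empty]
      rintro _ (rfl | rfl)
      · exact ⟨w, by simp⟩
      · exact ⟨N 1 *ᵥ w, by simp [cZ]⟩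
    have := Submodule.eq_of_le_of_finrank_le hle' (by simp at e1 e3; omega)
    rw [Matrix.range_cons_cons_empty] at this
    exact Submodule.mem_span_pair.1 (this.ge ⟨v, by simp⟩)
  have ex : ∀ x, ∃ c : F, (N x * Z) *ᵥ w = c • (N 1 * Z) *ᵥ w := fun x => by
    obtain ⟨a, b, e⟩ := span (N x *ᵥ w)
    rw [mulVec_mulVec, ← cZ] at e
    have e1 := congrArg (N 1 *ᵥ ·) e
    simp only [mulVec_add, mulVec_smul, mulVec_mulVec, ← Matrix.mul_assoc, mZ, zero_mulVec,
      smul_zero, add_zero] at e1
    rw [(smul_eq_zero.1 e1).resolve_right hw, zero_smul, zero_add] at e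
    exact ⟨b, e.symm⟩
  choose c hc using ex
  refine Fintype.card_le_of_injective c fun x y e => sub_eq_zero.1 (injZ _ (mat_ext fun v => ?_))
  have e1 : (N (x - y) * Z) *ᵥ w = 0 := by
    have := addZ (x - y) y
    rw [sub_add_cancel] at this
    rw [eq_sub_of_add_eq this.symm, sub_mulVec, hc x, hc y, e, sub_self]
  obtain ⟨a, b, e2⟩ := span v
  rw [← mulVec_mulVec, ← e2]
  simp only [mulVec_add, mulVec_smul, mulVec_mulVec, ← Matrix.mul_assoc, mZ, e1, zero_mulVec,
    smul_zero, add_zero]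

end X

open X

theorem cross [Finite F] (h : Ctx P) {K : Type} [Field K] [Fintype K]
    (hK : ringChar K ≠ ringChar F) (ho : Odd (Fintype.card K)) (h3 : 3 < Fintype.card K)
    (e : SL(2, K) ≃* P) : Fintype.card K = 5 ∨ Fintype.card K = 9 := by
  let χ := AddChar.FiniteField.primitiveChar K F hK.symm
  let E := CyclotomicField χ.n F
  let f := algebraMap F E
  let ρ : SL(2, K) →* M4 E :=
    { toFun := fun g => (mx (e g)).map f
      map_one' := by rw [map_one, mx_one]; simp
      map_mul' := fun a b => by rw [map_mul, mx_mul, Matrix.map_mul] }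
  refine cross_aux (ψ := χ.char) (ρ := ρ) χ.prim ?_ (fun g => ?_) (fun e1 => ?_) ho h3
  · rw [← map_natCast f, map_ne_zero]
    obtain ⟨n, hp, hn⟩ := FiniteField.card K (ringChar K)
    rw [hn, Nat.cast_pow]
    refine pow_ne_zero _ fun e1 => hK ?_
    exact (CharP.ringChar_of_prime_eq_zero hp e1).symm
  · change ad ((mx (e g)).map f) = (mx (e g⁻¹)).map f
    rw [ad_map, map_inv, h.mx_inv]
  · change (mx (e (up 1))).map f = 1 at e1
    rw [← Matrix.map_one f (map_zero f) (map_one f)] at e1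
    have := mx_inj ((Matrix.map_injective f.injective e1).trans mx_one.symm)
    exact one_ne_zero (up_eq_one (e.map_eq_one_iff.1 this))

theorem defining [Fintype F] (h : Ctx P) (hs : Small P) (ht : TrGen P) (h3 : (3 : F) ≠ 0)
    {K : Type} [Field K] [Fintype K] (hK : ringChar K = ringChar F) (e : SL(2, K) ≃* P) :
    Fintype.card K = Fintype.card F := by
  obtain ⟨n, hp, hn⟩ := FiniteField.card K (ringChar K)
  set p := ringChar K
  have : Fact p.Prime := ⟨hp⟩
  have : CharP F p := hK ▸ ringChar.charP F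
  refine le_antisymm (card_le_of_uni h hs h3 (u := fun x => mx (e (up x))) (fun x => mem_mx _)
    (fun x y => by rw [up_add, map_mul, mx_mul]) (by rw [up_zero, map_one, mx_one])
    (fun x e1 => up_eq_one (e.map_eq_one_iff.1 (mx_inj (e1.trans mx_one.symm)))) fun x => ⟨p, ?_⟩) ?_
  · rw [sub_pow_char_of_commute _ (Commute.one_right _), ← mx_pow, ← map_pow, ← up_nsmul,
      nsmul_eq_mul, CharP.cast_eq_zero, zero_mul, up_zero, map_one, mx_one, one_pow, sub_self]
  have h2 : (2 : K) ≠ 0 := fun e2 => h.two (by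
    have := (CharP.cast_eq_zero_iff F p 2).2 ((CharP.cast_eq_zero_iff K p 2).1 (by simpa using e2))
    simpa using this)
  have := ht ((iterateFrobenius F p n).eqLocusField (RingHom.id F)) fun g hg => by
    obtain ⟨k, rfl⟩ := hg.exists
    obtain ⟨g, rfl⟩ := e.surjective k
    change (mx (e g)).trace ^ p ^ (n : ℕ) = (mx (e g)).trace
    have e1 := trace_pow_pow p (mx (e g)) n
    rw [← mx_pow, ← map_pow, ← hn] at e1
    rcases pow_card h2 g with e2 | e2 | e2
    · rw [← hn, ← e1, e2]
    · rw [← hn, ← e1, e2, map_inv, h.mx_inv, trace_ad]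
    · obtain ⟨c, hc⟩ := h.scalar (X := mx (e (g ^ Fintype.card K))) fun y hy => by
        obtain ⟨k, rfl⟩ := hy.exists
        obtain ⟨y, rfl⟩ := e.surjective k
        rw [← mx_mul, ← mx_mul, ← map_mul, ← map_mul, Subgroup.mem_center_iff.1 e2]
      have e3 : iterateFrobenius F p n (mx (e (g ^ Fintype.card K))).trace =
          (mx (e (g ^ Fintype.card K))).trace := by
        rcases h.pm (mem_mx _) hc with e3 | e3 <;> rw [e3]
        · rw [trace_one4, map_ofNat]
        · rw [trace_neg, trace_one4, map_neg, map_ofNat]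
      rw [e1, hn] at e3
      exact (iterateFrobenius F p n).injective e3
  have hall : ∀ a : F, a ^ Fintype.card K = a := fun a => by
    rw [hn]; exact this.ge (Subfield.mem_top a)
  classical
  have h1 := Fintype.one_lt_card (α := K)
  have := Polynomial.card_le_degree_of_subset_roots (p := Polynomial.X ^ Fintype.card K - Polynomial.X)
    (Z := (Finset.univ : Finset F)) fun a _ => (Polynomial.mem_roots
      (FiniteField.X_pow_card_sub_X_ne_zero F h1)).2 (by simp [hall])
  rwa [FiniteField.X_pow_card_sub_X_natDegree_eq F h1] at this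

end Cfsg.Agent.Cl.S4O
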