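import Mathlib
import Cfsg.Agent.Cl.TnTr
import Cfsg.Agent.Cl.TnFinSp
import Cfsg.Agent.Cl.MxSL

/-!
# Slots of a tensor power and their transvections (linear case), I

If the only elements `1 + c ⊗ u φ` of `M` are those with scalar `c`, two `M`-conjugate slots sharing
a transvection coincide, and a slot normalised by a transvection of a conjugate slot equals it or
commutes with it.
-/

set_option autoImplicit false
set_option linter.unusedSectionVars false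
set_option linter.unusedVariables false

namespace Cfsg.Agent.Cl.Max.SLW

open Matrix Cfsg.Geo

variable {F : Type*} [Field F] {κ : Type} [Fintype κ] [DecidableEq κ]
  {ι : Type} [Fintype ι] [DecidableEq ι] {M : Subgroup (GL ι F)}
  {ψ ψ' : Matrix κ κ F →ₐ[F] Matrix ι ι F}

/-- `1 + Z` lies in `M`. -/
def In (M : Subgroup (GL ι F)) (Z : Matrix ι ι F) : Prop := ∃ g ∈ M, (g : Matrix ι ι F) = 1 + Z

theorem in_zero : In M 0 := ⟨1, M.one_mem, by simp⟩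

theorem In.mul {Y Z : Matrix ι ι F} (hY : In M Y) (hZ : In M Z) : In M (Y + Z + Y * Z) := by
  obtain ⟨g, hg, e⟩ := hY
  obtain ⟨k, hk, e'⟩ := hZ
  exact ⟨g * k, M.mul_mem hg hk, by rw [Units.val_mul, e, e']; noncomm_ring⟩

theorem coe_inv_of_sq {g : GL ι F} {Z : Matrix ι ι F} (e : (g : Matrix ι ι F) = 1 + Z)
    (h : Z * Z = 0) : ((g⁻¹ : GL ι F) : Matrix ι ι F) = 1 - Z := by
  refine Units.inv_eq_of_mul_eq_one_right ?_
  rw [e, show (1 + Z) * (1 - Z) = 1 - Z * Z by noncomm_ring, h, sub_zero]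

theorem In.neg {Z : Matrix ι ι F} (hZ : In M Z) (h : Z * Z = 0) : In M (-Z) := by
  obtain ⟨g, hg, e⟩ := hZ
  exact ⟨g⁻¹, M.inv_mem hg, by rw [coe_inv_of_sq e h, sub_eq_add_neg]⟩

theorem In.cj {Z : Matrix ι ι F} (hZ : In M Z) {g : GL ι F} (hg : g ∈ M) : In M (cj g Z) := by
  obtain ⟨k, hk, e⟩ := hZ
  exact ⟨g * k * g⁻¹, M.mul_mem (M.mul_mem hg hk) (M.inv_mem hg), by
    rw [← cj_coe, e, map_add, map_one]⟩

theorem In.comm {Y Z : Matrix ι ι F} (hY : In M Y) (hZ : In M Z) (h1 : Y * Y = 0)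
    (h2 : Z * Z = 0) (h3 : Z * Y = 0) : In M (Y * Z) := by
  have := (hY.mul hZ).mul ((hY.neg h1).mul (hZ.neg h2))
  have k1 : ∀ W, Y * (Y * W) = 0 := fun W => by rw [← mul_assoc, h1, zero_mul]
  have k3 : ∀ W, Z * (Y * W) = 0 := fun W => by rw [← mul_assoc, h3, zero_mul]
  convert this using 1
  simp only [add_mul, mul_add, mul_neg, neg_mul, mul_assoc, h1, h2, h3, k1, k3, mul_zero,
    neg_neg]
  abel

theorem vv (u φ v χ : κ → F) :
    vecMulVec u φ * vecMulVec v χ = (φ ⬝ᵥ v) • vecMulVec u χ := by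
  rw [vecMulVec_mul_vecMulVec, vecMulVec_smul]

theorem pvv {A : Type*} [Ring A] [Algebra F A] (ψ : Matrix κ κ F →ₐ[F] A) (u φ v χ : κ → F) :
    ψ (vecMulVec u φ) * ψ (vecMulVec v χ) = (φ ⬝ᵥ v) • ψ (vecMulVec u χ) := by
  rw [← map_mul, vv, map_smul]

theorem pvv' {A : Type*} [Ring A] [Algebra F A] (ψ : Matrix κ κ F →ₐ[F] A) (u φ v χ : κ → F)
    (X : A) : ψ (vecMulVec u φ) * (ψ (vecMulVec v χ) * X) =
      (φ ⬝ᵥ v) • (ψ (vecMulVec u χ) * X) := by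
  rw [← mul_assoc, pvv, smul_mul_assoc]

theorem exists_dot_one {u : κ → F} (hu : u ≠ 0) : ∃ ξ, ξ ⬝ᵥ u = 1 := by
  obtain ⟨i, hi⟩ := Function.ne_iff.1 hu
  exact ⟨Pi.single i (u i)⁻¹, by rw [single_dotProduct, inv_mul_cancel₀ hi]⟩

theorem exists_dot_pair {u v : κ → F} (h : ∀ c : F, u ≠ c • v) :
    ∃ χ, χ ⬝ᵥ v = 0 ∧ χ ⬝ᵥ u = 1 := by
  by_cases hv : v = 0
  · obtain ⟨ξ, hξ⟩ := exists_dot_one (u := u) fun e => h 0 (by simp [e])
    exact ⟨ξ, by simp [hv], hξ⟩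
  obtain ⟨ξ, hξ⟩ := exists_dot_one hv
  obtain ⟨η, hη⟩ := exists_dot_one (sub_ne_zero.2 (h (ξ ⬝ᵥ u)))
  refine ⟨η - (η ⬝ᵥ v) • ξ, by simp [hξ], ?_⟩
  simp only [dotProduct_sub, dotProduct_smul, smul_eq_mul] at hη
  simp only [sub_dotProduct, smul_dotProduct, smul_eq_mul]
  linear_combination hη

theorem exists_flag (h3 : 3 ≤ Fintype.card κ) (u φ : κ → F) :
    ∃ v χ, φ ⬝ᵥ v = 0 ∧ χ ⬝ᵥ u = 0 ∧ χ ⬝ᵥ v = 1 := by
  suffices ∃ v, φ ⬝ᵥ v = 0 ∧ ∀ c : F, v ≠ c • u by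
    obtain ⟨v, h1, h2⟩ := this
    obtain ⟨χ, h4, h5⟩ := exists_dot_pair h2
    exact ⟨v, χ, h1, h4, h5⟩
  by_contra! H
  let l : (κ → F) →ₗ[F] F := dotProductBilin F F φ
  have h1 : LinearMap.ker l ≤ Submodule.span F {u} := fun v hv => by
    obtain ⟨c, hc⟩ := H v hv
    exact Submodule.mem_span_singleton.2 ⟨c, hc.symm⟩
  have h2 := Submodule.finrank_mono h1
  have h4 := finrank_span_le_card (R := F) ({u} : Set (κ → F))
  have h5 := LinearMap.finrank_range_add_finrank_ker l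
  have h6 := Submodule.finrank_le (LinearMap.range l)
  simp only [Set.toFinset_singleton, Finset.card_singleton, Module.finrank_fintype_fun_eq_card,
    Module.finrank_self] at h4 h5 h6
  omega

theorem exists_perp_two (h3 : 3 ≤ Fintype.card κ) (u v : κ → F) :
    ∃ η, η ≠ 0 ∧ η ⬝ᵥ u = 0 ∧ η ⬝ᵥ v = 0 := by
  obtain ⟨η, χ, h1, h2, h4⟩ := exists_flag h3 (0 : κ → F) u
  obtain ⟨η', χ', h5, h6, h7⟩ := exists_flag h3 η u
  by_cases e : η ⬝ᵥ v = 0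
  · exact ⟨η, by rintro rfl; simp at h4, by rwa [dotProduct_comm], e⟩
  refine ⟨η' - (η' ⬝ᵥ v * (η ⬝ᵥ v)⁻¹) • η, fun h => ?_, ?_, by simp [e]⟩
  · simpa [h6, h7] using congrArg (χ' ⬝ᵥ ·) h
  · rw [dotProduct_comm] at h1 h5
    simp [h1, h5]

theorem spread_right (h3 : 3 ≤ Fintype.card κ) {u : κ → F} {p : (κ → F) → Prop}
    (h : ∀ φ χ w, p φ → φ ⬝ᵥ u = 0 → χ ⬝ᵥ u = 0 → χ ⬝ᵥ w = 0 → φ ⬝ᵥ w = 1 → p χ) {φ : κ → F}
    (hp : p φ) (h0 : φ ≠ 0) (hu : φ ⬝ᵥ u = 0) {χ : κ → F} (hχ : χ ⬝ᵥ u = 0) : p χ := by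
  by_cases e : ∃ c : F, φ = c • χ
  · obtain ⟨c, rfl⟩ := e
    obtain ⟨v, χ', h1, h2, h4⟩ := exists_flag h3 u (c • χ)
    obtain ⟨w, h5, h6⟩ := exists_dot_pair (u := c • χ) (v := χ') fun d hd => by
      rw [hd, smul_dotProduct, h4, smul_eq_mul, mul_one] at h1
      exact h0 (by rw [hd, h1, zero_smul])
    rw [dotProduct_comm] at h5 h6
    refine h χ' χ v (h _ _ w hp hu h2 h5 h6) h2 hχ ?_ h4
    simpa [left_ne_zero_of_smul h0] using h1
  push Not at e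
  obtain ⟨w, h5, h6⟩ := exists_dot_pair e
  rw [dotProduct_comm] at h5 h6
  exact h _ _ w hp hu hχ h5 h6

/-- A property of flags which spreads along commutators holds for all flags. -/
theorem spread (h3 : 3 ≤ Fintype.card κ) {p : (κ → F) → (κ → F) → Prop}
    (h1 : ∀ u φ χ w, p u φ → φ ⬝ᵥ u = 0 → χ ⬝ᵥ u = 0 → χ ⬝ᵥ w = 0 → φ ⬝ᵥ w = 1 → p u χ)
    (h2 : ∀ u φ v η, p u φ → φ ⬝ᵥ u = 0 → φ ⬝ᵥ v = 0 → η ⬝ᵥ v = 0 → η ⬝ᵥ u = 1 → p v φ)
    {u φ : κ → F} (hp : p u φ) (hu : u ≠ 0) (hφ : φ ≠ 0) (e : φ ⬝ᵥ u = 0) (v χ : κ → F)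
    (e' : χ ⬝ᵥ v = 0) : p v χ := by
  obtain ⟨η, h4, h5, h6⟩ := exists_perp_two h3 u v
  refine spread_right h3 (p := p v) (h1 v) ?_ h4 h6 e'
  refine spread_right h3 (u := η) (p := fun v => p v η) (fun a b w i j k l m => ?_)
    (spread_right h3 (p := p u) (h1 u) hp hφ e h5) hu (by rwa [dotProduct_comm])
    (by rwa [dotProduct_comm])
  rw [dotProduct_comm] at j k l m
  exact h2 a η b w i j k l m

theorem eq_zero_of_mul_map {A : Type*} [Ring A] [Algebra F A] {ψ : Matrix κ κ F →ₐ[F] A} {c : A}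
    (hc : InC ψ c) {Y : Matrix κ κ F} (hY : Y ≠ 0) (h : c * ψ Y = 0) : c = 0 :=
  (Module.forall_dual_apply_eq_zero_iff F _).1 fun l => by
    have := congrArg (pj ψ l) h
    rw [pj_inC_mul_map l Y hc, map_zero] at this
    exact (smul_eq_zero.1 this).resolve_right hY

/-- The coefficient of `Z` between a functional and a vector. -/
def cf {A : Type*} [Ring A] [Algebra F A] (ψ : Matrix κ κ F →ₐ[F] A) (ξ v : κ → F) (Z : A) : A :=
  ∑ i, ψ (vecMulVec (Pi.single i 1) ξ) * Z * ψ (vecMulVec v (Pi.single i 1))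

theorem sum_vv (u φ : κ → F) : ∑ i, φ i • vecMulVec u (Pi.single i (1 : F)) = vecMulVec u φ := by
  ext a b; simp [Matrix.sum_apply, vecMulVec_apply, Pi.single_apply, mul_comm]

theorem sum_vv' (u φ : κ → F) : ∑ i, u i • vecMulVec (Pi.single i (1 : F)) φ = vecMulVec u φ := by
  ext a b; simp [Matrix.sum_apply, vecMulVec_apply, Pi.single_apply]

theorem mul_cf {A : Type*} [Ring A] [Algebra F A] (ψ : Matrix κ κ F →ₐ[F] A) (ξ v u χ : κ → F)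
    (Z : A) : ψ (vecMulVec u χ) * cf ψ ξ v Z = ψ (vecMulVec u ξ) * Z * ψ (vecMulVec v χ) := by
  simp only [cf, Finset.mul_sum, ← mul_assoc, pvv, dotProduct_single, mul_one, smul_mul_assoc]
  rw [← sum_vv v χ, map_sum, Finset.mul_sum]
  simp only [map_smul, mul_smul_comm]

theorem cf_mul {A : Type*} [Ring A] [Algebra F A] (ψ : Matrix κ κ F →ₐ[F] A) (ξ v u χ : κ → F)
    (Z : A) : cf ψ ξ v Z * ψ (vecMulVec u χ) = ψ (vecMulVec u ξ) * Z * ψ (vecMulVec v χ) := by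
  simp only [cf, Finset.sum_mul, mul_assoc, pvv, single_dotProduct, one_mul, mul_smul_comm]
  rw [← sum_vv' u ξ, map_sum, Finset.sum_mul]
  simp only [map_smul, smul_mul_assoc]

theorem inC_cf {A : Type*} [Ring A] [Algebra F A] (ψ : Matrix κ κ F →ₐ[F] A) (ξ v : κ → F)
    (Z : A) : InC ψ (cf ψ ξ v Z) :=
  inC_of_single fun a b => by rw [single_eq_single_vecMulVec_single, cf_mul, mul_cf]

theorem eq_vv_left {Y : Matrix κ κ F} {u ξ : κ → F} (hξ : ξ ⬝ᵥ u = 1)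
    (h : ∀ χ, χ ⬝ᵥ u = 0 → χ ᵥ* Y = 0) : Y = vecMulVec u (ξ ᵥ* Y) := by
  ext a b
  have := congrFun (h (Pi.single a 1 - u a • ξ) (by simp [hξ])) b
  rw [sub_vecMul, smul_vecMul, single_one_vecMul] at this
  exact sub_eq_zero.1 this

theorem eq_vv_right {Y : Matrix κ κ F} {φ w : κ → F} (hw : φ ⬝ᵥ w = 1)
    (h : ∀ v, φ ⬝ᵥ v = 0 → Y *ᵥ v = 0) : Y = vecMulVec (Y *ᵥ w) φ := by
  ext a b
  have := congrFun (h (Pi.single b 1 - φ b • w) (by simp [hw])) a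
  rw [mulVec_sub, mulVec_smul, mulVec_single_one] at this
  rw [vecMulVec_apply, mul_comm]
  exact sub_eq_zero.1 this

theorem eq_mul_of_left {Z : Matrix ι ι F} {u ξ : κ → F} (hξ : ξ ⬝ᵥ u = 1)
    (h : ∀ w χ, χ ⬝ᵥ u = 0 → ψ (vecMulVec w χ) * Z = 0) : ψ (vecMulVec u ξ) * Z = Z :=
  eq_of_pj (ψ := ψ) fun l => by
    rw [pj_map_mul, vecMulVec_mul]
    refine (eq_vv_left hξ fun χ hχ => ?_).symm
    have := congrArg (pj ψ l) (h u χ hχ)
    rw [pj_map_mul, vecMulVec_mul, map_zero, vecMulVec_eq_zero] at this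
    exact this.resolve_left (by rintro rfl; simp at hξ)

theorem eq_mul_of_right {Z : Matrix ι ι F} {φ w : κ → F} (hw : φ ⬝ᵥ w = 1)
    (h : ∀ v η, φ ⬝ᵥ v = 0 → Z * ψ (vecMulVec v η) = 0) : Z * ψ (vecMulVec w φ) = Z :=
  eq_of_pj (ψ := ψ) fun l => by
    rw [pj_mul_map, mul_vecMulVec]
    refine (eq_vv_right hw fun v hv => ?_).symm
    have := congrArg (pj ψ l) (h v φ hv)
    rw [pj_mul_map, mul_vecMulVec, map_zero, vecMulVec_eq_zero] at this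
    exact this.resolve_right (by rintro rfl; simp at hw)

/-- The group contains the transvections of the slot and no further elements `1 + c ⊗ u φ`. -/
structure LA (M : Subgroup (GL ι F)) (ψ : Matrix κ κ F →ₐ[F] Matrix ι ι F) : Prop where
  h3 : 3 ≤ Fintype.card κ
  tv : ∀ u φ, φ ⬝ᵥ u = 0 → In M (ψ (vecMulVec u φ))
  sc : ∀ u φ, u ≠ 0 → φ ≠ 0 → φ ⬝ᵥ u = 0 → ∀ c, InC ψ c → In M (c * ψ (vecMulVec u φ)) →
    IsSc F c

/-- The nilpotent part of a transvection of the slot. -/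
def Tv (ψ : Matrix κ κ F →ₐ[F] Matrix ι ι F) (N : Matrix ι ι F) : Prop :=
  ∃ u φ, u ≠ 0 ∧ φ ≠ 0 ∧ φ ⬝ᵥ u = 0 ∧ N = ψ (vecMulVec u φ)

theorem Tv.sq {N : Matrix ι ι F} (h : Tv ψ N) : N * N = 0 := by
  obtain ⟨u, φ, -, -, e, rfl⟩ := h
  rw [pvv, e, zero_smul]

theorem Tv.cj {N : Matrix ι ι F} (h : Tv ψ N) (g : GL ι F) : Tv (cjH g ψ) (cj g N) := by
  obtain ⟨u, φ, a, b, e, rfl⟩ := h
  exact ⟨u, φ, a, b, e, rfl⟩

theorem Tv.ne_zero [Nonempty ι] {N : Matrix ι ι F} (h : Tv ψ N) : N ≠ 0 := by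
  obtain ⟨u, φ, a, b, e, rfl⟩ := h
  rw [Ne, map_eq_zero_iff _ (algHom_matrix_injective ψ)]
  exact vecMulVec_ne_zero a b

theorem Tv.rank {N : Matrix ι ι F} (h : Tv ψ N) (o : κ) : N.rank = slotM ψ o := by
  obtain ⟨u, φ, a, b, e, rfl⟩ := h
  refine le_antisymm (rank_vecMulVec_le o _ _) ?_
  obtain ⟨y, hy⟩ := exists_dot_one b
  have := rank_ge (ψ := ψ) (a := vecMulVec u φ) (ρ := Unit) (v := fun _ => y) o IsNilpotent.zero
    inC_zero (by simpa [vecMulVec_mulVec, dotProduct_comm φ, hy] using a)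
  rwa [add_zero, one_mul, map_add, map_one, add_sub_cancel_left, Fintype.card_unit, one_mul] at this

theorem slotM_eq (ψ ψ' : Matrix κ κ F →ₐ[F] Matrix ι ι F) (o : κ) : slotM ψ o = slotM ψ' o :=
  Nat.eq_of_mul_eq_mul_left (Fintype.card_pos_iff.2 ⟨o⟩)
    ((card_mul_slotM ψ o).trans (card_mul_slotM ψ' o).symm)

theorem mem_of_single (h2 : 2 ≤ Fintype.card κ) {T : Subalgebra F (Matrix κ κ F)}
    (h : ∀ a b, a ≠ b → single a b (1 : F) ∈ T) (X : Matrix κ κ F) : X ∈ T := by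
  rw [matrix_eq_sum_single X]
  refine T.sum_mem fun a _ => T.sum_mem fun b _ => ?_
  rw [show single a b (X a b) = X a b • single a b 1 by rw [smul_single, smul_eq_mul, mul_one]]
  refine T.smul_mem ?_ _
  by_cases e : a = b
  · obtain ⟨c, hc⟩ := Fintype.exists_ne_of_one_lt_card (by omega) a
    simpa [e] using T.mul_mem (h a c hc.symm) (h c b (e ▸ hc))
  · exact h a b e

theorem mem_of_tv (h2 : 2 ≤ Fintype.card κ) {T : Subalgebra F (Matrix ι ι F)}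
    (h : ∀ N, Tv ψ N → N ∈ T) (X : Matrix κ κ F) : ψ X ∈ T :=
  mem_of_single h2 (T := T.comap ψ) (fun a b e => h _ ⟨Pi.single a 1, Pi.single b 1, by simp,
    by simp, by simp [e], congrArg ψ (single_eq_single_vecMulVec_single a b)⟩) X

namespace LA

variable (a : LA M ψ)
include a

theorem conj {g : GL ι F} (hg : g ∈ M) : LA M (cjH g ψ) :=
  ⟨a.h3, fun u φ e => (a.tv u φ e).cj hg, fun u φ h1 h2 e c hc h => by
    rw [← cj_cj_inv g c] at hc ⊢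
    refine (a.sc u φ h1 h2 e _ (inC_cjH.1 hc) ?_).map _
    simpa only [map_mul, cjH_apply, cj_inv_cj] using h.cj (inv_mem hg)⟩

theorem in_tv {N : Matrix ι ι F} (h : Tv ψ N) : In M N := by
  obtain ⟨u, φ, -, -, e, rfl⟩ := h
  exact a.tv u φ e

variable [Nonempty ι]

theorem eq_of_left {u φ : κ → F} (hu : u ≠ 0) (hφ : φ ≠ 0) (e : φ ⬝ᵥ u = 0) {Z : Matrix ι ι F}
    (hZ : In M Z) (h1 : ∀ x, ∃ y, Z *ᵥ x = ψ (vecMulVec u φ) *ᵥ y)
    (h2 : Z * ψ (vecMulVec u φ) = 0) : ∃ η, η ⬝ᵥ u = 0 ∧ Z = ψ (vecMulVec u η) := by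
  obtain ⟨ξ, hξ⟩ := exists_dot_one hu
  have k1 : ∀ w χ, χ ⬝ᵥ u = 0 → ψ (vecMulVec w χ) * Z = 0 := fun w χ hχ =>
    Matrix.ext_iff_mulVec.2 fun x => by
      obtain ⟨y, hy⟩ := h1 x
      rw [← mulVec_mulVec, hy, mulVec_mulVec, pvv, hχ, zero_smul, zero_mulVec, zero_mulVec]
  have k2 : Z * Z = 0 := Matrix.ext_iff_mulVec.2 fun x => by
    obtain ⟨y, hy⟩ := h1 x
    rw [← mulVec_mulVec, hy, mulVec_mulVec, h2, zero_mulVec, zero_mulVec]
  obtain ⟨Y, rfl⟩ : InE ψ Z := inE_of_pj fun l hl => Matrix.ext_iff_mulVec.2 fun v => by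
    obtain ⟨χ, h4, h5, h6⟩ := exists_perp_two a.h3 u v
    have h7 := hZ.comm (a.tv v χ h6) k2 (by rw [pvv, h6, zero_smul]) (k1 v χ h5)
    have h8 : Z * ψ (vecMulVec v χ) = cf ψ ξ v Z * ψ (vecMulVec u χ) := by
      rw [cf_mul, eq_mul_of_left hξ k1]
    obtain ⟨s, hs⟩ := a.sc u χ hu h4 h5 _ (inC_cf ψ ξ v Z) (h8 ▸ h7)
    have := congrArg (pj ψ l) h8
    rw [pj_mul_map, hs, smul_mul_assoc, one_mul, map_smul, pj_map, hl, zero_smul, smul_zero,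
      mul_vecMulVec, vecMulVec_eq_zero] at this
    rw [this.resolve_right h4, zero_mulVec]
  have hi := algHom_matrix_injective ψ
  refine ⟨ξ ᵥ* Y, ?_, by rw [← vecMulVec_mul, map_mul, eq_mul_of_left hξ k1]⟩
  rw [← map_mul, map_eq_zero_iff _ hi, mul_vecMulVec, vecMulVec_eq_zero] at h2
  rw [← dotProduct_mulVec, h2.resolve_right hφ, dotProduct_zero]

theorem eq_of_right {u φ : κ → F} (hu : u ≠ 0) (hφ : φ ≠ 0) (e : φ ⬝ᵥ u = 0) {Z : Matrix ι ι F}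
    (hZ : In M Z) (h1 : ∃ Y, Z = Y * ψ (vecMulVec u φ))
    (h2 : ψ (vecMulVec u φ) * Z = 0) : ∃ v, φ ⬝ᵥ v = 0 ∧ Z = ψ (vecMulVec v φ) := by
  obtain ⟨w, hw⟩ := exists_dot_one hφ
  rw [dotProduct_comm] at hw
  have k1 : ∀ v η, φ ⬝ᵥ v = 0 → Z * ψ (vecMulVec v η) = 0 := fun v η hv => by
    obtain ⟨Y, rfl⟩ := h1
    rw [mul_assoc, pvv, hv, zero_smul, mul_zero]
  have k2 : Z * Z = 0 := by
    obtain ⟨Y, hY⟩ := h1
    nth_rw 1 [hY]
    rw [mul_assoc, h2, mul_zero]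
  obtain ⟨Y, rfl⟩ : InE ψ Z := inE_of_pj fun l hl => Matrix.ext_iff_vecMul.2 fun χ => by
    obtain ⟨v, h4, h5, h6⟩ := exists_perp_two a.h3 φ χ
    rw [dotProduct_comm] at h5 h6
    have h7 := (a.tv v χ h6).comm hZ (by rw [pvv, h6, zero_smul]) k2 (k1 v χ h5)
    have h8 : ψ (vecMulVec v χ) * Z = cf ψ χ w Z * ψ (vecMulVec v φ) := by
      rw [cf_mul, mul_assoc, eq_mul_of_right hw k1]
    obtain ⟨s, hs⟩ := a.sc v φ h4 hφ h5 _ (inC_cf ψ χ w Z) (h8 ▸ h7)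
    have := congrArg (pj ψ l) h8
    rw [pj_map_mul, hs, smul_mul_assoc, one_mul, map_smul, pj_map, hl, zero_smul, smul_zero,
      vecMulVec_mul, vecMulVec_eq_zero] at this
    rw [this.resolve_left h4, vecMul_zero]
  have hi := algHom_matrix_injective ψ
  refine ⟨Y *ᵥ w, ?_, by rw [← mul_vecMulVec, map_mul, eq_mul_of_right hw k1]⟩
  rw [← map_mul, map_eq_zero_iff _ hi, vecMulVec_mul, vecMulVec_eq_zero] at h2
  rw [dotProduct_mulVec, h2.resolve_left hu, zero_dotProduct]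

/-- Two slots sharing a transvection coincide. -/
theorem share (a' : LA M ψ') {N : Matrix ι ι F} (h : Tv ψ N) (h' : Tv ψ' N)
    (X : Matrix κ κ F) : InE ψ (ψ' X) := by
  obtain ⟨u, φ, hu, hφ, e, rfl⟩ := h'
  have hi := algHom_matrix_injective ψ
  have key := spread a.h3 (p := fun v χ => v ≠ 0 → χ ≠ 0 → Tv ψ (ψ' (vecMulVec v χ)))
    (fun u φ χ w p h1 h2 h4 h5 hu hχ => by
      obtain ⟨u', φ', i, j, k, l⟩ := p hu (by rintro rfl; simp at h5)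
      obtain ⟨η, h6, h7⟩ := a.eq_of_left i j k (a'.tv u χ h2) (fun x =>
        ⟨ψ' (vecMulVec w χ) *ᵥ x, by rw [← l, mulVec_mulVec, pvv, h5, one_smul]⟩)
        (by rw [← l, pvv, h2, zero_smul])
      refine ⟨u', η, i, ?_, h6, h7⟩
      rintro rfl
      exact Tv.ne_zero ⟨u, χ, hu, hχ, h2, rfl⟩ (by simpa using h7))
    (fun u φ v η p h1 h2 h4 h5 hv hφ => by
      obtain ⟨u', φ', i, j, k, l⟩ := p (by rintro rfl; simp at h5) hφ
      obtain ⟨v', h6, h7⟩ := a.eq_of_right i j k (a'.tv v φ h2)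
        ⟨ψ' (vecMulVec v η), by rw [← l, pvv, h5, one_smul]⟩ (by rw [← l, pvv, h2, zero_smul])
      refine ⟨v', φ', ?_, j, h6, h7⟩
      rintro rfl
      exact Tv.ne_zero ⟨v, φ, hv, hφ, h2, rfl⟩ (by simpa using h7))
    (fun _ _ => h) hu hφ e
  refine mem_of_tv (by have := a.h3; omega) (T := ψ.range) ?_ X
  rintro _ ⟨v, χ, i, j, k, rfl⟩
  obtain ⟨v', χ', -, -, -, l⟩ := key v χ k i j
  exact ⟨_, l.symm⟩

theorem mem_NE_of_tv {g : GL ι F} (hg : g ∈ M) {N : Matrix ι ι F} (h : Tv ψ N)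
    (h' : Tv ψ (cj g N)) : g ∈ NE ψ :=
  mem_NE (a.share (a.conj hg) h' (h.cj g))

theorem mem_NE_of_comm {g : GL ι F} (hg : g ∈ M) {N : Matrix ι ι F} (h : Tv ψ N)
    (h' : (g : Matrix ι ι F) * N = N * g) : g ∈ NE ψ :=
  a.mem_NE_of_tv hg h (by rwa [cj_eq_of_comm h'])

/-- An element normalising the commutator space of a transvection normalises the slot. -/
theorem exists_cj {g : GL ι F} (hg : g ∈ M) {u φ : κ → F} (hu : u ≠ 0) (hφ : φ ≠ 0)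
    (e : φ ⬝ᵥ u = 0) (h : ∀ x, ∃ y, (g : Matrix ι ι F) *ᵥ (ψ (vecMulVec u φ) *ᵥ x) =
      ψ (vecMulVec u φ) *ᵥ y) (h' : ∀ x, ∃ y, ((g⁻¹ : GL ι F) : Matrix ι ι F) *ᵥ
        (ψ (vecMulVec u φ) *ᵥ x) = ψ (vecMulVec u φ) *ᵥ y) {χ : κ → F} (hχ : χ ≠ 0)
    (e' : χ ⬝ᵥ u = 0) : ∃ η, η ≠ 0 ∧ η ⬝ᵥ u = 0 ∧
      cj g (ψ (vecMulVec u χ)) = ψ (vecMulVec u η) := by
  obtain ⟨w, hw⟩ := exists_dot_one hφ
  rw [dotProduct_comm] at hw
  obtain ⟨η, h1, h2⟩ := a.eq_of_left hu hφ e ((a.tv u χ e').cj hg) (fun x => by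
    obtain ⟨y, hy⟩ := h (ψ (vecMulVec w χ) *ᵥ (((g⁻¹ : GL ι F) : Matrix ι ι F) *ᵥ x))
    refine ⟨y, ?_⟩
    rw [← hy, cj_apply, mulVec_mulVec _ (ψ _), pvv, hw, one_smul, ← mulVec_mulVec,
      ← mulVec_mulVec]) (Matrix.ext_iff_mulVec.2 fun x => by
    obtain ⟨y, hy⟩ := h' x
    rw [cj_apply, ← mulVec_mulVec, ← mulVec_mulVec, hy, ← mulVec_mulVec, mulVec_mulVec _ (ψ _),
      pvv, e', zero_smul, zero_mulVec, mulVec_zero, zero_mulVec])
  refine ⟨η, ?_, h1, h2⟩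
  rintro rfl
  exact (Tv.cj ⟨u, χ, hu, hχ, e', rfl⟩ g).ne_zero (by simpa using h2)

variable [Finite F]

omit a in
theorem dich (h3 : 3 ≤ Fintype.card κ) {N : Matrix ι ι F} (h : Tv ψ N) {g : GL ι F}
    (e : (g : Matrix ι ι F) = 1 + N) (hg : g ∈ NE ψ') : Tv ψ' N ∨ InC ψ' N := by
  obtain ⟨o⟩ : Nonempty κ := Fintype.card_pos_iff.1 (by omega)
  obtain ⟨X, γ, h1, -, h4, -, h5, h6, h7⟩ := unip_rank (ψ := ψ') o hg (r := 1)
    ⟨2, by rw [e, add_sub_cancel_left, sq, h.sq]⟩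
    (by rw [e, add_sub_cancel_left, h.rank o, slotM_eq ψ ψ', one_mul])
  by_cases h0 : X = 0
  · right
    rw [h0, add_zero, map_one, mul_one, e, add_right_inj] at h5
    rwa [h5]
  left
  have h8 : X.rank = 1 := le_antisymm h6 (Nat.pos_of_ne_zero fun e => h0 (by
    rwa [Matrix.rank, Submodule.finrank_eq_zero, LinearMap.range_eq_bot, ← toLin'_apply',
      map_eq_zero_iff _ toLin'.injective] at e))
  rw [h7 h8 (exists_ker_notMem_range (by omega)), add_zero, one_mul, e, map_add, map_one,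
    add_right_inj] at h5
  obtain ⟨v, hv⟩ : ∃ v, X *ᵥ v ≠ 0 := by
    by_contra! H
    exact h0 (Matrix.ext_iff_mulVec.2 fun v => by rw [H, zero_mulVec])
  choose t ht using exists_smul_of_rank_le_one h6 hv
  have h9 : X = vecMulVec (X *ᵥ v) fun j => t (Pi.single j 1) := by
    ext i j
    have := congrFun (ht (Pi.single j 1)) i
    rw [mulVec_single_one] at this
    rw [vecMulVec_apply, mul_comm]
    exact this
  have h10 : (fun j => t (Pi.single j 1)) ≠ 0 := fun e => h0 (by rw [h9, e, vecMulVec_zero])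
  refine ⟨_, _, hv, h10, ?_, by rw [← h9, h5]⟩
  have := h.sq
  rw [h5, h9, pvv, smul_eq_zero, map_eq_zero_iff _ (algHom_matrix_injective ψ')] at this
  exact this.resolve_right (vecMulVec_ne_zero hv h10)

/-- A slot normalised by a transvection of another slot equals it or commutes with it. -/
theorem or_of_NE (a' : LA M ψ') {N : Matrix ι ι F} (h : Tv ψ N) {g : GL ι F}
    (e : (g : Matrix ι ι F) = 1 + N) (hg : g ∈ NE ψ') :
    (∀ X, InE ψ (ψ' X)) ∨ ∀ X, InC ψ (ψ' X) := by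
  rcases dich a.h3 h e hg with H | H
  · exact .inl (a.share a' h H)
  refine or_iff_not_imp_left.2 fun hn X Y => ?_
  refine ((Subalgebra.mem_centralizer_iff F).1 (mem_of_tv (by have := a.h3; omega)
    (T := Subalgebra.centralizer F {ψ Y}) (fun N' hN' => ?_) X) _ rfl).symm
  obtain ⟨k, hk, e'⟩ := a'.in_tv hN'
  rcases dich a.h3 hN' e' (a.mem_NE_of_comm hk h (by
    obtain ⟨u, φ, -, -, -, rfl⟩ := hN'
    rw [e', add_mul, mul_add, H, one_mul, mul_one])) with H' | H'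
  · exact absurd (a.share a' H' hN') hn
  · rw [Subalgebra.mem_centralizer_iff]
    rintro _ rfl
    exact (H' Y).symm

end LA

end Cfsg.Agent.Cl.Max.SLW
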