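import Mathlib
import Cfsg.Agent.Cl.SLWrA

/-!
# Slots of a tensor power and their transvections (linear case), II

The transfer argument, and the algebra of coefficients of a slot.
-/

set_option autoImplicit false
set_option linter.unusedSectionVars false
set_option linter.unusedVariables false

namespace Cfsg.Agent.Cl.Max.SLW

open Matrix Cfsg.Geo

variable {F : Type*} [Field F] {κ : Type} [Fintype κ] [DecidableEq κ]
  {ι : Type} [Fintype ι] [DecidableEq ι] {M : Subgroup (GL ι F)}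
  {ψ ψ' : Matrix κ κ F →ₐ[F] Matrix ι ι F}

/-- The transvection `1 + u φ`. -/
def tvG (u φ : κ → F) (h : φ ⬝ᵥ u = 0) : GL κ F :=
  ⟨1 + vecMulVec u φ, 1 - vecMulVec u φ, by
    rw [show ∀ n : Matrix κ κ F, (1 + n) * (1 - n) = 1 - n * n from fun n => by noncomm_ring, vv, h,
      zero_smul, sub_zero], by
    rw [show ∀ n : Matrix κ κ F, (1 - n) * (1 + n) = 1 - n * n from fun n => by noncomm_ring, vv, h,
      zero_smul, sub_zero]⟩

theorem coe_homG_tvG (u φ : κ → F) (h : φ ⬝ᵥ u = 0) :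
    (homG ψ (tvG u φ h) : Matrix ι ι F) = 1 + ψ (vecMulVec u φ) := by
  rw [coe_homG, ← map_one ψ, ← map_add]; rfl

theorem cj_tvG (u φ : κ → F) (h : φ ⬝ᵥ u = 0) (η : Matrix κ κ F) :
    cj (tvG u φ h) η = (1 + vecMulVec u φ) * η * (1 - vecMulVec u φ) := rfl

theorem LA.tvG_mem (a : LA M ψ) (u φ : κ → F) (h : φ ⬝ᵥ u = 0) : homG ψ (tvG u φ h) ∈ M := by
  obtain ⟨g, hg, e⟩ := a.tv u φ h
  rwa [show homG ψ (tvG u φ h) = g from Units.ext (by rw [coe_homG_tvG, e])]

theorem LA.good_of_NE [Nonempty ι] [Finite F] (a : LA M ψ) {g : GL ι F} (hg : g ∈ M)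
    {u φ : κ → F} (hu : u ≠ 0) (hφ : φ ≠ 0) (h : φ ⬝ᵥ u = 0)
    (H : homG ψ (tvG u φ h) ∈ NE (cjH g ψ)) : Good ψ g :=
  (a.or_of_NE (a.conj hg) ⟨u, φ, hu, hφ, h, rfl⟩ (coe_homG_tvG u φ h) H).imp mem_NE id

theorem LA.good_of_large [Nonempty ι] [Fintype F] (a : LA M ψ)
    (hq : 2 < (Fintype.card F - 1) * (Fintype.card κ - 1)) {g : GL ι F} (hg : g ∈ M) :
    Good ψ g := by
  classical
  have h3 := a.h3
  have : Nontrivial κ := Fintype.one_lt_card_iff_nontrivial.1 (by omega)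
  have key : ∀ i j : κ, i ≠ j → single i j (1 : F) ∈ DK ψ M := fun i j hij => by
    let p : κ → MvPolynomial {k // k ≠ i} F := fun k =>
      if h : k = i then 0 else MvPolynomial.X ⟨k, h⟩
    let ex : ({k // k ≠ i} → F) → κ → F := fun t k => MvPolynomial.eval t (p k)
    have hp : ∀ k, (p k).totalDegree ≤ 1 := fun k => by
      simp only [p]; split_ifs <;> simp
    have h0 : ∀ t, ex t ⬝ᵥ Pi.single i 1 = 0 := fun t => by simp [ex, p]
    have hadd : ∀ s t, ex (s + t) = ex s + ex t := fun s t => funext fun k => by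
      simp only [ex, p, Pi.add_apply]; split_ifs <;> simp
    have hs : ∀ f : MvPolynomial {k // k ≠ i} F, f.totalDegree ≤ 2 →
        ∑ t, MvPolynomial.eval t f = 0 := fun f hf =>
      f.sum_eval_eq_zero (by simp only [Fintype.card_subtype_compl, Fintype.card_unique]; omega)
    have s0 : ∑ _ : {k // k ≠ i} → F, (1 : F) = 0 := by simpa using hs 1 (by simp)
    have s1 : ∀ k, ∑ t, ex t k = 0 := fun k => hs _ ((hp k).trans (by norm_num))
    have s2 : ∀ k l, ∑ t, ex t k * ex t l = 0 := fun k l => by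
      simpa only [map_mul] using hs (p k * p l) ((MvPolynomial.totalDegree_mul _ _).trans
        (add_le_add (hp k) (hp l)))
    refine mem_DK (fun t => tvG (Pi.single i 1) (ex t) (h0 t)) (fun s t => Units.ext ?_)
      (fun t => a.tvG_mem _ _ _) (fun g hg hn => ⟨⊤, Finset.univ, by simp, fun t _ H => ?_,
        fun η _ => ?_⟩) fun t => ?_
    · change 1 + vecMulVec _ _ = (1 + vecMulVec _ _) * (1 + vecMulVec _ _)
      rw [hadd, vecMulVec_add, add_mul, mul_add, mul_add, vv, h0]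
      simp only [one_mul, mul_one, zero_smul, add_zero]
      abel
    · by_contra h
      refine hn (a.good_of_NE hg (by simp) (fun e => h (funext fun k => ?_)) _ H)
      simpa [ex, p, k.2] using congrFun e k
    · have e : ∀ t, cj (tvG (Pi.single i 1) (ex t) (h0 t)) η = (1 : F) • η +
          ∑ k, ex t k • (single i k 1 * η - η * single i k 1) -
          ∑ k, ∑ l, (ex t k * ex t l) • (single i k 1 * η * single i l 1) := fun t => by
        simp only [cj_tvG, ← sum_vv (Pi.single i (1 : F)) (ex t),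
          ← single_eq_single_vecMulVec_single, smul_sub, Finset.sum_sub_distrib, add_mul, mul_sub,
          one_mul, mul_one, Finset.sum_mul, Finset.mul_sum, smul_mul_assoc, mul_smul_comm,
          one_smul, smul_add, Finset.sum_add_distrib, Finset.smul_sum, smul_smul]
        rw [Finset.sum_comm (f := fun k l => (ex t k * ex t l) • (single i k 1 * η * single i l 1))]
        simp only [mul_comm]
        abel
      simp only [e, Finset.sum_sub_distrib, Finset.sum_add_distrib]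
      rw [Finset.sum_comm, Finset.sum_comm (f := fun t k => ∑ l, (ex t k * ex t l) • _)]
      simp only [Finset.sum_comm (f := fun t l => (ex t _ * ex t l) • _), ← Finset.sum_smul, s0,
        s1, s2, zero_smul, Finset.sum_const_zero, add_zero, sub_zero]
    · rw [cj_tvG, single_eq_single_vecMulVec_single, add_mul, vv, h0, zero_smul, add_zero, one_mul,
        mul_sub, vv]
      simp [hij]
  refine transfer_rigid (.inr h3) (fun z hz => mem_of_trace _ fun X hX => IsSc.trace_mul ?_ hz) hg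
  have h1 : ∀ i j, i ≠ j → X i j = 0 := fun i j h => by
    simpa [trace_mul_single] using hX _ (key j i h.symm)
  obtain ⟨o⟩ : Nonempty κ := inferInstance
  refine ⟨X o o, Matrix.ext fun i j => ?_⟩
  by_cases h : i = j
  · subst h
    by_cases h : i = o
    · simp [h]
    have := hX _ (cj_mem_DK (a.tvG_mem (Pi.single i 1) (Pi.single o 1) (by simp [h]))
      (key o i (Ne.symm h)))
    rw [cj_tvG, ← single_eq_single_vecMulVec_single] at this
    simp only [add_mul, mul_sub, one_mul, mul_one, single_mul_single_same, mul_add, trace_add,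
      trace_sub, trace_mul_single, h1 i o h, h1 o i (Ne.symm h)] at this
    simpa [add_neg_eq_zero, sub_eq_zero] using this
  · simp [h, h1 i j h]

/-- Invariance under the transvections of the slot. -/
def Inv (ψ : Matrix κ κ F →ₐ[F] Matrix ι ι F) (S : Submodule F (Matrix ι ι F)) : Prop :=
  ∀ u φ, φ ⬝ᵥ u = 0 → ∀ c ∈ S, ψ (vecMulVec u φ) * c - c * ψ (vecMulVec u φ) -
    ψ (vecMulVec u φ) * c * ψ (vecMulVec u φ) ∈ S

theorem Inv.extract (h3 : 3 ≤ Fintype.card κ) {S : Submodule F (Matrix ι ι F)} (hS : Inv ψ S)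
    {c : Matrix ι ι F} (hc : c ∈ S) (hn : ¬ InC ψ c) :
    ∃ d, d ≠ 0 ∧ InC ψ d ∧ ∀ u φ, φ ⬝ᵥ u = 0 → d * ψ (vecMulVec u φ) ∈ S := by
  obtain ⟨l, hl⟩ := not_forall.1 (mt inC_of_pj hn)
  obtain ⟨u, hu⟩ := not_forall.1 (mt isSc_of_forall_mem_span hl)
  obtain ⟨φ, h1, h2⟩ := exists_dot_pair (u := pj ψ l c *ᵥ u) (v := u) fun d hd =>
    hu (Submodule.mem_span_singleton.2 ⟨d, hd.symm⟩)
  have hu0 : u ≠ 0 := by rintro rfl; simp at h2
  have hφ0 : φ ≠ 0 := by rintro rfl; simp at h2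
  obtain ⟨v, χ, h4, h5, h6⟩ := exists_flag h3 u φ
  have hd := inC_cf ψ φ u c
  refine ⟨cf ψ φ u c, fun e => ?_, hd, spread h3
    (p := fun u' φ' => cf ψ φ u c * ψ (vecMulVec u' φ') ∈ S) (fun u φ χ w p i j k m => ?_)
    (fun u φ v η p i j k m => ?_) ?_ hu0 hφ0 h1⟩
  · have := congrArg (pj ψ l) (cf_mul ψ φ u u φ c)
    rw [e, zero_mul, map_zero, pj_mul_map, pj_map_mul, mul_assoc, mul_vecMulVec, vv, h2,
      one_smul] at this
    exact vecMulVec_ne_zero hu0 hφ0 this.symm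
  · simpa only [← mul_assoc, ← hd _, mul_assoc (_ : Matrix ι ι F) (ψ _) (ψ _), pvv, j, m,
      zero_smul, one_smul, mul_zero, zero_mul, sub_zero, zero_sub, neg_mem_iff]
      using hS w χ k _ p
  · simpa only [← mul_assoc, ← hd _, mul_assoc (_ : Matrix ι ι F) (ψ _) (ψ _), pvv, j, m,
      zero_smul, one_smul, mul_zero, zero_mul, sub_zero, smul_zero] using hS v η k _ p
  · rw [cf_mul]
    convert hS v φ h4 _ (hS u χ h5 _ (hS u φ h1 c hc)) using 1
    simp only [mul_sub, sub_mul, mul_assoc, pvv, pvv', h1, h4, h5, h6, zero_smul, one_smul,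
      mul_zero, zero_mul]
    abel

section Slots

variable {τ : Type} [Fintype τ] [DecidableEq τ] {Ψ : τ → Matrix κ κ F →ₐ[F] Matrix ι ι F}
  (h3 : 3 ≤ Fintype.card κ) (hc : ∀ s s', s ≠ s' → ∀ X, InC (Ψ s) (Ψ s' X))
  (hs : ∀ c, (∀ s, InC (Ψ s) c) → IsSc F c)
include h3 hc hs

theorem one_mem_mul (J : Finset τ) : ∀ S : Submodule F (Matrix ι ι F), S ≠ ⊥ →
    (∀ s ∈ J, Inv (Ψ s) S) → (∀ s ∉ J, ∀ c ∈ S, InC (Ψ s) c) →
    1 ∈ S * S ∧ ((∀ c ∈ S, IsSc F c) ∨ ∃ j ∈ J, ∀ Y, Ψ j Y ∈ S * S) := by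
  induction J using Finset.induction_on with
  | empty =>
    intro S h0 _ h2
    have h4 : ∀ c ∈ S, IsSc F c := fun c h => hs c fun s => h2 s (by simp) c h
    obtain ⟨c, h5, h6⟩ := S.exists_mem_ne_zero_of_ne_bot h0
    obtain ⟨r, rfl⟩ := h4 c h5
    have := (S.smul_mem_iff (left_ne_zero_of_smul h6)).1 h5
    exact ⟨by simpa using Submodule.mul_mem_mul this this, .inl h4⟩
  | insert j J hj ih =>
    intro S h0 h1 h2
    by_cases h : ∀ c ∈ S, InC (Ψ j) c
    · obtain ⟨h4, h5⟩ := ih S h0 (fun s i => h1 s (by simp [i])) fun s i => by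
        by_cases e : s = j
        · exact e ▸ h
        · exact h2 s (by simp [e, i])
      exact ⟨h4, h5.imp id fun ⟨k, i, H⟩ => ⟨k, by simp [i], H⟩⟩
    push Not at h
    obtain ⟨c, h4, h5⟩ := h
    obtain ⟨d, h6, h7, h8⟩ := (h1 j (by simp)).extract h3 h4 h5
    let S' : Submodule F (Matrix ι ι F) :=
      { carrier := {d | InC (Ψ j) d ∧ ∀ u φ, φ ⬝ᵥ u = 0 → d * Ψ j (vecMulVec u φ) ∈ S}
        add_mem' := fun x y => ⟨x.1.add y.1, fun u φ e => by
          rw [add_mul]; exact S.add_mem (x.2 u φ e) (y.2 u φ e)⟩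
        zero_mem' := ⟨inC_zero, fun u φ e => by simp⟩
        smul_mem' := fun r _ x => ⟨x.1.smul r, fun u φ e => by
          rw [smul_mul_assoc]; exact S.smul_mem r (x.2 u φ e)⟩ }
    have h9 := (ih S' (fun e => h6 ((Submodule.eq_bot_iff _).1 e d ⟨h7, h8⟩))
      (fun s i u φ e x hx => ?_) fun s i x hx Y => ?_).1
    · have key : ∀ x ∈ S' * S', ∀ Y, x * Ψ j Y ∈ S * S := fun x hx =>
        Submodule.mul_induction_on hx (fun x hx y hy Y => by
          rw [algHom_matrix_apply (Ψ j) Y]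
          simp only [Finset.mul_sum, mul_smul_comm]
          refine Submodule.sum_mem _ fun a _ => Submodule.sum_mem _ fun b _ =>
            Submodule.smul_mem _ _ ?_
          obtain ⟨k, k1, k2⟩ := exists_ne_ne_of_three_le_card h3 a b
          have := Submodule.mul_mem_mul (hx.2 (Pi.single a 1) (Pi.single k 1) (by simp [k1]))
            (hy.2 (Pi.single k 1) (Pi.single b 1) (by simp [k2]))
          rwa [mul_assoc, ← mul_assoc (Ψ j _), ← hy.1, mul_assoc, pvv, single_dotProduct, one_mul,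
            Pi.single_eq_same, one_smul, ← mul_assoc, ← single_eq_single_vecMulVec_single] at this)
          fun x y hx hy Y => by rw [add_mul]; exact add_mem (hx Y) (hy Y)
      exact ⟨by simpa using key 1 h9 1, .inr ⟨j, by simp, fun Y => by simpa using key 1 h9 Y⟩⟩
    · have k := hc j s (by rintro rfl; exact hj i) (vecMulVec u φ)
      refine ⟨((k.mul hx.1).sub (hx.1.mul k)).sub ((k.mul hx.1).mul k), fun v χ e' => ?_⟩
      convert h1 s (by simp [i]) u φ e _ (hx.2 v χ e') using 1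
      simp only [sub_mul, mul_assoc, k _]
    · by_cases e : s = j
      · exact e ▸ hx.1 Y
      obtain ⟨a, b, hab⟩ := Fintype.one_lt_card_iff.1 (by omega : 1 < Fintype.card κ)
      have k := hc j s (Ne.symm e) Y
      refine sub_eq_zero.1 (eq_zero_of_mul_map ((hx.1.mul k).sub (k.mul hx.1))
        (Y := vecMulVec (Pi.single a 1) (Pi.single b 1)) (vecMulVec_ne_zero (by simp) (by simp)) ?_)
      rw [sub_mul, mul_assoc, k, ← mul_assoc, h2 s (by simp [e, i]) _ (hx.2 _ _ (by simp [hab])),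
        mul_assoc, sub_self]

omit hc hs in
/-- The algebra of coefficients of a slot. -/
def cfAlg (hT : ∀ u φ, φ ⬝ᵥ u = 0 → In M (ψ (vecMulVec u φ))) : Subalgebra F (Matrix ι ι F) where
  carrier := {c | InC ψ c ∧ ∀ u φ, φ ⬝ᵥ u = 0 → In M (c * ψ (vecMulVec u φ))}
  mul_mem' {x y} hx hy := ⟨hx.1.mul hy.1, fun u χ e => by
    obtain ⟨v, φ, h1, h2, h4⟩ := exists_flag h3 u χ
    have k : ∀ {x y : Matrix ι ι F} (hy : InC ψ y) a b c d, x * ψ (vecMulVec a b) *
        (y * ψ (vecMulVec c d)) = (b ⬝ᵥ c) • (x * y * ψ (vecMulVec a d)) := fun hy a b c d => by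
      rw [mul_assoc, ← mul_assoc (ψ _), ← hy, mul_assoc, pvv, mul_smul_comm, mul_smul_comm,
        mul_assoc]
    simpa only [k hy.1, h4, one_smul] using (hx.2 u φ h2).comm (hy.2 v χ h1)
      (by rw [k hx.1, h2, zero_smul]) (by rw [k hy.1, h1, zero_smul])
      (by rw [k hx.1, e, zero_smul])⟩
  add_mem' {x y} hx hy := ⟨hx.1.add hy.1, fun u φ e => by
    convert (hx.2 u φ e).mul (hy.2 u φ e) using 1
    rw [mul_assoc, ← mul_assoc (ψ _), ← hy.1, mul_assoc, pvv, e, zero_smul, mul_zero, mul_zero,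
      add_zero, add_mul]⟩
  algebraMap_mem' r := ⟨(isSc_smul_one r).inC |> fun h => by rwa [Algebra.algebraMap_eq_smul_one],
    fun u φ e => by
      rw [Algebra.algebraMap_eq_smul_one, smul_mul_assoc, one_mul, ← map_smul, ← vecMulVec_smul]
      exact hT u _ (by simp [e])⟩

omit hc hs in
theorem mem_cfAlg (hT : ∀ u φ, φ ⬝ᵥ u = 0 → In M (ψ (vecMulVec u φ))) {c : Matrix ι ι F}
    (h : InC ψ c) {u φ : κ → F} (hu : u ≠ 0) (hφ : φ ≠ 0) (e : φ ⬝ᵥ u = 0)
    (H : In M (c * ψ (vecMulVec u φ))) : c ∈ cfAlg h3 hT := by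
  have k : ∀ a b d e, c * ψ (vecMulVec a b) * ψ (vecMulVec d e) =
      (b ⬝ᵥ d) • (c * ψ (vecMulVec a e)) := fun a b d e => by rw [mul_assoc, pvv, mul_smul_comm]
  have k' : ∀ a b d e, ψ (vecMulVec a b) * (c * ψ (vecMulVec d e)) =
      (b ⬝ᵥ d) • (c * ψ (vecMulVec a e)) := fun a b d e => by rw [← mul_assoc, ← h, k]
  refine ⟨h, spread h3 (p := fun u φ => In M (c * ψ (vecMulVec u φ)))
    (fun u φ χ w p i j l m => ?_) (fun u φ v η p i j l m => ?_) H hu hφ e⟩
  · simpa only [k, m, one_smul] using p.comm (hT w χ l)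
      (by rw [mul_assoc, k', i, zero_smul, mul_zero]) (by rw [pvv, l, zero_smul])
      (by rw [k', j, zero_smul])
  · simpa only [k', m, one_smul] using (hT v η l).comm p (by rw [pvv, l, zero_smul])
      (by rw [mul_assoc, k', i, zero_smul, mul_zero]) (by rw [k, j, zero_smul])

theorem la_of (hT : ∀ s u φ, φ ⬝ᵥ u = 0 → In M (Ψ s (vecMulVec u φ)))
    (hπ : ∀ i j k, i ≠ j → i ≠ k → j ≠ k → ∃ g ∈ M, (∀ X, cj g (Ψ i X) = Ψ k X) ∧
      ∀ X, cj g (Ψ j X) = Ψ i X)
    (hn : ¬ ∀ i j, j ≠ i → ∀ Y, Ψ j Y ∈ cfAlg h3 (hT i)) (i : τ) : LA M (Ψ i) := by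
  refine ⟨h3, hT i, fun u φ hu hφ e c h H => by_contra fun h0 => hn ?_⟩
  have sy : ∀ i j, j ≠ i → (∀ Y, Ψ j Y ∈ cfAlg h3 (hT i)) → ∀ Y, Ψ i Y ∈ cfAlg h3 (hT j) :=
    fun i j hij H => mem_of_tv (by omega) (by
      rintro _ ⟨u, φ, -, -, e, rfl⟩
      exact ⟨hc j i hij _, fun v χ e' => by rw [hc j i hij]; exact (H _).2 u φ e⟩)
  have al : ∀ i j, j ≠ i → (∀ Y, Ψ j Y ∈ cfAlg h3 (hT i)) → ∀ k, k ≠ i →
      ∀ Y, Ψ k Y ∈ cfAlg h3 (hT i) := fun i j hij H k hk => by
    by_cases e : j = k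
    · exact e ▸ H
    obtain ⟨g, hg, h1, h2⟩ := hπ i j k hij.symm hk.symm e
    refine sy k i hk.symm fun Y => ⟨hc k i hk Y, fun v χ e' => ?_⟩
    rw [← h1, ← h2, ← map_mul]
    exact ((H Y).2 v χ e').cj hg
  have hm := mem_cfAlg h3 (hT i) h hu hφ e H
  obtain ⟨-, h1 | ⟨j, hj, h1⟩⟩ := one_mem_mul h3 hc hs (Finset.univ.erase i)
    (Subalgebra.toSubmodule (cfAlg h3 (hT i)))
    (fun e => h0 ((Submodule.eq_bot_iff _).1 e c hm ▸ isSc_zero))
    (fun s hs' v χ e' x hx => by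
      have k := hc i s (Finset.ne_of_mem_erase hs').symm (vecMulVec v χ)
      obtain ⟨g, hg, h2⟩ := hT s v χ e'
      have h4 : cj g x ∈ cfAlg h3 (hT i) := ⟨by
        rw [cj_apply, coe_inv_of_sq h2 (by rw [pvv, e', zero_smul]), h2]
        exact ((inC_one.add k).mul hx.1).mul (inC_one.sub k), fun a b e'' => by
          rw [← cj_eq_of_comm (g := g) (X := Ψ i (vecMulVec a b)) (h2 ▸ inC_one.add k _), ← map_mul]
          exact (hx.2 a b e'').cj hg⟩
      rw [Subalgebra.mem_toSubmodule]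
      convert sub_mem h4 hx using 1
      rw [cj_apply, coe_inv_of_sq h2 (by rw [pvv, e', zero_smul]), h2]
      noncomm_ring)
    (fun s hs' x hx => by
      rw [show s = i by simpa using hs']; exact hx.1)
  · exact absurd (h1 c hm) h0
  rw [Subalgebra.isIdempotentElem_toSubmodule] at h1
  have h2 := al i j (Finset.ne_of_mem_erase hj) h1
  intro k l hkl
  by_cases e : k = i
  · exact e ▸ h2 l (e ▸ hkl)
  · exact al k i (Ne.symm e) (sy i k e (h2 k e)) l hkl

end Slots

end Cfsg.Agent.Cl.Max.SLW
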