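import Mathlib
import Cfsg.Agent.Cl.SLWrB

/-!
# Slots of a tensor power and their transvections (linear case), III

Slots of degree three over the field with two elements.
-/

set_option autoImplicit false
set_option linter.unusedSectionVars false
set_option linter.unusedVariables false

namespace Cfsg.Agent.Cl.Max.SLW

open Matrix Cfsg.Geo Module

variable {F : Type*} [Field F] {κ : Type} [Fintype κ] [DecidableEq κ]
  {ι : Type} [Fintype ι] [DecidableEq ι] {M : Subgroup (GL ι F)}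
  {ψ ψ' : Matrix κ κ F →ₐ[F] Matrix ι ι F} {u u' : κ → F}

/-- The space `X ⊗ u`. -/
def WW (ψ : Matrix κ κ F →ₐ[F] Matrix ι ι F) (u : κ → F) : Submodule F (ι → F) where
  carrier := {x | ∀ w χ, χ ⬝ᵥ u = 0 → ψ (vecMulVec w χ) *ᵥ x = 0}
  add_mem' hx hy w χ e := by rw [mulVec_add, hx w χ e, hy w χ e, add_zero]
  zero_mem' w χ e := mulVec_zero _
  smul_mem' c x hx w χ e := by rw [mulVec_smul, hx w χ e, smul_zero]

theorem pvx (ψ : Matrix κ κ F →ₐ[F] Matrix ι ι F) (u φ v χ : κ → F) (x : ι → F) :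
    ψ (vecMulVec u φ) *ᵥ (ψ (vecMulVec v χ) *ᵥ x) = (φ ⬝ᵥ v) • ψ (vecMulVec u χ) *ᵥ x := by
  rw [mulVec_mulVec, pvv, smul_mulVec]

theorem mem_WW (φ : κ → F) (y : ι → F) : ψ (vecMulVec u φ) *ᵥ y ∈ WW ψ u := fun w χ e => by
  rw [pvx, e, zero_smul]

theorem eq_of_WW {ξ : κ → F} (hξ : ξ ⬝ᵥ u = 1) {x : ι → F} (hx : x ∈ WW ψ u) :
    ψ (vecMulVec u ξ) *ᵥ x = x := by
  have e : (1 : Matrix κ κ F) = vecMulVec u ξ +
      ∑ i, vecMulVec (Pi.single i 1) (Pi.single i 1 - u i • ξ) := by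
    ext a b
    simp [Matrix.sum_apply, vecMulVec_apply, Pi.single_apply, Matrix.one_apply, eq_comm]
  conv_rhs => rw [← one_mulVec x, ← map_one ψ, e, map_add, map_sum, add_mulVec, sum_mulVec,
    Finset.sum_eq_zero fun i _ => hx _ _ (by simp [hξ]), add_zero]

theorem exists_of_WW (hu : u ≠ 0) {φ : κ → F} (hφ : φ ≠ 0) {x : ι → F} (hx : x ∈ WW ψ u) :
    ∃ y, x = ψ (vecMulVec u φ) *ᵥ y := by
  obtain ⟨ξ, hξ⟩ := exists_dot_one hu
  obtain ⟨w, hw⟩ := exists_dot_one hφ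
  exact ⟨ψ (vecMulVec w ξ) *ᵥ x, by rw [pvx, dotProduct_comm, hw, one_smul, eq_of_WW hξ hx]⟩

theorem finrank_WW (h3 : 3 ≤ Fintype.card κ) (hu : u ≠ 0) (o : κ) :
    finrank F (WW ψ u) = slotM ψ o := by
  obtain ⟨φ, h1, h2, -⟩ := exists_perp_two h3 u u
  rw [← Tv.rank ⟨u, φ, hu, h1, h2, rfl⟩ o, Matrix.rank,
    show WW ψ u = LinearMap.range (ψ (vecMulVec u φ)).mulVecLin from Submodule.ext fun x =>
      ⟨fun h => (exists_of_WW hu h1 h).imp fun _ e => e.symm, by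
        rintro ⟨y, rfl⟩; exact mem_WW φ y⟩]

theorem mem_WW_cjH (g : GL ι F) {x : ι → F} (hx : x ∈ WW ψ u) :
    (g : Matrix ι ι F) *ᵥ x ∈ WW (cjH g ψ) u := fun w χ e => by
  rw [cjH_apply, cj_mulVec, hx w χ e, mulVec_zero]

theorem inv_maps [Finite F] {W : Submodule F (ι → F)} {g : GL ι F}
    (h : ∀ x ∈ W, (g : Matrix ι ι F) *ᵥ x ∈ W) :
    ∀ x ∈ W, ((g⁻¹ : GL ι F) : Matrix ι ι F) *ᵥ x ∈ W := by
  have key : ∀ n : ℕ, ∀ x ∈ W, ((g ^ n : GL ι F) : Matrix ι ι F) *ᵥ x ∈ W := fun n => by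
    induction n with
    | zero => simp
    | succ n ih => intro x hx; rw [pow_succ, Units.val_mul, ← mulVec_mulVec]; exact ih _ (h x hx)
  rw [show g⁻¹ = g ^ (orderOf g - 1) from inv_eq_of_mul_eq_one_right (by
    rw [← pow_succ', Nat.sub_add_cancel (orderOf_pos g), pow_orderOf_eq_one])]
  exact key _

theorem maps_of_comm {g : Matrix ι ι F} (hu : u ≠ 0) {φ φ' : κ → F} (hφ : φ ≠ 0)
    (h : g * ψ (vecMulVec u φ) = ψ' (vecMulVec u' φ') * g) : ∀ x ∈ WW ψ u, g *ᵥ x ∈ WW ψ' u' :=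
  fun x hx => by
    obtain ⟨y, rfl⟩ := exists_of_WW hu hφ hx
    rw [mulVec_mulVec, h, ← mulVec_mulVec]
    exact mem_WW _ _

variable [Nonempty ι] [Fintype F]

theorem LA.cj_of_maps (a : LA M ψ) {g : GL ι F} (hg : g ∈ M) (hu : u ≠ 0)
    (h : ∀ x ∈ WW ψ u, (g : Matrix ι ι F) *ᵥ x ∈ WW ψ u) {χ : κ → F} (hχ : χ ≠ 0)
    (e : χ ⬝ᵥ u = 0) : ∃ η, η ≠ 0 ∧ η ⬝ᵥ u = 0 ∧
      cj g (ψ (vecMulVec u χ)) = ψ (vecMulVec u η) :=
  a.exists_cj hg hu hχ e (fun x => exists_of_WW hu hχ (h _ (mem_WW _ _)))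
    (fun x => exists_of_WW hu hχ (inv_maps h _ (mem_WW _ _))) hχ e

theorem exists_ne_zero_WW (h3 : 3 ≤ Fintype.card κ) (hu : u ≠ 0) : ∃ x ∈ WW ψ u, x ≠ 0 := by
  obtain ⟨o⟩ : Nonempty κ := Fintype.card_pos_iff.1 (by omega)
  refine Submodule.exists_mem_ne_zero_of_ne_bot fun e => ?_
  have := finrank_WW (ψ := ψ) h3 hu o
  rw [e, finrank_bot] at this
  exact absurd this slotM_pos.ne

variable (M) in
/-- Slots which neither coincide nor commute. -/
structure Bad (ψ ψ' : Matrix κ κ F →ₐ[F] Matrix ι ι F) : Prop where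
  l : LA M ψ
  r : LA M ψ'
  ne : ¬ ∀ X, InE ψ (ψ' X)
  nc : ¬ ∀ X, InC ψ (ψ' X)

theorem Bad.not_NE (b : Bad M ψ ψ') {N : Matrix ι ι F} (h : Tv ψ N) {g : GL ι F}
    (e : (g : Matrix ι ι F) = 1 + N) : g ∉ NE ψ' := fun H =>
  (b.l.or_of_NE b.r h e H).elim b.ne b.nc

theorem Bad.not_maps (b : Bad M ψ ψ') {N : Matrix ι ι F} (h : Tv ψ N) {g : GL ι F} (hg : g ∈ M)
    (e : (g : Matrix ι ι F) = 1 + N) (hu : u' ≠ 0) :
    ¬ ∀ x ∈ WW ψ' u', (g : Matrix ι ι F) *ᵥ x ∈ WW ψ' u' := fun H => by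
  obtain ⟨φ, h1, h2, -⟩ := exists_perp_two b.l.h3 u' u'
  obtain ⟨η, h4, h5, h6⟩ := b.r.cj_of_maps hg hu H h1 h2
  exact b.not_NE h e (b.r.mem_NE_of_tv hg ⟨u', φ, hu, h1, h2, rfl⟩ ⟨u', η, hu, h4, h5, h6⟩)

section Two

variable (hF : Fintype.card F = 2)
include hF

theorem zero_or_one (c : F) : c = 0 ∨ c = 1 := by
  have := FiniteField.pow_card c
  rw [hF] at this
  exact (mul_eq_zero.1 (show c * (c - 1) = 0 by linear_combination this)).imp id sub_eq_zero.1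

theorem add_self {V : Type*} [AddCommGroup V] [Module F V] (x : V) : x + x = 0 := by
  have := FiniteField.cast_card_eq_zero F
  rw [hF, Nat.cast_ofNat] at this
  rw [← two_smul F, this, zero_smul]

theorem tri (h3 : Fintype.card κ = 3) (hu : u ≠ 0) {a b c : κ → F} (ha : a ⬝ᵥ u = 0)
    (hb : b ⬝ᵥ u = 0) (hc : c ⬝ᵥ u = 0) (a0 : a ≠ 0) (b0 : b ≠ 0) (c0 : c ≠ 0) (ab : a ≠ b)
    (ac : a ≠ c) (bc : b ≠ c) : c = a + b := by
  by_contra hn
  obtain ⟨ξ, hξ⟩ := exists_dot_one hu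
  have k : ∀ x y : κ → F, x + y = 0 → x = y := fun x y e => by
    rw [← add_zero x, ← add_self hF y, ← add_assoc, e, zero_add]
  have : LinearIndependent F ![a, b, c, ξ] := Fintype.linearIndependent_iff.2 fun g hg => by
    simp only [Fin.sum_univ_four, cons_val_zero, cons_val_one, cons_val] at hg
    have h4 : g 3 = 0 := by simpa [ha, hb, hc, hξ] using congrArg (· ⬝ᵥ u) hg
    have h5 : g 0 = 0 ∧ g 1 = 0 ∧ g 2 = 0 := by
      rcases zero_or_one hF (g 0) with i | i <;> rcases zero_or_one hF (g 1) with j | j <;>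
        rcases zero_or_one hF (g 2) with l | l <;>
        simp only [i, j, l, h4, zero_smul, one_smul, add_zero, zero_add] at hg
      exacts [⟨i, j, l⟩, absurd hg c0, absurd hg b0, absurd (k _ _ hg) bc, absurd hg a0,
        absurd (k _ _ hg) ac, absurd (k _ _ hg) ab, absurd (k _ _ hg).symm hn]
    intro i
    fin_cases i
    exacts [h5.1, h5.2.1, h5.2.2, h4]
  have := this.fintype_card_le_finrank
  simp [h3] at this

theorem eq_one_of_flag (h3 : Fintype.card κ = 3) {β : GL κ F} {φ : κ → F} (hu : u ≠ 0)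
    (hφ : φ ≠ 0) (e : φ ⬝ᵥ u = 0) (h : cj β (vecMulVec u φ) = vecMulVec u φ) (h7 : β ^ 7 = 1) :
    β = 1 := by
  rw [cj_eq_iff, mul_vecMulVec, vecMulVec_mul] at h
  have hi : ∀ x y, β.1 *ᵥ x = β.1 *ᵥ y → x = y := fun x y e => by
    simpa using congrArg (((β⁻¹ : GL κ F) : Matrix κ κ F) *ᵥ ·) e
  obtain ⟨w, hw⟩ := exists_dot_one hφ
  rw [dotProduct_comm] at hw
  have h1 : β.1 *ᵥ u = u := by
    have := congrArg (· *ᵥ w) h
    simp only [vecMulVec_mulVec, hw, op_smul_eq_smul, one_smul] at this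
    rcases zero_or_one hF ((φ ᵥ* β.1) ⬝ᵥ w) with i | i
    · exact absurd (hi u 0 (by simpa [i] using this)) hu
    · simpa [i] using this
  have h2 : φ ᵥ* β.1 = φ := by
    rw [h1, ← sub_eq_zero, ← vecMulVec_sub, vecMulVec_eq_zero, sub_eq_zero] at h
    exact (h.resolve_left hu).symm
  have h4 : ∀ x, φ ⬝ᵥ ((β.1 - 1) *ᵥ x) = 0 := fun x => by
    rw [dotProduct_mulVec, vecMul_sub, h2, vecMul_one, sub_self, zero_dotProduct]
  have h5 : ∀ x, φ ⬝ᵥ x = 0 → (β.1 - 1) *ᵥ ((β.1 - 1) *ᵥ x) = 0 := fun x hx => by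
    have k : (β.1 - 1) *ᵥ u = 0 := by rw [sub_mulVec, h1, one_mulVec, sub_self]
    by_cases i : x = 0
    · simp [i]
    by_cases j : u = x
    · rw [← j, k, mulVec_zero]
    by_cases l : x = β.1 *ᵥ x
    · rw [sub_mulVec _ _ x, ← l, one_mulVec, sub_self, mulVec_zero]
    rw [sub_mulVec _ _ x, tri hF h3 hφ (a := u) (b := x) (c := β.1 *ᵥ x) (by rwa [dotProduct_comm])
      (by rwa [dotProduct_comm]) (by rw [dotProduct_comm, dotProduct_mulVec, h2, hx]) hu i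
      (fun e => i (hi _ _ (by simpa using e))) j (fun e => j (hi _ _ (h1.trans e))) l, one_mulVec,
      add_sub_cancel_right, k]
  have h6 : (β.1 - 1) * (β.1 - 1) * (β.1 - 1) = 0 := Matrix.ext_iff_mulVec.2 fun x => by
    rw [← mulVec_mulVec, ← mulVec_mulVec, h5 _ (h4 x), zero_mulVec]
  have h8 : β ^ 4 = 1 := Units.ext (by
    have k := add_self hF (β.1 * β.1 * β.1 + β.1 * β.1 * β.1 + β.1 + β.1 - 3 * (β.1 * β.1) - 1)
    rw [Units.val_pow_eq_pow_val, Units.val_one, ← sub_eq_zero, ← k, ← zero_add (_ + _),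
      ← zero_mul (β.1 - 1), ← h6]
    noncomm_ring)
  calc β = (β ^ 4) ^ 2 * (β ^ 7)⁻¹ := by group
    _ = 1 := by simp [h7, h8]

theorem LA.homG_mem (a : LA M ψ) (b : GL κ F) : homG ψ b ∈ M :=
  gl_ker_det_le_of_transvection_mem (M.comap (homG ψ)) (fun i j hij c => by
    suffices e : SpecialLinearGroup.toGL (SpecialLinearGroup.transvection hij c) =
        tvG (Pi.single i 1) (Pi.single j c) (by simp [hij]) by
      rw [e]; exact a.tvG_mem _ _ _
    refine Units.ext ?_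
    change 1 + single i j c = 1 + vecMulVec _ _
    congr 1
    ext a b
    simp only [vecMulVec_apply, single_apply, Pi.single_apply, ite_and, eq_comm]
    split_ifs <;> simp)
    (det_eq_one_of_card_two (by simpa using hF) b)

theorem sq_eq_one {N : Matrix ι ι F} (h : Tv ψ N) {g : GL ι F}
    (e : (g : Matrix ι ι F) = 1 + N) : g * g = 1 := Units.ext (by
  rw [Units.val_mul, e, show (1 + N) * (1 + N) = 1 + (N + N) + N * N by noncomm_ring, add_self hF,
    h.sq, add_zero, add_zero, Units.val_one])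

/-- A transvection does not interchange two commuting slots. -/
theorem LA.not_swap {ψ ψ' : Matrix (Fin 3) (Fin 3) F →ₐ[F] Matrix ι ι F} (a : LA M ψ)
    (a' : LA M ψ') {N : Matrix ι ι F} (h : Tv ψ N) {g : GL ι F} (hg : g ∈ M)
    (e : (g : Matrix ι ι F) = 1 + N) : ¬ ∀ X, InC ψ' (cj g (ψ' X)) := fun H => by
  let s : Matrix (Fin 3) (Fin 3) F := !![0, 0, 1; 1, 0, 1; 0, 1, 0]
  have s3 : s * s * s = s + 1 := by
    ext i j
    fin_cases i <;> fin_cases j <;> simp [s]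
  have s4 : s * (s * s + 1) = 1 := by
    rw [mul_add, ← mul_assoc, s3, mul_one, add_right_comm, add_self hF, zero_add]
  let b : GL (Fin 3) F := ⟨s, s * s + 1, s4, mul_eq_one_comm.1 s4⟩
  have b7 : b ^ 7 = 1 := Units.ext (by
    change s ^ 7 = 1
    rw [show s ^ 7 = s * s * s * (s * s * s) * s by noncomm_ring, s3,
      show (s + 1) * (s + 1) * s = s * s * s + (s * s + s * s) + s by noncomm_ring, s3,
      add_self hF, add_zero, add_right_comm, add_self hF, zero_add])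
  have gg := sq_eq_one hF h e
  have gi : g⁻¹ = g := inv_eq_of_mul_eq_one_right gg
  set x := homG ψ' b with hx
  have hxM : x ∈ M := a'.homG_mem hF b
  have hc : Commute x (g * x * g⁻¹) := Units.ext (H s s).symm
  have hτ : g * (x * (g * x * g⁻¹)) = x * (g * x * g⁻¹) * g := by
    conv_rhs => rw [hc.eq]
    rw [gi]; simp only [mul_assoc]
  have hτM : x * (g * x * g⁻¹) ∈ M := mul_mem hxM (mul_mem (mul_mem hg hxM) (inv_mem hg))
  have hN : (x * (g * x * g⁻¹) : GL ι F) * N = N * (x * (g * x * g⁻¹) : GL ι F) := by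
    have := congrArg Units.val hτ
    rw [Units.val_mul, Units.val_mul _ g, e, add_mul, mul_add, one_mul, mul_one] at this
    exact (add_left_cancel this).symm
  obtain ⟨β, hβ⟩ := exists_cj_of_NE (a.mem_NE_of_comm hτM h hN)
  obtain ⟨u, φ, hu, hφ, e', rfl⟩ := h
  have hi := algHom_matrix_injective ψ
  have h7 : ∀ (n : ℕ) X, cj ((x * (g * x * g⁻¹)) ^ n) (ψ X) = ψ (cj (β ^ n) X) := fun n => by
    induction n with
    | zero => simp [cj_one]
    | succ n ih => intro X; rw [pow_succ, pow_succ, cj_mul (_ ^ n), cj_mul (_ ^ n), hβ, ih]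
  have β1 : β = 1 := eq_one_of_flag hF (by simp) hu hφ e' (hi (by rw [← hβ, cj_eq_of_comm hN])) (by
    obtain ⟨c, hc'⟩ := eq_smul_one_of_commute (x := ((β ^ 7 : GL (Fin 3) F) : Matrix (Fin 3) (Fin 3) F))
      fun X => (cj_eq_iff (β ^ 7) X X).1 (hi (by
        rw [← h7, hc.mul_pow, conj_pow, hx, ← map_pow, b7, map_one, one_mul, mul_one,
          mul_inv_cancel, cj_one]))
    rcases zero_or_one hF c with i | i
    · exact absurd (by simpa [i] using hc') (β ^ 7).ne_zero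
    · exact Units.ext (by simpa [i] using hc'))
  have hτC : InC ψ (ψ' s * cj g (ψ' s)) := fun Y =>
    (cj_eq_iff (x * (g * x * g⁻¹)) _ _).1 (by rw [hβ, β1, cj_one])
  have hρ : InC ψ (ψ' s + cj g (ψ' s)) := by
    have k : Commute (ψ' s) (cj g (ψ' s)) := (H s s).symm
    convert ((hτC.pow 3).add hτC).add inC_one using 1
    rw [k.mul_pow, ← map_pow (cj g), ← map_pow ψ', pow_three' s, s3, map_add, map_add, map_one,
      map_one, ← add_zero (_ + _), ← add_self hF (ψ' s * cj g (ψ' s) + 1)]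
    noncomm_ring
  obtain ⟨v, χ, h4, h5, h6⟩ := exists_flag (by simp) u φ
  have h8 : (ψ' s + cj g (ψ' s)) * ψ (vecMulVec v φ) =
      ψ (vecMulVec u φ) * (ψ' s * ψ (vecMulVec v φ)) := by
    rw [cj_apply, gi, add_mul, mul_assoc, e, add_mul 1 _ (ψ _), pvv, h4, zero_smul, add_zero,
      one_mul, add_mul, one_mul, add_mul, ← add_assoc, add_self hF, zero_add, mul_assoc]
  have h9 := congrArg (ψ (vecMulVec v χ) * ·) h8
  simp only [pvv', h5, zero_smul] at h9
  rw [← mul_assoc, ← hρ, mul_assoc, pvv, h6, one_smul] at h9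
  have h10 := eq_zero_of_mul_map hρ (vecMulVec_ne_zero (by rintro rfl; simp at h6) hφ) h9
  have h11 := H s (single 0 0 1)
  rw [← zero_add (cj g _), ← add_self hF (ψ' s), add_assoc, h10, add_zero, ← map_mul,
    ← map_mul] at h11
  simpa [s, Matrix.mul_apply, Fin.sum_univ_three, single_apply] using
    congrFun (congrFun (algHom_matrix_injective ψ' h11) 1) 0

theorem Bad.next {ψ ψ' : Matrix (Fin 3) (Fin 3) F →ₐ[F] Matrix ι ι F} (b : Bad M ψ ψ')
    {N : Matrix ι ι F} (h : Tv ψ N) {g : GL ι F} (hg : g ∈ M) (e : (g : Matrix ι ι F) = 1 + N) :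
    Bad M ψ' (cjH g ψ') :=
  ⟨b.r, b.r.conj hg, fun H => b.not_NE h e (mem_NE H), b.l.not_swap hF b.r h hg e⟩

end Two

end Cfsg.Agent.Cl.Max.SLW
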