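import Mathlib
import Cfsg.Agent.Cl.SLWrC
import Cfsg.Agent.Cl.MaxSUWrD
import Cfsg.Agent.Cl.MaxSLTenA

/-!
# Maximality of the stabiliser of a tensor power in the special linear group
-/

set_option autoImplicit false
set_option linter.unusedSectionVars false
set_option linter.unusedVariables false

namespace Cfsg.Agent.Cl.Max.SLW

open Matrix Cfsg.Geo Module

variable {F : Type*} [Field F] [Fintype F]
  {ι : Type} [Fintype ι] [DecidableEq ι] [Nonempty ι] {M : Subgroup (GL ι F)}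
  {ψ ψ' : Matrix (Fin 3) (Fin 3) F →ₐ[F] Matrix ι ι F} {u u' φ : Fin 3 → F}

variable (M) in
/-- A bad pair with largest intersection. -/
structure MP (ψ ψ' : Matrix (Fin 3) (Fin 3) F →ₐ[F] Matrix ι ι F) (u u' : Fin 3 → F) : Prop where
  bad : Bad M ψ ψ'
  l : u ≠ 0
  r : u' ≠ 0
  mx : ∀ (ψ₁ ψ₂ : Matrix (Fin 3) (Fin 3) F →ₐ[F] Matrix ι ι F) (v v' : Fin 3 → F),
    Bad M ψ₁ ψ₂ → v ≠ 0 → v' ≠ 0 → finrank F (WW ψ₁ v ⊓ WW ψ₂ v' : Submodule F (ι → F)) ≤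
      finrank F (WW ψ u ⊓ WW ψ' u' : Submodule F (ι → F))

/-- The elements acting trivially modulo `E`. -/
def triv (M : Subgroup (GL ι F)) (E : Submodule F (ι → F)) : Subgroup (GL ι F) where
  carrier := {g | g ∈ M ∧ ∀ x, (g : Matrix ι ι F) *ᵥ x - x ∈ E}
  mul_mem' {g k} hg hk := ⟨M.mul_mem hg.1 hk.1, fun x => by
    simpa using E.add_mem (hg.2 ((k : Matrix ι ι F) *ᵥ x)) (hk.2 x)⟩
  one_mem' := ⟨M.one_mem, by simp⟩
  inv_mem' {g} hg := ⟨M.inv_mem hg.1, fun x => by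
    simpa using E.neg_mem (hg.2 (((g⁻¹ : GL ι F) : Matrix ι ι F) *ᵥ x))⟩

theorem exists_swap {G : Type*} [Group G] [Finite G] {L : Subgroup G} {a b : G} (ha : a ∈ L)
    (hb : b ∈ L) (a2 : a * a = 1) (b2 : b * b = 1)
    (h : ∀ z ∈ L, z * a = a * z → z * b = b * z → z = 1) :
    ∃ s ∈ L, s * s = 1 ∧ s * a = b * s := by
  have ai : a⁻¹ = a := inv_eq_of_mul_eq_one_right a2
  have bi : b⁻¹ = b := inv_eq_of_mul_eq_one_right b2
  have k : ∀ j : ℕ, a * (a * b) ^ j * a⁻¹ = ((a * b) ^ j)⁻¹ := fun j => by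
    rw [← conj_pow, ← inv_pow, _root_.mul_inv_rev, ai, bi, ← mul_assoc, a2, one_mul]
  have k' : ∀ j : ℕ, b * (a * b) ^ j * b⁻¹ = ((a * b) ^ j)⁻¹ := fun j => by
    rw [← conj_pow, ← inv_pow, _root_.mul_inv_rev, ai, bi, mul_assoc, mul_assoc, b2, mul_one]
  have h0 := orderOf_pos (a * b)
  have h1 := pow_orderOf_eq_one (a * b)
  obtain ⟨j, hj | hj⟩ := Nat.even_or_odd' (orderOf (a * b))
  · rw [hj, two_mul, pow_add] at h1
    have h2 := inv_eq_of_mul_eq_one_right h1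
    refine absurd (h _ (L.pow_mem (L.mul_mem ha hb) j) ?_ ?_)
      (pow_ne_one_of_lt_orderOf (by omega) (by omega))
    · rw [← mul_inv_eq_iff_eq_mul.1 ((k j).trans h2)]
    · rw [← mul_inv_eq_iff_eq_mul.1 ((k' j).trans h2)]
  · rw [hj, two_mul, pow_succ', pow_add] at h1
    have h2 := mul_inv_eq_iff_eq_mul.1 (k j)
    refine ⟨(a * b) ^ j * a, L.mul_mem (L.pow_mem (L.mul_mem ha hb) j) ha, ?_, ?_⟩
    · rw [mul_assoc, ← mul_assoc a, h2, mul_assoc, a2, mul_one, mul_inv_cancel]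
    · have h4 := mul_inv_eq_iff_eq_mul.1 (k' j)
      rw [mul_assoc, a2, mul_one, ← mul_assoc, h4, mul_assoc, eq_inv_mul_iff_mul_eq,
        eq_inv_of_mul_eq_one_right h1, _root_.mul_inv_rev, ai, bi]

namespace MP

variable (hF : Fintype.card F = 2) (m : MP M ψ ψ' u u')
include hF m

theorem mem_of (hφ : φ ≠ 0) (e : φ ⬝ᵥ u = 0) {y : ι → F} (hy : y ∈ WW ψ' u')
    (h : ψ (vecMulVec u φ) *ᵥ y ∈ WW ψ' u') : y ∈ WW ψ u := by
  obtain ⟨g, hg, eg⟩ := m.bad.l.tv u φ e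
  have h1 : WW ψ u ⊓ WW ψ' u' = WW ψ' u' ⊓ WW (cjH g ψ') u' :=
    Submodule.eq_of_le_of_finrank_le (fun x hx => ⟨hx.2, by
      have := mem_WW_cjH g hx.2
      rwa [eg, add_mulVec, hx.1 u φ e, one_mulVec, add_zero] at this⟩)
      (m.mx _ _ _ _ (m.bad.next hF ⟨u, φ, m.l, hφ, e, rfl⟩ hg eg) m.r m.r)
  have h2 := mem_WW_cjH g hy
  rw [eg, add_mulVec, one_mulVec] at h2
  have h4 : y + ψ (vecMulVec u φ) *ᵥ y ∈ WW ψ u ⊓ WW ψ' u' := h1 ▸ ⟨add_mem hy h, h2⟩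
  simpa using sub_mem h4.1 (mem_WW φ y)

theorem eq_one (hφ : φ ≠ 0) (e : φ ⬝ᵥ u = 0) {h : GL ι F}
    (hL : h ∈ triv M (WW ψ u ⊔ WW ψ' u'))
    (hW : ∀ x ∈ WW ψ' u', (h : Matrix ι ι F) *ᵥ x ∈ WW ψ' u')
    (hc : (h : Matrix ι ι F) * ψ (vecMulVec u φ) = ψ (vecMulVec u φ) * h) : h = 1 := by
  have hc' : ∀ x, ψ (vecMulVec u φ) *ᵥ (h.1 *ᵥ x - x) =
      h.1 *ᵥ (ψ (vecMulVec u φ) *ᵥ x) - ψ (vecMulVec u φ) *ᵥ x := fun x => by
    rw [mulVec_sub, mulVec_mulVec, mulVec_mulVec, hc]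
  have k0 : ∀ x, ψ (vecMulVec u φ) *ᵥ (h.1 *ᵥ x - x) = 0 → h.1 *ᵥ x - x ∈ WW ψ u := fun x hx => by
    obtain ⟨w, hw, y, hy, e'⟩ := Submodule.mem_sup.1 (hL.2 x)
    rw [← e', mulVec_add, hw u φ e, zero_add] at hx
    exact e' ▸ add_mem hw (m.mem_of hF hφ e hy (hx ▸ zero_mem _))
  obtain ⟨ξ, hξ⟩ := exists_dot_one m.l
  obtain ⟨v, χ, h1, h2, h4⟩ := exists_flag (by simp) u φ
  obtain ⟨η, -, h5, h6⟩ := m.bad.l.cj_of_maps (inv_mem hL.1) m.l
    (inv_maps (maps_of_comm m.l hφ hc)) (χ := χ) (by rintro rfl; simp at h4) h2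
  have h7 : ∀ w ∈ WW ψ u, (η ⬝ᵥ v) • h.1 *ᵥ w = w := fun w hw => by
    have := k0 (ψ (vecMulVec v ξ) *ᵥ w) (by rw [hc', pvx, h1]; simp) u χ h2
    rwa [mulVec_sub, ← cj_cj_inv h (ψ _), cj_mulVec, cj_cj_inv, h6, pvx, pvx, h4, one_smul,
      eq_of_WW hξ hw, mulVec_smul, sub_eq_zero] at this
  have h8 : ∀ w ∈ WW ψ u, h.1 *ᵥ w = w := by
    rcases zero_or_one hF (η ⬝ᵥ v) with i | i
    · obtain ⟨w, hw, h0⟩ := exists_ne_zero_WW (ψ := ψ) (by simp) m.l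
      exact absurd (by simpa [i] using (h7 w hw).symm) h0
    · simpa [i] using h7
  obtain ⟨θ, h9, h10⟩ := m.bad.l.eq_of_left m.l hφ e (Z := h.1 - 1) ⟨h, hL.1, by simp⟩
    (fun x => by
      rw [sub_mulVec, one_mulVec]
      exact exists_of_WW m.l hφ (k0 x (by rw [hc', h8 _ (mem_WW _ _), sub_self])))
    (Matrix.ext_iff_mulVec.2 fun x => by
      rw [← mulVec_mulVec, sub_mulVec, h8 _ (mem_WW _ _), one_mulVec, sub_self, zero_mulVec])
  by_cases h0 : θ = 0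
  · exact Units.ext (by simpa [h0, sub_eq_zero] using h10)
  · exact absurd hW (m.bad.not_maps ⟨u, θ, m.l, h0, h9, rfl⟩ hL.1 (by rw [← h10]; simp) m.r)

theorem swap (hφ : φ ≠ 0) (e : φ ⬝ᵥ u = 0) {φ' : Fin 3 → F} (hφ' : φ' ≠ 0) (e' : φ' ⬝ᵥ u' = 0) :
    ∃ s ∈ triv M (WW ψ u ⊔ WW ψ' u'), s * s = 1 ∧
      (s : Matrix ι ι F) * ψ (vecMulVec u φ) = ψ' (vecMulVec u' φ') * s := by
  obtain ⟨a, ha, ea⟩ := m.bad.l.tv u φ e
  obtain ⟨b, hb, eb⟩ := m.bad.r.tv u' φ' e'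
  have k : ∀ {z g k : GL ι F} {N N' : Matrix ι ι F}, g.1 = 1 + N → k.1 = 1 + N' → z * g = k * z →
      z.1 * N = N' * z := fun i j l => by
    have := congrArg Units.val l
    rw [Units.val_mul, Units.val_mul, i, j, mul_add, add_mul, mul_one, one_mul] at this
    exact add_left_cancel this
  obtain ⟨s, h1, h2, h4⟩ := exists_swap (L := triv M (WW ψ u ⊔ WW ψ' u')) (a := a) (b := b)
    ⟨ha, fun x => by simpa [ea, add_mulVec] using Submodule.mem_sup_left (mem_WW φ x)⟩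
    ⟨hb, fun x => by simpa [eb, add_mulVec] using Submodule.mem_sup_right (mem_WW φ' x)⟩
    (sq_eq_one hF ⟨u, φ, m.l, hφ, e, rfl⟩ ea) (sq_eq_one hF ⟨u', φ', m.r, hφ', e', rfl⟩ eb)
    fun z hz i j => m.eq_one hF hφ e hz (maps_of_comm m.r hφ' (k eb eb j)) (k ea ea i)
  exact ⟨s, h1, h2, k ea eb h4⟩

theorem exists_rot (hφ : φ ≠ 0) (e : φ ⬝ᵥ u = 0) : ∃ χ, χ ≠ 0 ∧ χ ≠ φ ∧ χ ⬝ᵥ u = 0 ∧
    ∃ h : Matrix ι ι F, (∀ w ∈ WW ψ u, ∃ y ∈ WW ψ' u', ψ (vecMulVec u φ) *ᵥ y = w ∧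
      ψ (vecMulVec u χ) *ᵥ y = h *ᵥ w) ∧ ∀ w ∈ WW ψ u, ∃ y ∈ WW ψ' u',
        ψ (vecMulVec u φ) *ᵥ y = h *ᵥ w ∧ ψ (vecMulVec u χ) *ᵥ y = w + h *ᵥ w := by
  obtain ⟨φ', h1, h2, -⟩ := exists_perp_two (by simp) u' u'
  obtain ⟨v, φ'', h3, h4, h5⟩ := exists_flag (by simp) u' φ'
  have h6 : φ'' ≠ 0 := by rintro rfl; simp at h5
  obtain ⟨s, s1, s2, s3⟩ := m.swap hF hφ e h1 h2
  obtain ⟨t, t1, t2, t3⟩ := m.swap hF hφ e h6 h4
  have k : ∀ {s : GL ι F} {N N' : Matrix ι ι F}, s * s = 1 → s.1 * N = N' * s →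
      s.1 * N' = N * s := fun {s N N'} i j => by
    have i' : s.1 * s.1 = 1 := congrArg Units.val i
    rw [← mul_one (s.1 * N'), ← i', ← mul_assoc, mul_assoc _ N', ← j, ← mul_assoc, i', one_mul]
  have hL := mul_mem t1 s1
  have hW : ∀ x ∈ WW ψ u, (t * s).1 *ᵥ x ∈ WW ψ u := fun x hx => by
    rw [Units.val_mul, ← mulVec_mulVec]
    exact maps_of_comm m.r h6 (k t2 t3) _ (maps_of_comm m.l hφ s3 x hx)
  have hW' : ∀ x ∈ WW ψ' u', (t * s).1 *ᵥ x ∈ WW ψ' u' := fun x hx => by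
    rw [Units.val_mul, ← mulVec_mulVec]
    exact maps_of_comm m.l hφ t3 _ (maps_of_comm m.r h1 (k s2 s3) x hx)
  have hn : ∀ θ, θ ≠ 0 → θ ⬝ᵥ u = 0 → cj (t * s)⁻¹ (ψ (vecMulVec u θ)) ≠ ψ (vecMulVec u θ) :=
    fun θ i j l => by
      have := m.eq_one hF i j (inv_mem hL) (inv_maps hW') ((cj_eq_iff _ _ _).1 l)
      rw [inv_eq_one, ← s2, mul_left_inj] at this
      rw [this, s3, Units.mul_left_inj, (algHom_matrix_injective ψ').eq_iff] at t3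
      simpa [vecMulVec_mulVec, h3, h5, m.r.symm] using congrArg (· *ᵥ v) t3
  obtain ⟨χ, c0, c1, c2⟩ := m.bad.l.cj_of_maps (inv_mem hL.1) m.l (inv_maps hW) hφ e
  obtain ⟨θ, d0, d1, d2⟩ := m.bad.l.cj_of_maps (inv_mem hL.1) m.l (inv_maps hW) c0 c1
  have c3 : χ ≠ φ := fun i => hn φ hφ e (by rw [c2, i])
  have c4 : φ + χ ≠ 0 := fun i => c3 (by
    rw [← zero_add χ, ← add_self hF φ, add_assoc, i, add_zero])
  obtain rfl : θ = φ + χ := tri hF (by simp) m.l e c1 d1 hφ c0 d0 c3.symm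
    (fun i => hn _ c4 (by simp [e, c1]) (by
      rw [vecMulVec_add, map_add, map_add, c2, d2, ← i, add_comm]))
    fun i => hn χ c0 c1 (by rw [d2, ← i])
  obtain ⟨ξ, hξ⟩ := exists_dot_one m.l
  have key : ∀ x, ∃ y ∈ WW ψ' u', ψ (vecMulVec u φ) *ᵥ y =
      (t * s).1 *ᵥ (ψ (vecMulVec u χ) *ᵥ x) - ψ (vecMulVec u φ) *ᵥ x ∧ ψ (vecMulVec u χ) *ᵥ y =
      (t * s).1 *ᵥ (ψ (vecMulVec u φ) *ᵥ x + ψ (vecMulVec u χ) *ᵥ x) - ψ (vecMulVec u χ) *ᵥ x :=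
    fun x => by
      obtain ⟨w, hw, y, hy, e'⟩ := Submodule.mem_sup.1 (hL.2 x)
      refine ⟨y, hy, ?_, ?_⟩
      · rw [← c2, ← cj_mulVec, cj_cj_inv, ← mulVec_sub, ← e', mulVec_add, hw u φ e, zero_add]
      · rw [← add_mulVec, ← map_add, ← vecMulVec_add, ← d2, ← cj_mulVec, cj_cj_inv, ← mulVec_sub,
          ← e', mulVec_add, hw u χ c1, zero_add]
  have ng : ∀ w : ι → F, -w = w := fun w => neg_eq_of_add_eq_zero_right (add_self hF w)
  have nd : ∀ {a b : Fin 3 → F}, a ≠ 0 → a ≠ b → ∃ z, b ⬝ᵥ z = 0 ∧ a ⬝ᵥ z = 1 := fun {a b} i j => by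
    obtain ⟨z, hz⟩ := exists_dot_pair (u := a) (v := b) fun c hc => by
      rcases zero_or_one hF c with l | l
      · exact i (by simpa [l] using hc)
      · exact j (by simpa [l] using hc)
    exact ⟨z, by rw [dotProduct_comm, hz.1], by rw [dotProduct_comm, hz.2]⟩
  refine ⟨χ, c0, c3, c1, (t * s).1, fun w hw => ?_, fun w hw => ?_⟩
  · obtain ⟨z, z1, z2⟩ := nd hφ c3.symm
    simpa only [pvx, z1, z2, zero_smul, one_smul, eq_of_WW hξ hw, mulVec_zero, zero_sub, ng,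
      add_zero, sub_zero] using key (ψ (vecMulVec z ξ) *ᵥ w)
  · obtain ⟨z, z1, z2⟩ := nd c0 c3
    simpa only [pvx, z1, z2, zero_smul, one_smul, eq_of_WW hξ hw, zero_add, sub_eq_neg_add, ng]
      using key (ψ (vecMulVec z ξ) *ᵥ w)

theorem inj (hφ : φ ≠ 0) (e : φ ⬝ᵥ u = 0) {y : ι → F} (hy : y ∈ WW ψ' u')
    (h : ψ (vecMulVec u φ) *ᵥ y = 0) : y = 0 := by
  obtain ⟨χ, -, -, -, h', h1, -⟩ := m.exists_rot hF hφ e
  let f := (ψ (vecMulVec u φ)).mulVecLin.domRestrict (WW ψ' u')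
  have h2 := Submodule.finrank_mono (show WW ψ u ≤ LinearMap.range f from fun w hw => by
    obtain ⟨y, hy, i, -⟩ := h1 w hw
    exact ⟨⟨y, hy⟩, i⟩)
  have h4 := f.finrank_range_add_finrank_ker
  rw [finrank_WW (by simp) m.r 0, slotM_eq ψ' ψ] at h4
  rw [finrank_WW (by simp) m.l 0] at h2
  have h5 : LinearMap.ker f = ⊥ := Submodule.finrank_eq_zero.1 (by omega)
  exact congrArg Subtype.val (LinearMap.ker_eq_bot'.1 h5 ⟨y, hy⟩ h)

theorem cub (hφ : φ ≠ 0) (e : φ ⬝ᵥ u = 0) {θ : Fin 3 → F} (h0 : θ ≠ 0) (h1 : θ ≠ φ)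
    (e' : θ ⬝ᵥ u = 0) {y : ι → F} (hy : y ∈ WW ψ' u') : ∃ z ∈ WW ψ' u',
      ψ (vecMulVec u φ) *ᵥ z = ψ (vecMulVec u θ) *ᵥ y ∧
      ψ (vecMulVec u θ) *ᵥ z = ψ (vecMulVec u φ) *ᵥ (y + z) := by
  obtain ⟨χ, c0, c1, c2, h, h2, h4⟩ := m.exists_rot hF hφ e
  obtain ⟨y', i, j, l⟩ := h2 _ (mem_WW φ y)
  obtain rfl : y' = y := sub_eq_zero.1 (m.inj hF hφ e (sub_mem i hy) (by
    rw [mulVec_sub, j, sub_self]))
  obtain ⟨z, z1, z2, z3⟩ := h4 _ (mem_WW φ y')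
  by_cases h5 : χ = θ
  · exact ⟨z, z1, by rw [z2, ← h5, l], by rw [← h5, z3, mulVec_add, z2]⟩
  obtain rfl := tri hF (by simp) m.l e c2 e' hφ c0 h0 c1.symm h1.symm h5
  refine ⟨y' + z, add_mem hy z1, ?_, ?_⟩
  · rw [vecMulVec_add, map_add, add_mulVec, mulVec_add, z2, l]
  · simp only [vecMulVec_add, map_add, add_mulVec, mulVec_add, z2, z3, l]
    rw [← sub_eq_zero, ← add_self hF (h *ᵥ (ψ (vecMulVec u φ) *ᵥ y'))]
    abel

end MP

theorem not_bad (hF : Fintype.card F = 2) : ¬ Bad M ψ ψ' := fun b => by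
  obtain ⟨ψ, ψ', u, u', m⟩ : ∃ (ψ ψ' : Matrix (Fin 3) (Fin 3) F →ₐ[F] Matrix ι ι F)
      (u u' : Fin 3 → F), MP M ψ ψ' u u' := by
    let S : Set ℕ := {d | ∃ (ψ ψ' : Matrix (Fin 3) (Fin 3) F →ₐ[F] Matrix ι ι F)
      (u u' : Fin 3 → F), Bad M ψ ψ' ∧ u ≠ 0 ∧ u' ≠ 0 ∧
        finrank F (WW ψ u ⊓ WW ψ' u' : Submodule F (ι → F)) = d}
    have hb : BddAbove S := ⟨finrank F (ι → F), by
      rintro _ ⟨_, _, _, _, -, -, -, rfl⟩; exact Submodule.finrank_le _⟩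
    obtain ⟨ψ, ψ', u, u', h1, h2, h4, h5⟩ := Nat.sSup_mem (s := S)
      ⟨_, ψ, ψ', 1, 1, b, one_ne_zero, one_ne_zero, rfl⟩ hb
    exact ⟨ψ, ψ', u, u', h1, h2, h4, fun _ _ _ _ i j k => h5 ▸ le_csSup hb ⟨_, _, _, _, i, j, k, rfl⟩⟩
  have h0 : WW ψ u ⊓ WW ψ' u' = ⊥ := (Submodule.eq_bot_iff _).2 fun x hx => by
    obtain ⟨φ, h1, h2, -⟩ := exists_perp_two (by simp) u u
    exact m.inj hF h1 h2 hx.2 (hx.1 u φ h2)
  have mp : ∀ v, v ≠ 0 → MP M ψ ψ' v u' := fun v hv => ⟨m.bad, hv, m.r, fun _ _ _ _ i j k => by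
    have := m.mx _ _ _ _ i j k
    rw [h0, finrank_bot] at this
    omega⟩
  let T : (Fin 3 → F) → (ι → F) → ι → F := fun φ y => ψ (vecMulVec u φ) *ᵥ y
  have tr : ∀ {v φ θ : Fin 3 → F} {y z : ι → F}, v ≠ 0 →
      ψ (vecMulVec v φ) *ᵥ y = ψ (vecMulVec v θ) *ᵥ z → T φ y = T θ z := fun hv h => by
    obtain ⟨ξ, hξ⟩ := exists_dot_one hv
    simpa only [pvx, hξ, one_smul] using congrArg (ψ (vecMulVec u ξ) *ᵥ ·) h
  let φ : Fin 3 → F := ![1, 0, 0]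
  have hφ : φ ≠ 0 := by simp [φ]
  have ij : ∀ y z : WW ψ' u', T φ y = T φ z → y = z := fun y z h => by
    obtain ⟨v, h1, h2, -⟩ := exists_perp_two (by simp) φ φ
    obtain ⟨ξ, hξ⟩ := exists_dot_one m.l
    refine Subtype.ext (sub_eq_zero.1 ((mp v h1).inj hF hφ (by rwa [dotProduct_comm])
      (sub_mem y.2 z.2) ?_))
    rw [mulVec_sub, sub_eq_zero]
    simpa only [T, pvx, hξ, one_smul] using congrArg (ψ (vecMulVec v ξ) *ᵥ ·) h
  have key : ∀ θ : Fin 3 → F, θ ≠ 0 → θ ≠ φ → ∃ f : WW ψ' u' → WW ψ' u', ∀ y,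
      T φ (f y) = T θ y ∧ T θ (f y) = T φ (y + f y : WW ψ' u') := fun θ i j => by
    obtain ⟨v, h1, h2, h4⟩ := exists_perp_two (by simp) φ θ
    rw [dotProduct_comm] at h2 h4
    choose f f1 f2 f3 using fun y : WW ψ' u' => (mp v h1).cub hF hφ h2 i j h4 y.2
    exact ⟨fun y => ⟨f y, f1 y⟩, fun y => ⟨tr h1 (f2 y), tr h1 (f3 y)⟩⟩
  obtain ⟨f, hf⟩ := key ![0, 1, 0] (by simp) (by simp [φ])
  obtain ⟨g, hg⟩ := key ![0, 0, 1] (by simp) (by simp [φ])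
  obtain ⟨s, hs⟩ := key (![0, 1, 0] + ![0, 0, 1]) (by simp) (by simp [φ])
  have a1 : ∀ θ (y z : WW ψ' u'), T θ (y + z : WW ψ' u') = T θ y + T θ z := fun θ y z =>
    mulVec_add _ _ _
  have a2 : ∀ θ η y, T (θ + η) y = T θ y + T η y := fun θ η y => by
    simp only [T, vecMulVec_add, map_add, add_mulVec]
  have fa : ∀ y z, f (y + z) = f y + f z := fun y z => ij _ _ (by simp only [a1, (hf _).1])
  have ga : ∀ y z, g (y + z) = g y + g z := fun y z => ij _ _ (by simp only [a1, (hg _).1])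
  have ff : ∀ y, f (f y) = y + f y := fun y => ij _ _ (by rw [(hf _).1, (hf _).2])
  have sa : ∀ y, s y = f y + g y := fun y => ij _ _ (by rw [a1, (hf _).1, (hg _).1, (hs _).1, a2])
  have fg : ∀ y, f (g y) + g (f y) = y := fun y => ij _ _ (by
    have := (hs y).2
    simp only [sa, a1, a2, (hf y).2, (hg y).2] at this
    rw [a1, (hf _).1, (hg _).1]
    linear_combination this - add_self hF (T φ y))
  obtain ⟨y, hy, h1⟩ := exists_ne_zero_WW (ψ := ψ') (by simp) m.r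
  have e1 := fg (f ⟨y, hy⟩)
  have e2 := congrArg f (fg ⟨y, hy⟩)
  rw [ff, ga] at e1
  rw [fa, ff, add_comm] at e2
  replace e2 := add_left_cancel (add_left_cancel (e2.trans e1.symm))
  have e3 := fg ⟨y, hy⟩
  rw [e2, add_self hF] at e3
  exact h1 (congrArg Subtype.val e3).symm

theorem LA.good {m : ℕ} {ψ : Matrix (Fin m) (Fin m) F →ₐ[F] Matrix ι ι F} (a : LA M ψ)
    {g : GL ι F} (hg : g ∈ M) : Good ψ g := by
  have h3 : 3 ≤ m := by simpa using a.h3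
  have h2 : 1 < Fintype.card F := Fintype.one_lt_card
  by_cases h : m = 3 ∧ Fintype.card F = 2
  · obtain ⟨rfl, hF⟩ := h
    by_contra hn
    exact not_bad hF ⟨a, a.conj hg, fun H => hn (.inl (mem_NE H)), fun H => hn (.inr H)⟩
  refine a.good_of_large ?_ hg
  obtain ⟨k, rfl⟩ := Nat.exists_eq_add_of_le' h3
  obtain ⟨q, hq⟩ := Nat.exists_eq_add_of_lt h2
  rw [Fintype.card_fin, hq, show 1 + q + 1 - 1 = q + 1 by omega, show k + 3 - 1 = k + 2 by omega]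
  rcases Nat.eq_zero_or_pos q with rfl | h4
  · omega
  · nlinarith

end Cfsg.Agent.Cl.Max.SLW

namespace Cfsg.Agent.Cl.MSL

open Matrix Cfsg.Geo Cfsg.Agent.Cl.Max Cfsg.Agent.Cl.Max.SLW in
theorem isMaximalIn_wreath {F : Type*} {ι : Type} [Field F] [Fintype ι] [DecidableEq ι]
    [Fintype F] {m t : ℕ} (hm : 3 ≤ m) (ht : 2 ≤ t) (e : ι ≃ (Fin t → Fin m)) (P : GL ι F) :
    IsMaximalIn (specialLinear ι F) (tensorWreathSubgroup m t e P ⊓ specialLinear ι F) := by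
  have hc : Fintype.card ι = m ^ t := by simpa using Fintype.card_congr e
  have h9 : 9 ≤ Fintype.card ι :=
    hc ▸ le_trans (by nlinarith) (Nat.pow_le_pow_right (by omega) ht)
  have : Nonempty ι := Fintype.card_pos_iff.1 (by omega)
  have h3 : 3 ≤ Fintype.card (Fin m) := by simpa using hm
  obtain ⟨a, ha⟩ := Mx.exists_notMem_scalars (ι := Fin m) (F := F) (by omega)
  refine isMaximalIn_inf ((Mx.qs_sl (by omega)).not_le_wreath ht e P ⟨0, by omega⟩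
    (Mx.conj_mem_sl _) ha) fun M h1 h2 h4 => ?_
  have hP : ∀ π, Equiv.Perm.sign π = 1 → permS e P π ∈ M := fun π hπ =>
    h1 ⟨permS_mem_wreath e P π, permS_mem_specialLinear e P hπ⟩
  have hT : ∀ s u φ, φ ⬝ᵥ u = 0 → In M (psiS e P s (vecMulVec u φ)) := fun s u φ h =>
    ⟨_, h1 ⟨homG_psiS_mem_wreath e P s (tvG u φ h), Units.ext (by
      rw [GeneralLinearGroup.val_det_apply, coe_homG_tvG, Units.val_one]
      have := det_one_add_of_sq (toLin' (psiS e P s (vecMulVec u φ))) fun x => by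
        rw [toLin'_apply, toLin'_apply, pvx, h, zero_smul]
      rwa [← toLin'_one, ← map_add, LinearMap.det_toLin'] at this)⟩, coe_homG_tvG u φ h⟩
  have hC : ∀ s s', s ≠ s' → ∀ X, Max.InC (psiS e P s) (psiS e P s' X) := fun s s' h X Y =>
    psiS_commute e P h.symm X Y
  refine le_wreath_of_good (by omega) ht (.inr hP) fun i g hg => LA.good (la_of h3 hC
    (fun c h => ?_) hT (fun i j k hij hik hjk => ⟨_, hP (Equiv.swap i k * Equiv.swap j k) (by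
      rw [map_mul, Equiv.Perm.sign_swap hik, Equiv.Perm.sign_swap hjk]; simp), fun X => by
        rw [cj_permS_psiS]; simp [Equiv.swap_apply_of_ne_of_ne hij hik], fun X => by
        rw [cj_permS_psiS]; simp⟩) (fun H => h4 ?_) i) hg
  · obtain ⟨r, hr⟩ := scalar_of_commute_slots (M := (tr e P).symm c) fun s X =>
      (tr e P).injective (by simp only [map_mul, AlgEquiv.apply_symm_apply]; exact h s X)
    exact ⟨r, by rw [← (tr e P).apply_symm_apply c, hr, map_smul, map_one]⟩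
  have key : ∀ i Y a b, coef (psiS e P i) a b (tr e P Y) ∈ cfAlg h3 (hT i) := fun i => by
    refine slot_induction (by simp) (fun a b => ?_) (fun x y hx hy a b => ?_)
      (fun c x hx a b => ?_) fun s Z Y hY a b => ?_
    · rw [map_one, coef_one]; split_ifs <;> simp
    · rw [map_add, map_add]; exact add_mem (hx a b) (hy a b)
    · rw [map_smul, map_smul]; exact Subalgebra.smul_mem _ (hx a b) c
    · rw [map_mul, ← psiS_apply]
      by_cases hs : s = i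
      · subst hs
        rw [coef_map_mul]
        exact Subalgebra.sum_mem _ fun d _ => Subalgebra.smul_mem _ (hY d b) _
      · rw [coef_mul_inC (hC i s (Ne.symm hs) Z)]
        exact mul_mem (H i s hs Z) (hY a b)
  intro g hg
  rw [← (trG e P).apply_symm_apply g]
  refine gl_ker_det_le_of_transvection_mem (M.comap (trG e P).toMonoidHom) (fun x y hxy c => ?_)
    (x := (trG e P).symm g) (Units.ext ?_)
  · obtain ⟨i, hi⟩ := Function.ne_iff.1 hxy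
    obtain ⟨k, hk, ek⟩ := (key i (single x y c) (x i) (y i)).2 (Pi.single (x i) 1)
      (Pi.single (y i) 1) (by simp [hi])
    suffices trG e P (SpecialLinearGroup.toGL (SpecialLinearGroup.transvection hxy c)) = k by
      rw [← this] at hk; exact hk
    refine Units.ext ?_
    rw [ek, ← single_eq_single_vecMulVec_single, coef_mul_single, psiS_apply, psiS_apply,
      ← map_mul, ← map_mul, ← map_one (tr e P), ← map_add, coe_trG]
    congr 1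
    change 1 + single x y c = _
    rw [← mul_one c, ← smul_eq_mul, ← smul_single, ← pureT_single, mul_smul_comm, smul_mul_assoc,
      slot_mul_pureT, pureT_mul_slot]
    simp
  · rw [GeneralLinearGroup.val_det_apply, ← det_tr e P, ← coe_trG, MulEquiv.apply_symm_apply]
    exact congrArg Units.val hg

end Cfsg.Agent.Cl.MSL
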