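/-
Subgroups of `Sp₄(2ⁿ)` containing transvections, I: closure rules for the set of centres and the
case of two transvections with the same centre.
-/
import Mathlib
import Cfsg.Agent.Cl.MaxSpX
import Cfsg.Agent.Cl.SpMat
import Cfsg.Agent.Cl.PSL2Dickson
import Cfsg.Agent.GT.QuadSL2

set_option autoImplicit false
set_option linter.unusedSectionVars false
set_option linter.unusedVariables false

namespace Cfsg.Agent.Cl.Sp4E

open Matrix Module Cfsg.Agent.Cl Cfsg.Agent.GT Cfsg.Agent.Cl.MaxSp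
open scoped MatrixGroups

/-- Two involutions with no involution commuting with both are swapped by an involution. -/
theorem exists_swap {G : Type*} [Group G] [Finite G] {α β : G} (ha : α * α = 1) (hb : β * β = 1)
    (hz : ∀ z, z * z = 1 → z * α = α * z → z * β = β * z → z = 1) {H : Subgroup G} (hα : α ∈ H)
    (hβ : β ∈ H) : ∃ γ ∈ H, γ * γ = 1 ∧ γ * β = α * γ := by
  set x := α * β with hx
  have hai : α⁻¹ = α := inv_eq_of_mul_eq_one_right ha
  have hβx : β = α * x := by rw [hx, ← mul_assoc, ha, one_mul]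
  have h1 : α * x * α⁻¹ = x⁻¹ := by
    rw [hai, hx, _root_.mul_inv_rev, hai, inv_eq_of_mul_eq_one_right hb, ← mul_assoc, ha, one_mul]
  have h2 : ∀ k : ℕ, α * x ^ k = (x ^ k)⁻¹ * α := fun k => by
    have := congrArg (· ^ k) h1
    simp only [conj_pow, inv_pow] at this
    rw [← this]; group
  have h3 : ∀ k : ℕ, x ^ k * α = α * (x ^ k)⁻¹ := fun k => by
    rw [eq_mul_inv_iff_mul_eq, mul_assoc, h2, mul_inv_cancel_left]
  obtain ⟨k, hk | hk⟩ := Nat.even_or_odd' (orderOf x)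
  · exfalso
    have hp := orderOf_pos x
    have hz2 : x ^ k * x ^ k = 1 := by rw [← pow_add, ← two_mul, ← hk, pow_orderOf_eq_one]
    have hi : (x ^ k)⁻¹ = x ^ k := inv_eq_of_mul_eq_one_right hz2
    have hc : x ^ k * α = α * x ^ k := by rw [h3, hi]
    have := hz _ hz2 hc (by rw [hβx, ← mul_assoc, hc, mul_assoc, mul_assoc, pow_mul_comm'])
    exact pow_ne_one_of_lt_orderOf (by omega) (by omega) this
  · have h0 : x ^ (2 * k + 1) = 1 := by rw [← hk, pow_orderOf_eq_one]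
    have e1 : x ^ (k + 1) * β = α * (x ^ k)⁻¹ := by
      rw [hβx, ← mul_assoc, h3, pow_succ']; group
    have e2 : (x ^ k)⁻¹ = x ^ (k + 1) := by
      rw [inv_eq_iff_mul_eq_one, ← pow_add, ← h0]; congr 1; ring
    refine ⟨x ^ (k + 1) * β, H.mul_mem (H.pow_mem (H.mul_mem hα hβ) _) hβ, ?_, ?_⟩
    · rw [e1, mul_assoc, ← mul_assoc _ α, ← h2, ← mul_assoc, ← mul_assoc, ha]; group
    · rw [mul_assoc, hb, mul_one, e1, ← mul_assoc, ha, one_mul, e2]

variable {F : Type*} [Field F] [CharP F 2]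

theorem sq_inj {a b : F} (h : a ^ 2 = b ^ 2) : a = b := by
  have : (a + b) ^ 2 = 0 := by grind
  have := pow_eq_zero_iff (two_ne_zero) |>.1 this
  grind

/-- The antidiagonal element of `SL₂`. -/
def slSw (s : F) (hs : s ≠ 0) : SL(2, F) :=
  ⟨!![0, s; s⁻¹, 0], by rw [det_fin_two_of, mul_inv_cancel₀ hs]; grind⟩

theorem slSw_mem [Finite F] {H : Subgroup SL(2, F)} {a b s : F} (hb : b ≠ 0) (hs : s ≠ 0)
    (h : s ^ 2 * b = a) (h1 : slUp a ∈ H) (h2 : slLo b ∈ H) : slSw s hs ∈ H := by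
  have ha : a ≠ 0 := h ▸ mul_ne_zero (pow_ne_zero _ hs) hb
  obtain ⟨γ, hγ, e1, e2⟩ := exists_swap (α := slUp a) (β := slLo b)
    (by rw [← slUp_add, CharTwo.add_self_eq_zero, slUp_zero])
    (by rw [← slLo_add, CharTwo.add_self_eq_zero, slLo_zero]) (fun z h0 h1 h2 => by
      have hd := z.2
      rw [det_fin_two] at hd
      have f1 := congrFun (congrFun (congrArg Subtype.val h1) 0) 0
      have f2 := congrFun (congrFun (congrArg Subtype.val h1) 0) 1
      have f3 := congrFun (congrFun (congrArg Subtype.val h2) 0) 0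
      simp [coe_slUp, coe_slLo, Matrix.mul_apply, Fin.sum_univ_two, vecMul, dotProduct, ha,
        hb] at f1 f2 f3
      have f4 : z.1 0 0 = z.1 1 1 := mul_right_cancel₀ ha (by linear_combination f2)
      have f5 : z.1 1 1 = 1 := sq_inj (by rw [f4, f1, f3] at hd; linear_combination hd)
      ext i j
      fin_cases i <;> fin_cases j <;> simp [f1, f3, f4, f5]) h1 h2
  convert hγ using 1
  have hd := γ.2
  rw [det_fin_two] at hd
  have f1 := congrFun (congrFun (congrArg Subtype.val e2) 0) 0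
  have f2 := congrFun (congrFun (congrArg Subtype.val e2) 0) 1
  have f3 := congrFun (congrFun (congrArg Subtype.val e1) 0) 1
  simp [coe_slUp, coe_slLo, Matrix.mul_apply, Fin.sum_univ_two, vecMul, dotProduct, ha,
    hb] at f1 f2 f3
  rw [f2] at hd f3
  have g1 : γ.1 0 1 ≠ 0 := by rintro e; rw [e] at hd; simp at hd
  have g2 : γ.1 0 0 = 0 := by simpa [g1] using f3
  have g3 : γ.1 0 1 = s := sq_inj (mul_right_cancel₀ hb (by grind))
  have g4 : γ.1 1 0 = s⁻¹ := by
    rw [g3] at hd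
    field_simp
    grind
  ext i j
  fin_cases i <;> fin_cases j <;> simp [slSw, f2, g2, g3, g4]

/-- Dickson: two upper transvections and a lower one force a subfield. -/
theorem slUp_mem_of_two [Finite F] {H : Subgroup SL(2, F)} {b c : F} (hb : b ≠ 0)
    (h1 : slUp 1 ∈ H) (hc : slUp c ∈ H) (hc0 : c ≠ 0) (hc1 : c ≠ 1) (h2 : slLo b ∈ H) :
    slUp b ∈ H := by
  classical
  have : Fact (Nat.Prime 2) := ⟨Nat.prime_two⟩
  obtain ⟨s, hs⟩ := (frobeniusEquiv F 2).surjective b⁻¹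
  rw [frobeniusEquiv_def] at hs
  have hs0 : s ≠ 0 := by rintro rfl; exact inv_ne_zero hb (by simpa using hs.symm)
  have hw := slSw_mem hb hs0 (by rw [hs, inv_mul_cancel₀ hb]) h1 h2
  let H' : Subgroup PGL(2, F) := H.map SpecialLinearGroup.toPGL
  have hup : ∀ a, slUp a ∈ H → L2.aff 1 a ∈ H' := fun a ha =>
    ⟨_, ha, by rw [L2.toPGL_eq_pm]; rfl⟩
  have hfin : Finite H' := Finite.of_surjective _ (MonoidHom.subgroupMap_surjective _ H)
  rcases L2.dickson_irregular_std 2 H' (hup _ h1) (s := SpecialLinearGroup.toPGL (slSw s hs0))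
    ⟨_, hw, rfl⟩ (by
      rw [L2.toPGL_eq_pm, L2.pm_smul_inf_eq_pt (L2.sl_det_ne_zero _)]; simp [slSw]) with
    ⟨-, g, -, hg, hH⟩ | ⟨h3, -⟩ | ⟨k, -, hk1, hk2⟩
  · exfalso
    have key : ∀ a : F, a ≠ 0 → L2.aff 1 a ∉ L2.tor g := fun a ha h =>
      L2.tau_ne_four_of_mem_tor hg h (by rw [Ne, L2.aff_eq_one_iff one_ne_zero]; simp [ha])
        ((L2.tau_aff_eq_four one_ne_zero a).2 rfl)
    have := L2.mul_mem_tor_of_not_mem hg (hH (hup _ h1)) (key 1 one_ne_zero) (hH (hup _ hc))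
      (key c hc0)
    rw [L2.aff_mul one_ne_zero one_ne_zero, one_mul, one_mul] at this
    exact key _ (by grind) this
  · omega
  · have hl : L2.low b ∈ H' := ⟨_, h2, by rw [L2.toPGL_eq_pm]; rfl⟩
    have hbk : b ∈ k := by
      have := L2.smul_mem_line (hk2 hl) (L2.inf_mem_line k)
      rw [L2.low_smul_inf hb, L2.pt_mem_line] at this
      simpa using k.inv_mem this
    obtain ⟨A, hA, e⟩ := hk1 (L2.aff_mem_subPSL hbk)
    rw [L2.toPGL_eq_pm, L2.aff, L2.pm_eq_iff (L2.sl_det_ne_zero _) (L2.aff_det one_ne_zero b)] at e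
    obtain ⟨l, -, e⟩ := e
    have hd := congrArg Matrix.det e
    rw [L2.det_smul_two, A.2, det_fin_two_of] at hd
    have hl1 : l = 1 := sq_inj (by linear_combination -hd)
    rw [hl1, one_smul] at e
    have : A = slUp b := Subtype.ext e.symm
    exact this ▸ hA

variable {V : Type*} [AddCommGroup V] [Module F V] {B : LinearMap.BilinForm F V}

theorem sym (hA : B.IsAlt) (x y : V) : B x y = B y x := by
  rw [← hA.neg_eq x y, CharTwo.neg_eq]

theorem vadd (F : Type*) [Field F] [CharP F 2] [Module F V] (x : V) : x + x = 0 := by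
  rw [← two_smul F x, show (2 : F) = 0 from CharTwo.two_eq_zero, zero_smul]

theorem exists_sqrt [Finite F] (c : F) : ∃ s : F, s ^ 2 = c := by
  have : Fact (Nat.Prime 2) := ⟨Nat.prime_two⟩
  exact (frobeniusEquiv F 2).surjective c

/-- The normalised centres of the transvections in `P`. -/
def Sv (hA : B.IsAlt) (P : Subgroup (SpG B)) : Set V := {u | u ≠ 0 ∧ spT hA u 1 ∈ P}

variable {hA : B.IsAlt} {P : Subgroup (SpG B)} {u w : V}

theorem Sv.map {g : SpG B} (hg : g ∈ P) (hu : u ∈ Sv hA P) : g.1 u ∈ Sv hA P :=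
  ⟨sp_apply_ne_zero g hu.1, by
    rw [← spT_conj]; exact P.mul_mem (P.mul_mem hg hu.2) (P.inv_mem hg)⟩

theorem spT_smul_one (c : F) (u : V) : spT hA (c • u) 1 = spT hA u (c ^ 2) := by
  rw [spT_smul, mul_one]

theorem Sv.add_smul {a b : F} (h1 : a • u ∈ Sv hA P) (h2 : b • u ∈ Sv hA P) (h : a + b ≠ 0) :
    (a + b) • u ∈ Sv hA P := by
  refine ⟨smul_ne_zero h fun e => h1.1 (by rw [e, smul_zero]), ?_⟩
  have := P.mul_mem h1.2 h2.2
  rw [spT_smul_one, spT_smul_one, spT_mul] at this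
  rwa [spT_smul_one, CharTwo.add_sq]

theorem spSL2_slUp {v : V} (h : B u v = 1) (a : F) : spSL2 hA h (slUp a) = spT hA u a := by
  rw [spSL2_upper hA h _ (by simp [coe_slUp]) (by simp [coe_slUp]) (by simp [coe_slUp])]
  simp [coe_slUp, CharTwo.neg_eq]

theorem spSL2_slLo {v : V} (h : B u v = 1) (a : F) : spSL2 hA h (slLo a) = spT hA v a := by
  rw [spSL2_lower hA h _ (by simp [coe_slLo]) (by simp [coe_slLo]) (by simp [coe_slLo])]
  simp [coe_slLo]

theorem form_inv_smul (h : B u w ≠ 0) : B u ((B u w)⁻¹ • w) = 1 := by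
  rw [map_smul, smul_eq_mul, inv_mul_cancel₀ h]

theorem spT_inv_smul (h : B u w ≠ 0) : spT hA ((B u w)⁻¹ • w) (B u w ^ 2) = spT hA w 1 := by
  rw [spT_smul, ← mul_pow, inv_mul_cancel₀ h, one_pow]

variable [Finite F]

/-- The midpoint rule. -/
theorem Sv.mid (hu : u ∈ Sv hA P) (hw : w ∈ Sv hA P) {s : F} (hs : s ^ 2 * B u w = 1) :
    s • (u + w) ∈ Sv hA P := by
  have h : B u w ≠ 0 := by rintro e; simp [e] at hs
  have hs0 : s ≠ 0 := by rintro rfl; simp at hs
  have h1 := form_inv_smul h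
  refine ⟨smul_ne_zero hs0 fun e => h ?_, ?_⟩
  · rw [eq_neg_of_add_eq_zero_left e]; simp [hA.self_eq_zero]
  have := slSw_mem (H := P.comap (spSL2 hA h1)) (a := 1) (pow_ne_zero 2 h) (inv_ne_zero h)
    (by rw [← mul_pow, inv_mul_cancel₀ h, one_pow])
    (by rw [Subgroup.mem_comap, spSL2_slUp]; exact hu.2)
    (by rw [Subgroup.mem_comap, spSL2_slLo, spT_inv_smul h]; exact hw.2)
  rw [Subgroup.mem_comap] at this
  convert this using 1
  refine spG_ext fun x => ?_
  have e : s ^ 2 = (B u w)⁻¹ := eq_inv_of_mul_eq_one_left hs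
  rw [spT_smul_one, spSL2_apply, spT_apply, e]
  simp only [slSw, map_add, map_smul, smul_eq_mul, sym hA u x, of_apply, cons_val', cons_val_zero,
    cons_val_one, cons_val_fin_one, zero_sub, CharTwo.neg_eq, smul_smul, inv_inv]
  match_scalars <;> field_simp <;> ring

theorem exists_swap_sv (hu : u ∈ Sv hA P) (hw : w ∈ Sv hA P) (h : B u w ≠ 0) :
    ∃ g ∈ P, g.1 u = w ∧ g.1 w = u ∧ ∀ r, B r u = 0 → B r w = 0 → g.1 r = r := by
  obtain ⟨s, hs⟩ := exists_sqrt (B u w)⁻¹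
  refine ⟨_, (Sv.mid hu hw (s := s) (by rw [hs, inv_mul_cancel₀ h])).2, ?_, ?_, fun r h1 h2 => ?_⟩
  · rw [spT_smul_one, spT_apply, hs, map_add, hA.self_eq_zero, zero_add, inv_mul_cancel₀ h,
      one_smul, ← add_assoc, vadd F, zero_add]
  · rw [spT_smul_one, spT_apply, hs, map_add, hA.self_eq_zero, add_zero, sym hA w,
      inv_mul_cancel₀ h, one_smul, add_left_comm, vadd F, add_zero]
  · simp [h1, h2]

/-- The standing hypothesis: `P` is simple and fixes no non-zero vector. -/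
structure Hyp (B : LinearMap.BilinForm F V) (P : Subgroup (SpG B)) : Prop where
  nd : B.Nondegenerate
  dim : finrank F V = 4
  simple : IsSimpleGroup P
  nofix : ∀ v, (∀ g ∈ P, g.1 v = v) → v = 0

theorem Hyp.gen (h : Hyp B P) (hu : u ∈ Sv hA P) {Q : Subgroup (SpG B)}
    (hQ : ∀ g ∈ P, spT hA (g.1 u) 1 ∈ Q) : P ≤ Q := by
  have := h.simple
  let t : P := ⟨_, hu.2⟩
  have ht : t ≠ 1 := fun e => by
    have := congrArg Subtype.val e
    rw [Subgroup.coe_one, spT_eq_one_iff h.nd] at this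
    simpa [hu.1] using this
  rcases (Subgroup.normalClosure_normal (s := {t})).eq_bot_or_eq_top with e | e
  · exact absurd (e ▸ Subgroup.subset_normalClosure (Set.mem_singleton t)) (by simpa using ht)
  intro g hg
  have : (⟨g, hg⟩ : P) ∈ Subgroup.normalClosure {t} := e ▸ Subgroup.mem_top _
  refine (Subgroup.closure_le (Q.subgroupOf P)).2 (fun x hx => ?_) this
  obtain ⟨y, rfl, hy⟩ := Group.mem_conjugatesOfSet_iff.1 hx
  obtain ⟨c, rfl⟩ := isConj_iff.1 hy
  change c.1 * spT hA u 1 * c.1⁻¹ ∈ Q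
  rw [spT_conj]
  exact hQ _ c.2

theorem Hyp.perp (h : Hyp B P) (hu : u ∈ Sv hA P) {x : V} (hx : ∀ g ∈ P, B x (g.1 u) = 0) :
    x = 0 :=
  h.nofix x fun g hg => h.gen hu (Q := MulAction.stabilizer (SpG B) x)
    (fun g hg => by change (spT hA _ 1).1 x = x; simp [hx g hg]) hg

theorem Hyp.exists_ne (h : Hyp B P) (hu : u ∈ Sv hA P) {x : V} (hx : x ≠ 0) :
    ∃ w ∈ Sv hA P, B x w ≠ 0 := by
  by_contra hc
  push Not at hc
  exact hx (h.perp hu fun g hg => hc _ (Sv.map hg hu))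

theorem Hyp.trans (h : Hyp B P) (hu : u ∈ Sv hA P) (hw : w ∈ Sv hA P) : ∃ g ∈ P, g.1 u = w := by
  by_contra hc
  refine hw.1 (h.perp hu fun g hg => by_contra fun hn => hc ?_)
  obtain ⟨k, hk, -, e, -⟩ := exists_swap_sv hw (Sv.map hg hu) hn
  exact ⟨k * g, P.mul_mem hk hg, e⟩

theorem Hyp.smul_all (h : Hyp B P) (hu : u ∈ Sv hA P) {c : F} (hc : c • u ∈ Sv hA P)
    (hw : w ∈ Sv hA P) : c • w ∈ Sv hA P := by
  obtain ⟨g, hg, rfl⟩ := h.trans hu hw
  rw [← map_smul]
  exact Sv.map hg hc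

/-- The field of multipliers. -/
def mulField (hA : B.IsAlt) (P : Subgroup (SpG B)) : Subfield F where
  carrier := {a | a ≠ 0 → ∀ s ∈ Sv hA P, a • s ∈ Sv hA P}
  mul_mem' {a b} ha hb h s hs := by
    rw [mul_smul]; exact ha (left_ne_zero_of_mul h) _ (hb (right_ne_zero_of_mul h) s hs)
  one_mem' _ s hs := by rwa [one_smul]
  add_mem' {a b} ha hb h s hs := by
    rcases eq_or_ne a 0 with rfl | ha0
    · rw [zero_add] at h ⊢; exact hb h s hs
    rcases eq_or_ne b 0 with rfl | hb0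
    · rw [add_zero]; exact ha ha0 s hs
    exact Sv.add_smul (ha ha0 s hs) (hb hb0 s hs) h
  zero_mem' h := absurd rfl h
  neg_mem' {a} ha := by rwa [CharTwo.neg_eq]
  inv_mem' a ha h s hs := by
    have h0 : a ≠ 0 := by simpa using h
    have key : ∀ n : ℕ, a ^ n • s ∈ Sv hA P := fun n => by
      induction n with
      | zero => rwa [pow_zero, one_smul]
      | succ n ih => rw [pow_succ', mul_smul]; exact ha h0 _ ih
    have hp := orderOf_pos (Units.mk0 a h0)
    have e : a * a ^ (orderOf (Units.mk0 a h0) - 1) = 1 := by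
      rw [← pow_succ', Nat.sub_add_cancel hp]
      exact congrArg Units.val (pow_orderOf_eq_one (Units.mk0 a h0))
    rw [inv_eq_of_mul_eq_one_right e]
    exact key _

theorem Hyp.form_mem (h : Hyp B P) (hu : u ∈ Sv hA P) {c : F} (hc : c • u ∈ Sv hA P) (hc1 : c ≠ 1)
    {s w : V} (hs : s ∈ Sv hA P) (hw : w ∈ Sv hA P) : B s w ∈ mulField hA P := by
  intro h0 y hy
  have hc0 : c ≠ 0 := by rintro rfl; exact hc.1 (zero_smul _ _)
  have h1 := form_inv_smul h0
  have := slUp_mem_of_two (H := P.comap (spSL2 hA h1)) (c := c ^ 2) (pow_ne_zero 2 h0)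
    (by rw [Subgroup.mem_comap, spSL2_slUp]; exact hs.2)
    (by rw [Subgroup.mem_comap, spSL2_slUp, ← spT_smul_one]; exact (h.smul_all hu hc hs).2)
    (pow_ne_zero 2 hc0) (fun e => hc1 (sq_inj (by rw [e, one_pow])))
    (by rw [Subgroup.mem_comap, spSL2_slLo, spT_inv_smul h0]; exact hw.2)
  rw [Subgroup.mem_comap, spSL2_slUp, ← spT_smul_one] at this
  exact h.smul_all hs ⟨smul_ne_zero h0 hs.1, this⟩ hy

theorem Hyp.fd (h : Hyp B P) : FiniteDimensional F V :=
  FiniteDimensional.of_finrank_pos (by rw [h.dim]; norm_num)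

theorem Hyp.top_of_smul (h : Hyp B P) (hu : u ∈ Sv hA P) (hF : ∃ a : F, a ≠ 0 ∧ a ≠ 1)
    (H : ∀ a : F, a ≠ 0 → ∀ s ∈ Sv hA P, a • s ∈ Sv hA P) : P = ⊤ := by
  have := h.fd
  have hX : ∀ s ∈ Sv hA P, s ∈ XS hA P := fun s hs c => by
    obtain ⟨a, rfl⟩ := exists_sqrt c
    rcases eq_or_ne a 0 with rfl | ha
    · simp [P.one_mem]
    · rw [← spT_smul_one]; exact (H a ha s hs).2
  obtain ⟨w, hw, huw⟩ := h.exists_ne hu hu.1
  obtain ⟨U, hUu, -, h1, h2⟩ := (tClosed_XS hA P).exists_comp_pair hA hF (hX u hu) (hX w hw) huw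
  refine eq_top_of_XS h.nd hA ((tClosed_XS hA P).of_top h.nd h2 ?_)
  have hinv : ∀ g ∈ P, ∀ x ∈ U, g.1 x ∈ U := fun g hg => by
    let Q : Subgroup (SpG B) :=
      { carrier := {g | ∀ x, g.1 x ∈ U ↔ x ∈ U}
        one_mem' := fun x => Iff.rfl
        mul_mem' := fun {a b} ha hb x => (ha _).trans (hb x)
        inv_mem' := fun {a} ha x => by rw [← ha, sp_apply_inv_apply] }
    refine fun x hx => (h.gen hu (Q := Q) (fun k hk x => ?_) hg x).2 hx
    have key : ∀ y ∈ U, (spT hA (k.1 u) 1).1 y ∈ U := fun y hy => by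
      rw [spT_apply]
      rcases h1 _ (hX _ (Sv.map hk hu)) with e | e
      · exact U.add_mem hy (U.smul_mem _ e)
      · rw [show B y (k.1 u) = 0 from e y hy]; simpa using hy
    refine ⟨fun hx => ?_, key x⟩
    have := key _ hx
    rwa [← spG_mul_apply, spT_mul, CharTwo.add_self_eq_zero, spT_zero] at this
  by_contra hU
  obtain ⟨y, hy⟩ : ∃ y, y ∉ U := by
    by_contra hc; push Not at hc; exact hU (Submodule.eq_top_iff'.2 hc)
  obtain ⟨z, hz, hyz⟩ := exists_perp_ne h.nd hy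
  have : z = 0 := h.perp hu fun g hg => by rw [sym hA]; exact hz _ (hinv g hg u hUu)
  simp [this] at hyz

/-- Two transvections with the same centre. -/
theorem Hyp.case_one (h : Hyp B P) (hu : u ∈ Sv hA P) {c : F} (hc : c • u ∈ Sv hA P)
    (hc1 : c ≠ 1) : P = ⊤ ∨ ∃ F₀ : Subfield F, F₀ ≠ ⊤ ∧
      ∀ s ∈ Sv hA P, ∀ w ∈ Sv hA P, B s w ∈ F₀ := by
  by_cases e : mulField hA P = ⊤
  · refine Or.inl (h.top_of_smul hu ⟨c, ?_, hc1⟩ fun a => ?_)
    · rintro rfl; exact hc.1 (zero_smul _ _)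
    · exact (show a ∈ mulField hA P from e ▸ Subfield.mem_top a)
  · exact Or.inr ⟨_, e, fun s hs w hw => h.form_mem hu hc hc1 hs hw⟩

end Cfsg.Agent.Cl.Sp4E
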