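/-
Subgroups of `Sp₄(2ⁿ)` containing transvections, II: at most one transvection per centre.
-/
import Mathlib
import Cfsg.Agent.Cl.Sp4EA
import Cfsg.Agent.GT.TransferCocycle
import Cfsg.Agent.S0215

set_option autoImplicit false
set_option linter.unusedSectionVars false
set_option linter.unusedVariables false

namespace Cfsg.Agent.Cl.Sp4E

open Matrix Module Cfsg.Agent.Cl Cfsg.Agent.GT Cfsg.Agent.Cl.MaxSp

variable {F : Type*} [Field F] [CharP F 2] [Finite F] {V : Type*} [AddCommGroup V] [Module F V]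
  {B : LinearMap.BilinForm F V} {hA : B.IsAlt} {P : Subgroup (SpG B)} {u w r : V}

/-- At most one transvection per centre. -/
def Uniq (hA : B.IsAlt) (P : Subgroup (SpG B)) : Prop :=
  ∀ u ∈ Sv hA P, ∀ c : F, c • u ∈ Sv hA P → c = 1

theorem orbit_prod {g : SpG B} (hg : g ∈ P) (hur : B u r = 0) {l : F} (hu : g.1 u = l • u)
    (hr : g.1 r = r) (hs : u + r ∈ Sv hA P) (m : ℕ) : l ^ m • u + r ∈ Sv hA P ∧
    ∃ k ∈ P, ∀ x, k.1 x = x + ((∑ i ∈ Finset.range m, (l ^ 2) ^ i) * B x u) • u +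
      (∑ i ∈ Finset.range m, l ^ i) • (B x u • r + B x r • u) + ((m : F) * B x r) • r := by
  induction m with
  | zero => exact ⟨by simpa using hs, 1, P.one_mem, fun x => by simp⟩
  | succ m ih =>
    obtain ⟨h1, k, hk, e⟩ := ih
    refine ⟨?_, _, P.mul_mem h1.2 hk, fun x => ?_⟩
    · have := Sv.map hg h1
      rwa [map_add, map_smul, hu, hr, smul_smul, ← pow_succ] at this
    · rw [spG_mul_apply, spT_apply, e]
      simp only [map_add, map_smul, LinearMap.add_apply, LinearMap.smul_apply, smul_eq_mul,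
        hA.self_eq_zero, hur, alt_zero hA hur, Finset.sum_range_succ, Nat.cast_succ]
      match_scalars <;> ring

theorem spT_mem_of_eigen {g : SpG B} (hg : g ∈ P) (hur : B u r = 0) {l : F} (hl0 : l ≠ 0)
    (hl1 : l ≠ 1) (hu : g.1 u = l • u) (hr : g.1 r = r) (hs : u + r ∈ Sv hA P) :
    spT hA r 1 ∈ P := by
  classical
  have := Fintype.ofFinite F
  obtain ⟨-, k, hk, e⟩ := orbit_prod hg hur hu hr hs (Fintype.card F - 1)
  have key : ∀ a : F, a ≠ 0 → a ≠ 1 → ∑ i ∈ Finset.range (Fintype.card F - 1), a ^ i = 0 :=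
    fun a h0 h1 => by rw [geom_sum_eq h1, FiniteField.pow_card_sub_one_eq_one a h0]; simp
  have h2 : ((Fintype.card F - 1 : ℕ) : F) = 1 := by
    rw [Nat.cast_sub Fintype.card_pos, FiniteField.cast_card_eq_zero]; simp [CharTwo.neg_eq]
  rw [key l hl0 hl1, key _ (pow_ne_zero 2 hl0) fun h => hl1 (sq_inj (by rw [h, one_pow])), h2] at e
  convert hk using 1
  exact spG_ext fun x => by rw [e]; simp

variable {u₁ u₂ : V}

theorem Uniq.aff (hU : Uniq hA P) (h₁ : u₁ ∈ Sv hA P) (h₂ : u₂ ∈ Sv hA P) (hw : w ∈ Sv hA P)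
    (h : B u₁ u₂ = 0) (e₁ : B u₁ w ≠ 0) (e₂ : B u₂ w ≠ 0) (hne : B u₁ w ≠ B u₂ w) {a b : F}
    (hs : a • u₁ + b • u₂ ∈ Sv hA P) : a + b = 1 := by
  set α := B u₁ w
  set β := B u₂ w
  have hαβ : α + β ≠ 0 := fun e => hne (by grind)
  set r := (α + β)⁻¹ • (β • u₁ + α • u₂) with hr
  have r1 : B r u₁ = 0 := by simp [hr, hA.self_eq_zero, alt_zero hA h]
  have r2 : B r u₂ = 0 := by simp [hr, hA.self_eq_zero, h]
  have r3 : B r w = 0 := by
    simp only [hr, map_add, map_smul, LinearMap.add_apply, LinearMap.smul_apply, smul_eq_mul]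
    grind
  obtain ⟨g₁, hg₁, a1, -, a2⟩ := exists_swap_sv h₁ hw e₁
  obtain ⟨g₂, hg₂, -, b1, b2⟩ := exists_swap_sv h₂ hw e₂
  have hgr : (g₂ * g₁).1 r = r := by rw [spG_mul_apply, a2 r r1 r3, b2 r r2 r3]
  have h2 : (2 : F) = 0 := CharTwo.two_eq_zero
  have f1 : u₂ = (β / α) • (u₁ + r) + r := by
    rw [hr]; match_scalars <;> field_simp <;> grind
  have hgu : (g₂ * g₁).1 (u₁ + r) = (β / α) • (u₁ + r) := by
    rw [map_add, hgr, spG_mul_apply, a1, b1, f1, add_assoc, vadd F, add_zero]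
  have hl0 : β / α ≠ 0 := div_ne_zero e₂ e₁
  have hl1 : β / α ≠ 1 := fun e => hne (by field_simp at e; exact e.symm)
  have key : ∀ x c : F, x • (u₁ + r) + c • r ∈ Sv hA P → c • r ∈ Sv hA P := fun x c hs => by
    refine ⟨fun e => ?_, spT_mem_of_eigen (P.mul_mem hg₂ hg₁) ?_ hl0 hl1
      (by rw [map_smul, hgu, smul_comm]) (by rw [map_smul, hgr]) hs⟩
    · rw [e, add_zero] at hs
      refine hl1 (hU _ hs _ ?_)
      have := Sv.map (P.mul_mem hg₂ hg₁) hs
      rwa [map_smul, hgu, smul_comm] at this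
    · simp [hA.self_eq_zero, alt_zero hA r1]
  have k1 := key 1 1 (by rwa [one_smul, one_smul, add_assoc, vadd F, add_zero])
  rw [one_smul] at k1
  refine hU r k1 _ (key (a + b * (β / α)) _ ?_)
  convert hs using 1
  conv_rhs => rw [f1]
  clear_value r
  match_scalars
  · ring
  · grind

theorem Uniq.pair (hU : Uniq hA P) (h₁ : u₁ ∈ Sv hA P) (h₂ : u₂ ∈ Sv hA P) (h : B u₁ u₂ = 0)
    {a b : F} (hs : a • u₁ + b • u₂ ∈ Sv hA P) (hab : a + b ≠ 1) (hw : w ∈ Sv hA P) :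
    (B u₁ w = 0 ∨ B u₂ w = 0 ∨ B u₁ w = B u₂ w) ∧
      (B u₁ w = 0 ∨ a * B u₁ w + b * B u₂ w = 0 ∨ B u₁ w = a * B u₁ w + b * B u₂ w) ∧
      (B u₂ w = 0 ∨ a * B u₁ w + b * B u₂ w = 0 ∨ B u₂ w = a * B u₁ w + b * B u₂ w) := by
  have ha : a ≠ 0 := by
    rintro rfl
    rw [zero_smul, zero_add] at hs
    exact hab (by rw [zero_add, hU _ h₂ _ hs])
  have hb : b ≠ 0 := by
    rintro rfl
    rw [zero_smul, add_zero] at hs
    exact hab (by rw [add_zero, hU _ h₁ _ hs])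
  have e : B (a • u₁ + b • u₂) w = a * B u₁ w + b * B u₂ w := by simp
  have h2 : (2 : F) = 0 := CharTwo.two_eq_zero
  refine ⟨?_, ?_, ?_⟩ <;> by_contra hc <;> push Not at hc
  · exact hab (hU.aff h₁ h₂ hw h hc.1 hc.2.1 hc.2.2 hs)
  · have := hU.aff h₁ hs hw (by simp [h, hA.self_eq_zero]) hc.1 (e ▸ hc.2.1) (e ▸ hc.2.2)
      (a := a / b) (b := b⁻¹) (by
        convert h₂ using 1
        match_scalars <;> (field_simp; try grind))
    field_simp at this
    exact hab (by grind)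
  · have := hU.aff h₂ hs hw (by simp [alt_zero hA h, hA.self_eq_zero]) hc.1 (e ▸ hc.2.1)
      (e ▸ hc.2.2) (a := b / a) (b := a⁻¹) (by
        convert h₁ using 1
        match_scalars <;> (field_simp; try grind))
    field_simp at this
    exact hab (by grind)

theorem Hyp.tri (H : Hyp B P) (hU : Uniq hA P) (h₁ : u₁ ∈ Sv hA P) (h₂ : u₂ ∈ Sv hA P)
    (h : B u₁ u₂ = 0) (hne : u₁ ≠ u₂) {a b : F} (hs : a • u₁ + b • u₂ ∈ Sv hA P)
    (hab : a + b ≠ 1) : a = 1 ∧ b = 1 := by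
  obtain ⟨w₁, hw₁, e₁⟩ := H.exists_ne h₁ h₁.1
  obtain ⟨w₂, hw₂, e₂⟩ := H.exists_ne h₁ h₂.1
  obtain ⟨w₃, hw₃, e₃⟩ := H.exists_ne h₁ (x := u₁ + u₂) fun e => hne (by
    rw [← add_right_inj u₁, e, vadd F])
  have p1 := hU.pair h₁ h₂ h hs hab hw₁
  have p2 := hU.pair h₁ h₂ h hs hab hw₂
  have p3 := hU.pair h₁ h₂ h hs hab hw₃
  have ha : a ≠ 0 := by
    rintro rfl
    rw [zero_smul, zero_add] at hs
    exact hab (by rw [zero_add, hU _ h₂ _ hs])
  have hb : b ≠ 0 := by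
    rintro rfl
    rw [zero_smul, add_zero] at hs
    exact hab (by rw [add_zero, hU _ h₁ _ hs])
  simp only [map_add, LinearMap.add_apply] at e₃
  generalize B u₁ w₁ = x₁, B u₂ w₁ = y₁, B u₁ w₂ = x₂, B u₂ w₂ = y₂, B u₁ w₃ = x₃,
    B u₂ w₃ = y₃ at *
  have t : ∀ x y : F, (x = 0 ∨ y = 0 ∨ x = y) ∧ (x = 0 ∨ a * x + b * y = 0 ∨ x = a * x + b * y) ∧
      (y = 0 ∨ a * x + b * y = 0 ∨ y = a * x + b * y) →
      (x ≠ 0 → y = 0 → a = 1) ∧ (x = 0 → y ≠ 0 → b = 1) ∧ (x ≠ 0 → y ≠ 0 → x = y ∧ a = b) := by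
    rintro x y ⟨q1, q2, q3⟩
    refine ⟨fun hx hy => ?_, fun hx hy => ?_, fun hx hy => ?_⟩
    · subst hy
      rcases q2 with q | q | q
      · exact absurd q hx
      · simp [ha, hx] at q
      · exact mul_right_cancel₀ hx (by linear_combination -q)
    · subst hx
      rcases q3 with q | q | q
      · exact absurd q hy
      · simp [hb, hy] at q
      · exact mul_right_cancel₀ hy (by linear_combination -q)
    · obtain rfl : x = y := (q1.resolve_left hx).resolve_left hy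
      refine ⟨rfl, ?_⟩
      have h2 : (2 : F) = 0 := CharTwo.two_eq_zero
      rcases q2 with q | q | q
      · exact absurd q hx
      · exact mul_right_cancel₀ hx (by linear_combination q - b * x * h2)
      · exact absurd (mul_right_cancel₀ hx (show (a + b) * x = 1 * x by linear_combination -q)) hab
  have t1 := t _ _ p1
  have t2 := t _ _ p2
  have t3 := t _ _ p3
  grind

theorem Hyp.rat_of_tri (H : Hyp B P) (hU : Uniq hA P) (h₁ : u₁ ∈ Sv hA P) (h₂ : u₂ ∈ Sv hA P)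
    (h : B u₁ u₂ = 0) (hs : u₁ + u₂ ∈ Sv hA P) {s : V} (hs' : s ∈ Sv hA P) (hw : w ∈ Sv hA P) :
    B s w = 0 ∨ B s w = 1 := by
  have key : ∀ u₁ u₂ w : V, u₁ ∈ Sv hA P → u₂ ∈ Sv hA P → B u₁ u₂ = 0 → u₁ + u₂ ∈ Sv hA P →
      w ∈ Sv hA P → B u₁ w = B u₂ w → B u₁ w = 0 ∨ B u₁ w = 1 := fun u₁ u₂ w h₁ h₂ h hs hw e => by
    by_contra hc
    push Not at hc
    have h0 : B w (u₁ + u₂) = 0 := by
      rw [map_add, sym hA w, sym hA w, e, CharTwo.add_self_eq_zero]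
    refine hc.2 (H.tri hU hw hs h0 ?_ (a := 1) (b := B u₁ w) ?_ (by simpa using hc.1)).2
    · rintro rfl
      simp [h, hA.self_eq_zero] at hc
    · convert Sv.map (P.mul_mem h₁.2 h₂.2) hw using 1
      rw [spG_mul_apply, spT_apply, spT_apply]
      simp only [map_add, map_smul, LinearMap.add_apply, LinearMap.smul_apply, smul_eq_mul,
        alt_zero hA h, sym hA w, e]
      module
  obtain ⟨g, hg, rfl⟩ := H.trans h₁ hs'
  have hw' := Sv.map (P.inv_mem hg) hw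
  rw [← sp_apply_inv_apply g w, spG_form]
  have p := (hU.pair h₁ h₂ h (a := 1) (b := 1) (by simpa using hs) (by grind) hw').1
  rcases p with p | p | p
  · exact Or.inl p
  · exact key u₁ (u₁ + u₂) _ h₁ hs (by simp [h, hA.self_eq_zero])
      (by rwa [← add_assoc, vadd F, zero_add]) hw'
      (by rw [map_add, LinearMap.add_apply, p, add_zero])
  · exact key u₁ u₂ _ h₁ h₂ h hs hw' p

theorem Hyp.finite (H : Hyp B P) : Finite (SpG B) := by
  have := H.fd
  have : Finite V := Module.finite_of_finite F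
  exact Finite.of_injective (fun g : SpG B => (g.1 : V → V)) fun g h e => spG_ext (congrFun e)

theorem perp_pair (hB : B.Nondegenerate) (hA : B.IsAlt) (hd : finrank F V = 4)
    (h : B u₁ u₂ = 0) (h₁ : u₁ ≠ 0) (hi : ∀ c : F, c • u₁ ≠ u₂) {x : V} (e₁ : B x u₁ = 0)
    (e₂ : B x u₂ = 0) : ∃ a b : F, a • u₁ + b • u₂ = x := by
  have : FiniteDimensional F V := FiniteDimensional.of_finrank_pos (by rw [hd]; norm_num)
  have hl : LinearIndependent F ![u₁, u₂] := (LinearIndependent.pair_iff' h₁).2 hi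
  have h2 : finrank F (Submodule.span F ({u₁, u₂} : Set V)) = 2 := by
    have := finrank_span_eq_card hl
    rwa [Matrix.range_cons, Matrix.range_cons, Matrix.range_empty, Set.union_empty,
      Set.singleton_union] at this
  have hm : ∀ y, B y u₁ = 0 → B y u₂ = 0 → y ∈ B.orthogonal (Submodule.span F {u₁, u₂}) :=
    fun y f₁ f₂ n hn => by
      obtain ⟨a, b, rfl⟩ := Submodule.mem_span_pair.1 hn
      change B _ y = 0
      simp [alt_zero hA f₁, alt_zero hA f₂]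
  have : Submodule.span F ({u₁, u₂} : Set V) = B.orthogonal (Submodule.span F {u₁, u₂}) := by
    refine Submodule.eq_of_le_of_finrank_eq ?_ ?_
    · rw [Submodule.span_le]
      rintro y (rfl | rfl)
      · exact hm _ (hA.self_eq_zero _) h
      · exact hm _ (alt_zero hA h) (hA.self_eq_zero _)
    · rw [LinearMap.BilinForm.finrank_orthogonal hB, hd, h2]
  exact Submodule.mem_span_pair.1 (this ▸ hm x e₁ e₂)

theorem exists_dual_pair [FiniteDimensional F V] (hB : B.Nondegenerate) (hA : B.IsAlt)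
    (h₁ : ∀ c : F, c • u₂ ≠ u₁) (h₂ : ∀ c : F, c • u₁ ≠ u₂) (a b : F) :
    ∃ z, B z u₁ = a ∧ B z u₂ = b := by
  obtain ⟨z₁, p₁, q₁⟩ := exists_perp_ne hB (W := F ∙ u₂) (y := u₁)
    (by simpa [Submodule.mem_span_singleton] using h₁)
  obtain ⟨z₂, p₂, q₂⟩ := exists_perp_ne hB (W := F ∙ u₁) (y := u₂)
    (by simpa [Submodule.mem_span_singleton] using h₂)
  have p₁ := p₁ _ (Submodule.mem_span_singleton_self _)
  have p₂ := p₂ _ (Submodule.mem_span_singleton_self _)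
  refine ⟨(a / B u₁ z₁) • z₁ + (b / B u₂ z₂) • z₂, ?_, ?_⟩ <;>
    simp [sym hA z₁, sym hA z₂, p₁, p₂, q₁, q₂]

theorem form_eq_zero_of_two {T : Subgroup (SpG B)} (hT : IsPGroup 2 T) (h₁ : spT hA u₁ 1 ∈ T)
    (h₂ : spT hA u₂ 1 ∈ T) : B u₁ u₂ = 0 := by
  have : Fact (Nat.Prime 2) := ⟨Nat.prime_two⟩
  by_contra h
  have h1 := form_inv_smul h
  refine not_isPGroup_of_slUp_slLo_mem (H := T.comap (spSL2 hA h1)) one_ne_zero
    (pow_ne_zero 2 h) ?_ ?_ (hT.comap_of_injective _ (spSL2_injective hA h1))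
  · rwa [Subgroup.mem_comap, spSL2_slUp]
  · rwa [Subgroup.mem_comap, spSL2_slLo, spT_inv_smul h]

theorem zmod_xor : ∀ x y : ZMod 2, ¬ y = 0 → Xor (x + y = 0) (x = 0) := by decide

theorem Hyp.not_aff (H : Hyp B P) (hU : Uniq hA P) (hu : u ∈ Sv hA P)
    (haff : ∀ u₁ ∈ Sv hA P, ∀ u₂ ∈ Sv hA P, B u₁ u₂ = 0 → u₁ ≠ u₂ → ∀ a b : F,
      a • u₁ + b • u₂ ∈ Sv hA P → a + b = 1) : False := by
  have := H.finite
  have := H.fd
  have := H.simple
  have : Fact (Nat.Prime 2) := ⟨Nat.prime_two⟩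
  let t : P := ⟨_, hu.2⟩
  have ht2 : t ^ 2 = 1 := Subtype.ext (by
    change spT hA u 1 ^ 2 = 1
    rw [sq, spT_mul, CharTwo.add_self_eq_zero, spT_zero])
  have ht1 : t ≠ 1 := fun e => by
    have := congrArg Subtype.val e
    rw [Subgroup.coe_one, spT_eq_one_iff H.nd] at this
    simpa [hu.1] using this
  have ho : orderOf t = 2 := orderOf_eq_prime ht2 ht1
  obtain ⟨T, hT⟩ := (IsPGroup.of_card (p := 2) (n := 1) (G := Subgroup.zpowers t)
    (by rw [Nat.card_zpowers, ho, pow_one])).exists_le_sylow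
  have htT : t ∈ (T : Subgroup P) := hT (Subgroup.mem_zpowers t)
  have hc : ∀ g : P, g * t * g⁻¹ = ⟨_, (Sv.map g.2 hu).2⟩ := fun g => Subtype.ext (spT_conj hA _ _ _)
  by_cases hs : ∀ s, ∀ h : s ∈ Sv hA P, (⟨_, h.2⟩ : P) ∈ (T : Subgroup P) → s = u
  · obtain ⟨N, hN, hodd, h⟩ := S0215.result T t ho htT fun g hg => by
      rw [hc] at hg ⊢
      exact Subtype.ext (by simp only [hs _ (Sv.map g.2 hu) hg, t])
    rcases hN.eq_bot_or_eq_top with rfl | rfl
    · refine hu.1 (H.nofix u fun g hg => hs _ (Sv.map hg hu) ?_)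
      have := h ⟨g, hg⟩
      rw [Subgroup.mem_bot, mul_inv_eq_one, mul_inv_eq_iff_eq_mul] at this
      rwa [← hc ⟨g, hg⟩, ← this, mul_inv_cancel_right]
    · rw [Subgroup.card_top] at hodd
      exact Nat.not_even_iff_odd.2 hodd (even_iff_two_dvd.2 (ho ▸ orderOf_dvd_natCard t))
  push Not at hs
  obtain ⟨s, hs, hsT, hne⟩ := hs
  have hT' : IsPGroup 2 ((T : Subgroup P).map P.subtype) := T.isPGroup'.map _
  have horth : ∀ a, ∀ ha : a ∈ Sv hA P, ∀ b, ∀ hb : b ∈ Sv hA P, (⟨_, ha.2⟩ : P) ∈ (T : Subgroup P) →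
      (⟨_, hb.2⟩ : P) ∈ (T : Subgroup P) → B a b = 0 := fun a ha b hb h1 h2 =>
    form_eq_zero_of_two (hA := hA) hT' ⟨_, h1, rfl⟩ ⟨_, h2, rfl⟩
  have i1 : ∀ c : F, c • u ≠ s := fun c e => hne (by rw [← e, hU u hu c (e ▸ hs), one_smul])
  have i2 : ∀ c : F, c • s ≠ u := fun c e => hne (by rw [← e, hU s hs c (e ▸ hu), one_smul])
  have hus := horth _ hu _ hs htT hsT
  obtain ⟨z, z1, z2⟩ := exists_dual_pair H.nd hA i2 i1 1 1
  have hz : ∀ a, ∀ ha : a ∈ Sv hA P, (⟨_, ha.2⟩ : P) ∈ (T : Subgroup P) → B z a = 1 :=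
    fun a ha h => by
      obtain ⟨x, y, rfl⟩ := perp_pair H.nd hA H.dim hus hu.1 i1 (horth _ ha _ hu h htT)
        (horth _ ha _ hs h hsT)
      simp [z1, z2, haff u hu s hs hus hne.symm x y ha]
  have hz' : ∀ g ∈ (T : Subgroup P), ∀ a, ∀ ha : a ∈ Sv hA P, (⟨_, ha.2⟩ : P) ∈ (T : Subgroup P) →
      B z (g.1.1 a) = 1 := fun g hg a ha h => hz _ (Sv.map g.2 ha) (by
    convert T.1.mul_mem (T.1.mul_mem hg h) (T.1.inv_mem hg) using 1
    exact Subtype.ext (spT_conj hA _ _ _).symm)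
  have hadd : ∀ g ∈ (T : Subgroup P), ∀ k ∈ (T : Subgroup P),
      B z ((g * k).1.1 z) = B z (g.1.1 z) + B z (k.1.1 z) := fun g hg k hk => by
    have e : ∀ a, ∀ ha : a ∈ Sv hA P, (⟨_, ha.2⟩ : P) ∈ (T : Subgroup P) →
        B (k.1.1 z + z) a = 0 := fun a ha h => by
      have := hz' _ (T.1.inv_mem hk) a ha h
      rw [← spG_form k.1, Subgroup.coe_inv, sp_apply_inv_apply] at this
      rw [map_add, LinearMap.add_apply, this, hz a ha h, CharTwo.add_self_eq_zero]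
    obtain ⟨x, y, e⟩ := perp_pair H.nd hA H.dim hus hu.1 i1 (e u hu htT) (e s hs hsT)
    have e' : k.1.1 z = x • u + y • s + z := by rw [e, add_assoc, vadd F, add_zero]
    rw [Subgroup.coe_mul, spG_mul_apply, e']
    simp [z1, z2, hz' g hg u hu htT, hz' g hg s hs hsT, hA.self_eq_zero, add_comm]
  let _ : Algebra (ZMod 2) F := ZMod.algebra F 2
  obtain ⟨f, hf⟩ := not_forall.1 ((forall_dual_apply_eq_zero_iff (ZMod 2) (1 : F)).not.2 one_ne_zero)
  let Q : Subgroup P :=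
    { carrier := {g | g ∈ (T : Subgroup P) ∧ f (B z (g.1.1 z)) = 0}
      one_mem' := ⟨T.1.one_mem, by simp [hA.self_eq_zero]⟩
      mul_mem' := fun {a b} ha hb => ⟨T.1.mul_mem ha.1 hb.1, by
        rw [hadd _ ha.1 _ hb.1, map_add, ha.2, hb.2, add_zero]⟩
      inv_mem' := fun {a} ha => ⟨T.1.inv_mem ha.1, by
        have := congrArg f (hadd _ (T.1.inv_mem ha.1) _ ha.1)
        rw [map_add, ha.2, add_zero, inv_mul_cancel] at this
        rw [← this]; simp [hA.self_eq_zero]⟩ }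
  have hχ : ∀ a, ∀ ha : a ∈ Sv hA P, (⟨_, ha.2⟩ : P) ∈ (T : Subgroup P) →
      B z ((spT hA a 1).1 z) = 1 := fun a ha h => by simp [hA.self_eq_zero, hz a ha h]
  have hQ : Q.relIndex T = 2 := by
    refine Subgroup.index_eq_two_iff.2 ⟨⟨t, htT⟩, fun b => ?_⟩
    have := congrArg f (hadd _ b.2 _ htT)
    rw [map_add, hχ u hu htT] at this
    have hb : ∀ c : (T : Subgroup P), c ∈ Q.subgroupOf T ↔ f (B z (c.1.1.1 z)) = 0 :=
      fun c => ⟨fun h => h.2, fun h => ⟨c.2, h⟩⟩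
    rw [hb, hb, Subgroup.coe_mul, this]
    exact zmod_xor _ _ hf
  rcases Tr.thompson_transfer_index_two T.not_dvd_index hQ ht2 with ⟨M, hM, h2, htM⟩ | ⟨g, hg⟩
  · rcases hM.eq_bot_or_eq_top with rfl | rfl
    · refine hu.1 (H.nofix u fun g hg => ?_)
      by_cases e : (⟨g, hg⟩ : P) ∈ (⊥ : Subgroup P)
      · rw [show g = 1 from congrArg Subtype.val e]; rfl
      · have := (Subgroup.mul_mem_iff_of_index_two h2 (a := ⟨g, hg⟩) (b := t)).2 (iff_of_false e htM)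
        have := congrArg (fun k : P => k.1.1 u) (Subgroup.mem_bot.1 this)
        simpa [t, spG_mul_apply, hA.self_eq_zero] using this
    · exact htM (Subgroup.mem_top _)
  · rw [hc] at hg
    exact hf (by rw [← hχ _ (Sv.map g.2 hu) hg.1]; exact hg.2)

/-- A simple group containing a transvection is everything or rational. -/
theorem Hyp.top_or_rat (H : Hyp B P) (hF : ∃ a : F, a ≠ 0 ∧ a ≠ 1) (hu : u ∈ Sv hA P) :
    P = ⊤ ∨ ∃ F₀ : Subfield F, F₀ ≠ ⊤ ∧ ∀ s ∈ Sv hA P, ∀ w ∈ Sv hA P, B s w ∈ F₀ := by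
  by_cases hU : Uniq hA P
  swap
  · simp only [Uniq, not_forall] at hU
    obtain ⟨u, hu, c, hc, hc1⟩ := hU
    exact H.case_one hu hc hc1
  have : ¬ ∀ u₁ ∈ Sv hA P, ∀ u₂ ∈ Sv hA P, B u₁ u₂ = 0 → u₁ ≠ u₂ → ∀ a b : F,
      a • u₁ + b • u₂ ∈ Sv hA P → a + b = 1 := H.not_aff hU hu
  push Not at this
  obtain ⟨u₁, h₁, u₂, h₂, h, hne, a, b, hs, hab⟩ := this
  obtain ⟨rfl, rfl⟩ := H.tri hU h₁ h₂ h hne hs hab
  rw [one_smul, one_smul] at hs
  let F₀ : Subfield F :=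
    { carrier := {a | a = 0 ∨ a = 1}
      mul_mem' := by rintro a b (rfl | rfl) (rfl | rfl) <;> simp
      one_mem' := Or.inr rfl
      add_mem' := by rintro a b (rfl | rfl) (rfl | rfl) <;> simp [CharTwo.add_self_eq_zero]
      zero_mem' := Or.inl rfl
      neg_mem' := by rintro a (rfl | rfl) <;> simp [CharTwo.neg_eq]
      inv_mem' := by rintro a (rfl | rfl) <;> simp }
  refine Or.inr ⟨F₀, fun e => ?_, fun s hs' w hw => H.rat_of_tri hU h₁ h₂ h hs hs' hw⟩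
  obtain ⟨a, h0, h1⟩ := hF
  exact (show a ∈ F₀ from e ▸ Subfield.mem_top a).elim h0 h1

end Cfsg.Agent.Cl.Sp4E
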