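/-
Subgroups of `Sp₄(2ⁿ)`, III: characteristic polynomials, the exceptional isogeny and the
involution classes.
-/
import Mathlib
import Cfsg.Agent.Cl.Sp4EB
import Cfsg.Agent.Cl.AutSp4
import Cfsg.Agent.Cl.ClassSpOInv

set_option autoImplicit false
set_option linter.unusedSectionVars false
set_option linter.unusedVariables false

namespace Cfsg.Agent.Cl.Sp4E

open Matrix Module Polynomial Cfsg.Agent.Cl Cfsg.Agent.GT Cfsg.Agent.Cl.MaxSp Cfsg.Agent.Cl.Aut
  Cfsg.Agent.Chev.Sz Cfsg.Lie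

theorem det_four {R : Type*} [CommRing R] (M : Matrix (Fin 4) (Fin 4) R) : M.det =
    M 0 0 * (M 1 1 * (M 2 2 * M 3 3 - M 2 3 * M 3 2) - M 1 2 * (M 2 1 * M 3 3 - M 2 3 * M 3 1) +
      M 1 3 * (M 2 1 * M 3 2 - M 2 2 * M 3 1)) -
    M 0 1 * (M 1 0 * (M 2 2 * M 3 3 - M 2 3 * M 3 2) - M 1 2 * (M 2 0 * M 3 3 - M 2 3 * M 3 0) +
      M 1 3 * (M 2 0 * M 3 2 - M 2 2 * M 3 0)) +
    M 0 2 * (M 1 0 * (M 2 1 * M 3 3 - M 2 3 * M 3 1) - M 1 1 * (M 2 0 * M 3 3 - M 2 3 * M 3 0) +
      M 1 3 * (M 2 0 * M 3 1 - M 2 1 * M 3 0)) -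
    M 0 3 * (M 1 0 * (M 2 1 * M 3 2 - M 2 2 * M 3 1) - M 1 1 * (M 2 0 * M 3 2 - M 2 2 * M 3 0) +
      M 1 2 * (M 2 0 * M 3 1 - M 2 1 * M 3 0)) := by
  simp [det_succ_row_zero, Fin.sum_univ_succ, Fin.succAbove]
  ring

theorem charpoly_four {R : Type*} [CommRing R] (M : Matrix (Fin 4) (Fin 4) R) :
    ∃ a b c d : R, M.charpoly = X ^ 4 + C a * X ^ 3 + C b * X ^ 2 + C c * X + C d ∧
      b = (M 0 0 * M 1 1 - M 0 1 * M 1 0) + (M 0 0 * M 2 2 - M 0 2 * M 2 0) +
        (M 0 0 * M 3 3 - M 0 3 * M 3 0) + (M 1 1 * M 2 2 - M 1 2 * M 2 1) +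
        (M 1 1 * M 3 3 - M 1 3 * M 3 1) + (M 2 2 * M 3 3 - M 2 3 * M 3 2) := by
  refine ⟨-(M 0 0 + M 1 1 + M 2 2 + M 3 3), _, -(M 1 1 * (M 2 2 * M 3 3 - M 2 3 * M 3 2) -
    M 1 2 * (M 2 1 * M 3 3 - M 2 3 * M 3 1) + M 1 3 * (M 2 1 * M 3 2 - M 2 2 * M 3 1) +
    (M 0 0 * (M 2 2 * M 3 3 - M 2 3 * M 3 2) - M 0 2 * (M 2 0 * M 3 3 - M 2 3 * M 3 0) +
      M 0 3 * (M 2 0 * M 3 2 - M 2 2 * M 3 0)) +
    (M 0 0 * (M 1 1 * M 3 3 - M 1 3 * M 3 1) - M 0 1 * (M 1 0 * M 3 3 - M 1 3 * M 3 0) +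
      M 0 3 * (M 1 0 * M 3 1 - M 1 1 * M 3 0)) +
    (M 0 0 * (M 1 1 * M 2 2 - M 1 2 * M 2 1) - M 0 1 * (M 1 0 * M 2 2 - M 1 2 * M 2 0) +
      M 0 2 * (M 1 0 * M 2 1 - M 1 1 * M 2 0))), M.det, ?_, rfl⟩
  rw [charpoly, det_four, det_four M]
  simp [charmatrix_apply, diagonal_apply]
  ring

variable {F : Type*} [Field F] [CharP F 2]

theorem charpoly_sp {M : Matrix (Fin 4) (Fin 4) F} (h : Mᵀ * suzukiForm F * M = suzukiForm F) :
    M.charpoly = X ^ 4 + C M.trace * X ^ 3 + C (star4 M).trace * X ^ 2 + C M.trace * X + 1 := by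
  obtain ⟨a, b, c, d, e, hb⟩ := charpoly_four M
  have hJ := suzukiForm_mul_self (F := F)
  have hi : (suzukiForm F * Mᵀ * suzukiForm F) * M = 1 := by
    rw [Matrix.mul_assoc (suzukiForm F), Matrix.mul_assoc (suzukiForm F), h, hJ]
  have hd : M.det = 1 := sq_inj (by
    have := congrArg det hi
    have h2 := congrArg det hJ
    rw [det_mul, det_one] at h2
    rw [det_mul, det_mul, det_mul, det_transpose, det_one] at this
    linear_combination this - M.det ^ 2 * h2)
  have hr : M.charpoly = M.charpolyRev := by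
    have := charpoly_inv M ((isUnit_iff_isUnit_det M).2 (by simp [hd]))
    rw [inv_eq_left_inv hi, Matrix.mul_assoc, charpoly_mul_comm, Matrix.mul_assoc, hJ,
      Matrix.mul_one, charpoly_transpose, hd] at this
    simpa [show (-1 : F[X]) ^ 4 = 1 by norm_num] using this
  have h1 : c = M.trace := by
    have := coeff_charpolyRev_eq_neg_trace M
    rw [← hr, e, CharTwo.neg_eq] at this
    simpa [coeff_X, coeff_C] using this
  have h3 : a = M.trace := by
    have := trace_eq_neg_charpoly_coeff M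
    rw [e, CharTwo.neg_eq] at this
    simpa [coeff_X, coeff_C] using this.symm
  have h0 : d = 1 := by
    have := det_eq_sign_charpoly_coeff M
    rw [e, hd] at this
    simpa [coeff_X, coeff_C, show (-1 : F) ^ 4 = 1 by norm_num] using this.symm
  have h2 : b = (star4 M).trace := by
    have c1 := sp_cols h 1 2
    have c2 := sp_rows h 0 3
    simp only [suzukiForm, of_apply, cons_val', cons_val_two, cons_val_one, cons_val_zero,
      cons_val_three, cons_val_fin_one, Nat.succ_eq_add_one, Nat.reduceAdd, tail_cons,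
      head_cons, head_fin_const] at c1 c2
    simp only [hb, trace, diag, Fin.sum_univ_four, star4_apply, pairOf, cons_val_zero,
      cons_val_one, cons_val_two, cons_val_three, Nat.succ_eq_add_one, Nat.reduceAdd, tail_cons,
      head_cons]
    grind
  rw [e, h0, h1, h2, h3, C_1]

/-- The standard four-dimensional symplectic group. -/
abbrev G4 (F : Type*) [Field F] := SpG (F := F) (V := Fin 2 ⊕ Fin 2 → F) (spB 2 F)

/-- The matrix of an element in the basis of the Suzuki form. -/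
noncomputable def mat : G4 F →* Matrix (Fin 4) (Fin 4) F where
  toFun g := ((spStdEquiv 2 F).symm g).1.submatrix e4 e4
  map_one' := by simp
  map_mul' g h := by simp

theorem mat_def (g : G4 F) : mat g = ((spStdEquiv 2 F).symm g).1.submatrix e4 e4 := rfl

theorem mat_sp (g : G4 F) : (mat g)ᵀ * suzukiForm F * mat g = suzukiForm F :=
  mem_sp_iff_e4.1 ((spStdEquiv 2 F).symm g).2

theorem mat_injective : Function.Injective (mat (F := F)) := fun g h e =>
  (spStdEquiv 2 F).symm.injective (Subtype.ext (by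
    simpa [mat_def] using congrArg (fun M => M.submatrix e4.symm e4.symm) e))

theorem mat_mulVec (g : G4 F) (v : Fin 2 ⊕ Fin 2 → F) : mat g *ᵥ (v ∘ e4) = g.1 v ∘ e4 := by
  rw [mat_def, submatrix_mulVec_equiv, Function.comp_assoc, Equiv.self_comp_symm,
    Function.comp_id, spStdEquiv_symm_mulVec]

/-- The exceptional isogeny. -/
noncomputable def tau : G4 F →* G4 F :=
  (spStdEquiv 2 F).toMonoidHom.comp ((sp4Hom F).comp (spStdEquiv 2 F).symm.toMonoidHom)

theorem tau_apply (g : G4 F) : tau g = spStdEquiv 2 F (sp4Hom F ((spStdEquiv 2 F).symm g)) := rfl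

theorem tau_injective : Function.Injective (tau (F := F)) :=
  (spStdEquiv 2 F).injective.comp (sp4Hom_injective.comp (spStdEquiv 2 F).symm.injective)

theorem mat_tau (g : G4 F) : mat (tau g) = star4 (mat g) := by
  simp [mat_def, tau_apply, coe_sp4Hom]

theorem mat_tau_tau (g : G4 F) : mat (tau (tau g)) = (mat g).map (frobenius F 2) := by
  rw [mat_tau, mat_tau, mat_def, (star4_props _).2]

/-- The trace. -/
noncomputable def tr (g : G4 F) : F := (mat g).trace

theorem charpoly_mat (g : G4 F) : (mat g).charpoly =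
    X ^ 4 + C (tr g) * X ^ 3 + C (tr (tau g)) * X ^ 2 + C (tr g) * X + 1 := by
  rw [charpoly_sp (mat_sp g), tr, tr, mat_tau]

theorem cayley (g : G4 F) :
    mat g ^ 4 + tr g • mat g ^ 3 + tr (tau g) • mat g ^ 2 + tr g • mat g + 1 = 0 := by
  have := aeval_self_charpoly (mat g)
  rw [charpoly_mat] at this
  simpa [Algebra.smul_def] using this

theorem det_one_add (g : G4 F) : (1 + mat g).det = tr (tau g) := by
  have := eval_charpoly (mat g) 1
  rw [charpoly_mat, map_one, CharTwo.sub_eq_add] at this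
  rw [← this]
  simp only [eval_add, eval_mul, eval_pow, eval_X, eval_C, eval_one]
  grind

theorem tr_tau_tau (g : G4 F) : tr (tau (tau g)) = tr g ^ 2 := by
  rw [tr, mat_tau_tau, tr, ← frobenius_def, AddMonoidHom.map_trace (frobenius F 2)]

theorem tr_sq (g : G4 F) : tr (g ^ 2) = tr g ^ 2 := by
  simp only [tr, sq, map_mul, trace, diag, Fin.sum_univ_four, Matrix.mul_apply]
  generalize mat g = M
  grind

theorem tr_pow_two_pow (g : G4 F) (k : ℕ) : tr (g ^ 2 ^ k) = tr g ^ 2 ^ k := by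
  induction k with
  | zero => simp
  | succ k ih => rw [pow_succ, pow_mul, pow_mul, tr_sq, ih]

theorem tr_of_isConj {g h : G4 F} (e : IsConj g h) : tr g = tr h := by
  obtain ⟨c, rfl⟩ := isConj_iff.1 e
  rw [tr, tr, map_mul, trace_mul_comm, ← map_mul, inv_mul_cancel_left]

theorem tr_one : tr (1 : G4 F) = 0 := by
  simp only [tr, map_one, trace_one, Fintype.card_fin]
  grind

theorem tr_eq_zero {g : G4 F} {k : ℕ} (h : g ^ 2 ^ k = 1) : tr g = 0 := by
  have := tr_pow_two_pow g k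
  rw [h, tr_one] at this
  exact pow_eq_zero_iff (by positivity) |>.1 this.symm

theorem pow_four_of_two {g : G4 F} {k : ℕ} (h : g ^ 2 ^ k = 1) : g ^ 4 = 1 := by
  have := cayley g
  rw [tr_eq_zero h, tr_eq_zero (k := k) (by rw [← map_pow, h, map_one])] at this
  simp only [zero_smul, add_zero] at this
  exact mat_injective (by
    rw [map_pow, map_one, eq_neg_of_add_eq_zero_left this, CharTwo.neg_eq])

theorem charpoly_lin (g : G4 F) : (g.1 : (Fin 2 ⊕ Fin 2 → F) →ₗ[F] _).charpoly =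
    (mat g).charpoly := by
  rw [mat_def, show ((spStdEquiv 2 F).symm g).1.submatrix e4 e4 =
    reindex e4.symm e4.symm ((spStdEquiv 2 F).symm g).1 from rfl, charpoly_reindex,
    ← Matrix.charpoly_toLin']
  congr 1
  exact LinearMap.ext fun v => (spStdEquiv_symm_mulVec g v).symm

theorem eq_zero_or_one {a : F} (h : a ^ 2 = a) : a = 0 ∨ a = 1 := by
  rcases eq_or_ne a 0 with e | e
  · exact Or.inl e
  · exact Or.inr (mul_left_cancel₀ e (by rw [← sq, h, mul_one]))

/-- An element conjugate to its square. -/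
theorem pow_of_isConj_sq {g : G4 F} (h : IsConj g (g ^ 2)) : g ^ 4 = 1 ∨ g ^ 6 = 1 ∨ g ^ 5 = 1 := by
  have h1 := tr_of_isConj h
  have h2 := tr_of_isConj (tau.map_isConj h)
  rw [map_pow, tr_sq] at h2
  rw [tr_sq] at h1
  have c := cayley g
  have e : ∀ n : ℕ, mat g ^ n + 1 = 0 → g ^ n = 1 := fun n e => mat_injective (by
    rw [map_pow, map_one, eq_neg_of_add_eq_zero_left e, CharTwo.neg_eq])
  have t : (2 : Matrix (Fin 4) (Fin 4) F) = 0 := CharTwo.two_eq_zero
  generalize mat g = M at *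
  rcases eq_zero_or_one h1.symm with a | a <;> rcases eq_zero_or_one h2.symm with b | b <;>
    simp only [a, b, zero_smul, one_smul, add_zero] at c
  · exact Or.inl (e _ c)
  · refine Or.inr (Or.inl (e _ ?_))
    have : M ^ 6 + 1 = (M ^ 2 + 1) * (M ^ 4 + M ^ 2 + 1) - 2 * (M ^ 4 + M ^ 2) := by noncomm_ring
    rw [this, c, t]; simp
  · refine Or.inr (Or.inl (e _ ?_))
    have : M ^ 6 + 1 = (M ^ 2 + M + 1) * (M ^ 4 + M ^ 3 + M + 1) -
      2 * (M ^ 5 + M ^ 4 + M ^ 3 + M ^ 2 + M) := by noncomm_ring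
    rw [this, c, t]; simp
  · refine Or.inr (Or.inr (e _ ?_))
    have : M ^ 5 + 1 = (M + 1) * (M ^ 4 + M ^ 3 + M ^ 2 + M + 1) -
      2 * (M ^ 4 + M ^ 3 + M ^ 2 + M) := by noncomm_ring
    rw [this, c, t]; simp

variable [Finite F]

section General

variable {V : Type*} [AddCommGroup V] [Module F V] {B : LinearMap.BilinForm F V} {hA : B.IsAlt}
  {P : Subgroup (SpG B)} {u : V} {t g : SpG B}

theorem Hyp.coeff_mem [FiniteDimensional F V] (H : Hyp B P) (hu : u ∈ Sv hA P) {F₀ : Subfield F}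
    (h : ∀ s ∈ Sv hA P, ∀ w ∈ Sv hA P, B s w ∈ F₀) (hg : g ∈ P) (i : ℕ) :
    (g.1 : V →ₗ[F] V).charpoly.coeff i ∈ F₀ := by
  classical
  obtain ⟨b, hb, e, hl⟩ := exists_linearIndependent F (Sv hA P)
  have htop : ⊤ ≤ Submodule.span F (Set.range ((↑) : b → V)) := by
    rw [Subtype.range_coe, e]
    intro y _
    by_contra hy
    obtain ⟨z, hz, hyz⟩ := exists_perp_ne H.nd hy
    have : z = 0 := H.perp hu fun g hg => by
      rw [sym hA]; exact hz _ (Submodule.subset_span (Sv.map hg hu))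
    simp [this] at hyz
  have : Fintype b := (hl.set_finite_of_isNoetherian).fintype
  let β := Basis.mk hl htop
  have hβ : ∀ i, β i ∈ Sv hA P := fun i => by rw [Basis.mk_apply]; exact hb i.2
  let G : Matrix b b F₀ := of fun i j => ⟨B (β i) (β j), h _ (hβ i) _ (hβ j)⟩
  let Y : Matrix b b F₀ := of fun i j => ⟨B (β i) (g.1 (β j)), h _ (hβ i) _ (Sv.map hg (hβ j))⟩
  have hG : G.map F₀.subtype = LinearMap.BilinForm.toMatrix β B := by ext; simp [G]
  have hd : (G.map F₀.subtype).det ≠ 0 :=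
    hG ▸ (LinearMap.BilinForm.nondegenerate_iff_det_ne_zero β).1 H.nd
  have hd' : IsUnit G.det := by
    rw [isUnit_iff_ne_zero]
    intro e
    exact hd (by rw [← RingHom.mapMatrix_apply, ← RingHom.map_det, e, map_zero])
  have hY : G.map F₀.subtype * LinearMap.toMatrix β β (g.1 : V →ₗ[F] V) = Y.map F₀.subtype := by
    rw [hG, ← LinearMap.BilinForm.toMatrix_compRight]
    ext; simp [Y]
  have : LinearMap.toMatrix β β (g.1 : V →ₗ[F] V) = (G⁻¹ * Y).map F₀.subtype := by
    rw [Matrix.map_mul, ← hY, ← Matrix.mul_assoc, ← Matrix.map_mul, nonsing_inv_mul _ hd']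
    simp
  rw [← LinearMap.charpoly_toMatrix _ β, this, charpoly_map, coeff_map]
  exact Subtype.prop _

/-- An involution of type `c₂` with its distinguished vector. -/
structure C2 (t : SpG B) (u : V) : Prop where
  inv : ∀ x, t.1 (t.1 x) = x
  ne : u ≠ 0
  sq : ∀ v, B v (t.1 v) = B v u ^ 2
  fix : ∀ x, t.1 x = x → ∃ y, x = t.1 y + y
  perp : ∀ x, B x u = 0 → ∃ c : F, t.1 x = x + c • u

theorem exists_c2 (hB : B.Nondegenerate) (hA : B.IsAlt) (hd : finrank F V = 4)
    (ht : ∀ x, t.1 (t.1 x) = x) (h2 : finrank F (SpO.res t.1) = 2)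
    (hn : ¬ ∀ v, B v (t.1 v) = 0) : ∃ u, C2 t u := by
  have : FiniteDimensional F V := FiniteDimensional.of_finrank_pos (by rw [hd]; norm_num)
  obtain ⟨l, hl⟩ := SpO.inv_exists_sqrt hA t.2 ht
  obtain ⟨u, rfl⟩ := (B.toDual hB).surjective l
  have hu : ∀ v, B v (t.1 v) = B v u ^ 2 := fun v => by
    rw [← hl, LinearMap.BilinForm.toDual_def, sym hA]
  have hu0 : u ≠ 0 := by rintro rfl; exact hn (by simpa using hu)
  have hiso := SpO.inv_res_isotropic t.2 ht
  have hL : SpO.res t.1 = B.orthogonal (SpO.res t.1) :=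
    Submodule.eq_of_le_of_finrank_eq (fun y hy n hn => hiso n hn y hy)
      (by rw [LinearMap.BilinForm.finrank_orthogonal hB, hd, h2])
  have huL : u ∈ SpO.res t.1 := hL ▸ fun n hn => pow_eq_zero_iff (two_ne_zero) |>.1 (by
    rw [← hu, SpO.inv_fix_res ht hn, hA.self_eq_zero])
  have hm : ∀ y, t.1 y + y ∈ SpO.res t.1 := fun y =>
    ⟨y, by rw [SpO.dsp_apply, SpO.sub_vec F]⟩
  refine ⟨u, ht, hu0, hu, fun x hx => ?_, fun x hx => ?_⟩
  · have : x ∈ SpO.res t.1 := hL ▸ by
      rintro _ ⟨y, rfl⟩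
      exact SpO.dsp_apply_of_fixed t.2 hx y
    obtain ⟨y, rfl⟩ := this
    exact ⟨y, by rw [SpO.dsp_apply, SpO.sub_vec F]⟩
  · obtain ⟨w, hw, hwu⟩ : ∃ w ∈ SpO.res t.1, w ∉ F ∙ u := by
      by_contra hc
      push Not at hc
      have := Submodule.finrank_mono (show SpO.res t.1 ≤ F ∙ u from hc)
      rw [finrank_span_singleton hu0] at this
      omega
    have hi : ∀ c : F, c • u ≠ w := by simpa [Submodule.mem_span_singleton] using hwu
    have huw := hiso u huL w hw
    obtain ⟨a, b, e⟩ := perp_pair hB hA hd huw hu0 hi (hiso _ (hm x) _ huL) (hiso _ (hm x) _ hw)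
    have e' : t.1 x = x + (a • u + b • w) := by rw [e, add_left_comm, vadd F, add_zero]
    rcases eq_or_ne b 0 with rfl | hb
    · exact ⟨a, by simpa using e'⟩
    have := hu x
    rw [e'] at this
    simp only [map_add, map_smul, hA.self_eq_zero, hx, smul_eq_mul, mul_zero, zero_add, ne_eq,
      OfNat.ofNat_ne_zero, not_false_eq_true, zero_pow, mul_eq_zero, hb, false_or] at this
    obtain ⟨c, d, rfl⟩ := perp_pair hB hA hd huw hu0 hi hx this
    exact ⟨0, by simp [SpO.inv_fix_res ht huL, SpO.inv_fix_res ht hw]⟩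

theorem C2.map (hB : B.Nondegenerate) {s : SpG B} {w : V} (h : C2 t u) (h' : C2 s w)
    (e : g * t = s * g) : g.1 u = w :=
  sub_eq_zero.1 (hB.2 _ fun v => by
    obtain ⟨v, rfl⟩ := g.1.surjective v
    rw [map_sub, spG_form, sub_eq_zero]
    refine sq_inj ?_
    rw [← h.sq, ← h'.sq, ← spG_mul_apply, ← e, spG_mul_apply, spG_form])

theorem C2.pow_four (hB : B.Nondegenerate) (h : C2 t u) (e : g * t = t * g) : g ^ 4 = 1 := by
  have hu := h.map hB h e
  have hc : ∀ x, g.1 (t.1 x) = t.1 (g.1 x) := fun x => by rw [← spG_mul_apply, e, spG_mul_apply]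
  have h1 : ∀ x, B (g.1 x + x) u = 0 := fun x => by
    rw [map_add, LinearMap.add_apply, ← hu, spG_form, hu, CharTwo.add_self_eq_zero]
  have h2 : ∀ x, B x u = 0 → g.1 (t.1 x + x) = t.1 x + x := fun x hx => by
    obtain ⟨c, hc⟩ := h.perp x hx
    rw [hc, add_right_comm, vadd F, zero_add, map_smul, hu]
  have h3 : ∀ x, B x u = 0 → ∃ y, g.1 x + x = t.1 y + y := fun x hx => h.fix _ (by
    have := h2 x hx
    rw [map_add, hc] at this
    rw [map_add]
    linear_combination (norm := abel) this + vadd F (t.1 x) - vadd F (g.1 x))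
  refine spG_ext fun x => ?_
  obtain ⟨y, hy⟩ := h3 _ (h1 x)
  have := h2 _ (h1 y)
  have e1 : t.1 (g.1 y + y) + (g.1 y + y) = g.1 (t.1 y + y) + (t.1 y + y) := by
    simp only [map_add, hc]; abel
  have e2 : g.1 (g.1 x + x) + (g.1 x + x) = g.1 (g.1 x) + x := by
    rw [map_add, add_assoc, ← add_assoc (g.1 x), vadd F, zero_add]
  rw [e1, ← hy, e2] at this
  simp only [map_add] at this
  change g.1 (g.1 (g.1 (g.1 x))) = x
  linear_combination (norm := abel) this

end General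

theorem tau_surjective : Function.Surjective (tau (F := F)) := by
  have : Finite (G4 F) := Finite.of_injective _ mat_injective
  exact Finite.injective_iff_surjective.1 tau_injective

theorem involution_cases {t : G4 F} (ht : t * t = 1) (h1 : t ≠ 1) :
    (∃ u, u ≠ 0 ∧ t = spT spB_isAlt u 1) ∨ (∃ u, u ≠ 0 ∧ tau t = spT spB_isAlt u 1) ∨
      ∃ u, C2 t u := by
  have hB := spB_nondegenerate (m := 2) (R := F)
  have hA := spB_isAlt (m := 2) (R := F)
  have : Fact (Nat.Prime 2) := ⟨Nat.prime_two⟩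
  have key : ∀ t : G4 F, t * t = 1 → t ≠ 1 → (∀ v, spB 2 F v (t.1 v) = 0) →
      finrank F (SpO.res t.1) = 2 := fun t ht h1 h => by
    have := SpO.inv_rank_bounds hB (a := t) t.2 (orderOf_eq_prime (by rw [sq, ht]) h1)
      (sp_finrank_std (m := 2))
    obtain ⟨k, hk⟩ := SpO.even_of_alt hB hA t.2 h
    omega
  have hi := SpO.invol_of_mul_self ht
  by_cases h : ∀ v, spB 2 F v (t.1 v) = 0
  · let t₀ : G4 F := spT hA (Pi.single (.inl 0) 1) 1
    have e0 : t₀ * t₀ = 1 := by rw [spT_mul, CharTwo.add_self_eq_zero, spT_zero]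
    have e1 : tau t₀ * tau t₀ = 1 := by rw [← map_mul, e0, map_one]
    have e2 : t₀ ≠ 1 := by simp [t₀, spT_eq_one_iff hB]
    have e3 : ∀ v, spB 2 F v ((tau t₀).1 v) = 0 := fun v => by
      rw [tau_apply, spStdEquiv_apply, show (spStdEquiv 2 F).symm t₀ = spTM _ 1 from rfl,
        sp4Hom_mulVec]
      simp only [map_add, map_smul, hA.self_eq_zero, spB_right_single_inl, smul_eq_mul]
      grind
    have e4 : tau (tau t₀) = t₀ := mat_injective (by
      rw [mat_tau_tau, mat_def, show (spStdEquiv 2 F).symm t₀ = spTM _ 1 from rfl, spTM_e4]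
      ext i j
      fin_cases i <;> fin_cases j <;> simp [e4, Fin.rev, CharTwo.add_self_eq_zero])
    have := (SpO.inv_isConj_iff (wittData_alt hA) hB hA SpO.mem_SpG_iff_witt (tau t₀) t
      (SpO.invol_of_mul_self e1) hi).2 ⟨by
        rw [key t ht h1 h, key _ e1 (fun e => e2 (tau_injective (by rw [e, map_one]))) e3],
        iff_of_true e3 h⟩
    obtain ⟨c, rfl⟩ := isConj_iff.1 this
    refine Or.inr (Or.inl ⟨(tau c).1 (Pi.single (.inl 0) 1), sp_apply_ne_zero _ (by simp), ?_⟩)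
    rw [map_mul, map_mul, e4, map_inv, spT_conj]
  have := SpO.inv_rank_bounds hB (a := t) t.2 (orderOf_eq_prime (by rw [sq, ht]) h1)
    (sp_finrank_std (m := 2))
  rcases (by omega : finrank F (SpO.res t.1) = 1 ∨ finrank F (SpO.res t.1) = 2) with e | e
  · obtain ⟨⟨v, hv⟩, hv0, hv1⟩ := finrank_eq_one_iff'.1 e
    obtain ⟨c, rfl⟩ := sp_eq_spT_of_sub_mem hB hA t (v := v) fun x => by
      obtain ⟨a, ha⟩ := hv1 ⟨_, x, rfl⟩
      exact ⟨a, (congrArg Subtype.val ha).symm⟩
    obtain ⟨s, rfl⟩ := exists_sqrt c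
    rw [← spT_smul_one] at h1 ⊢
    exact Or.inl ⟨_, fun e => h1 (by rw [e, spT_zero_vec]), rfl⟩
  · exact Or.inr (Or.inr (exists_c2 hB hA (sp_finrank_std (m := 2)) hi e h))

/-- The hypotheses on the socle. -/
structure Res (P : Subgroup (G4 F)) : Prop where
  card : 4 ≤ Nat.card F
  simple : IsSimpleGroup P
  irr : ∀ W : Submodule F (Fin 2 ⊕ Fin 2 → F), (∀ g ∈ P, ∀ w ∈ W, g.1 w ∈ W) → W = ⊥ ∨ W = ⊤
  ne_top : P ≠ ⊤
  trace : ∀ F₀ : Subfield F, (∀ g ∈ P, tr g ∈ F₀) → F₀ = ⊤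

variable {P : Subgroup (G4 F)}

theorem Res.cen (H : Res P) {a : G4 F} (ha : a * a = 1) (h : ∀ g ∈ P, g * a = a * g) : a = 1 := by
  have hi := SpO.invol_of_mul_self ha
  rcases H.irr (LinearMap.ker (SpO.dsp a.1)) (fun g hg w hw => by
    rw [LinearMap.mem_ker, SpO.dsp_apply, sub_eq_zero] at hw ⊢
    rw [← spG_mul_apply, ← h g hg, spG_mul_apply, hw]) with e | e
  · refine spG_ext fun x => sub_eq_zero.1 ?_
    rw [spG_one_apply, ← Submodule.mem_bot F, ← e, LinearMap.mem_ker, SpO.dsp_apply, map_sub, hi,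
      SpO.sub_vec F, SpO.sub_vec F, SpO.sub_vec F, add_comm x, vadd F]
  · exact spG_ext fun x => sub_eq_zero.1 (show x ∈ LinearMap.ker (SpO.dsp a.1) from
      e ▸ Submodule.mem_top)

theorem hyp_of_cen (hs : IsSimpleGroup P)
    (h : ∀ a : G4 F, a * a = 1 → (∀ g ∈ P, g * a = a * g) → a = 1) : Hyp (spB 2 F) P := by
  refine ⟨spB_nondegenerate, sp_finrank_std (m := 2), hs, fun v hv => ?_⟩
  have := h (spT spB_isAlt v 1) (by rw [spT_mul, CharTwo.add_self_eq_zero, spT_zero])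
    fun g hg => by rw [← mul_inv_eq_iff_eq_mul, spT_conj, hv g hg]
  simpa [spT_eq_one_iff (spB_nondegenerate (m := 2) (R := F))] using this

theorem Res.exists_ne (H : Res P) : ∃ a : F, a ≠ 0 ∧ a ≠ 1 := by
  obtain ⟨a, h0, h1⟩ := sp_exists_sq_ne_one H.card
  exact ⟨a, h0, by rintro rfl; simp at h1⟩

theorem Res.c2 (H : Res P) {t : G4 F} (hP : t ∈ P) (ht : t * t = 1) (h1 : t ≠ 1) :
    ∃ u, C2 t u := by
  rcases involution_cases ht h1 with ⟨u, hu, rfl⟩ | ⟨u, hu, e⟩ | h
  · have H' := hyp_of_cen H.simple fun a => H.cen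
    rcases H'.top_or_rat H.exists_ne ⟨hu, hP⟩ with h | ⟨F₀, h0, h⟩
    · exact absurd h H.ne_top
    refine absurd (H.trace F₀ fun g hg => ?_) h0
    have := H'.coeff_mem ⟨hu, hP⟩ h hg 3
    rw [charpoly_lin, charpoly_mat] at this
    simpa [coeff_X, coeff_one] using this
  · have := H.simple
    have H' : Hyp (spB 2 F) (P.map tau) :=
      hyp_of_cen (P.equivMapOfInjective tau tau_injective).symm.isSimpleGroup fun a ha h => by
        obtain ⟨a, rfl⟩ := tau_surjective a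
        rw [H.cen (a := a) (tau_injective (by rw [map_mul, ha, map_one])) fun g hg =>
          tau_injective (by rw [map_mul, map_mul, h _ ⟨g, hg, rfl⟩]), map_one]
    have hu' : u ∈ Sv spB_isAlt (P.map tau) := ⟨hu, t, hP, e⟩
    rcases H'.top_or_rat H.exists_ne hu' with h | ⟨F₀, h0, h⟩
    · refine absurd (eq_top_iff.2 fun g _ => ?_) H.ne_top
      obtain ⟨k, hk, e⟩ : tau g ∈ P.map tau := h ▸ Subgroup.mem_top _
      exact tau_injective e ▸ hk
    refine absurd (H.trace F₀ fun g hg => ?_) h0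
    have := H'.coeff_mem hu' h ⟨g, hg, rfl⟩ 2
    rw [charpoly_lin, charpoly_mat, tr_tau_tau] at this
    simp only [coeff_add, coeff_X_pow, coeff_C_mul, coeff_X, coeff_one] at this
    obtain ⟨b, hb⟩ := exists_sqrt (F := F₀) ⟨tr g ^ 2, by simpa using this⟩
    rw [← sq_inj (congrArg Subtype.val hb)]
    exact b.2
  · exact h

end Cfsg.Agent.Cl.Sp4E
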