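/-
Subgroups of `Sp₄(2ⁿ)`, IV: an absolutely irreducible `SL₂(2ᵏ)` all of whose involutions have
type `c₂` fixes a quadratic form.
-/
import Mathlib
import Cfsg.Agent.Cl.Sp4EC

set_option autoImplicit false
set_option linter.unusedSectionVars false
set_option linter.unusedVariables false

namespace Cfsg.Agent.Cl.Sp4E

open Matrix Module Cfsg.Agent.Cl Cfsg.Agent.GT Cfsg.Agent.Cl.MaxSp
open scoped MatrixGroups

variable {F : Type*} [Field F] [CharP F 2] [Finite F] {V : Type*} [AddCommGroup V] [Module F V]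
  {B : LinearMap.BilinForm F V} {P : Subgroup (SpG B)} {K : Type*} [Field K] [CharP K 2] [Finite K]

/-- A quadratic form with polar form `B`. -/
structure IsQ (B : LinearMap.BilinForm F V) (Q : V → F) : Prop where
  smul : ∀ (c : F) v, Q (c • v) = c ^ 2 * Q v
  add : ∀ u v, Q (u + v) = Q u + Q v + B u v

theorem IsQ.comp {Q : V → F} (h : IsQ B Q) (g : SpG B) : IsQ B fun v => Q (g.1 v) :=
  ⟨fun c v => by rw [map_smul, h.smul], fun u v => by rw [map_add, h.add, spG_form]⟩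

theorem IsQ.sum {ι : Type*} {s : Finset ι} {Q : ι → V → F} (h : ∀ i, IsQ B (Q i))
    (hs : (s.card : F) = 1) : IsQ B fun v => ∑ i ∈ s, Q i v :=
  ⟨fun c v => by simp only [(h _).smul, Finset.mul_sum], fun u v => by
    simp only [(h _).add, Finset.sum_add_distrib, Finset.sum_const, nsmul_eq_mul, hs, one_mul]⟩

theorem IsQ.add_sq {Q : V → F} (h : IsQ B Q) (a : F) (z : V) :
    IsQ B fun v => Q v + a * B v z ^ 2 :=
  ⟨fun c v => by simp only [h.smul, map_smul, LinearMap.smul_apply, smul_eq_mul]; ring,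
    fun u v => by simp only [h.add, map_add, LinearMap.add_apply, CharTwo.add_sq]; ring⟩

/-- The Steinberg generators of `P ≅ SL₂(K)`. -/
structure Rel (P : Subgroup (SpG B)) (x : K → SpG B) (n : SpG B) (h : K → SpG B) : Prop where
  add : ∀ a b, x (a + b) = x a * x b
  nn : n * n = 1
  hx : ∀ s a, s ≠ 0 → h s * x a = x (s ^ 2 * a) * h s
  hn : ∀ s, s ≠ 0 → h s * n = n * h s⁻¹
  hh : ∀ s t, s ≠ 0 → t ≠ 0 → h s * h t = h (s * t)
  h1 : h 1 = 1
  br : ∀ a, a ≠ 0 → x a * n * x a⁻¹ * n * x a = h a * n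
  gen : ∀ p : SpG B → Prop, p 1 → (∀ a b, p a → p b → p (a * b)) → (∀ a, p (x a)) → p n →
    ∀ g ∈ P, p g
  gen' : ∀ p : SpG B → Prop, p 1 → (∀ a b, p a → p b → p (a * b)) → (∀ a, p (x a)) →
    (∀ a, p (n * x a * n)) → ∀ g ∈ P, p g
  nd : B.Nondegenerate
  alt : B.IsAlt
  dim : finrank F V = 4
  irr : ∀ W : Submodule F V, (∀ g ∈ P, ∀ w ∈ W, g.1 w ∈ W) → W = ⊥ ∨ W = ⊤
  abs : ∀ f : V →ₗ[F] V, (∀ g ∈ P, ∀ v, f (g.1 v) = g.1 (f v)) → ∃ c : F, ∀ v, f v = c • v
  c2 : ∀ a, a ≠ 0 → ∃ u, C2 (x a) u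

variable {x h : K → SpG B} {n : SpG B}

theorem Rel.zero (R : Rel P x n h) : x 0 = 1 := by
  simpa using R.add 0 0

theorem Rel.n_n (R : Rel P x n h) (v : V) : n.1 (n.1 v) = v := by
  rw [← spG_mul_apply, R.nn]; rfl

theorem Rel.irr' (R : Rel P x n h) {W : Submodule F V} (h1 : ∀ a, ∀ w ∈ W, (x a).1 w ∈ W)
    (h2 : ∀ w ∈ W, n.1 w ∈ W) : W = ⊥ ∨ W = ⊤ :=
  R.irr W (R.gen (fun g => ∀ w ∈ W, g.1 w ∈ W) (fun w hw => hw)
    (fun a b ha hb w hw => ha _ (hb w hw)) h1 h2)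

theorem Rel.not_pair (R : Rel P x n h) {v : V} (hv : v ≠ 0) (h1 : ∀ a, (x a).1 v = v)
    (h2 : ∀ a, ∃ c : F, (x a).1 (n.1 v) = n.1 v + c • v) : False := by
  have m1 : v ∈ Submodule.span F {v, n.1 v} := Submodule.subset_span (by simp)
  have m2 : n.1 v ∈ Submodule.span F {v, n.1 v} := Submodule.subset_span (by simp)
  rcases R.irr' (W := Submodule.span F {v, n.1 v}) (fun a w hw => by
      obtain ⟨s, t, rfl⟩ := Submodule.mem_span_pair.1 hw
      obtain ⟨c, hc⟩ := h2 a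
      rw [map_add, map_smul, map_smul, h1, hc]
      exact add_mem (Submodule.smul_mem _ _ m1)
        (Submodule.smul_mem _ _ (add_mem m2 (Submodule.smul_mem _ _ m1)))) (fun w hw => by
      obtain ⟨s, t, rfl⟩ := Submodule.mem_span_pair.1 hw
      rw [map_add, map_smul, map_smul, R.n_n]
      exact add_mem (Submodule.smul_mem _ _ m2) (Submodule.smul_mem _ _ m1)) with e | e
  · exact hv ((Submodule.mem_bot F).1 (e ▸ m1))
  · classical
    have := finrank_span_finset_le_card (R := F) ({v, n.1 v} : Finset V)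
    rw [Set.finrank, Finset.coe_pair, e, finrank_top, R.dim] at this
    have := this.trans Finset.card_le_two
    omega

theorem Rel.eq_zero (R : Rel P x n h) {v : V} (h1 : ∀ a, (x a).1 v = v)
    (h2 : ∀ a, (x a).1 (n.1 v) = n.1 v) : v = 0 := by
  by_contra hv
  have m : v ∈ F ∙ v := Submodule.mem_span_singleton_self v
  have key := R.gen' (fun g => g.1 v = v) rfl (fun a b ha hb => by rw [spG_mul_apply, hb, ha]) h1
    fun a => by rw [spG_mul_apply, spG_mul_apply, h2, R.n_n]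
  rcases R.irr (F ∙ v) (fun g hg w hw => by
      obtain ⟨s, rfl⟩ := Submodule.mem_span_singleton.1 hw
      rw [map_smul, key g hg]
      exact Submodule.smul_mem _ _ m) with e | e
  · exact hv ((Submodule.mem_bot F).1 (e ▸ m))
  · have := finrank_span_singleton (K := F) hv
    rw [e, finrank_top, R.dim] at this
    omega

theorem Rel.fix_u (R : Rel P x n h) {a : K} {u : V} (hu : C2 (x a) u) (b : K) : (x b).1 u = u :=
  hu.map R.nd hu (by rw [← R.add, ← R.add, add_comm])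

theorem Rel.not_quadratic (R : Rel P x n h)
    (hq : ∀ a b y, (x a).1 ((x b).1 y + y) = (x b).1 y + y) : False := by
  let L : Submodule F V :=
    { carrier := {v | ∀ a, (x a).1 v = v}
      add_mem' := fun ha hb a => by rw [map_add, ha, hb]
      zero_mem' := fun a => map_zero _
      smul_mem' := fun c v hv a => by rw [map_smul, hv] }
  have hL : ∀ s, s ≠ 0 → ∀ v ∈ L, (h s).1 v ∈ L := fun s hs v hv a => by
    have := R.hx s (s⁻¹ ^ 2 * a) hs
    rw [← mul_assoc, ← mul_pow, mul_inv_cancel₀ hs, one_pow, one_mul] at this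
    rw [← spG_mul_apply, ← this, spG_mul_apply, hv]
  have hA : ∀ a, a ≠ 0 → ∀ v ∈ L, (x a).1 (n.1 v) + n.1 v = (h a).1 v := fun a ha v hv => by
    have e := congrArg (fun g : SpG B => g.1 v) (R.br a⁻¹ (inv_ne_zero ha))
    simp only [R.hn _ (inv_ne_zero ha), inv_inv, spG_mul_apply, hv _] at e
    have hz : (x a).1 (n.1 v) + n.1 v ∈ L := fun b => hq b a _
    generalize hz' : (x a).1 (n.1 v) + n.1 v = z at hz
    have e1 : (x a).1 (n.1 v) = n.1 v + z := by rw [← hz', add_left_comm, vadd F, add_zero]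
    rw [e1, map_add, R.n_n, map_add, hv] at e
    have e2 : n.1 (z + (h a).1 v) = v + ((x a⁻¹).1 (n.1 z) + n.1 z) := by
      rw [map_add, ← e]; abel
    have := R.eq_zero (v := z + (h a).1 v) (L.add_mem hz (hL a ha v hv)) fun b => by
      rw [e2, map_add, hv, hq]
    rw [← add_left_inj ((h a).1 v), this, vadd F]
  obtain ⟨v, hv⟩ := R.c2 1 one_ne_zero
  have hvL : v ∈ L := R.fix_u hv
  have htop : L ⊔ L.map (n.1 : V →ₗ[F] V) = ⊤ := by
    refine (R.irr' (fun a w hw => ?_) fun w hw => ?_).resolve_left fun e => hv.ne ?_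
    · rw [show (x a).1 w = ((x a).1 w + w) + w by rw [add_assoc, vadd F, add_zero]]
      exact add_mem (Submodule.mem_sup_left fun b => hq b a w) hw
    · obtain ⟨y, hy, _, ⟨z, hz, rfl⟩, rfl⟩ := Submodule.mem_sup.1 hw
      rw [map_add, LinearEquiv.coe_coe, R.n_n]
      exact add_mem (Submodule.mem_sup_right ⟨y, hy, rfl⟩) (Submodule.mem_sup_left hz)
    · exact (Submodule.mem_bot F).1 (e ▸ Submodule.mem_sup_left hvL)
  refine R.not_pair hv.ne hvL fun a => ?_
  rcases eq_or_ne a 0 with rfl | ha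
  · exact ⟨0, by simp [R.zero]⟩
  let N : V →ₗ[F] V := ((x a).1 : V →ₗ[F] V) + LinearMap.id
  let θ : V →ₗ[F] V := N ∘ₗ (n.1 : V →ₗ[F] V) + (n.1 : V →ₗ[F] V) ∘ₗ N
  have hθ : ∀ y, θ y = (x a).1 (n.1 y) + n.1 y + n.1 ((x a).1 y + y) := fun y => rfl
  have θ1 : ∀ y ∈ L, θ y = (h a).1 y := fun y hy => by
    rw [hθ, hA a ha y hy, hy, vadd F, map_zero, add_zero]
  have θ2 : ∀ y, θ (n.1 y) = n.1 (θ y) := fun y => by
    simp only [hθ, map_add, R.n_n]; abel
  obtain ⟨c, hc⟩ := R.abs θ (R.gen (fun g => ∀ v, θ (g.1 v) = g.1 (θ v)) (fun v => rfl)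
    (fun a b ha hb v => by rw [spG_mul_apply, ha, hb, spG_mul_apply]) (fun b y => by
      rcases eq_or_ne b 0 with rfl | hb
      · simp [R.zero]
      obtain ⟨y, hy, _, ⟨z, hz, rfl⟩, rfl⟩ := Submodule.mem_sup.1 (htop ▸ Submodule.mem_top (x := y))
      have e : ∀ z ∈ L, (x b).1 (n.1 z) = (h b).1 z + n.1 z := fun z hz => by
        rw [← hA b hb z hz, add_assoc, vadd F, add_zero]
      simp only [map_add, LinearEquiv.coe_coe, hy b, e z hz, θ2, θ1 y hy, θ1 z hz, hL a ha y hy b,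
        θ1 _ (hL b hb z hz), e _ (hL a ha z hz), ← spG_mul_apply (h a), ← spG_mul_apply (h b),
        R.hh _ _ ha hb, R.hh _ _ hb ha, mul_comm a b]) θ2)
  exact ⟨c, by rw [← hc, θ1 v hvL, ← hA a ha v hvL, add_left_comm, vadd F, add_zero]⟩

theorem card_cast_eq_zero [Fintype K] : (Fintype.card K : F) = 0 := by
  have : Fact (Nat.Prime 2) := ⟨Nat.prime_two⟩
  obtain ⟨k, -, hk⟩ := FiniteField.card K 2
  rw [hk, Nat.cast_pow, Nat.cast_ofNat, CharTwo.two_eq_zero, zero_pow k.ne_zero]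

/-- A form fixed by the Borel subgroup gives a form fixed by the group. -/
theorem Rel.average (R : Rel P x n h) {Q : V → F} (hQ : IsQ B Q) (h1 : ∀ a v, Q ((x a).1 v) = Q v)
    (h2 : ∀ s, s ≠ 0 → ∀ v, Q ((h s).1 v) = Q v) :
    ∃ Q : V → F, IsQ B Q ∧ ∀ g ∈ P, ∀ v, Q (g.1 v) = Q v := by
  classical
  have := Fintype.ofFinite K
  let γ : Option K → SpG B := fun o => o.elim 1 fun a => n * x a
  refine ⟨fun v => ∑ o, Q ((γ o).1 v), IsQ.sum (fun o => hQ.comp _) (by
    rw [Finset.card_univ, Fintype.card_option, Nat.cast_succ, card_cast_eq_zero, zero_add]),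
    R.gen (fun g => ∀ v, ∑ o, Q ((γ o).1 (g.1 v)) = ∑ o, Q ((γ o).1 v)) (fun v => rfl)
      (fun a b ha hb v => by rw [spG_mul_apply, ha, hb]) (fun b v => ?_) fun v => ?_⟩
  · simp only [Fintype.sum_option, γ, Option.elim, spG_one_apply, h1]
    rw [← Equiv.sum_comp (Equiv.addRight b) fun a => Q ((n * x a).1 v)]
    simp only [Equiv.coe_addRight, R.add, spG_mul_apply]
  · simp only [Fintype.sum_option, γ, Option.elim, spG_one_apply]
    rw [← Equiv.sum_comp (Equiv.inv K) fun a => Q ((n * x a).1 v),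
      ← Finset.add_sum_erase _ _ (Finset.mem_univ (0 : K)),
      ← Finset.add_sum_erase _ _ (Finset.mem_univ (0 : K)), add_left_comm]
    simp only [Equiv.inv_apply, _root_.inv_zero, R.zero, mul_one, R.n_n]
    congr 2
    refine Finset.sum_congr rfl fun a ha => ?_
    have ha : a⁻¹ ≠ 0 := inv_ne_zero (Finset.ne_of_mem_erase ha)
    have e := congrArg (fun g : SpG B => Q (g.1 ((x a⁻¹).1 v))) (R.br a⁻¹ ha)
    have e' : (x a⁻¹).1 ((x a⁻¹).1 v) = v := by
      rw [← spG_mul_apply, ← R.add, CharTwo.add_self_eq_zero, R.zero, spG_one_apply]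
    simpa only [inv_inv, spG_mul_apply, h1, h2 _ ha, e'] using e

theorem Rel.exists_form (R : Rel P x n h) {Q₀ : V → F} (hQ₀ : IsQ B Q₀) :
    ∃ Q : V → F, IsQ B Q ∧ ∀ g ∈ P, ∀ v, Q (g.1 v) = Q v := by
  classical
  have := Fintype.ofFinite K
  have hA := R.alt
  obtain ⟨e, he⟩ := R.c2 1 one_ne_zero
  have hu : ∀ a, a ≠ 0 → ∃ c : F, C2 (x a) (c • e) := fun a ha => by
    obtain ⟨u, hu⟩ := R.c2 a ha
    by_contra hc
    have hi : ∀ c : F, c • e ≠ u := fun c h => hc ⟨c, h ▸ hu⟩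
    have key : ∀ b, b ≠ 0 → ∀ v w, (x b).1 v = v → (x b).1 w = w → B v w = 0 :=
      fun b hb v w hv hw => by
        obtain ⟨u, hu⟩ := R.c2 b hb
        obtain ⟨y, rfl⟩ := hu.fix v hv
        rw [map_add, LinearMap.add_apply, ← hw, spG_form, hw, CharTwo.add_self_eq_zero]
    refine R.not_quadratic fun c b y => ?_
    rcases eq_or_ne b 0 with rfl | hb
    · simp [R.zero, vadd F]
    have hy : (x b).1 ((x b).1 y + y) = (x b).1 y + y := by
      rw [map_add, ← spG_mul_apply, ← R.add, CharTwo.add_self_eq_zero, R.zero, spG_one_apply,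
        add_comm]
    obtain ⟨s, t, e⟩ := perp_pair R.nd hA R.dim (key b hb _ _ (R.fix_u he b) (R.fix_u hu b)) he.ne
      hi (key b hb _ _ hy (R.fix_u he b)) (key b hb _ _ hy (R.fix_u hu b))
    rw [← e, map_add, map_smul, map_smul, R.fix_u he, R.fix_u hu]
  have hp : ∀ a y, B y e = 0 → ∃ k : F, (x a).1 y = y + k • e := fun a y hy => by
    rcases eq_or_ne a 0 with rfl | ha
    · exact ⟨0, by simp [R.zero]⟩
    obtain ⟨c, hc⟩ := hu a ha
    obtain ⟨k, hk⟩ := hc.perp y (by simp [hy])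
    exact ⟨k * c, by rw [hk, smul_smul]⟩
  have hδ : B e (n.1 e) ≠ 0 := fun h0 =>
    R.not_pair he.ne (R.fix_u he) fun a => hp a _ (alt_zero hA h0)
  have hl : ∀ s, s ≠ 0 → ∃ l : F, (h s).1 e = l • e := fun s hs => by
    obtain ⟨c, hc⟩ := hu (s ^ 2 * 1) (by simpa using hs)
    exact ⟨c, he.map R.nd hc (R.hx s 1 hs)⟩
  have hinv : ∀ s, s ≠ 0 → ∀ v, (h s).1 ((h s⁻¹).1 v) = v := fun s hs v => by
    rw [← spG_mul_apply, R.hh _ _ hs (inv_ne_zero hs), mul_inv_cancel₀ hs, R.h1, spG_one_apply]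
  have hl' : ∀ s, s ≠ 0 → ∃ l : F, l ≠ 0 ∧ (h s).1 e = l • e ∧ (h s).1 (n.1 e) = l⁻¹ • n.1 e :=
    fun s hs => by
      obtain ⟨l, e1⟩ := hl s hs
      obtain ⟨l', e2⟩ := hl _ (inv_ne_zero hs)
      have e3 := hinv s hs e
      rw [e2, map_smul, e1, smul_smul] at e3
      have e4 : l' * l = 1 := smul_left_injective F he.ne (e3.trans (one_smul F e).symm)
      refine ⟨l, right_ne_zero_of_mul_eq_one e4, e1, ?_⟩
      rw [← spG_mul_apply, R.hn s hs, spG_mul_apply, e2, map_smul, eq_inv_of_mul_eq_one_left e4]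
  set e' := n.1 e
  set δ := B e e'
  obtain ⟨Q₁, hQ₁, i₁⟩ : ∃ Q : V → F, IsQ B Q ∧ ∀ s, s ≠ 0 → ∀ v, Q ((h s).1 v) = Q v := by
    refine ⟨fun v => ∑ s : Kˣ, Q₀ ((h s).1 v), IsQ.sum (fun s => hQ₀.comp _) (by
      rw [Finset.card_univ, Fintype.card_units, Nat.cast_sub Fintype.card_pos, card_cast_eq_zero]
      simp [CharTwo.neg_eq]), fun s hs v => ?_⟩
    beta_reduce
    rw [← Equiv.sum_comp (Equiv.mulRight (Units.mk0 s hs)) fun s : Kˣ => Q₀ ((h s).1 v)]
    refine Finset.sum_congr rfl fun t _ => ?_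
    rw [← spG_mul_apply, R.hh _ _ t.ne_zero hs]; rfl
  obtain ⟨Q, hQ, i, q1, q2⟩ : ∃ Q : V → F, IsQ B Q ∧ (∀ s, s ≠ 0 → ∀ v, Q ((h s).1 v) = Q v) ∧
      Q e = 0 ∧ Q e' = 0 := by
    refine ⟨_, (hQ₁.add_sq (Q₁ e' / δ ^ 2) e).add_sq (Q₁ e / δ ^ 2) e', fun s hs v => ?_, ?_, ?_⟩
    · obtain ⟨l, l0, l1, l2⟩ := hl' s hs
      have a1 := i₁ s hs e
      have a2 := i₁ s hs e'
      have a3 := spG_form (h s) v e
      have a4 := spG_form (h s) v e'
      rw [l1] at a1 a3
      rw [l2] at a2 a4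
      rw [hQ₁.smul] at a1 a2
      rw [map_smul, smul_eq_mul] at a3 a4
      simp only [i₁ s hs, ← a3, ← a4]
      field_simp at a2 ⊢
      linear_combination (l ^ 2 * B ((h s).1 v) e ^ 2) * a2 + B ((h s).1 v) e' ^ 2 * a1
    · simp only [hA.self_eq_zero]; field_simp; grind
    · simp only [hA.self_eq_zero, sym hA e' e]; field_simp; grind
  have hy : ∀ a, B ((x a).1 e' + e') e = 0 := fun a => by
    rw [map_add, LinearMap.add_apply, ← R.fix_u he a, spG_form, R.fix_u he a,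
      CharTwo.add_self_eq_zero]
  have hab : ∀ a b, ∃ k : F, (x a).1 ((x b).1 e' + e') = (x b).1 e' + e' + k • e ∧
      Q ((x (a + b)).1 e') = Q ((x a).1 e') + Q ((x b).1 e') ∧
      B e' ((x (a + b)).1 e') = B e' ((x a).1 e') + B e' ((x b).1 e') + k * δ := fun a b => by
    obtain ⟨k, hk⟩ := hp a _ (hy b)
    have e1 : (x (a + b)).1 e' = (x a).1 e' + (x a).1 ((x b).1 e' + e') := by
      rw [R.add, spG_mul_apply, map_add, add_left_comm, vadd F, add_zero]
    refine ⟨k, hk, ?_, ?_⟩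
    · rw [e1, hQ.add, spG_form, hk, hQ.add, hQ.smul, q1, map_smul, hy, hQ.add, q2, map_add,
        hA.self_eq_zero, sym hA e', smul_zero]
      linear_combination CharTwo.add_self_eq_zero (B ((x b).1 e') e')
    · rw [e1, hk]
      simp only [map_add, map_smul, hA.self_eq_zero, sym hA e' e, smul_eq_mul]
      ring
  have hprop : ∀ a, Q ((x a).1 e') * B e' ((x 1).1 e') = Q ((x 1).1 e') * B e' ((x a).1 e') :=
    fun a => by
      rcases eq_or_ne a 0 with rfl | ha
      · simp [R.zero, q2, hA.self_eq_zero]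
      obtain ⟨s, rfl⟩ := exists_sqrt a
      have hs : s ≠ 0 := by rintro rfl; simp at ha
      obtain ⟨l, l0, -, l2⟩ := hl' s hs
      have e1 := congrArg (fun g : SpG B => g.1 e') (R.hx s 1 hs)
      simp only [spG_mul_apply, mul_one, l2, map_smul] at e1
      have a1 := i s hs ((x 1).1 e')
      have a2 := spG_form (h s) e' ((x 1).1 e')
      rw [e1, hQ.smul] at a1
      rw [e1, l2] at a2
      simp only [map_smul, LinearMap.smul_apply, smul_eq_mul] at a2
      rw [← a1, ← a2]; ring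
  have hγ : B e' ((x 1).1 e') ≠ 0 := by
    rw [he.sq, sym hA]; exact pow_ne_zero 2 hδ
  have hdec : ∀ v, ∃ (y : V) (m : F), B y e = 0 ∧ v = y + m • e' := fun v =>
    ⟨v + (B v e / δ) • e', B v e / δ, by
      simp only [map_add, map_smul, LinearMap.add_apply, LinearMap.smul_apply, sym hA e' e,
        smul_eq_mul]
      rw [div_mul_cancel₀ _ hδ, CharTwo.add_self_eq_zero], by rw [add_assoc, vadd F, add_zero]⟩
  have hφ : Q ((x 1).1 e') = 0 := by
    by_contra h0
    refine R.not_quadratic fun a b v => ?_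
    obtain ⟨y, m, h1, rfl⟩ := hdec v
    obtain ⟨k, hk, e1, e2⟩ := hab a b
    have := hprop (a + b)
    rw [e1, e2, add_mul, hprop a, hprop b] at this
    have hk0 : k = 0 := by
      have : Q ((x 1).1 e') * (k * δ) = 0 := by linear_combination -this
      simpa [h0, hδ] using this
    obtain ⟨j, hj⟩ := hp b y h1
    have e3 : (x b).1 (y + m • e') + (y + m • e') = j • e + m • ((x b).1 e' + e') := by
      rw [map_add, map_smul, hj]
      linear_combination (norm := module) vadd F y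
    rw [e3, map_add, map_smul, map_smul, R.fix_u he, hk, hk0, zero_smul, add_zero]
  refine R.average hQ (fun a v => ?_) i
  obtain ⟨y, m, h1, rfl⟩ := hdec v
  obtain ⟨j, hj⟩ := hp a y h1
  have := hprop a
  rw [hφ, zero_mul, mul_eq_zero, or_iff_left hγ] at this
  rw [map_add, hQ.add, spG_form, map_smul, hQ.smul, this, hj, hQ.add, hQ.add, hQ.smul, hQ.smul,
    q1, q2, map_smul, h1]
  simp

end Cfsg.Agent.Cl.Sp4E
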