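import Mathlib

/-!
Chains with prescribed rank steps in a finite ranked poset, and the Hessenberg alternating sum of their numbers,
which is the Moebius function up to sign.
-/

set_option autoImplicit false

namespace Cfsg.Agent.Cl.StF

open Finset

variable {L : Type*} [Fintype L] [PartialOrder L] [OrderTop L] (d : L → ℕ)

open Classical in
/-- Sum over the elements above `W` whose rank is `m` larger. -/
noncomputable def H (m : ℕ) (f : L → ℂ) (W : L) : ℂ := ∑ W' with W ≤ W' ∧ d W' = d W + m, f W'

open Classical in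
/-- The number of chains from `W` to the top with rank steps `μ`. -/
noncomputable def cnt : (k : ℕ) → (Fin k → ℕ) → L → ℂ
  | 0, _, W => if W = ⊤ then 1 else 0
  | k + 1, μ, W => H d (μ 0) (cnt k (Fin.tail μ)) W

/-- Chains above `W` with rank steps `μ`. -/
abbrev Fl {k : ℕ} (μ : Fin k → ℕ) (W : L) : Type _ :=
  {E : Fin k → L // Monotone E ∧ (∀ j, W ≤ E j) ∧ ∀ j, d (E j) = d W + ∑ i with i ≤ j, μ i}

variable {d}

omit [OrderTop L] in
theorem H_zero (hd : StrictMono d) (f : L → ℂ) (W : L) : H d 0 f W = f W := by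
  classical
  rw [H, sum_eq_single W]
  · intro W' hW' hne
    obtain ⟨h1, h2⟩ := (mem_filter.1 hW').2
    exact absurd (hd (lt_of_le_of_ne h1 hne.symm)) (by omega)
  · intro h
    exact absurd (by simp) h

omit [Fintype L] [PartialOrder L] [OrderTop L] in
theorem sum_le_succ {k : ℕ} (μ : Fin (k + 1) → ℕ) (j : Fin k) :
    ∑ i with i ≤ j.succ, μ i = μ 0 + ∑ i with i ≤ j, Fin.tail μ i := by
  rw [sum_filter, sum_filter, Fin.sum_univ_succ]
  simp [Fin.tail]

omit [Fintype L] [PartialOrder L] [OrderTop L] in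
theorem sum_le_zero {k : ℕ} (μ : Fin (k + 1) → ℕ) : ∑ i with i ≤ 0, μ i = μ 0 := by
  rw [sum_filter, Fin.sum_univ_succ]
  simp

theorem card_Fl (hd : StrictMono d) {k : ℕ} (μ : Fin k → ℕ) (W : L) (h : d W + ∑ i, μ i = d ⊤) :
    (Nat.card (Fl d μ W) : ℂ) = cnt d k μ W := by
  classical
  induction k generalizing W with
  | zero =>
    have hW : W = ⊤ := by
      by_contra hne
      have := hd (lt_top_iff_ne_top.2 hne)
      simp at h
      omega
    have : Unique (Fl d μ W) :=
      ⟨⟨⟨Fin.elim0, fun i => i.elim0, fun i => i.elim0, fun i => i.elim0⟩⟩, fun _ => Subsingleton.elim _ _⟩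
    rw [cnt, if_pos hW, Nat.card_unique, Nat.cast_one]
  | succ k ih =>
    rw [cnt, H]
    let e : Fl d μ W ≃ Σ W' : {W' // W ≤ W' ∧ d W' = d W + μ 0}, Fl d (Fin.tail μ) W'.1 :=
      { toFun := fun E => ⟨⟨E.1 0, E.2.2.1 0, by rw [E.2.2.2, sum_le_zero]⟩,
          ⟨Fin.tail E.1, fun i j hij => E.2.1 (Fin.succ_le_succ_iff.2 hij), fun j => E.2.1 (Fin.zero_le _),
            fun j => by
              change d (E.1 j.succ) = d (E.1 0) + _
              rw [E.2.2.2, E.2.2.2, sum_le_zero, sum_le_succ, add_assoc]⟩⟩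
        invFun := fun z => ⟨Fin.cons z.1.1 z.2.1, by
            refine Fin.monotone_iff_le_succ.2 fun i => ?_
            cases k with
            | zero => exact i.elim0
            | succ k =>
              refine Fin.cases ?_ (fun i => ?_) i
              · simpa using z.2.2.2.1 0
              · simpa [← Fin.succ_castSucc] using z.2.2.1 (Fin.castSucc_le_succ i),
          fun j => by
            refine Fin.cases ?_ (fun j => ?_) j
            · exact z.1.2.1
            · exact z.1.2.1.trans (z.2.2.2.1 j),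
          fun j => by
            refine Fin.cases ?_ (fun j => ?_) j
            · rw [sum_le_zero]; exact z.1.2.2
            · rw [sum_le_succ, Fin.cons_succ, z.2.2.2.2, z.1.2.2, add_assoc]⟩
        left_inv := fun E => Subtype.ext (Fin.cons_self_tail E.1)
        right_inv := fun z => rfl }
    rw [Nat.card_congr e, Nat.card_sigma, Nat.cast_sum]
    refine (sum_congr rfl fun W' _ => ih (Fin.tail μ) W'.1 ?_).trans ?_
    · rw [W'.2.2, ← h, Fin.sum_univ_succ, add_assoc]; rfl
    · exact (sum_subtype (p := fun W' => W ≤ W' ∧ d W' = d W + μ 0) _ (fun W' => by simp) _).symm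

variable (d) in
/-- The Hessenberg alternating sum. -/
noncomputable def D (n m : ℕ) (W : L) : ℂ :=
  ∑ κ : Equiv.Perm (Fin n), if ∀ i : Fin n, (κ i).val ≤ 1 + i.val then
    ((Equiv.Perm.sign κ : ℤ) : ℂ) * cnt d n (fun i => if (κ i).val = 0 then m + i.val else 1 + i.val - (κ i).val) W
    else 0

theorem D_one (m : ℕ) (W : L) : D d 1 m W = H d m (cnt d 0 Fin.elim0) W := by
  rw [D, Fintype.sum_unique]
  simp [cnt]

theorem D_succ (hd : StrictMono d) (n m : ℕ) (W : L) :
    D d (n + 2) m W = H d m (D d (n + 1) 1) W - D d (n + 1) (m + 1) W := by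
  classical
  rw [D, ← Equiv.sum_comp Equiv.Perm.decomposeFin.symm, Fintype.sum_prod_type, Fin.sum_univ_succ, Fin.sum_univ_succ,
    sum_eq_zero (s := univ) (f := fun i : Fin n => _) fun p _ => sum_eq_zero fun e _ => if_neg fun h => by
      have := h 0
      simp at this, add_zero, sub_eq_add_neg]
  congr 1
  · simp only [H, D]
    rw [sum_comm]
    refine sum_congr rfl fun e _ => ?_
    have h1 : (∀ i : Fin (n + 2), (Equiv.Perm.decomposeFin.symm (0, e) i).val ≤ 1 + i.val) ↔
        ∀ i : Fin (n + 1), (e i).val ≤ 1 + i.val := by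
      rw [Fin.forall_fin_succ]
      simp only [Equiv.Perm.decomposeFin_symm_apply_zero, Equiv.Perm.decomposeFin_symm_apply_succ]
      simp only [Fin.val_zero, zero_le, true_and, Equiv.swap_self, Equiv.refl_apply, Fin.val_succ]
      exact forall_congr' fun i => by omega
    by_cases he : ∀ i : Fin (n + 1), (e i).val ≤ 1 + i.val
    · rw [if_pos (h1.2 he), cnt, H, mul_sum]
      simp only [Equiv.Perm.decomposeFin_symm_apply_zero, Fin.val_zero, if_true, add_zero]
      refine sum_congr rfl fun W' _ => ?_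
      rw [if_pos he, Equiv.Perm.decomposeFin.symm_sign, if_pos rfl, one_mul]
      congr 2
      funext i
      simp only [Fin.tail, Equiv.Perm.decomposeFin_symm_apply_succ, Equiv.swap_self, Equiv.refl_apply, Fin.val_succ]
      rw [if_neg (Nat.succ_ne_zero _)]
      split_ifs <;> omega
    · rw [if_neg (mt h1.1 he), sum_eq_zero fun W' _ => if_neg he]
  · rw [D, ← sum_neg_distrib]
    refine sum_congr rfl fun e _ => ?_
    have h0 : ∀ i : Fin (n + 1), (Equiv.Perm.decomposeFin.symm (Fin.succ 0, e) i.succ).val =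
        if (e i).val = 0 then 0 else (e i).val + 1 := fun i => by
      rw [Equiv.Perm.decomposeFin_symm_apply_succ]
      split_ifs with h
      · rw [show e i = 0 from Fin.ext h, Equiv.swap_apply_right, Fin.val_zero]
      · rw [Equiv.swap_apply_of_ne_of_ne (Fin.succ_ne_zero _) (fun h' => h (by
          rw [Fin.succ_injective _ h']; rfl)), Fin.val_succ]
    have h1 : (∀ i : Fin (n + 2), (Equiv.Perm.decomposeFin.symm (Fin.succ 0, e) i).val ≤ 1 + i.val) ↔
        ∀ i : Fin (n + 1), (e i).val ≤ 1 + i.val := by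
      rw [Fin.forall_fin_succ]
      simp only [Equiv.Perm.decomposeFin_symm_apply_zero, h0]
      simp only [Fin.val_zero, Fin.val_succ, zero_add, add_zero, le_refl, true_and]
      exact forall_congr' fun i => by split_ifs <;> omega
    by_cases he : ∀ i : Fin (n + 1), (e i).val ≤ 1 + i.val
    · rw [if_pos (h1.2 he), if_pos he, cnt, Equiv.Perm.decomposeFin.symm_sign, if_neg (Fin.succ_ne_zero _)]
      simp only [Equiv.Perm.decomposeFin_symm_apply_zero, Fin.val_zero, Fin.val_succ, zero_add, add_zero,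
        one_ne_zero, if_false, Nat.sub_self]
      rw [H_zero hd]
      simp only [Units.val_neg, Int.cast_neg, neg_mul, one_mul, neg_inj]
      congr 2
      funext i
      simp only [Fin.tail, h0, Fin.val_succ]
      by_cases h : (e i).val = 0
      · simp only [if_pos h, if_true]
        omega
      · simp only [if_neg h]
        rw [if_neg (Nat.succ_ne_zero _)]
        omega
    · rw [if_neg (mt h1.1 he), if_neg he, neg_zero]

open Classical in
theorem D_eq (hd : StrictMono d) {ν : L → ℂ} (hν : ∀ W, ∑ W' with W ≤ W', ν W' = if W = ⊤ then 1 else 0)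
    (n m : ℕ) (W : L) (h : d W + m + n = d ⊤) :
    (-1) ^ n * D d (n + 1) m W = ∑ W' with W ≤ W' ∧ d W + m ≤ d W', ν W' := by
  have htop : ∀ W' : L, d ⊤ ≤ d W' → W' = ⊤ := fun W' h' => by
    by_contra hne
    exact absurd (hd (lt_top_iff_ne_top.2 hne)) (by omega)
  induction n generalizing m W with
  | zero =>
    have h1 := hν ⊤
    rw [if_pos rfl, sum_eq_single ⊤ (fun W' hW' hne => absurd (top_le_iff.1 (mem_filter.1 hW').2) hne)
      (fun h => absurd (by simp) h)] at h1
    rw [D_one, H, pow_zero, one_mul, sum_eq_single ⊤, sum_eq_single ⊤, h1, cnt, if_pos rfl]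
    · intro W' hW' hne
      exact absurd (htop W' (by have := (mem_filter.1 hW').2.2; omega)) hne
    · intro h'
      exact absurd (by simp; omega) h'
    · intro W' hW' hne
      exact absurd (htop W' (by have := (mem_filter.1 hW').2.2; omega)) hne
    · intro h'
      exact absurd (by simp; omega) h'
  | succ n ih =>
    have h2 : ∀ W' : L, d W' = d W + m → (-1) ^ n * D d (n + 1) 1 W' = -ν W' := fun W' h' => by
      have h3 := hν W'
      rw [if_neg (fun e => by rw [e] at h'; omega), ← add_sum_erase _ _ (a := W') (by simp)] at h3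
      rw [ih 1 W' (by omega), eq_neg_iff_add_eq_zero, add_comm, ← h3]
      congr 1
      refine sum_congr ?_ fun _ _ => rfl
      ext W''
      simp only [mem_filter, mem_univ, true_and, mem_erase]
      constructor
      · rintro ⟨h4, h5⟩
        exact ⟨fun e => by rw [e] at h5; omega, h4⟩
      · rintro ⟨h4, h5⟩
        exact ⟨h5, hd (lt_of_le_of_ne h5 (Ne.symm h4))⟩
    rw [D_succ hd, mul_sub, pow_succ, mul_neg_one, neg_mul, neg_mul, sub_neg_eq_add, ih (m + 1) W (by omega), H,
      mul_sum, sum_congr rfl fun W' hW' => h2 W' (mem_filter.1 hW').2.2, sum_neg_distrib, neg_neg,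
      ← sum_filter_add_sum_filter_not (univ.filter fun W' => W ≤ W' ∧ d W + m ≤ d W') (fun W' => d W' = d W + m),
      filter_filter, filter_filter]
    congr 1
    · exact sum_congr (filter_congr fun W' _ => by constructor <;> intro h <;> simp_all) fun _ _ => rfl
    · exact sum_congr (filter_congr fun W' _ => ⟨fun h => ⟨⟨h.1, by omega⟩, by omega⟩,
        fun h => ⟨h.1.1, by omega⟩⟩) fun _ _ => rfl

open Classical in
/-- The alternating sum at the bottom is the Moebius function of the whole poset, up to sign. -/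
theorem D_bot [OrderBot L] (hd : StrictMono d) (h0 : d ⊥ = 0) {γ : L → ℂ}
    (hγ : ∀ W, ∑ W' with W' ≤ W, γ W' = if W = ⊥ then 1 else 0) {n : ℕ} (h : d ⊤ = n + 1) :
    D d (n + 1) 1 ⊥ = (-1) ^ (n + 1) * γ ⊤ := by
  let _ : LocallyFiniteOrder L := Fintype.toLocallyFiniteOrder
  let ν : L → ℂ := fun W => IncidenceAlgebra.mu ℂ W ⊤
  have hν : ∀ W, ∑ W' with W ≤ W', ν W' = if W = ⊤ then 1 else 0 := fun W => by
    rw [← IncidenceAlgebra.sum_Icc_mu_left W ⊤]
    exact sum_congr (by ext; simp) fun _ _ => rfl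
  have h1 : γ ⊤ = ν ⊥ := by
    have h2 : ∑ W, ∑ W' with W ≤ W', γ W * ν W' = ∑ W', ∑ W with W ≤ W', γ W * ν W' := by
      simp only [sum_filter]
      exact sum_comm
    simp only [← mul_sum, ← sum_mul, hν, hγ] at h2
    simpa using h2
  have h3 := D_eq hd hν n 1 ⊥ (by omega)
  have h4 := hν ⊥
  rw [if_neg (fun e => by rw [e] at h0; omega), ← add_sum_erase _ _ (a := ⊥) (by simp)] at h4
  have h5 : ∑ W' with ⊥ ≤ W' ∧ d ⊥ + 1 ≤ d W', ν W' = -ν ⊥ := by
    rw [eq_neg_iff_add_eq_zero, add_comm, ← h4]
    congr 1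
    refine sum_congr ?_ fun _ _ => rfl
    ext W''
    simp only [mem_filter, mem_univ, true_and, mem_erase, bot_le, and_true]
    exact ⟨fun h5 e => by rw [e] at h5; omega, fun h5 => hd (bot_lt_iff_ne_bot.2 h5)⟩
  rw [h1, pow_succ, mul_neg_one, neg_mul, ← mul_neg, ← h5, ← h3, ← mul_assoc, ← mul_pow]
  simp

end Cfsg.Agent.Cl.StF
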