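import Mathlib

/-!
The Moebius function of the submodule lattice of a finite semisimple `F[X]`-module in terms of the characteristic
polynomial of `X`.
-/

set_option autoImplicit false

namespace Cfsg.Agent.Cl.StF

open Finset Module Polynomial UniqueFactorizationMonoid

section Gam

variable {α : Type*} [DecidableEq α] (q : ℂ) (w : α → ℕ)

/-- The product of `(-1)^m q^(w f * C(m,2))` over the members `f` of multiplicity `m`. -/
noncomputable def gam (s : Multiset α) : ℂ :=
  ∏ f ∈ s.toFinset, (-1) ^ s.count f * q ^ (w f * (s.count f).choose 2)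

theorem gam_eq {s : Multiset α} {T : Finset α} (h : s.toFinset ⊆ T) :
    gam q w s = ∏ f ∈ T, (-1) ^ s.count f * q ^ (w f * (s.count f).choose 2) :=
  prod_subset h fun f _ hf => by
    rw [Multiset.count_eq_zero_of_notMem (by simpa using hf)]
    simp

theorem gam_cons (f : α) (s : Multiset α) : gam q w (f ::ₘ s) = -q ^ (w f * s.count f) * gam q w s := by
  rw [gam_eq q w (s := s) (T := (f ::ₘ s).toFinset) (fun x hx => by simp at hx ⊢; exact Or.inr hx), gam,
    ← mul_prod_erase (f ::ₘ s).toFinset _ (a := f) (by simp),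
    ← mul_prod_erase (f ::ₘ s).toFinset _ (a := f) (by simp), ← mul_assoc]
  congr 1
  · rw [Multiset.count_cons_self, Nat.choose_succ_succ, Nat.choose_one_right]
    ring
  · exact prod_congr rfl fun g hg => by rw [Multiset.count_cons_of_ne (ne_of_mem_erase hg)]

theorem sign_mul_gam (s : Multiset α) (hs : ∀ f ∈ s, 1 ≤ w f) :
    (-1) ^ (s.map w).sum * gam q w s =
      ∏ f ∈ s.toFinset, (-1) ^ ((w f - 1) * s.count f) * q ^ (w f * s.count f * (s.count f - 1) / 2) := by
  rw [sum_multiset_map_count, ← prod_pow_eq_pow_sum, gam, ← prod_mul_distrib]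
  refine prod_congr rfl fun f hf => ?_
  obtain ⟨k, hk⟩ := Nat.exists_eq_add_of_le (hs f (Multiset.mem_toFinset.1 hf))
  rw [mul_assoc (w f), Nat.mul_div_assoc _ (Nat.even_mul_pred_self _).two_dvd, Nat.choose_two_right, ← mul_assoc,
    ← pow_add, smul_eq_mul, hk, Nat.add_sub_cancel_left]
  congr 1
  rw [show s.count f * (1 + k) + s.count f = k * s.count f + 2 * s.count f by ring, pow_add, pow_mul _ 2]
  simp

end Gam

section Compl

variable {R M : Type*} [Ring R] [AddCommGroup M] [Module R M]

theorem card_isCompl {S C : Submodule R M} (h : IsCompl S C) :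
    Nat.card {W : Submodule R M // IsCompl S W} = Nat.card (C →ₗ[R] S) := by
  rw [Nat.card_congr S.isComplEquivProj]
  symm
  refine Nat.card_congr (Equiv.ofBijective (fun ψ => ⟨LinearMap.ofIsCompl h LinearMap.id ψ,
    fun u => LinearMap.ofIsCompl_apply_left h u⟩) ⟨?_, ?_⟩)
  · intro ψ ψ' e
    ext1 w
    have := LinearMap.congr_fun (congrArg Subtype.val e) (w : M)
    simpa using this
  · rintro ⟨f, hf⟩
    exact ⟨f ∘ₗ C.subtype, Subtype.ext
      (LinearMap.ofIsCompl_eq h (fun u => (hf u).symm) fun _ => rfl)⟩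

theorem isCompl_comap {S W X : Submodule R M} (h1 : Disjoint S W) (h2 : S ⊔ W = X) :
    IsCompl (S.comap X.subtype) (W.comap X.subtype) := by
  constructor
  · rw [disjoint_iff, ← Submodule.comap_inf, h1.eq_bot, Submodule.comap_bot, Submodule.ker_subtype]
  · rw [codisjoint_iff]
    apply Submodule.map_injective_of_injective X.injective_subtype
    rw [Submodule.map_sup, Submodule.map_comap_subtype, Submodule.map_comap_subtype, Submodule.map_top,
      Submodule.range_subtype, inf_eq_right.2 (le_sup_left.trans h2.le), inf_eq_right.2 (le_sup_right.trans h2.le), h2]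

theorem card_relCompl {S C X : Submodule R M} (h1 : Disjoint S C) (h2 : S ⊔ C = X) :
    Nat.card {W : Submodule R M // Disjoint S W ∧ S ⊔ W = X} = Nat.card (C →ₗ[R] S) := by
  have hS : S ≤ X := h2 ▸ le_sup_left
  have hC : C ≤ X := h2 ▸ le_sup_right
  have e1 : {W : Submodule R M // Disjoint S W ∧ S ⊔ W = X} ≃
      {W : Submodule R X // IsCompl (S.comap X.subtype) W} :=
    { toFun := fun W => ⟨W.1.comap X.subtype, isCompl_comap W.2.1 W.2.2⟩
      invFun := fun W => ⟨W.1.map X.subtype, by
        have h3 : (S.comap X.subtype).map X.subtype = S := by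
          rw [Submodule.map_comap_subtype, inf_eq_right.2 hS]
        have h4 := congrArg (Submodule.map X.subtype) W.2.inf_eq_bot
        have h5 := congrArg (Submodule.map X.subtype) W.2.sup_eq_top
        rw [Submodule.map_inf _ X.injective_subtype, h3, Submodule.map_bot] at h4
        rw [Submodule.map_sup, h3, Submodule.map_top, Submodule.range_subtype] at h5
        exact ⟨disjoint_iff.2 h4, h5⟩⟩
      left_inv := fun W => Subtype.ext (by
        change (W.1.comap X.subtype).map X.subtype = W.1
        rw [Submodule.map_comap_subtype, inf_eq_right.2 (le_sup_right.trans W.2.2.le)])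
      right_inv := fun W => Subtype.ext (Submodule.comap_map_eq_of_injective X.injective_subtype _) }
  rw [Nat.card_congr e1, card_isCompl (isCompl_comap h1 h2)]
  exact Nat.card_congr
    { toFun := fun φ => (Submodule.comapSubtypeEquivOfLe hS).toLinearMap ∘ₗ φ ∘ₗ
        (Submodule.comapSubtypeEquivOfLe hC).symm.toLinearMap
      invFun := fun φ => (Submodule.comapSubtypeEquivOfLe hS).symm.toLinearMap ∘ₗ φ ∘ₗ
        (Submodule.comapSubtypeEquivOfLe hC).toLinearMap
      left_inv := fun φ => rfl
      right_inv := fun φ => rfl }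

/-- A sum of disjoint submodules is their product. -/
noncomputable def supEquiv {S C : Submodule R M} (h : Disjoint S C) : (S × C) ≃ₗ[R] (S ⊔ C : Submodule R M) :=
  (LinearEquiv.ofInjective (S.subtype.coprod C.subtype) (LinearMap.ker_eq_bot.1 (by
    rw [LinearMap.ker_coprod_of_disjoint_range _ _ (by simpa using h)]
    simp))).trans (LinearEquiv.ofEq _ _ (by simp [LinearMap.range_coprod]))

end Compl

variable {F : Type*} [Field F]

/-- The characteristic polynomial of `X`. -/
noncomputable def ch (F : Type*) [Field F] (M : Type*) [AddCommGroup M] [Module F M] [Module F[X] M]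
    [IsScalarTower F F[X] M] [Finite M] : F[X] :=
  LinearMap.charpoly (Algebra.lsmul F F M (X : F[X]) : End F M)

variable {M : Type*} [AddCommGroup M] [Module F M] [Module F[X] M] [IsScalarTower F F[X] M] [Finite M]
  {N : Type*} [AddCommGroup N] [Module F N] [Module F[X] N] [IsScalarTower F F[X] N] [Finite N]

theorem ch_monic : (ch F M).Monic := LinearMap.charpoly_monic _

theorem ch_natDegree : (ch F M).natDegree = finrank F M := LinearMap.charpoly_natDegree _

theorem ch_congr (e : M ≃ₗ[F[X]] N) : ch F M = ch F N := by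
  rw [ch, ← (e.restrictScalars F).charpoly_conj]
  congr 1
  ext v
  simp [LinearEquiv.conj_apply]

theorem ch_prod : ch F (M × N) = ch F M * ch F N := by
  rw [ch, ch, ch, ← LinearMap.charpoly_prodMap]
  rfl

theorem ch_sup {S C : Submodule F[X] M} (h : Disjoint S C) : ch F (S ⊔ C : Submodule F[X] M) = ch F S * ch F C := by
  rw [← ch_congr (supEquiv h), ch_prod]

theorem ch_smul (v : M) : ch F M • v = 0 := by
  have h := LinearMap.congr_fun (LinearMap.aeval_self_charpoly (Algebra.lsmul F F M (X : F[X]) : End F M)) v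
  rw [aeval_algHom_apply, aeval_X_left_apply] at h
  exact h

theorem ch_of_subsingleton [Subsingleton M] : ch F M = 1 :=
  ch_monic.natDegree_eq_zero.1 (ch_natDegree.trans finrank_zero_of_subsingleton)

theorem simple_spec [IsSimpleModule F[X] M] :
    Irreducible (ch F M) ∧ Nonempty (M ≃ₗ[F[X]] F[X] ⧸ Ideal.span {ch F M}) := by
  classical
  obtain ⟨I, hI, ⟨e⟩⟩ := isSimpleModule_iff_quot_maximal.1 ‹IsSimpleModule F[X] M›
  have h1 : ch F M ∈ I := by
    have := congrArg e (ch_smul (F := F) (e.symm (Submodule.Quotient.mk 1)))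
    rw [map_smul, e.apply_symm_apply, map_zero, ← Submodule.Quotient.mk_smul,
      Submodule.Quotient.mk_eq_zero, smul_eq_mul, mul_one] at this
    exact this
  obtain ⟨h, rfl⟩ := (IsPrincipalIdealRing.principal I).principal
  have h2 : h ∣ ch F M := Ideal.mem_span_singleton.1 h1
  have h0 : h ≠ 0 := ne_zero_of_dvd_ne_zero ch_monic.ne_zero h2
  have h3 : ch F M = normalize h := by
    refine eq_of_monic_of_dvd_of_natDegree_le (monic_normalize h0) ch_monic (normalize_dvd_iff.2 h2) ?_
    rw [ch_natDegree, (e.restrictScalars F).finrank_eq, natDegree_eq_of_degree_eq (degree_normalize (p := h))]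
    exact (finrank_quotient_span_eq_natDegree (f := h)).le
  have h4 : Ideal.span {ch F M} = Ideal.span {h} := by
    rw [h3]
    exact Ideal.span_singleton_eq_span_singleton.2 (normalize_associated h)
  rw [h4]
  exact ⟨(Ideal.irreducible_iff_isMaximal_span_singleton ch_monic.ne_zero).2 (by
    change (Ideal.span _).IsMaximal
    rw [h4]; exact hI), ⟨e⟩⟩

theorem card_hom_simple [DecidableEq F] [IsSimpleModule F[X] M] [IsSimpleModule F[X] N] :
    Nat.card (M →ₗ[F[X]] N) = if ch F M = ch F N then Nat.card F ^ (ch F N).natDegree else 1 := by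
  split_ifs with h
  · obtain ⟨e⟩ := (simple_spec (F := F) (M := M)).2
    rw [ch_natDegree, ← natCard_eq_pow_finrank (K := F)]
    symm
    refine Nat.card_congr (Equiv.ofBijective (fun v => (Submodule.liftQSpanSingleton (ch F M)
      (LinearMap.toSpanSingleton F[X] N v) (by simpa [h] using ch_smul v)) ∘ₗ e.toLinearMap) ⟨?_, ?_⟩)
    · intro v v' hv
      have := LinearMap.congr_fun hv (e.symm (Submodule.Quotient.mk 1))
      simpa only [LinearMap.comp_apply, LinearEquiv.coe_coe, LinearEquiv.apply_symm_apply,
        Submodule.liftQSpanSingleton_apply, LinearMap.toSpanSingleton_apply, one_smul] using this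
    · intro φ
      refine ⟨φ (e.symm (Submodule.Quotient.mk 1)), LinearMap.ext fun v => ?_⟩
      obtain ⟨v, rfl⟩ := e.symm.surjective v
      obtain ⟨p, rfl⟩ := Submodule.Quotient.mk_surjective _ v
      simp only [LinearMap.comp_apply, LinearEquiv.coe_coe, LinearEquiv.apply_symm_apply,
        Submodule.liftQSpanSingleton_apply, LinearMap.toSpanSingleton_apply]
      rw [← map_smul, ← map_smul, ← Submodule.Quotient.mk_smul, smul_eq_mul, mul_one]
  · have : Subsingleton (M →ₗ[F[X]] N) := subsingleton_of_forall_eq 0 fun φ =>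
      (LinearMap.bijective_or_eq_zero φ).resolve_left fun hb => h (ch_congr (LinearEquiv.ofBijective φ hb))
    exact Nat.card_unique

theorem nf_ch_sup [DecidableEq F] {S C : Submodule F[X] M} [IsSimpleModule F[X] S] (h : Disjoint S C) :
    normalizedFactors (ch F (S ⊔ C : Submodule F[X] M)) = ch F S ::ₘ normalizedFactors (ch F C) := by
  rw [ch_sup h, normalizedFactors_mul ch_monic.ne_zero ch_monic.ne_zero,
    normalizedFactors_irreducible simple_spec.1, ch_monic.normalize_eq_self, Multiset.singleton_add]

theorem card_hom [DecidableEq F] [IsSemisimpleModule F[X] M] [IsSimpleModule F[X] N] (C : Submodule F[X] M) :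
    Nat.card (C →ₗ[F[X]] N) =
      Nat.card F ^ ((ch F N).natDegree * (normalizedFactors (ch F C)).count (ch F N)) := by
  have : Finite (Submodule F[X] M) := Finite.of_injective _ SetLike.coe_injective
  induction C using WellFoundedLT.induction with
  | ind C ih =>
  rcases IsSemisimpleModule.eq_bot_or_exists_simple_le C with rfl | ⟨S, hS, hs⟩
  · rw [ch_of_subsingleton (M := (⊥ : Submodule F[X] M)), normalizedFactors_one, Nat.card_unique]
    simp
  · obtain ⟨C', h1, rfl⟩ := IsModularLattice.exists_disjoint_and_sup_eq hS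
    have h2 : C' < S ⊔ C' := right_lt_sup.2 fun h => (isSimpleModule_iff_isAtom.1 hs).1 (h1.eq_bot_of_le h)
    rw [← Nat.card_congr ((supEquiv h1).arrowCongr (LinearEquiv.refl F[X] N)).toEquiv,
      ← Nat.card_congr (LinearMap.coprodEquiv F[X]).toEquiv, Nat.card_prod, ih C' h2, card_hom_simple, nf_ch_sup h1,
      Multiset.count_cons]
    split_ifs with h3 h4 h4
    · rw [mul_add, mul_one, pow_add, mul_comm]
    · exact absurd h3.symm h4
    · exact absurd h4.symm h3
    · simp

open Classical in
theorem sum_gam [DecidableEq F] [IsSemisimpleModule F[X] M] [Fintype (Submodule F[X] M)] (W : Submodule F[X] M) :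
    ∑ W' with W' ≤ W, gam (Nat.card F : ℂ) natDegree (normalizedFactors (ch F W')) = if W = ⊥ then 1 else 0 := by
  rcases IsSemisimpleModule.eq_bot_or_exists_simple_le W with rfl | ⟨S, hS, hs⟩
  · rw [if_pos rfl, sum_eq_single ⊥ (fun W' hW' hne => absurd (le_bot_iff.1 (mem_filter.1 hW').2) hne)
      (fun h => absurd (by simp) h), ch_of_subsingleton, normalizedFactors_one]
    simp [gam]
  have ha := isSimpleModule_iff_isAtom.1 hs
  rw [if_neg (fun h : W = ⊥ => ha.1 (le_bot_iff.1 (hS.trans h.le))), ← sum_fiberwise (g := fun W' => S ⊔ W')]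
  refine sum_eq_zero fun X _ => ?_
  by_cases hX : S ≤ X ∧ X ≤ W
  swap
  · refine sum_eq_zero fun W' hW' => absurd ?_ hX
    simp only [mem_filter, mem_univ, true_and] at hW'
    exact hW'.2 ▸ ⟨le_sup_left, sup_le hS hW'.1⟩
  obtain ⟨C, h1, h2⟩ := IsModularLattice.exists_disjoint_and_sup_eq hX.1
  have h3 : ∀ W', Disjoint S W' → S ⊔ W' = X → normalizedFactors (ch F W') = normalizedFactors (ch F C) :=
    fun W' h4 h5 => by
      have h6 := nf_ch_sup h4
      rw [h5, ← h2, nf_ch_sup h1] at h6
      exact ((Multiset.cons_inj_right _).1 h6).symm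
  rw [← add_sum_erase _ _ (a := X) (by simp [hX.1, hX.2]),
    sum_congr (s₂ := univ.filter fun W' => Disjoint S W' ∧ S ⊔ W' = X)
      (g := fun _ => gam (Nat.card F : ℂ) natDegree (normalizedFactors (ch F C))) ?_
      fun W' hW' => by rw [h3 W' (mem_filter.1 hW').2.1 (mem_filter.1 hW').2.2],
    sum_const, ← Fintype.card_subtype, ← Nat.card_eq_fintype_card, card_relCompl h1 h2, card_hom, ← h2, nf_ch_sup h1,
    gam_cons]
  · simp
  · ext W'
    simp only [mem_erase, mem_filter, mem_univ, true_and]
    constructor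
    · rintro ⟨h4, -, h5⟩
      exact ⟨ha.not_le_iff_disjoint.1 fun h => h4 (by rw [← h5, sup_eq_right.2 h]), h5⟩
    · rintro ⟨h4, h5⟩
      refine ⟨fun h => ha.1 (h4.eq_bot_of_le (h ▸ hX.1)), ?_, h5⟩
      exact (h5 ▸ le_sup_right : W' ≤ X).trans hX.2

end Cfsg.Agent.Cl.StF
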