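import Mathlib
import Cfsg.Agent.S2420
import Cfsg.Agent.Cl.DerCount
import Cfsg.Agent.Cl.StFlagA
import Cfsg.Agent.Cl.StFlagB

/-!
The permutation character of `GL_n` on the cosets of a standard parabolic subgroup counts invariant flags.
-/

set_option autoImplicit false

namespace Cfsg.Agent.Cl.StF

open Finset Module Polynomial
open scoped MatrixGroups

theorem card_fixedBy {G X : Type*} [Group G] (φ : G → X) (H : Subgroup G)
    (hφ : ∀ g g', φ g = φ g' ↔ g⁻¹ * g' ∈ H) (x : G) (Q : X → Prop) (hQ : ∀ y, Q y ↔ ∃ g, φ g = y ∧ φ (x * g) = y) :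
    Nat.card (MulAction.fixedBy (G ⧸ H) x) = Nat.card {y // Q y} := by
  let ψ : G ⧸ H → X := Quotient.lift (s := QuotientGroup.leftRel H) φ fun a b hab =>
    (hφ a b).2 (QuotientGroup.leftRel_apply.1 hab)
  have hψ : ∀ g : G, ψ g = φ g := fun _ => rfl
  have hi : Function.Injective ψ := fun a b => by
    induction a using QuotientGroup.induction_on
    induction b using QuotientGroup.induction_on
    exact fun h => QuotientGroup.eq.2 ((hφ _ _).1 h)
  refine Nat.card_congr (Equiv.ofBijective (fun c => ⟨ψ c.1, ?_⟩) ⟨fun a b h => ?_, ?_⟩)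
  · obtain ⟨c, hc⟩ := c
    induction c using QuotientGroup.induction_on with
    | H g => exact (hQ _).2 ⟨g, rfl, congrArg ψ hc⟩
  · exact Subtype.ext (hi (congrArg Subtype.val h))
  · rintro ⟨y, hy⟩
    obtain ⟨g, h1, h2⟩ := (hQ y).1 hy
    exact ⟨⟨g, hi (h2.trans h1.symm)⟩, Subtype.ext h1⟩

variable {F : Type*} [Field F]

section Trans

variable {V : Type*} [AddCommGroup V] [Module F V] [FiniteDimensional F V]

theorem exists_equiv_fix {A B B' : Submodule F V} (h : A ≤ B) (h' : A ≤ B') (hr : finrank F B = finrank F B') :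
    ∃ e : V ≃ₗ[F] V, (∀ a ∈ A, e a = a) ∧ B.map (e : V →ₗ[F] V) = B' := by
  obtain ⟨C, h1, rfl⟩ := IsModularLattice.exists_disjoint_and_sup_eq h
  obtain ⟨C', h1', rfl⟩ := IsModularLattice.exists_disjoint_and_sup_eq h'
  rw [← (supEquiv h1).finrank_eq, ← (supEquiv h1').finrank_eq, finrank_prod, finrank_prod] at hr
  let c : C ≃ₗ[F] C' := LinearEquiv.ofFinrankEq _ _ (by omega)
  let f := (supEquiv h1).symm.trans (((LinearEquiv.refl F A).prodCongr c).trans (supEquiv h1'))
  obtain ⟨e, he⟩ := Submodule.exists_linearEquiv_restrict_eq f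
  refine ⟨e, fun a ha => ?_, le_antisymm ?_ fun v hv => ?_⟩
  · have h2 : (supEquiv h1).symm ⟨a, h ha⟩ = (⟨a, ha⟩, 0) := by
      rw [LinearEquiv.symm_apply_eq]
      exact Subtype.ext (by simp [supEquiv])
    rw [← he ⟨a, h ha⟩]
    simp only [f, LinearEquiv.trans_apply, h2]
    simp [supEquiv]
  · rintro _ ⟨v, hv, rfl⟩
    rw [LinearEquiv.coe_coe, ← he ⟨v, hv⟩]
    exact (f _).2
  · refine ⟨f.symm ⟨v, hv⟩, (f.symm _).2, ?_⟩
    rw [LinearEquiv.coe_coe, ← he, f.apply_symm_apply]

theorem exists_equiv_flag {k : ℕ} {D E : Fin k → Submodule F V} (hD : Monotone D) (hE : Monotone E)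
    (hr : ∀ j, finrank F (D j) = finrank F (E j)) : ∃ e : V ≃ₗ[F] V, ∀ j, (D j).map (e : V →ₗ[F] V) = E j := by
  induction k with
  | zero => exact ⟨LinearEquiv.refl F V, fun j => j.elim0⟩
  | succ k ih =>
    obtain ⟨e, he⟩ := ih (D := fun j => D j.castSucc) (E := fun j => E j.castSucc)
      (fun i j hij => hD (Fin.castSucc_le_castSucc_iff.2 hij))
      (fun i j hij => hE (Fin.castSucc_le_castSucc_iff.2 hij)) fun j => hr _
    obtain ⟨e', h1, h2⟩ := exists_equiv_fix (A := ⨆ j : Fin k, E j.castSucc)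
      (B := (D (Fin.last k)).map (e : V →ₗ[F] V)) (B' := E (Fin.last k))
      (iSup_le fun j => he j ▸ Submodule.map_mono (hD (Fin.le_last _))) (iSup_le fun j => hE (Fin.le_last _))
      ((LinearEquiv.finrank_map_eq _ _).trans (hr _))
    refine ⟨e.trans e', fun j => ?_⟩
    rw [LinearEquiv.coe_trans, Submodule.map_comp]
    refine Fin.lastCases h2 (fun j => ?_) j
    rw [he j]
    have h3 : ∀ a ∈ E j.castSucc, e' a = a := fun a ha => h1 a (le_iSup (fun j : Fin k => E j.castSucc) j ha)
    refine le_antisymm ?_ fun a ha => ⟨a, ha, h3 a ha⟩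
    rintro _ ⟨a, ha, rfl⟩
    rwa [LinearEquiv.coe_coe, h3 a ha]

end Trans

variable {M : Type*} [AddCommGroup M] [Module F M] {n : ℕ} (b : Basis (Fin n) F M) (μ : Fin n → ℕ)

/-- The action of matrices through a basis. -/
noncomputable def rho : GL (Fin n) F →* End F M :=
  (Matrix.toLinAlgEquiv b).toMonoidHom.comp (Units.coeHom _)

/-- The standard flag. -/
def std (j : Fin n) : Submodule F M := Submodule.span F (b '' {i | compLabel μ i ≤ j})

theorem repr_rho (g : GL (Fin n) F) (i l : Fin n) : b.repr (rho b g (b l)) i = (g : Matrix _ _ F) i l := by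
  change b.repr (Matrix.toLinAlgEquiv b (g : Matrix _ _ F) (b l)) i = _
  rw [Matrix.toLinAlgEquiv_self]
  simp [Finsupp.single_apply]

theorem std_mono : Monotone (std b μ) := fun _ _ hij =>
  Submodule.span_mono (Set.image_mono fun _ hk => le_trans (α := ℕ) hk hij)

variable {μ}

theorem finrank_std (hμ : ∑ i, μ i = n) (j : Fin n) : finrank F (std b μ j) = ∑ i with i ≤ j, μ i := by
  classical
  have h := S2420.card_label_lt μ hμ (j + 1) j.2
  simp only [Nat.lt_succ_iff, Fin.val_fin_le] at h
  rw [std, finrank_span_set_eq_card (b.linearIndependent.linearIndepOn_id.mono (Set.image_subset_range _ _)),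
    Set.toFinset_image, card_image_of_injective _ b.injective, ← h]
  simp

theorem map_std_le {g : GL (Fin n) F} (hg : g ∈ parabolicGL n F μ) (j : Fin n) :
    (std b μ j).map (rho b g) ≤ std b μ j := by
  rw [std, Submodule.map_span, Submodule.span_le]
  rintro _ ⟨_, ⟨l, hl, rfl⟩, rfl⟩
  refine b.mem_span_image.2 fun i hi => ?_
  by_contra h
  refine Finsupp.mem_support_iff.1 hi ?_
  rw [repr_rho]
  exact hg (lt_of_le_of_lt (α := ℕ) hl (not_le.1 h))

theorem mem_parabolic_iff (hμ : ∑ i, μ i = n) (g : GL (Fin n) F) :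
    (∀ j, (std b μ j).map (rho b g) = std b μ j) ↔ g ∈ parabolicGL n F μ := by
  constructor
  · intro h i l hil
    have h1 : rho b g (b l) ∈ std b μ ⟨compLabel μ l, S2420.label_lt μ hμ l⟩ :=
      (h _).le ⟨b l, Submodule.subset_span ⟨l, le_rfl (α := ℕ), rfl⟩, rfl⟩
    rw [← repr_rho b]
    by_contra h2
    exact absurd (b.mem_span_image.1 h1 (Finsupp.mem_support_iff.2 h2)) (not_le.2 hil)
  · intro hg j
    refine le_antisymm (map_std_le b hg j) fun v hv => ⟨rho b g⁻¹ v, map_std_le b (inv_mem hg) j ⟨v, hv, rfl⟩, ?_⟩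
    rw [← End.mul_apply, ← map_mul, mul_inv_cancel, map_one, End.one_apply]

theorem exists_rho (e : M ≃ₗ[F] M) : ∃ g : GL (Fin n) F, rho b g = (e : M →ₗ[F] M) :=
  ⟨⟨(Matrix.toLinAlgEquiv b).symm e, (Matrix.toLinAlgEquiv b).symm e.symm,
    by rw [← map_mul, ← map_one (Matrix.toLinAlgEquiv b).symm]; congr 1; ext; simp,
    by rw [← map_mul, ← map_one (Matrix.toLinAlgEquiv b).symm]; congr 1; ext; simp⟩,
    (Matrix.toLinAlgEquiv b).apply_symm_apply _⟩

theorem finrank_map_rho (g : GL (Fin n) F) (U : Submodule F M) : finrank F (U.map (rho b g)) = finrank F U :=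
  (Submodule.equivMapOfInjective _ (fun v w h => by
    have := congrArg (rho b g⁻¹) h
    rwa [← End.mul_apply, ← End.mul_apply, ← map_mul, inv_mul_cancel, map_one, End.one_apply, End.one_apply]
      at this) U).finrank_eq.symm

theorem fixed_eq_card (hμ : ∑ i, μ i = n) (x : GL (Fin n) F) :
    fixedPointCharacter (parabolicGL n F μ) x = Nat.card {E : Fin n → Submodule F M //
      (Monotone E ∧ ∀ j, finrank F (E j) = ∑ i with i ≤ j, μ i) ∧ ∀ j, (E j).map (rho b x) ≤ E j} := by
  have : FiniteDimensional F M := Module.Finite.of_basis b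
  rw [fixedPointCharacter, card_fixedBy (fun g j => (std b μ j).map (rho b g)) _ (fun g g' => by
    rw [funext_iff, ← mem_parabolic_iff b hμ]
    exact forall_congr' fun j => Der.map_eq_map_iff _ _ _ _) x]
  intro E
  constructor
  · rintro ⟨⟨h1, h2⟩, h3⟩
    obtain ⟨e, he⟩ := exists_equiv_flag (std_mono b μ) h1 fun j => (finrank_std b hμ j).trans (h2 j).symm
    obtain ⟨g, hg⟩ := exists_rho b e
    refine ⟨g, funext fun j => hg ▸ he j, funext fun j => ?_⟩
    rw [map_mul, End.mul_eq_comp, Submodule.map_comp, hg, he j]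
    exact Submodule.eq_of_le_of_finrank_eq (h3 j) (finrank_map_rho b x _)
  · rintro ⟨g, rfl, h⟩
    refine ⟨⟨fun i j hij => Submodule.map_mono (std_mono b μ hij), fun j => ?_⟩, fun j => ?_⟩
    · rw [finrank_map_rho, finrank_std b hμ]
    · have := congrFun h j
      rw [map_mul, End.mul_eq_comp, Submodule.map_comp] at this
      exact this.le

variable [Module F[X] M] [IsScalarTower F F[X] M]

/-- A subspace invariant under `X` is a submodule. -/
def toSub (U : Submodule F M) (h : ∀ v ∈ U, (X : F[X]) • v ∈ U) : Submodule F[X] M where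
  toAddSubmonoid := U.toAddSubmonoid
  smul_mem' p v hv := by
    change p • v ∈ U
    induction p using Polynomial.induction_on with
    | C a => simpa [C_eq_algebraMap] using U.smul_mem a hv
    | add p q hp hq => simpa [add_smul] using U.add_mem hp hq
    | monomial k a ih =>
      rw [pow_succ', mul_left_comm, mul_smul]
      exact h _ ih

theorem fixed_eq_Fl (hμ : ∑ i, μ i = n) {x : GL (Fin n) F}
    (hx : ∀ v, rho b x v = (X : F[X]) • v) :
    fixedPointCharacter (parabolicGL n F μ) x =
      Nat.card (Fl (fun W : Submodule F[X] M => finrank F W) μ ⊥) := by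
  have h0 : finrank F (⊥ : Submodule F[X] M) = 0 := finrank_zero_of_subsingleton
  rw [fixed_eq_card b hμ]
  congr 1
  exact Nat.card_congr
    { toFun := fun E => ⟨fun j => toSub (E.1 j) fun v hv => E.2.2 j ⟨v, hv, hx v⟩, fun i j hij => E.2.1.1 hij,
        fun _ => bot_le, fun j => by
          simp only [h0, zero_add]
          exact E.2.1.2 j⟩
      invFun := fun E => ⟨fun j => (E.1 j).restrictScalars F, ⟨fun i j hij => E.2.1 hij, fun j => by
          have := E.2.2.2 j
          simp only [h0, zero_add] at this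
          exact this⟩, fun j => by
        rintro _ ⟨v, hv, rfl⟩
        rw [hx]
        exact (E.1 j).smul_mem _ hv⟩
      left_inv := fun E => rfl
      right_inv := fun E => rfl }

theorem strictMono_finrank [Finite M] : StrictMono fun W : Submodule F[X] M => finrank F W := fun W W' h =>
  Submodule.finrank_lt_finrank_of_lt (s := W.restrictScalars F) (t := W'.restrictScalars F) h

theorem steinberg_eq_D [Finite M] [Fintype (Submodule F[X] M)] {x : GL (Fin n) F}
    (hx : ∀ v, rho b x v = (X : F[X]) • v) :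
    unipotentCharacterGL n F (fun _ => 1) x = D (fun W : Submodule F[X] M => finrank F W) n 1 ⊥ := by
  refine sum_congr rfl fun κ _ => if_ctx_congr Iff.rfl (fun hκ => ?_) fun _ => rfl
  have hs : ∑ i : Fin n, (1 + i.val - (κ i).val) = n := by
    have h1 : ∑ i : Fin n, (1 + i.val - (κ i).val) + ∑ i : Fin n, (κ i).val = ∑ i : Fin n, (1 + i.val) := by
      rw [← sum_add_distrib]
      exact sum_congr rfl fun i _ => Nat.sub_add_cancel (hκ i)
    rw [Equiv.sum_comp κ Fin.val, sum_add_distrib] at h1
    simpa using h1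
  rw [fixed_eq_Fl b hs hx, card_Fl strictMono_finrank]
  · congr 2
    funext i
    split_ifs <;> omega
  · rw [hs, finrank_zero_of_subsingleton (M := (⊥ : Submodule F[X] M)), zero_add,
      (Submodule.topEquiv.restrictScalars F).finrank_eq, finrank_eq_card_basis b, Fintype.card_fin]

theorem steinberg_eq [DecidableEq F] [Finite M] [IsSemisimpleModule F[X] M] {x : GL (Fin n) F}
    (hx : ∀ v, rho b x v = (X : F[X]) • v) :
    unipotentCharacterGL n F (fun _ => 1) x =
      (-1) ^ n * gam (Nat.card F : ℂ) natDegree (UniqueFactorizationMonoid.normalizedFactors (ch F M)) := by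
  have : Finite (Submodule F[X] M) := Finite.of_injective _ SetLike.coe_injective
  have := Fintype.ofFinite (Submodule F[X] M)
  have hn : finrank F M = n := by rw [finrank_eq_card_basis b, Fintype.card_fin]
  rw [steinberg_eq_D b hx]
  cases n with
  | zero =>
    have : Subsingleton M := finrank_zero_iff.1 hn
    rw [ch_of_subsingleton, UniqueFactorizationMonoid.normalizedFactors_one, D, Fintype.sum_unique]
    simp [gam, cnt, Subsingleton.elim (⊥ : Submodule F[X] M) ⊤]
  | succ n =>
    rw [D_bot strictMono_finrank finrank_zero_of_subsingleton sum_gam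
      ((Submodule.topEquiv.restrictScalars F).finrank_eq.trans hn), ch_congr Submodule.topEquiv]

end Cfsg.Agent.Cl.StF
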