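import Mathlib
import Cfsg.Agent.Cl.TnSp
import Cfsg.Agent.Cl.QuadBasic

/-!
# Orthogonal slots: the geometry of the factor
-/

set_option autoImplicit false
set_option linter.unusedSectionVars false
set_option linter.unusedVariables false

namespace Cfsg.Agent.Cl.Max

open Matrix Cfsg.Geo Module

variable {F : Type*} [Field F] {κ : Type} [Fintype κ] [DecidableEq κ]
  {B : LinearMap.BilinForm F (κ → F)} {u u' : κ → F}

variable (B) in
/-- An orthogonal root element. -/
noncomputable abbrev xo (u y : κ → F) : GL κ F := xr B 1 u y (-(B y y / 2))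

theorem hq_o (h2 : (2 : F) ≠ 0) (y : κ → F) : ∃ c, (1 : F) * B y y + (1 + 1) * c = 0 :=
  ⟨-(B y y / 2), by field_simp; ring⟩

theorem rc_o (h2 : (2 : F) ≠ 0) {y : κ → F} (hu : B u u = 0) (hy : B u y = 0) :
    RC B 1 u y (-(B y y / 2)) := ⟨hu, hy, by field_simp; ring⟩

theorem exists_notMem_of_card [Fintype F] (s : Finset F) (h : s.card < Fintype.card F) :
    ∃ d, d ∉ s := by
  by_contra hn
  push Not at hn
  have := (Finset.card_le_card fun x _ => hn x : (Finset.univ : Finset F).card ≤ _)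
  rw [Finset.card_univ] at this
  omega

theorem exists_sq_ne_one [Fintype F] (h : 3 < Fintype.card F) : ∃ d : F, d ≠ 0 ∧ d ^ 2 ≠ 1 := by
  classical
  obtain ⟨d, hd⟩ := exists_notMem_of_card ({0, 1, -1} : Finset F) (Finset.card_le_three.trans_lt h)
  simp only [Finset.mem_insert, Finset.mem_singleton, not_or] at hd
  exact ⟨d, hd.1, fun e => (sq_eq_one_iff.1 e).elim hd.2.1 hd.2.2⟩

theorem exists_four_ne_one [Fintype F] (h : 5 < Fintype.card F) :
    ∃ d : F, d ≠ 0 ∧ (d ^ 2) ^ 2 ≠ 1 := by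
  classical
  obtain ⟨d, hd⟩ := exists_notMem_of_card (insert 0 (Polynomial.nthRoots 4 (1 : F)).toFinset) (by
    have h1 := Multiset.toFinset_card_le (Polynomial.nthRoots 4 (1 : F))
    have h2 := Polynomial.card_nthRoots 4 (1 : F)
    have h3 := Finset.card_insert_le 0 (Polynomial.nthRoots 4 (1 : F)).toFinset
    omega)
  simp only [Finset.mem_insert, Multiset.mem_toFinset, not_or,
    Polynomial.mem_nthRoots (show 0 < 4 by norm_num)] at hd
  exact ⟨d, hd.1, by rw [← pow_mul]; exact hd.2⟩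

namespace HForm

variable (h : BF B 1) (h2 : (2 : F) ≠ 0)
include h

theorem sym (x y : κ → F) : B x y = B y x := by rw [h.symm', one_mul]

theorem hyp_swap (p : Hyp B u u') : Hyp B u' u := ⟨p.r, p.l, by rw [h.sym, p.lr]⟩

theorem perp_e0 (p : Hyp B u u') (x : κ → F) :
    B u (e0 B 1 u u' *ᵥ x) = 0 ∧ B u' (e0 B 1 u u' *ᵥ x) = 0 := by
  rw [e0_mulVec]; exact h.hyp_decomp p x

theorem form_e0 {v : κ → F} (h1 : B u v = 0) (h1' : B u' v = 0) (x : κ → F) :
    B v (e0 B 1 u u' *ᵥ x) = B v x := by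
  simp [e0_mulVec, h.zero_symm h1, h.zero_symm h1']

theorem WI1.aniso (w : WI1 B) (p : Hyp B u u') {y : κ → F} (h1 : B u y = 0) (h1' : B u' y = 0)
    (hy : y ≠ 0) : B y y ≠ 0 := fun e => by
  obtain ⟨c, rfl⟩ := w u y p.ne_l p.l e h1
  rw [map_smul, h.sym u' u, p.lr, smul_eq_mul, mul_one] at h1'
  exact hy (by rw [h1', zero_smul])

theorem wi1_three (hk : Fintype.card κ = 3) : WI1 B := fun u v hu0 hu hv huv => by
  by_contra hn
  push Not at hn
  let f : (κ → F) →ₗ[F] F × F := (B u).prod (B v)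
  have h1 : Submodule.span F (Set.range ![u, v]) ≤ LinearMap.ker f := by
    rw [Submodule.span_le]
    rintro _ ⟨i, rfl⟩
    fin_cases i <;> simp [f, hu, hv, huv, h.zero_symm huv]
  have hli : LinearIndependent F ![u, v] := (LinearIndependent.pair_iff' hu0).2 fun c e => hn c e.symm
  have h3 := Submodule.finrank_mono h1
  rw [finrank_span_eq_card hli, Fintype.card_fin] at h3
  have h4 := f.finrank_range_add_finrank_ker
  obtain ⟨y, hy, hy'⟩ := h.exists_dual (S := Submodule.span F {u}) (x := v) fun e => by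
    obtain ⟨c, hc⟩ := Submodule.mem_span_singleton.1 e
    exact hn c hc.symm
  obtain ⟨z, hz⟩ := h.exists_one_r hu0
  have h5 : LinearMap.range f = ⊤ := LinearMap.range_eq_top.2 fun ⟨a, b⟩ =>
    ⟨a • z + (b - a * B v z) • y, by
      simp [f, hz, h.sym v y, hy, h.zero_symm (hy' u (Submodule.mem_span_singleton_self u))]⟩
  rw [h5, finrank_top, finrank_fintype_fun_eq_card, Module.finrank_prod, finrank_self] at h4
  omega

theorem exists_indep (p : Hyp B u u') {r : ℕ} (hr : r + 2 ≤ Fintype.card κ) :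
    ∃ y : Fin r → κ → F, LinearIndependent F y ∧ ∀ i, B u (y i) = 0 ∧ B u' (y i) = 0 := by
  let f : (κ → F) →ₗ[F] F × F := (B u).prod (B u')
  have h4 := f.finrank_range_add_finrank_ker
  have h5 := Submodule.finrank_le (LinearMap.range f)
  rw [Module.finrank_prod, finrank_self] at h5
  rw [finrank_fintype_fun_eq_card] at h4
  obtain ⟨y, hy⟩ := exists_linearIndependent_of_le_finrank (R := F) (M := LinearMap.ker f) (n := r)
    (by omega)
  exact ⟨fun i => y i, hy.map' (LinearMap.ker f).subtype (Submodule.ker_subtype _), fun i =>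
    Prod.ext_iff.1 (y i).2⟩

theorem exists_sing [Finite F] (p : Hyp B u u') (hk : 5 ≤ Fintype.card κ) :
    ∃ v, v ≠ 0 ∧ B v v = 0 ∧ B u v = 0 ∧ B u' v = 0 := by
  obtain ⟨y, hy, hy'⟩ := h.exists_indep p (r := 3) (by omega)
  obtain ⟨c, hc, hc'⟩ := quad_exists_singular
    (B.toQuadraticMap.comp (Fintype.linearCombination F y)) (by simp)
  refine ⟨Fintype.linearCombination F y c, fun e => hc ?_, hc', ?_, ?_⟩
  · exact funext (Fintype.linearIndependent_iff.1 hy c e)
  all_goals simp [Fintype.linearCombination_apply, hy']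

theorem perp_sing [Finite F] (h2 : (2 : F) ≠ 0) (p : Hyp B u u') (hk : 5 ≤ Fintype.card κ)
    (β : (κ → F) →ₗ[F] F) (hβ : ∀ v, B v v = 0 → B u v = 0 → B u' v = 0 → β v = 0) {y : κ → F}
    (h1 : B u y = 0) (h1' : B u' y = 0) : β y = 0 := by
  obtain ⟨v, hv0, hv, a1, a2⟩ := h.exists_sing p hk
  have key : ∀ y, B u y = 0 → B u' y = 0 → B v y ≠ 0 → β y = 0 := fun y b1 b2 b3 => by
    have := hβ (y - (B y y / (2 * B v y)) • v) (by
      simp only [map_sub, map_smul, LinearMap.sub_apply, LinearMap.smul_apply, smul_eq_mul, hv,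
        h.sym y v]
      field_simp; ring) (by simp [b1, a1]) (by simp [b2, a2])
    simpa [hβ v hv a1 a2] using this
  by_cases b : B v y = 0
  · obtain ⟨z, hz⟩ := h.exists_one_r hv0
    obtain ⟨c1, c2⟩ := h.perp_e0 p z
    have c3 : B v (e0 B 1 u u' *ᵥ z) ≠ 0 := by rw [h.form_e0 a1 a2, hz]; exact one_ne_zero
    have := key (y + e0 B 1 u u' *ᵥ z) (by simp [h1, c1]) (by simp [h1', c2]) (by simpa [b] using c3)
    rwa [map_add, key _ c1 c2 c3, add_zero] at this
  · exact key y h1 h1' b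

include h2

theorem exists_ns {S : Submodule F (κ → F)} {v : κ → F} (hv : v ∉ S) (hp : ∀ w ∈ S, B w v = 0) :
    ∃ y, B y y ≠ 0 ∧ ∀ w ∈ S, B w y = 0 := by
  obtain ⟨y, h1, h3⟩ := h.exists_dual hv
  have h4 : ∀ w ∈ S, B w y = 0 := fun w hw => h.zero_symm (h3 w hw)
  by_cases a1 : B v v = 0
  · by_cases a2 : B y y = 0
    · refine ⟨v + y, ?_, fun w hw => by simp [hp w hw, h4 w hw]⟩
      simpa [a1, a2, h.sym v y, h1, one_add_one_eq_two] using h2
    · exact ⟨y, a2, h4⟩
  · exact ⟨v, a1, hp⟩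

theorem exists_ns_hyp (p : Hyp B u u') (hk : 3 ≤ Fintype.card κ) :
    ∃ y, B y y ≠ 0 ∧ B u y = 0 ∧ B u' y = 0 := by
  classical
  obtain ⟨v, hv, h1⟩ := h.exists_perp {u, u'} (Finset.card_le_two.trans_lt hk)
  have a1 := h1 u (by simp)
  have a2 := h1 u' (by simp)
  obtain ⟨y, hy, h3⟩ := h.exists_ns h2 (S := Submodule.span F {u, u'}) (v := v) (fun e => by
    obtain ⟨a, b, rfl⟩ := Submodule.mem_span_pair.1 e
    simp [p.l, p.r, p.lr, h.sym u' u] at a1 a2
    simp [a1, a2] at hv) fun w hw => by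
      obtain ⟨a, b, rfl⟩ := Submodule.mem_span_pair.1 hw
      simp [a1, a2]
  exact ⟨y, hy, h3 u (Submodule.subset_span (by simp)), h3 u' (Submodule.subset_span (by simp))⟩

theorem exists_ns_sing (p : Hyp B u u') (hk : 5 ≤ Fintype.card κ) {a : κ → F} (ha : B a a = 0)
    (a1 : B u a = 0) (a2 : B u' a = 0) :
    ∃ y, B y y ≠ 0 ∧ B u y = 0 ∧ B u' y = 0 ∧ B a y = 0 := by
  classical
  obtain ⟨v, hv, h1⟩ := h.exists_perp_notMem (Submodule.span F {a})
    (Submodule.span F (({u, u', a} : Finset (κ → F)) : Set (κ → F))) (by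
      have b1 := finrank_span_finset_le_card (R := F) ({u, u', a} : Finset (κ → F))
      have b2 := finrank_span_finset_le_card (R := F) ({a} : Finset (κ → F))
      have b3 := Finset.card_le_three (a := u) (b := u') (c := a)
      unfold Set.finrank at b1 b2
      rw [Finset.coe_singleton, Finset.card_singleton] at b2
      omega)
  obtain ⟨y, hy, h3⟩ := h.exists_ns h2 (v := v) (fun e => hv (by
    have b1 := h1 u (Submodule.subset_span (by simp))
    have b2 := h1 u' (Submodule.subset_span (by simp))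
    rw [Finset.coe_insert, Finset.coe_pair, Submodule.mem_span_insert] at e
    obtain ⟨c, z, hz, rfl⟩ := e
    obtain ⟨d, e, rfl⟩ := Submodule.mem_span_pair.1 hz
    simp [p.l, p.r, p.lr, h.sym u' u, a1, a2] at b1 b2
    simpa [b1, b2] using Submodule.smul_mem _ e (Submodule.mem_span_singleton_self a))) h1
  exact ⟨y, hy, h3 u (Submodule.subset_span (by simp)), h3 u' (Submodule.subset_span (by simp)),
    h3 a (Submodule.subset_span (by simp))⟩

theorem coe_xo {y : κ → F} (hu : B u u = 0) (hy : B u y = 0) :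
    (xo B u y : Matrix κ κ F) = 1 + NN B 1 u y + (-(B y y / 2)) • rk B u u :=
  h.coe_xr (rc_o h2 hu hy)

theorem xo_mulVec {y : κ → F} (hu : B u u = 0) (hy : B u y = 0) (x : κ → F) :
    (xo B u y : Matrix κ κ F) *ᵥ x = x + B u x • y - (B y y / 2 * B u x + B y x) • u := by
  rw [h.xr_mulVec (rc_o h2 hu hy)]
  module

theorem xo_add {y z : κ → F} (hu : B u u = 0) (hy : B u y = 0) (hz : B u z = 0) :
    xo B u (y + z) = xo B u y * xo B u z := by
  apply Units.ext
  rw [Units.val_mul, h.coe_xo h2 hu hy, h.coe_xo h2 hu hz, h.root_mul hu hy hz,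
    h.coe_xo h2 hu (by simp [hy, hz])]
  congr 2
  simp only [map_add, LinearMap.add_apply, h.sym z y]
  field_simp
  ring

theorem sing_shift (p : Hyp B u u') {y : κ → F} (h1 : B u y = 0) (h1' : B u' y = 0) :
    B (u' + y - (B y y / 2) • u) (u' + y - (B y y / 2) • u) = 0 := by
  simp only [map_add, map_sub, map_smul, LinearMap.add_apply, LinearMap.sub_apply,
    LinearMap.smul_apply, smul_eq_mul, p.l, p.r, p.lr, h.sym u' u, h1, h1', h.sym y u, h.sym y u']
  field_simp
  ring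

theorem rich_o (hk : 3 ≤ Fintype.card κ) : Rich B := fun u u' p => by
  obtain ⟨y, hy, h1, h1'⟩ := h.exists_ns_hyp h2 p hk
  exact ⟨_, h.sing_shift h2 p h1 h1', by simp [p.l, h.sym u' u, p.lr, h.sym y u, h1],
    by simp [p.r, p.lr, h.sym y u', h1', hy, h2]⟩

theorem exists_w (p : Hyp B u u') {a : κ → F} (h1 : B u a = 0) (h1' : B u' a = 0)
    (ha : B a a ≠ 0) : ∃ γ ∈ RootG B 1, (γ : Matrix κ κ F) *ᵥ u = (-(2 / B a a)) • u' ∧
      (γ : Matrix κ κ F) *ᵥ u' = (-(B a a / 2)) • u ∧ ∀ y, B u y = 0 → B u' y = 0 →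
        (γ : Matrix κ κ F) *ᵥ y = y - (2 * B a y / B a a) • a := by
  have e1 := h.xo_mulVec h2 p.l h1
  have e2 := h.xo_mulVec h2 p.r (y := (2 / B a a) • a) (by simp [h1'])
  refine ⟨xo B u a * xo B u' ((2 / B a a) • a) * xo B u a,
    mul_mem (mul_mem (xr_mem _ _ _) (xr_mem _ _ _)) (xr_mem _ _ _), ?_, ?_, fun y b1 b2 => ?_⟩
  all_goals
    simp only [mul_mulVec, e1, e2, map_add, map_sub, map_smul, LinearMap.smul_apply, smul_eq_mul,
      p.l, p.r, p.lr, h.sym u' u, h1, h1', h.sym a u, h.sym a u', *]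
    match_scalars <;> field_simp <;> ring

theorem exists_ww (p : Hyp B u u') {a b : κ → F} (a1 : B u a = 0) (a2 : B u' a = 0)
    (ha : B a a ≠ 0) (b1 : B u b = 0) (b2 : B u' b = 0) (hb : B b b ≠ 0) :
    ∃ γ ∈ RootG B 1, (γ : Matrix κ κ F) *ᵥ u = (B a a / B b b) • u ∧
      (B a a / B b b) • (γ : Matrix κ κ F) *ᵥ u' = u' ∧ ∀ y, B u y = 0 → B u' y = 0 →
        (γ : Matrix κ κ F) *ᵥ y = y - (2 * B b y / B b b) • b -
          (2 * B a (y - (2 * B b y / B b b) • b) / B a a) • a := by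
  obtain ⟨γ, hγ, c1, c2, c3⟩ := h.exists_w h2 p a1 a2 ha
  obtain ⟨δ, hδ, d1, d2, d3⟩ := h.exists_w h2 p b1 b2 hb
  refine ⟨γ * δ, mul_mem hγ hδ, ?_, ?_, fun y e1 e2 => ?_⟩
  · rw [mul_mulVec, d1, mulVec_smul, c2, smul_smul]
    congr 1; field_simp
  · rw [mul_mulVec, d2, mulVec_smul, c1, smul_smul, smul_smul]
    convert one_smul F u'
    field_simp
  · rw [mul_mulVec, d3 y e1 e2, c3 _ (by simp [e1, b1]) (by simp [e2, b2])]

theorem exists_tor (p : Hyp B u u') (hk : 3 ≤ Fintype.card κ) {t : F} (ht : t ≠ 0) :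
    ∃ γ ∈ RootG B 1, (γ : Matrix κ κ F) *ᵥ u = t ^ 2 • u ∧
      t ^ 2 • (γ : Matrix κ κ F) *ᵥ u' = u' ∧ ∀ y, B u y = 0 → B u' y = 0 →
        (γ : Matrix κ κ F) *ᵥ y = y := by
  obtain ⟨b, hb, b1, b2⟩ := h.exists_ns_hyp h2 p hk
  obtain ⟨γ, hγ, c1, c2, c3⟩ := h.exists_ww h2 p (a := t • b) (by simp [b1]) (by simp [b2])
    (by simp [hb, ht]) b1 b2 hb
  have e : B (t • b) (t • b) / B b b = t ^ 2 := by simp; field_simp
  rw [e] at c1 c2
  refine ⟨γ, hγ, c1, c2, fun y e1 e2 => ?_⟩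
  rw [c3 y e1 e2]
  simp only [map_sub, map_smul, LinearMap.smul_apply, smul_eq_mul]
  match_scalars <;> field_simp <;> ring

theorem lphi_o [Fintype F] (p : Hyp B u u') (hk : (3 ≤ Fintype.card κ ∧ 3 < Fintype.card F) ∨
    (4 ≤ Fintype.card κ ∧ WI1 B) ∨ 5 ≤ Fintype.card κ) : LPhi B 1 u u' := by
  classical
  intro y h1 h1' H
  rcases hk with ⟨hk, hq⟩ | ⟨hk, w⟩ | hk
  · obtain ⟨t, ht, ht'⟩ := exists_sq_ne_one hq
    obtain ⟨γ, hγ, c1, c2, c3⟩ := h.exists_tor h2 p hk ht
    have := H γ hγ _ c1 c2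
    rw [c3 y h1 h1', ← sub_eq_zero, ← one_smul F y, smul_smul, mul_one, ← sub_smul,
      smul_eq_zero, sub_eq_zero] at this
    exact this.resolve_left ht'
  · by_contra hy
    obtain ⟨b, hb, b0⟩ := h.exists_perp {u, u', y} (Finset.card_le_three.trans_lt hk)
    have b1 := b0 u (by simp)
    have b2 := b0 u' (by simp)
    have b3 := b0 y (by simp)
    have b4 := HForm.WI1.aniso h w p b1 b2 hb
    have b5 := HForm.WI1.aniso h w p h1 h1' hy
    have b6 : B (y + b) (y + b) ≠ 0 := HForm.WI1.aniso h w p (by simp [h1, b1]) (by simp [h1', b2])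
      fun e => b5 (by simpa [b3] using congrArg (B y) e)
    obtain ⟨γ, hγ, c1, c2, c3⟩ := h.exists_ww h2 p (a := y + b) (by simp [h1, b1])
      (by simp [h1', b2]) b6 b1 b2 b4
    have := congrArg (B b) (H γ hγ _ c1 c2)
    rw [c3 y h1 h1'] at this
    generalize B (y + b) (y + b) = d at this b6
    simp [h.sym b y, b3, b4, b5, b6, h2] at this
  · refine h.eq_zero_l fun x => ?_
    obtain ⟨c1, c2⟩ := h.perp_e0 p x
    rw [← h.form_e0 h1 h1']
    refine h.perp_sing h2 p hk (B y) (fun v hv a1 a2 => ?_) c1 c2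
    obtain ⟨z, hz, z1, z2, z3⟩ := h.exists_ns_sing h2 p hk hv a1 a2
    have e := h.xo_mulVec h2 hv z3
    have := congrArg (B z) (H (xo B v z) (xr_mem _ _ _) 1
      (by simp [e, h.sym v u, h.sym z u, a1, z1]) (by simp [e, h.sym v u', h.sym z u', a2, z2]))
    simpa [e, h.sym z v, z3, hz, h.sym y v] using this

theorem lzeta_o [Fintype F] (p : Hyp B u u') (hk : (3 ≤ Fintype.card κ ∧ 5 < Fintype.card F) ∨
    (4 ≤ Fintype.card κ ∧ WI1 B ∧ (3 : F) ≠ 0) ∨ 5 ≤ Fintype.card κ) : LZeta B 1 u u' := by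
  classical
  rcases hk with ⟨hk, hq⟩ | ⟨hk, w, h3⟩ | hk
  · obtain ⟨t, ht, ht'⟩ := exists_four_ne_one hq
    obtain ⟨γ, hγ, c1, -⟩ := h.exists_tor h2 p hk ht
    exact Or.inl ⟨γ, hγ, _, c1, ht'⟩
  · obtain ⟨y, hy, h1, h1'⟩ := h.exists_ns_hyp h2 p (by omega)
    obtain ⟨b, hb, b0⟩ := h.exists_perp {u, u', y} (Finset.card_le_three.trans_lt hk)
    have b1 := b0 u (by simp)
    have b2 := b0 u' (by simp)
    have b3 := b0 y (by simp)
    have b4 := HForm.WI1.aniso h w p b1 b2 hb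
    have b6 : B (y + b) (y + b) ≠ 0 := HForm.WI1.aniso h w p (by simp [h1, b1]) (by simp [h1', b2])
      fun e => hy (by simpa [b3] using congrArg (B y) e)
    obtain ⟨γ, hγ, c1, -⟩ := h.exists_ww h2 p (a := y + b) (by simp [h1, b1])
      (by simp [h1', b2]) b6 b1 b2 b4
    obtain ⟨δ, hδ, d1, -⟩ := h.exists_ww h2 p h1 h1' hy b1 b2 b4
    by_cases e : (B y y / B b b) ^ 2 = 1
    · refine Or.inl ⟨γ, hγ, _, c1, ?_⟩
      simp only [map_add, LinearMap.add_apply, b3, h.sym b y, add_zero, zero_add] at b6 ⊢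
      rcases sq_eq_one_iff.1 e with e | e
      · rw [add_div, e, div_self b4]
        exact fun e' => h3 (by linear_combination e')
      · rw [div_eq_iff b4] at e
        exact absurd (by linear_combination e) b6
    · exact Or.inl ⟨δ, hδ, _, d1, e⟩
  · exact Or.inr (h.exists_sing p hk)

theorem isSc_of_sing (p : Hyp B u u') (hk : 3 ≤ Fintype.card κ) {X : Matrix κ κ F}
    (H : ∀ v, B v v = 0 → X *ᵥ v ∈ Submodule.span F {v}) : IsSc F X := by
  obtain ⟨a, ha⟩ := Submodule.mem_span_singleton.1 (H u p.l)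
  obtain ⟨b, hb⟩ := Submodule.mem_span_singleton.1 (H u' p.r)
  have key : ∀ y, B u y = 0 → B u' y = 0 →
      X *ᵥ y = b • y + (B y y / 2 * (a - b)) • u := fun y h1 h1' => by
    obtain ⟨c, hc⟩ := Submodule.mem_span_singleton.1 (H _ (h.sing_shift h2 p h1 h1'))
    obtain ⟨d, hd⟩ := Submodule.mem_span_singleton.1
      (H _ (h.sing_shift h2 p (y := -y) (by simp [h1]) (by simp [h1'])))
    simp only [mulVec_sub, mulVec_add, mulVec_smul, mulVec_neg, ← ha, ← hb, map_neg,
      LinearMap.neg_apply, neg_neg] at hc hd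
    by_cases hy : y = 0
    · simp [hy]
    have e1 : (c - d) • y = (2 * b - c - d) • u' + (B y y / 2 * (c + d - 2 * a)) • u := by
      linear_combination (norm := module) hc + hd
    have e2 := congrArg (B u) e1
    simp only [map_add, map_smul, h1, p.l, p.lr, smul_eq_mul, mul_zero, mul_one, add_zero] at e2
    have e3 := congrArg (B u') e1
    simp only [map_add, map_smul, h1', p.r, h.sym u' u, p.lr, smul_eq_mul, mul_zero, mul_one,
      zero_add] at e3
    rw [← e2, ← e3, zero_smul, zero_smul, add_zero, smul_eq_zero, sub_eq_zero] at e1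
    obtain rfl := e1.resolve_right hy
    obtain rfl : c = b := mul_left_cancel₀ h2 (by linear_combination e2)
    linear_combination (norm := module) -hc
  obtain ⟨y, hy, h1, h1'⟩ := h.exists_ns_hyp h2 p hk
  have e1 := key y h1 h1'
  have e2 := key (-y) (by simp [h1]) (by simp [h1'])
  have e3 : (2 * (B y y / 2 * (a - b))) • u = 0 := by
    simp only [mulVec_neg, map_neg, LinearMap.neg_apply, neg_neg] at e2
    linear_combination (norm := module) -e1 - e2
  obtain rfl : a = b := by simpa [h2, hy, p.ne_l, sub_eq_zero] using e3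
  exact ⟨a, h.hyp_ext p (by simp [← ha, smul_mulVec]) (by simp [← hb, smul_mulVec])
    fun y h1 h1' => by simp [key y h1 h1', smul_mulVec]⟩

theorem isSc_of_traces [Fintype F] (p : Hyp B u u')
    (hk : (3 ≤ Fintype.card κ ∧ 3 < Fintype.card F) ∨ 5 ≤ Fintype.card κ) {X : Matrix κ κ F}
    (H1 : ∀ v, B v v = 0 → B v (X *ᵥ v) = 0)
    (H2 : ∀ v w, B v v = 0 → B v w = 0 → B v (X *ᵥ w) = B w (X *ᵥ v)) : IsSc F X := by
  have k1 : ∀ {u u'}, Hyp B u u' → ∀ y, B u y = 0 → B u' y = 0 →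
      B u' (X *ᵥ y) = B y y / 2 * B u (X *ᵥ y) := fun {u u'} p y h1 h1' => by
    have e1 := H1 _ (h.sing_shift h2 p h1 h1')
    have e2 := H1 _ (h.sing_shift h2 p (y := -y) (by simp [h1]) (by simp [h1']))
    simp only [mulVec_sub, mulVec_add, mulVec_smul, mulVec_neg, map_add, map_sub, map_smul, map_neg,
      LinearMap.add_apply, LinearMap.sub_apply, LinearMap.smul_apply, LinearMap.neg_apply, neg_neg,
      smul_eq_mul, ← H2 u y p.l h1, ← H2 u' y p.r h1'] at e1 e2
    exact mul_left_cancel₀ (mul_ne_zero h2 h2) (by linear_combination e1 - e2)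
  have k2 : ∀ {u u'}, Hyp B u u' → ∀ y, B u y = 0 → B u' y = 0 → B u' (X *ᵥ y) = 0 :=
    fun {u u'} p y h1 h1' => by
      rcases hk with ⟨-, hq⟩ | hk
      · obtain ⟨d, hd, hd'⟩ := exists_sq_ne_one hq
        have e1 := k1 p y h1 h1'
        have e2 := k1 p (d • y) (by simp [h1]) (by simp [h1'])
        simp only [mulVec_smul, map_smul, LinearMap.smul_apply, smul_eq_mul] at e2
        exact mul_left_cancel₀ (mul_ne_zero hd (sub_ne_zero.2 hd'))
          (by linear_combination d ^ 3 * e1 - e2)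
      · exact h.perp_sing h2 p hk (B u' ∘ₗ X.mulVecLin) (fun v hv a1 a2 => by
          simpa [hv] using k1 p v a1 a2) h1 h1'
  refine h.isSc_of_sing h2 p (by omega) fun v hv => h.mem_span_of_perp fun y hy => ?_
  by_cases hv0 : v = 0
  · simp [hv0]
  obtain ⟨v', q⟩ := h.exists_hyp (hq_o h2) hv hv0
  have e1 := h.zero_symm (hy v (Submodule.mem_span_singleton_self v))
  obtain ⟨a1, a2⟩ := h.perp_e0 q y
  have := k2 (h.hyp_swap q) _ a2 a1
  rw [e0_mulVec, e1] at this
  simpa [mulVec_sub, mulVec_smul, H1 v hv, H2 v y hv e1] using this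

end HForm

end Cfsg.Agent.Cl.Max
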