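import Mathlib
import Cfsg.Agent.Cl.TnO

/-!
# Orthogonal slots: root elements normalising another slot
-/

set_option autoImplicit false
set_option linter.unusedSectionVars false
set_option linter.unusedVariables false

namespace Cfsg.Agent.Cl.Max

open Matrix Cfsg.Geo Module

variable {F : Type*} [Field F] {κ : Type} [Fintype κ] [DecidableEq κ]
  {ι : Type} [Fintype ι] [DecidableEq ι]
  {B : LinearMap.BilinForm F (κ → F)} {ε : F} {BV : LinearMap.BilinForm F (ι → F)} {εV : F}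
  {ψ φ : Matrix κ κ F →ₐ[F] Matrix ι ι F} {M : Subgroup (GL ι F)} {u u' : κ → F}

variable (B ψ M) in
/-- Elements normalising the square of a singular vector normalise the slot. -/
def H2 : Prop := ∀ u, B u u = 0 → u ≠ 0 → ∀ g ∈ M, ∀ c : F,
  cj g (ψ (rk B u u)) = c • ψ (rk B u u) → g ∈ NE ψ

/-- The truncated exponential. -/
def ex (F : Type*) [Field F] {A : Type*} [Ring A] [Algebra F A] (N : A) : A :=
  1 + N + (2 : F)⁻¹ • (N * N)

theorem map_ex (N : Matrix κ κ F) : φ (ex F N) = ex F (φ N) := by simp [ex]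

theorem HForm.eq_zero_of_skew (h : BF B 1) (h2 : (2 : F) ≠ 0) {a : Matrix κ κ F}
    (ha : ad B a = -a) (h0 : a * a = 0) (hr : a.rank ≤ 1 ∨ WI1 B) : a = 0 := by
  by_contra hn
  have h1 : a.rank ≤ 1 := hr.elim id fun w => by
    obtain ⟨v, hv⟩ : ∃ v, a *ᵥ v ≠ 0 := by
      by_contra H
      push Not at H
      exact hn (Matrix.ext_iff_mulVec.2 fun v => by rw [H, zero_mulVec])
    have key : ∀ x y, B (a *ᵥ x) (a *ᵥ y) = 0 := fun x y => by
      rw [h.ad_l, mulVec_mulVec, ha, neg_mul, h0]; simp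
    refine (Submodule.finrank_mono (show LinearMap.range a.mulVecLin ≤
      Submodule.span F {a *ᵥ v} from ?_)).trans (finrank_span_singleton hv).le
    rintro _ ⟨x, rfl⟩
    obtain ⟨c, hc⟩ := w _ (a *ᵥ x) hv (key v v) (key x x) (key v x)
    exact Submodule.mem_span_singleton.2 ⟨c, hc.symm⟩
  obtain ⟨w, d, hw, hd, rfl⟩ := h.eq_smul_rk h1 hn (η := -1) (by simpa using ha)
  rw [h.ad_smul, h.ad_rk, one_smul, eq_neg_iff_add_eq_zero, ← two_smul F, smul_eq_zero] at ha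
  exact hn (ha.resolve_left h2)

namespace HForm

variable (h : BF B 1) (h2 : (2 : F) ≠ 0) {y : κ → F} (hu : B u u = 0) (hy : B u y = 0)
include h h2 hu hy

theorem NN_sq : NN B 1 u y * NN B 1 u y = -(B y y) • rk B u u := by
  rw [h.NN_mul_NN hu hy hy, one_mul]

theorem NN_cube : NN B 1 u y * NN B 1 u y * NN B 1 u y = 0 := by
  rw [h.NN_sq h2 hu hy, smul_mul_assoc, HForm.s_mul_NN hu hy, smul_zero]

theorem xo_eq : (xo B u y : Matrix κ κ F) = ex F (NN B 1 u y) := by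
  rw [h.coe_xo h2 hu hy, ex, h.NN_sq h2 hu hy, smul_smul]
  congr 2
  field_simp

theorem xo_inv_eq : (((xo B u y)⁻¹ : GL κ F) : Matrix κ κ F) = ex F (-NN B 1 u y) := by
  rw [h.coe_xr_inv (rc_o h2 hu hy), ex, neg_mul_neg, h.NN_sq h2 hu hy, smul_smul, sub_eq_add_neg]
  congr 2
  field_simp

theorem xo_sub_sq : ((xo B u y : Matrix κ κ F) - 1) * (xo B u y - 1) = -(B y y) • rk B u u := by
  rw [h.coe_xo h2 hu hy, add_assoc, add_sub_cancel_left, add_mul, mul_add, mul_add,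
    h.NN_sq h2 hu hy]
  simp [h.NN_mul_s hu hy, HForm.s_mul_NN hu hy, hu]

theorem cj_xo_eq {η : Matrix κ κ F} (e : NN B 1 u y * η = η * NN B 1 u y) :
    cj (xo B u y) η = η := by
  refine cj_eq_of_comm ?_
  rw [h.xo_eq h2 hu hy, ex, add_mul, mul_add, add_mul, mul_add, e, smul_mul_assoc, mul_smul_comm,
    mul_assoc, e, ← mul_assoc, e, mul_assoc, one_mul, mul_one]

theorem comm_of_cj_xo {η : Matrix κ κ F} (e : cj (xo B u y) η = η) :
    NN B 1 u y * η = η * NN B 1 u y := by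
  have e1 : Commute ((xo B u y : Matrix κ κ F) - 1) η :=
    comm_of_cj (g := xo B u y) (by simp) e
  have e2 := (e1.mul_left e1).smul_left (2 : F)⁻¹
  have := (e1.sub_left e2).eq
  rwa [h.xo_sub_sq h2 hu hy, ← h.NN_sq h2 hu hy, h.xo_eq h2 hu hy, ex, add_assoc,
    add_sub_cancel_left, add_sub_cancel_right] at this

end HForm

namespace Amb

variable [Nonempty ι]

theorem h2_of_loc (a : Amb B ε BV εV ψ M) (hb : HB B ψ M) (hL : Loc B ε) : H2 B ψ M :=
  fun u hu hu0 g hg c e => by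
    obtain ⟨u', p⟩ := a.h.exists_hyp a.hq hu hu0
    exact a.h2 hb p (hL u u' p).1 (hL u u' p).2 hg e

theorem mem_NE_of_inE' (a : Amb B ε BV εV ψ M) (H : H2 B ψ M) (hr : Rich B) {g : GL ι F}
    (hg : g ∈ M) (hu : B u u = 0) (hu0 : u ≠ 0) (hE : InE ψ (cj g (ψ (rk B u u)))) :
    g ∈ NE ψ := by
  obtain ⟨X, hX⟩ := hE
  obtain ⟨o⟩ : Nonempty κ := by
    by_contra hn
    rw [not_nonempty_iff] at hn
    exact hu0 (Subsingleton.elim _ _)
  have hi := algHom_matrix_injective ψ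
  have h1 : X.rank ≤ 1 := rank_le_of_map (ψ := ψ) o (by
    rw [hX, rank_cj, one_mul]; exact rank_rk_le o u u)
  have h0 : X ≠ 0 := by
    rintro rfl
    rw [map_zero, eq_comm, map_eq_zero_iff _ (cj g).injective] at hX
    exact a.s_ne_zero hu0 hX
  have h2 : ad B X = ε • X := hi (by
    rw [← a.adj, hX, a.hV.ad_cj (a.iso hg), a.adj, a.h.ad_rk, map_smul, map_smul, map_smul, hX])
  have h3 : X * X = 0 := hi (by
    rw [map_mul, hX, ← map_mul, ← map_mul, rk_mul_rk, hu, zero_smul]; simp)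
  obtain ⟨w, d, hw, hd, rfl⟩ := a.h.eq_smul_rk h1 h0 h2
  have hw' : B w w = 0 := by
    rw [smul_mul_smul_comm, rk_mul_rk, smul_smul, smul_eq_zero] at h3
    simpa [hd] using h3.resolve_right (a.h.rk_ne_zero hw hw)
  obtain ⟨γ, hγ, c, hc, e⟩ := a.h.exists_sim a.hq hr hw' hw hu hu0
  have h4 : homG ψ γ * g ∈ NE ψ := H u hu hu0 _ (mul_mem (a.root γ hγ) hg) (d * c * c) (by
    rw [cj_mul, ← hX, cj_homG, map_smul, a.h.cj_rk (a.h.RootG_le hγ), e]
    simp [smul_smul, mul_assoc])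
  simpa using mul_mem (inv_mem (homG_mem_NE γ)) h4

theorem good_of_or' (a : Amb B ε BV εV ψ M) (H : H2 B ψ M) (hr : Rich B)
    (hd : ∀ g ∈ M, ∀ w, B w w = 0 → w ≠ 0 → (∀ y c, homG (cjH g ψ) (xr B ε w y c) ∈ NE ψ) →
      InE ψ (cjH g ψ (rk B w w)) ∨ InC ψ (cjH g ψ (rk B w w)))
    {g : GL ι F} (hg : g ∈ M) (hu : B u u = 0) (hu0 : u ≠ 0)
    (H' : InE (cjH g ψ) (ψ (rk B u u)) ∨ InC (cjH g ψ) (ψ (rk B u u))) : Good ψ g := by
  obtain ⟨u', p⟩ := a.h.exists_hyp a.hq hu hu0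
  rcases H' with H' | H'
  · refine good_of_inv (Or.inl (a.mem_NE_of_inE' H hr (inv_mem hg) hu hu0 ?_))
    rwa [← inE_cjH (g := g), cj_cj_inv]
  have key : ∀ w y c, homG (cjH g ψ) (xr B ε w y c) ∈ NE ψ := fun w y c =>
    H u hu hu0 _ ((a.conj hg).xr_mem w y c) 1 (by
      rw [one_smul]; exact cj_eq_of_comm (H' _).symm)
  by_cases hE : ∃ w, B w w = 0 ∧ w ≠ 0 ∧ InE ψ (cjH g ψ (rk B w w))
  · obtain ⟨w, hw, hw0, hE⟩ := hE
    exact Or.inl (a.mem_NE_of_inE' H hr hg hw hw0 hE)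
  refine Or.inr (a.h.inC_of_s (ψ := cjH g ψ) a.hq p fun w hw => ?_)
  by_cases hw0 : w = 0
  · intro Y; simp [hw0]
  exact (hd g hg w hw hw0 (key w)).resolve_left fun h => hE ⟨w, hw, hw0, h⟩

theorem inC_ad (a : Amb B ε BV εV ψ M) {c : Matrix ι ι F} (hc : InC ψ c) : InC ψ (ad BV c) :=
  fun Y => by rw [← a.h.ad_ad Y, ← a.adj, ← a.hV.ad_mul, ← a.hV.ad_mul, hc]

theorem iso_unip (a : Amb B ε BV εV ψ M) {x : GL ι F} (hx : x ∈ isoB BV) {α : Matrix κ κ F}
    {γ : Matrix ι ι F} (hα : IsNilpotent α) (hγ : InC ψ γ)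
    (e : (x : Matrix ι ι F) = (1 + γ) * ψ (1 + α)) : (1 + ad B α) * (1 + α) = 1 := by
  have h1 : ψ ((1 + ad B α) * (1 + α)) * (ad BV (1 + γ) * (1 + γ)) = 1 := by
    have : ad BV (x : Matrix ι ι F) * x = 1 := by rw [a.hV.ad_iso hx, Units.inv_mul]
    rw [e, a.hV.ad_mul, a.adj, a.h.ad_add, a.h.ad_one] at this
    rw [map_mul, mul_assoc, ← (a.inC_ad (inC_one.add hγ)).mul (inC_one.add hγ)]
    simpa only [mul_assoc] using this
  obtain ⟨l, hl⟩ := exists_dual_one (F := F) (A := Matrix ι ι F)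
  have h2 := congrArg (pj ψ l) h1
  rw [pj_map_mul_inC l _ ((a.inC_ad (inC_one.add hγ)).mul (inC_one.add hγ)), pj_inC l inC_one, hl,
    one_smul] at h2
  generalize l _ = m at h2
  have h3 : (1 + α) * (m • (1 + ad B α)) = 1 := mul_eq_one_comm.1 (by rwa [smul_mul_assoc])
  rcases isEmpty_or_nonempty κ with hκ | hκ
  · exact Subsingleton.elim _ _
  have hm : m ≠ 0 := by rintro rfl; simp at h2
  have h4 : Commute (ad B α) α := by
    rw [mul_smul_comm] at h3
    have := smul_right_injective _ hm (h3.trans h2.symm)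
    simp only [add_mul, mul_add, one_mul, mul_one] at this
    exact (by linear_combination (norm := abel) -this : ad B α * α = α * ad B α)
  have h5 : IsNilpotent (ad B α) := by
    obtain ⟨n, hn⟩ := hα
    exact ⟨n, by rw [← a.h.adj_pow, hn, a.h.adj_zero]⟩
  have h6 : (1 + ad B α) * (1 + α) - 1 = 0 := IsSc.eq_zero (F := F)
    (IsSc.sub ⟨m⁻¹, (eq_inv_smul_iff₀ hm).2 h2⟩ ⟨1, by simp⟩) (by
      rw [show (1 + ad B α) * (1 + α) - 1 = α + ad B α * (1 + α) by noncomm_ring]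
      exact ((h4.symm.mul_right ((Commute.one_right α).add_right (Commute.refl α))).isNilpotent_add hα
        (((Commute.one_right _).add_right h4).isNilpotent_mul_right h5)))
  exact sub_eq_zero.1 h6

variable (a : Amb B 1 BV εV ψ M) (h2 : (2 : F) ≠ 0)
include a h2

theorem or_of_rank_two [Finite F] (hk : 5 ≤ Fintype.card κ ∨ (4 ≤ Fintype.card κ ∧ WI1 B)) (o : κ)
    {x : GL ι F} (h : x ∈ NE ψ) (hx : x ∈ isoB BV) (hn : IsNilpotent ((x : Matrix ι ι F) - 1))
    (hr : ((x : Matrix ι ι F) - 1).rank ≤ 2 * slotM ψ o) :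
    InE ψ (x : Matrix ι ι F) ∨ InC ψ (x : Matrix ι ι F) := by
  obtain ⟨α, γ, h0, -, h1, -, e, h3, h4⟩ := unip_rank o h hn hr
  have hi := a.iso_unip hx h0 h1 e
  have key : α * α = 0 → (α.rank ≤ 1 ∨ WI1 B) → InC ψ (x : Matrix ι ι F) := fun e1 e2 => by
    have e3 : ad B α * α = 0 := by
      have := congrArg (· * α) hi
      simpa [mul_assoc, add_mul, e1] using this
    have e4 : ad B α = -α := by
      rw [add_mul, mul_add, mul_add, e3] at hi
      simp only [one_mul, mul_one, add_zero] at hi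
      linear_combination (norm := abel) hi
    rw [e, a.h.eq_zero_of_skew h2 e4 e1 e2, add_zero, map_one, mul_one]
    exact inC_one.add h1
  rcases h3.eq_or_lt with h3 | h3
  · by_cases hz : ∃ z, α *ᵥ z = 0 ∧ z ∉ LinearMap.range α.mulVecLin
    · rw [e, h4 h3 hz, add_zero, one_mul]
      exact Or.inl (inE_map _)
    rcases hk with hk | ⟨hk, w⟩
    · exact absurd (exists_ker_notMem_range (by omega)) hz
    push Not at hz
    have e1 : LinearMap.ker α.mulVecLin = LinearMap.range α.mulVecLin :=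
      Submodule.eq_of_le_of_finrank_le (fun z hz' => hz z hz') (by
        have := α.mulVecLin.finrank_range_add_finrank_ker
        rw [finrank_fintype_fun_eq_card] at this
        unfold Matrix.rank at h3
        omega)
    exact Or.inr (key (Matrix.ext_iff_mulVec.2 fun v => by
      rw [← mulVec_mulVec, zero_mulVec]
      exact e1.ge ⟨v, rfl⟩) (Or.inr w))
  · refine Or.inr (key (Matrix.ext_iff_mulVec.2 fun v => ?_) (Or.inl (by omega)))
    rw [← mulVec_mulVec, zero_mulVec]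
    by_cases hv : α *ᵥ v = 0
    · rw [hv, mulVec_zero]
    obtain ⟨t, ht⟩ := exists_smul_of_rank_le_one (by omega) hv (α *ᵥ v)
    obtain ⟨n, hn⟩ := h0
    have : ∀ m, α ^ m *ᵥ (α *ᵥ v) = t ^ m • α *ᵥ v := fun m => by
      induction m with
      | zero => simp
      | succ m ih => rw [pow_succ', ← mulVec_mulVec, ih, mulVec_smul, ht, smul_smul, pow_succ]
    have e1 := this n
    rw [hn, zero_mulVec, eq_comm, smul_eq_zero] at e1
    rw [ht, eq_zero_of_pow_eq_zero (e1.resolve_right hv), zero_smul]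

theorem or_o_rank [Finite F] (hk : 5 ≤ Fintype.card κ ∨ (4 ≤ Fintype.card κ ∧ WI1 B))
    (hs : ∀ o, slotM φ o = slotM ψ o) {w y : κ → F} (hw : B w w = 0) (hy : B w y = 0)
    (hy' : B y y ≠ 0) (hx : homG φ (xo B w y) ∈ isoB BV) (H : homG φ (xo B w y) ∈ NE ψ) :
    InE ψ (φ (rk B w w)) ∨ InC ψ (φ (rk B w w)) := by
  obtain ⟨o⟩ : Nonempty κ := Fintype.card_pos_iff.1 (by omega)
  have e : (homG φ (xo B w y) : Matrix ι ι F) - 1 = φ (xo B w y - 1) := by
    rw [coe_homG, map_sub, map_one]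
  have e2 : φ (rk B w w) = (-B y y)⁻¹ • (((homG φ (xo B w y) : Matrix ι ι F) - 1) *
      (homG φ (xo B w y) - 1)) := by
    rw [e, ← map_mul, a.h.xo_sub_sq h2 hw hy, map_smul, smul_smul,
      inv_mul_cancel₀ (neg_ne_zero.2 hy'), one_smul]
  rw [e2]
  refine (a.or_of_rank_two h2 hk o H hx ?_ ?_).imp (fun h => ?_) fun h => ?_
  · refine ⟨4, ?_⟩
    rw [e, ← map_pow, show 4 = 2 * 2 from rfl, pow_mul, sq, sq, a.h.xo_sub_sq h2 hw hy]
    simp [hw]
  · rw [e, a.h.coe_xo h2 hw hy, ← hs, two_mul, show 1 + NN B 1 w y + -(B y y / 2) • rk B w w - 1 =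
      rk B y w + rk B w (-y - (B y y / 2) • w) by simp [NN_apply]; module, map_add]
    exact (rank_add_le' _ _).trans (add_le_add (rank_rk_le o _ _) (rank_rk_le o _ _))
  · have := h.sub (⟨1, map_one ψ⟩ : InE ψ 1)
    exact (this.mul this).smul _
  · have := h.sub inC_one
    exact (this.mul this).smul _

theorem exists_skew {N : Matrix ι ι F} (h : InEC ψ N) (hN : ad BV N = -N) :
    ∃ α c, ad B α = -α ∧ InC ψ c ∧ N = ψ α + c := by
  obtain ⟨α, c, hc, rfl⟩ := h
  rw [a.hV.ad_add, a.adj] at hN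
  have e : ψ (α + ad B α) = -(c + ad BV c) := by
    rw [map_add]; linear_combination (norm := abel) hN
  refine ⟨(2 : F)⁻¹ • (α - ad B α), c + (2 : F)⁻¹ • ψ (α + ad B α), ?_,
    hc.add (InC.smul (e ▸ (hc.add (a.inC_ad hc)).neg) _), ?_⟩
  · rw [a.h.ad_smul, a.h.ad_sub, a.h.ad_ad]; module
  · rw [map_smul, map_sub, map_add]
    match_scalars <;> field_simp <;> ring

theorem eq_zero_of_quad (hk : Fintype.card κ = 3) {α : Matrix κ κ F} (hα : ad B α = -α) {μ : F}
    (h : IsSc F (α * α + μ • α)) : α = 0 := by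
  obtain ⟨ν, h⟩ := h
  have h1 := congrArg (ad B) h
  rw [a.h.ad_add, a.h.ad_mul, a.h.ad_smul, a.h.ad_smul, a.h.ad_one, hα, neg_mul_neg] at h1
  have h3 : α * α = ν • 1 := smul_right_injective _ h2 (by
    linear_combination (norm := module) h + h1)
  have h4 : α.det = 0 := by
    have := a.h.det_adj α
    rw [show Max.adj _ _ α = -α from hα, det_neg, hk, RingHom.id_apply] at this
    exact mul_left_cancel₀ h2 (by linear_combination -this)
  have h5 := congrArg det h3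
  rw [det_mul, h4, det_smul, det_one, mul_one, zero_mul, eq_comm, hk] at h5
  rw [eq_zero_of_pow_eq_zero h5, zero_smul] at h3
  exact a.h.eq_zero_of_skew h2 hα h3 (Or.inr (a.h.wi1_three hk))

theorem or_of_ex (hk : Fintype.card κ = 3) {d : F} (hd : d ≠ 0) (hd' : d ^ 2 ≠ 1)
    {N : Matrix ι ι F} (hN : ad BV N = -N)
    (H : ∀ (t : F) Y, InE ψ (ex F (t • N) * ψ Y * ex F (-(t • N)))) : InE ψ N ∨ InC ψ N := by
  have k1 : ∀ (t : F) Y, InE ψ ((2 * t) • (N * ψ Y - ψ Y * N) -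
      t ^ 3 • (N * (N * ψ Y - ψ Y * N) * N)) := fun t Y => by
    convert (H t Y).sub (H (-t) Y) using 1
    simp only [ex, neg_smul, neg_neg, add_mul, mul_add, mul_sub, sub_mul, smul_mul_assoc,
      mul_smul_comm, neg_mul, mul_neg, one_mul, mul_one, mul_assoc]
    match_scalars <;> field_simp <;> ring
  have k2 : ∀ Y, InE ψ (N * (N * ψ Y - ψ Y * N) * N) := fun Y => by
    convert (((k1 1 Y).smul d).sub (k1 d Y)).smul (d * (d ^ 2 - 1))⁻¹ using 1
    have := sub_ne_zero.2 hd'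
    match_scalars <;> field_simp <;> ring
  obtain ⟨α, c, hα, hc, rfl⟩ := a.exists_skew h2 (inEC_of_lie fun Y => by
    convert ((k1 1 Y).add (k2 Y)).smul (2 : F)⁻¹ using 1
    match_scalars <;> field_simp <;> ring) hN
  by_cases hs : IsSc F c
  · exact Or.inl (inE_add_isSc α hs)
  obtain ⟨l, l1, l2⟩ := exists_dual_of_not_isSc hs
  have : α = 0 := a.eq_zero_of_quad h2 hk hα (μ := l (c * c)) ((eq_smul_one_of_commute fun Y => by
    have e := (k2 Y).pj_eq_zero l1
    have e1 : (ψ α + c) * ψ Y - ψ Y * (ψ α + c) = ψ (α * Y - Y * α) := by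
      rw [add_mul, mul_add, hc, map_sub, map_mul, map_mul]; abel
    have e2 : ∀ b, (ψ α + c) * ψ b * (ψ α + c) =
        ψ (α * b * α) + ψ (α * b) * c + (ψ (b * α) * c + ψ b * (c * c)) := fun b => by
      simp only [add_mul, mul_add, map_mul, hc b, mul_assoc, hc α]
      abel
    rw [e1, e2, map_add, map_add, map_add, pj_map, pj_map_mul_inC l _ hc, pj_map_mul_inC l _ hc,
      pj_map_mul_inC l _ (hc.mul hc), l1, l2] at e
    simp only [mul_sub, sub_mul, smul_sub, mul_assoc, add_mul, mul_add, smul_mul_assoc,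
      mul_smul_comm] at e ⊢
    linear_combination (norm := module) e).imp fun _ h => h)
  rw [this, map_zero, zero_add]
  exact Or.inr hc

theorem or_o_all [Fintype F] (hk : Fintype.card κ = 3) (hq : 3 < Fintype.card F)
    (hφ : ∀ X, ad BV (φ X) = φ (ad B X)) {w y : κ → F} (hw : B w w = 0) (hy : B w y = 0)
    (hy' : B y y ≠ 0) (H : ∀ t : F, homG φ (xo B w (t • y)) ∈ NE ψ) :
    InE ψ (φ (rk B w w)) ∨ InC ψ (φ (rk B w w)) := by
  obtain ⟨d, hd, hd'⟩ := exists_sq_ne_one hq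
  have e2 : φ (rk B w w) = (-B y y)⁻¹ • (φ (NN B 1 w y) * φ (NN B 1 w y)) := by
    rw [← map_mul, a.h.NN_sq h2 hw hy, map_smul, smul_smul, inv_mul_cancel₀ (neg_ne_zero.2 hy'),
      one_smul]
  rw [e2]
  refine (a.or_of_ex h2 hk hd hd' (by rw [hφ, a.h.ad_NN, map_neg]) fun t Y => ?_).imp
    (fun h => (h.mul h).smul _) fun h => (h.mul h).smul _
  have := NE_maps (H t) Y
  have e : B w (t • y) = 0 := by simp [hy]
  rwa [cj_apply, ← map_inv, coe_homG, coe_homG, a.h.xo_eq h2 hw e, a.h.xo_inv_eq h2 hw e, map_ex,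
    map_ex, map_neg, map_smul, map_smul] at this

end Amb

end Cfsg.Agent.Cl.Max
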