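import Mathlib
import Cfsg.Agent.Cl.TnO2

/-!
# Orthogonal slots: orbit sums and the generic case
-/

set_option autoImplicit false
set_option linter.unusedSectionVars false
set_option linter.unusedVariables false

namespace Cfsg.Agent.Cl.Max

open Matrix Cfsg.Geo Module

variable {F : Type*} [Field F] {κ : Type} [Fintype κ] [DecidableEq κ]
  {ι : Type} [Fintype ι] [DecidableEq ι]
  {B : LinearMap.BilinForm F (κ → F)} {ε : F} {BV : LinearMap.BilinForm F (ι → F)} {εV : F}
  {ψ φ : Matrix κ κ F →ₐ[F] Matrix ι ι F} {M : Subgroup (GL ι F)} {u u' : κ → F}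

section Poly

variable {σ : Type} {A : Type*} [Ring A] [Algebra F A]

/-- Polynomial maps of bounded degree. -/
inductive PD : ℕ → ((σ → F) → A) → Prop
  | const (d : ℕ) (a : A) : PD d fun _ => a
  | add {d : ℕ} {f g : (σ → F) → A} : PD d f → PD d g → PD d fun t => f t + g t
  | var {d : ℕ} {f : (σ → F) → A} (i : σ) : PD d f → PD (d + 1) fun t => t i • f t
  | mono {d e : ℕ} {f : (σ → F) → A} : d ≤ e → PD d f → PD e f

theorem PD.const_mul {d : ℕ} {f : (σ → F) → A} (h : PD d f) (a : A) : PD d fun t => a * f t := by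
  induction h with
  | const d b => exact .const d _
  | add _ _ h1 h2 => simpa only [mul_add] using h1.add h2
  | var i _ h1 => simpa only [mul_smul_comm] using h1.var i
  | mono h _ h1 => exact h1.mono h

theorem PD.mul {d e : ℕ} {f g : (σ → F) → A} (h : PD d f) (h' : PD e g) :
    PD (d + e) fun t => f t * g t := by
  induction h with
  | const d b => exact (h'.const_mul b).mono (by omega)
  | add _ _ h1 h2 => simpa only [add_mul] using h1.add h2
  | var i _ h1 => simpa only [smul_mul_assoc] using (h1.var i).mono (by omega)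
  | mono h _ h1 => exact h1.mono (by omega)

theorem PD.smul {d : ℕ} {f : (σ → F) → A} (h : PD d f) (c : F) : PD d fun t => c • f t := by
  simpa using h.const_mul (c • 1)

theorem PD.neg {d : ℕ} {f : (σ → F) → A} (h : PD d f) : PD d fun t => -f t := by
  simpa using h.const_mul (-1)

variable [Fintype σ] [DecidableEq σ]

theorem PD.lin {V : Type*} [AddCommGroup V] [Module F V] (L : V →ₗ[F] A) (y : σ → V) :
    PD 1 fun t => L (Fintype.linearCombination F y t) := by
  simp only [Fintype.linearCombination_apply, map_sum, map_smul]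
  refine Finset.induction_on Finset.univ (by simpa using PD.const 1 0) fun i s hi h => ?_
  simpa only [Finset.sum_insert hi] using ((PD.const 0 (L (y i))).var i).add h

theorem PD.sum_eq_zero [Fintype F] {d : ℕ} {f : (σ → F) → A} (h : PD d f)
    (hd : d < (Fintype.card F - 1) * Fintype.card σ) : ∑ t, f t = 0 := by
  have key : ∀ P : MvPolynomial σ F, P.totalDegree + d < (Fintype.card F - 1) * Fintype.card σ →
      ∑ t, MvPolynomial.eval t P • f t = 0 := by
    clear hd
    induction h with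
    | const d b =>
      exact fun P hP => by rw [← Finset.sum_smul, P.sum_eval_eq_zero (by omega), zero_smul]
    | add _ _ h1 h2 =>
      exact fun P hP => by simp only [smul_add, Finset.sum_add_distrib, h1 P hP, h2 P hP, add_zero]
    | var i _ h1 =>
      intro P hP
      have := MvPolynomial.totalDegree_mul P (MvPolynomial.X i)
      rw [MvPolynomial.totalDegree_X] at this
      rw [← h1 (P * MvPolynomial.X i) (by omega)]
      exact Finset.sum_congr rfl fun t _ => by
        rw [smul_smul, (MvPolynomial.eval t).map_mul, MvPolynomial.eval_X]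
    | mono h _ h1 => exact fun P hP => h1 P (by omega)
  simpa using key 1 (by simpa using hd)

theorem PD.sum_ex [Fintype F] {N : (σ → F) → A} (h : PD 1 N) (η : A) (J : Submodule F A)
    (hd : 4 < (Fintype.card F - 1) * Fintype.card σ ∨
      3 < (Fintype.card F - 1) * Fintype.card σ ∧ ∀ t, N t * N t * η * (N t * N t) ∈ J) :
    ∑ t, ex F (N t) * η * ex F (-N t) ∈ J := by
  have h0 : PD 1 fun t => 1 + N t := (PD.const 1 1).add h
  have h0' : PD 1 fun t => 1 + -N t := (PD.const 1 1).add h.neg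
  have h1 : PD 2 fun t => ex F (N t) := (h0.mono one_le_two).add ((h.mul h).smul _)
  have h2 : PD 2 fun t => ex F (-N t) := (h0'.mono one_le_two).add ((h.neg.mul h.neg).smul _)
  rcases hd with hd | ⟨hd, hJ⟩
  · rw [((h1.mul (.const 0 η)).mul h2).sum_eq_zero hd]
    exact J.zero_mem
  have e : ∀ t, ex F (N t) * η * ex F (-N t) = ((1 + N t) * η * ex F (-N t) +
      (2 : F)⁻¹ • (N t * N t * η * (1 + -N t))) +
        ((2 : F)⁻¹ * 2⁻¹) • (N t * N t * η * (N t * N t)) := fun t => by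
    simp only [ex, add_mul, mul_add, smul_mul_assoc, mul_smul_comm, neg_mul_neg]
    module
  simp only [e]
  rw [Finset.sum_add_distrib, (((h0.mul (.const 0 η)).mul h2).add
    ((((h.mul h).mul (.const 0 η)).mul h0').smul _)).sum_eq_zero hd, zero_add]
  exact J.sum_mem fun t _ => J.smul_mem _ (hJ t)

end Poly

theorem HForm.sum_xo [Fintype F] (h : BF B 1) (h2 : (2 : F) ≠ 0) (hu : B u u = 0) {r : ℕ}
    {y : Fin r → κ → F} (hy : ∀ i, B u (y i) = 0) (η : Matrix κ κ F)
    (J : Submodule F (Matrix κ κ F)) (hd : 4 < (Fintype.card F - 1) * r ∨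
      3 < (Fintype.card F - 1) * r ∧ (rk B u u ∈ J ∨ B u (η *ᵥ u) = 0)) :
    ∑ t, cj (xo B u (Fintype.linearCombination F y t)) η ∈ J := by
  have e : ∀ t, B u (Fintype.linearCombination F y t) = 0 := fun t => by
    simp [Fintype.linearCombination_apply, hy]
  simp only [cj_apply, h.xo_eq h2 hu (e _), h.xo_inv_eq h2 hu (e _)]
  refine (PD.lin (NN B 1 u) y).sum_ex η J (by
    rw [Fintype.card_fin]
    refine hd.imp_right fun ⟨h1, h3⟩ => ⟨h1, fun t => ?_⟩
    rw [h.NN_sq h2 hu (e t), smul_mul_assoc, smul_mul_smul_comm, rk_mul_mul_rk]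
    rcases h3 with h3 | h3
    · exact J.smul_mem _ (J.smul_mem _ h3)
    · simp [h3])

namespace Amb

variable [Fintype F] [Nonempty ι] (a : Amb B 1 BV εV ψ M) (h2 : (2 : F) ≠ 0) (H : H2 B ψ M)
  (ok : OkO B)
include a h2 H ok

theorem good_o_of_or {g : GL ι F} (hg : g ∈ M) (hu : B u u = 0) (hu0 : u ≠ 0)
    (H' : InE (cjH g ψ) (ψ (rk B u u)) ∨ InC (cjH g ψ) (ψ (rk B u u))) : Good ψ g := by
  have hk : 3 ≤ Fintype.card κ := by rcases ok with h | h | h <;> omega
  refine a.good_of_or' H (a.h.rich_o h2 hk) (fun g hg w hw hw0 K => ?_) hg hu hu0 H'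
  obtain ⟨w', p⟩ := a.h.exists_hyp a.hq hw hw0
  obtain ⟨y, hy, h1, -⟩ := a.h.exists_ns_hyp h2 p hk
  rcases ok with h | h
  · exact a.or_o_all h2 h.1 (by rw [← Nat.card_eq_fintype_card]; omega) (a.conj hg).adj hw h1 hy
      fun t => K _ _
  · exact a.or_o_rank h2 (h.symm.imp_right fun h => ⟨h.1.ge, h.2⟩) (fun o => slotM_cjH g) hw h1 hy
      (a.iso ((a.conj hg).xr_mem _ _ _)) (K _ _)

theorem orbit_o (p : Hyp B u u') (J : Submodule F (Matrix κ κ F)) (hJ : rk B u u ∈ J ∨
      (Fintype.card κ = 3 → 5 < Fintype.card F) ∧ (Fintype.card κ = 4 → 3 < Fintype.card F))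
    {g : GL ι F} (hg : g ∈ M) (hn : ¬ Good ψ g) :
    ∃ (R : AddSubgroup (κ → F)) (T : Finset (κ → F)), (∀ t, t ∈ T ↔ t ∈ R) ∧
      (∀ t ∈ R, homG ψ (xo B u (e0 B 1 u u' *ᵥ t)) ∈ NE (cjH g ψ) → t = 0) ∧
      ∀ η, (∀ t, homG ψ (xo B u (e0 B 1 u u' *ᵥ t)) ∈ NE (cjH g ψ) →
        cj (xo B u (e0 B 1 u u' *ᵥ t)) η = η) → ∑ t ∈ T, cj (xo B u (e0 B 1 u u' *ᵥ t)) η ∈ J := by
  have hq : 3 ≤ Fintype.card F := by
    have := FiniteField.cast_card_eq_zero F
    have h1 := Fintype.one_lt_card (α := F)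
    by_contra h3
    rw [show Fintype.card F = 2 by omega] at this
    exact h2 this
  have gen : ∀ {r : ℕ} (y : Fin r → κ → F), (∀ i, B u (y i) = 0 ∧ B u' (y i) = 0) →
      (∀ t, homG ψ (xo B u (Fintype.linearCombination F y t)) ∈ NE (cjH g ψ) → t = 0) →
      (∀ η, (∀ z, B u z = 0 → B u' z = 0 → homG ψ (xo B u z) ∈ NE (cjH g ψ) →
        cj (xo B u z) η = η) → 4 < (Fintype.card F - 1) * r ∨
          3 < (Fintype.card F - 1) * r ∧ (rk B u u ∈ J ∨ B u (η *ᵥ u) = 0)) →
      ∃ (R : AddSubgroup (κ → F)) (T : Finset (κ → F)), (∀ t, t ∈ T ↔ t ∈ R) ∧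
      (∀ t ∈ R, homG ψ (xo B u (e0 B 1 u u' *ᵥ t)) ∈ NE (cjH g ψ) → t = 0) ∧
      ∀ η, (∀ t, homG ψ (xo B u (e0 B 1 u u' *ᵥ t)) ∈ NE (cjH g ψ) →
        cj (xo B u (e0 B 1 u u' *ᵥ t)) η = η) → ∑ t ∈ T, cj (xo B u (e0 B 1 u u' *ᵥ t)) η ∈ J := by
    intro r y hy h1 h3
    have e : ∀ t, e0 B 1 u u' *ᵥ Fintype.linearCombination F y t =
        Fintype.linearCombination F y t := fun t => e0_mulVec_of
      (by simp [Fintype.linearCombination_apply, hy]) (by simp [Fintype.linearCombination_apply, hy])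
    refine exists_orbit_data (J := fun x => x ∈ J) (Fintype.linearCombination F y).toAddMonoidHom
      ((injective_iff_map_eq_zero _).2 fun t ht => h1 t ?_) (fun t ht => h1 t (e t ▸ ht))
      fun η hη => ?_
    · rw [show Fintype.linearCombination F y t = 0 from ht,
        show xo B u 0 = 1 from Units.ext (by rw [a.h.coe_xo h2 p.l (by simp)]; simp), map_one]
      exact one_mem _
    · simp only [LinearMap.toAddMonoidHom_coe, e]
      exact a.h.sum_xo h2 p.l (fun i => (hy i).1) η J (h3 η fun z z1 z2 hz => by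
        have := hη z
        rw [e0_mulVec_of z1 z2] at this
        exact this hz)
  have lc : ∀ {r : ℕ} {y : Fin r → κ → F}, (∀ i, B u (y i) = 0 ∧ B u' (y i) = 0) → ∀ t,
      B u (Fintype.linearCombination F y t) = 0 ∧ B u' (Fintype.linearCombination F y t) = 0 :=
    fun hy t => by simp [Fintype.linearCombination_apply, hy]
  have sing : 5 ≤ Fintype.card κ ∨ (4 ≤ Fintype.card κ ∧ WI1 B) → ∀ z, B u z = 0 →
      homG ψ (xo B u z) ∈ NE (cjH g ψ) → B z z = 0 := fun hk z h1 hz => by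
    by_contra h3
    exact hn (a.good_o_of_or h2 H ok hg p.l p.ne_l ((a.conj hg).or_o_rank h2 hk
      (fun o => (slotM_cjH g).symm) p.l h1 h3 (a.iso (a.xr_mem _ _ _)) hz))
  rcases id ok with ⟨hk, hq'⟩ | ⟨hk, w⟩ | hk
  · rw [Nat.card_eq_fintype_card] at hq'
    obtain ⟨y, hy, y1, y2⟩ := a.h.exists_ns_hyp h2 p hk.ge
    by_cases c0 : ∀ t : F, homG ψ (xo B u (t • y)) ∈ NE (cjH g ψ) → t = 0
    · refine gen ![y] (by simp [y1, y2]) (fun t ht => funext fun i => ?_) fun η _ => ?_
      · rw [Subsingleton.elim i 0]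
        exact c0 _ (by simpa [Fintype.linearCombination_apply] using ht)
      · exact hJ.symm.imp (fun h => by have := h.1 hk; omega) fun h => ⟨by omega, Or.inl h⟩
    push Not at c0
    obtain ⟨t₀, s0, ht₀⟩ := c0
    obtain ⟨t₁, s1⟩ : ∃ t : F, homG ψ (xo B u (t • y)) ∉ NE (cjH g ψ) := by
      by_contra h3
      push Not at h3
      exact hn (a.good_o_of_or h2 H ok hg p.l p.ne_l
        ((a.conj hg).or_o_all h2 hk (by omega) a.adj p.l y1 hy h3))
    obtain ⟨q, hq⟩ := CharP.exists F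
    have : Fact q.Prime := ⟨CharP.char_is_prime F q⟩
    let c := ZMod.castHom (dvd_refl q) F
    have ey : ∀ t : F, e0 B 1 u u' *ᵥ (t • y) = t • y := fun t =>
      e0_mulVec_of (by simp [y1]) (by simp [y2])
    have k : ∀ n : ZMod q, homG ψ (xo B u ((c n * t₁) • y)) ∈ NE (cjH g ψ) → n = 0 := fun n s => by
      by_contra h3
      have k1 : ∀ m : ℕ, homG ψ (xo B u (((m : F) * (c n * t₁)) • y)) ∈ NE (cjH g ψ) := fun m => by
        induction m with
        | zero =>
          rw [show xo B u ((((0 : ℕ) : F) * (c n * t₁)) • y) = 1 from Units.ext (by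
            rw [a.h.coe_xo h2 p.l (by simp)]; simp), map_one]
          exact one_mem _
        | succ m ih =>
          rw [Nat.cast_succ, add_mul, one_mul, add_smul,
            a.h.xo_add h2 p.l (by simp [y1]) (by simp [y1]), map_mul]
          exact mul_mem ih s
      have := k1 n⁻¹.val
      rw [← map_natCast c, ZMod.natCast_zmod_val, ← mul_assoc, ← map_mul, inv_mul_cancel₀ h3,
        map_one, one_mul] at this
      exact s1 this
    refine exists_orbit_data (J := fun x => x ∈ J) (AddMonoidHom.mk' (fun n : ZMod q =>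
      (c n * t₁) • y) fun m n => by rw [map_add, add_mul, add_smul])
      ((injective_iff_map_eq_zero _).2 fun n hn => k n ?_) (fun n hn => k n (ey _ ▸ hn))
      fun η hη => ?_
    · rw [show (c n * t₁) • y = 0 from hn,
        show xo B u 0 = 1 from Units.ext (by rw [a.h.coe_xo h2 p.l (by simp)]; simp), map_one]
      exact one_mem _
    · have e1 := hη (t₀ • y)
      rw [ey] at e1
      have e2 := a.h.comm_of_cj_xo h2 p.l (by simp [y1]) (e1 s0)
      rw [map_smul, smul_mul_assoc, mul_smul_comm] at e2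
      have e3 : ∀ t : F, cj (xo B u (t • y)) η = η := fun t => a.h.cj_xo_eq h2 p.l (by simp [y1]) (by
        rw [map_smul, smul_mul_assoc, mul_smul_comm, smul_right_injective _ ht₀ e2])
      simp only [AddMonoidHom.mk'_apply, ey, e3, Finset.sum_const, Finset.card_univ, ZMod.card]
      rw [← Nat.cast_smul_eq_nsmul F, CharP.cast_eq_zero, zero_smul]
      exact J.zero_mem
  · obtain ⟨y, hy, hy'⟩ := a.h.exists_indep p (r := 2) (by omega)
    refine gen y hy' (fun t ht => funext (Fintype.linearIndependent_iff.1 hy t ?_)) fun η _ => ?_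
    · by_contra h3
      exact HForm.WI1.aniso a.h w p (lc hy' t).1 (lc hy' t).2 h3
        (sing (Or.inr ⟨hk.ge, w⟩) _ (lc hy' t).1 ht)
    · exact hJ.symm.imp (fun h => by have := h.2 hk; omega) fun h => ⟨by omega, Or.inl h⟩
  by_cases c0 : ∀ z, B u z = 0 → B u' z = 0 → homG ψ (xo B u z) ∈ NE (cjH g ψ) → z = 0
  · obtain ⟨y, hy, hy'⟩ := a.h.exists_indep p (r := 3) (by omega)
    exact gen y hy' (fun t ht => funext (Fintype.linearIndependent_iff.1 hy t
      (c0 _ (lc hy' t).1 (lc hy' t).2 ht))) fun η _ => Or.inl (by omega)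
  push Not at c0
  obtain ⟨b, b1, b2, b3, b4⟩ := c0
  have b5 := sing (Or.inl hk) b b1 b3
  obtain ⟨z, hz⟩ := a.h.exists_one_r b4
  obtain ⟨z1, z2⟩ := a.h.perp_e0 p z
  have z3 : B b (e0 B 1 u u' *ᵥ z) = 1 := by rw [a.h.form_e0 b1 b2, hz]
  obtain ⟨y, hy, y1, y2, y3⟩ := a.h.exists_ns_sing h2 p hk b5 b1 b2
  have hy' : ∀ i, B u (![e0 B 1 u u' *ᵥ z, y] i) = 0 ∧ B u' (![e0 B 1 u u' *ᵥ z, y] i) = 0 :=
    fun i => by fin_cases i <;> simp [z1, z2, y1, y2]
  refine gen _ hy' (fun t ht => ?_) fun η hη => Or.inr ⟨by omega, Or.inr ?_⟩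
  · have e1 := sing (Or.inl hk) _ (lc hy' t).1 ht
    have e2 := mul_mem b3 ht
    rw [← map_mul, ← a.h.xo_add h2 p.l b1 (lc hy' t).1] at e2
    replace e2 := sing (Or.inl hk) _ (by simp only [map_add, b1, (lc hy' t).1, add_zero]) e2
    simp only [map_add, LinearMap.add_apply, e1, b5, a.h.sym _ b] at e2
    have e3 : t 0 = 0 := by
      simpa [Fintype.linearCombination_apply, z3, y3, ← two_mul, h2] using e2
    have e4 : t 1 = 0 := by simpa [Fintype.linearCombination_apply, e3, hy] using e1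
    funext i
    fin_cases i
    exacts [e3, e4]
  · exact (a.h.perp_of_comm (a.h.comm_of_cj_xo h2 p.l b1 (hη b b1 b2 b3)) (a.h.ad_NN u b)
      (d := e0 B 1 u u' *ᵥ z) (c := -1) (u := u) (v := u)
      (by simp [NN_apply, sub_mulVec, z1, z3, -mulVec_mulVec]) (by simp) fun x => by
        simp [NN_apply, sub_mulVec, b1, p.l]).1

theorem pj_Delta_o (p : Hyp B u u') (J : Submodule F (Matrix κ κ F)) (hJ : rk B u u ∈ J ∨
      (Fintype.card κ = 3 → 5 < Fintype.card F) ∧ (Fintype.card κ = 4 → 3 < Fintype.card F))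
    {z : Matrix κ κ F} (hz : ∀ y, B u y = 0 → NN B 1 u y * z = z * NN B 1 u y)
    {c : Matrix ι ι F} (hc : InC ψ c) (l : Dual F (Matrix ι ι F)) :
    pj ψ l (Delta ψ M (ψ z * c)) ∈ J :=
  pj_Delta_mem (fun t => xo B u (e0 B 1 u u' *ᵥ t)) (fun s t => by
    rw [mulVec_add, a.h.xo_add h2 p.l (a.h.perp_e0 p s).1 (a.h.perp_e0 p t).1])
    (fun t => a.xr_mem _ _ _) J (fun g hg hn => a.orbit_o h2 H ok p J hJ hg hn)
    (fun t => a.h.cj_xo_eq h2 p.l (a.h.perp_e0 p t).1 (hz _ (a.h.perp_e0 p t).1)) hc l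

end Amb

theorem HForm.exists_hyp_o [Finite F] (h : BF B 1) (h2 : (2 : F) ≠ 0) (hk : 3 ≤ Fintype.card κ) :
    ∃ u u', Hyp B u u' := by
  obtain ⟨u, hu, hu'⟩ := quad_exists_singular B.toQuadraticMap (by simpa using hk)
  exact ⟨u, h.exists_hyp (hq_o h2) hu' hu⟩

/-- The main result for orthogonal slots in the generic case. -/
theorem Amb.good_o [Fintype F] [Nonempty ι] (a : Amb B 1 BV εV ψ M) (h2 : (2 : F) ≠ 0)
    (hb : HB B ψ M) (ok : OkO B) (h3 : Fintype.card κ = 3 → 5 < Fintype.card F)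
    (h4 : Fintype.card κ = 4 → 3 < Fintype.card F) {g : GL ι F} (hg : g ∈ M) : Good ψ g := by
  have hk : 3 ≤ Fintype.card κ := by rcases ok with h | h | h <;> omega
  have : Nontrivial κ := Fintype.one_lt_card_iff_nontrivial.1 (by omega)
  have hk' : (3 ≤ Fintype.card κ ∧ 3 < Fintype.card F) ∨ 5 ≤ Fintype.card κ := by omega
  have H : H2 B ψ M := a.h2_of_loc hb fun u u' p =>
    ⟨a.h.lphi_o h2 p (hk'.imp_right Or.inr), a.h.lzeta_o h2 p (by
      rcases ok with h | h | h
      · exact Or.inl ⟨hk, h3 h.1⟩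
      · by_cases h5 : 5 < Fintype.card F
        · exact Or.inl ⟨hk, h5⟩
        refine Or.inr (Or.inl ⟨h.1.ge, h.2, fun e => ?_⟩)
        have e1 := FiniteField.cast_card_eq_zero F
        have := h4 h.1
        obtain e2 | e2 : Fintype.card F = 4 ∨ Fintype.card F = 5 := by omega
        all_goals rw [e2] at e1
        · exact one_ne_zero (α := F) (by linear_combination (exp := 1) e1 - e)
        · exact h2 (by linear_combination (exp := 1) e1 - e)
      · exact Or.inr (Or.inr h))⟩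
  have key : ∀ u z, B u u = 0 → u ≠ 0 → (∀ y, B u y = 0 → NN B 1 u y * z = z * NN B 1 u y) →
      z ∈ DK ψ M := fun u z hu hu0 hz c hc => by
    obtain ⟨u', p⟩ := a.h.exists_hyp a.hq hu hu0
    exact eq_zero_of_pj fun l => a.pj_Delta_o h2 H ok p ⊥ (Or.inr ⟨h3, h4⟩) hz hc l
  obtain ⟨u, u', p⟩ := a.h.exists_hyp_o h2 hk
  refine transfer_rigid (Or.inl h2) (fun z hz => mem_of_trace _ fun X hX =>
    (a.h.isSc_of_traces h2 p hk' (fun v hv => ?_) fun v w hv hw => ?_).trace_mul hz) hg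
  all_goals
    by_cases hv0 : v = 0
    · simp [hv0]
  · rw [← trace_mul_rk]
    exact hX _ (key v _ hv hv0 fun y hy => by rw [a.h.NN_mul_s hv hy, HForm.s_mul_NN hv hy])
  · have := hX _ (key v (NN B 1 v w) hv hv0 fun y hy => by
      rw [a.h.NN_mul_NN hv hy hw, a.h.NN_mul_NN hv hw hy, a.h.sym y w])
    rwa [NN_apply, one_smul, mul_sub, trace_sub, trace_mul_rk, trace_mul_rk, sub_eq_zero] at this

end Cfsg.Agent.Cl.Max
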