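import Mathlib
import Cfsg.Agent.Cl.TnO

/-!
# Geometry of the orthogonal factors of a tensor decomposition
-/

set_option autoImplicit false
set_option linter.unusedSectionVars false

namespace Cfsg.Agent.Cl.Max

open Matrix Cfsg.Geo Module

variable {F : Type*} [Field F] [Finite F] {κ : Type} [Fintype κ] [DecidableEq κ]
  {B : LinearMap.BilinForm F (κ → F)}

variable (B) in
/-- An admissible orthogonal factor in odd characteristic. -/
structure OB : Prop where
  h : BF B 1
  two : (2 : F) ≠ 0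
  ok : OkO B

namespace OB

variable (o : OB B) {u u' v w y : κ → F}
include o

theorem symm (x y : κ → F) : B x y = B y x := by rw [o.h.symm', one_mul]

theorem three_le : 3 ≤ Fintype.card κ := by
  rcases o.ok with h | h | h <;> omega

theorem nonempty : Nonempty κ := Fintype.card_pos_iff.1 (by have := o.three_le; omega)

theorem rc (hu : B u u = 0) (hy : B u y = 0) : RC B 1 u y (-(B y y / 2)) :=
  ⟨hu, hy, by have := o.two; field_simp; ring⟩

theorem hq (y : κ → F) : ∃ c, 1 * B y y + (1 + 1) * c = 0 :=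
  ⟨-(B y y / 2), by have := o.two; field_simp; ring⟩

theorem exists_hyp (hu : B u u = 0) (hu0 : u ≠ 0) : ∃ u', Hyp B u u' := o.h.exists_hyp o.hq hu hu0

theorem rl (p : Hyp B u u') : B u' u = 1 := o.h.hyp_rl p

theorem hyp_symm (p : Hyp B u u') : Hyp B u' u := ⟨p.r, p.l, o.rl p⟩

theorem nondeg : B.Nondegenerate := ⟨fun _ hx => o.h.eq_zero_l hx, fun _ hx => o.h.eq_zero_r hx⟩

theorem finrank_perp (T : Submodule F (κ → F)) :
    finrank F (B.orthogonal T) + finrank F T = Fintype.card κ := by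
  have h3 := LinearMap.BilinForm.finrank_orthogonal o.nondeg T
  have h4 := Submodule.finrank_le T
  rw [finrank_fintype_fun_eq_card] at h3 h4
  omega

theorem two_mul_le {T : Submodule F (κ → F)} (hT : ∀ x ∈ T, B x x = 0) :
    2 * finrank F T ≤ Fintype.card κ := by
  have h1 : T ≤ B.orthogonal T := fun x hx y hy => by
    have := hT _ (T.add_mem hx hy)
    simp only [map_add, LinearMap.add_apply, hT x hx, hT y hy, o.symm x y] at this
    exact (mul_eq_zero.1 (show 2 * B y x = 0 by linear_combination this)).resolve_left o.two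
  have := Submodule.finrank_mono h1
  have := o.finrank_perp T
  omega

theorem exists_sing_mem {S : Submodule F (κ → F)} (h : 3 ≤ finrank F S) :
    ∃ y ∈ S, y ≠ 0 ∧ B y y = 0 := MaxO.exists_singular_mem (Q := B.toQuadraticMap) h

theorem exists_sing : ∃ v, v ≠ 0 ∧ B v v = 0 := by
  obtain ⟨v, -, h⟩ := o.exists_sing_mem (S := ⊤) (by simpa using o.three_le)
  exact ⟨v, h⟩

theorem exists_pair : ∃ u u', Hyp B u u' := by
  obtain ⟨v, h0, hv⟩ := o.exists_sing
  exact ⟨v, o.exists_hyp hv h0⟩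

theorem exists_dual (hw : w ∉ Submodule.span F {v}) : ∃ y, B y w = 1 ∧ B v y = 0 := by
  obtain ⟨y, h1, h2⟩ := o.h.exists_dual hw
  exact ⟨y, h1, (o.symm _ _).trans (h2 v (Submodule.mem_span_singleton_self v))⟩

/-- A non-singular vector orthogonal to `v` and not to `w`. -/
theorem exists_ns_ne (hvw : B v w = 0) (hw : w ∉ Submodule.span F {v}) :
    ∃ y, B v y = 0 ∧ B y y ≠ 0 ∧ B y w ≠ 0 := by
  obtain ⟨y, h1, h2⟩ := o.exists_dual hw
  by_cases h3 : B y y = 0
  · by_cases h4 : B w w = 0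
    · refine ⟨y + w, by simp [h2, hvw], ?_, by simp [h1, h4]⟩
      simp only [map_add, LinearMap.add_apply, h3, h4, o.symm w y, h1]
      exact fun h => o.two (by linear_combination h)
    · exact ⟨w, hvw, h4, h4⟩
  · exact ⟨y, h2, h3, h1 ▸ one_ne_zero⟩

theorem exists_ns_ne' (p : Hyp B u u') (hvw : B u w = 0) (hw : w ∉ Submodule.span F {u}) :
    ∃ y, B u y = 0 ∧ B u' y = 0 ∧ B y y ≠ 0 ∧ B y w ≠ 0 := by
  obtain ⟨y, h1, h2, h3⟩ := o.exists_ns_ne hvw hw
  exact ⟨y - B u' y • u, by simp [h1, p.l], by simp [o.rl p],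
    by simpa [h1, p.l, o.symm y u] using h2, by simpa [hvw] using h3⟩

theorem notMem_span (p : Hyp B u u') (h : B u' w = 0) (h0 : w ≠ 0) :
    w ∉ Submodule.span F {u} := fun hw => by
  obtain ⟨c, rfl⟩ := Submodule.mem_span_singleton.1 hw
  simp only [map_smul, o.rl p, smul_eq_mul, mul_one] at h
  simp [h] at h0

theorem exists_ns (p : Hyp B u u') : ∃ y, B u y = 0 ∧ B u' y = 0 ∧ B y y ≠ 0 := by
  classical
  obtain ⟨w, h0, hw⟩ := o.h.exists_perp {u, u'}
    (Finset.card_le_two.trans_lt (by have := o.three_le; omega))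
  obtain ⟨y, h1, h2, h3, -⟩ := o.exists_ns_ne' p (hw u (by simp))
    (o.notMem_span p (hw u' (by simp)) h0)
  exact ⟨y, h1, h2, h3⟩

theorem sing_opp (p : Hyp B u u') (h1 : B u y = 0) (h2 : B u' y = 0) :
    B (u' + y - (B y y / 2) • u) (u' + y - (B y y / 2) • u) = 0 := by
  have := o.two
  simp only [map_add, map_sub, map_smul, LinearMap.add_apply, LinearMap.sub_apply,
    LinearMap.smul_apply, p.l, p.r, p.lr, o.rl p, h1, h2, o.symm y u, o.symm y u', smul_eq_mul]
  field_simp; ring

theorem rich : Rich B := fun u u' p => by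
  obtain ⟨y, h1, h2, h3⟩ := o.exists_ns p
  refine ⟨_, o.sing_opp p h1 h2, ?_, ?_⟩
  · simp [p.l, o.rl p, o.symm y u, h1]
  · simp [p.r, p.lr, o.symm y u', h2, h3, o.two]

theorem exists_sim (hv : B v v = 0) (hv0 : v ≠ 0) (hw : B w w = 0) (hw0 : w ≠ 0) :
    ∃ γ ∈ RootG B 1, ∃ c : F, c ≠ 0 ∧ (γ : Matrix κ κ F) *ᵥ v = c • w :=
  o.h.exists_sim o.hq o.rich hv hv0 hw hw0

theorem wi1_or : WI1 B ∨ 5 ≤ Fintype.card κ := by
  rcases o.ok with h | h | h
  · refine .inl fun u v hu0 hu hv huv => by_contra fun H => ?_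
    have h1 : LinearIndependent F ![u, v] :=
      (LinearIndependent.pair_iff' hu0).2 fun c hc => H ⟨c, hc.symm⟩
    have h2 := finrank_span_eq_card h1
    have h3 := o.two_mul_le (T := Submodule.span F (Set.range ![u, v])) fun x hx => by
      rw [Matrix.range_cons_cons_empty, Submodule.mem_span_pair] at hx
      obtain ⟨a, b, rfl⟩ := hx
      simp [hu, hv, huv, o.symm v u]
    rw [h2, h.1] at h3
    simp at h3
  · exact .inl h.2
  · exact .inr h

theorem exists_ns_perp (hk : 5 ≤ Fintype.card κ) (v w : κ → F) :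
    ∃ z, B v z = 0 ∧ B w z = 0 ∧ B z z ≠ 0 := by
  by_contra! H
  have h1 := o.two_mul_le (T := B.orthogonal (Submodule.span F {v, w})) fun x hx =>
    H x (hx v (Submodule.subset_span (by simp))) (hx w (Submodule.subset_span (by simp)))
  have h2 := o.finrank_perp (Submodule.span F {v, w})
  have h3 := MaxO.finrank_span_pair_le (F := F) v w
  omega

/-- A singular vector orthogonal to `u` and not to `w`. -/
theorem exists_sing_ne (hk : 5 ≤ Fintype.card κ) (p : Hyp B u u') (hw : w ∉ Submodule.span F {u}) :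
    ∃ y, B u y = 0 ∧ B y y = 0 ∧ B y w ≠ 0 := by
  by_contra! H
  obtain ⟨a, ha, ha0, ha'⟩ := o.exists_sing_mem (S := B.orthogonal (Submodule.span F {u, u'})) (by
    have h2 := o.finrank_perp (Submodule.span F {u, u'})
    have h3 := MaxO.finrank_span_pair_le (F := F) u u'
    omega)
  have h1 : B u a = 0 := ha u (Submodule.subset_span (by simp))
  obtain ⟨b, h2, h3⟩ := o.exists_dual (o.notMem_span p (ha u' (Submodule.subset_span (by simp))) ha0)
  have q : Hyp B a (b - (B b b / 2) • a) := ⟨ha', by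
    have := o.two
    simp only [map_sub, map_smul, LinearMap.sub_apply, LinearMap.smul_apply, ha', h2, o.symm a b,
      smul_eq_mul]
    field_simp; ring, by simp [ha', o.symm a b, h2]⟩
  have h4 : B u (b - (B b b / 2) • a) = 0 := by simp [h1, h3]
  generalize b - (B b b / 2) • a = a' at q h4
  obtain ⟨z, h5, h6⟩ := o.exists_dual hw
  obtain ⟨h7, h8⟩ := o.h.hyp_decomp q z
  have h9 := H _ (by simp [h1, h4, h6]) (o.sing_opp q h7 h8)
  simp [H a h1 ha', H a' h4 q.r, h5] at h9

/-- Either the field has four elements or there is room for two orthogonal vectors. -/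
theorem sep (p : Hyp B u u') (h1 : B u y = 0) (h2 : B u' y = 0) (h3 : B y y ≠ 0) :
    (∃ t : F, t ≠ 0 ∧ t ^ 2 ≠ 1) ∨ ∃ z, B u z = 0 ∧ B u' z = 0 ∧ B y z = 0 ∧ B z z ≠ 0 := by
  classical
  by_cases hk : Fintype.card κ = 3
  · refine .inl (o_exists_sq_ne_one ?_)
    rcases o.ok with h | h | h <;> omega
  obtain ⟨w, h0, hw⟩ := o.h.exists_perp {u, u', y}
    (Finset.card_le_three.trans_lt (by have := o.three_le; omega))
  have h4 := hw y (by simp)
  obtain ⟨z, h5, h6, h7, h8⟩ := o.exists_ns_ne' p (hw u (by simp))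
    (o.notMem_span p (hw u' (by simp)) h0)
  by_cases h9 : B w w = 0
  · right
    obtain ⟨z, h5, h6, h8, h10⟩ : ∃ z, B u z = 0 ∧ B u' z = 0 ∧ B z w ≠ 0 ∧ B y z = 0 :=
      ⟨z - (B y z / B y y) • y, by simp [h1, h5], by simp [h2, h6], by simpa [h4] using h8,
        by simp [h3]⟩
    by_cases h11 : B z z = 0
    · refine ⟨z + w, by simp [h5, hw], by simp [h6, hw], by simp [h4, h10], ?_⟩
      simp only [map_add, LinearMap.add_apply, h11, h9, o.symm w z]
      exact fun h => mul_ne_zero o.two h8 (by linear_combination h)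
    · exact ⟨z, h5, h6, h10, h11⟩
  · exact .inr ⟨w, hw u (by simp), hw u' (by simp), h4, h9⟩

/-- A matrix fixing all singular points is a scalar. -/
theorem isSc_of_sing {X : Matrix κ κ F}
    (hX : ∀ v, B v v = 0 → v ≠ 0 → X *ᵥ v ∈ Submodule.span F {v}) : IsSc F X := by
  obtain ⟨u, u', p⟩ := o.exists_pair
  obtain ⟨a, ha⟩ := Submodule.mem_span_singleton.1 (hX u p.l p.ne_l)
  obtain ⟨b, hb⟩ := Submodule.mem_span_singleton.1 (hX u' p.r p.ne_r)
  have key : ∀ y, B u y = 0 → B u' y = 0 → ∃ c, X *ᵥ y = (c - b) • u' + c • y +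
      (B y y / 2 * (a - c)) • u := fun y h1 h2 => by
    obtain ⟨c, hc⟩ := Submodule.mem_span_singleton.1 (hX _ (o.sing_opp p h1 h2) fun h => by
      simpa [p.lr, p.l, h1] using congrArg (B u) h)
    rw [mulVec_sub, mulVec_add, mulVec_smul, ← ha, ← hb] at hc
    exact ⟨c, by linear_combination (norm := module) -hc⟩
  have key2 : ∀ y, B u y = 0 → B u' y = 0 → X *ᵥ y = b • y ∧ B y y * (a - b) = 0 :=
    fun y h1 h2 => by
      by_cases h0 : y = 0
      · simp [h0]
      obtain ⟨c, hc⟩ := key y h1 h2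
      obtain ⟨d, hd⟩ := key (-y) (by simp [h1]) (by simp [h2])
      simp only [mulVec_neg, map_neg, LinearMap.neg_apply, neg_neg] at hd
      have h3 : (c + d - 2 * b) • u' + (c - d) • y + (B y y / 2 * (2 * a - c - d)) • u = 0 := by
        linear_combination (norm := module) -hc - hd
      have h4 := congrArg (B u) h3
      have h5 := congrArg (B u') h3
      simp only [map_add, map_smul, p.l, p.r, p.lr, o.rl p, h1, h2, smul_eq_mul, mul_zero, mul_one,
        add_zero, zero_add, map_zero] at h4 h5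
      rw [h4, h5, zero_smul, zero_smul, zero_add, add_zero, smul_eq_zero_iff_left h0] at h3
      have h6 : c = b := mul_left_cancel₀ o.two (by linear_combination h3 + h4)
      have h7 : B y y / 2 * (a - b) = 0 :=
        mul_left_cancel₀ o.two (by linear_combination h5 + B y y / 2 * h4)
      rw [hc, h6, h7]
      exact ⟨by simp, by have := o.two; field_simp at h7; simpa using h7⟩
  obtain ⟨y, h1, h2, h3⟩ := o.exists_ns p
  have h4 : a = b := sub_eq_zero.1 ((mul_eq_zero.1 (key2 y h1 h2).2).resolve_left h3)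
  refine ⟨b, o.h.hyp_ext p ?_ ?_ fun y h1 h2 => ?_⟩ <;> rw [smul_mulVec, one_mulVec]
  exacts [by rw [← ha, h4], hb.symm, (key2 y h1 h2).1]

/-- A matrix whose quadratic form vanishes on the singular vectors is skew up to a scalar. -/
theorem isSc_add_ad {X : Matrix κ κ F} (hX : ∀ v, B v v = 0 → B v (X *ᵥ v) = 0) :
    IsSc F (X + ad B X) := by
  set Y := X + ad B X with hY
  have hs : ∀ x y, B x (Y *ᵥ y) = B y (Y *ᵥ x) := fun x y => by
    rw [hY, add_mulVec, add_mulVec, map_add, map_add, ← o.h.ad_l, ← o.h.ad_l, o.symm x,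
      o.symm y, add_comm]
  have h0 : ∀ v, B v v = 0 → B v (Y *ᵥ v) = 0 := fun v hv => by
    rw [hY, add_mulVec, map_add, ← o.h.ad_l, o.symm _ v, hX v hv, add_zero]
  clear_value Y
  refine o.isSc_of_sing fun u hu hu0 => by_contra fun H => ?_
  obtain ⟨u', p⟩ := o.exists_hyp hu hu0
  obtain ⟨y, h1, h2, h3, h4⟩ := o.exists_ns_ne' p (h0 u hu) H
  have k1 : ∀ u u', Hyp B u u' → ∀ y, B u y = 0 → B u' y = 0 →
      2 * B y (Y *ᵥ u') = B y y * B y (Y *ᵥ u) := fun u u' p y h1 h2 => by
    have e1 := h0 _ (o.sing_opp p h1 h2)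
    have e2 := h0 _ (o.sing_opp p (y := -y) (by simp [h1]) (by simp [h2]))
    simp only [mulVec_sub, mulVec_add, mulVec_smul, mulVec_neg, map_add, map_sub, map_smul, map_neg,
      LinearMap.add_apply, LinearMap.sub_apply, LinearMap.smul_apply, LinearMap.neg_apply,
      smul_eq_mul, h0 u p.l, h0 u' p.r, hs u y, hs u' y, neg_neg] at e1 e2
    have := o.two
    field_simp at e1 e2
    refine mul_left_cancel₀ o.two (mul_left_cancel₀ o.two (mul_left_cancel₀ o.two ?_))
    linear_combination e1 - e2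
  rcases o.sep p h1 h2 h3 with ⟨t, ht, ht'⟩ | ⟨z, h5, h6, h7, h8⟩
  · have e1 := k1 u u' p y h1 h2
    have e2 := k1 u u' p (t • y) (by simp [h1]) (by simp [h2])
    simp only [map_smul, LinearMap.smul_apply, smul_eq_mul] at e2
    exact mul_ne_zero (mul_ne_zero ht (sub_ne_zero.2 ht')) (mul_ne_zero h3 h4)
      (by linear_combination t * e1 - e2)
  · have e1 := k1 u u' p (y + z) (by simp [h1, h5]) (by simp [h2, h6])
    have e2 := k1 u u' p (y - z) (by simp [h1, h5]) (by simp [h2, h6])
    have e3 := k1 u u' p y h1 h2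
    simp only [map_add, map_sub, LinearMap.add_apply, LinearMap.sub_apply, h7, o.symm z y] at e1 e2
    exact mul_ne_zero o.two (mul_ne_zero h8 h4) (by linear_combination 2 * e3 - e1 - e2)

end OB

end Cfsg.Agent.Cl.Max
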