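import Mathlib
import Cfsg.Agent.Cl.TnOneSp

/-!
# Reflections of a tensor factor and the group `Ω`
-/

set_option autoImplicit false
set_option linter.unusedSectionVars false

namespace Cfsg.Agent.Cl.Max

open Matrix Cfsg.Geo Module QuadraticMap Function

variable {F : Type*} [Field F] {ι : Type} [Fintype ι] [DecidableEq ι]

section Rf

variable {κ : Type} [Fintype κ] [DecidableEq κ] (B : LinearMap.BilinForm F (κ → F))

theorem rf_aux (y : κ → F) : (1 - (2 / B y y) • rk B y y) * (1 - (2 / B y y) • rk B y y) = 1 := by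
  have : 2 / B y y * (2 / B y y * B y y) = 2 / B y y + 2 / B y y := by
    by_cases h : B y y = 0
    · simp [h]
    · field_simp; ring
  simp only [sub_mul, mul_sub, one_mul, mul_one, smul_mul_assoc, mul_smul_comm, rk_mul_rk,
    smul_sub, smul_smul, this, add_smul]
  abel

/-- The reflection in `y`. -/
def rf (y : κ → F) : GL κ F := ⟨_, _, rf_aux B y, rf_aux B y⟩

theorem coe_rf (y : κ → F) : (rf B y : Matrix κ κ F) = 1 - (2 / B y y) • rk B y y := rfl

theorem rf_inv (y : κ → F) : (rf B y)⁻¹ = rf B y := rfl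

theorem rf_mul_self (y : κ → F) : rf B y * rf B y = 1 := Units.ext (rf_aux B y)

theorem rf_mulVec (y x : κ → F) :
    (rf B y : Matrix κ κ F) *ᵥ x = x - (2 / B y y * B y x) • y := by
  rw [coe_rf, sub_mulVec, one_mulVec, smul_mulVec, rk_mulVec, smul_smul]

variable {B}

theorem HForm.rf_iso (h : BF B 1) (y : κ → F) : rf B y ∈ isoB B :=
  h.mem_isoB (by
    rw [coe_rf, h.ad_sub, h.ad_one, h.ad_smul, h.ad_rk, one_smul]; exact rf_aux B y)

/-- An orthogonal basis. -/
theorem HForm.exists_orth_basis (h : BF B 1) (h2 : (2 : F) ≠ 0) {k : ℕ} (hk : Fintype.card κ = k) :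
    ∃ b : Fin k → κ → F, Submodule.span F (Set.range b) = ⊤ ∧ (∀ x, B (b x) (b x) ≠ 0) ∧
      ∀ x y, x ≠ y → B (b x) (b y) = 0 := by
  subst hk
  rw [← finrank_fintype_fun_eq_card F]
  have := invertibleOfNonzero h2
  obtain ⟨b, hb⟩ := LinearMap.BilinForm.exists_orthogonal_basis (B := B)
    ⟨fun x y => by rw [h.symm', one_mul]; rfl⟩
  exact ⟨b, b.span_eq, fun x => hb.not_isOrtho_basis_self_of_separatingLeft
    (fun _ hx => h.eq_zero_l hx) x, fun x y e => hb e⟩

end Rf

variable [Finite F] {Q : QuadraticForm F (ι → F)} (hQ : (polarBilin Q).Nondegenerate)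

/-- The Dickson invariant and the spinor norm of a matrix. -/
def OInv (g : GL ι F) (a b : ℤˣ) : Prop := ∃ k, oGL Q k = g ∧ dickson hQ k = a ∧ ospin hQ k = b

variable {hQ}

theorem OInv.mul {g g' : GL ι F} {a a' b b' : ℤˣ} (h : OInv hQ g a b) (h' : OInv hQ g' a' b') :
    OInv hQ (g * g') (a * a') (b * b') := by
  obtain ⟨k, rfl, rfl, rfl⟩ := h
  obtain ⟨k', rfl, rfl, rfl⟩ := h'
  exact ⟨k * k', map_mul _ _ _, map_mul _ _ _, map_mul _ _ _⟩

theorem OInv.mem (h2 : (2 : F) ≠ 0) {g : GL ι F} {a b : ℤˣ} (h : OInv hQ g a b) (ha : a = 1)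
    (hb : b = 1) : g ∈ omegaGL Q := by
  obtain ⟨k, rfl, rfl, rfl⟩ := h
  exact oGL_mem_omegaGL.2 ((mem_commutator_OG_iff hQ (not_oExc_of_two_ne_zero h2) k).2 ⟨ha, hb⟩)

variable (hQ) in
theorem exists_prod_orefl {α : Type*} (S : Finset α) (c : α → ι → F) (h1 : ∀ x ∈ S, Q (c x) ≠ 0)
    (h2 : ∀ x ∈ S, ∀ y ∈ S, x ≠ y → polar Q (c x) (c y) = 0) :
    ∃ g : OG Q, (∀ v, g.1 v = v - ∑ x ∈ S, ((Q (c x))⁻¹ * polar Q v (c x)) • c x) ∧
      dickson hQ g = ∏ _x ∈ S, -1 ∧ ospin hQ g = ∏ x ∈ S, sqSign (Q (c x)) := by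
  classical
  induction S using Finset.induction_on with
  | empty => exact ⟨1, fun v => by simp, by simp, by simp⟩
  | insert s S hs ih =>
    obtain ⟨g, e1, e2, e3⟩ := ih (fun x hx => h1 x (Finset.mem_insert_of_mem hx))
      fun x hx y hy => h2 x (Finset.mem_insert_of_mem hx) y (Finset.mem_insert_of_mem hy)
    have h3 := h1 s (Finset.mem_insert_self _ _)
    refine ⟨orefl Q (c s) * g, fun v => ?_, ?_, ?_⟩
    · have : polar Q (g.1 v) (c s) = polar Q v (c s) := by
        rw [e1, ← polarBilin_apply_apply, map_sub, map_sum, LinearMap.sub_apply,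
          LinearMap.sum_apply, Finset.sum_eq_zero fun x hx => ?_, sub_zero, polarBilin_apply_apply]
        rw [map_smul, LinearMap.smul_apply, polarBilin_apply_apply, h2 x (Finset.mem_insert_of_mem hx)
          s (Finset.mem_insert_self _ _) (by rintro rfl; exact hs hx), smul_zero]
      rw [OG.mul_app, orefl_app, this, e1, Finset.sum_insert hs]
      abel
    · rw [map_mul, dickson_orefl hQ h3, e2, Finset.prod_insert hs]
    · rw [map_mul, ospin_orefl hQ h3, e3, Finset.prod_insert hs]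

theorem sqSign_prod {α : Type*} (S : Finset α) {f : α → F} (h : ∀ x ∈ S, f x ≠ 0) :
    sqSign (∏ x ∈ S, f x) = ∏ x ∈ S, sqSign (f x) := by
  classical
  induction S using Finset.induction_on with
  | empty => simp
  | insert s S hs ih =>
    rw [Finset.prod_insert hs, Finset.prod_insert hs, sqSign_mul (h s (Finset.mem_insert_self _ _))
      (Finset.prod_ne_zero_iff.2 fun x hx => h x (Finset.mem_insert_of_mem hx)),
      ih fun x hx => h x (Finset.mem_insert_of_mem hx)]

section Dep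

variable {τ : Type} [Fintype τ] [DecidableEq τ] {κ : τ → Type} [∀ i, Fintype (κ i)]
  [∀ i, DecidableEq (κ i)] {B : ∀ i, LinearMap.BilinForm F (κ i → F)} (T : TF (polarBilin Q) B)

theorem TF.q_pv (h2 : (2 : F) ≠ 0) (x : ∀ i, κ i → F) :
    Q (T.pv x) = T.c / 2 * ∏ i, B i (x i) (x i) :=
  mul_left_cancel₀ h2 (by
    rw [← o_polar_self, ← polarBilin_apply_apply, T.form]; field_simp)

theorem prod_upd (x y : ∀ i, κ i → F) (j : τ) (u v : κ j → F) :
    ∏ i, B i (update x j u i) (update y j v i) =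
      B j u v * ∏ i ∈ Finset.univ.erase j, B i (x i) (y i) := by
  rw [← Finset.mul_prod_erase _ _ (Finset.mem_univ j), update_self, update_self]
  exact congrArg _ (Finset.prod_congr rfl fun i hi => by
    rw [update_of_ne (Finset.ne_of_mem_erase hi), update_of_ne (Finset.ne_of_mem_erase hi)])

theorem TF.oInv_rf (h2 : (2 : F) ≠ 0) (h : ∀ i, BF (B i) 1) {k : τ → ℕ}
    {b : ∀ i, Fin (k i) → κ i → F} (b1 : ∀ i, Submodule.span F (Set.range (b i)) = ⊤)
    (b2 : ∀ i x, B i (b i x) (b i x) ≠ 0) (b3 : ∀ i x y, x ≠ y → B i (b i x) (b i y) = 0)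
    {j : τ} (o : Fin (k j)) {y : κ j → F} (hy : B j y y ≠ 0) :
    OInv hQ (homG (T.ψ j) (rf (B j) y))
      (∏ _a ∈ Finset.univ.filter fun a : ∀ i, Fin (k i) => a j = o, -1)
      (∏ a ∈ Finset.univ.filter fun a : ∀ i, Fin (k i) => a j = o, (sqSign (T.c / 2 * B j y y) *
        ∏ i ∈ Finset.univ.erase j, sqSign (B i (b i (a i)) (b i (a i))))) := by
  have hc := T.c_ne
  have e0 : ∀ (a a' : ∀ i, Fin (k i)) (u : κ j → F), a j = o → a' j = o → a ≠ a' →
      polar Q (T.pv (update (fun i => b i (a i)) j u)) (T.pv (update (fun i => b i (a' i)) j y)) =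
        0 := fun a a' u ha ha' e => by
    obtain ⟨l, hl⟩ := Function.ne_iff.1 e
    have : l ≠ j := by rintro rfl; exact hl (ha.trans ha'.symm)
    exact T.polar_zero l (by rw [update_of_ne this, update_of_ne this, b3 _ _ _ hl])
  have e1 : ∀ a : ∀ i, Fin (k i), ∏ i ∈ Finset.univ.erase j, B i (b i (a i)) (b i (a i)) ≠ 0 :=
    fun a => Finset.prod_ne_zero_iff.2 fun i _ => b2 _ _
  obtain ⟨g, g1, g2, g3⟩ := exists_prod_orefl hQ
    (Finset.univ.filter fun a : ∀ i, Fin (k i) => a j = o)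
    (fun a => T.pv (update (fun i => b i (a i)) j y))
    (fun a _ => by rw [T.q_pv h2, prod_upd]; simp [*])
    fun a ha a' ha' => e0 a a' y (by simpa using ha) (by simpa using ha')
  refine ⟨g, oGL_eq_iff.2 fun v => ?_, g2, g3.trans (Finset.prod_congr rfl fun a _ => ?_)⟩
  · refine T.mem_of_pv (S := LinearMap.eqLocus (T.ψ j (rf (B j) y)).mulVecLin g.1.toLinearMap)
      (fun x => T.mem_of_span _ (fun l => {z | l = j ∨ z ∈ Set.range (b l)}) (fun x hx => ?_) x
        fun l => Submodule.span_mono (fun z hz => .inr hz) (b1 l ▸ Submodule.mem_top)) v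
    have : ∀ l, ∃ a : Fin (k l), (l ≠ j → x l = b l a) ∧ ∀ e : l = j, e ▸ a = o := fun l => by
      by_cases e : l = j
      · subst e; exact ⟨o, fun e => (e rfl).elim, fun _ => rfl⟩
      · obtain ⟨a, ha⟩ := (hx l).resolve_left e
        exact ⟨a, fun _ => ha.symm, fun e' => (e e').elim⟩
    choose a ha ha' using this
    have e2 : x = update (fun i => b i (a i)) j (x j) := funext fun l => by
      by_cases e : l = j
      · subst e; simp
      · rw [update_of_ne e, ha l e]
    change T.ψ j (rf (B j) y) *ᵥ T.pv x = g.1 (T.pv x)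
    rw [g1, Finset.sum_eq_single_of_mem a (by simpa using ha' j rfl) fun a' h1 h3 => by
      rw [e2, e0 a a' _ (ha' j rfl) (by simpa using h1) h3.symm, mul_zero, zero_smul],
      T.psi_pv, rf_mulVec, T.pv.map_update_sub, T.pv.map_update_smul, update_eq_self, T.q_pv h2,
      ← polarBilin_apply_apply, T.form, prod_upd]
    conv_rhs => rw [e2, prod_upd, ← e2]
    rw [show update x j y = update (fun i => b i (a i)) j y by rw [e2, update_idem],
      (h j).symm' (x j)]
    congr 2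
    have := e1 a
    field_simp
  · rw [T.q_pv h2, prod_upd, ← mul_assoc, sqSign_mul (by simp [*]) (e1 a),
      sqSign_prod _ fun i _ => b2 _ _]

theorem prod_rev_eq_one {k : τ → ℕ} {j l : τ} (hl : l ≠ j) (hk : Even (k l)) (o : Fin (k j))
    {f : (∀ i, Fin (k i)) → ℤˣ} (hf : ∀ a x, f (update a l x) = f a) :
    ∏ a ∈ Finset.univ.filter fun a : ∀ i, Fin (k i) => a j = o, f a = 1 :=
  Finset.prod_involution (fun a _ => update a l (a l).rev) (fun a _ => by rw [hf, Int.units_mul_self])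
    (fun a _ _ e => by
      have := congrArg Fin.val (congrFun e l)
      rw [update_self, Fin.val_rev] at this
      have := (a l).2
      obtain ⟨r, hr⟩ := hk
      omega)
    (fun a ha => by simpa [update_of_ne hl.symm] using ha) fun a _ => by simp

/-- A reflection of a slot lies in `Ω` when there are enough slots of even dimension. -/
theorem TF.rf_mem (hQ : (polarBilin Q).Nondegenerate) (h2 : (2 : F) ≠ 0) (h : ∀ i, BF (B i) 1)
    {j : τ} (hev : ∀ i, ∃ l, l ≠ i ∧ l ≠ j ∧ Even (Fintype.card (κ l))) (y : κ j → F) :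
    homG (T.ψ j) (rf (B j) y) ∈ omegaGL Q := by
  by_cases hy : B j y y = 0
  · rw [show rf (B j) y = 1 from Units.ext (by simp [coe_rf, hy]), map_one]; exact one_mem _
  choose b b1 b2 b3 using fun i => (h i).exists_orth_basis h2 rfl
  have : Nonempty (κ j) := by
    by_contra e
    rw [not_nonempty_iff] at e
    exact hy (by rw [Subsingleton.elim y 0, map_zero])
  obtain ⟨l, -, l1, l2⟩ := hev j
  refine (T.oInv_rf (hQ := hQ) h2 h b1 b2 b3 ⟨0, Fintype.card_pos⟩ hy).mem h2
    (prod_rev_eq_one l1 l2 _ fun _ _ => rfl) ?_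
  rw [Finset.prod_mul_distrib, prod_rev_eq_one l1 l2 _ fun _ _ => rfl, one_mul, Finset.prod_comm]
  refine Finset.prod_eq_one fun i _ => ?_
  obtain ⟨l, l0, l1, l2⟩ := hev i
  exact prod_rev_eq_one l1 l2 _ fun _ _ => by rw [update_of_ne l0.symm]

end Dep

section Wr

variable {τ : Type} [Fintype τ] [DecidableEq τ] {κ : Type} [Fintype κ] [DecidableEq κ]
  {B : LinearMap.BilinForm F (κ → F)} {P : GL ι F}

theorem exists_ne_ne (h : 3 ≤ Fintype.card τ) (i j : τ) : ∃ l, l ≠ i ∧ l ≠ j := by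
  by_contra! H
  have : (Finset.univ : Finset τ) ⊆ {i, j} := fun l _ => by
    by_cases e : l = i
    · simp [e]
    · simp [H l e]
  have := (Finset.card_le_card this).trans Finset.card_le_two
  rw [Finset.card_univ] at this
  omega

/-- With at least three factors of even dimension the reflections of a factor lie in `Ω`. -/
theorem psiS_rf_mem (hQ : (polarBilin Q).Nondegenerate) (h2 : (2 : F) ≠ 0) (h : BF B 1)
    {e : ι ≃ (τ → κ)}
    (hT : TStr (RingHom.id F) (polar Q) (pForm (RingHom.id F) τ fun x y => B x y) e P)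
    (ht : 3 ≤ Fintype.card τ) (hk : Even (Fintype.card κ)) (j : τ) (y : κ → F) :
    homG (psiS e P j) (rf B y) ∈ omegaGL Q := by
  obtain ⟨T, t1, -⟩ := exists_tf_wreath (B0 := polarBilin Q) h hT
  rw [← t1]
  exact T.rf_mem hQ h2 (fun _ => h) (fun i => (exists_ne_ne ht i j).imp fun l hl =>
    ⟨hl.1, hl.2, hk⟩) y

omit [Finite F] in
theorem permS_pv {B0 : LinearMap.BilinForm F (ι → F)} {T : TF (κ := fun _ : τ => κ) B0 fun _ => B}
    {e : ι ≃ (τ → κ)} (t2 : ∀ x, T.pv x = trV e P fun a => ∏ i, x i (a i)) (π : Equiv.Perm τ)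
    (x : τ → κ → F) : (permS e P π : Matrix ι ι F) *ᵥ T.pv x = T.pv fun i => x (π.symm i) := by
  rw [t2, t2, permS_apply, trG_mulVec]
  refine congrArg _ ((permT_mulVec π _).trans (funext fun a => ?_))
  exact Fintype.prod_equiv π _ _ (by simp)

theorem TF.oInv_swap (T : TF (κ := fun _ : Fin 2 => κ) (polarBilin Q) fun _ => B)
    (h2 : (2 : F) ≠ 0) {k : ℕ} {b : Fin k → κ → F} (b1 : Submodule.span F (Set.range b) = ⊤)
    (b2 : ∀ x, B (b x) (b x) ≠ 0) (b3 : ∀ x y, x ≠ y → B (b x) (b y) = 0) {g : GL ι F}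
    (hg : ∀ x y, (g : Matrix ι ι F) *ᵥ T.pv ![x, y] = T.pv ![y, x]) :
    OInv hQ g (∏ _a ∈ Finset.univ.filter fun a : Fin k × Fin k => a.1 < a.2, -1)
      (∏ a ∈ Finset.univ.filter fun a : Fin k × Fin k => a.1 < a.2,
        (sqSign T.c * (sqSign (B (b a.1) (b a.1)) * sqSign (B (b a.2) (b a.2))))) := by
  have hc := T.c_ne
  have f : ∀ x y z w, polar Q (T.pv ![x, y]) (T.pv ![z, w]) = T.c * (B x z * B y w) :=
    fun x y z w => by rw [← polarBilin_apply_apply, T.form, Fin.prod_univ_two]; rfl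
  have f1 : ∀ x y z w, polar Q (T.pv ![b x, b y]) (T.pv ![b z, b w]) =
      if x = z ∧ y = w then T.c * (B (b x) (b x) * B (b y) (b y)) else 0 := fun x y z w => by
    rw [f]
    split_ifs with e
    · rw [e.1, e.2]
    · rcases not_and_or.1 e with e | e <;> simp [b3 _ _ e]
  have q : ∀ x y, x < y → Q (T.pv ![b x, b y] - T.pv ![b y, b x]) =
      T.c * (B (b x) (b x) * B (b y) (b y)) := fun x y e => mul_left_cancel₀ h2 (by
    rw [← o_polar_self, polar_sub_left, polar_sub_right, polar_sub_right]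
    simp only [f1, e.ne, e.ne', if_false, and_self, if_true]
    ring)
  obtain ⟨g', g1, g2, g3⟩ := exists_prod_orefl hQ
    (Finset.univ.filter fun a : Fin k × Fin k => a.1 < a.2)
    (fun a => T.pv ![b a.1, b a.2] - T.pv ![b a.2, b a.1])
    (fun a ha => by rw [q _ _ (by simpa using ha)]; simp [*])
    fun a ha a' ha' e => by
      simp only [Finset.mem_filter, Finset.mem_univ, true_and] at ha ha'
      rw [polar_sub_left, polar_sub_right, polar_sub_right, f1, f1, f1, f1, if_neg, if_neg, if_neg,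
        if_neg]
      · simp
      all_goals rintro ⟨e1, e2⟩
      exacts [e (Prod.ext e2 e1), by omega, by omega, e (Prod.ext e1 e2)]
  refine ⟨g', oGL_eq_iff.2 fun v => ?_, g2, g3.trans (Finset.prod_congr rfl fun a ha => ?_)⟩
  · refine T.mem_of_pv (S := LinearMap.eqLocus (g : Matrix ι ι F).mulVecLin g'.1.toLinearMap)
      (fun x => T.mem_of_span _ (fun _ => Set.range b) (fun x hx => ?_) x
        fun l => b1 ▸ Submodule.mem_top) v
    obtain ⟨r, hr⟩ := hx 0
    obtain ⟨s, hs⟩ := hx 1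
    obtain rfl : x = ![b r, b s] := funext fun i => by fin_cases i <;> simp [hr, hs]
    change (g : Matrix ι ι F) *ᵥ T.pv _ = g'.1 (T.pv _)
    rw [g1, hg]
    rcases lt_trichotomy r s with e | rfl | e
    · rw [Finset.sum_eq_single_of_mem (r, s) (by simpa using e) fun a h1 h3 => ?_, q _ _ e,
        polar_sub_right, f1, f1, if_pos ⟨rfl, rfl⟩, if_neg fun e' => e.ne e'.1, sub_zero,
        inv_mul_cancel₀ (mul_ne_zero hc (mul_ne_zero (b2 _) (b2 _))), one_smul, sub_sub_cancel]
      simp only [Finset.mem_filter, Finset.mem_univ, true_and] at h1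
      rw [polar_sub_right, f1, f1, if_neg fun e' => h3 (Prod.ext e'.1.symm e'.2.symm),
        if_neg (by omega), sub_zero, mul_zero, zero_smul]
    · rw [Finset.sum_eq_zero fun a h1 => ?_, sub_zero]
      simp only [Finset.mem_filter, Finset.mem_univ, true_and] at h1
      rw [polar_sub_right, f1, f1, if_neg (by omega), if_neg (by omega), sub_zero, mul_zero,
        zero_smul]
    · rw [Finset.sum_eq_single_of_mem (s, r) (by simpa using e) fun a h1 h3 => ?_, q _ _ e,
        polar_sub_right, f1, f1, if_neg fun e' => e.ne' e'.1, if_pos ⟨rfl, rfl⟩, zero_sub, mul_neg,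
        mul_comm (B (b r) (b r)), inv_mul_cancel₀ (mul_ne_zero hc (mul_ne_zero (b2 _) (b2 _))),
        neg_smul, one_smul]
      · abel
      simp only [Finset.mem_filter, Finset.mem_univ, true_and] at h1
      rw [polar_sub_right, f1, f1, if_neg (by omega),
        if_neg fun e' => h3 (Prod.ext e'.2.symm e'.1.symm), sub_zero, mul_zero, zero_smul]
  · rw [q _ _ (by simpa using ha), sqSign_mul hc (mul_ne_zero (b2 _) (b2 _)), sqSign_mul (b2 _) (b2 _)]

theorem prod_filter_two {k : ℕ} (o : Fin k) (f : Fin k → ℤˣ) :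
    ∏ a ∈ Finset.univ.filter fun a : Fin 2 → Fin k => a 0 = o, f (a 1) = ∏ x, f x :=
  Finset.prod_nbij' (fun a => a 1) (fun x => ![o, x]) (by simp) (by simp) (fun a ha => by
    funext i; fin_cases i <;> simp_all) (by simp) (by simp)

theorem oInv_swap_rf (hQ : (polarBilin Q).Nondegenerate) (h2 : (2 : F) ≠ 0) (h : BF B 1)
    {e : ι ≃ (Fin 2 → κ)}
    (hT : TStr (RingHom.id F) (polar Q) (pForm (RingHom.id F) (Fin 2) fun x y => B x y) e P)
    {k : ℕ} (hk : Fintype.card κ = k + 1) : ∃ (c : ℤˣ) (β : Fin (k + 1) → F), (∀ x, β x ≠ 0) ∧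
      ∀ y, B y y ≠ 0 → OInv hQ (permS e P (Equiv.swap 0 1) * homG (psiS e P 0) (rf B y))
      ((∏ _a ∈ Finset.univ.filter fun a : Fin (k + 1) × Fin (k + 1) => a.1 < a.2, -1) *
        ∏ _x : Fin (k + 1), -1)
      ((∏ a ∈ Finset.univ.filter fun a : Fin (k + 1) × Fin (k + 1) => a.1 < a.2,
        (c * (sqSign (β a.1) * sqSign (β a.2)))) *
        ∏ x, (c * sqSign (B y y / 2) * sqSign (β x))) := by
  obtain ⟨T, t1, t2, -⟩ := exists_tf_wreath (B0 := polarBilin Q) h hT
  obtain ⟨b, b1, b2, b3⟩ := h.exists_orth_basis h2 hk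
  refine ⟨sqSign T.c, _, b2, fun y hy => (T.oInv_swap h2 b1 b2 b3 fun x y => ?_).mul ?_⟩
  · rw [permS_pv t2]
    congr 1
    funext i; fin_cases i <;> rfl
  · have := T.oInv_rf (hQ := hQ) (k := fun _ => k + 1) h2 (fun _ => h) (fun _ => b1) (fun _ => b2)
      (fun _ => b3) (j := 0) 0 hy
    rw [t1, prod_filter_two 0 fun _ => -1, show Finset.univ.erase (0 : Fin 2) = {1} by decide] at this
    simp only [Finset.prod_singleton] at this
    rwa [prod_filter_two 0 fun x => sqSign (T.c / 2 * B y y) * sqSign (B (b x) (b x)),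
      show T.c / 2 * B y y = T.c * (B y y / 2) by ring, sqSign_mul T.c_ne (div_ne_zero hy h2)] at this

/-- Two factors of dimension four. -/
theorem swap_rf_mem_four (hQ : (polarBilin Q).Nondegenerate) (h2 : (2 : F) ≠ 0) (h : BF B 1)
    {e : ι ≃ (Fin 2 → κ)}
    (hT : TStr (RingHom.id F) (polar Q) (pForm (RingHom.id F) (Fin 2) fun x y => B x y) e P)
    (hk : Fintype.card κ = 4) {y : κ → F} (hy : B y y ≠ 0) :
    permS e P (Equiv.swap 0 1) * homG (psiS e P 0) (rf B y) ∈ omegaGL Q := by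
  obtain ⟨c, β, -, H⟩ := oInv_swap_rf hQ h2 h hT (k := 3) hk
  refine (H y hy).mem h2 (by decide) ?_
  generalize sqSign (B y y / 2) = d
  have : ∀ (c d : ℤˣ) (s : Fin 4 → ℤˣ), (∏ a ∈ Finset.univ.filter fun a : Fin 4 × Fin 4 => a.1 < a.2,
      (c * (s a.1 * s a.2))) * ∏ x, (c * d * s x) = 1 := by decide
  exact this c d fun x => sqSign (β x)

/-- Two factors of dimension three. -/
theorem swap_rf_mem_three (hQ : (polarBilin Q).Nondegenerate) (h2 : (2 : F) ≠ 0) (h : BF B 1)
    {e : ι ≃ (Fin 2 → κ)}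
    (hT : TStr (RingHom.id F) (polar Q) (pForm (RingHom.id F) (Fin 2) fun x y => B x y) e P)
    (hk : Fintype.card κ = 3) : ∃ D : F, D ≠ 0 ∧ ∀ y : κ → F, B y y ≠ 0 → IsSquare (B y y * D) →
      permS e P (Equiv.swap 0 1) * homG (psiS e P 0) (rf B y) ∈ omegaGL Q := by
  obtain ⟨c, β, hβ, H⟩ := oInv_swap_rf hQ h2 h hT (k := 2) hk
  have h0 : ∏ x, β x ≠ 0 := Finset.prod_ne_zero_iff.2 fun x _ => hβ x
  refine ⟨2⁻¹ * ∏ x, β x, by simp [h2, h0], fun y hy hs => (H y hy).mem h2 (by decide) ?_⟩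
  rw [← sqSign_eq_one_iff, ← mul_assoc, ← div_eq_mul_inv, sqSign_mul (div_ne_zero hy h2) h0,
    sqSign_prod _ fun x _ => hβ x] at hs
  generalize sqSign (B y y / 2) = d at hs
  have : ∀ (c d : ℤˣ) (s : Fin 3 → ℤˣ), d * ∏ x, s x = 1 →
      (∏ a ∈ Finset.univ.filter fun a : Fin 3 × Fin 3 => a.1 < a.2,
      (c * (s a.1 * s a.2))) * ∏ x, (c * d * s x) = 1 := by decide
  exact this c d (fun x => sqSign (β x)) hs

omit [Finite F] in
theorem HForm.exists_norm (h : BF B 1) (h2 : (2 : F) ≠ 0) {u u' : κ → F} (p : Hyp B u u') (D : F) :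
    ∃ y, B y y = D :=
  ⟨u + (D / 2) • u', by
    simp only [map_add, map_smul, LinearMap.add_apply, LinearMap.smul_apply, p.l, p.r, p.lr,
      h.hyp_rl p, smul_eq_mul]
    field_simp; ring⟩

theorem exists_swap_rf_mem_three (hQ : (polarBilin Q).Nondegenerate) (h2 : (2 : F) ≠ 0) (h : BF B 1)
    {e : ι ≃ (Fin 2 → κ)}
    (hT : TStr (RingHom.id F) (polar Q) (pForm (RingHom.id F) (Fin 2) fun x y => B x y) e P)
    (hk : Fintype.card κ = 3) {u u' : κ → F} (p : Hyp B u u') : ∃ y : κ → F, B y y ≠ 0 ∧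
      permS e P (Equiv.swap 0 1) * homG (psiS e P 0) (rf B y) ∈ omegaGL Q := by
  obtain ⟨D, hD, H⟩ := swap_rf_mem_three hQ h2 h hT hk
  obtain ⟨y, rfl⟩ := h.exists_norm h2 p D
  exact ⟨y, hD, H y hD ⟨_, rfl⟩⟩

end Wr

end Cfsg.Agent.Cl.Max
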