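import Mathlib
import Cfsg.Agent.Cl.TnOA
import Cfsg.Agent.Cl.TnORefl

/-!
# Invariant additive groups of matrices for an orthogonal tensor factor
-/

set_option autoImplicit false
set_option linter.unusedSectionVars false

namespace Cfsg.Agent.Cl.Max

open Matrix Cfsg.Geo Module

variable {F : Type*} [Field F] [Finite F] {κ : Type} [Fintype κ] [DecidableEq κ]
  {ι : Type} [Fintype ι] [DecidableEq ι] {B : LinearMap.BilinForm F (κ → F)}
  {ψ : Matrix κ κ F →ₐ[F] Matrix ι ι F} {L : AddSubgroup (Matrix ι ι F)}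
  {G : AddSubgroup (Matrix κ κ F)}

variable (B) in
/-- The second difference along a root subgroup. -/
noncomputable def Eo (v y : κ → F) (X : Matrix κ κ F) : Matrix κ κ F :=
  cj (xo B v y) X + cj (xo B v (-y)) X - X - X

variable (B ψ) in
/-- The second difference in the big algebra. -/
noncomputable def EE (v y : κ → F) (ξ : Matrix ι ι F) : Matrix ι ι F :=
  cj (homG ψ (xo B v y)) ξ + cj (homG ψ (xo B v (-y))) ξ - ξ - ξ

variable (B ψ L) in
/-- Invariance under the root group of the slot. -/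
def InvL : Prop := ∀ γ ∈ RootG B 1, ∀ ξ ∈ L, cj (homG ψ γ) ξ ∈ L

variable (B G) in
/-- Invariance under the root group. -/
def InvG : Prop := ∀ γ ∈ RootG B 1, ∀ X ∈ G, cj γ X ∈ G

theorem pj_EE (l : Dual F (Matrix ι ι F)) (v y : κ → F) (ξ : Matrix ι ι F) :
    pj ψ l (EE B ψ v y ξ) = Eo B v y (pj ψ l ξ) := by
  simp only [EE, Eo, map_add, map_sub, pj_cj_homG]

theorem InvL.EE_mem (h : InvL B ψ L) (v y : κ → F) {ξ : Matrix ι ι F} (hξ : ξ ∈ L) :
    EE B ψ v y ξ ∈ L :=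
  L.sub_mem (L.sub_mem (L.add_mem (h _ (xr_mem _ _ _) _ hξ) (h _ (xr_mem _ _ _) _ hξ)) hξ) hξ

theorem InvG.Eo_mem (h : InvG B G) (v y : κ → F) {X : Matrix κ κ F} (hX : X ∈ G) :
    Eo B v y X ∈ G :=
  G.sub_mem (G.sub_mem (G.add_mem (h _ (xr_mem _ _ _) _ hX) (h _ (xr_mem _ _ _) _ hX)) hX) hX

namespace OB

variable (o : OB B) {u u' v w y : κ → F}
include o

theorem Eo_eq (hv : B v v = 0) (hy : B v y = 0) (X : Matrix κ κ F) :
    Eo B v y X = (-B y y) • (rk B v v * X + X * rk B v v) - (2 : F) • (NN B 1 v y * X * NN B 1 v y) +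
      (B y y ^ 2 / 2) • (rk B v v * X * rk B v v) := by
  have hy' : B v (-y) = 0 := by simp [hy]
  have := o.two
  rw [Eo, cj_apply, cj_apply, o.h.coe_xr (o.rc hv hy), o.h.coe_xr (o.rc hv hy'),
    o.h.coe_xr_inv (o.rc hv hy), o.h.coe_xr_inv (o.rc hv hy')]
  simp only [map_neg, LinearMap.neg_apply, neg_neg, add_mul, mul_add, mul_sub, one_mul,
    mul_one, smul_mul_assoc, mul_smul_comm, neg_mul, mul_neg]
  match_scalars <;> field_simp <;> ring

theorem Eo_skew (hv : B v v = 0) (hy : B v y = 0) {X : Matrix κ κ F} (hX : IsSc F (X + ad B X)) :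
    Eo B v y X = NN B 1 v ((2 * B y (X *ᵥ v)) • y - B y y • X *ᵥ v) := by
  obtain ⟨c, hc⟩ := hX
  have e : ∀ x, ad B X *ᵥ x = c • x - X *ᵥ x := fun x => by
    rw [eq_sub_of_add_eq' hc, sub_mulVec, smul_mulVec, one_mulVec]
  have e1 : ∀ x z, B x (X *ᵥ z) = c * B x z - B z (X *ᵥ x) := fun x z => by
    rw [o.h.ad_r, e, o.symm z]; simp
  have e2 : ∀ x, B x (X *ᵥ x) = c * B x x / 2 := fun x => by
    have := o.two
    field_simp
    linear_combination e1 x x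
  have := o.two
  rw [o.Eo_eq hv hy]
  simp only [NN_apply, one_smul, sub_mul, mul_sub, rk_mul_mul_rk, e2, e1 v y, hv, hy, map_sub,
    map_smul]
  simp only [mul_rk, o.h.rk_mul, e, map_sub, map_smul]
  match_scalars <;> field_simp <;> ring

theorem Eo_rk (p : Hyp B u u') (h1 : B u y = 0) (h2 : B u' y = 0) :
    Eo B u y (rk B u u') = (-B y y) • rk B u u ∧ Eo B u y (rk B u' u) = (-B y y) • rk B u u := by
  constructor <;> rw [o.Eo_eq p.l h1] <;>
    simp [NN_apply, sub_mul, mul_sub, p.l, p.lr, o.rl p, h1, h2, o.symm y u, o.symm y u']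

theorem s_sand (hL : InvL B ψ L) (hv : B v v = 0) (hv0 : v ≠ 0) {ξ : Matrix ι ι F} (hξ : ξ ∈ L) :
    ∃ a : F, a ≠ 0 ∧ ψ (rk B v v) * (a • ddc B ψ v v ξ) ∈ L := by
  obtain ⟨v', p⟩ := o.exists_hyp hv hv0
  obtain ⟨y, h1, h2, h3⟩ := o.exists_ns p
  have h0 := o.two
  rcases o.sep p h1 h2 h3 with ⟨t, ht, ht'⟩ | ⟨z, h4, h5, h6, h7⟩
  · refine ⟨-(4 * t ^ 2 * (1 - t ^ 2) ^ 2 * B y y ^ 2), ?_, ?_⟩
    · simp [ht, h3, sub_ne_zero.2 ht'.symm, show (4 : F) = 2 * 2 by norm_num, h0]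
    convert L.sub_mem (L.add_mem (hL.EE_mem v ((2 * t) • y) hξ) (hL.EE_mem v ((1 - t ^ 2) • y) hξ))
      (hL.EE_mem v ((1 + t ^ 2) • y) hξ) using 1
    refine eq_of_pj (ψ := ψ) fun l => ?_
    have k : ∀ a : F, B v (a • y) = 0 := fun a => by simp [h1]
    rw [pj_map_mul_inC l _ ((inC_ddc v v ξ).smul _), map_smul, dual_ddc, map_sub, map_add, pj_EE,
      pj_EE, pj_EE, o.Eo_eq hv (k _), o.Eo_eq hv (k _), o.Eo_eq hv (k _), rk_mul_mul_rk]
    simp only [map_smul, LinearMap.smul_apply, smul_eq_mul, smul_mul_assoc, mul_smul_comm]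
    match_scalars <;> field_simp <;> ring
  · refine ⟨2 * B y y * B z z, by simp [h0, h3, h7], ?_⟩
    convert L.sub_mem (L.add_mem (hL.EE_mem v (y + z) hξ) (hL.EE_mem v (y - z) hξ))
      (L.nsmul_mem (L.add_mem (hL.EE_mem v y hξ) (hL.EE_mem v z hξ)) 2) using 1
    refine eq_of_pj (ψ := ψ) fun l => ?_
    rw [pj_map_mul_inC l _ ((inC_ddc v v ξ).smul _), map_smul, dual_ddc, map_sub, map_add, map_nsmul,
      map_add, pj_EE, pj_EE, pj_EE, pj_EE, o.Eo_eq hv h1, o.Eo_eq hv h4,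
      o.Eo_eq hv (by simp [h1, h4]), o.Eo_eq hv (by simp [h1, h4]), rk_mul_mul_rk]
    simp only [map_add, map_sub, LinearMap.add_apply, LinearMap.sub_apply, h6, o.symm z y, add_mul,
      mul_add, sub_mul, mul_sub, smul_eq_mul]
    match_scalars <;> field_simp <;> ring

theorem isSc_of_skew {X : Matrix κ κ F} (hX : ad B X = -X) : IsSc F (X + ad B X) := by
  rw [hX, add_neg_cancel]; exact isSc_zero

theorem form_skew {X : Matrix κ κ F} (hX : IsSc F (X + ad B X)) (hv : B v v = 0) :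
    B v (X *ᵥ v) = 0 := by
  obtain ⟨c, hc⟩ := hX
  have := congrArg (fun Y => B v (Y *ᵥ v)) hc
  simp only [add_mulVec, map_add, ← o.h.ad_l, o.symm _ v, smul_mulVec, one_mulVec, map_smul, hv,
    smul_zero] at this
  exact (mul_eq_zero.1 (by linear_combination this : 2 * B v (X *ᵥ v) = 0)).resolve_left o.two

theorem exists_mov {X : Matrix κ κ F} (hX : ¬ IsSc F X) :
    ∃ v, B v v = 0 ∧ v ≠ 0 ∧ X *ᵥ v ∉ Submodule.span F {v} := by
  by_contra! H
  exact hX (o.isSc_of_sing H)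

theorem eq_zero_of_skew' {X : Matrix κ κ F} (hX : ad B X = -X) (h : IsSc F X) : X = 0 := by
  obtain ⟨c, rfl⟩ := h
  rw [o.h.ad_smul, o.h.ad_one, eq_neg_iff_add_eq_zero, ← two_smul F] at hX
  exact (smul_eq_zero.1 hX).resolve_left o.two

theorem NN_mulVec (v y x : κ → F) : NN B 1 v y *ᵥ x = B v x • y - B y x • v := by
  simp [NN_apply, sub_mulVec]

theorem NN_ne_zero (p : Hyp B u u') (hy : y ∉ Submodule.span F {u}) : NN B 1 u y ≠ 0 := fun e => by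
  have := congrArg (· *ᵥ u') e
  simp only [o.NN_mulVec, p.lr, one_smul, zero_mulVec, sub_eq_zero] at this
  exact hy (this ▸ Submodule.smul_mem _ _ (Submodule.mem_span_singleton_self u))

theorem pol (hG : InvG B G) {X : Matrix κ κ F} (hX : X ∈ G) (hs : ad B X = -X) (hv : B v v = 0)
    {z : κ → F} (hy : B v y = 0) (hz : B v z = 0) : NN B 1 v ((2 * B y (X *ᵥ v)) • z +
      (2 * B z (X *ᵥ v)) • y - (2 * B y z) • X *ᵥ v) ∈ G := by
  have := G.sub_mem (G.sub_mem (hG.Eo_mem v (y + z) hX) (hG.Eo_mem v y hX)) (hG.Eo_mem v z hX)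
  rw [o.Eo_skew hv (by simp [hy, hz]) (o.isSc_of_skew hs), o.Eo_skew hv hy (o.isSc_of_skew hs),
    o.Eo_skew hv hz (o.isSc_of_skew hs), ← map_sub, ← map_sub] at this
  convert this using 2
  simp only [map_add, LinearMap.add_apply, o.symm z y]
  module

theorem full_of_ns (hG : InvG B G) {X : Matrix κ κ F} (hX : X ∈ G) (hs : ad B X = -X)
    (hv : B v v = 0) (hw : B (X *ᵥ v) (X *ᵥ v) ≠ 0) (y : κ → F) (hy : B v y = 0) :
    NN B 1 v y ∈ G := by
  have := o.pol hG hX hs hv (y := (2 * B (X *ᵥ v) (X *ᵥ v))⁻¹ • y) (by simp [hy])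
    (o.form_skew (o.isSc_of_skew hs) hv)
  rwa [add_sub_cancel_left, smul_inv_smul₀ (mul_ne_zero o.two hw)] at this

theorem exists_full (hG : InvG B G) {X : Matrix κ κ F} (hX : X ∈ G) (hs : ad B X = -X)
    (h0 : X ≠ 0) : ∃ v, B v v = 0 ∧ v ≠ 0 ∧ ∀ y, B v y = 0 → NN B 1 v y ∈ G := by
  obtain ⟨v, hv, hv0, hw⟩ := o.exists_mov fun h => h0 (o.eq_zero_of_skew' hs h)
  by_cases h1 : B (X *ᵥ v) (X *ᵥ v) = 0
  swap
  · exact ⟨v, hv, hv0, o.full_of_ns hG hX hs hv h1⟩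
  have h2 := o.form_skew (o.isSc_of_skew hs) hv
  have hk : 5 ≤ Fintype.card κ := o.wi1_or.resolve_left fun w => by
    obtain ⟨c, hc⟩ := w v _ hv0 hv h1 h2
    exact hw (hc ▸ Submodule.smul_mem _ _ (Submodule.mem_span_singleton_self v))
  obtain ⟨y, y1, y2, y3⟩ := o.exists_ns_perp hk v (X *ᵥ v)
  obtain ⟨z, z1, z2⟩ := o.exists_dual hw
  obtain ⟨v', p⟩ := o.exists_hyp hv hv0
  have := o.pol hG hX hs hv y1 z2
  refine ⟨v', p.r, p.ne_r, o.full_of_ns hG this (o.h.ad_NN _ _) p.r ?_⟩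
  rw [o.NN_mulVec]
  simp [p.lr, hv, y1, o.symm y v, h1, h2, o.symm (X *ᵥ v) v, y2, o.symm y (X *ᵥ v), z1, y3, o.two]

/-- An invariant additive group with a non-zero skew element contains all skew matrices. -/
theorem skew_all (hG : InvG B G) {X : Matrix κ κ F} (hX : X ∈ G) (hs : ad B X = -X) (h0 : X ≠ 0)
    {Y : Matrix κ κ F} (hY : ad B Y = -Y) : Y ∈ G := by
  obtain ⟨v, hv, hv0, H⟩ := o.exists_full hG hX hs h0
  have key : ∀ w, B w w = 0 → ∀ y, B w y = 0 → NN B 1 w y ∈ G := fun w hw => by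
    by_cases hw0 : w = 0
    · exact fun y _ => by simp [hw0, NN_apply]
    refine o.h.conn o.hq (p := fun w => ∀ y, B w y = 0 → NN B 1 w y ∈ G) (fun a c ha pa hc hac => ?_)
      hv hv0 H hw hw0
    obtain ⟨y, y1, y2, y3⟩ := o.exists_ns (u := a) (u' := (B a c)⁻¹ • c)
      ⟨ha, by simp [hc], by simp [hac]⟩
    have y4 : B y c = 0 := by simpa [hac, o.symm c] using y2
    exact o.full_of_ns hG (pa y y1) (o.h.ad_NN _ _) hc (by simp [o.NN_mulVec, y4, hac, y3])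
  let S : Submodule F (Matrix κ κ F) :=
    { carrier := {X | ∀ c : F, c • X ∈ G}
      add_mem' := fun ha hb c => by rw [smul_add]; exact G.add_mem (ha c) (hb c)
      zero_mem' := fun c => by simp
      smul_mem' := fun a x hx c => by rw [smul_smul]; exact hx _ }
  have k1 : ∀ w, B w w = 0 → ∀ y, B w y = 0 → NN B 1 w y ∈ S := fun w hw y hy c => by
    rw [← map_smul]; exact key w hw _ (by simp [hy])
  have k2 : ∀ a b, B a a = 0 → B b b = 0 → NN B 1 a b ∈ S := fun a b ha hb => by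
    by_cases hab : B a b = 0
    · exact k1 a ha b hab
    have p : Hyp B ((B a b)⁻¹ • b) a := ⟨by simp [hb], ha, by simp [hab, o.symm b]⟩
    rw [← smul_inv_smul₀ hab b, map_smul]
    generalize (B a b)⁻¹ • b = a' at p
    obtain ⟨y, y1, y2, y3⟩ := o.exists_ns p
    have := o.two
    refine S.smul_mem _ ((S.smul_mem_iff y3).1 ?_)
    convert S.sub_mem (S.add_mem (k1 a ha y y2) (S.smul_mem (B y y / 2) (k1 a' p.l y y1)))
      (k1 _ (o.sing_opp p y1 y2) (y - B y y • a') (by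
        simp [y1, y2, p.l, o.rl p, o.symm y a'])) using 1
    simp only [NN_apply, map_add, map_sub, map_smul, LinearMap.add_apply, LinearMap.sub_apply,
      LinearMap.smul_apply]
    match_scalars <;> field_simp <;> ring
  obtain ⟨u, u', p⟩ := o.exists_pair
  have k3 := o.h.mem_of_rk_sing o.hq p (T := S.comap (LinearMap.id -
    ({ toFun := ad B, map_add' := o.h.ad_add, map_smul' := o.h.ad_smul } : _ →ₗ[F] _)))
    (fun a b ha hb => by simpa [o.h.ad_rk, NN_apply] using k2 b a hb ha) Y (2 : F)⁻¹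
  simpa [hY, ← two_smul F Y, o.two] using k3

theorem three_eq (hk : Fintype.card κ = 3) (p : Hyp B u u') (h1 : B u y = 0) (h2 : B u' y = 0)
    (h3 : B y y ≠ 0) (hw : B u w = 0) : w = (B y w / B y y) • y + B u' w • u := by
  have li : LinearIndependent F ![u, u', y] := Fintype.linearIndependent_iff.2 fun c hc i => by
    have e1 := congrArg (B u) hc
    have e2 := congrArg (B u') hc
    have e3 := congrArg (B y) hc
    simp [Fin.sum_univ_three, p.l, p.r, p.lr, o.rl p, h1, h2, h3, o.symm y u, o.symm y u'] at e1 e2 e3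
    fin_cases i <;> simp [*]
  have h4 := o.finrank_perp (Submodule.span F (Set.range ![u, u', y]))
  rw [finrank_span_eq_card li, Fintype.card_fin, hk, Nat.add_eq_right,
    Submodule.finrank_eq_zero] at h4
  rw [← sub_eq_zero, ← Submodule.mem_bot F, ← h4]
  refine fun x hx => LinearMap.mem_ker.1 ((Submodule.span_le (p := LinearMap.ker
    (B.flip (w - ((B y w / B y y) • y + B u' w • u))))).2 ?_ hx)
  rintro _ ⟨i, rfl⟩
  fin_cases i <;> simp [hw, h1, h2, h3, p.l, o.rl p, o.symm y u]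

theorem pur0 (hL : InvL B ψ L) {ξ : Matrix ι ι F} (hξ : ξ ∈ L) :
    (∃ v c, v ≠ 0 ∧ B v v = 0 ∧ InC ψ c ∧ c ≠ 0 ∧ ψ (rk B v v) * c ∈ L) ∨
      ∀ l, IsSc F (pj ψ l ξ + ad B (pj ψ l ξ)) := by
  by_cases h : ∃ v, v ≠ 0 ∧ B v v = 0 ∧ ddc B ψ v v ξ ≠ 0
  · obtain ⟨v, h0, hv, hd⟩ := h
    obtain ⟨a, ha, H⟩ := o.s_sand hL hv h0 hξ
    exact .inl ⟨v, _, h0, hv, (inC_ddc v v ξ).smul a, smul_ne_zero ha hd, H⟩
  · push Not at h
    refine .inr fun l => o.isSc_add_ad fun v hv => ?_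
    by_cases h0 : v = 0
    · simp [h0]
    · rw [← dual_ddc, h v h0 hv, map_zero]

theorem pur1 (hL : InvL B ψ L)
    (hR : Fintype.card κ = 4 → ∀ y, ∀ ξ ∈ L, cj (homG ψ (rf B y)) ξ ∈ L) {ξ : Matrix ι ι F}
    (hξ : ξ ∈ L) (hn : ¬ InC ψ ξ) (hs : ∀ l, IsSc F (pj ψ l ξ + ad B (pj ψ l ξ))) :
    ∃ n c, n ≠ 0 ∧ ad B n = -n ∧ InC ψ c ∧ c ≠ 0 ∧ ψ n * c ∈ L := by
  obtain ⟨l, hl⟩ : ∃ l, ¬ IsSc F (pj ψ l ξ) := by
    by_contra! H
    exact hn (inC_of_pj H)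
  obtain ⟨v, hv, hv0, hw⟩ := o.exists_mov hl
  obtain ⟨v', p⟩ := o.exists_hyp hv hv0
  suffices H : ∃ y, B v y = 0 ∧ B y (pj ψ l ξ *ᵥ v) ≠ 0 ∧ ∃ a : F, a ≠ 0 ∧ ∃ η ∈ L,
      ∀ l, pj ψ l η = (a * B y (pj ψ l ξ *ᵥ v)) • NN B 1 v y by
    obtain ⟨y, h1, h2, a, ha, η, hη, H⟩ := H
    refine ⟨NN B 1 v y, a • ddc B ψ y v ξ, o.NN_ne_zero p fun e => ?_, o.h.ad_NN _ _,
      (inC_ddc _ _ _).smul a, smul_ne_zero ha fun e => h2 (by rw [← dual_ddc, e, map_zero]), ?_⟩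
    · obtain ⟨c, rfl⟩ := Submodule.mem_span_singleton.1 e
      simp [o.form_skew (hs l) hv] at h2
    · convert hη using 1
      exact eq_of_pj (ψ := ψ) fun l => by
        rw [H, pj_map_mul_inC l _ ((inC_ddc _ _ _).smul a), map_smul, dual_ddc, smul_eq_mul]
  by_cases h5 : 5 ≤ Fintype.card κ
  · obtain ⟨y, h1, h2, h3⟩ := o.exists_sing_ne h5 p hw
    exact ⟨y, h1, h3, 2, o.two, _, hL.EE_mem v y hξ, fun l => by
      rw [pj_EE, o.Eo_skew hv h1 (hs l), h2, zero_smul, sub_zero, map_smul]⟩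
  obtain ⟨y, h1, h2, h3, h4⟩ := o.exists_ns_ne' p (o.form_skew (hs l) hv) hw
  by_cases hk : Fintype.card κ = 4
  · refine ⟨y, h1, h4, 2, o.two, _, L.sub_mem (hL.EE_mem v y hξ) (hR hk y _ (hL.EE_mem v y hξ)),
      fun l => ?_⟩
    rw [map_sub, pj_cj_homG, pj_EE, o.Eo_skew hv h1 (hs l), o.h.cj_NN (o.h.rf_iso y), rf_mulVec,
      rf_mulVec, o.symm y v, h1, mul_zero, zero_smul, sub_zero, ← map_sub, ← map_smul,
      sub_sub_cancel]
    congr 2
    simp only [map_sub, map_smul, smul_eq_mul]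
    field_simp
    ring
  · refine ⟨y, h1, h4, 1, one_ne_zero, _, hL.EE_mem v y hξ, fun l => ?_⟩
    rw [pj_EE, o.Eo_skew hv h1 (hs l)]
    have e := o.three_eq (by have := o.three_le; omega) p h1 h2 h3 (o.form_skew (hs l) hv)
    generalize B y (pj ψ l ξ *ᵥ v) = a at e ⊢
    rw [e]
    simp only [NN_apply, map_sub, map_add, map_smul]
    match_scalars <;> field_simp <;> ring

/-- The singular vectors opposite to a singular vector span the space. -/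
theorem mem_span_opp (p : Hyp B u u') (x : κ → F) :
    x ∈ Submodule.span F {z | B z z = 0 ∧ B u z ≠ 0} := by
  set S := Submodule.span F {z | B z z = 0 ∧ B u z ≠ 0}
  have k : ∀ y, B u y = 0 → B u' y = 0 → u' + y - (B y y / 2) • u ∈ S := fun y h1 h2 =>
    Submodule.subset_span ⟨o.sing_opp p h1 h2, by simp [p.lr, p.l, h1]⟩
  have k1 : u' ∈ S := by simpa using k 0 (by simp) (by simp)
  have k2 : ∀ y, B u y = 0 → B u' y = 0 → y ∈ S := fun y h1 h2 => by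
    have := S.sub_mem (k y h1 h2) (k (-y) (by simp [h1]) (by simp [h2]))
    rw [← S.smul_mem_iff o.two]
    convert this using 1
    simp only [map_neg, LinearMap.neg_apply, neg_neg]
    module
  obtain ⟨y, h1, h2, h3⟩ := o.exists_ns p
  have k3 : u ∈ S := by
    have := S.sub_mem (S.add_mem k1 (k2 y h1 h2)) (k y h1 h2)
    rwa [sub_sub_cancel, S.smul_mem_iff (div_ne_zero h3 o.two)] at this
  have := S.add_mem (S.add_mem (k2 _ (o.h.hyp_decomp p x).1 (o.h.hyp_decomp p x).2)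
    (S.smul_mem (B u x) k1)) (S.smul_mem (1 * B u' x) k3)
  simpa using this

end OB

variable (B) in
/-- The matrices allowed in a slot of a pure element. -/
def OTy (t : Fin 3) (n : Matrix κ κ F) : Prop :=
  (t = 0 ∧ n = 1) ∨ (t = 1 ∧ ∃ v, v ≠ 0 ∧ B v v = 0 ∧ n = rk B v v) ∨ (t = 2 ∧ n ≠ 0 ∧ ad B n = -n)

theorem oTy_zero {n : Matrix κ κ F} : OTy B 0 n ↔ n = 1 := by simp [OTy]

theorem oTy_one {n : Matrix κ κ F} : OTy B 1 n ↔ ∃ v, v ≠ 0 ∧ B v v = 0 ∧ n = rk B v v := by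
  simp [OTy]

theorem oTy_two {n : Matrix κ κ F} : OTy B 2 n ↔ n ≠ 0 ∧ ad B n = -n := by simp [OTy]

theorem OTy.sq {n : Matrix κ κ F} (h : OTy B 1 n) : n * n = 0 := by
  obtain ⟨v, -, hv, rfl⟩ := oTy_one.1 h
  simp [hv]

variable (B) in
/-- The pair `(q, q')` lies in the invariant subspace generated by `(p, p')`. -/
def RedO (p p' q q' : Matrix κ κ F) : Prop :=
  ∀ S : Submodule F (Matrix κ κ F × Matrix κ κ F),
    (∀ γ ∈ RootG B 1, ∀ x ∈ S, (cj γ x.1, cj γ x.2) ∈ S) → (p, p') ∈ S → (q, q') ∈ S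

theorem RedO.refl (p p' : Matrix κ κ F) : RedO B p p' p p' := fun _ _ h => h

variable (F) in
/-- The sign of a pair of types. -/
def sgT (t t' : Fin 3) : F := if (t = 1 ∧ t' = 2) ∨ (t = 2 ∧ t' = 1) then -1 else 1

namespace OB

variable (o : OB B)
include o

theorem ty_ne_zero {t : Fin 3} {n : Matrix κ κ F} (h : OTy B t n) : n ≠ 0 := by
  rcases h with ⟨-, rfl⟩ | ⟨-, v, h0, -, rfl⟩ | h
  · have := o.nonempty
    exact one_ne_zero
  · exact o.h.rk_ne_zero h0 h0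
  · exact h.2.1

theorem ty_ad {t : Fin 3} {n : Matrix κ κ F} (h : OTy B t n) :
    ad B n = (if t = 2 then -1 else 1 : F) • n := by
  rcases h with ⟨rfl, rfl⟩ | ⟨rfl, v, h0, -, rfl⟩ | ⟨rfl, -, h⟩
  · simp [o.h.ad_one]
  · simp [o.h.ad_rk]
  · simp [h]

theorem ty_same {S : Submodule F (Matrix κ κ F)} (hS : InvG B S.toAddSubgroup) {t : Fin 3}
    {n n' : Matrix κ κ F} (h : OTy B t n) (h' : OTy B t n') (hn : n ∈ S) : n' ∈ S := by
  rcases ty_cases t with rfl | rfl | rfl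
  · rwa [oTy_zero.1 h', ← oTy_zero.1 h]
  · obtain ⟨v, h0, hv, rfl⟩ := oTy_one.1 h
    obtain ⟨w, h0', hw, rfl⟩ := oTy_one.1 h'
    obtain ⟨γ, hγ, c, hc, e⟩ := o.exists_sim hv h0 hw h0'
    have := hS γ hγ _ hn
    rw [o.h.cj_rk (o.h.RootG_le hγ), e] at this
    simpa [S.smul_mem_iff hc] using this
  · exact o.skew_all hS hn (oTy_two.1 h).2 (oTy_two.1 h).1 (oTy_two.1 h').2

theorem purify (hL : InvL B ψ L)
    (hR : Fintype.card κ = 4 → ∀ y, ∀ ξ ∈ L, cj (homG ψ (rf B y)) ξ ∈ L) {ξ : Matrix ι ι F}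
    (hξ : ξ ∈ L) (hn : ¬ InC ψ ξ) :
    ∃ t n c, t ≠ 0 ∧ OTy B t n ∧ InC ψ c ∧ c ≠ 0 ∧ ψ n * c ∈ L := by
  rcases o.pur0 hL hξ with ⟨v, c, h0, hv, H⟩ | H
  · exact ⟨1, _, c, by decide, oTy_one.2 ⟨v, h0, hv, rfl⟩, H⟩
  · obtain ⟨n, c, h0, h1, H⟩ := o.pur1 hL hR hξ hn H
    exact ⟨2, n, c, by decide, oTy_two.2 ⟨h0, h1⟩, H⟩

theorem slot_step (t t' : Fin 3) : ∃ n n' m : Matrix κ κ F, OTy B t n ∧ OTy B t' n' ∧
    OTy B (comb t t') m ∧ RedO B (n * n') (n' * n) m (sgT F t t' • m) ∧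
    (¬ (t = 1 ∧ t' = 1) → n * n' = m ∧ n' * n = sgT F t t' • m) ∧
    (t = 1 ∧ t' = 1 → OTy B 2 (n * n' - n' * n)) ∧
    ((t = 1 ∧ t' ≠ 1) ∨ (t = 2 ∧ t' = 2) → n * n' * n = 0) ∧
    ((t' = 1 ∧ t ≠ 1) ∨ (t = 2 ∧ t' = 2) → n' * n * n' = 0) := by
  obtain ⟨u, u', p⟩ := o.exists_pair
  obtain ⟨y, y1, y2, y3⟩ := o.exists_ns p
  have s1 : OTy B 1 (rk B u u) := oTy_one.2 ⟨u, p.ne_l, p.l, rfl⟩
  have s2 : OTy B 1 (rk B u' u') := oTy_one.2 ⟨u', p.ne_r, p.r, rfl⟩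
  have n1 : OTy B 2 (NN B 1 u' u) := oTy_two.2 ⟨o.NN_ne_zero (o.hyp_symm p)
    (o.notMem_span (o.hyp_symm p) p.l p.ne_l), o.h.ad_NN _ _⟩
  have n2 : OTy B 2 (NN B 1 u u') :=
    oTy_two.2 ⟨o.NN_ne_zero p (o.notMem_span p p.r p.ne_r), o.h.ad_NN _ _⟩
  have n3 : ∀ c : F, c ≠ 0 → OTy B 2 (NN B 1 u (c • y)) := fun c hc => oTy_two.2
    ⟨o.NN_ne_zero p (o.notMem_span p (by simp [y2]) fun e => by simp_all), o.h.ad_NN _ _⟩
  have z : OTy B 0 1 := oTy_zero.2 rfl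
  have key : ∀ n n' m : Matrix κ κ F, n * n' = m → n' * n = sgT F t t' • m →
      RedO B (n * n') (n' * n) m (sgT F t t' • m) := fun n n' m e e' => by
    rw [e, e']; exact RedO.refl _ _
  have e1 : NN B 1 u' u * rk B u u = rk B u u := by simp [NN_apply, sub_mul, p.l, o.rl p]
  have e2 : rk B u u * NN B 1 u' u = -rk B u u := by simp [NN_apply, mul_sub, p.l, p.lr]
  have e3 : rk B u u * NN B 1 u u' = rk B u u := by simp [NN_apply, mul_sub, p.l, p.lr]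
  have e4 : NN B 1 u u' * rk B u u = -rk B u u := by simp [NN_apply, sub_mul, p.l, o.rl p]
  have e5 : B u ((-B y y)⁻¹ • y) = 0 := by simp [y1]
  have e6 : NN B 1 u ((1 : F) • y) * NN B 1 u ((-B y y)⁻¹ • y) = rk B u u := by
    rw [o.h.NN_mul_NN p.l (by simp [y1]) e5]; simp [y3]
  have e7 : NN B 1 u ((-B y y)⁻¹ • y) * NN B 1 u ((1 : F) • y) = rk B u u := by
    rw [o.h.NN_mul_NN p.l e5 (by simp [y1])]; simp [y3]
  rcases ty_cases t with rfl | rfl | rfl <;> rcases ty_cases t' with rfl | rfl | rfl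
  · exact ⟨1, 1, 1, z, z, z, key _ _ _ (by simp) (by simp [sgT]), by simp [sgT]⟩
  · exact ⟨1, _, _, z, s1, s1, key _ _ _ (by simp) (by simp [sgT]), by simp [sgT, p.l]⟩
  · exact ⟨1, _, _, z, n1, n1, key _ _ _ (by simp) (by simp [sgT]), by simp [sgT]⟩
  · exact ⟨_, 1, _, s1, z, s1, key _ _ _ (by simp) (by simp [sgT]), by simp [sgT, p.l]⟩
  · refine ⟨_, _, _, s1, s2, s1, fun S hS h => ?_, by simp, fun _ => ?_, by simp, by simp⟩
    · simp only [rk_mul_rk, p.lr, o.rl p, one_smul] at h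
      have := S.sub_mem (S.sub_mem (S.add_mem (hS (xo B u y) (xr_mem _ _ _) _ h)
        (hS (xo B u (-y)) (xr_mem _ _ _) _ h)) h) h
      change (Eo B u y _, Eo B u y _) ∈ S at this
      rw [(o.Eo_rk p y1 y2).1, (o.Eo_rk p y1 y2).2, ← Prod.smul_mk,
        S.smul_mem_iff (neg_ne_zero.2 y3)] at this
      simpa [sgT] using this
    · simpa [p.lr, o.rl p, NN_apply] using n1
  · exact ⟨_, _, _, s1, n2, s1, key _ _ _ e3 (by simp [sgT, e4]), by simp [sgT, e3, e4, p.l]⟩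
  · exact ⟨_, 1, _, n1, z, n1, key _ _ _ (by simp) (by simp [sgT]), by simp [sgT]⟩
  · exact ⟨_, _, _, n1, s1, s1, key _ _ _ e1 (by simp [sgT, e2]), by simp [sgT, e1, e2, p.l]⟩
  · exact ⟨_, _, _, n3 1 one_ne_zero, n3 _ (inv_ne_zero (neg_ne_zero.2 y3)), s1,
      key _ _ _ e6 (by rw [e7]; simp [sgT]), fun _ => ⟨e6, by rw [e7]; simp [sgT]⟩, by simp,
      fun _ => by rw [e6]; exact HForm.s_mul_NN p.l (by simp [y1]) _,
      fun _ => by rw [e7]; exact HForm.s_mul_NN p.l e5 _⟩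

/-- An element of the same type whose products with the first one do not commute. -/
theorem slot_opp (t : Fin 3) : ∃ (n n' : Matrix κ κ F) (x : κ → F), OTy B t n ∧ OTy B t n' ∧
    (n' * n) *ᵥ x ≠ 0 ∧ (t ≠ 0 → (n * n') *ᵥ x = 0) := by
  obtain ⟨u, u', p⟩ := o.exists_pair
  obtain ⟨y, y1, y2, y3⟩ := o.exists_ns p
  have y0 : y ≠ 0 := fun e => by simp [e] at y3
  rcases ty_cases t with rfl | rfl | rfl
  · exact ⟨1, 1, u, oTy_zero.2 rfl, oTy_zero.2 rfl, by simpa using p.ne_l, by simp⟩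
  · exact ⟨_, _, u', oTy_one.2 ⟨u, p.ne_l, p.l, rfl⟩, oTy_one.2 ⟨u', p.ne_r, p.r, rfl⟩,
      by simpa [p.lr, o.rl p, smul_mulVec] using p.ne_r, by simp [p.r, smul_mulVec]⟩
  · refine ⟨NN B 1 u y, NN B 1 u' y, u', oTy_two.2 ⟨o.NN_ne_zero p (o.notMem_span p y2 y0),
      o.h.ad_NN _ _⟩, oTy_two.2 ⟨o.NN_ne_zero (o.hyp_symm p) (o.notMem_span (o.hyp_symm p) y1 y0),
      o.h.ad_NN _ _⟩, ?_, fun _ => ?_⟩ <;>
    simp [← mulVec_mulVec, o.NN_mulVec, p.lr, p.r, y2, o.symm y u', y3, p.ne_r]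

end OB

end Cfsg.Agent.Cl.Max
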