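import Mathlib
import Cfsg.Agent.Cl.TnOB

/-!
# Tensor products of orthogonal spaces: commutators of pure elements
-/

set_option autoImplicit false
set_option linter.unusedSectionVars false

namespace Cfsg.Agent.Cl.Max

open Matrix Cfsg.Geo Module Function QuadraticMap

variable {F : Type*} [Field F] [Finite F] {ι : Type} [Fintype ι] [DecidableEq ι]
  {τ : Type} [Fintype τ] [DecidableEq τ] {κ : τ → Type} [∀ i, Fintype (κ i)]
  [∀ i, DecidableEq (κ i)] {M : Subgroup (GL ι F)} {B0 : LinearMap.BilinForm F (ι → F)}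
  {B : ∀ i, LinearMap.BilinForm F (κ i → F)} {T : TF B0 B}

theorem PM.add {X Y : Matrix ι ι F} (hX : PM M X) (hY : PM M Y) (h : X * Y = 0) : PM M (X + Y) :=
  fun c => by simpa only [smul_add] using (hX c).add (hY c) (by simp [h])

theorem SM.mul_zero {j : τ} {m : Matrix (κ j) (κ j) F} (hm : m * m = 0) {X Y : Matrix ι ι F}
    (hX : SM T j m X) (hY : SM T j m Y) : X * Y = 0 := by
  obtain ⟨X, h1, rfl⟩ := hX
  obtain ⟨Y, -, rfl⟩ := hY
  rw [mul_assoc, ← mul_assoc X, h1, ← mul_assoc, ← mul_assoc, ← map_mul, hm, map_zero, zero_mul,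
    zero_mul]

theorem SM.cj {i j : τ} (h : j ≠ i) {m : Matrix (κ j) (κ j) F} {X : Matrix ι ι F}
    (hX : SM T j m X) (g : GL (κ i) F) : SM T j m (cj (homG (T.ψ i) g) X) := by
  obtain ⟨X, h1, rfl⟩ := hX
  exact ⟨_, T.inC_cj h g h1, T.cj_mul_left g (T.inC_psi h.symm m) X⟩

variable (T) in
/-- A pure matrix as a linear function of one slot. -/
def TF.pmL (n : ∀ i, Matrix (κ i) (κ i) F) (s : τ) : Matrix (κ s) (κ s) F →ₗ[F] Matrix ι ι F where
  toFun X := T.pm (update n s X)
  map_add' := T.pm_update_add n s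
  map_smul' := T.pm_update_smul n s

theorem TF.pmL_apply (n : ∀ i, Matrix (κ i) (κ i) F) (s : τ) (X : Matrix (κ s) (κ s) F) :
    T.pmL n s X = T.pm (update n s X) := rfl

theorem TF.cj_pmL (n : ∀ i, Matrix (κ i) (κ i) F) (s : τ) (g : GL (κ s) F)
    (X : Matrix (κ s) (κ s) F) : cj (homG (T.ψ s) g) (T.pmL n s X) = T.pmL n s (cj g X) := by
  rw [TF.pmL_apply, T.cj_pm, update_idem, update_self, TF.pmL_apply]

variable (M T) in
/-- The elements with the factor `m` in the slot `j` all of whose multiples come from `M`. -/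
def LS (j : τ) {m : Matrix (κ j) (κ j) F} (hm : m * m = 0) : Submodule F (Matrix ι ι F) where
  carrier := {X | PM M X ∧ SM T j m X}
  add_mem' ha hb := ⟨ha.1.add hb.1 (ha.2.mul_zero hm hb.2), ha.2.add hb.2⟩
  zero_mem' := ⟨pM_zero, 0, inC_zero, by simp⟩
  smul_mem' c _ hx := ⟨hx.1.smul c, hx.2.smul c⟩

variable (T M) in
/-- A group of isometries containing the root groups of the orthogonal factors. -/
structure TO : Prop where
  h0 : BF B0 1
  o : ∀ i, OB (B i)
  le : M ≤ isoB B0
  mem : ∀ i, ∀ γ ∈ RootG (B i) 1, homG (T.ψ i) γ ∈ M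

variable (T M) in
/-- The pure elements of type `ty` lie in `M`. -/
def POT (ty : τ → Fin 3) : Prop := ∀ n, (∀ i, OTy (B i) (ty i) (n i)) → PM M (T.pm n)

variable (T M) in
/-- Even permutations of the slots preserve the types. -/
def PermO : Prop := ∀ π : Equiv.Perm τ, Equiv.Perm.sign π = 1 → ∀ ty, POT M T ty → POT M T (ty ∘ π)

/-- The type with support `A` and one skew slot `c`. -/
def pat (A : Finset τ) (c : τ) (l : τ) : Fin 3 := if l = c then 2 else if l ∈ A then 1 else 0

theorem piecewise_erase {α : τ → Type*} (a b : ∀ i, α i) {j : τ} (e : a j = b j) :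
    (Finset.univ.erase j).piecewise a b = a := funext fun i => by
  by_cases hi : i = j
  · subst hi; rw [Finset.piecewise_eq_of_notMem _ _ _ (Finset.notMem_erase _ _), e]
  · rw [Finset.piecewise_eq_of_mem _ _ _ (by simp [hi])]

namespace TO

variable (S : TO M T)
include S

theorem h (i : τ) : BF (B i) 1 := (S.o i).h

theorem invL_LS {i j : τ} (h : j ≠ i) {m : Matrix (κ j) (κ j) F} (hm : m * m = 0) :
    InvL (B i) (T.ψ i) (LS M T j hm).toAddSubgroup := fun γ hγ _ hx =>
  ⟨hx.1.cj (S.mem i γ hγ), hx.2.cj h γ⟩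

theorem all_of (L : Submodule F (Matrix ι ι F)) (A : Finset τ)
    (hL : ∀ j ∈ A, InvL (B j) (T.ψ j) L.toAddSubgroup) {ty : τ → Fin 3}
    {n n' : ∀ i, Matrix (κ i) (κ i) F} (hn : ∀ j ∈ A, OTy (B j) (ty j) (n j))
    (hn' : ∀ j ∈ A, OTy (B j) (ty j) (n' j)) (h : T.pm n ∈ L) : T.pm (A.piecewise n' n) ∈ L := by
  induction A using Finset.induction_on with
  | empty => simpa using h
  | insert s A hs ih =>
    have m := Finset.mem_insert_self s A
    have := ih (fun j hj => hL j (Finset.mem_insert_of_mem hj))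
      (fun j hj => hn j (Finset.mem_insert_of_mem hj)) fun j hj => hn' j (Finset.mem_insert_of_mem hj)
    rw [Finset.piecewise_insert]
    refine (S.o s).ty_same (S := L.comap (T.pmL (A.piecewise n' n) s)) (fun γ hγ X hX => ?_)
      (hn s m) (hn' s m) ?_
    · exact (T.cj_pmL _ s γ X ▸ hL s m γ hγ _ hX :)
    · rwa [Submodule.mem_comap, TF.pmL_apply, ← Finset.piecewise_eq_of_notMem A n' n hs,
        update_eq_self]

theorem pot_of {ty : τ → Fin 3} {i : τ} (hi : ty i = 1) {n : ∀ i, Matrix (κ i) (κ i) F}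
    (hn : ∀ i, OTy (B i) (ty i) (n i)) (p : PM M (T.pm n)) : POT M T ty := fun n' hn' => by
  obtain ⟨v, h0, hv, e⟩ := oTy_one.1 (hi ▸ hn i)
  obtain ⟨w, h0', hw, e'⟩ := oTy_one.1 (hi ▸ hn' i)
  obtain ⟨γ, hγ, c, hc, e1⟩ := (S.o i).exists_sim hv h0 hw h0'
  have p1 := p.cj (S.mem i γ hγ)
  rw [T.cj_pm, e, (S.h i).cj_rk ((S.h i).RootG_le hγ), e1, map_smul, map_smul,
    LinearMap.smul_apply, T.pm_update_smul, T.pm_update_smul, ← e'] at p1
  have := S.all_of (LS M T i (hi ▸ hn' i).sq) (Finset.univ.erase i)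
    (fun j hj => S.invL_LS (Finset.ne_of_mem_erase hj).symm _) (n := update n i (n' i))
    (fun j hj => by rw [update_of_ne (Finset.ne_of_mem_erase hj)]; exact hn j) (fun j _ => hn' j)
    ⟨(p1.of_smul hc).of_smul hc, sM_pm (a := 1) (by rw [update_self, one_smul])⟩
  rw [piecewise_erase _ _ (by rw [update_self])] at this
  exact this.1

theorem loop {p p' q q' : ∀ i, Matrix (κ i) (κ i) F} {j : τ} {m : Matrix (κ j) (κ j) F}
    (hm : m * m = 0) {β : F} (h1 : p j = m) (h2 : p' j = β • m) (h3 : q j = p j)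
    (h4 : q' j = p' j) (H : ∀ i, RedO (B i) (p i) (p' i) (q i) (q' i))
    (hp : PM M (T.pm p - T.pm p')) : PM M (T.pm q - T.pm q') := by
  have key : ∀ A : Finset τ, j ∉ A →
      T.pm (A.piecewise q p) - T.pm (A.piecewise q' p') ∈ LS M T j hm := fun A => by
    induction A using Finset.induction_on with
    | empty =>
      refine fun _ => ⟨by simpa using hp, ?_⟩
      rw [sub_eq_add_neg, ← neg_one_smul F]
      exact (sM_pm (a := 1) (by simpa using h1)).add ((sM_pm (by simpa using h2)).smul _)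
    | insert s A hs ih =>
      intro hj
      rw [Finset.mem_insert, not_or] at hj
      rw [Finset.piecewise_insert, Finset.piecewise_insert]
      refine H s ((LS M T j hm).comap ((T.pmL (A.piecewise q p) s).comp (LinearMap.fst _ _ _) -
        (T.pmL (A.piecewise q' p') s).comp (LinearMap.snd _ _ _))) (fun γ hγ x hx => ?_) ?_
      · have := S.invL_LS hj.1 hm γ hγ _ hx
        simpa [TF.cj_pmL] using this
      · have := ih hj.2
        rwa [← update_eq_self s (A.piecewise q p), ← update_eq_self s (A.piecewise q' p'),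
          Finset.piecewise_eq_of_notMem _ _ _ hs, Finset.piecewise_eq_of_notMem _ _ _ hs] at this
  have := (key (Finset.univ.erase j) (Finset.notMem_erase _ _)).1
  rwa [piecewise_erase _ _ h3, piecewise_erase _ _ h4] at this

omit S in
theorem comm {ty ty' : τ → Fin 3} (p : POT M T ty) (p' : POT M T ty')
    {n n' : ∀ i, Matrix (κ i) (κ i) F} (hn : ∀ i, OTy (B i) (ty i) (n i))
    (hn' : ∀ i, OTy (B i) (ty' i) (n' i)) {a b c d : τ} (ha : ty a = 1) (hb : ty' b = 1)
    (hc : n c * n' c * n c = 0) (hd : n' d * n d * n' d = 0) :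
    PM M (T.pm (fun i => n i * n' i) - T.pm fun i => n' i * n i) := by
  rw [← T.pm_mul, ← T.pm_mul]
  exact (p n hn).comm (p' n' hn') (by rw [T.pm_mul]; exact T.pm_zero a (ha ▸ hn a).sq)
    (by rw [T.pm_mul]; exact T.pm_zero b (hb ▸ hn' b).sq)
    (by rw [T.pm_mul, T.pm_mul]; exact T.pm_zero c hc)
    (by rw [T.pm_mul, T.pm_mul]; exact T.pm_zero d hd)

theorem moveA {ty : τ → Fin 3} (p : POT M T ty) {i j : τ} (hi : ty i = 1) (hj : ty j = 2) :
    POT M T (pat (Finset.univ.filter fun l => ty l ≠ 0) i) := by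
  choose n n' m h1 h2 h3 h4 h5 h6 h7 h8 using fun l => (S.o l).slot_step (ty l) (ty l)
  have hij : j ≠ i := by rintro rfl; simp [hi] at hj
  have sg : ∀ t : Fin 3, sgT F t t = 1 := fun t => by fin_cases t <;> simp [sgT]
  simp only [sg, one_smul] at h4 h5
  have e := h5 j (by simp [hj])
  have hm : OTy (B j) 1 (m j) := by simpa [hj, comb] using h3 j
  have := S.loop (q := update m i (n i * n' i)) (q' := update m i (n' i * n i)) hm.sq (β := 1) e.1
    (by rw [one_smul]; exact e.2) (by rw [update_of_ne hij, e.1]) (by rw [update_of_ne hij, e.2])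
    (fun l => by
      by_cases f : l = i
      · subst f; simpa using RedO.refl _ _
      · simpa [update_of_ne f] using h4 l)
    (comm p p h1 h2 hi hi (h7 j (.inr ⟨hj, hj⟩)) (h8 j (.inr ⟨hj, hj⟩)))
  rw [← T.pm_update_sub] at this
  refine S.pot_of (i := j) (by simp [pat, hij, hj]) (fun l => ?_) this
  by_cases f : l = i
  · subst f; simpa [pat] using h6 l ⟨hi, hi⟩
  · simpa [pat, update_of_ne f, f, comb_self] using h3 l

theorem moveB {ty ty' : τ → Fin 3} (p : POT M T ty) (p' : POT M T ty') {b c : τ}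
    (hb : ty b = 1) (hb' : ty' b ≠ 1) (hc : ty' c = 1) (hc' : ty c ≠ 1)
    (hs : ∏ l, sgT F (ty l) (ty' l) = -1) : POT M T fun l => comb (ty l) (ty' l) := by
  choose n n' m h1 h2 h3 h4 h5 h6 h7 h8 using fun l => (S.o l).slot_step (ty l) (ty' l)
  have e := h5 b (by simp [hb'])
  have e1 : comb (ty b) (ty' b) = 1 := by simp [hb, comb]
  have := S.loop (q := m) (q' := fun l => sgT F (ty l) (ty' l) • m l) (e1 ▸ h3 b).sq e.1 e.2
    e.1.symm e.2.symm h4 (comm p p' h1 h2 hb hc (h7 b (.inl ⟨hb, hb'⟩)) (h8 c (.inl ⟨hc, hc'⟩)))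
  rw [T.pm_smul, hs, neg_one_smul, sub_neg_eq_add, ← two_smul F] at this
  exact S.pot_of e1 h3 (this.of_smul (S.o b).two)

theorem grow (hP : PermO M T) {A : Finset τ} {c i j : τ} (p : POT M T (pat A c)) (hc : c ∈ A)
    (hi : i ∈ A) (hic : i ≠ c) (hj : j ∉ A) : POT M T (pat (insert j A) j) := by
  have hjc : j ≠ c := by rintro rfl; exact hj hc
  have hji : j ≠ i := by rintro rfl; exact hj hi
  set π := Equiv.swap i c * Equiv.swap i j with hπ
  have e1 : π i = j := by simp [hπ, Equiv.swap_apply_of_ne_of_ne hji hjc]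
  have e2 : π j = c := by simp [hπ]
  have e3 : π c = i := by simp [hπ, Equiv.swap_apply_of_ne_of_ne hic.symm hjc.symm]
  have e4 : ∀ l, l ≠ i → l ≠ j → l ≠ c → π l = l := fun l a b d => by
    simp [hπ, Equiv.swap_apply_of_ne_of_ne a b, Equiv.swap_apply_of_ne_of_ne a d]
  have := S.moveB p (hP π (by simp [hπ, Equiv.Perm.sign_swap hic, Equiv.Perm.sign_swap hji.symm]) _ p)
    (b := i) (c := c) (by simp [pat, hic, hi]) (by simp [pat, e1, hjc, hj])
    (by simp [pat, e3, hic, hi]) (by simp [pat]) (by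
      rw [Finset.prod_eq_single c (fun l _ hl => ?_) (by simp)]
      · simp [pat, e3, hic, hi, sgT]
      by_cases a : l = i
      · simp [pat, a, e1, hic, hi, hjc, hj, sgT]
      by_cases b : l = j
      · simp [pat, b, e2, hjc, hj, sgT]
      · simp only [Function.comp_apply, e4 l a b hl, sgT]; rw [if_neg]; simp +contextual)
  convert this using 2 with l
  by_cases a : l = i
  · simp [pat, a, e1, hic, hi, hjc, hj, comb, hji.symm]
  by_cases b : l = j
  · simp [pat, b, e2, hjc, hj, comb]
  by_cases d : l = c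
  · simp [pat, d, e3, hic, hi, comb, hjc.symm, hc]
  · simp only [Function.comp_apply, e4 l a b d, comb_self]
    by_cases f : l ∈ A <;> simp [pat, b, d, f]

theorem reach {ty : τ → Fin 3} (p : POT M T ty) {i j : τ} (hi : ty i = 1) (hj : ty j = 2)
    (hP : PermO M T ∨ ∀ l, l = i ∨ l = j) (c : τ) : POT M T (pat Finset.univ c) := by
  have hij : j ≠ i := by rintro rfl; simp [hi] at hj
  obtain ⟨d, p⟩ : ∃ d, POT M T (pat Finset.univ d) := by
    have p := S.moveA p hi hj
    rcases hP with hP | hP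
    swap
    · refine ⟨i, ?_⟩
      rwa [Finset.filter_true_of_mem fun l _ => by rcases hP l with rfl | rfl <;> simp [*]] at p
    have key : ∀ (r : ℕ) (A : Finset τ) (c i : τ), Aᶜ.card = r → POT M T (pat A c) → c ∈ A → i ∈ A →
        i ≠ c → ∃ d, POT M T (pat Finset.univ d) := fun r => by
      induction r with
      | zero =>
        intro A c i h p _ _ _
        rw [Finset.card_eq_zero, Finset.compl_eq_empty_iff] at h
        exact ⟨c, h ▸ p⟩
      | succ r ih =>
        intro A c i h p hc hi hic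
        obtain ⟨j, hj⟩ := Finset.card_pos.1 (show 0 < Aᶜ.card by omega)
        refine ih _ j c ?_ (S.grow hP p hc hi hic (Finset.mem_compl.1 hj)) (by simp) (by simp [hc])
          (by rintro rfl; exact Finset.mem_compl.1 hj hc)
        rw [Finset.compl_insert, Finset.card_erase_of_mem hj, h]; rfl
    exact key _ _ i j rfl p (by simp [hi]) (by simp [hj]) hij
  by_cases e : c = d
  · exact e ▸ p
  have := S.moveA p (i := c) (j := d) (by simp [pat, e]) (by simp [pat])
  rwa [Finset.filter_true_of_mem fun l _ => by unfold pat; split_ifs <;> simp_all] at this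

end TO

variable {Q : QuadraticForm F (ι → F)} {T : TF (polarBilin Q) B}

namespace TO

variable (S : TO M T)
include S

theorem q_zero {x : ∀ i, κ i → F} (i : τ) (h : B i (x i) (x i) = 0) : Q (T.pv x) = 0 := by
  rw [T.q_pv (S.o i).two, Finset.prod_eq_zero (Finset.mem_univ i) h, mul_zero]

theorem sie {i j : τ} (hij : j ≠ i) (p : POT M T (pat Finset.univ i)) {a : ∀ i, κ i → F}
    (ha : ∀ l, l ≠ i → a l ≠ 0 ∧ B l (a l) (a l) = 0) (w : κ i → F) : Sie M T i a w := fun t => by
  have p : PM M (T.pm (update (fun l => rk (B l) (a l) (a l)) i (NN (B i) 1 (a i) w))) := by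
    by_cases e : NN (B i) 1 (a i) w = 0
    · rw [T.pm_zero i (by simp [e])]; exact pM_zero
    refine p _ fun l => ?_
    by_cases f : l = i
    · subst f; simpa [pat] using oTy_two.2 ⟨e, (S.h l).ad_NN _ _⟩
    · simpa [pat, update_of_ne f, f] using oTy_one.2 ⟨_, (ha l f).1, (ha l f).2, rfl⟩
  obtain ⟨g, hg, e⟩ := p (t * T.c)
  have e1 : ∀ x y : ∀ l, κ l → F, (∀ l, l ≠ i → x l = a l) → (∀ l, l ≠ i → y l = a l) →
      update (fun l => rk (B l) (a l) (a l)) i (rk (B i) (x i) (y i)) =
        fun l => rk (B l) (x l) (y l) := fun x y hx hy => funext fun l => by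
    by_cases f : l = i
    · subst f; simp
    · rw [update_of_ne f, hx l f, hy l f]
  have e2 := e1 (update a i w) a (fun l f => update_of_ne f _ _) fun _ _ => rfl
  have e3 := e1 a (update a i w) (fun _ _ => rfl) fun l f => update_of_ne f _ _
  rw [update_self] at e2 e3
  rw [NN_apply, one_smul, T.pm_update_sub, e2, e3, ← smul_smul, smul_sub, T.pm_rk, T.pm_rk] at e
  have z : polar Q (T.pv a) (t • T.pv (update a i w)) = 0 := by
    rw [o_polar_smul_right, T.polar_zero j (by rw [update_of_ne hij, (ha j hij).2]), mul_zero]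
  rw [Subgroup.mem_comap, oGL_eq_iff.2 fun v => ?_]
  · exact hg
  rw [e, eich_app (S.q_zero j (ha j hij).2) z, o_qsmul,
    S.q_zero j (by rw [update_of_ne hij, (ha j hij).2]), o_polar_smul_right]
  simp only [add_mulVec, one_mulVec, smul_mulVec, sub_mulVec, rk_mulVec, polarBilin_apply_apply,
    polar_comm Q v]
  module

theorem full [Nontrivial τ] (p : ∀ i, POT M T (pat Finset.univ i)) {a a' : ∀ i, κ i → F}
    (H : ∀ l, Hyp (B l) (a l) (a' l)) : MaxO.Full (M.comap (oGL Q)) (T.pv a) := by
  obtain ⟨i0⟩ : Nonempty τ := inferInstance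
  have ha := S.q_zero i0 (H i0).l
  have h : ∀ y i, B i (a i) (y i) = 0 → T.pv y ∈ SieT M ha := fun y i hy => by
    obtain ⟨j, hj⟩ := exists_ne i
    refine T.mem_of_span _ (fun l => if l = i then {z | B l (a l) z = 0} else
      {z | B l z z = 0 ∧ B l (a l) z ≠ 0}) (fun y hy => ?_) y fun l => ?_
    swap
    · split_ifs with f
      · subst f; exact Submodule.subset_span hy
      · exact (S.o l).mem_span_opp (H l) _
    have yi : B i (a i) (y i) = 0 := by simpa using hy i
    have yl : ∀ l, l ≠ i → B l (y l) (y l) = 0 ∧ B l (a l) (y l) ≠ 0 := fun l f => by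
      simpa [f] using hy l
    obtain ⟨v, v1, v2⟩ := (S.h i).exists_perp_notMem (Submodule.span F {y i})
      (Submodule.span F {a i}) (by
        have := MaxO.finrank_span_one_le (F := F) (y i)
        have := MaxO.finrank_span_one_le (F := F) (a i)
        have := (S.o i).three_le
        omega)
    have v3 := v2 _ (Submodule.mem_span_singleton_self _)
    obtain ⟨w, w1, w2⟩ := (S.o i).exists_dual v1
    have s1 := S.sie hj (p i) (a := update y i v) (fun l f => by
      rw [update_of_ne f]; exact ⟨MaxSp.ne_zero_right (yl l f).2, (yl l f).1⟩) (y i) 1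
    rw [update_idem, update_eq_self, one_smul] at s1
    refine sieT_step (x := T.pv (update a i w)) (fun t => ⟨?_, S.sie hj (p i)
      (fun l _ => ⟨(H l).ne_l, (H l).l⟩) w t⟩)
      (S.q_zero j (by rw [update_of_ne hj, (yl j hj).1]))
      (T.polar_zero j (by rw [update_of_ne hj, (yl j hj).1])) (T.polar_zero i (by simpa using v3))
      (T.polar_zero i yi) s1 (T.polar_ne fun l => ?_)
      (T.polar_zero i (by rw [update_self, (S.o i).symm, w2])) (S.q_zero j (yl j hj).1)
    · rw [o_polar_smul_right, T.polar_zero j (by rw [update_of_ne hj, (H j).l]), mul_zero]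
    · by_cases f : l = i
      · subst f; simp [w1]
      · simpa [update_of_ne f] using (yl l f).2
  have key : ∀ v, v - (T.c⁻¹ * polar Q (T.pv a) v) • T.pv a' ∈ SieT M ha := fun v => by
    refine T.mem_of_pv (S := (SieT M ha).comap (LinearMap.id -
      ((T.c⁻¹ • polarBilin Q (T.pv a)).smulRight (T.pv a')))) (fun x => ?_) v
    change T.pv x - (T.c⁻¹ * polarBilin Q (T.pv a) (T.pv x)) • T.pv a' ∈ SieT M ha
    rw [T.form, inv_mul_cancel_left₀ T.c_ne, ← T.pv.map_smul_univ]
    have := T.pv.map_add_univ (fun i => x i - B i (a i) (x i) • a' i)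
      fun i => B i (a i) (x i) • a' i
    rw [show ((fun i => x i - B i (a i) (x i) • a' i) + fun i => B i (a i) (x i) • a' i) = x from
      funext fun i => by simp, ← Finset.add_sum_erase _ _ (Finset.mem_univ ∅),
      Finset.piecewise_empty] at this
    rw [this, add_sub_cancel_left]
    refine Submodule.sum_mem _ fun s hs => ?_
    obtain ⟨i, hi⟩ := Finset.nonempty_iff_ne_empty.2 (Finset.ne_of_mem_erase hs)
    exact h _ i (by simp [Finset.piecewise_eq_of_mem _ _ _ hi, (H i).lr])
  refine MaxO.full_of_EA ha fun v hv => ?_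
  simpa [hv] using key v 1

theorem omega_le [Nontrivial τ] (hQ : (polarBilin Q).Nondegenerate) (h5 : 5 ≤ Fintype.card ι)
    (p : ∀ i, POT M T (pat Finset.univ i)) : omegaGL Q ≤ M := by
  choose a a' H using fun i => (S.o i).exists_pair
  refine omegaGL_le_of_comap ?_
  rw [MaxO.omega_eq hQ (by simpa using h5)]
  exact MaxO.EO_le_of_full hQ (S.full p H) (S.full p fun l => (S.o l).hyp_symm (H l))
    (T.polar_ne fun i => by rw [(H i).lr]; exact one_ne_zero)

end TO

end Cfsg.Agent.Cl.Max
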