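import Mathlib
import Cfsg.Agent.Cl.TnOC

/-!
# Tensor products of orthogonal spaces: the first pure element
-/

set_option autoImplicit false
set_option linter.unusedSectionVars false

namespace Cfsg.Agent.Cl.Max

open Matrix Cfsg.Geo Module Function

variable {F : Type*} [Field F] [Finite F] {ι : Type} [Fintype ι] [DecidableEq ι]
  {τ : Type} [Fintype τ] [DecidableEq τ] {κ : τ → Type} [∀ i, Fintype (κ i)]
  [∀ i, DecidableEq (κ i)] {M : Subgroup (GL ι F)} {B0 : LinearMap.BilinForm F (ι → F)}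
  {B : ∀ i, LinearMap.BilinForm F (κ i → F)} {T : TF B0 B}

theorem InM.neg {X : Matrix ι ι F} (h : InM M X) (hX : X * X = 0) : InM M (-X) := by
  obtain ⟨g, hg, e⟩ := h
  exact ⟨g⁻¹, M.inv_mem hg, by rw [coe_inv_of_sq e hX, sub_eq_add_neg]⟩

variable (M T) in
/-- The elements of `M` with the factor `m` in the slot `j`. -/
def JS (j : τ) {m : Matrix (κ j) (κ j) F} (hm : m * m = 0) : AddSubgroup (Matrix ι ι F) where
  carrier := {X | InM M X ∧ SM T j m X}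
  add_mem' ha hb := ⟨ha.1.add hb.1 (ha.2.mul_zero hm hb.2), ha.2.add hb.2⟩
  zero_mem' := ⟨inM_zero, 0, inC_zero, by simp⟩
  neg_mem' hx := ⟨hx.1.neg (hx.2.mul_zero hm hx.2), by simpa using hx.2.smul (-1)⟩

variable (M) in
/-- The image of `M` in the quotient of a unipotent radical by its centre. -/
def InPhi (P N x : Matrix ι ι F) : Prop := ∃ n, InM M n ∧ RadE P N n ∧ x = (1 - P - N) * n * N

section Phi

variable {P N x y : Matrix ι ι F}

theorem InPhi.add (hx : InPhi M P N x) (hy : InPhi M P N y) : InPhi M P N (x + y) := by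
  obtain ⟨n, h1, h2, rfl⟩ := hx
  obtain ⟨n', h1', h2', rfl⟩ := hy
  exact ⟨_, h1.mul h1', h2.mul h2', by rw [mul_add, mul_add, h2.zero_mul h2', add_zero, add_mul]⟩

theorem inPhi_zero : InPhi M P N 0 := ⟨0, inM_zero, ⟨by simp, by simp, by simp⟩, by simp⟩

theorem InPhi.cj (hx : InPhi M P N x) {g : GL ι F} (hg : g ∈ M) (hP : cj g P = P)
    (hN : cj g N = N) : InPhi M P N (cj g x) := by
  obtain ⟨n, h1, h2, rfl⟩ := hx
  have hE : Max.cj g (1 - P - N) = 1 - P - N := by rw [map_sub, map_sub, map_one, hP, hN]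
  refine ⟨_, h1.cj hg, ⟨?_, ?_, ?_⟩, by rw [map_mul, map_mul, hE, hN]⟩
  · rw [← hP, ← map_mul, h2.np, map_zero]
  · rw [← hN, ← map_mul, h2.mn, map_zero]
  · rw [← hE, ← map_mul, ← map_mul, h2.mid, map_zero]

theorem InPhi.eq (I : Idem P N) (hx : InPhi M P N x) : (1 - P - N) * x * N = x := by
  obtain ⟨n, -, -, rfl⟩ := hx
  rw [← mul_assoc, ← mul_assoc, I.ee, mul_assoc _ N, I.mm]

theorem RadE.mul_mid (h0 : BF B0 1) (hM : M ≤ isoB B0) (a1 : ad B0 N = P) {n : Matrix ι ι F}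
    (h1 : InM M n) (r : RadE P N n) : n * (1 - P - N) = -ad B0 ((1 - P - N) * n * N) := by
  have a2 : ad B0 P = N := by rw [← a1, h0.ad_ad]
  have a3 : ad B0 (1 - P - N) = 1 - P - N := by
    rw [h0.ad_sub, h0.ad_sub, h0.ad_one, a1, a2]; abel
  obtain ⟨g, hg, e⟩ := h1
  have e1 : ad B0 g * g = 1 := by rw [h0.ad_iso (hM hg), Units.inv_mul]
  rw [e, h0.ad_add, h0.ad_one] at e1
  have e2 : ad B0 n * P = 0 := by rw [← a1, ← h0.ad_mul, r.mn, h0.ad_zero]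
  have e3 : ad B0 n * n * (1 - P - N) = 0 := by
    rw [mul_assoc, r.right, ← mul_assoc, ← mul_assoc, e2]; simp
  have e4 : n = -ad B0 n - ad B0 n * n := by
    rw [← sub_eq_zero, ← sub_eq_zero.2 e1]; noncomm_ring
  rw [← r.left, h0.ad_mul, a3]
  conv_lhs => rw [e4, sub_mul, e3]
  simp

theorem InPhi.delta (h0 : BF B0 1) (hM : M ≤ isoB B0) (I : Idem P N) (a1 : ad B0 N = P)
    (hx : InPhi M P N x) (hy : InPhi M P N y) : InM M (ad B0 y * x - ad B0 x * y) := by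
  obtain ⟨n, h1, r, rfl⟩ := hx
  obtain ⟨n', h1', r', rfl⟩ := hy
  have key : ∀ n n', InM M n → RadE P N n → RadE P N n' →
      n * n' = -(ad B0 ((1 - P - N) * n * N) * ((1 - P - N) * n' * N)) := fun n n' h r r' => by
    rw [← neg_mul, ← r.mul_mid h0 hM a1 h, ← r'.left, ← mul_assoc, mul_assoc n, I.ee, mul_sub,
      mul_sub, r.np, sub_mul, mul_assoc n N, r'.mn]
    simp
  have z : ∀ (X : Matrix ι ι F) k k', RadE P N k' → X * ((1 - P - N) * k * N) * k' = 0 :=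
    fun X k k' h => by rw [mul_assoc, mul_assoc, h.mn, mul_zero, mul_zero]
  obtain ⟨g, hg, e⟩ := h1.mul h1'
  obtain ⟨g', hg', e'⟩ := h1'.mul h1
  refine ⟨g * g'⁻¹, M.mul_mem hg (M.inv_mem hg'), ?_⟩
  have z' : ∀ X k : Matrix ι ι F, X * ((1 - P - N) * k * N) * (n' * n) = 0 := fun X k => by
    rw [← mul_assoc _ n', z _ _ _ r', zero_mul]
  rw [Units.val_mul, Units.mul_inv_eq_iff_eq_mul, e, e', add_mul 1, one_mul, mul_add, mul_add,
    mul_add, mul_one, sub_mul (_ * _) _ n, sub_mul (_ * _) _ n', sub_mul (_ * _) _ (n' * n),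
    z _ _ _ r, z _ _ _ r,
    z _ _ _ r', z _ _ _ r', z', z', key n n' h1 r r', key n' n h1' r' r]
  abel

end Phi

variable (M T) in
/-- In dimension four the reflections of the slot lie in `M`. -/
def RfO (j : τ) : Prop := Fintype.card (κ j) = 4 → ∀ y, homG (T.ψ j) (rf (B j) y) ∈ M

variable (T) in
/-- A pure element of `L` outside the slot `i`. -/
def PureAt (i : τ) (L : AddSubgroup (Matrix ι ι F)) (ty : τ → Fin 3) : Prop :=
  ∃ (n : ∀ i, Matrix (κ i) (κ i) F) (Y : Matrix (κ i) (κ i) F), (∀ l, OTy (B l) (ty l) (n l)) ∧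
    n i = 1 ∧ T.pm n * T.ψ i Y ≠ 0 ∧ T.pm n * T.ψ i Y ∈ L

namespace TO

variable (S : TO M T)
include S

theorem pure (A : Finset τ) (hR : ∀ j ∈ A, RfO M T j) (L : AddSubgroup (Matrix ι ι F))
    (hL : ∀ j ∈ A, ∀ g, homG (T.ψ j) g ∈ M → ∀ ξ ∈ L, cj (homG (T.ψ j) g) ξ ∈ L) {ξ : Matrix ι ι F}
    (hξ : ξ ∈ L) (h0 : ξ ≠ 0) : ∃ (ty : τ → Fin 3) (n : ∀ i, Matrix (κ i) (κ i) F)
      (d : Matrix ι ι F), (∀ i, OTy (B i) (ty i) (n i)) ∧ (∀ i ∉ A, ty i = 0) ∧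
      (∀ j ∈ A, InC (T.ψ j) d) ∧ d ≠ 0 ∧ T.pm n * d ∈ L ∧ (d = ξ ∨ ∃ j, ty j ≠ 0) := by
  induction A using Finset.induction_on with
  | empty =>
    exact ⟨fun _ => 0, fun _ => 1, ξ, fun _ => oTy_zero.2 rfl, fun _ _ => rfl, by simp, h0,
      by rwa [T.pm_one, one_mul], .inl rfl⟩
  | insert s A hs ih =>
    obtain ⟨ty, n, d, h1, h2, h3, h4, h5, h6⟩ := ih (fun j hj => hR j (Finset.mem_insert_of_mem hj))
      fun j hj => hL j (Finset.mem_insert_of_mem hj)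
    by_cases hd : InC (T.ψ s) d
    · exact ⟨ty, n, d, h1, fun i hi => h2 i fun e => hi (Finset.mem_insert_of_mem e),
        (Finset.forall_mem_insert _ _ _).2 ⟨hd, h3⟩, h4, h5, h6⟩
    have hns : n s = 1 := oTy_zero.1 (h2 s hs ▸ h1 s)
    let L' : AddSubgroup (Matrix ι ι F) :=
      { carrier := {x | (∀ i ∈ A, InC (T.ψ i) x) ∧ T.pm n * x ∈ L}
        add_mem' := fun {a b} ha hb => ⟨fun i hi => (ha.1 i hi).add (hb.1 i hi), by
          rw [mul_add]; exact L.add_mem ha.2 hb.2⟩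
        zero_mem' := ⟨fun _ _ => inC_zero, by simp⟩
        neg_mem' := fun {a} ha => ⟨fun i hi => (ha.1 i hi).neg, by
          rw [mul_neg]; exact L.neg_mem ha.2⟩ }
    have inv : ∀ g, homG (T.ψ s) g ∈ M → ∀ x ∈ L', cj (homG (T.ψ s) g) x ∈ L' :=
      fun g hg x hx => ⟨fun i hi => T.inC_cj (by rintro rfl; exact hs hi) g (hx.1 i hi), by
        rw [← T.cj_mul_left g (T.inC_pm hns)]
        exact hL s (Finset.mem_insert_self _ _) g hg _ hx.2⟩
    obtain ⟨t, m, d', k1, k2, k3, k4, k5⟩ := (S.o s).purify (ψ := T.ψ s) (L := L')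
      (fun γ hγ => inv γ (S.mem s γ hγ))
      (fun h y => inv _ (hR s (Finset.mem_insert_self _ _) h y)) (ξ := d) ⟨h3, h5⟩ hd
    refine ⟨update ty s t, update n s m, d', fun i => ?_, fun i hi => ?_,
      (Finset.forall_mem_insert _ _ _).2 ⟨k3, fun i hi Y => ?_⟩, k4, ?_, .inr ⟨s, by simpa⟩⟩
    · by_cases e : i = s
      · subst e; simpa using k2
      · simpa [update_of_ne e] using h1 i
    · rw [Finset.mem_insert, not_or] at hi
      rw [update_of_ne hi.1, h2 i hi.2]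
    · have his : s ≠ i := by rintro rfl; exact hs hi
      refine sub_eq_zero.1 (eq_zero_of_map_mul ((S.o s).ty_ne_zero k2)
        ((k3.mul (T.inC_psi his Y)).sub ((T.inC_psi his Y).mul k3)) ?_)
      rw [mul_sub, ← mul_assoc, k5.1 i hi Y, ← mul_assoc, ← mul_assoc, T.inC_psi his Y, sub_self]
    · have := k5.2
      rwa [← mul_assoc, T.pm_mul_psi, hns, one_mul] at this

theorem pm_psi_ne {ty : τ → Fin 3} {n : ∀ i, Matrix (κ i) (κ i) F} {i : τ}
    (h1 : ∀ l, l ≠ i → OTy (B l) (ty l) (n l)) {Y : Matrix (κ i) (κ i) F} (hY : Y ≠ 0) :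
    T.pm (update n i Y) ≠ 0 := T.pm_ne_zero S.h fun k => by
  by_cases e : k = i
  · subst e; simpa using hY
  · simpa [update_of_ne e] using (S.o k).ty_ne_zero (h1 k e)

theorem pure_slot (i : τ) (hR : ∀ j, j ≠ i → RfO M T j) (L : AddSubgroup (Matrix ι ι F))
    (hL : ∀ j, j ≠ i → ∀ g, homG (T.ψ j) g ∈ M → ∀ ξ ∈ L, cj (homG (T.ψ j) g) ξ ∈ L)
    {ξ : Matrix ι ι F} (hξ : ξ ∈ L) (h0 : ξ ≠ 0) :
    ∃ ty, PureAt T i L ty ∧ (InE (T.ψ i) ξ ∨ ∃ j, j ≠ i ∧ ty j ≠ 0) := by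
  obtain ⟨ty, n, d, h1, h2, h3, h4, h5, h6⟩ := S.pure (Finset.univ.erase i)
    (fun j hj => hR j (Finset.ne_of_mem_erase hj)) L (fun j hj => hL j (Finset.ne_of_mem_erase hj))
    hξ h0
  have h7 := h2 i (Finset.notMem_erase _ _)
  have hE := T.inE_of_slots S.h0 i fun j hj => h3 j (by simp [hj])
  refine ⟨ty, ?_, h6.imp (fun e : d = ξ => e ▸ hE) fun ⟨j, hj⟩ => ⟨j, fun e => hj (e ▸ h7), hj⟩⟩
  obtain ⟨Y, rfl⟩ := hE
  have hn : n i = 1 := oTy_zero.1 (h7 ▸ h1 i)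
  refine ⟨n, Y, h1, hn, ?_, h5⟩
  rw [T.pm_mul_psi, hn, one_mul]
  exact S.pm_psi_ne (fun l _ => h1 l) fun e => h4 (by rw [e, map_zero])

theorem ad_upd {ty : τ → Fin 3} {n : ∀ i, Matrix (κ i) (κ i) F} {i : τ}
    (h1 : ∀ l, l ≠ i → OTy (B l) (ty l) (n l)) (Y : Matrix (κ i) (κ i) F) :
    ad B0 (T.pm (update n i Y)) = (∏ l, if l ≠ i ∧ ty l = 2 then -1 else 1 : F) •
      T.pm (update n i (ad (B i) Y)) := by
  rw [T.ad_pm S.h0 S.h, ← T.pm_smul]
  congr 1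
  funext l
  by_cases e : l = i
  · subst e; simp
  · simp only [update_of_ne e, (S.o l).ty_ad (h1 l e), ne_eq, e, not_false_eq_true, true_and]

theorem two_decomp {i j : τ} (hij : i ≠ j) (hτ : ∀ l, l = i ∨ l = j) {m : Matrix (κ i) (κ i) F}
    (hm : OTy (B i) 1 m) {θ : Matrix ι ι F} (h : SM T i m θ) {η : F} (ha : ad B0 θ = η • θ) :
    ∃ X, θ = T.ψ i m * T.ψ j X ∧ ad (B j) X = η • X := by
  obtain ⟨d, hd, rfl⟩ := h
  obtain ⟨X, rfl⟩ := T.inE_of_slots S.h0 j (d := d) fun l hl => (hτ l).resolve_right hl ▸ hd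
  refine ⟨X, rfl, ?_⟩
  have := (S.o i).nonempty
  have e : ad (B i) m = m := by simpa using (S.o i).ty_ad hm
  rw [S.h0.ad_mul, T.ad_psi S.h0 S.h, T.ad_psi S.h0 S.h, e, T.inC_psi hij, ← mul_smul_comm,
    ← map_smul, ← sub_eq_zero, ← mul_sub, ← map_sub] at ha
  have h1 := eq_zero_of_map_mul ((S.o i).ty_ne_zero hm) (T.inC_psi hij _) ha
  by_contra H
  rw [T.psi_eq] at h1
  exact S.pm_psi_ne (ty := fun _ => 0) (fun l _ => oTy_zero.2 rfl) (sub_ne_zero.2 H) h1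

section Start

variable {i : τ} {u u' : κ i → F} (p : Hyp (B i) u u')
include p

omit S in
theorem s_ty : OTy (B i) 1 (rk (B i) u u) := oTy_one.2 ⟨u, p.ne_l, p.l, rfl⟩

theorem pot_of_J {ty : τ → Fin 3} (h : PureAt T i (JS M T i (s_ty p).sq) ty) :
    ∃ ty j, POT M T ty ∧ ty i = 1 ∧ ty j = 2 := by
  obtain ⟨n, Y, h1, h2, h3, h4, d, hd, h5⟩ := h
  have e : T.pm n * T.ψ i Y = T.pm (update n i (B i u' (Y *ᵥ u') • rk (B i) u u)) := by
    have : T.ψ i (rk (B i) u u') * (T.pm n * T.ψ i Y) * T.ψ i (rk (B i) u' u) =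
        T.pm n * T.ψ i Y := by
      rw [h5, ← mul_assoc, mul_assoc _ d, hd, ← mul_assoc, ← map_mul, ← map_mul]
      simp [p.lr, (S.o i).rl p]
    rw [← this, ← mul_assoc, ← T.inC_pm h2, mul_assoc, mul_assoc, ← map_mul, ← map_mul,
      T.pm_mul_psi, h2, one_mul, ← mul_assoc, rk_mul_mul_rk]
  rw [e] at h3 h4
  generalize B i u' (Y *ᵥ u') = a at h3 h4
  have ha : a ≠ 0 := fun e => h3 (by rw [e, T.pm_update_smul, zero_smul])
  have sm : ∀ n : ∀ i, Matrix (κ i) (κ i) F, SM T i (rk (B i) u u)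
      (T.pm (update n i (a • rk (B i) u u))) := fun n => sM_pm (update_self _ _ _)
  obtain ⟨j, hj, hj'⟩ : ∃ j, j ≠ i ∧ ty j = 2 := by
    by_contra! H
    have := h4.skew S.h0 S.le ((sm n).mul_zero (s_ty p).sq (sm n))
    rw [S.ad_upd fun l _ => h1 l, Finset.prod_eq_one fun l _ => if_neg fun e => H l e.1 e.2,
      one_smul, (S.h i).ad_smul, (S.h i).ad_rk, one_smul, eq_neg_iff_add_eq_zero,
      ← two_smul F] at this
    exact h3 ((smul_eq_zero.1 this).resolve_left (S.o i).two)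
  have h6 := oTy_two.1 (hj' ▸ h1 j)
  refine ⟨update ty i 1, j, S.pot_of (update_self _ _ _) (n := update n i (rk (B i) u u))
    (fun l => ?_) (PM.of_smul (fun c => ?_) ha), by simp, by rw [update_of_ne hj, hj']⟩
  · by_cases f : l = i
    · subst f; simpa using s_ty p
    · simpa [update_of_ne f] using h1 l
  have := (S.o j).skew_all (G := (JS M T i (s_ty p).sq).comap
    (T.pmL (update n i (a • rk (B i) u u)) j).toAddMonoidHom) (fun γ hγ X hX =>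
      (T.cj_pmL _ j γ X ▸ ⟨hX.1.cj (S.mem j γ hγ), hX.2.cj hj.symm γ⟩ :
        T.pmL _ j (cj γ X) ∈ JS M T i (s_ty p).sq)) (X := n j) (Y := c • n j) (by
      change T.pm _ ∈ JS M T i (s_ty p).sq
      rw [← update_of_ne hj (a • rk (B i) u u) n, update_eq_self]
      exact ⟨h4, sm n⟩) h6.2 h6.1 (by rw [(S.h j).ad_smul, h6.2, smul_neg])
  have h7 : InM M (T.pm (update _ j (c • n j))) := this.1
  rwa [T.pm_update_smul, ← update_of_ne hj (a • rk (B i) u u) n, update_eq_self,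
    T.pm_update_smul] at h7

theorem start_J (hR : (∀ j, j ≠ i → RfO M T j) ∨ ∃ j, i ≠ j ∧ ∀ l, l = i ∨ l = j)
    {θ : Matrix ι ι F} (h : θ ∈ JS M T i (s_ty p).sq) (h0 : θ ≠ 0) :
    ∃ ty j, POT M T ty ∧ ty i = 1 ∧ ty j = 2 := by
  rcases hR with hR | ⟨j, hij, hτ⟩
  · obtain ⟨ty, H, -⟩ := S.pure_slot i hR (JS M T i (s_ty p).sq)
      (fun j hj g hg x hx => ⟨hx.1.cj hg, hx.2.cj hj.symm g⟩) h h0
    exact S.pot_of_J p H
  obtain ⟨X, rfl, e⟩ := S.two_decomp hij hτ (s_ty p) h.2 (η := -1)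
    (by rw [h.1.skew S.h0 S.le (h.2.mul_zero (s_ty p).sq h.2), neg_one_smul])
  rw [← T.inC_psi hij, T.psi_eq j] at h h0
  refine S.pot_of_J p (ty := update (fun _ => 0) j 2) ⟨_, _, fun l => ?_, update_of_ne hij _ _, h0, h⟩
  by_cases f : l = j
  · subst f
    simpa using oTy_two.2 ⟨fun e => h0 (by rw [T.pm_zero l (by simp [e]), zero_mul]), by simp [e]⟩
  · simpa [update_of_ne f] using oTy_zero.2 rfl

theorem idem : Idem (T.ψ i (rk (B i) u u')) (T.ψ i (rk (B i) u' u)) :=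
  ⟨by rw [← map_mul]; simp [(S.o i).rl p], by rw [← map_mul]; simp [p.lr],
    by rw [← map_mul]; simp [p.r], by rw [← map_mul]; simp [p.l]⟩

theorem ad_N : ad B0 (T.ψ i (rk (B i) u' u)) = T.ψ i (rk (B i) u u') := by
  rw [T.ad_psi S.h0 S.h, (S.h i).ad_rk, one_smul]

omit S p in
theorem psi_e0 : T.ψ i (e0 (B i) 1 u u') =
    1 - T.ψ i (rk (B i) u u') - T.ψ i (rk (B i) u' u) := by
  rw [e0, one_smul, map_sub, map_sub, map_one]

theorem phi_sq {x : Matrix ι ι F} (hx : InPhi M (T.ψ i (rk (B i) u u')) (T.ψ i (rk (B i) u' u)) x)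
    (t : F) : InPhi M (T.ψ i (rk (B i) u u')) (T.ψ i (rk (B i) u' u)) (t ^ 2 • x) := by
  by_cases ht : t = 0
  · simpa [ht] using inPhi_zero
  obtain ⟨γ, hγ, e1, e2, e3⟩ := (S.h i).exists_tor (S.o i).two p (S.o i).three_le ht
  have hg := (S.h i).RootG_le hγ
  have := hx.cj (S.mem i γ hγ)
    (by rw [cj_homG, (S.h i).cj_rk hg, e1, map_smul, LinearMap.smul_apply, ← map_smul, e2])
    (by rw [cj_homG, (S.h i).cj_rk hg, e1, map_smul, ← LinearMap.smul_apply, ← map_smul, e2])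
  have e4 : (γ : Matrix _ _ F) * e0 (B i) 1 u u' = e0 (B i) 1 u u' :=
    Matrix.ext_iff_mulVec.2 fun v => by
      rw [← mulVec_mulVec, e3 _ ((S.h i).perp_e0 p v).1 ((S.h i).perp_e0 p v).2]
  rw [← hx.eq (S.idem p), cj_apply, ← map_inv, coe_homG, coe_homG, ← psi_e0, ← mul_assoc,
    ← mul_assoc, ← map_mul, e4, mul_assoc, ← map_mul, (S.h i).rk_mul, ← (S.h i).ad_iso hg,
    (S.h i).ad_ad, e1, map_smul, map_smul, mul_smul_comm, psi_e0, hx.eq (S.idem p)] at this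
  exact this

/-- The image of `M` as a subspace. -/
def Phi : Submodule F (Matrix ι ι F) where
  carrier := {x | InPhi M (T.ψ i (rk (B i) u u')) (T.ψ i (rk (B i) u' u)) x}
  add_mem' := InPhi.add
  zero_mem' := inPhi_zero
  smul_mem' c x hx := by
    obtain ⟨a, b, rfl⟩ := Aut.exists_sq_add_sq c
    rw [add_smul]
    exact (S.phi_sq p hx a).add (S.phi_sq p hx b)

theorem phi_inv {j : τ} (hj : j ≠ i) (g : GL (κ j) F) (hg : homG (T.ψ j) g ∈ M)
    (x : Matrix ι ι F) (hx : x ∈ S.Phi p) : cj (homG (T.ψ j) g) x ∈ S.Phi p :=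
  InPhi.cj hx hg (cj_homG_inC g (T.inC_psi hj _)) (cj_homG_inC g (T.inC_psi hj _))

omit S p in
theorem sand (Y : Matrix (κ i) (κ i) F) :
    (1 - T.ψ i (rk (B i) u u') - T.ψ i (rk (B i) u' u)) * T.ψ i Y * T.ψ i (rk (B i) u' u) =
      T.ψ i (rk (B i) (e0 (B i) 1 u u' *ᵥ (Y *ᵥ u')) u) := by
  rw [← psi_e0, ← map_mul, ← map_mul, mul_rk, mulVec_mulVec]

theorem root_rad {y : κ i → F} (h1 : B i u y = 0) (h2 : B i u' y = 0) :
    ∃ n, T.ψ i (xo (B i) u y) = 1 + n ∧ RadE (T.ψ i (rk (B i) u u')) (T.ψ i (rk (B i) u' u)) n ∧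
      (1 - T.ψ i (rk (B i) u u') - T.ψ i (rk (B i) u' u)) * n * T.ψ i (rk (B i) u' u) =
        T.ψ i (rk (B i) y u) := by
  have o := S.o i
  refine ⟨T.ψ i (NN (B i) 1 u y + (-(B i y y / 2)) • rk (B i) u u), by
    rw [o.h.coe_xo o.two p.l h1, add_assoc, map_add, map_one], ⟨?_, ?_, ?_⟩, ?_⟩
  · rw [← map_mul, add_mul, o.h.NN_mul_s p.l h1]; simp [p.l]
  · rw [← map_mul, mul_add, HForm.s_mul_NN p.l h1]; simp [p.l]
  · rw [← psi_e0, ← map_mul, ← map_mul, e0]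
    simp [NN_apply, mul_sub, mul_add, sub_mul, p.l, p.lr, o.rl p, h1, h2]
  · rw [sand, add_mulVec, smul_mulVec]
    simp [o.NN_mulVec, e0_mulVec, p.lr, p.l, o.rl p, h1, h2, o.symm y u']

theorem rk_mem {y : κ i → F} (h1 : B i u y = 0) (h2 : B i u' y = 0) :
    T.ψ i (rk (B i) y u) ∈ S.Phi p := by
  obtain ⟨n, e, r, e'⟩ := S.root_rad p h1 h2
  exact ⟨n, ⟨_, S.mem i _ (xr_mem _ _ _), e⟩, r, e'.symm⟩

variable (hJ : ∀ θ ∈ JS M T i (s_ty p).sq, θ = 0)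
include hJ

theorem delta_eq {x y : Matrix ι ι F} (hx : x ∈ S.Phi p) (hy : y ∈ S.Phi p) :
    ad B0 y * x = ad B0 x * y := by
  have key : ∀ x ∈ S.Phi p, ∀ y ∈ S.Phi p, SM T i (rk (B i) u u) (ad B0 y * x) := fun x hx y hy => by
    rw [← InPhi.eq (S.idem p) hx, ← InPhi.eq (S.idem p) hy, S.h0.ad_mul, S.ad_N p, ← mul_assoc,
      mul_assoc (T.ψ i _), sandw]
    exact ⟨_, inC_ddc _ _ _, rfl⟩
  refine sub_eq_zero.1 (hJ _ ⟨InPhi.delta S.h0 S.le (S.idem p) (S.ad_N p) hx hy, ?_⟩)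
  simpa [sub_eq_add_neg] using (key x hx y hy).add ((key y hy x hx).smul (-1))

theorem not_pure {ty : τ → Fin 3} (h : PureAt T i (S.Phi p).toAddSubgroup ty) {j : τ} (hj : j ≠ i)
    (hj' : ty j ≠ 0) : False := by
  have o := S.o i
  obtain ⟨n, Y, h1, h2, h3, h4⟩ := h
  obtain ⟨y, y1, y2, y3, h5⟩ : ∃ y, B i u y = 0 ∧ B i u' y = 0 ∧ B i y y ≠ 0 ∧
      T.pm (update n i (rk (B i) y u)) ∈ S.Phi p := by
    have e := InPhi.eq (S.idem p) h4
    rw [← mul_assoc, ← psi_e0, ← T.inC_pm h2, psi_e0, mul_assoc (T.pm n), mul_assoc (T.pm n), sand,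
      T.pm_mul_psi, h2, one_mul] at e
    rw [← e] at h3 h4
    obtain ⟨y1, y2⟩ := o.h.perp_e0 p (Y *ᵥ u')
    generalize e0 (B i) 1 u u' *ᵥ (Y *ᵥ u') = y at h3 h4 y1 y2
    by_cases y3 : B i y y = 0
    swap
    · exact ⟨y, y1, y2, y3, h4⟩
    have y0 : y ≠ 0 := fun e => h3 (T.pm_zero i (by simp [e]))
    have hk := o.wi1_or.resolve_left fun w => HForm.WI1.aniso o.h w p y1 y2 y0 y3
    obtain ⟨a, a1, a2, a3, a4⟩ : ∃ a, B i u a = 0 ∧ B i u' a = 0 ∧ B i a a = 0 ∧ B i a y ≠ 0 := by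
      obtain ⟨a, a1, a2, a3⟩ := o.exists_sing_ne hk p (o.notMem_span p y2 y0)
      exact ⟨a - B i u' a • u, by simp [a1, p.l], by simp [o.rl p], by
        simp [a1, a2, p.l, o.symm a u], by simpa [y1] using a3⟩
    obtain ⟨z, z0, z1, z2, z3⟩ := o.h.exists_ns_sing o.two p hk a3 a1 a2
    have e := o.h.xo_mulVec o.two a3 z3
    have hg := o.h.xr_iso a z (-(B i z z / 2))
    have e1 : (xo (B i) a z : Matrix _ _ F) *ᵥ u = u := by simp [e, o.symm a u, o.symm z u, a1, z1]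
    have e2 : (xo (B i) a z : Matrix _ _ F) *ᵥ u' = u' := by
      simp [e, o.symm a u', o.symm z u', a2, z2]
    have := (S.Phi p).sub_mem (InPhi.cj h4 (S.mem i (xo (B i) a z) (xr_mem _ _ _))
      (by rw [cj_homG, o.h.cj_rk hg, e1, e2]) (by rw [cj_homG, o.h.cj_rk hg, e1, e2])) h4
    rw [T.cj_pm, update_idem, update_self, o.h.cj_rk hg, e1, ← T.pm_update_sub,
      ← LinearMap.sub_apply, ← map_sub] at this
    refine ⟨_, ?_, ?_, ?_, this⟩ <;> rw [e, add_sub_assoc, add_sub_cancel_left] <;>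
      simp [a1, a2, a3, a4, z0, z1, z2, z3, o.symm z a]
  choose m m' x k1 k2 k3 k4 using fun l => (S.o l).slot_opp (ty l)
  have all : ∀ m : ∀ l, Matrix (κ l) (κ l) F, (∀ l, OTy (B l) (ty l) (m l)) →
      T.pm (update m i (rk (B i) y u)) ∈ S.Phi p := fun m hm => by
    have := S.all_of (S.Phi p) (Finset.univ.erase i) (fun l hl γ hγ =>
      S.phi_inv p (Finset.ne_of_mem_erase hl) γ (S.mem l γ hγ)) (ty := ty)
      (n' := update m i (rk (B i) y u))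
      (fun l hl => by rw [update_of_ne (Finset.ne_of_mem_erase hl)]; exact h1 l)
      (fun l hl => by rw [update_of_ne (Finset.ne_of_mem_erase hl)]; exact hm l) h5
    rwa [piecewise_erase _ _ (by rw [update_self, update_self])] at this
  have e := S.delta_eq p hJ (all m k1) (all m' k2)
  rw [S.ad_upd fun l _ => k1 l, S.ad_upd fun l _ => k2 l, smul_mul_assoc, smul_mul_assoc,
    smul_right_inj (Finset.prod_ne_zero_iff.2 fun l _ => by split_ifs <;> simp), T.pm_mul,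
    T.pm_mul] at e
  have e' := congrArg (· *ᵥ T.pv (update x i u')) e
  simp only [T.pm_pv] at e'
  rw [T.pv.map_coord_zero (m := fun l => (update m i _ l * update m' i _ l) *ᵥ _) j
    (by simp only [update_of_ne hj, k4 j hj'])] at e'
  refine T.pv_ne_zero S.h (fun l => ?_) e'
  by_cases f : l = i
  · subst f
    simpa [o.h.ad_rk, smul_mulVec, p.lr, y3] using p.ne_l
  · simpa only [update_of_ne f] using k3 l

theorem two_pure {j : τ} (hij : i ≠ j) (hτ : ∀ l, l = i ∨ l = j) {φ : Matrix ι ι F}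
    (hφ : φ ∈ S.Phi p) : InE (T.ψ i) φ := by
  have o := S.o i
  have hE : ∀ d, InC (T.ψ j) d → InE (T.ψ i) d := fun d hd =>
    T.inE_of_slots S.h0 i fun l hl => (hτ l).resolve_left hl ▸ hd
  rcases (S.o j).pur0 (ψ := T.ψ j) (L := (S.Phi p).toAddSubgroup)
    (fun γ hγ => S.phi_inv p hij.symm γ (S.mem j γ hγ)) hφ with ⟨v, c, h0, hv, h1, h2, h3⟩ | H
  · obtain ⟨Y, rfl⟩ := hE c h1
    refine (S.not_pure p hJ (ty := update (fun _ => 0) j 1) (j := j) ⟨update (fun _ => 1) j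
      (rk (B j) v v), Y, fun l => ?_, update_of_ne hij _ _, fun e => h2 ?_, T.psi_eq j _ ▸ h3⟩
      hij.symm (by simp)).elim
    · by_cases f : l = j
      · subst f; simpa using oTy_one.2 ⟨v, h0, hv, rfl⟩
      · simpa [update_of_ne f] using oTy_zero.2 rfl
    · exact eq_zero_of_map_mul ((S.h j).rk_ne_zero h0 h0) h1 (T.psi_eq j _ ▸ e)
  have key : ∀ y, B i u y = 0 → B i u' y = 0 → InC (T.ψ j) (T.ψ i (rk (B i) u y) * φ) :=
    fun y h1 h2 => by
      have e := S.delta_eq p hJ hφ (S.rk_mem p h1 h2)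
      rw [T.ad_psi S.h0 S.h, o.h.ad_rk, one_smul] at e
      obtain ⟨X, e1, e2⟩ := S.two_decomp hij hτ (s_ty p) (θ := T.ψ i (rk (B i) u y) * φ) (η := 1) (by
        rw [← InPhi.eq (S.idem p) hφ, ← mul_assoc, sandw]
        exact ⟨_, inC_ddc _ _ _, rfl⟩)
        (by rw [S.h0.ad_mul, T.ad_psi S.h0 S.h, o.h.ad_rk, one_smul, one_smul, e])
      refine inC_of_pj fun l => IsSc.of_smul ?_ o.two
      have := H (l ∘ₗ LinearMap.mulLeft F (T.ψ i (rk (B i) u y)))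
      rw [← pj_inC_mul l (T.inC_psi hij.symm _)] at this
      rw [e1, pj_inC_mul_map l _ (T.inC_psi hij.symm _)] at this ⊢
      rwa [(S.h j).ad_smul, e2, one_smul, ← two_smul F] at this
  refine hE φ ?_
  have := o.h.rk_induction (p := fun X => InC (T.ψ j) (T.ψ i (X * e0 (B i) 1 u u') * φ))
    (by simpa using inC_zero) (fun X Y hX hY => by
      simpa only [add_mul, map_add] using hX.add hY) (fun a b => by
      have := (T.inC_psi hij.symm (rk (B i) a u')).mul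
        (key _ (o.h.perp_e0 p b).1 (o.h.perp_e0 p b).2)
      rwa [← mul_assoc, ← map_mul, rk_mul_rk, o.rl p, one_smul, ← o.h.ad_e0, ← o.h.rk_mul] at this) 1
  rwa [one_mul, psi_e0, ← InPhi.eq (S.idem p) hφ, ← mul_assoc, ← mul_assoc, (S.idem p).ee,
    InPhi.eq (S.idem p) hφ] at this

theorem inE_of_J (hR : (∀ j, j ≠ i → RfO M T j) ∨ ∃ j, i ≠ j ∧ ∀ l, l = i ∨ l = j) {b : GL ι F}
    (hb : b ∈ M) (hQ : InQ (T.ψ i (rk (B i) u u)) ((b : Matrix ι ι F) - 1)) :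
    InE (T.ψ i) (b : Matrix ι ι F) := by
  have o := S.o i
  have I := S.idem p
  have hA : ∀ φ ∈ S.Phi p, InE (T.ψ i) φ := fun φ hφ => by
    rcases hR with hR | ⟨j, hij, hτ⟩
    · by_contra hE
      obtain ⟨ty, H, h⟩ := S.pure_slot i hR (S.Phi p).toAddSubgroup (fun j hj => S.phi_inv p hj) hφ
        fun e => hE (e ▸ isSc_zero.inE)
      obtain ⟨j, hj, hj'⟩ := h.resolve_left hE
      exact S.not_pure p hJ H hj hj'
    · exact S.two_pure p hJ hij hτ hφ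
  have r0 : RadE (T.ψ i (rk (B i) u u')) (T.ψ i (rk (B i) u' u)) ((b : Matrix ι ι F) - 1) := by
    have I3 := (o.h.id3 p).map (T.ψ i)
    rw [one_smul, psi_e0] at I3
    exact ⟨I3.inQ_p hQ, I3.inQ_m hQ, I3.inQ_z hQ⟩
  have b0 : InM M ((b : Matrix ι ι F) - 1) := ⟨b, hb, by abel⟩
  have hφ : _ ∈ S.Phi p := ⟨_, b0, r0, rfl⟩
  obtain ⟨Y, hY⟩ := hA _ hφ
  have e := InPhi.eq I hφ
  rw [← hY, sand, hY] at e
  obtain ⟨y1, y2⟩ := o.h.perp_e0 p (Y *ᵥ u')
  generalize e0 (B i) 1 u u' *ᵥ (Y *ᵥ u') = y at e y1 y2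
  obtain ⟨n, e1, r1, e2⟩ := S.root_rad p (y := -y) (by simp [y1]) (by simp [y2])
  have m2 := b0.mul ⟨_, S.mem i _ (xr_mem _ _ _), e1⟩
  have r2 := r0.mul r1
  have e3 := r2.mul_mid S.h0 S.le (S.ad_N p) m2
  have d := r2.decomp
  have e4 : (1 - T.ψ i (rk (B i) u u') - T.ψ i (rk (B i) u' u)) * ((b : Matrix ι ι F) - 1 + n +
      ((b : Matrix ι ι F) - 1) * n) * T.ψ i (rk (B i) u' u) = 0 := by
    rw [mul_add, mul_add, r0.zero_mul r1, add_zero, add_mul, ← e, e2, ← map_add]; simp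
  rw [e4, S.h0.ad_zero, neg_zero] at e3
  rw [e4, mul_assoc, e3, mul_zero, zero_add, zero_add, sandw] at d
  have e5 := hJ _ ⟨m2, _, inC_ddc _ _ _, d⟩
  refine ⟨(xo (B i) u (-y))⁻¹.1, ?_⟩
  rw [← coe_homG, map_inv, Units.inv_eq_of_mul_eq_one_left]
  rw [coe_homG, e1, ← sub_eq_zero, ← e5]
  noncomm_ring

end Start

theorem start_of_not_HB {i : τ}
    (hR : (∀ j, j ≠ i → RfO M T j) ∨ ∃ j, i ≠ j ∧ ∀ l, l = i ∨ l = j)
    (hB : ¬ HB (B i) (T.ψ i) M) : ∃ ty j, POT M T ty ∧ ty i = 1 ∧ ty j = 2 := by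
  unfold HB at hB
  push Not at hB
  obtain ⟨u, h1, h2, b, hb, h3, h4⟩ := hB
  obtain ⟨u', p⟩ := (S.o i).exists_hyp h1 h2
  by_contra H
  exact h4 (S.inE_of_J p (fun θ h => by_contra fun e => H (S.start_J p hR h e)) hR hb h3)

end TO

end Cfsg.Agent.Cl.Max
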