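import Mathlib
import Cfsg.Agent.Cl.TnRk
import Cfsg.Agent.Cl.MaxAschF
import Cfsg.Agent.Cl.MaxOBasic
import Cfsg.Agent.Cl.TnOD

/-!
# Tensor decompositions with orthogonal factors: overgroups with a large unipotent radical
-/

set_option autoImplicit false

namespace Cfsg.Agent.Cl.Max

open Matrix Cfsg.Geo Module QuadraticMap

variable {F : Type*} [Field F] [Fintype F] {ι : Type} [Fintype ι] [DecidableEq ι]

theorem one_prodO (h2 : (2 : F) ≠ 0) (Q : QuadraticForm F (ι → F))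
    (hQ : (polarBilin Q).Nondegenerate) {a b : ℕ} (e : ι ≃ Fin a × Fin b) (P : GL ι F)
    {B₁ : LinearMap.BilinForm F (Fin a → F)} {B₂ : LinearMap.BilinForm F (Fin b → F)}
    (h₁ : BF B₁ 1) (h₂ : BF B₂ 1) (o₁ : OkO B₁) (o₂ : OkO B₂)
    (hT : TStr (RingHom.id F) (polar Q)
      (tForm (RingHom.id F) (fun x y => B₁ x y) fun x y => B₂ x y) e P)
    {M : Subgroup (GL ι F)} (hM : tensorProductSubgroup a b e P ⊓ omegaGL Q ≤ M)
    (hMΩ : M ≤ omegaGL Q) (hB : ¬ HB B₁ (psiL e P) M) : omegaGL Q ≤ M := by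
  obtain ⟨T, t1, t2, -⟩ := exists_tf_prod (B0 := polarBilin Q) h₁ h₂ hT
  have o : ∀ i, OB (bFam B₁ B₂ i) := fun i => by cases i; exacts [⟨h₂, h2, o₂⟩, ⟨h₁, h2, o₁⟩]
  have hc : Fintype.card ι = a * b := by simpa using Fintype.card_congr e
  have ha : 3 ≤ a := by simpa using (o true).three_le
  have hb : 3 ≤ b := by simpa using (o false).three_le
  have S : TO M T := ⟨bf_polarQ hQ, o, hMΩ.trans ((omegaGL_le _).trans (isometryGroup_le_isoG _)),
    fun i g hg => hM ⟨by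
      cases i
      · rw [t2]; exact homG_psiR_mem e P g
      · rw [t1]; exact homG_psiL_mem e P g, homG_root_mem_omegaGL h2 hQ (o i).h
        (T.ad_psi (bf_polarQ hQ) (fun i => (o i).h) i) hg⟩⟩
  obtain ⟨ty, j, p, h3, h4⟩ := S.start_of_not_HB (i := true) (.inr ⟨false, by decide, by decide⟩)
    (t1 ▸ hB)
  exact S.omega_le hQ (by nlinarith) (S.reach p h3 h4 (.inr fun l => by
    cases l <;> cases j <;> simp_all))

theorem one_wreathO (h2 : (2 : F) ≠ 0) (Q : QuadraticForm F (ι → F))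
    (hQ : (polarBilin Q).Nondegenerate) {k t : ℕ} (ht : 2 ≤ t) (e : ι ≃ (Fin t → Fin k))
    (P : GL ι F) {B₁ : LinearMap.BilinForm F (Fin k → F)} (h₁ : BF B₁ 1) (o₁ : OkO B₁)
    (hT : TStr (RingHom.id F) (polar Q) (pForm (RingHom.id F) (Fin t) fun x y => B₁ x y) e P)
    {M : Subgroup (GL ι F)} (hM : tensorWreathSubgroup k t e P ⊓ omegaGL Q ≤ M)
    (hMΩ : M ≤ omegaGL Q) (i : Fin t) (hB : ¬ HB B₁ (psiS e P i) M) : omegaGL Q ≤ M := by
  obtain ⟨T, t1, -, t3⟩ := exists_tf_wreath (B0 := polarBilin Q) h₁ hT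
  have o : OB B₁ := ⟨h₁, h2, o₁⟩
  have hc : Fintype.card ι = k ^ t := by simpa using Fintype.card_congr e
  have hk : 3 ≤ k := by simpa using o.three_le
  have : Nontrivial (Fin t) := Fin.nontrivial_iff_two_le.2 ht
  have S : TO M T := ⟨bf_polarQ hQ, fun _ => o,
    hMΩ.trans ((omegaGL_le _).trans (isometryGroup_le_isoG _)), fun i g hg =>
      hM ⟨by rw [t1]; exact homG_psiS_mem_wreath e P i g, homG_root_mem_omegaGL h2 hQ h₁
        (T.ad_psi (bf_polarQ hQ) (fun _ => h₁) i) hg⟩⟩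
  have hP : PermO M T := fun π hπ ty p n hn => by
    have := (p (fun l => n (π.symm l)) fun l => by simpa using hn (π.symm l)).cj
      (hM ⟨permS_mem_wreath e P π⁻¹, permS_mem_omegaGL (hT.permS_mem_isometry h2)
        (by simpa using hπ)⟩)
    rw [t3, permS_apply, cj_trG, cj_permG_pureT, ← t3] at this
    simpa [Equiv.Perm.inv_def] using this
  obtain ⟨ty, j, p, h3, h4⟩ := S.start_of_not_HB (i := i) (by
    by_cases h : 3 ≤ t
    · exact .inl fun j _ h4 y => hM ⟨by rw [t1]; exact homG_psiS_mem_wreath e P j _, by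
        rw [t1]; exact psiS_rf_mem hQ h2 h₁ hT (by simpa using h) (h4 ▸ by decide) j y⟩
    · obtain ⟨j, hj⟩ := exists_ne i
      exact .inr ⟨j, hj.symm, fun l => by omega⟩) (t1 i ▸ hB)
  exact S.omega_le hQ (hc ▸ le_trans (by nlinarith) (Nat.pow_le_pow_right (by omega) ht))
    (S.reach p h3 h4 (.inl hP))

end Cfsg.Agent.Cl.Max
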