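import Mathlib
import Cfsg.Agent.Cl.TnFinSp
import Cfsg.Agent.Cl.TnO3
import Cfsg.Agent.Cl.TnOneO

/-!
# Maximality of the stabilisers of tensor products with orthogonal factors
-/

set_option autoImplicit false
set_option linter.unusedSectionVars false
set_option linter.unusedVariables false

namespace Cfsg.Agent.Cl.Max

open Matrix Cfsg.Geo Module QuadraticMap

variable {F : Type*} [Field F] [Fintype F] {ι : Type} [Fintype ι] [DecidableEq ι]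
  {κ : Type} [Fintype κ] [DecidableEq κ] {Q : QuadraticForm F (ι → F)}

theorem okO_of (hodd : Odd (Fintype.card F)) {k : ℕ} {B : LinearMap.BilinForm F (Fin k → F)}
    (h : BF B 1) (o : (k = 3 ∧ Fintype.card F ≠ 3) ∨
      (k = 4 ∧ ¬ IsPlusTypeOn (fun v => B v v) ⊤) ∨ 5 ≤ k) : OkO B := by
  rcases o with ⟨h1, h2⟩ | ⟨h1, h2⟩ | h1
  · obtain ⟨c, hc⟩ := id hodd
    have := three_le_of_odd hodd
    exact Or.inl ⟨by simpa using h1, by rw [Nat.card_eq_fintype_card]; omega⟩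
  · refine Or.inr (Or.inl ⟨by simpa using h1, fun u v hu0 hu hv huv => ?_⟩)
    by_contra hn
    push Not at hn
    have hli : LinearIndependent F ![u, v] :=
      (LinearIndependent.pair_iff' hu0).2 fun c e => hn c e.symm
    refine h2 ⟨Submodule.span F (Set.range ![u, v]), le_top, fun w hw => ?_, by
      rw [finrank_span_eq_card hli]; simp [h1]⟩
    obtain ⟨c, rfl⟩ := (Submodule.mem_span_range_iff_exists_fun F).1 hw
    simp [hu, hv, huv, h.zero_symm huv]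
  · exact Or.inr (Or.inr (by simpa using h1))

theorem amb_omega_o (h2 : (2 : F) ≠ 0) (hQ : (polarBilin Q).Nondegenerate)
    {B : LinearMap.BilinForm F (κ → F)} (h : BF B 1) {ψ : Matrix κ κ F →ₐ[F] Matrix ι ι F}
    (hψ : ∀ X, adj (RingHom.id F) (polar Q) (ψ X) = ψ (ad B X)) {H M : Subgroup (GL ι F)}
    (hH : ∀ a, homG ψ a ∈ H) (hM : H ⊓ omegaGL Q ≤ M) (hMΩ : M ≤ omegaGL Q) :
    Amb B 1 (polarBilin Q) 1 ψ M :=
  ⟨h, bf_polarQ hQ, hq_o h2, hψ, hMΩ.trans ((omegaGL_le _).trans (isometryGroup_le_isoG _)),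
    fun γ hγ => hM ⟨hH γ, homG_root_mem_omegaGL h2 hQ h hψ hγ⟩⟩

theorem isMax_prodO_lt (hodd : Odd (Fintype.card F)) (hQ : (polarBilin Q).Nondegenerate) {a b : ℕ}
    (hab : b < a) {e : ι ≃ Fin a × Fin b} {P : GL ι F} {f₁ : (Fin a → F) → (Fin a → F) → F}
    {f₂ : (Fin b → F) → (Fin b → F) → F} (h₁ : IsSymmetricForm f₁) (h₂ : IsSymmetricForm f₂)
    (o₁ : (a = 3 ∧ Fintype.card F ≠ 3) ∨ (a = 4 ∧ ¬ IsPlusTypeOn (fun v => f₁ v v) ⊤) ∨ 5 ≤ a)
    (o₂ : (b = 3 ∧ Fintype.card F ≠ 3) ∨ (b = 4 ∧ ¬ IsPlusTypeOn (fun v => f₂ v v) ⊤) ∨ 5 ≤ b)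
    (hT : TStr (RingHom.id F) (polar Q) (tForm (RingHom.id F) f₁ f₂) e P) :
    IsMaximalIn (omegaGL Q) (tensorProductSubgroup a b e P ⊓ omegaGL Q) := by
  have h2 := two_ne_zero_of_odd hodd
  have hb : 3 ≤ b := by omega
  have hc : Fintype.card ι = a * b := by simpa using Fintype.card_congr e
  have h5 : 5 ≤ Fintype.card ι := by nlinarith
  have : Nonempty ι := Fintype.card_pos_iff.1 (by omega)
  have g₁ := hform_of_symmetric h₁
  have g₂ := hform_of_symmetric h₂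
  obtain ⟨B₁, rfl⟩ := g₁.exists_bilin
  obtain ⟨B₂, rfl⟩ := g₂.exists_bilin
  have k₁ := okO_of hodd g₁ o₁
  refine isMaximalIn_inf (Mx.o_not_le_tensor hQ h5 h2 (by omega) (by omega) h₁ h₂ hT)
    fun M h1 h2' h3 => ?_
  have hb : HB B₁ (psiL e P) M := by
    by_contra hb
    exact h3 (one_prodO h2 Q hQ e P g₁ g₂ k₁ (okO_of hodd g₂ o₂) hT h1 h2' hb)
  have := three_le_of_odd hodd
  exact le_prod_of_good hab fun g hg => Amb.good_o (amb_omega_o h2 hQ g₁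
    (hT.adj_psiL (hform_polarQ hQ) g₁ g₂) (homG_psiL_mem e P) h1 h2') h2 hb k₁
    (by simp; omega) (by simp; omega) hg

theorem isMax_prodO (hodd : Odd (Fintype.card F)) (hQ : (polarBilin Q).Nondegenerate) {a b : ℕ}
    (hab : a ≠ b) {e : ι ≃ Fin a × Fin b} {P : GL ι F} {f₁ : (Fin a → F) → (Fin a → F) → F}
    {f₂ : (Fin b → F) → (Fin b → F) → F} (h₁ : IsSymmetricForm f₁) (h₂ : IsSymmetricForm f₂)
    (o₁ : (a = 3 ∧ Fintype.card F ≠ 3) ∨ (a = 4 ∧ ¬ IsPlusTypeOn (fun v => f₁ v v) ⊤) ∨ 5 ≤ a)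
    (o₂ : (b = 3 ∧ Fintype.card F ≠ 3) ∨ (b = 4 ∧ ¬ IsPlusTypeOn (fun v => f₂ v v) ⊤) ∨ 5 ≤ b)
    (hT : IsTensorFormStructure id (polar ⇑Q) f₁ f₂ e P) :
    IsMaximalIn (omegaGL Q) (tensorProductSubgroup a b e P ⊓ omegaGL Q) := by
  rcases hab.lt_or_gt with h | h
  · rw [← tensorProductSubgroup_swap]
    exact isMax_prodO_lt hodd hQ h h₂ h₁ o₂ o₁ (Mx.tStr_of_tensor rfl hT).swap
  · exact isMax_prodO_lt hodd hQ h h₁ h₂ o₁ o₂ (Mx.tStr_of_tensor rfl hT)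

end Cfsg.Agent.Cl.Max
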