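import Mathlib
import Cfsg.Agent.Cl.TnO3

/-!
# Orthogonal slots over small prime fields: the normaliser of the square of a singular vector
-/

set_option autoImplicit false
set_option linter.unusedSectionVars false
set_option linter.unusedVariables false

namespace Cfsg.Agent.Cl.Max

open Matrix Cfsg.Geo Module

variable {F : Type*} [Field F] {κ : Type} [Fintype κ] [DecidableEq κ]
  {ι : Type} [Fintype ι] [DecidableEq ι] {τ : Type} [Fintype τ] [DecidableEq τ]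
  {B : LinearMap.BilinForm F (κ → F)} {ε : F} {BV : LinearMap.BilinForm F (ι → F)} {εV : F}
  {ψ : Matrix κ κ F →ₐ[F] Matrix ι ι F} {M : Subgroup (GL ι F)} {u u' : κ → F}

variable (ψ M) in
/-- The leading terms of the elements of `M` congruent to `1` modulo `ζ ^ (j + 1)`. -/
def Lay (ζ : Matrix ι ι F) (j : ℕ) (X : Matrix κ κ F) : Prop :=
  ∃ g ∈ M, ∃ r, Commute ζ r ∧ (g : Matrix ι ι F) = 1 + ζ ^ (j + 1) * (ψ X + ζ * r)

section Lay

variable {ζ : Matrix ι ι F} {i j : ℕ} {X Y : Matrix κ κ F}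

theorem lay_zero : Lay ψ M ζ j 0 := ⟨1, one_mem _, 0, Commute.zero_right _, by simp⟩

theorem comm_lead (hζ : InC ψ ζ) {r : Matrix ι ι F} (hr : Commute ζ r) (X : Matrix κ κ F) :
    Commute ζ (ψ X + ζ * r) := Commute.add_right (hζ X) ((Commute.refl ζ).mul_right hr)

theorem Lay.add (hζ : InC ψ ζ) (h : Lay ψ M ζ j X) (h' : Lay ψ M ζ j Y) : Lay ψ M ζ j (X + Y) := by
  obtain ⟨g, hg, r, hr, e⟩ := h
  obtain ⟨g', hg', r', hr', e'⟩ := h'
  have c := comm_lead hζ hr X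
  have c' := comm_lead hζ hr' Y
  refine ⟨g * g', mul_mem hg hg', r + r' + ζ ^ j * ((ψ X + ζ * r) * (ψ Y + ζ * r')),
    (hr.add_right hr').add_right (((Commute.refl ζ).pow_right j).mul_right (c.mul_right c')), ?_⟩
  have e1 : (ψ X + ζ * r) * (ζ ^ (j + 1) * (ψ Y + ζ * r')) =
      ζ * (ζ ^ j * ((ψ X + ζ * r) * (ψ Y + ζ * r'))) := by
    rw [← mul_assoc, ← (c.pow_left (j + 1)).eq, pow_succ', mul_assoc, mul_assoc]
  rw [Units.val_mul, e, e', add_mul, mul_add (ζ ^ (j + 1) * _), mul_assoc _ _ (ζ ^ (j + 1) * _), e1,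
    map_add]
  noncomm_ring

theorem Lay.smul (hF : ∀ c : F, ∃ n : ℕ, c = n) (hζ : InC ψ ζ) (h : Lay ψ M ζ j X) (c : F) :
    Lay ψ M ζ j (c • X) := by
  obtain ⟨n, rfl⟩ := hF c
  induction n with
  | zero => simpa using lay_zero
  | succ n ih => rw [Nat.cast_succ, add_smul, one_smul]; exact ih.add hζ h

theorem Lay.cj (hζ : InC ψ ζ) (h : Lay ψ M ζ j X) {γ : GL κ F} (hγ : homG ψ γ ∈ M) :
    Lay ψ M ζ j (cj γ X) := by
  obtain ⟨g, hg, r, hr, e⟩ := h
  have e1 := cj_homG_inC γ hζ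
  refine ⟨homG ψ γ * g * (homG ψ γ)⁻¹, mul_mem (mul_mem hγ hg) (inv_mem hγ), Max.cj (homG ψ γ) r,
    by rw [← e1]; exact hr.map _, ?_⟩
  rw [← cj_coe, e, map_add, map_one, map_mul, map_add, map_mul, map_pow, e1, cj_homG]

theorem Lay.lie (hζ : InC ψ ζ) (h : Lay ψ M ζ i X) (h' : Lay ψ M ζ j Y) :
    Lay ψ M ζ (i + j + 1) (X * Y - Y * X) := by
  obtain ⟨g, hg, r, hr, e⟩ := h
  obtain ⟨g', hg', r', hr', e'⟩ := h'
  have c := comm_lead hζ hr X
  have c' := comm_lead hζ hr' Y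
  have z := Commute.refl ζ
  generalize hA : ψ X + ζ * r = A at c e
  generalize hB : ψ Y + ζ * r' = A' at c' e'
  have e1 : (g : Matrix ι ι F) * g' - g' * g = ζ ^ (i + j + 1 + 1) * (A * A' - A' * A) := by
    have k : ∀ {m n : ℕ} {P Q : Matrix ι ι F}, Commute ζ P →
        ζ ^ m * P * (ζ ^ n * Q) = ζ ^ (m + n) * (P * Q) := fun {m n P Q} hP => by
      rw [mul_assoc, ← mul_assoc P, ← (hP.pow_left n).eq, pow_add, mul_assoc, mul_assoc]
    rw [e, e', add_mul, add_mul, mul_add (_ * A), mul_add (_ * A'), k c, k c',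
      show i + 1 + (j + 1) = i + j + 1 + 1 by ring, show j + 1 + (i + 1) = i + j + 1 + 1 by ring]
    noncomm_ring
  have c1 : Commute ζ ((g' * g : GL ι F) : Matrix ι ι F) := by
    rw [Units.val_mul, e, e']
    exact ((Commute.one_right _).add_right ((z.pow_right _).mul_right c')).mul_right
      ((Commute.one_right _).add_right ((z.pow_right _).mul_right c))
  obtain ⟨m, hm, e2⟩ : ∃ m, Commute ζ m ∧ ((g' * g : GL ι F) : Matrix ι ι F) = 1 + ζ * m :=
    ⟨ζ ^ j * A' * g + ζ ^ i * A, ((((z.pow_right _).mul_right c').mul_right (by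
      rw [e]; exact (Commute.one_right _).add_right ((z.pow_right _).mul_right c))).add_right
      ((z.pow_right _).mul_right c)), by
        rw [Units.val_mul, e', add_mul, one_mul, pow_succ']
        conv_lhs => lhs; rw [e, pow_succ']
        noncomm_ring⟩
  have e3 : (((g' * g)⁻¹ : GL ι F) : Matrix ι ι F) = 1 - ζ * (m * ((g' * g)⁻¹ : GL ι F)) := by
    rw [eq_sub_iff_add_eq, ← mul_assoc, ← (g' * g).mul_inv, e2, add_mul, one_mul]
  have c2 := c1.units_inv_right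
  obtain ⟨w, hw, e4⟩ : ∃ w, Commute ζ w ∧ A * A' - A' * A = ψ (X * Y - Y * X) + ζ * w :=
    ⟨r * A' + ψ X * r' - (r' * A + ψ Y * r),
      ((hr.mul_right c').add_right (Commute.mul_right (hζ X) hr')).sub_right
        ((hr'.mul_right c).add_right (Commute.mul_right (hζ Y) hr)), by
      have a1 : ψ X * A' = ψ X * ψ Y + ζ * (ψ X * r') := by
        rw [← hB, mul_add, ← mul_assoc, ← hζ, mul_assoc]
      have a2 : ψ Y * A = ψ Y * ψ X + ζ * (ψ Y * r) := by
        rw [← hA, mul_add, ← mul_assoc, ← hζ, mul_assoc]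
      conv_lhs => lhs; lhs; rw [← hA]
      conv_lhs => rhs; lhs; rw [← hB]
      rw [add_mul, add_mul, a1, a2, map_sub, map_mul, map_mul]
      noncomm_ring⟩
  refine ⟨g * g' * (g' * g)⁻¹, mul_mem (mul_mem hg hg') (inv_mem (mul_mem hg' hg)),
    w - (A * A' - A' * A) * (m * ((g' * g)⁻¹ : GL ι F)), hw.sub_right
      (((c.mul_right c').sub_right (c'.mul_right c)).mul_right (hm.mul_right c2)), ?_⟩
  have e5 : (g : Matrix ι ι F) * g' = (g' * g : GL ι F) + ζ ^ (i + j + 1 + 1) * (A * A' - A' * A) := by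
    rw [← e1, Units.val_mul]; abel
  rw [Units.val_mul, Units.val_mul, e5, add_mul, Units.mul_inv, mul_assoc, mul_sub ζ, ← add_sub_assoc,
    ← e4, ← mul_assoc ζ, ((c.mul_right c').sub_right (c'.mul_right c)).eq]
  conv_lhs => rw [e3]
  rw [mul_sub (A * A' - A' * A), mul_one, mul_assoc]

end Lay

theorem HForm.s_mem_of_diff (h : BF B 1) (h2 : (2 : F) ≠ 0) (p : Hyp B u u')
    (hk : (3 ≤ Fintype.card κ ∧ ∃ d : F, d ≠ 0 ∧ d ^ 2 ≠ 1) ∨ (4 ≤ Fintype.card κ ∧ WI1 B))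
    {L : Submodule F (Matrix κ κ F)} (H : ∀ y, B u y = 0 → B u' y = 0 →
      rk B (u' + y - (B y y / 2) • u) (u' + y - (B y y / 2) • u) - rk B u' u' ∈ L) :
    rk B u u ∈ L := by
  classical
  have E : ∀ y, B u y = 0 → B u' y = 0 → rk B y y - (B y y / 2) • (rk B u u' + rk B u' u) +
      (B y y / 2) ^ 2 • rk B u u ∈ L := fun y h1 h1' => by
    convert L.smul_mem (2 : F)⁻¹ (L.add_mem (H y h1 h1') (H (-y) (by simp [h1]) (by simp [h1'])))
      using 1
    simp only [map_add, map_sub, map_smul, map_neg, LinearMap.add_apply, LinearMap.sub_apply,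
      LinearMap.smul_apply, LinearMap.neg_apply, neg_neg]
    match_scalars <;> field_simp <;> ring
  obtain ⟨y, hy, h1, h1'⟩ := h.exists_ns_hyp h2 p (by omega)
  rcases hk with ⟨-, d, hd, hd'⟩ | ⟨hk, w⟩
  · have := sub_ne_zero.2 hd'
    convert L.smul_mem (d ^ 2 * (d ^ 2 - 1) * (B y y / 2) ^ 2)⁻¹ (L.sub_mem
      (E (d • y) (by simp [h1]) (by simp [h1'])) (L.smul_mem (d ^ 2) (E y h1 h1'))) using 1
    simp only [map_smul, LinearMap.smul_apply, smul_eq_mul]
    match_scalars <;> field_simp <;> ring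
  · obtain ⟨b, hb, b0⟩ := h.exists_perp {u, u', y} (Finset.card_le_three.trans_lt hk)
    have b1 := b0 u (by simp)
    have b2 := b0 u' (by simp)
    have b3 := b0 y (by simp)
    have b4 := HForm.WI1.aniso h w p b1 b2 hb
    convert L.smul_mem (B y y * B b b)⁻¹ (L.sub_mem (L.add_mem
      (E (y + b) (by simp [h1, b1]) (by simp [h1', b2]))
      (E (y - b) (by simp [h1, b1]) (by simp [h1', b2])))
      (L.smul_mem 2 (L.add_mem (E y h1 h1') (E b b1 b2)))) using 1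
    simp only [map_add, map_sub, LinearMap.add_apply, LinearMap.sub_apply, b3, h.sym b y]
    match_scalars <;> field_simp <;> ring

theorem Amb.eq_zero_of_nilp [Nonempty ι] (a : Amb B 1 BV εV ψ M) (h2 : (2 : F) ≠ 0)
    (hF : ∀ c : F, ∃ n : ℕ, c = n) (hb : HB B ψ M) (p : Hyp B u u')
    (hk : (3 ≤ Fintype.card κ ∧ ∃ d : F, d ≠ 0 ∧ d ^ 2 ≠ 1) ∨ (4 ≤ Fintype.card κ ∧ WI1 B))
    {q : GL ι F} {ζ : Matrix ι ι F} (hζ : InC ψ ζ) (hn : IsNilpotent ζ)
    (hq : (q : Matrix ι ι F) = 1 + ψ (rk B u u) * ζ)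
    (H : ∀ γ ∈ RootG B 1, q * homG ψ γ * q⁻¹ ∈ M) : ζ = 0 := by
  have hk3 : 3 ≤ Fintype.card κ := by omega
  have hr := a.h.rich_o h2 hk3
  let L : ℕ → Submodule F (Matrix κ κ F) := fun j =>
    { carrier := {X | Lay ψ M ζ j X}
      add_mem' := Lay.add hζ
      zero_mem' := lay_zero
      smul_mem' := fun c X hX => Lay.smul hF hζ hX c }
  have l0 : ∀ γ ∈ RootG B 1, rk B u u - rk B ((γ : Matrix κ κ F) *ᵥ u) ((γ : Matrix κ κ F) *ᵥ u) ∈
      L 0 := fun γ hγ => by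
    refine ⟨q * (homG ψ γ * q⁻¹ * (homG ψ γ)⁻¹), by
      simpa only [mul_assoc] using M.mul_mem (H γ hγ) (M.inv_mem (a.root γ hγ)),
      -(ψ (rk B u u) * ψ (cj γ (rk B u u))), (Commute.mul_right (hζ _) (hζ _)).neg_right, ?_⟩
    rw [Units.val_mul, ← cj_coe, coe_inv_of hq (s_mul_sq p.l hζ), hq, map_sub, map_one, map_mul,
      cj_homG, cj_homG_inC _ hζ, ← a.h.cj_rk (a.h.RootG_le hγ), map_sub, ← hζ, ← hζ, zero_add,
      pow_one, add_mul, mul_sub (ζ * _), mul_assoc ζ _ (ζ * _), ← mul_assoc (ψ _), ← hζ]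
    noncomm_ring
  have l1 : ∀ j, rk B u u ∈ L j → ∀ v, B v v = 0 → rk B v v ∈ L j := fun j hu v hv => by
    by_cases hv0 : v = 0
    · simp [hv0]
    obtain ⟨γ, hγ, c, hc, e⟩ := a.h.exists_sim a.hq hr p.l p.ne_l hv hv0
    have := (L j).smul_mem (c * c)⁻¹ (Lay.cj hζ hu (a.root γ hγ))
    rwa [a.h.cj_rk (a.h.RootG_le hγ), e, map_smul, map_smul, LinearMap.smul_apply, smul_smul,
      smul_smul, mul_assoc, inv_mul_cancel₀ (mul_ne_zero hc hc), one_smul] at this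
  have l2 : rk B u u ∈ L 0 := a.h.s_mem_of_diff h2 p hk fun y h1 h1' => by
    obtain ⟨γ, hγ, c, hc, e⟩ := a.h.exists_sim a.hq hr p.l p.ne_l p.r p.ne_r
    have := (L 0).smul_mem (c * c)⁻¹ ((L 0).sub_mem (l0 γ hγ)
      (l0 _ (mul_mem (Max.xr_mem u y (-(B y y / 2))) hγ)))
    rw [mul_mulVec, e, mulVec_smul, a.h.xo_mulVec h2 p.l h1, p.lr, a.h.zero_symm h1', one_smul,
      mul_one, add_zero] at this
    convert this using 1
    simp only [map_smul, LinearMap.smul_apply]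
    match_scalars <;> field_simp <;> ring
  have l3 : ∀ j, rk B u u ∈ L j → ∀ v, B v v = 0 → B u v = 1 → NN B 1 u v ∈ L (j + 1) :=
    fun j hu v hv e => by
      have := Lay.lie hζ (l1 j hu v hv) l2
      rwa [rk_mul_rk, rk_mul_rk, a.h.sym v u, e, one_smul, ← NN_apply] at this
  have l4 : ∀ j, rk B u u ∈ L (2 * j) := fun j => by
    induction j with
    | zero => exact l2
    | succ j ih =>
      have := (L (2 * (j + 1))).smul_mem (-2 : F)⁻¹
        (Lay.lie (i := 2 * j + 1) (j := 0) hζ (l3 _ ih u' p.r p.lr) l2)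
      convert this using 1
      simp only [NN_apply, sub_mul, mul_sub, rk_mul_rk, p.l, p.lr, a.h.sym u' u, one_smul,
        zero_smul]
      match_scalars
      field_simp
      ring
  by_contra h0
  obtain ⟨m, hm, hm'⟩ : ∃ m, ζ ^ (m + 1) ≠ 0 ∧ ζ ^ (m + 1 + 1) = 0 := by
    by_contra hc
    push Not at hc
    obtain ⟨n, hn⟩ := hn
    have : ∀ m, ζ ^ (m + 1) ≠ 0 := fun m => by
      induction m with
      | zero => simpa using h0
      | succ m ih => exact hc m ih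
    exact this n (by rw [pow_succ, hn, zero_mul])
  have fin : ∀ X ∈ L m, X ≠ 0 → ¬ InQ (ψ (rk B u u)) (ψ X * ζ ^ (m + 1)) := by
    rintro X ⟨g, hg, r, -, e⟩ hX hQ
    rw [mul_add, ← mul_assoc, ← pow_succ, hm', zero_mul, add_zero, hζ.pow] at e
    have h3 := (hb u p.l p.ne_l g hg (by rwa [e, add_sub_cancel_left])).sub
      (⟨1, map_one ψ⟩ : InE ψ 1)
    rw [e, add_sub_cancel_left] at h3
    exact hm ((isSc_of_inE_mul hX (hζ.pow _) h3).eq_zero (hn.pow_succ m))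
  obtain ⟨j, rfl | rfl⟩ := Nat.even_or_odd' m
  · exact fin _ (l4 j) (a.h.rk_ne_zero p.ne_l p.ne_l) (a.h.inQ_left p.l p.ne_l p.l (hζ.pow _))
  obtain ⟨y, hy, h1, h1'⟩ := a.h.exists_ns_hyp h2 p hk3
  have e := (L _).sub_mem (l3 _ (l4 j) _ (a.h.sing_shift h2 p h1 h1') (by simp [p.lr, h1, p.l]))
    (l3 _ (l4 j) u' p.r p.lr)
  rw [← map_sub, show u' + y - (B y y / 2) • u - u' = y - (B y y / 2) • u by abel, map_sub,
    map_smul, show NN B 1 u u = 0 by simp [NN_apply], smul_zero, sub_zero] at e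
  refine fin _ e (fun e' => ?_) ?_
  · have := a.h.NN_sq h2 p.l h1
    rw [e', zero_mul, eq_comm, smul_eq_zero, neg_eq_zero] at this
    exact a.h.rk_ne_zero p.ne_l p.ne_l (this.resolve_left hy)
  · rw [NN_apply, one_smul, map_sub, sub_mul]
    exact (a.h.inQ_right p.l p.ne_l h1 (hζ.pow _)).sub
      (a.h.inQ_left p.l p.ne_l (a.h.zero_symm h1) (hζ.pow _))

theorem Amb.conj_root [Nonempty ι] (a : Amb B ε BV εV ψ M) {n : GL ι F} (hn : n ∈ NE ψ)
    (hi : n ∈ isoB BV) {γ : GL κ F} (hγ : γ ∈ RootG B ε) : n * homG ψ γ * n⁻¹ ∈ M := by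
  obtain ⟨α, hα⟩ := exists_cj_of_NE hn
  have := a.root _ (a.h.conj_RootG (a.hV.mem_sim_factor a.h ψ a.adj
    (isoG_le_similarityGroup _ hi) hα) hγ)
  rwa [show homG ψ (α * γ * α⁻¹) = n * homG ψ γ * n⁻¹ from Units.ext (by
    rw [coe_homG, ← cj_coe, ← cj_coe, coe_homG, hα])] at this

theorem Id3.nilp {A : Type*} [Ring A] {P Z N s X : A} (h : Id3 P Z N s) (hX : Commute X s)
    (hn : IsNilpotent (gr P Z N X)) : IsNilpotent X := by
  have hF : ∀ n : ℕ, Fl P Z N (X ^ n) := fun n => h.fl_of (hX.pow_left n).eq (hX.pow_left n).eq.symm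
  have e : ∀ n : ℕ, gr P Z N X ^ n = gr P Z N (X ^ n) := fun n => by
    induction n with
    | zero => rw [pow_zero, pow_zero, h.gr_one]
    | succ n ih => rw [pow_succ, ih, pow_succ, h.gr_mul (hF n) (by simpa using hF 1)]
  obtain ⟨n, hn⟩ := hn
  rw [e] at hn
  refine ⟨n * 3, ?_⟩
  rw [pow_mul]
  have f := hF n
  generalize X ^ n = Y at hn f
  have e1 := congrArg (fun T => P * T * P) hn
  have e2 := congrArg (fun T => Z * T * Z) hn
  have e3 := congrArg (fun T => N * T * N) hn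
  simp only [gr, mul_add, add_mul, mul_assoc, h.l, h.pp, h.zz, h.mm, mul_zero, zero_mul, add_zero,
    zero_add] at e1 e2 e3
  have a1 : Y * P = 0 := by rw [h.mul_p f, mul_assoc, e1]
  have a3 : N * Y = 0 := by rw [h.m_mul f, mul_assoc, e3]
  have a2 : Y * Y = Y * Z * Y := by rw [h.ins Y Y, a1, mul_assoc Y N, a3]; simp
  rw [pow_three', a2, mul_assoc, a2, mul_assoc, mul_assoc, ← mul_assoc Y Z Y, ← mul_assoc Z,
    e2]
  simp

/-- A family of commuting slots generating the matrix algebra. -/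
structure Fam (B : LinearMap.BilinForm F (κ → F)) (BV : LinearMap.BilinForm F (ι → F)) (εV : F)
    (ψ : τ → Matrix κ κ F →ₐ[F] Matrix ι ι F) (M : Subgroup (GL ι F)) : Prop where
  amb : ∀ i, Amb B 1 BV εV (ψ i) M
  comm : ∀ i j, i ≠ j → ∀ X, InC (ψ i) (ψ j X)
  cen : ∀ X, (∀ i, InC (ψ i) X) → IsSc F X

namespace Fam

variable [Nonempty ι] {ψ : τ → Matrix κ κ F →ₐ[F] Matrix ι ι F} (f : Fam B BV εV ψ M)
  (h2 : (2 : F) ≠ 0)
include f h2

theorem eq_zero_of_skew (i : τ) {X : Matrix ι ι F} (hX : ad BV X = -X) (h : ∀ j, InC (ψ j) X) :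
    X = 0 := by
  obtain ⟨c, rfl⟩ := f.cen X h
  rw [(f.amb i).hV.ad_smul, (f.amb i).hV.ad_one, eq_neg_iff_add_eq_zero, ← two_smul F,
    smul_eq_zero] at hX
  exact hX.resolve_left h2

theorem nilp (i : τ) (p : Hyp B u u') (hk : 3 ≤ Fintype.card κ) (S : Finset τ) :
    ∀ X : Matrix ι ι F, ad BV X = -X →
      (∀ j ∈ S, ∀ y, B u y = 0 → Commute X (ψ j (NN B 1 u y))) → (∀ j ∉ S, InC (ψ j) X) →
      IsNilpotent X := by
  have a := f.amb i
  induction S using Finset.induction_on with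
  | empty => exact fun X h1 _ h3 => f.eq_zero_of_skew h2 i h1 (by simpa using h3) ▸ IsNilpotent.zero
  | insert j S hj ih =>
    intro X h1 h3 h4
    have I := (a.h.id3 p).map (ψ j)
    obtain ⟨y, hy, y1, -⟩ := a.h.exists_ns_hyp h2 p hk
    have c : Commute X (ψ j (rk B u u)) := by
      have := ((h3 j (by simp) y y1).mul_right (h3 j (by simp) y y1)).smul_right (-B y y)⁻¹
      rwa [← map_mul, a.h.NN_sq h2 p.l y1, map_smul, smul_smul, inv_mul_cancel₀ (neg_ne_zero.2 hy),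
        one_smul] at this
    have hF := I.fl_of c.eq c.eq.symm
    have k : ∀ l, l ≠ j → ∀ W, Commute X (ψ l W) → Commute (gr (ψ j ((1 : F) • rk B u u'))
        (ψ j (e0 B 1 u u')) (ψ j (rk B u' u)) X) (ψ l W) := fun l hl W hW => by
      have k0 : ∀ V, Commute (ψ j V * X * ψ j V) (ψ l W) := fun V =>
        (Commute.mul_left (f.comm l j hl V W) hW).mul_left (f.comm l j hl V W)
      exact ((k0 _).add_left (k0 _)).add_left (k0 _)
    refine I.nilp c (ih _ ?_ (fun l hl z hz => k l (fun e => hj (e ▸ hl)) _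
      (h3 l (by simp [hl]) z hz)) fun l hl => ?_)
    · simp only [gr, a.hV.ad_add, a.hV.ad_mul, (f.amb j).adj, a.h.ad_rk, a.h.ad_e0, h1, one_smul]
      noncomm_ring
    by_cases e : l = j
    · subst e
      refine a.h.inC_of_comm p (I.gr_m X) (by rw [I.gr_s hF, I.s_gr hF, c.eq]) fun z z1 z2 => ?_
      have g := congrArg (ψ l) (a.h.NN_grade p z1 z2)
      rw [map_add, map_mul, map_mul, map_mul, map_mul] at g
      exact I.gr_N (Y := 0) g g hF ⟨by simp, by simp, by simp⟩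
        (by rw [(h3 l (by simp) z z1).eq]; simp)
    · exact fun W => k l e W (h4 l (by simp [e, hl]) W)

variable [Fintype F] (i : τ)

theorem h2_of (hF : ∀ c : F, ∃ n : ℕ, c = n) (hb : HB B (ψ i) M) (ok : OkO B)
    (hk : (3 ≤ Fintype.card κ ∧ ∃ d : F, d ≠ 0 ∧ d ^ 2 ≠ 1) ∨ (4 ≤ Fintype.card κ ∧ WI1 B)) :
    H2 B (ψ i) M := by
  classical
  intro u hu hu0 g hg c e
  have a := f.amb i
  have hk3 : 3 ≤ Fintype.card κ := by omega
  obtain ⟨u', p⟩ := a.h.exists_hyp a.hq hu hu0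
  have hL : LPhi B 1 u u' := a.h.lphi_o h2 p (by
    rcases ok with h | h | h
    · exact Or.inl ⟨hk3, by rw [← Nat.card_eq_fintype_card]; omega⟩
    · exact Or.inr (Or.inl ⟨h.1.ge, h.2⟩)
    · exact Or.inr (Or.inr h))
  let Z : Finset (Matrix ι ι F) := Finset.univ.filter fun ζ => InC (ψ i) ζ ∧ ad BV ζ = -ζ ∧
    ∃ g ∈ M, ∃ n ∈ NE (ψ i), (g : Matrix ι ι F) = (1 + ψ i (rk B u u) * ζ) * n
  have mZ : ∀ ζ, ζ ∈ Z ↔ InC (ψ i) ζ ∧ ad BV ζ = -ζ ∧
      ∃ g ∈ M, ∃ n ∈ NE (ψ i), (g : Matrix ι ι F) = (1 + ψ i (rk B u u) * ζ) * n := by simp [Z]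
  have act : ∀ {h n : GL ι F} {ξ : Matrix ι ι F} {d : F}, h ∈ M → n ∈ NE (ψ i) → n ∈ isoB BV →
      InC (ψ i) ξ → ad BV ξ = -ξ → (h : Matrix ι ι F) = (1 + ψ i (rk B u u) * ξ) * n →
      cj n (ψ i (rk B u u)) = d • ψ i (rk B u u) → ∀ ζ ∈ Z, ξ + d • cj n ζ ∈ Z := by
    intro h n ξ d hh hn hi h1 h3 h4 h5 ζ hζ
    obtain ⟨z1, z2, g, hg, n', hn', e⟩ := (mZ ζ).1 hζ
    refine (mZ _).2 ⟨h1.add ((z1.cj_NE hn).smul d), ?_, h * g, mul_mem hh hg, n * n',
      mul_mem hn hn', ?_⟩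
    · rw [a.hV.ad_add, a.hV.ad_smul, a.hV.ad_cj hi, h3, z2, map_neg]; module
    · rw [Units.val_mul, Units.val_mul, h4, e, mul_assoc, ← mul_assoc (n : Matrix ι ι F),
        ← cj_mul_coe, map_add, map_one, map_mul, h5, mul_assoc, ← mul_assoc]
      congr 1
      simp only [add_mul, mul_add, one_mul, mul_one, smul_mul_assoc, mul_smul_comm,
        s_mul_sq p.l h1, smul_zero, add_zero]
      abel
  have sum : ∀ {T : Matrix ι ι F → Matrix ι ι F}, Function.Injective T → (∀ ζ ∈ Z, T ζ ∈ Z) →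
      ∑ ζ ∈ Z, T ζ = ∑ ζ ∈ Z, ζ := fun {T} hT hZ =>
    Finset.sum_bij (fun ζ _ => T ζ) hZ (fun _ _ _ _ e => hT e)
      (Finset.surj_on_of_inj_on_of_card_le (fun ζ _ => T ζ) hZ (fun _ _ _ _ e => hT e) le_rfl
        · · |>.imp fun _ h => h.imp fun _ h => h.symm) fun _ _ => rfl
  have act' : ∀ {h : GL ι F}, h ∈ M → InC (ψ i) (h : Matrix ι ι F) → ∀ ζ ∈ Z, cj h ζ ∈ Z :=
    fun {h} hh hc ζ hζ => by
      simpa using act (d := 1) hh (mem_NE_of_inC hc) (a.iso hh) inC_zero (by simp [a.hV.ad_zero])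
        (by simp) (by rw [one_smul]; exact cj_eq_of_comm (hc _)) ζ hζ
  have comm : ∀ {j : τ} {X : Matrix ι ι F} {w y : κ → F}, B w w = 0 → B w y = 0 →
      cj (homG (ψ j) (xo B w y)) X = X → Commute X (ψ j (NN B 1 w y)) := fun {j X w y} hw hy e =>
    eq_of_pj (ψ := ψ j) fun l => by
      rw [pj_mul_map, pj_map_mul, a.h.comm_of_cj_xo h2 hw hy (by rw [← pj_cj_homG, e])]
  have β0 : ∑ ζ ∈ Z, ζ = 0 := by
    refine f.eq_zero_of_skew h2 i ?_ fun j => ?_
    · rw [show ad BV _ = _ from a.hV.adj_sum Z fun x => x, ← Finset.sum_neg_distrib]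
      exact Finset.sum_congr rfl fun ζ hζ => ((mZ ζ).1 hζ).2.1
    by_cases hj : j = i
    · rw [hj]; exact inC_sum _ fun ζ hζ => ((mZ ζ).1 hζ).1
    refine fun Y => ((Subalgebra.mem_centralizer_iff F).1 (a.h.mem_subalg a.hq p
      (T := (Subalgebra.centralizer F {∑ ζ ∈ Z, ζ}).comap (ψ j)) (fun w hw => ?_) Y) _ rfl)
    rw [Subalgebra.mem_comap, Subalgebra.mem_centralizer_iff]
    rintro _ rfl
    by_cases hw0 : w = 0
    · simp [hw0]
    obtain ⟨w', p'⟩ := a.h.exists_hyp a.hq hw hw0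
    obtain ⟨y, hy, y1, -⟩ := a.h.exists_ns_hyp h2 p' hk3
    have c := comm (j := j) (X := ∑ ζ ∈ Z, ζ) hw y1 (by
      rw [map_sum]
      exact sum (cj _).injective (act' ((f.amb j).xr_mem _ _ _) (f.comm i j (Ne.symm hj) _)))
    have := (c.mul_right c).smul_right (-B y y)⁻¹
    rwa [← map_mul, a.h.NN_sq h2 hw y1, map_smul, smul_smul, inv_mul_cancel₀ (neg_ne_zero.2 hy),
      one_smul] at this
  have card : (Z.card : F) ≠ 0 := by
    obtain ⟨r, hr⟩ := CharP.exists F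
    have : Fact r.Prime := ⟨CharP.char_is_prime F r⟩
    rw [Ne, CharP.cast_eq_zero_iff F r]
    intro hd
    let S : Set (GL ι F) := {x | ∃ j y, j ≠ i ∧ B u y = 0 ∧ x = homG (ψ j) (xo B u y)}
    have hS : ∀ x ∈ S, ∀ y ∈ S, x * y = y * x := by
      rintro _ ⟨j, y, -, hy, rfl⟩ _ ⟨l, z, -, hz, rfl⟩
      by_cases e : j = l
      · rw [e, ← map_mul, ← map_mul, ← a.h.xo_add h2 hu hy hz, ← a.h.xo_add h2 hu hz hy, add_comm]
      · exact Units.ext (f.comm l j (Ne.symm e) _ _)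
    have hU : ∀ x ∈ Subgroup.closure S, x ∈ M ∧ InC (ψ i) (x : Matrix ι ι F) := fun x hx => by
      refine Subgroup.closure_induction (p := fun x _ => x ∈ M ∧ InC (ψ i) (x : Matrix ι ι F))
        ?_ ⟨one_mem _, inC_one⟩ (fun x y _ _ hx hy => ⟨mul_mem hx.1 hy.1, hx.2.mul hy.2⟩)
        (fun x _ hx => ⟨inv_mem hx.1, fun Y => (Commute.units_inv_left (hx.2 Y)).eq⟩) hx
      rintro _ ⟨j, y, hj, -, rfl⟩
      exact ⟨(f.amb j).xr_mem _ _ _, f.comm i j (Ne.symm hj) _⟩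
    have hP : IsPGroup r (Subgroup.closure S) := fun x => ⟨1, by
      have := Subgroup.isMulCommutative_closure hS
      rw [pow_one, Subtype.ext_iff]
      refine Subgroup.closure_induction (p := fun x _ => x ^ r = 1) ?_ (one_pow _)
        (fun x y hx hy h1 h3 => by
          rw [Commute.mul_pow (setLike_mul_comm hx hy), h1, h3, mul_one])
        (fun x _ h => by rw [inv_pow, h, inv_one]) x.2
      rintro _ ⟨j, y, -, hy, rfl⟩
      have : ∀ n : ℕ, xo B u y ^ n = xo B u ((n : F) • y) := fun n => by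
        induction n with
        | zero => exact Units.ext (by rw [a.h.coe_xo h2 hu (by simp)]; simp)
        | succ n ih => rw [pow_succ, ih, ← a.h.xo_add h2 hu (by simp [hy]) hy, Nat.cast_succ,
            add_smul, one_smul]
      rw [← map_pow, this, CharP.cast_eq_zero, ← Nat.cast_zero, ← this, pow_zero, map_one]⟩
    let _ : MulAction (Subgroup.closure S) Z :=
      { smul := fun x ζ => ⟨cj x.1 ζ.1, act' (hU _ x.2).1 (hU _ x.2).2 _ ζ.2⟩
        one_smul := fun ζ => Subtype.ext (cj_one _)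
        mul_smul := fun x y ζ => Subtype.ext (cj_mul _ _ _) }
    obtain ⟨⟨ζ, hζ⟩, h1, h3⟩ := hP.exists_fixed_point_of_prime_dvd_card_of_fixed_point Z
      (by simpa using hd) (a := ⟨0, (mZ 0).2 ⟨inC_zero, by simp [a.hV.ad_zero], 1, one_mem _, 1,
        one_mem _, by simp⟩⟩) fun x => Subtype.ext (map_zero _)
    obtain ⟨z1, z2, g, hg, n, hn, e⟩ := (mZ ζ).1 hζ
    refine h3 (Subtype.ext (a.eq_zero_of_nilp h2 hF hb p hk z1 (f.nilp h2 i p hk3
      (Finset.univ.erase i) ζ z2 (fun j hj y hy => comm hu hy (congrArg Subtype.val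
        (h1 ⟨_, Subgroup.subset_closure ⟨j, y, by simpa using hj, hy, rfl⟩⟩))) fun j hj => ?_)
      (q := g * n⁻¹) (by rw [Units.val_mul, e, Units.mul_inv_cancel_right]) fun γ hγ => ?_).symm)
    · rwa [show j = i by simpa using hj]
    have k : g * n⁻¹ ∈ isoB BV := a.hV.mem_isoB (by
      rw [Units.val_mul, e, Units.mul_inv_cancel_right, a.hV.ad_add, a.hV.ad_one, a.hV.ad_mul, a.adj,
        a.h.ad_rk, one_smul, z2, neg_mul, z1, add_mul, neg_mul, mul_add (_ * ζ), s_mul_sq hu z1]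
      simp)
    have k' : n⁻¹ ∈ isoB BV := by simpa using mul_mem (inv_mem (a.iso hg)) k
    simpa [mul_assoc] using mul_mem (mul_mem hg (a.conj_root (inv_mem hn) k' hγ)) (inv_mem hg)
  obtain ⟨n, hn, q, ζ, h1, h3, h4, rfl, -⟩ := a.partial_h2 hb p hL hg e
  have h5 : ad BV ζ = -ζ := by
    have k : ad BV (q : Matrix ι ι F) * q = 1 := by rw [a.hV.ad_iso h4, Units.inv_mul]
    rw [h3, a.hV.ad_add, a.hV.ad_one, a.hV.ad_mul, a.adj, a.h.ad_rk, one_smul, a.inC_ad h1, add_mul,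
      mul_add, mul_add, s_mul_sq p.l (a.inC_ad h1), one_mul, one_mul, mul_one, add_zero, add_assoc,
      add_eq_left, ← mul_add] at k
    rw [eq_neg_iff_add_eq_zero, add_comm]
    refine (Module.forall_dual_apply_eq_zero_iff F _).1 fun l => ?_
    have := congrArg (pj (ψ i) l) k
    rw [pj_map_mul_inC l _ (h1.add (a.inC_ad h1)), map_zero, smul_eq_zero] at this
    exact this.resolve_right (a.h.rk_ne_zero hu0 hu0)
  have h6 : cj q (ψ i (rk B u u)) = ψ i (rk B u u) := cj_eq_of_comm (by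
    rw [h3, add_mul, mul_add, mul_assoc, h1, ← mul_assoc, one_mul, mul_one])
  have h7 : cj n (ψ i (rk B u u)) = c • ψ i (rk B u u) :=
    (cj q).injective (by rw [← cj_mul, e, map_smul, h6])
  have hc : c ≠ 0 := by
    rintro rfl
    rw [zero_smul, map_eq_zero_iff _ (cj n).injective] at h7
    exact a.s_ne_zero hu0 h7
  have := sum (T := fun ξ => ζ + c • cj n ξ) (fun x y e => (cj n).injective
    (smul_right_injective _ hc (add_left_cancel e))) (act hg hn (by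
      simpa using mul_mem (inv_mem h4) (a.iso hg)) h1 h5 (by rw [Units.val_mul, h3]) h7)
  rw [Finset.sum_add_distrib, ← Finset.smul_sum, ← map_sum, β0, map_zero, smul_zero, add_zero,
    Finset.sum_const, ← Nat.cast_smul_eq_nsmul F, smul_eq_zero] at this
  rw [this.resolve_left card, mul_zero, add_zero] at h3
  rwa [show q = 1 from Units.ext h3, one_mul]

end Fam

end Cfsg.Agent.Cl.Max
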