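import Mathlib
import Cfsg.Agent.Cl.TnX

/-!
# Orthogonal slots over small prime fields: rigidity through the Lie algebra
-/

set_option autoImplicit false
set_option linter.unusedSectionVars false
set_option linter.unusedVariables false

namespace Cfsg.Agent.Cl.Max

open Matrix Cfsg.Geo Module

variable {F : Type*} [Field F] {κ : Type} [Fintype κ] [DecidableEq κ]
  {ι : Type} [Fintype ι] [DecidableEq ι] {τ : Type} [Fintype τ] [DecidableEq τ]
  {B : LinearMap.BilinForm F (κ → F)} {ε : F} {BV : LinearMap.BilinForm F (ι → F)} {εV : F}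
  {ψ φ : Matrix κ κ F →ₐ[F] Matrix ι ι F} {M : Subgroup (GL ι F)} {u u' : κ → F}

theorem HForm.trace_ad (h : BF B ε) (X : Matrix κ κ F) : (ad B X).trace = X.trace := h.trace_adj X

theorem HForm.trace_sym_skew (h : BF B ε) (h2 : (2 : F) ≠ 0) {X z : Matrix κ κ F} (hX : ad B X = X)
    (hz : ad B z = -z) : (X * z).trace = 0 := by
  have := h.trace_ad (X * z)
  rw [h.ad_mul, hX, hz, neg_mul, trace_neg, trace_mul_comm] at this
  exact mul_left_cancel₀ h2 (by linear_combination -this)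

theorem HForm.exists_neg [Fintype F] (h : BF B 1) (h2 : (2 : F) ≠ 0) (p : Hyp B u u')
    (hx : (Fintype.card κ = 3 ∧ Fintype.card F = 5) ∨
      (Fintype.card κ = 4 ∧ WI1 B ∧ Fintype.card F = 3)) {w : κ → F} (h1 : B u w = 0)
    (h1' : B u' w = 0) : ∃ γ ∈ RootG B 1, cj γ (NN B 1 u w) = -NN B 1 u w ∧
      cj γ (rk B u u) = rk B u u := by
  classical
  have e := FiniteField.cast_card_eq_zero F
  rcases hx with ⟨hk, hq⟩ | ⟨hk, wi, hq⟩
  · obtain ⟨γ, hγ, c1, -, c3⟩ := h.exists_tor h2 p hk.ge h2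
    rw [hq] at e
    rw [show (2 : F) ^ 2 = -1 by linear_combination (exp := 1) e, neg_one_smul] at c1
    exact ⟨γ, hγ, by rw [h.cj_NN (h.RootG_le hγ), c1, c3 w h1 h1']; simp [NN_apply]; abel,
      by rw [h.cj_rk (h.RootG_le hγ), c1]; simp⟩
  by_cases hw : w = 0
  · exact ⟨1, one_mem _, by simp [hw], cj_one _⟩
  obtain ⟨b, hb, b0⟩ := h.exists_perp {u, u', w} (Finset.card_le_three.trans_lt (by omega))
  have b1 := b0 u (by simp)
  have b2 := b0 u' (by simp)
  have b3 := b0 w (by simp)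
  have b4 := HForm.WI1.aniso h wi p b1 b2 hb
  have b5 := HForm.WI1.aniso h wi p h1 h1' hw
  have b6 : B (w + b) (w + b) ≠ 0 := HForm.WI1.aniso h wi p (by simp [h1, b1]) (by simp [h1', b2])
    fun e => b5 (by simpa [b3] using congrArg (B w) e)
  obtain ⟨γ, hγ, c1, -, c3⟩ := h.exists_ww h2 p h1 h1' b5 b1 b2 b4
  have e1 : B w w / B b b = 1 := by
    have := FiniteField.pow_card_sub_one_eq_one _ (div_ne_zero b5 b4)
    rw [hq] at this
    refine (sq_eq_one_iff.1 this).resolve_right fun e' => b6 ?_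
    rw [div_eq_iff b4] at e'
    simp only [map_add, LinearMap.add_apply, b3, h.sym b w]
    linear_combination e'
  rw [e1, one_smul] at c1
  have c4 : (γ : Matrix κ κ F) *ᵥ w = -w := by
    rw [c3 w h1 h1', h.sym b w, b3]
    simp only [mul_zero, zero_div, zero_smul, sub_zero]
    match_scalars
    field_simp
    ring
  exact ⟨γ, hγ, by rw [h.cj_NN (h.RootG_le hγ), c1, c4, map_neg],
    by rw [h.cj_rk (h.RootG_le hγ), c1]⟩

namespace Amb

variable [Fintype F] [Nonempty ι] (a : Amb B 1 BV εV ψ M) (h2 : (2 : F) ≠ 0)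
include a h2

theorem skew_mem_DK (H : H2 B ψ M) (ok : OkO B) (hx : (Fintype.card κ = 3 ∧ Fintype.card F = 5) ∨
      (Fintype.card κ = 4 ∧ WI1 B ∧ Fintype.card F = 3)) {z : Matrix κ κ F} (hz : ad B z = -z) :
    z ∈ DK ψ M := by
  have hk : 3 ≤ Fintype.card κ := by omega
  have key : ∀ u w, B u u = 0 → B u w = 0 → NN B 1 u w ∈ DK ψ M := fun u w hu hw c hc => by
    by_cases hu0 : u = 0
    · simp [hu0, NN_apply]
    obtain ⟨u', p⟩ := a.h.exists_hyp a.hq hu hu0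
    obtain ⟨h1, h1'⟩ := a.h.perp_e0 p w
    obtain ⟨γ, hγ, c1, c2⟩ := a.h.exists_neg h2 p hx h1 h1'
    rw [show NN B 1 u (e0 B 1 u u' *ᵥ w) = NN B 1 u w by
      simp [e0_mulVec, hw, show NN B 1 u u = 0 by simp [NN_apply]]] at c1
    refine eq_zero_of_pj (ψ := ψ) fun l => ?_
    obtain ⟨d, hd⟩ := Submodule.mem_span_singleton.1 (a.pj_Delta_o h2 H ok p _
      (Or.inl (Submodule.mem_span_singleton_self _)) (z := NN B 1 u w) (fun y hy => by
        rw [a.h.NN_mul_NN hu hy hw, a.h.NN_mul_NN hu hw hy, a.h.sym y w]) hc l)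
    have e := congrArg (pj ψ l) (Delta_cj (a.root γ hγ) (homG_mem_NE γ) (ψ (NN B 1 u w) * c))
    rw [map_mul, cj_homG, cj_homG_inC _ hc, c1, map_neg, neg_mul, map_neg, map_neg, pj_cj_homG,
      ← hd, map_smul, c2, neg_eq_iff_add_eq_zero, ← two_smul F, smul_eq_zero] at e
    rw [← hd, e.resolve_left h2]
  obtain ⟨u, u', p⟩ := a.h.exists_hyp_o h2 hk
  refine mem_of_trace _ fun X hX => a.h.trace_sym_skew h2 ?_ hz
  obtain ⟨c, hc⟩ := a.h.isSc_of_sing h2 p hk (X := X - ad B X) fun v hv =>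
    a.h.mem_span_of_perp fun y hy => by
      have := hX _ (key v y hv (a.h.zero_symm (hy v (Submodule.mem_span_singleton_self v))))
      rw [NN_apply, one_smul, mul_sub, trace_sub, trace_mul_rk, trace_mul_rk, sub_eq_zero] at this
      rw [sub_mulVec, map_sub, ← this, ← a.h.ad_l, a.h.sym, sub_self]
  have e := congrArg (ad B) hc
  rw [a.h.ad_sub, a.h.ad_ad, a.h.ad_smul, a.h.ad_one, ← hc] at e
  exact smul_right_injective _ h2 (by linear_combination (norm := module) e)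

theorem or_of_cube (hk : Fintype.card κ = 3) (h3 : (3 : F) ≠ 0) {N : Matrix ι ι F} (h : InEC ψ N)
    (hN : ad BV N = -N) (h0 : N * N * N = 0) : InE ψ N ∨ InC ψ N := by
  obtain ⟨α, c, hα, hc, rfl⟩ := a.exists_skew h2 h hN
  by_cases hs : IsSc F c
  · exact Or.inl (inE_add_isSc α hs)
  obtain ⟨l, l1, l2⟩ := exists_dual_of_not_isSc hs
  have e : (ψ α + c) * (ψ α + c) * (ψ α + c) = ψ (α * α * α) + (3 : F) • (ψ (α * α) * c) +
      (3 : F) • (ψ α * (c * c)) + c * c * c := by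
    have k : ∀ X, c * (ψ α * X) = ψ α * (c * X) := fun X => by rw [← mul_assoc, hc, mul_assoc]
    simp only [add_mul, mul_add, map_mul, hc α, mul_assoc, k]
    module
  have e1 := congrArg (pj ψ l) (e.symm.trans h0)
  rw [map_add, map_add, map_add, map_smul, map_smul, pj_map, pj_map_mul_inC l _ hc,
    pj_map_mul_inC l _ (hc.mul hc), pj_inC l ((hc.mul hc).mul hc), l1, l2, map_zero] at e1
  rw [a.eq_zero_of_quad h2 hk hα (μ := l (c * c)) (IsSc.of_smul ⟨-l (c * c * c), by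
    linear_combination (norm := module) e1⟩ h3), map_zero, zero_add]
  exact Or.inr hc

theorem or_of_skew (hx : (Fintype.card κ = 3 ∧ (3 : F) ≠ 0) ∨ (4 ≤ Fintype.card κ ∧ WI1 B))
    (hφ : ∀ X, ad BV (φ X) = φ (ad B X)) (p : Hyp B u u')
    (H : ∀ z, ad B z = -z → InEC ψ (φ z)) : InE ψ (φ (rk B u u)) ∨ InC ψ (φ (rk B u u)) := by
  classical
  have key : ∀ y, B u y = 0 → B y y ≠ 0 → InE ψ (φ (NN B 1 u y)) ∨ InC ψ (φ (NN B 1 u y)) →
      InE ψ (φ (rk B u u)) ∨ InC ψ (φ (rk B u u)) := fun y hy hy' h => by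
    rw [show φ (rk B u u) = (-B y y)⁻¹ • (φ (NN B 1 u y) * φ (NN B 1 u y)) by
      rw [← map_mul, a.h.NN_sq h2 p.l hy, map_smul, smul_smul, inv_mul_cancel₀ (neg_ne_zero.2 hy'),
        one_smul]]
    exact h.imp (fun h => (h.mul h).smul _) fun h => (h.mul h).smul _
  obtain ⟨y, hy, y1, y2⟩ := a.h.exists_ns_hyp h2 p (by omega)
  rcases hx with ⟨hk, h3⟩ | ⟨hk, w⟩
  · exact key y y1 hy (a.or_of_cube h2 hk h3 (H _ (a.h.ad_NN u y)) (by rw [hφ, a.h.ad_NN, map_neg])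
      (by rw [← map_mul, ← map_mul, a.h.NN_cube h2 p.l y1, map_zero]))
  obtain ⟨b, hb, b0⟩ := a.h.exists_perp {u, u', y} (Finset.card_le_three.trans_lt hk)
  have b1 := b0 u (by simp)
  have b2 := b0 u' (by simp)
  have b3 := b0 y (by simp)
  rcases (H _ (a.h.ad_NN u y)).or_of_mul (H _ (a.h.ad_NN u b)) (by
    rw [← map_mul, a.h.NN_mul_NN p.l y1 b1, b3]; simpa using inC_zero.inEC) with
    h | h | ⟨μ, α, c, hc, e1, e2⟩
  · exact key y y1 hy (Or.inl h)
  · exact key y y1 hy (Or.inr h)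
  refine key (μ • y + b) (by simp [y1, b1]) (HForm.WI1.aniso a.h w p (by simp [y1, b1])
    (by simp [y2, b2]) fun e => HForm.WI1.aniso a.h w p b1 b2 hb
      (by simpa [a.h.sym b y, b3] using congrArg (B b) e)) (Or.inl ?_)
  convert e2.inE.add ((inE_map α).smul (2 * μ)) using 1
  rw [map_add, map_add, map_smul, map_smul, e1]
  module

end Amb

theorem Fam.good_x [Fintype F] [Nonempty ι] {ψ : τ → Matrix κ κ F →ₐ[F] Matrix ι ι F}
    (f : Fam B BV εV ψ M) (h2 : (2 : F) ≠ 0) (i : τ) (hb : HB B (ψ i) M)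
    (hx : (Fintype.card κ = 3 ∧ Fintype.card F = 5) ∨
      (Fintype.card κ = 4 ∧ WI1 B ∧ Fintype.card F = 3))
    (hs : ∀ T : Submodule F (Matrix ι ι F),
      (∀ j z c, ad B z = -z → InC (ψ j) c → ψ j z * c ∈ T) → ∀ W, W - ad BV W ∈ T)
    (hπ : ∀ j, ∃ π ∈ M, ∃ α ∈ isoB B, cjH π (ψ i) = cjH (homG (ψ j) α) (ψ j))
    {g : GL ι F} (hg : g ∈ M) : Good (ψ i) g := by
  have a := f.amb i
  have hk : 3 ≤ Fintype.card κ := by omega
  have : Nonempty κ := Fintype.card_pos_iff.1 (by omega)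
  have e0 := FiniteField.cast_card_eq_zero F
  have ok : OkO B := hx.imp (fun h => ⟨h.1, by rw [Nat.card_eq_fintype_card, h.2]⟩)
    fun h => Or.inl ⟨h.1, h.2.1⟩
  have hF : ∀ c : F, ∃ n : ℕ, c = n := fun c => by
    have hp : (Fintype.card F).Prime := by
      rcases hx with h | h
      · rw [h.2]; norm_num
      · rw [h.2.2]; norm_num
    have := Fact.mk hp
    obtain ⟨n, rfl⟩ := (ZMod.ringEquivOfPrime F hp rfl).surjective c
    exact ⟨n.val, by rw [← map_natCast (ZMod.ringEquivOfPrime F hp rfl), ZMod.natCast_zmod_val]⟩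
  have H := f.h2_of h2 i hF hb ok (hx.imp (fun h => ⟨hk, exists_sq_ne_one (by omega)⟩)
    fun h => ⟨h.1.ge, h.2.1⟩)
  have tr0 : ∀ {z}, ad B z = -z → z.trace = 0 := fun {z} hz => by
    simpa using a.h.trace_sym_skew h2 a.h.ad_one hz
  have k1 : ∀ z c, ad B z = -z → InC (ψ i) c → PhiM (ψ i) M (ψ i z * c) = Phi (ψ i) (ψ i z * c) :=
    fun z c hz hc => by rw [PhiM_eq_add (tr0 hz) hc, a.skew_mem_DK h2 H ok hx hz c hc, add_zero]
  have k2 : ∀ j z c, ad B z = -z → InC (ψ j) c →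
      PhiM (ψ i) M (ψ j z * c) = Phi (ψ j) (ψ j z * c) := fun j z c hz hc => by
    obtain ⟨π, hπ, α, hα, e⟩ := hπ j
    have e1 : ψ j z * c = cj π (ψ i (cj α⁻¹ z) * cj π⁻¹ c) := by
      rw [map_mul, cj_cj_inv, ← cjH_apply, e, cjH_apply, cj_homG, cj_cj_inv]
    rw [e1, PhiM_cj hπ, k1 _ _ (by rw [a.h.ad_cj (inv_mem hα), hz, map_neg]) (by
      rw [← inC_cjH (g := π), cj_cj_inv, e, ← cj_homG_inC α hc]; exact inC_cjH.2 hc), ← Phi_cjH, e,
      Phi_cjH_NE (homG_mem_NE α)]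
  obtain ⟨u, u', p⟩ := a.h.exists_hyp_o h2 hk
  refine a.good_o_of_or h2 H ok hg p.l p.ne_l ?_
  rw [← cj_cj_inv g (ψ i _), inE_cjH, inC_cjH]
  refine a.or_of_skew h2 (φ := cjH g⁻¹ (ψ i)) (hx.imp (fun h => ⟨h.1, fun e => ?_⟩)
    fun h => ⟨h.1.ge, h.2.1⟩) (a.conj (inv_mem hg)).adj p fun z hz => ?_
  · rw [h.2] at e0
    exact h2 (by linear_combination (exp := 1) e0 - e)
  obtain ⟨c, hc, h1⟩ := exists_th_eq_one (ψ := ψ i)
  have e1 : cjH g⁻¹ (ψ i) z = PhiM (ψ i) M (cj g⁻¹ (ψ i z * c)) := by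
    rw [PhiM_cj (inv_mem hg), k1 z c hz hc, Phi_apply, th_map_mul, h1, mul_one, cjH_apply]
  have e2 : ad BV (cjH g⁻¹ (ψ i) z) = -cjH g⁻¹ (ψ i) z := by
    rw [(a.conj (inv_mem hg)).adj, hz, map_neg]
  generalize cj g⁻¹ (ψ i z * c) = X₀ at e1
  generalize cjH g⁻¹ (ψ i) z = X at e1 e2
  let b : τ → Matrix κ κ F := fun j => (2 : F)⁻¹ • (th (ψ j) X₀ - ad B (th (ψ j) X₀))
  have hb' : ∀ j, ad B (b j) = -b j := fun j => by
    simp only [b, a.h.ad_smul, a.h.ad_sub, a.h.ad_ad]; module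
  have e3 : ad BV (X - ∑ j, ψ j (b j)) = -(X - ∑ j, ψ j (b j)) := by
    rw [a.hV.ad_sub, e2, show ad BV _ = _ from a.hV.adj_sum Finset.univ fun j => ψ j (b j), neg_sub,
      ← sub_eq_zero]
    simp only [show ∀ j, adj _ _ (ψ j (b j)) = _ from fun j => (f.amb j).adj _, hb', map_neg,
      Finset.sum_neg_distrib]
    abel
  have e4 : ∀ W, ((X - ∑ j, ψ j (b j)) * (W - ad BV W)).trace = 0 :=
    hs (LinearMap.ker ((Matrix.traceLinearMap ι F F) ∘ₗ LinearMap.mulLeft F (X - ∑ j, ψ j (b j))))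
      fun j z c hz hc => by
        change ((X - ∑ j, ψ j (b j)) * (ψ j z * c)).trace = 0
        rw [sub_mul, trace_sub, e1, trace_PhiM, k2 j z c hz hc, ← trace_Phi, Finset.sum_mul,
          trace_sum, Finset.sum_eq_single j (fun l _ hl => by
            rw [← mul_assoc, f.comm j l (Ne.symm hl), mul_assoc]
            exact trace_map_mul_inC (tr0 hz) ((f.comm j l (Ne.symm hl) _).mul hc)) (by simp),
          ← trace_sub, ← sub_mul, Phi_apply, ← map_sub, ← mul_assoc, ← map_mul]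
        refine trace_map_mul_inC (a.h.trace_sym_skew h2 ?_ hz) hc
        simp only [b, a.h.ad_smul, a.h.ad_sub, a.h.ad_ad]
        match_scalars <;> field_simp <;> ring
  have e5 : X - ∑ j, ψ j (b j) = 0 := Matrix.ext_iff_trace_mul_right.2 fun W => by
    have := e4 W
    rw [mul_sub, trace_sub, ← a.hV.trace_ad (_ * ad BV W), a.hV.ad_mul, a.hV.ad_ad, e3, mul_neg,
      trace_neg, trace_mul_comm W] at this
    rw [zero_mul, trace_zero]
    exact mul_left_cancel₀ h2 (by linear_combination this)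
  rw [sub_eq_zero.1 e5, ← Finset.add_sum_erase _ _ (Finset.mem_univ i)]
  exact ⟨_, _, inC_sum _ fun j hj => f.comm i j (Ne.symm (Finset.ne_of_mem_erase hj)) _, rfl⟩

end Cfsg.Agent.Cl.Max
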