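import Mathlib
import Cfsg.Agent.Cl.TnFinO
import Cfsg.Agent.Cl.TnX2
import Cfsg.Agent.Cl.TnORefl

/-!
# Maximality of the stabilisers of tensor powers with orthogonal factors
-/

set_option autoImplicit false
set_option linter.unusedSectionVars false
set_option linter.unusedVariables false

namespace Cfsg.Agent.Cl.Max

open Matrix Cfsg.Geo Module QuadraticMap

variable {F : Type*} [Field F] [Fintype F] {ι : Type} [Fintype ι] [DecidableEq ι]
  {κ : Type} [Fintype κ] [DecidableEq κ] {τ : Type} [Fintype τ] [DecidableEq τ]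
  {Q : QuadraticForm F (ι → F)} {e : ι ≃ (τ → κ)} {P : GL ι F}

theorem isSc_of_inC_psiS {X : Matrix ι ι F} (h : ∀ i, InC (psiS e P i) X) : IsSc F X := by
  obtain ⟨Y, rfl⟩ := (tr e P).surjective X
  obtain ⟨c, rfl⟩ := scalar_of_commute_slots (M := Y) fun s Z => (tr e P).injective (by
    rw [map_mul, map_mul]; exact h s Z)
  exact ⟨c, by rw [map_smul, map_one]⟩

theorem pureT_sub_update (gs : τ → Matrix κ κ F) (j : τ) (X : Matrix κ κ F) :
    pureT gs - pureT (Function.update gs j X) =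
      slot j (gs j - X) * pureT (Function.update gs j 1) := by
  rw [map_sub, sub_mul, slot_mul_pureT, slot_mul_pureT]
  simp

theorem sub_ad_mem_of_slots {ε : F} {B : LinearMap.BilinForm F (κ → F)} (h : BF B ε)
    {T : Submodule F (Matrix ι ι F)}
    (hT : ∀ j z c, ad B z = -z → InC (psiS e P j) c → psiS e P j z * c ∈ T)
    (gs : τ → Matrix κ κ F) : tr e P (pureT gs) - tr e P (pureT fun i => ad B (gs i)) ∈ T := by
  have key : ∀ S : Finset τ, tr e P (pureT gs) -
      tr e P (pureT fun i => if i ∈ S then ad B (gs i) else gs i) ∈ T := fun S => by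
    induction S using Finset.induction_on with
    | empty => simp
    | insert j S hj ih =>
      have e1 : (fun i => if i ∈ insert j S then ad B (gs i) else gs i) =
          Function.update (fun i => if i ∈ S then ad B (gs i) else gs i) j (ad B (gs j)) := by
        funext i
        by_cases hi : i = j
        · simp [hi]
        · simp [hi]
      rw [e1, ← sub_add_sub_cancel _ (tr e P (pureT fun i => if i ∈ S then ad B (gs i) else gs i)),
        ← map_sub _ _ (pureT (Function.update _ _ _)), pureT_sub_update, map_mul, if_neg hj]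
      refine T.add_mem ih (hT j _ _ (by rw [h.ad_sub, h.ad_ad, neg_sub]) fun Y => ?_)
      rw [psiS_apply, ← map_mul, ← map_mul, slot_mul_pureT, pureT_mul_slot]
      simp
  simpa using key Finset.univ

theorem sub_adj_mem_of_slots {ε εV : F} {B : LinearMap.BilinForm F (κ → F)} (h : BF B ε)
    {f : (ι → F) → (ι → F) → F} (hf : HForm (RingHom.id F) εV f)
    (hT : TStr (RingHom.id F) f (pForm (RingHom.id F) τ fun x y => B x y) e P)
    {T : Submodule F (Matrix ι ι F)}
    (H : ∀ j z c, ad B z = -z → InC (psiS e P j) c → psiS e P j z * c ∈ T) (W : Matrix ι ι F) :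
    W - adj (RingHom.id F) f W ∈ T := by
  obtain ⟨Y, rfl⟩ := (tr e P).surjective W
  rw [hT.adj_tr hf (hform_pForm h), ← map_sub, matrix_eq_sum_single Y,
    (hform_pForm h).adj_sum, ← Finset.sum_sub_distrib, map_sum]
  refine T.sum_mem fun x _ => ?_
  rw [(hform_pForm h).adj_sum, ← Finset.sum_sub_distrib, map_sum]
  refine T.sum_mem fun y _ => ?_
  rw [show single x y (Y x y) = Y x y • single x y (1 : F) by simp, (hform_pForm h).adj_smul,
    RingHom.id_apply, ← smul_sub, map_smul, ← pureT_single, adj_pureT h, map_sub]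
  exact T.smul_mem _ (sub_ad_mem_of_slots h H _)

theorem exists_move_slot (h2 : (2 : F) ≠ 0) (hQ : (polarBilin Q).Nondegenerate) {k t : ℕ}
    (ht : 2 ≤ t) {e : ι ≃ (Fin t → Fin k)} {B : LinearMap.BilinForm F (Fin k → F)} (h : BF B 1)
    (hT : TStr (RingHom.id F) (polar Q) (pForm (RingHom.id F) (Fin t) fun x y => B x y) e P)
    (hk : Fintype.card (Fin k) = 3 ∨ Fintype.card (Fin k) = 4) (i j : Fin t) :
    ∃ π ∈ tensorWreathSubgroup k t e P ⊓ omegaGL Q, ∃ α ∈ isoB B,
      cjH π (psiS e P i) = cjH (homG (psiS e P j) α) (psiS e P j) := by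
  by_cases hj : j = i
  · exact ⟨1, one_mem _, 1, one_mem _, by rw [hj, map_one]⟩
  rcases ht.eq_or_lt with rfl | h3
  · obtain ⟨y, hy⟩ : ∃ y, permS e P (Equiv.swap 0 1) * homG (psiS e P 0) (rf B y) ∈ omegaGL Q := by
      obtain ⟨u, u', p⟩ := h.exists_hyp_o h2 (by omega)
      rcases hk with hx | hx
      · exact (exists_swap_rf_mem_three hQ h2 h hT hx p).imp fun y h => h.2
      · obtain ⟨y, hy⟩ := h.exists_norm h2 p 1
        exact ⟨y, swap_rf_mem_four hQ h2 h hT hx (by rw [hy]; exact one_ne_zero)⟩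
    refine ⟨_, ⟨mul_mem (permS_mem_wreath e P _) (homG_psiS_mem_wreath e P _ _), hy⟩, ?_⟩
    obtain ⟨rfl, rfl⟩ | ⟨rfl, rfl⟩ : (i = 0 ∧ j = 1) ∨ (i = 1 ∧ j = 0) := by omega
    · refine ⟨rf B y, h.rf_iso y, AlgHom.ext fun X => ?_⟩
      rw [cjH_apply, cjH_apply, cj_mul, cj_homG, cj_homG, cj_permS_psiS, Equiv.swap_apply_left]
    · refine ⟨1, one_mem _, AlgHom.ext fun X => ?_⟩
      rw [cjH_apply, cjH_apply, cj_mul, cj_homG_inC _ fun Y => psiS_commute e P (by simp) X Y,
        cj_permS_psiS, Equiv.swap_apply_right, map_one, cj_one]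
  obtain ⟨l, hl, hl'⟩ := exists_ne_ne (τ := Fin t) (by rw [Fintype.card_fin]; omega) i j
  refine ⟨_, ⟨permS_mem_wreath e P (Equiv.swap i l * Equiv.swap i j), permS_mem_omegaGL
    (fun π => hT.permS_mem_isometry h2 π) (by simp [Equiv.Perm.sign_swap, hl.symm, Ne.symm hj])⟩,
    1, one_mem _, AlgHom.ext fun X => ?_⟩
  rw [cjH_apply, cjH_apply, cj_permS_psiS, Equiv.Perm.mul_apply, Equiv.swap_apply_left,
    Equiv.swap_apply_of_ne_of_ne hj hl'.symm, map_one, cj_one]

theorem isMax_wreathO (hodd : Odd (Fintype.card F)) (hQ : (polarBilin Q).Nondegenerate) {k t : ℕ}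
    (ht : 2 ≤ t) {e : ι ≃ (Fin t → Fin k)} {P : GL ι F} {f₁ : (Fin k → F) → (Fin k → F) → F}
    (h₁ : IsSymmetricForm f₁)
    (o₁ : (k = 3 ∧ Fintype.card F ≠ 3) ∨ (k = 4 ∧ ¬ IsPlusTypeOn (fun v => f₁ v v) ⊤) ∨ 5 ≤ k)
    (hT : IsTensorPowerFormStructure id (polar ⇑Q) f₁ e P) :
    IsMaximalIn (omegaGL Q) (tensorWreathSubgroup k t e P ⊓ omegaGL Q) := by
  have h2 := two_ne_zero_of_odd hodd
  have hk : 3 ≤ k := by omega
  have hc : Fintype.card ι = k ^ t := by simpa using Fintype.card_congr e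
  have h5 : 5 ≤ Fintype.card ι := by
    rw [hc]
    exact le_trans (by nlinarith) (Nat.pow_le_pow_right (by omega) ht)
  have : Nonempty ι := Fintype.card_pos_iff.1 (by omega)
  have : Nonempty (Fin k) := ⟨⟨0, by omega⟩⟩
  have g₁ := hform_of_symmetric h₁
  have hT' : TStr (RingHom.id F) (polar Q) (pForm (RingHom.id F) (Fin t) f₁) e P :=
    Mx.tStr_of_power rfl hT
  obtain ⟨B₁, rfl⟩ := g₁.exists_bilin
  have ok := okO_of hodd g₁ o₁
  have hadj := hT'.adj_psiS (hform_polarQ hQ) g₁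
  refine isMaximalIn_inf (Mx.o_not_le_wreath hQ h5 h2 (by omega) ht h₁ hT) fun M h1 h2' h3 => ?_
  have amb : ∀ i, Amb B₁ 1 (polarBilin Q) 1 (psiS e P i) M := fun i =>
    amb_omega_o h2 hQ g₁ (hadj i) (homG_psiS_mem_wreath e P i) h1 h2'
  refine le_wreath_of_good (by omega) ht (Or.inr fun π hπ => h1 ⟨permS_mem_wreath e P π,
    permS_mem_omegaGL (fun π => hT'.permS_mem_isometry h2 π) hπ⟩) fun i g hg => ?_
  have hb : HB B₁ (psiS e P i) M := by
    by_contra hb
    exact h3 (one_wreathO h2 Q hQ ht e P g₁ ok hT' h1 h2' i hb)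
  have q3 := three_le_of_odd hodd
  by_cases hx : (Fintype.card (Fin k) = 3 ∧ Fintype.card F = 5) ∨
      (Fintype.card (Fin k) = 4 ∧ WI1 B₁ ∧ Fintype.card F = 3)
  · have f : Fam B₁ (polarBilin Q) 1 (psiS e P) M :=
      ⟨amb, fun i j hij X Y => (psiS_commute e P hij Y X).symm, fun X => isSc_of_inC_psiS⟩
    refine f.good_x h2 i hb hx
      (fun T hT => sub_adj_mem_of_slots (B := B₁) g₁ (hform_polarQ hQ) hT' hT) (fun j => ?_) hg
    obtain ⟨π, h, h'⟩ := exists_move_slot (B := B₁) h2 hQ ht g₁ hT' (hx.imp And.left And.left) i j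
    exact ⟨π, h1 h, h'⟩
  obtain ⟨c, hc⟩ := id hodd
  refine (amb i).good_o h2 hb ok (fun h => ?_) (fun h => ?_) hg
  · rw [Fintype.card_fin] at h hx
    omega
  · rcases ok with ok | ok | ok
    · omega
    · by_contra h'
      exact hx (Or.inr ⟨h, ok.2, by omega⟩)
    · omega

end Cfsg.Agent.Cl.Max
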