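import Mathlib
import Cfsg.Agent.Cl.USimple
import Cfsg.Agent.Cl.SpForm
import Cfsg.Agent.Cl.OrthCard

/-!
# Restriction of scalars of a Hermitian space

A Hermitian space over `K` (with `q²` elements) is a symplectic and an orthogonal space over the
subfield `F` with `q` elements: `GU_m(q)` embeds in `Sp_{2m}(q)` and in `O^±_{2m}(q)`.
-/

set_option autoImplicit false

namespace Cfsg.Agent.Cl

open Module

variable {F K : Type*} [Field F] [Field K] [Algebra F K] {σ : K →+* K} {V : Type*} [AddCommGroup V]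
  [Module K V] [Module F V] [IsScalarTower F K V] {B : V →ₗ[K] V →ₛₗ[σ] K} {q : ℕ}

variable (F K V) in
/-- Restriction of scalars on linear automorphisms. -/
def uResScalars : (V ≃ₗ[K] V) →* (V ≃ₗ[F] V) where
  toFun g := g.restrictScalars F
  map_one' := rfl
  map_mul' _ _ := rfl

theorem uResScalars_apply (g : V ≃ₗ[K] V) (v : V) : uResScalars F K V g v = g v := rfl

theorem uResScalars_injective : Function.Injective (uResScalars F K V) :=
  fun _ _ e => LinearEquiv.ext fun v => LinearEquiv.congr_fun e v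

theorem UInvol.exists_traceMap (h : UInvol σ)
    (hι : ∀ a : K, (∃ k, algebraMap F K k = a) ↔ σ a = a) :
    ∃ tr : K →ₗ[F] F, ∀ x, algebraMap F K (tr x) = x + σ x := by
  choose tr htr using fun x : K => (hι (x + σ x)).2 (h.trace_fixed x)
  have hf : ∀ c : F, σ (algebraMap F K c) = algebraMap F K c := fun c => (hι _).1 ⟨c, rfl⟩
  refine ⟨⟨⟨tr, fun x y => (algebraMap F K).injective ?_⟩,
    fun c x => (algebraMap F K).injective ?_⟩, htr⟩
  · rw [map_add, htr, htr, htr, map_add]; ring
  · simp only [RingHom.id_apply, smul_eq_mul, map_mul, htr, Algebra.smul_def, hf]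
    simp [mul_add]

theorem UField.finrank_eq_two (h : UField σ q) [Finite F] (hF : Nat.card F = q) :
    finrank F K = 2 := by
  have := h.finite
  have h1 := Module.natCard_eq_pow_finrank (K := F) (V := K)
  rw [h.card, hF] at h1
  exact (Nat.pow_right_injective h.two_le h1).symm

theorem UField.finrank_res (h : UField σ q) [Finite F] (hF : Nat.card F = q) :
    finrank F V = 2 * finrank K V := by
  rw [← Module.finrank_mul_finrank F K V, h.finrank_eq_two hF]

/-- The bilinear forms `tr (t * B u v)` over the subfield. -/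
theorem IsHerm.exists_traceForm (hB : IsHerm B)
    (hι : ∀ a : K, (∃ k, algebraMap F K k = a) ↔ σ a = a) (t : K) :
    ∃ β : LinearMap.BilinForm F V,
      ∀ u v, algebraMap F K (β u v) = t * B u v + σ t * B v u := by
  obtain ⟨tr, htr⟩ := hB.toUInvol.exists_traceMap hι
  have hf : ∀ c : F, σ (algebraMap F K c) = algebraMap F K c := fun c => (hι _).1 ⟨c, rfl⟩
  refine ⟨LinearMap.mk₂ F (fun u v => tr (t * B u v)) (fun u u' v => by simp [mul_add])
    (fun c u v => ?_) (fun u v v' => by simp [mul_add]) (fun c u v => ?_), fun u v => ?_⟩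
  · rw [← map_smul, ← algebraMap_smul K c u, map_smul, LinearMap.smul_apply, smul_eq_mul,
      Algebra.smul_def, mul_left_comm]
  · rw [← map_smul, ← algebraMap_smul K c v, map_smulₛₗ, smul_eq_mul, hf, Algebra.smul_def,
      mul_left_comm]
  · rw [LinearMap.mk₂_apply, htr, map_mul, hB.symm]

theorem IsHerm.eq_zero_of_trace (hB : IsHerm B) {t : K} (ht : t ≠ 0) {u : V}
    (H : ∀ v, t * B u v + σ t * B v u = 0) : u = 0 := by
  by_contra hu
  obtain ⟨y, hy⟩ := hB.exists_ne_zero hu
  obtain ⟨s, hs⟩ := hB.exists_trace_one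
  have := H (σ (s / (t * B u y)) • y)
  have hy' : B y u ≠ 0 := fun e => hy (hB.eq_zero_symm e)
  have ht' : σ t ≠ 0 := (map_ne_zero σ).2 ht
  simp only [map_smulₛₗ, hB.invol, smul_eq_mul, LinearMap.smul_apply, map_div₀, map_mul,
    hB.symm, RingHom.id_apply] at this
  field_simp at this
  simp [hs] at this

/-- The symplectic form of a Hermitian space. -/
theorem IsHerm.exists_symplectic (hB : IsHerm B)
    (hι : ∀ a : K, (∃ k, algebraMap F K k = a) ↔ σ a = a) {θ : K} (hθ : θ ≠ 0) (hθ' : σ θ = -θ) :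
    ∃ β : LinearMap.BilinForm F V, β.IsAlt ∧ β.Nondegenerate ∧
      ∀ u v, algebraMap F K (β u v) = θ * (B u v - B v u) := by
  obtain ⟨β, hβ⟩ := hB.exists_traceForm hι θ
  have hA : β.IsAlt := fun v => (algebraMap F K).injective (by rw [hβ, hθ', map_zero]; ring)
  refine ⟨β, hA, hA.isRefl.nondegenerate_iff_separatingLeft.2 fun u hu => ?_,
    fun u v => by rw [hβ, hθ']; ring⟩
  exact hB.eq_zero_of_trace hθ fun v => by rw [← hβ, hu v, map_zero]

/-- The quadratic form `B v v` of a Hermitian space. -/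
theorem IsHerm.exists_quadratic (hB : IsHerm B)
    (hι : ∀ a : K, (∃ k, algebraMap F K k = a) ↔ σ a = a) :
    ∃ Q : QuadraticForm F V, Q.polarBilin.Nondegenerate ∧ (∀ v, algebraMap F K (Q v) = B v v) ∧
      ∀ u v, algebraMap F K (QuadraticMap.polar Q u v) = B u v + B v u := by
  obtain ⟨t, ht⟩ := hB.exists_trace_one
  obtain ⟨β, hβ⟩ := hB.exists_traceForm hι t
  have hQ : ∀ v, algebraMap F K (β.toQuadraticMap v) = B v v := fun v => by
    rw [LinearMap.BilinMap.toQuadraticMap_apply, hβ, ← add_mul, ht, one_mul]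
  have hP : ∀ u v, algebraMap F K (QuadraticMap.polar β.toQuadraticMap u v) = B u v + B v u :=
    fun u v => by
      simp only [QuadraticMap.polar, map_sub, hQ, map_add, LinearMap.add_apply]
      ring
  refine ⟨β.toQuadraticMap, (quad_nondeg_iff _).2 fun u hu => ?_, hQ, hP⟩
  exact hB.eq_zero_of_trace one_ne_zero fun v => by
    rw [map_one, one_mul, one_mul, ← hP, hu v, map_zero]

variable [FiniteDimensional K V] [Finite F]

theorem IsHerm.exists_equiv_symplectic (hB : IsHerm B) (hq : UField σ q) (hF : Nat.card F = q)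
    (hι : ∀ a : K, (∃ k, algebraMap F K k = a) ↔ σ a = a) {θ : K} (hθ : θ ≠ 0) (hθ' : σ θ = -θ)
    {m : ℕ} (hm : finrank K V = m) : ∃ e : V ≃ₗ[F] (Fin m ⊕ Fin m → F),
      ∀ u v, algebraMap F K (sympForm m F (e u) (e v)) = θ * (B u v - B v u) := by
  have := hq.finite
  have : Finite V := Module.finite_of_finite K
  obtain ⟨β, h1, h2, h3⟩ := hB.exists_symplectic hι hθ hθ'
  obtain ⟨e, he⟩ := sp_exists_equiv h2 h1 (m := m) (by rw [hq.finrank_res hF, hm])
  exact ⟨e, fun u v => by rw [← spB_apply, he, h3]⟩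

theorem IsHerm.exists_equiv_plus (hB : IsHerm B) (hq : UField σ q) (hF : Nat.card F = q)
    (hι : ∀ a : K, (∃ k, algebraMap F K k = a) ↔ σ a = a) {m : ℕ} (hm : finrank K V = m)
    (hm' : Even m) : ∃ e : V ≃ₗ[F] (Fin m ⊕ Fin m → F),
      ∀ v, algebraMap F K (quadFormPlus m F (e v)) = B v v := by
  have := hq.finite
  have : Finite V := Module.finite_of_finite K
  obtain ⟨Q, h1, h2, -⟩ := hB.exists_quadratic hι
  obtain ⟨k, rfl⟩ := hm'
  obtain ⟨W, hW, hW'⟩ := hB.exists_isotropic_subspace hq k (by omega)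
  obtain ⟨e, he⟩ := quad_equiv_plus_of_singular h1 (m := k + k) (by rw [hq.finrank_res hF, hm])
    (U := W.restrictScalars F) (fun u hu => (algebraMap F K).injective (by
      rw [h2, map_zero]; exact hW' hu u hu))
    (by
      change finrank F W = _
      rw [hq.finrank_res hF, hW, two_mul])
  exact ⟨e, fun v => by rw [he, h2]⟩

theorem IsHerm.exists_equiv_minus (hB : IsHerm B) (hq : UField σ q) (hF : Nat.card F = q)
    (hι : ∀ a : K, (∃ k, algebraMap F K k = a) ↔ σ a = a) {m : ℕ} (hm : finrank K V = m)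
    (hm' : Odd m) {a b : F} (hab : ∀ t : F, t ^ 2 + a * t + b ≠ 0) :
    ∃ e : V ≃ₗ[F] ((Fin (m - 1) ⊕ Fin (m - 1)) ⊕ Fin 2 → F),
      ∀ v, algebraMap F K (quadFormMinus (m - 1) F a b (e v)) = B v v := by
  have := hq.finite
  have : Finite V := Module.finite_of_finite K
  obtain ⟨Q, h1, h2, -⟩ := hB.exists_quadratic hι
  rcases quad_classify_even h1 (m := m) (by rw [hq.finrank_res hF, hm]) with ⟨e, he⟩ | ⟨-, h⟩
  · exfalso
    obtain ⟨k, rfl⟩ : ∃ k, m = k + 1 := ⟨m - 1, by have := hm'.pos; omega⟩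
    have h3 := ozeros_plus (F := F) k
    have h4 := hB.card_norm_zero hq hm
    have h5 : ozeros (quad_plus (k + 1) F) = Nat.card {v : V // B v v = 0} :=
      (Nat.card_congr (e.toEquiv.subtypeEquiv fun v => by
        rw [← h2, map_eq_zero]
        exact (he v).symm ▸ Iff.rfl)).symm
    rw [h5, h4, hF, uIsoNum, if_neg (Nat.not_even_iff_odd.2 hm'), Nat.add_sub_cancel] at h3
    have h6 : 1 ≤ q ^ k := Nat.one_le_pow _ _ (by have := hq.two_le; omega)
    have h7 := hq.two_le
    zify [h6] at h3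
    have h8 : (q : ℤ) ^ (2 * k + 1) = q ^ (k + 1) * q ^ k := by ring
    have h9 : (0 : ℤ) < q ^ k := by positivity
    rw [h8, pow_succ] at h3
    nlinarith
  · obtain ⟨e, he⟩ := h a b hab
    exact ⟨e, fun v => by rw [he, h2]⟩

omit [FiniteDimensional K V] [Finite F] in
/-- Transport of the unitary group into the isometry group of a form over the subfield. -/
theorem u_exists_hom_isom {W X : Type*} [AddCommGroup W] [Module F W] (e : V ≃ₗ[F] W)
    (f : W → W → X) (hf : ∀ u v u' v', B u' v' = B u v → B v' u' = B v u → B u' u' = B u u →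
      f (e u') (e v') = f (e u) (e v)) :
    ∃ φ : UG B →* isom F f, Function.Injective φ ∧
      ∀ (g : UG B) (v : V), (φ g : W ≃ₗ[F] W) (e v) = e (g.1 v) := by
  refine ⟨(((autCongr e).toMonoidHom.comp (uResScalars F K V)).comp (UG B).subtype).codRestrict _
    fun g u v => ?_, fun a b h => ?_, fun g v => autCongr_apply_apply e _ v⟩
  · obtain ⟨u, rfl⟩ := e.surjective u
    obtain ⟨v, rfl⟩ := e.surjective v
    change f (autCongr e _ (e u)) (autCongr e _ (e v)) = _
    rw [autCongr_apply_apply, autCongr_apply_apply]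
    exact hf _ _ _ _ (g.2 u v) (g.2 v u) (g.2 u u)
  · exact Subtype.ext (uResScalars_injective ((autCongr e).injective (congrArg Subtype.val h)))

end Cfsg.Agent.Cl
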